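import Cfsg.Statements.S0298
import Cfsg.Agent.Lib.Lin.LowIso
import Cfsg.Agent.Lib.Lin.SL2Basic

set_option autoImplicit false
open Cfsg

namespace Cfsg.Agent.S0298

open CA.CForm CA.CForm.Form CA.LowIso Matrix Module

def S (F : Type*) [Field F] : (Unit ⊕ (Fin 1 ⊕ Fin 1) → F) →ₗ[F] Matrix (Fin 2) (Fin 2) F where
  toFun v := !![v (.inl ()), v (.inr (.inl 0)); v (.inr (.inr 0)), -v (.inl ())]
  map_add' u v := by ext i j; fin_cases i <;> fin_cases j <;> simp [add_comm]
  map_smul' c v := by ext i j; fin_cases i <;> fin_cases j <;> simp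

theorem exists_S {F : Type*} [Field F] (X : Matrix (Fin 2) (Fin 2) F) (h : X.trace = 0) : ∃ w, S F w = X :=
  ⟨Sum.elim (fun _ => X 0 0) (Sum.elim (fun _ => X 0 1) fun _ => X 1 0), by
    rw [trace_fin_two] at h
    ext i j; fin_cases i <;> fin_cases j <;> simp [S]; linear_combination -h⟩

theorem det_S {F : Type*} [Field F] (v) : (S F v).det = -(oddForm F 1).Q v := by
  simp [S, oddForm_Q, quadFormOdd, det_fin_two]; ring

theorem hconj {F : Type*} [Field F] (g g' : Matrix (Fin 2) (Fin 2) F) (h : g' * g = 1) (v) :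
    ∃ w, S F w = g * S F v * g' ∧ (oddForm F 1).Q w = (oddForm F 1).Q v := by
  obtain ⟨w, hw⟩ := exists_S (g * S F v * g') (by rw [trace_mul_cycle, h]; simp [S, trace_fin_two])
  refine ⟨w, hw, neg_injective ?_⟩
  rw [← det_S, ← det_S, hw, det_mul, det_mul, mul_right_comm, mul_comm g.det, ← det_mul, h, det_one, one_mul]

theorem S_inj {F : Type*} [Field F] : Function.Injective (S F) := fun u v h => by
  ext (i | i | i)
  exacts [congrFun₂ h 0 0, Subsingleton.elim i 0 ▸ congrFun₂ h 0 1, Subsingleton.elim i 0 ▸ congrFun₂ h 1 0]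

theorem scalar_of {F : Type*} [Field F] {g : Matrix (Fin 2) (Fin 2) F} (h : ∀ v, g * S F v = S F v * g) :
    g 0 1 = 0 ∧ g 1 0 = 0 ∧ g 0 0 = g 1 1 := by
  have h1 := h (Sum.elim 0 (Sum.elim 1 0))
  have h2 := h (Sum.elim 0 (Sum.elim 0 1))
  exact ⟨by simpa [S, Matrix.mul_apply, vecMul, dotProduct] using congrFun₂ h2 0 0,
    by simpa [S, Matrix.mul_apply, vecMul, dotProduct] using (congrFun₂ h1 0 0).symm,
    by simpa [S, Matrix.mul_apply, vecMul, dotProduct] using congrFun₂ h1 0 1⟩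

/-- PΩ_3(q) is isomorphic to PSL_2(q) for q odd. -/
theorem result {F : Type*} [Field F] [Fintype F] (hodd : Odd (Fintype.card F)) : Nonempty (Cfsg.POmega F (Cfsg.quadFormOdd 1 F) ≃* Matrix.ProjectiveSpecialLinearGroup (Fin 2) F) := by
  have h2 : (2 : F) ≠ 0 := two_ne_zero_iff_odd.2 hodd
  have h3 : 3 ≤ Nat.card F := by
    have := Fintype.one_lt_card (α := F)
    obtain ⟨k, hk⟩ := hodd
    rw [Nat.card_eq_fintype_card]; omega
  obtain ⟨e⟩ := omega_iso (G := SpecialLinearGroup (Fin 2) F) (oddForm_nondeg h2 1)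
    (good_of_two_ne_zero _ h2) (by simp) (no2_SL (.inr h3))
    (by rw [(oddForm_nondeg h2 1).card_isom_odd (finrank_odd 1), CA.SLnCard.card_SL2]; simp [mul_assoc])
    (S F) S_inj (fun g => g.1) (fun g => (g⁻¹).1) rfl (by simp) (fun _ _ => rfl)
    (fun _ _ => by rw [_root_.mul_inv_rev]; rfl)
    (fun g => hconj _ _ (congrArg Subtype.val (inv_mul_cancel g)))
    neg_one_mem_center neg_one_eq fun g h => (CA.SL2Basic.mem_center_iff g).1 (by
      obtain ⟨h1, h2, h3⟩ := scalar_of (g := g.1) fun v => by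
        conv_rhs => rw [← h v, Matrix.mul_assoc,
          show (g⁻¹).1 * g.1 = 1 from congrArg Subtype.val (inv_mul_cancel g), Matrix.mul_one]
      refine Subgroup.mem_center_iff.2 fun x => Subtype.ext ?_
      ext i j; fin_cases i <;> fin_cases j <;> simp [Matrix.mul_apply, h1, h2, h3, mul_comm])
  exact ⟨(pOmegaEquiv (oddForm F 1)).trans e⟩

end Cfsg.Agent.S0298
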