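import Cfsg.Statements.S0300
import Cfsg.Agent.Lib.Lin.LowIso
import Cfsg.Agent.Lib.Lin.SL2Basic
import Cfsg.Agent.Lib.Lin.SmallF

set_option autoImplicit false
open Cfsg

namespace Cfsg.Agent.S0300

open CA.CForm CA.CForm.Form CA.LowIso Matrix Module

section
variable {F : Type*} [Field F] (a b : F)

def S : ((Fin 1 ⊕ Fin 1) ⊕ Fin 2 → F) →ₗ[F] Matrix (Fin 2) (Fin 2) (QuadraticAlgebra F (-b) a) where
  toFun v := !![⟨v (.inl (.inl 0)), 0⟩, ⟨v (.inr 0), v (.inr 1)⟩;
    star ⟨v (.inr 0), v (.inr 1)⟩, ⟨-v (.inl (.inr 0)), 0⟩]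
  map_add' u v := by ext i j <;> fin_cases i <;> fin_cases j <;> simp <;> ring
  map_smul' c v := by ext i j <;> fin_cases i <;> fin_cases j <;> simp [mul_add, mul_left_comm]

theorem S_herm (v) : (S a b v)ᴴ = S a b v := by
  ext i j <;> fin_cases i <;> fin_cases j <;> simp [S]

theorem det_S (v) : (S a b v).det = ⟨-(minusForm 1 a b).Q v, 0⟩ := by
  ext <;> simp [S, det_fin_two, minusForm_Q, quadFormMinus] <;> ring

theorem S_inj : Function.Injective (S a b) := fun u v h => by
  ext ((i | i) | i) <;> fin_cases i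
  exacts [congrArg (·.re) (congrFun₂ h 0 0), neg_injective (congrArg (·.re) (congrFun₂ h 1 1)),
    congrArg (·.re) (congrFun₂ h 0 1), congrArg (·.im) (congrFun₂ h 0 1)]

variable {a b}

theorem im_eq (h : a ^ 2 - 4 * b ≠ 0) {z : QuadraticAlgebra F (-b) a} (hz : star z = z) : z.im = 0 := by
  have h1 := congrArg (·.re) hz
  have h2 := congrArg (·.im) hz
  simp only [QuadraticAlgebra.re_star, QuadraticAlgebra.im_star] at h1 h2
  exact (mul_eq_zero.1 (show (a ^ 2 - 4 * b) * z.im = 0 by linear_combination a * h1 + 2 * b * h2)).resolve_left h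

theorem exists_S (h : a ^ 2 - 4 * b ≠ 0) (X : Matrix (Fin 2) (Fin 2) (QuadraticAlgebra F (-b) a)) (hX : Xᴴ = X) :
    ∃ w, S a b w = X := by
  refine ⟨Sum.elim (Sum.elim (fun _ => (X 0 0).re) fun _ => -(X 1 1).re) ![(X 0 1).re, (X 0 1).im], ?_⟩
  have h0 : (X 0 0).im = 0 := im_eq h (congrFun₂ hX 0 0)
  have h1 : (X 1 1).im = 0 := im_eq h (congrFun₂ hX 1 1)
  have h2 : X 1 0 = star (X 0 1) := (congrFun₂ hX 1 0).symm
  ext i j <;> fin_cases i <;> fin_cases j <;> simp [S, h0, h1, h2]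

end

/-- PΩ^-_4(q) is isomorphic to PSL_2(q^2). -/
theorem result {F K : Type*} [Field F] [Fintype F] [Field K] [Fintype K] {q : ℕ} (hF : Fintype.card F = q) (hK : Fintype.card K = q ^ 2) (a b : F) (hab : ∀ z₁ z₂ : F, z₁ ^ 2 + a * z₁ * z₂ + b * z₂ ^ 2 = 0 → z₁ = 0 ∧ z₂ = 0) : Nonempty (Cfsg.POmega F (Cfsg.quadFormMinus 1 F a b) ≃* Matrix.ProjectiveSpecialLinearGroup (Fin 2) K) := by
  have hd := disc_ne_zero_of_anisotropic hab
  have : Fact (∀ r : F, r ^ 2 ≠ -b + a * r) := ⟨fun r hr =>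
    aniso_iff.1 hab (-r) (by linear_combination hr)⟩
  let L := QuadraticAlgebra F (-b) a
  have hL : Nat.card L = Nat.card F ^ 2 := by
    rw [Nat.card_congr (QuadraticAlgebra.equivProd (-b) a), Nat.card_prod, sq]
  have h2 := CA.SLnCard.two_le_card F
  obtain ⟨e⟩ := omega_iso (G := SpecialLinearGroup (Fin 2) L) (minusForm_nondeg 1 hab)
    (.inr (.inr fun h => by simpa using h.unique (minusForm_isIndex 1 hab))) (by simp)
    (no2_SL (.inr (by rw [hL]; nlinarith)))
    (by rw [(minusForm_isIndex 1 hab).card_isom_minus (minusForm_nondeg 1 hab) (finrank_minus _),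
          CA.SLnCard.card_SL2, hL, CA.SLnCard.sq_sub_one (_ ^ 2)]; simp [mul_assoc])
    (S a b) (S_inj a b) (fun g => g.1) (fun g => g.1ᴴ) rfl conjTranspose_one (fun _ _ => rfl)
    (fun _ _ => conjTranspose_mul _ _)
    (fun g v => (exists_S hd _ (by simp [S_herm, Matrix.mul_assoc])).imp fun w hw => ⟨hw, by
      have := congrArg det hw
      rw [det_mul, det_mul, det_conjTranspose, g.2, star_one, one_mul, mul_one, det_S, det_S] at this
      exact neg_injective (congrArg (·.re) this)⟩)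
    neg_one_mem_center (fun h => neg_one_eq (by rw [← map_ofNat (algebraMap F L), h, map_zero])) fun g h => (CA.SL2Basic.mem_center_iff g).1 (by
      replace h : ∀ X, Xᴴ = X → g.1 * X * g.1ᴴ = X := fun X hX => by
        obtain ⟨v, rfl⟩ := exists_S hd X hX; exact h v
      have h1 : g.1ᴴ * g.1 = 1 := mul_eq_one_comm.1 (by simpa using h 1 (by simp))
      have h2 : ∀ X, Xᴴ = X → g.1 * X = X * g.1 := fun X hX => by
        conv_rhs => rw [← h X hX, Matrix.mul_assoc, h1, Matrix.mul_one]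
      have h3 := h2 !![1, 0; 0, 0] (by ext1 i j; fin_cases i <;> fin_cases j <;> first | exact star_one _ | exact star_zero _)
      have h4 := h2 !![0, 1; 1, 0] (by ext1 i j; fin_cases i <;> fin_cases j <;> first | exact star_one _ | exact star_zero _)
      have h5 : g.1 0 1 = 0 := by simpa [Matrix.mul_apply, vecMul, dotProduct] using (congrFun₂ h3 0 1).symm
      have h6 : g.1 1 0 = 0 := by simpa [Matrix.mul_apply, vecMul, dotProduct] using congrFun₂ h3 1 0
      have h7 : g.1 0 0 = g.1 1 1 := by simpa [Matrix.mul_apply, vecMul, dotProduct] using congrFun₂ h4 0 1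
      refine Subgroup.mem_center_iff.2 fun x => Subtype.ext ?_
      ext1 i j; fin_cases i <;> fin_cases j <;> simp [Matrix.mul_apply, h5, h6, h7, mul_comm])
  obtain ⟨i⟩ := CA.FieldIso.nonempty_ringEquiv (F := L) (K := K) 
    (by rw [hL, Nat.card_eq_fintype_card, Nat.card_eq_fintype_card, hF, hK])
  exact ⟨((pOmegaEquiv (minusForm 1 a b)).trans e).trans (CA.FieldIso.pslEquiv i)⟩

end Cfsg.Agent.S0300
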