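import Cfsg.Statements.S0301
import Cfsg.Agent.Lib.Lin.LowIso

set_option autoImplicit false
open Cfsg

namespace Cfsg.Agent.S0301

open CA.CForm CA.CForm.Form CA.LowIso Matrix Module

section
variable {F : Type*} [Field F]

variable (F) in
def S : (Unit ⊕ (Fin 2 ⊕ Fin 2) → F) →ₗ[F] Matrix (Fin 4) (Fin 4) F where
  toFun v := alt (v (.inr (.inl 0))) (v (.inl ())) (v (.inr (.inl 1))) (v (.inr (.inr 1))) (-v (.inl ()))
    (v (.inr (.inr 0)))
  map_add' u v := by ext i j; fin_cases i <;> fin_cases j <;> simp [alt, add_comm]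
  map_smul' c v := by ext i j; fin_cases i <;> fin_cases j <;> simp [alt]

def L (g : symplecticGroup (Fin 2) F) : Matrix (Fin 4) (Fin 4) F :=
  reindexAlgEquiv F F (finSumFinEquiv (m := 2) (n := 2)) g.1

theorem J_eq : reindexAlgEquiv F F (finSumFinEquiv (m := 2) (n := 2)) (J (Fin 2) F) = alt 0 (-1) 0 0 (-1) 0 := by
  ext i j; fin_cases i <;> fin_cases j <;> simp [alt] <;> first | rfl | exact neg_zero

theorem L_J (g : symplecticGroup (Fin 2) F) : L g * alt 0 (-1) 0 0 (-1) 0 * (L g)ᵀ = alt 0 (-1) 0 0 (-1) 0 := by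
  rw [← J_eq]
  conv_rhs => rw [← SymplecticGroup.mem_iff.1 g.2, map_mul, map_mul]
  rfl

theorem L_J' (g : symplecticGroup (Fin 2) F) : (L g)ᵀ * alt 0 (-1) 0 0 (-1) 0 * L g = alt 0 (-1) 0 0 (-1) 0 := by
  rw [← J_eq]
  conv_rhs => rw [← SymplecticGroup.mem_iff'.1 g.2, map_mul, map_mul]
  rfl

theorem det_L (g : symplecticGroup (Fin 2) F) : (L g).det = 1 := by
  obtain ⟨a, b, c, d, e, f, h1, h2, -⟩ := alt_conj (L g) 0 (-1) 0 0 (-1) 0
  obtain ⟨rfl, rfl, rfl, rfl, rfl, rfl⟩ := alt_inj (h1.trans (L_J g))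
  simpa using h2.symm

theorem tr_alt (a b c d e f : F) : (alt 0 (-1) 0 0 (-1) 0 * alt a b c d e f).trace = 2 * (b + e) := by
  simp [alt, trace, Fin.sum_univ_four]; ring

end

/-- PΩ_5(q) is isomorphic to PSp_4(q) for q odd. -/
theorem result {F : Type*} [Field F] [Fintype F] (hodd : Odd (Fintype.card F)) : Nonempty (Cfsg.POmega F (Cfsg.quadFormOdd 2 F) ≃* Cfsg.PSp 2 F) := by
  have h2 : (2 : F) ≠ 0 := two_ne_zero_iff_odd.2 hodd
  have h3 : 3 ≤ Fintype.card F := by
    have := Fintype.one_lt_card (α := F)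
    obtain ⟨k, hk⟩ := hodd
    omega
  obtain ⟨e⟩ := omega_iso (G := symplecticGroup (Fin 2) F) (oddForm_nondeg h2 2)
    (good_of_two_ne_zero _ h2) (by simp) (no2_of_perfect (commutator_eq_top_congr (spEquiv F 2)
      ((sympStd_nondeg F 2).symp_perfect' (finrank_plus 2) (.inr (.inl ⟨rfl, h3⟩)))))
    (by rw [(oddForm_nondeg h2 2).card_isom_odd (finrank_odd 2), Nat.card_congr (spEquiv F 2).toEquiv,
      Nondeg.card_isom_symp 2 (sympStd_nondeg F 2) (finrank_plus 2), mul_assoc])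
    (S F) (fun u v h => by
      obtain ⟨h1, h2, h3, h4, h5, h6⟩ := alt_inj h
      ext (i | i | i) <;> fin_cases i <;> simp_all)
    L (fun g => (L g)ᵀ) (map_one _) (by simp [L]) (fun _ _ => map_mul _ _ _)
    (fun _ _ => (congrArg _ (map_mul _ _ _)).trans (transpose_mul _ _))
    (fun g v => by
      obtain ⟨a, b, c, d, e, f, h1, h4, -⟩ := alt_conj (L g) (v (.inr (.inl 0))) (v (.inl ())) (v (.inr (.inl 1)))
        (v (.inr (.inr 1))) (-v (.inl ())) (v (.inr (.inr 0)))
      have h5 := tr_alt a b c d e f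
      rw [h1, ← Matrix.mul_assoc, trace_mul_comm, ← Matrix.mul_assoc, ← Matrix.mul_assoc, L_J', tr_alt,
        add_neg_cancel, mul_zero, zero_eq_mul, or_iff_right h2, add_eq_zero_iff_neg_eq] at h5
      subst h5
      refine ⟨Sum.elim (fun _ => b) (Sum.elim ![a, c] ![f, d]), by simpa [S] using h1, ?_⟩
      simp only [oddForm_Q, quadFormOdd, Fin.sum_univ_two]
      simp; rw [det_L] at h4; linear_combination h4)
    (z := ⟨-1, SymplecticGroup.neg_mem (one_mem _)⟩) (Subgroup.mem_center_iff.2 fun g => Subtype.ext (by simp))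
    (fun h => absurd h h2) fun g h => (alt_ker (g := L g) fun a b c d e f => by
      have : alt a b c d e f = S F (Sum.elim (fun _ => (b - e) / 2) (Sum.elim ![a, c] ![f, d])) -
          ((b + e) / 2) • alt 0 (-1) 0 0 (-1) 0 := by
        ext i j; fin_cases i <;> fin_cases j <;> simp [alt, S] <;> field_simp <;> ring
      rw [this, Matrix.mul_sub, Matrix.sub_mul, h, Matrix.mul_smul, Matrix.smul_mul, L_J]).imp
        (fun h => Subtype.ext ((reindexAlgEquiv F F _).injective (h.trans (map_one _).symm)))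
        fun h => Subtype.ext ((reindexAlgEquiv F F _).injective (h.trans (by rw [map_neg, map_one])))
  exact ⟨(pOmegaEquiv (oddForm F 2)).trans e⟩

end Cfsg.Agent.S0301
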