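import Cfsg.Statements.S0306
import Cfsg.Agent.Lib.Lin.CFormOBr

set_option autoImplicit false
open Cfsg

namespace Cfsg.Agent.S0306

open CA.CForm CA.CForm.Form in
/-- GO^-_2(q) is dihedral of order 2(q+1). -/
theorem result {F : Type*} [Field F] [Fintype F] {q : ℕ} (hF : Fintype.card F = q) (a b : F) (hab : ∀ z₁ z₂ : F, z₁ ^ 2 + a * z₁ * z₂ + b * z₂ ^ 2 = 0 → z₁ = 0 ∧ z₂ = 0) : Nonempty (Cfsg.isometryGroup F (Cfsg.quadFormMinus 0 F a b) ≃* DihedralGroup (q + 1)) := by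
  obtain ⟨e⟩ := ((minusForm_nondeg 0 hab).dihedral_of_aniso_two (finrank_minus 0)
    (isIndex_zero_iff.1 (minusForm_isIndex 0 hab))).2
  rw [Nat.card_eq_fintype_card, hF] at e
  exact ⟨(orthEquiv (minusForm 0 a b)).trans e⟩

end Cfsg.Agent.S0306
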