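import Cfsg.Statements.S0250
import Cfsg.Agent.Lib.Lin.SnPres
import Cfsg.Agent.Lib.Lin.SL2Basic

set_option autoImplicit false
open Cfsg

namespace Cfsg.Agent.S0250

/-- SL_2(2) is isomorphic to S_3. -/
theorem result {F : Type*} [Field F] [Fintype F] (hF : Fintype.card F = 2) : Nonempty (Matrix.SpecialLinearGroup (Fin 2) F ≃* Equiv.Perm (Fin 3)) := by
  have hF' : Nat.card F = 2 := by rw [Nat.card_eq_fintype_card, hF]
  have hc : Nat.card (Projectivization F (Fin 2 → F)) = 3 := by
    rw [Projectivization.card_of_finrank_two F _ (by simp), hF']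
  have hk : (MulAction.toPermHom (Matrix.SpecialLinearGroup (Fin 2) F)
      (Projectivization F (Fin 2 → F))).ker = ⊥ := by
    rw [Projectivization.SL_mulAction_ker, ← Subgroup.card_eq_one, CA.SLnCard.card_center_SL, hF']
    rfl
  obtain ⟨g⟩ := CA.SnPres.nonempty_equiv_of_injective _ ((MonoidHom.ker_eq_bot_iff _).1 hk) (by
    rw [Nat.card_perm, hc, CA.SLnCard.card_SL2, hF']; rfl)
  exact ⟨g.trans (Finite.equivFinOfCardEq hc).permCongrHom⟩

end Cfsg.Agent.S0250
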