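import Cfsg.Statements.S0299
import Cfsg.Agent.Lib.Lin.LowIso
import Cfsg.Agent.Lib.Lin.SL2Basic

set_option autoImplicit false
open Cfsg

namespace Cfsg.Agent.S0299

open CA.CForm CA.CForm.Form CA.LowIso Matrix Module

def S (F : Type*) [Field F] : (Fin 2 ⊕ Fin 2 → F) →ₗ[F] Matrix (Fin 2) (Fin 2) F where
  toFun v := !![v (.inl 0), v (.inl 1); -v (.inr 1), v (.inr 0)]
  map_add' u v := by ext i j; fin_cases i <;> fin_cases j <;> simp [add_comm]
  map_smul' c v := by ext i j; fin_cases i <;> fin_cases j <;> simp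

theorem exists_S {F : Type*} [Field F] (X : Matrix (Fin 2) (Fin 2) F) : ∃ w, S F w = X :=
  ⟨Sum.elim ![X 0 0, X 0 1] ![X 1 1, -X 1 0], by ext i j; fin_cases i <;> fin_cases j <;> simp [S]⟩

theorem det_S {F : Type*} [Field F] (v) : (S F v).det = (plusForm F 2).Q v := by
  simp [S, plusForm_Q_apply, det_fin_two]

theorem S_inj {F : Type*} [Field F] : Function.Injective (S F) := fun u v h => by
  ext (i | i) <;> fin_cases i
  exacts [congrFun₂ h 0 0, congrFun₂ h 0 1, congrFun₂ h 1 1, neg_injective (congrFun₂ h 1 0)]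

theorem quot_prod (G H : Type*) [Group G] [Group H] : Nonempty ((G × H) ⧸ Subgroup.center (G × H) ≃*
    (G ⧸ Subgroup.center G) × (H ⧸ Subgroup.center H)) := by
  let φ := (QuotientGroup.mk' (Subgroup.center G)).prodMap (QuotientGroup.mk' (Subgroup.center H))
  have : Subgroup.center (G × H) = φ.ker := by
    rw [MonoidHom.ker_prodMap, QuotientGroup.ker_mk', QuotientGroup.ker_mk', Subgroup.center_prod]
  exact ⟨(QuotientGroup.quotientMulEquivOfEq this).trans (QuotientGroup.quotientKerEquivOfSurjective φ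
    ((QuotientGroup.mk'_surjective _).prodMap (QuotientGroup.mk'_surjective _)))⟩

/-- PΩ^+_4(q) is isomorphic to PSL_2(q) x PSL_2(q) for q at least 3. -/
theorem result {F : Type*} [Field F] [Fintype F] (hF : 3 ≤ Fintype.card F) : Nonempty (Cfsg.POmega F (Cfsg.quadFormPlus 2 F) ≃* Matrix.ProjectiveSpecialLinearGroup (Fin 2) F × Matrix.ProjectiveSpecialLinearGroup (Fin 2) F) := by
  have h3 : 3 ≤ Nat.card F := by simpa
  obtain ⟨e⟩ := omega_iso (G := SpecialLinearGroup (Fin 2) F × SpecialLinearGroup (Fin 2) F)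
    (plusForm_nondeg F 2) (good_of_card _ (.inl (by omega))) (by simp)
    ((no2_SL (.inr h3)).prod (no2_SL (.inr h3)))
    (by rw [(plusForm_isIndex F 2).card_isom_plus (plusForm_nondeg F 2) (finrank_plus _), Nat.card_prod,
          CA.SLnCard.card_SL2]; simp; ring)
    (S F) S_inj (fun g => g.1.1) (fun g => (g.2⁻¹).1) rfl (by simp) (fun _ _ => rfl)
    (fun _ _ => by rw [Prod.snd_mul, _root_.mul_inv_rev]; rfl)
    (fun g v => (exists_S _).imp fun w hw => ⟨hw, by
      rw [← det_S, ← det_S, hw, det_mul, det_mul, g.1.2, (g.2⁻¹).2, one_mul, mul_one]⟩)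
    (z := (-1, -1)) (Subgroup.mem_center_iff.2 fun g => by ext1 <;> simp) (fun h => by rw [neg_one_eq h]; rfl)
    fun g h => by
      replace h : ∀ X, g.1.1 * X * (g.2⁻¹).1 = X := fun X => by
        obtain ⟨v, rfl⟩ := exists_S X; exact h v
      have h0 : ∀ x, g.1 * x * g.2⁻¹ = x := fun x => Subtype.ext (h x.1)
      have h1 : g.2 = g.1 := (mul_inv_eq_one.1 (by simpa using h0 1)).symm
      have h2 : g.1 ∈ Subgroup.center _ := Subgroup.mem_center_iff.2 fun x =>
        (mul_inv_eq_iff_eq_mul.1 (h1 ▸ h0 x)).symm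
      exact ((CA.SL2Basic.mem_center_iff _).1 h2).imp (fun h => Prod.ext h (h1.trans h))
        fun h => Prod.ext h (h1.trans h)
  obtain ⟨e'⟩ := quot_prod (SpecialLinearGroup (Fin 2) F) (SpecialLinearGroup (Fin 2) F)
  exact ⟨((pOmegaEquiv (plusForm F 2)).trans e).trans e'⟩

end Cfsg.Agent.S0299
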