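import Cfsg.Statements.S2566
import Cfsg.Agent.S0299
import Cfsg.Agent.S0250
import Cfsg.Agent.S0287

set_option autoImplicit false
open Cfsg

namespace Cfsg.Agent.S2566

open CA.CForm CA.CForm.Form CA.LowIso Matrix Module Cfsg.Agent.S0299

theorem abs {G H : Type*} [Group G] [Group H] [Finite H] (Φ : G × G →* H) (hΦ : Function.Injective Φ) (τ : H)
    (hτ : ∀ g, τ * Φ (g, 1) * τ⁻¹ = Φ (1, g)) (e : G ≃* Equiv.Perm (Fin 3)) (hH : Nat.card H = 72) :
    ∃ A B : Subgroup H, Nonempty (A ≃* Equiv.Perm (Fin 3)) ∧ Nonempty (B ≃* Equiv.Perm (Fin 3)) ∧ A ⊓ B = ⊥ ∧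
      (∀ a ∈ A, ∀ b ∈ B, a * b = b * a) ∧ (A ⊔ B).index = 2 ∧ ∃ g : H, A.map (MulAut.conj g).toMonoidHom = B := by
  refine ⟨(Φ.comp (.inl G G)).range, (Φ.comp (.inr G G)).range,
    ⟨(MonoidHom.ofInjective (f := Φ.comp (.inl G G)) (hΦ.comp (Prod.mk_left_injective 1))).symm.trans e⟩,
    ⟨(MonoidHom.ofInjective (f := Φ.comp (.inr G G)) (hΦ.comp (Prod.mk_right_injective 1))).symm.trans e⟩, eq_bot_iff.2 ?_, ?_, ?_, τ, ?_⟩
  · rintro _ ⟨⟨g, rfl⟩, k, h⟩
    obtain rfl : 1 = g := congrArg Prod.fst (hΦ h)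
    exact map_one _
  · rintro _ ⟨g, rfl⟩ _ ⟨k, rfl⟩
    simp [← map_mul]
  · have h := Φ.range.index_mul_card
    rw [← Nat.card_congr (MonoidHom.ofInjective hΦ).toEquiv, Nat.card_prod, Nat.card_congr e.toEquiv, hH, Nat.card_perm,
      Nat.card_fin] at h
    rw [MonoidHom.range_comp, MonoidHom.range_comp, ← Subgroup.map_sup, show (MonoidHom.inl G G).range ⊔ (MonoidHom.inr G G).range = ⊤ from
      top_unique fun x _ => by simpa using Subgroup.mul_mem_sup (S := (MonoidHom.inl G G).range) (T := (MonoidHom.inr G G).range) ⟨x.1, rfl⟩ ⟨x.2, rfl⟩,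
      ← MonoidHom.range_eq_map]
    simp [Nat.factorial] at h; omega
  · rw [MonoidHom.map_range]; congr 1; ext g; exact hτ g

/-- The full orthogonal group of the plus-type form x₁y₁ + x₂y₂ in dimension 4 over the field of two elements has order 72 and is isomorphic to the wreath product of the symmetric group of degree 3 by a group of order 2: it has a normal subgroup isomorphic to the direct product of two symmetric groups of degree 3, of index 2, whose two direct factors are interchanged by conjugation by some element. -/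
theorem result :
    Nat.card ↥(Cfsg.isometryGroup (ZMod 2) (Cfsg.quadFormPlus 2 (ZMod 2))) = 72 ∧
    ∃ (A B : Subgroup ↥(Cfsg.isometryGroup (ZMod 2) (Cfsg.quadFormPlus 2 (ZMod 2)))),
      Nonempty (↥A ≃* Equiv.Perm (Fin 3)) ∧ Nonempty (↥B ≃* Equiv.Perm (Fin 3)) ∧ A ⊓ B = ⊥ ∧ (∀ a ∈ A, ∀ b ∈ B, a * b = b * a) ∧
      (A ⊔ B).index = 2 ∧ ∃ g : ↥(Cfsg.isometryGroup (ZMod 2) (Cfsg.quadFormPlus 2 (ZMod 2))), A.map (MulAut.conj g).toMonoidHom = B := by
  have hc := Cfsg.Agent.S0287.result (ZMod.card 2) 2 (by norm_num)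
  norm_num at hc
  obtain ⟨e⟩ := Cfsg.Agent.S0250.result (ZMod.card 2)
  obtain ⟨Φ, hΦ⟩ := exists_hom_orth (G := SpecialLinearGroup (Fin 2) (ZMod 2) × SpecialLinearGroup (Fin 2) (ZMod 2))
    (plusForm (ZMod 2) 2) (S _) S_inj (fun g => g.1.1) (fun g => (g.2⁻¹).1) rfl (by simp) (fun _ _ => rfl)
    (fun _ _ => by rw [Prod.snd_mul, _root_.mul_inv_rev]; rfl)
    (fun g v => (exists_S _).imp fun w hw => ⟨hw, by
      rw [← det_S, ← det_S, hw, det_mul, det_mul, g.1.2, (g.2⁻¹).2, one_mul, mul_one]⟩)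
  let t := LinearEquiv.funCongrLeft (ZMod 2) (ZMod 2) (Equiv.swap (.inl 0) (.inr 0) : Equiv.Perm (Fin 2 ⊕ Fin 2))
  have ht : ∀ v, S _ (t v) = adjugate (S _ v) := fun v => by
    ext i j; fin_cases i <;> fin_cases j <;> simp [S, t, Equiv.swap_apply_of_ne_of_ne, CharTwo.neg_eq]
  let τ : (plusForm (ZMod 2) 2).Isom := ⟨t, (orth_mem_Isom _).2 fun v => by rw [← det_S, ← det_S, ht, det_adjugate]; simp⟩
  let o : Cfsg.isometryGroup (ZMod 2) (Cfsg.quadFormPlus 2 (ZMod 2)) ≃* _ := orthEquiv (plusForm (ZMod 2) 2)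
  refine ⟨hc, abs (o.symm.toMonoidHom.comp Φ) (o.symm.injective.comp ((injective_iff_map_eq_one Φ).2 fun g h => ?_))
    (o.symm τ) (fun g => ?_) e hc⟩
  · replace h : ∀ X, g.1.1 * X * (g.2⁻¹).1 = X := fun X => by
      obtain ⟨v, rfl⟩ := exists_S X; rw [← hΦ, h]; rfl
    have h0 : ∀ x, g.1 * x * g.2⁻¹ = x := fun x => Subtype.ext (h x.1)
    have h1 : g.2 = g.1 := (mul_inv_eq_one.1 (by simpa using h0 1)).symm
    have h2 : g.1 ∈ Subgroup.center _ := Subgroup.mem_center_iff.2 fun x =>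
      (mul_inv_eq_iff_eq_mul.1 (h1 ▸ h0 x)).symm
    have h3 := (CA.SL2Basic.mem_center_iff _).1 h2
    rw [neg_one_eq rfl, or_self] at h3
    exact Prod.ext h3 (h1.trans h3)
  · simp only [MonoidHom.comp_apply, MulEquiv.coe_toMonoidHom, ← map_inv, ← map_mul]
    congr 1
    refine mul_inv_eq_of_eq_mul (isom_ext _ fun v => S_inj ?_)
    change S _ (t ((Φ (g, 1)).1 v)) = S _ ((Φ (1, g)).1 (t v))
    rw [ht, hΦ, hΦ, ht]
    simp [adjugate_mul_distrib]

end Cfsg.Agent.S2566
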