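import Cfsg.Statements.S0304
import Cfsg.Agent.Lib.Lin.CFormMisc2

set_option autoImplicit false
open Cfsg

namespace Cfsg.Agent.S0304

open CA.CForm CA.CForm.Form Matrix in
/-- In characteristic 2, O_{2m+1}(q) is isomorphic to Sp_{2m}(q). -/
theorem result {F : Type*} [Field F] [Fintype F] [CharP F 2] (m : ℕ) : Nonempty (Cfsg.isometryGroup F (Cfsg.quadFormOdd m F) ≃* Matrix.symplecticGroup (Fin m) F) := by
  have h2 : (2 : F) = 0 := CharTwo.two_eq_zero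
  let f := oddForm F m
  have hB : ∀ u v, f.B u v = Cfsg.sympForm m F (u ∘ Sum.inr) (v ∘ Sum.inr) := fun u v => by
    simp only [f, oddForm, sum_B, unitForm_B, plusForm_B, sympForm_eq, h2, zero_mul, zero_add,
      CharTwo.sub_eq_add, add_comm]
  have hQ : ∀ v, f.Q v = v (Sum.inl ()) ^ 2 + (plusForm F m).Q (v ∘ Sum.inr) := fun v => rfl
  have h0 : ∀ g : Cfsg.isometryGroup F f.Q, (g.1.1 : Matrix (Unit ⊕ (Fin m ⊕ Fin m)) (Unit ⊕ (Fin m ⊕ Fin m)) F).toBlocks₂₁ = 0 ∧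
      (g.1.1 : Matrix (Unit ⊕ (Fin m ⊕ Fin m)) (Unit ⊕ (Fin m ⊕ Fin m)) F).toBlocks₁₁ = 1 := by
    intro g
    have h1 : ((orthEquiv f g : (Unit ⊕ (Fin m ⊕ Fin m) → F) ≃ₗ[F] (Unit ⊕ (Fin m ⊕ Fin m) → F)) (Pi.single (Sum.inl ()) 1)) ∘ Sum.inr = 0 := by
      refine sympStd_nondeg F m _ fun y => ?_
      have := f.B_isom_left (orthEquiv f g) (Pi.single (Sum.inl ()) 1) (Sum.elim 0 y)
      rw [hB, hB, show (Pi.single (Sum.inl ()) 1 : Unit ⊕ (Fin m ⊕ Fin m) → F) ∘ Sum.inr = 0 by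
        ext; simp, ← sympStd_B, ← sympStd_B, B_zero_left] at this
      exact this
    have h3 := f.Q_coe_map (orthEquiv f g) (Pi.single (Sum.inl ()) 1)
    rw [hQ, hQ, h1, show (Pi.single (Sum.inl ()) 1 : Unit ⊕ (Fin m ⊕ Fin m) → F) ∘ Sum.inr = 0 by
        ext; simp, orthEquiv_apply] at h3
    refine ⟨?_, ?_⟩
    · ext i j
      simpa [orthEquiv_apply, toBlocks₂₁] using congrFun h1 i
    · ext i j
      simpa [CharTwo.neg_eq, toBlocks₁₁] using h3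
  have h1 : ∀ (g : Cfsg.isometryGroup F f.Q) v, (g.1.1 : Matrix (Unit ⊕ (Fin m ⊕ Fin m)) (Unit ⊕ (Fin m ⊕ Fin m)) F) *ᵥ v =
      Sum.elim (v ∘ Sum.inl + (g.1.1 : Matrix (Unit ⊕ (Fin m ⊕ Fin m)) (Unit ⊕ (Fin m ⊕ Fin m)) F).toBlocks₁₂ *ᵥ (v ∘ Sum.inr))
        ((g.1.1 : Matrix (Unit ⊕ (Fin m ⊕ Fin m)) (Unit ⊕ (Fin m ⊕ Fin m)) F).toBlocks₂₂ *ᵥ (v ∘ Sum.inr)) := fun g v => by
    conv_lhs => rw [← fromBlocks_toBlocks (g.1.1 : Matrix (Unit ⊕ (Fin m ⊕ Fin m)) (Unit ⊕ (Fin m ⊕ Fin m)) F), (h0 g).1, (h0 g).2,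
      fromBlocks_mulVec]
    simp
  let ρ : Cfsg.isometryGroup F f.Q →* symplecticGroup (Fin m) F := MonoidHom.mk'
    (fun g => ⟨(g.1.1 : Matrix (Unit ⊕ (Fin m ⊕ Fin m)) (Unit ⊕ (Fin m ⊕ Fin m)) F).toBlocks₂₂, mem_symplecticGroup_iff.2 fun u v => by
      have := f.B_coe_map (orthEquiv f g) (Sum.elim 0 u) (Sum.elim 0 v)
      rw [hB, hB, orthEquiv_apply, orthEquiv_apply, h1, h1] at this
      exact this⟩) fun g h => Subtype.ext (matrix_eq_iff_mulVec.2 fun v => by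
      have := congrArg (· ∘ Sum.inr) (h1 (g * h) (Sum.elim 0 v))
      simp only [Subgroup.coe_mul, Units.val_mul, ← mulVec_mulVec, h1] at this
      simp only [Submonoid.coe_mul, Subgroup.coe_mul, Units.val_mul, ← mulVec_mulVec]
      exact this.symm)
  refine ⟨MulEquiv.ofBijective ρ ⟨(injective_iff_map_eq_one ρ).2 fun g hg => ?_, fun A => ?_⟩⟩
  · have h3 : (g.1.1 : Matrix (Unit ⊕ (Fin m ⊕ Fin m)) (Unit ⊕ (Fin m ⊕ Fin m)) F).toBlocks₂₂ = 1 := congrArg Subtype.val hg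
    refine Subtype.ext (Units.ext (matrix_eq_iff_mulVec.2 fun v => ?_))
    have h4 := f.Q_coe_map (orthEquiv f g) v
    rw [orthEquiv_apply, h1, h3, hQ, hQ, one_mulVec, Sum.elim_comp_inr, add_left_inj,
      sq_eq_sq_iff_eq_or_eq_neg, CharTwo.neg_eq, or_self] at h4
    rw [h1, h3]
    ext (i | i)
    · simpa using h4
    · simp
  · choose l hl using fun j => isSquare_of_two_eq_zero h2
      ((plusForm F m).Q (Pi.single j 1) - (plusForm F m).Q (A.1 *ᵥ Pi.single j 1))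
    let M : Matrix (Unit ⊕ (Fin m ⊕ Fin m)) (Unit ⊕ (Fin m ⊕ Fin m)) F := fromBlocks 1 (of fun _ => l) 0 A.1
    have hM : M.det ≠ 0 := by
      rw [det_fromBlocks_zero₂₁, det_one, one_mul]
      exact (SymplecticGroup.symplectic_det A.2).ne_zero
    have hM2 : ∀ v, (M *ᵥ v) ∘ Sum.inr = A.1 *ᵥ (v ∘ Sum.inr) := fun v => by
      rw [fromBlocks_mulVec]; simp
    have := (f.preserves_of_span f M.mulVecLin (Set.range (Pi.basisFun F _)) (fun x _ y _ => by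
      rw [hB, hB, mulVecLin_apply, mulVecLin_apply, hM2, hM2]
      exact mem_symplecticGroup_iff.1 A.2 _ _) (by
      rintro _ ⟨i | j, rfl⟩
      · rw [mulVecLin_apply]; congr 1; ext (k | k) <;> simp [M]
      · rw [mulVecLin_apply, hQ, hQ, hM2, show (Pi.basisFun F (Unit ⊕ (Fin m ⊕ Fin m)) (Sum.inr j)) ∘ Sum.inr =
          Pi.single j 1 by ext; simp [Pi.single_apply]]
        simp only [M, Pi.basisFun_apply, mulVec_single_one]
        simp [sq, ← hl])).2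
    exact ⟨⟨GeneralLinearGroup.mkOfDetNeZero M hM, mem_isometryGroup.2 fun v => this v (by
      rw [Module.Basis.span_eq]; trivial)⟩, rfl⟩

end Cfsg.Agent.S0304
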