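import Cfsg.Statements.S0110
import Cfsg.Agent.Lib.Odd.BG4x2

set_option autoImplicit false
open Cfsg

namespace Cfsg.Agent.S0110

open CA.BG

/-- In a p-group G, an extraspecial subgroup E with [G, E] ≤ Z(E) satisfies G = E C_G(E). -/
theorem result {G : Type*} [Group G] [Finite G] {p : ℕ} [Fact p.Prime] (hG : IsPGroup p G) (E : Subgroup G) (hE : Cfsg.IsExtraspecial p E) (h : ⁅(⊤ : Subgroup G), E⁆ ≤ E ⊓ Subgroup.centralizer (E : Set G)) : E ⊔ Subgroup.centralizer (E : Set G) = ⊤ := by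
  have hpp : p.Prime := Fact.out
  have hG' : IsPi {p} (⊤ : Subgroup G) := isPi_of_isPGroup hpp (hG.to_subgroup ⊤)
  have hZ : ♯(𝓩(E)) = p := by rw [← map_center, CA.Rad.card_map_subtype]; exact hE.2
  have hn : ⊤ ≤ 𝓝(E) := norm_of_comm_le_right (h.trans inf_le_left)
  have := sup_cent_of_comm_le hpp le_top (hG'.of_le le_top) hZ
    (CA.BG4.cent_of_card' hpp hG' (hn.trans (norm_center E)) hZ.dvd) (by rwa [comm_symm])
  rwa [top_inf_eq] at this

end Cfsg.Agent.S0110
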