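import Cfsg.Statements.S3762
import Cfsg.Agent.S0110
import Cfsg.Agent.Lib.Grp.PGFrattini

set_option autoImplicit false
open Cfsg

namespace Cfsg.Agent.S3762

section Aux
open Subgroup CA.PGBasic CA.PGNormalCyclic CA.PGCyclicMax CA.PGDihedral CA.PGFrattini
open scoped commutatorElement

/-- the elements of order dividing `p` in the centre -/
def om (G : Type*) [Group G] (p : ℕ) : Subgroup G := omegaAb (center G) p

theorem mem_om {G : Type*} [Group G] {p : ℕ} {x : G} : x ∈ om G p ↔ x ∈ center G ∧ x ^ p = 1 :=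
  mem_omegaAb

instance om_char (G : Type*) [Group G] (p : ℕ) : (om G p).Characteristic := by
  refine characteristic_iff_le_comap.2 fun φ x hx => mem_om.2 ⟨?_, ?_⟩
  · exact characteristic_iff_le_comap.1 (centerCharacteristic (G := G)) φ (mem_om.1 hx).1
  · rw [← map_pow, (mem_om.1 hx).2, map_one]

variable {G : Type*} [Group G] [Finite G] {p : ℕ}

/-- the second layer -/
def E0 (G : Type*) [Group G] (p : ℕ) : Subgroup G :=
  (om (G ⧸ om G p) p).comap (QuotientGroup.mk' (om G p))

instance E0_char (G : Type*) [Group G] (p : ℕ) : (E0 G p).Characteristic :=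
  Characteristic.comap_quotient_mk inferInstance

omit [Finite G] in
theorem mem_E0 {x : G} : x ∈ E0 G p ↔ (∀ g, ⁅x, g⁆ ∈ om G p) ∧ x ^ p ∈ om G p := by
  rw [E0, mem_comap, mem_om, ← map_pow, ← MonoidHom.mem_ker, QuotientGroup.ker_mk', mem_center_iff]
  refine and_congr ⟨fun h g => ?_, fun h g => ?_⟩ Iff.rfl
  · rw [← QuotientGroup.ker_mk' (om G p), MonoidHom.mem_ker, map_commutatorElement,
      commutatorElement_eq_one_iff_mul_comm]
    exact (h _).symm
  · obtain ⟨g, rfl⟩ := QuotientGroup.mk'_surjective _ g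
    have := h g
    rw [← QuotientGroup.ker_mk' (om G p), MonoidHom.mem_ker, map_commutatorElement,
      commutatorElement_eq_one_iff_mul_comm] at this
    exact this.symm

theorem exists_compl (hp : p.Prime) {c : G} (hc : c ∈ E0 G p) :
    ∃ E : Subgroup G, om G p ≤ E ∧ E ≤ E0 G p ∧ E ⊔ zpowers c = E0 G p ∧ E ⊓ zpowers c ≤ om G p := by
  have hZ : om G p ≤ E0 G p := fun x hx => mem_E0.2 ⟨fun g => by
    rw [commutatorElement_eq_one_iff_mul_comm.2 (mem_center_iff.1 (mem_om.1 hx).1 g).symm]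
    exact one_mem _, pow_mem hx _⟩
  by_cases h : c ∈ om G p
  · exact ⟨_, hZ, le_rfl, sup_eq_left.2 (zpowers_le.2 hc), inf_le_right.trans (zpowers_le.2 h)⟩
  obtain ⟨K, ⟨h1, h2, h3⟩, hmax⟩ := Set.Finite.exists_maximal
    (s := {K : Subgroup G | om G p ≤ K ∧ K ≤ E0 G p ∧ c ∉ K}) (Set.toFinite _) ⟨_, le_rfl, hZ, h⟩
  refine ⟨K, h1, h2, le_antisymm (sup_le h2 (zpowers_le.2 hc)) fun x hx => ?_, ?_⟩
  · by_contra hn
    have hxK : x ∈ normalizer (K : Set G) := mem_normalizer_fintype fun k hk => by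
      have := mul_mem (h1 ((mem_E0.1 hx).1 k)) hk
      rwa [commutatorElement_def, inv_mul_cancel_right] at this
    by_cases h4 : c ∈ K ⊔ zpowers x
    · obtain ⟨k, hk, i, e⟩ := (mem_sup_zpowers hxK).1 h4
      have h5 : x ^ i ∈ K ⊔ zpowers c := by
        rw [show x ^ i = k⁻¹ * c by rw [e]; group]
        exact mul_mem (mem_sup_left (inv_mem hk)) (mem_sup_right (mem_zpowers c))
      obtain ⟨j, rfl⟩ := dvd_of_zpow_mem hp hn (mem_sup_left (h1 (mem_E0.1 hx).2)) h5
      refine h3 (e ▸ mul_mem hk ?_)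
      rw [zpow_mul, zpow_natCast]
      exact zpow_mem (h1 (mem_E0.1 hx).2) _
    · exact hn (mem_sup_left (hmax ⟨h1.trans le_sup_left, sup_le h2 (zpowers_le.2 hx), h4⟩
        le_sup_left (mem_sup_right (mem_zpowers x))))
  · rintro _ ⟨hk, i, rfl⟩
    obtain ⟨j, rfl⟩ := dvd_of_zpow_mem hp h3 (h1 (mem_E0.1 hc).2) hk
    simp only
    rw [zpow_mul, zpow_natCast]
    exact zpow_mem (mem_E0.1 hc).2 _

end Aux

open Subgroup CA.PGBasic CA.PGNormalCyclic CA.PGCyclicMax CA.PGDihedral CA.PGFrattini in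
open scoped commutatorElement in

/-- Let G be a finite p-group of symplectic type: every characteristic abelian subgroup of G is cyclic. Then G = E ∗ R is a central product of subgroups E and R (they commute elementwise and generate G) where E is extraspecial or trivial, and R is cyclic, or p = 2 and R is dihedral, semidihedral or generalized quaternion of order at least 16. -/
theorem result {G : Type*} [Group G] [Finite G] {p : ℕ} [Fact p.Prime] (hG : IsPGroup p G) (hsymp : ∀ A : Subgroup G, A.Characteristic → IsMulCommutative A → IsCyclic A) : ∃ E R : Subgroup G, (∀ e ∈ E, ∀ r ∈ R, e * r = r * e) ∧ E ⊔ R = ⊤ ∧ (E = ⊥ ∨ Cfsg.IsExtraspecial p ↥E) ∧ (IsCyclic R ∨ (p = 2 ∧ 16 ≤ Nat.card R ∧ ((∃ m : ℕ, Nonempty (↥R ≃* DihedralGroup m)) ∨ (∃ m : ℕ, Nonempty (↥R ≃* QuaternionGroup m)) ∨ Cfsg.IsQuasiDihedral ↥R))) := by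
  have hp : p.Prime := Fact.out
  by_cases hcyc : IsCyclic G
  · exact ⟨⊥, ⊤, by simp, by simp, Or.inl rfl, Or.inl (isCyclic_of_surjective _ Subgroup.topEquiv.symm.surjective)⟩
  have hZe : IsElementaryAbelian p (om G p) := omegaAb_elementary _ _
  have hZc : om G p ≤ center G := omegaAb_le _ _
  have hZp : Nat.card (om G p) = p := by
    have h1 : ¬ p < Nat.card (om G p) := fun h =>
      not_isCyclic_of_elementary hp.pos hZe.2 h (hsymp _ inferInstance hZe.1)
    have h2 : (⊤ : Subgroup G) ≠ ⊥ := fun h => hcyc (by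
      have := Subgroup.subsingleton_iff.1 (subsingleton_of_bot_eq_top h.symm)
      infer_instance)
    obtain ⟨x, -, h3, h4⟩ := exists_mem_center_orderOf hG h2
    have := card_le_of_le' (zpowers_le.2 (mem_om.2 ⟨h3, h4 ▸ pow_orderOf_eq_one x⟩ : x ∈ om G p))
    rw [Nat.card_zpowers, h4] at this
    omega
  have hA := hsymp (E0 G p ⊓ centralizer (E0 G p : Set G)) inferInstance
    (isMulCommutative_iff.2 fun a ha b hb => hb.2 a ha.1)
  obtain ⟨c, hc⟩ := (Subgroup.isCyclic_iff_exists_zpowers_eq_top _).1 hA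
  have hc0 : c ∈ E0 G p ⊓ centralizer (E0 G p : Set G) := hc ▸ mem_zpowers c
  obtain ⟨E, hZE, hE0, hsup, hinf⟩ := exists_compl hp hc0.1
  have hcE : ∀ x ∈ E0 G p, x ∈ centralizer (E : Set G) → x ∈ zpowers c := by
    intro x h1 h2
    rw [hc]
    refine ⟨h1, ?_⟩
    have : E0 G p ≤ centralizer {x} := hsup ▸ sup_le
      (fun y hy => mem_centralizer_singleton_iff.2 (h2 y hy))
      (zpowers_le.2 (mem_centralizer_singleton_iff.2 (hc0.2 x h1).symm))
    exact fun y hy => mem_centralizer_singleton_iff.1 (this hy)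
  have hcomm : ⁅(⊤ : Subgroup G), E⁆ ≤ om G p := by
    rw [commutator_comm, commutator_le]
    exact fun x hx g _ => (mem_E0.1 (hE0 hx)).1 g
  obtain ⟨E', h1, h2, h3⟩ : ∃ E' : Subgroup G, E' ≤ E ∧ E' ⊔ centralizer (E : Set G) = ⊤ ∧
      (E' = ⊥ ∨ IsExtraspecial p E') := by
    by_cases h : E ≤ om G p
    · refine ⟨⊥, bot_le, ?_, Or.inl rfl⟩
      rw [bot_sup_eq, eq_top_iff]
      exact fun g _ y hy => (mem_center_iff.1 (hZc (h hy)) g).symm
    have hZle : om G p ≤ E ⊓ centralizer (E : Set G) :=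
      le_inf hZE fun x hx y _ => mem_center_iff.1 (hZc hx) y
    have h4 : (center E).map E.subtype = om G p := by
      refine le_antisymm ?_ fun x hx => ⟨⟨x, hZE hx⟩, mem_center_iff.2 fun y =>
        Subtype.ext (mem_center_iff.1 (hZc hx) y), rfl⟩
      rintro _ ⟨x, hx, rfl⟩
      exact hinf ⟨x.2, hcE _ (hE0 x.2) fun y hy => congrArg Subtype.val (mem_center_iff.1 hx ⟨y, hy⟩)⟩
    have h5 : ⁅E, E⁆ = om G p := by
      have h6 : ⁅E, E⁆ ≤ om G p := (commutator_mono le_top le_rfl).trans hcomm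
      have : Fact (Nat.card (om G p)).Prime := ⟨hZp.symm ▸ hp⟩
      rcases eq_or_eq_of_relIndex_prime hp (N := ⊥) (M := om G p) (by rw [relIndex_bot_left, hZp])
        bot_le h6 with e | e
      · refine absurd (fun x hx => hinf ⟨hx, hcE x (hE0 hx) ?_⟩) h
        exact commutator_eq_bot_iff_le_centralizer.1 e hx
      · exact e
    have hE : IsExtraspecial p E := by
      refine ⟨⟨hG.to_subgroup E, map_injective E.subtype_injective (h4 ▸ le_antisymm
        (map_frattini_le hp h5.le fun x hx => (mem_E0.1 (hE0 hx)).2)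
        (h5 ▸ commutator_le_map_frattini (hG.to_subgroup E))),
        map_injective E.subtype_injective (by rw [h4, map_subtype_commutator, h5])⟩, ?_⟩
      rw [← card_map_of_injective E.subtype_injective, h4, hZp]
    exact ⟨E, le_rfl, S0110.result hG E hE (hcomm.trans hZle), Or.inr hE⟩
  set R := centralizer (E : Set G) with hR
  refine ⟨E', R, fun e he r hr => hr e (h1 he), h2, h3, ?_⟩
  have hER : E ⊔ R = ⊤ := eq_top_iff.2 (h2 ▸ sup_le_sup_right h1 _)
  rcases trichotomy (hG.to_subgroup R) with h | ⟨U, hUn, hU, hU2⟩ | ⟨rfl, n, a, y, ha, hgen, hd, h4⟩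
  · exact Or.inl h
  · exfalso
    have hn : (U.map R.subtype).Normal := by
      rw [← normalizer_eq_top_iff, eq_top_iff, ← hER]
      refine sup_le (fun e he => mem_normalizer_fintype ?_) fun r hr => mem_normalizer_fintype ?_
      · rintro _ ⟨u, hu, rfl⟩
        refine ⟨u, hu, ?_⟩
        have : e * u = u * e := u.2 e he
        simp [this]
      · rintro _ ⟨u, hu, rfl⟩
        exact ⟨_, hUn.conj_mem u hu ⟨r, hr⟩, rfl⟩
    have hc2 : Nat.card (U.map R.subtype) = p ^ 2 := by rw [card_map_of_injective R.subtype_injective, hU2]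
    have hUp : ∀ x ∈ U.map R.subtype, x ^ p = 1 := by
      rintro _ ⟨u, hu, rfl⟩
      rw [← map_pow, hU.2 u hu, map_one]
    have hZU : om G p ≤ U.map R.subtype := by
      obtain ⟨x, h5, h6, h7⟩ := exists_mem_center_orderOf hG (M := U.map R.subtype) (fun e => by
        rw [e, card_bot] at hc2; nlinarith [hp.one_lt])
      rw [← eq_of_le_of_card_le (zpowers_le.2 (mem_om.2 ⟨h6, hUp x h5⟩ : x ∈ om G p))
        (by rw [Nat.card_zpowers, h7, hZp])]
      exact zpowers_le.2 h5
    have h5 := commutator_le_of_relIndex hG hZU (by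
      have := card_mul_relIndex hZU
      rw [hZp, hc2, pow_two] at this
      exact Nat.eq_of_mul_eq_mul_left hp.pos this)
    have h6 : U.map R.subtype ≤ zpowers c := fun x hx => hcE x (mem_E0.2
      ⟨fun g => h5 (commutator_mem_commutator hx (mem_top g)), by rw [hUp x hx]; exact one_mem _⟩)
      (map_subtype_le U hx)
    exact not_isCyclic_of_elementary hp.pos hUp (by rw [hc2]; nlinarith [hp.one_lt])
      (Subgroup.isCyclic_of_le h6)
  have hy := dqs_notMem ha hd
  have hy1 : y ≠ 1 := fun h1 => hy (h1 ▸ one_mem _)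
  have h7 := card_sup_zpowers Nat.prime_two (dqs_normalizer hd) hy (dqs_sq_mem hd)
  rw [hgen, Nat.card_zpowers, ha, card_top] at h7
  have hn3 : 3 ≤ n := by
    by_contra hn
    obtain rfl : n = 2 := by have := hd.1; omega
    obtain ⟨e1, e2⟩ : y ^ 2 = a ^ 2 ∧ y * a * y⁻¹ = a⁻¹ := by
      rcases hd.2 with h | h | h
      · exact absurd (h4 h.1) hn
      · simpa using h
      · omega
    have ha4 : a ^ 4 = 1 := by rw [← pow_orderOf_eq_one a, ha]; rfl
    have hgen' : zpowers (a : G) ⊔ zpowers (y : G) = R := by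
      have := congrArg (Subgroup.map R.subtype) hgen
      rwa [Subgroup.map_sup, MonoidHom.map_zpowers, MonoidHom.map_zpowers, ← MonoidHom.range_eq_map,
        range_subtype] at this
    have e1' : (y : G) ^ 2 = a ^ 2 := congrArg Subtype.val e1
    have e2' : (y : G) * a * (y : G)⁻¹ = (a : G)⁻¹ := congrArg Subtype.val e2
    have ha4' : (a : G) ^ 4 = 1 := congrArg Subtype.val ha4
    have hz : (a : G) ^ 2 ∈ om G 2 := by
      refine mem_om.2 ⟨mem_center_iff.2 fun g => mem_centralizer_singleton_iff.1 ?_, by rw [← pow_mul, ha4']⟩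
      have h5 : E ⊔ R ≤ centralizer {(a : G) ^ 2} :=
        sup_le (fun e he => mem_centralizer_singleton_iff.2 ((R.pow_mem a.2 2) e he))
        (hgen'.ge.trans (sup_le (zpowers_le.2 (mem_centralizer_singleton_iff.2 (by group)))
          (zpowers_le.2 (mem_centralizer_singleton_iff.2 (by rw [← e1']; group)))))
      exact h5 (hER ▸ mem_top g)
    have hgenG : (E ⊔ zpowers (a : G)) ⊔ zpowers (y : G) = ⊤ := by rw [sup_assoc, hgen', hER]
    have mem : ∀ x ∈ R, x ^ 2 ∈ om G 2 → ⁅x, (a : G)⁆ ∈ om G 2 → ⁅x, (y : G)⁆ ∈ om G 2 →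
        x ∈ zpowers c := by
      intro x hx h5 h6 h8
      refine hcE x (mem_E0.2 ⟨fun g => ?_, h5⟩) hx
      have key : ∀ g, ⁅x, g⁆ ∈ om G 2 ↔ g ∈ (centralizer {QuotientGroup.mk' (om G 2) x}).comap
          (QuotientGroup.mk' (om G 2)) := fun g => by
        rw [mem_comap, mem_centralizer_singleton_iff]
        conv_lhs => rw [← QuotientGroup.ker_mk' (om G 2), MonoidHom.mem_ker, map_commutatorElement,
          commutatorElement_eq_one_iff_mul_comm]
        exact eq_comm
      rw [key]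
      refine (sup_le (sup_le (fun e he => (key e).1 ?_) (zpowers_le.2 ((key _).1 h6)))
        (zpowers_le.2 ((key _).1 h8)) : (E ⊔ zpowers (a : G)) ⊔ zpowers (y : G) ≤ _) (hgenG ▸ mem_top g)
      rw [commutatorElement_eq_one_iff_mul_comm.2 (hx e he).symm]; exact one_mem _
    have e3 : ⁅(y : G), (a : G)⁆ = ((a : G) ^ 2)⁻¹ := by rw [commutatorElement_def, e2']; group
    have ma := mem a a.2 hz (by simp) (by rw [← commutatorElement_inv, e3, inv_inv]; exact hz)
    have my := mem y y.2 (e1' ▸ hz) (e3 ▸ inv_mem hz) (by simp)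
    have hcm : (y : G) * a = a * y := by
      obtain ⟨i, hi⟩ := ma
      obtain ⟨j, hj⟩ := my
      simp only at hi hj
      rw [← hi, ← hj]; group
    rw [commutatorElement_eq_one_iff_mul_comm.2 hcm, eq_comm, inv_eq_one] at e3
    have := orderOf_dvd_of_pow_eq_one (show a ^ 2 = 1 from Subtype.ext e3)
    rw [ha] at this
    norm_num at this
  refine Or.inr ⟨rfl, ?_, ?_⟩
  · rw [h7]
    have := Nat.pow_le_pow_right (n := 2) (by norm_num) hn3
    omega
  rcases hd.2 with h | h | h
  · exact Or.inl ⟨2 ^ n, nonempty_mulEquiv_dihedral ha hy h.1 h.2 hgen⟩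
  · obtain ⟨m, rfl⟩ : ∃ m, n = m + 1 := ⟨n - 1, by omega⟩
    exact Or.inr (Or.inl ⟨2 ^ m, nonempty_mulEquiv_quaternion (by rw [ha, pow_succ']) hy h.1 h.2 hgen⟩)
  · exact Or.inr (Or.inr ⟨n, h.1, by rw [h7, pow_succ], a, y, ha, orderOf_eq_prime h.2.1 hy1, h.2.2⟩)

end Cfsg.Agent.S3762
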