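import Cfsg.Statements.S2420

set_option autoImplicit false
open scoped MatrixGroups
open Cfsg

namespace Cfsg.Agent.S2420

open Finset

theorem cnt {F V : Type*} [Field F] [Fintype F] [AddCommGroup V] [Module F V] [Finite V] {k : ℕ}
    (W : Fin k → Submodule F V) (hW : Monotone W) :
    Nat.card {s : Fin k → V // LinearIndependent F s ∧ ∀ j, s j ∈ W j} =
      ∏ j, (Nat.card (W j) - Fintype.card F ^ j.1) := by
  induction k with
  | zero =>
    rw [univ_eq_empty, prod_empty, Nat.card_eq_one_iff_exists]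
    exact ⟨⟨0, linearIndependent_empty_type, fun j => j.elim0⟩, fun _ => Subsingleton.elim _ _⟩
  | succ k ih =>
    let e : {s : Fin (k + 1) → V // LinearIndependent F s ∧ ∀ j, s j ∈ W j} ≃
        Σ s : {s : Fin k → V // LinearIndependent F s ∧ ∀ j, s j ∈ W j.castSucc},
          ↥((W (Fin.last k) : Set V) \ Submodule.span F (Set.range s.1)) :=
      { toFun := fun s =>
          have h := linearIndependent_finSnoc.1 ((Fin.snoc_init_self s.1).symm ▸ s.2.1)
          ⟨⟨Fin.init s.1, h.1, fun j => s.2.2 _⟩, ⟨s.1 (Fin.last k), s.2.2 _, h.2⟩⟩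
        invFun := fun s => ⟨Fin.snoc s.1.1 s.2.1, s.1.2.1.finSnoc s.2.2.2, fun j => by
          refine Fin.lastCases ?_ (fun j => ?_) j
          · simpa using s.2.2.1
          · simpa using s.1.2.2 j⟩
        left_inv := fun s => Subtype.ext (Fin.snoc_init_self _)
        right_inv := fun ⟨⟨s, _⟩, ⟨x, _⟩⟩ => by
          simp only [Fin.init_snoc, Fin.snoc_last, Sigma.mk.inj_iff, true_and]
          congr! <;> simp }
    have := Fintype.ofFinite {s : Fin k → V // LinearIndependent F s ∧ ∀ j, s j ∈ W j.castSucc}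
    have : Module.Finite F V := Module.Finite.of_finite
    rw [Nat.card_congr e, Nat.card_sigma, sum_congr rfl (g := fun _ => Nat.card (W (Fin.last k)) -
      Fintype.card F ^ k), sum_const, card_univ, ← Nat.card_eq_fintype_card,
      ih _ fun a b h => hW (Fin.castSucc_le_castSucc_iff.2 h), Fin.prod_univ_castSucc]
    · rfl
    · intro s _
      rw [Nat.card_coe_set_eq, Set.ncard_diff (by
        exact Submodule.span_le.2 (by rintro _ ⟨j, rfl⟩; exact hW (Fin.le_last _) (s.2.2 j))),
        ← Nat.card_coe_set_eq, ← Nat.card_coe_set_eq, SetLike.coe_sort_coe, SetLike.coe_sort_coe,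
        Module.natCard_eq_pow_finrank (K := F) (V := Submodule.span F (Set.range s.1)),
        finrank_span_eq_card s.2.1, Nat.card_eq_fintype_card (α := F), Fintype.card_fin]

theorem lab {n : ℕ} (μ : Fin n → ℕ) (j i : Fin n) :
    compLabel μ j ≤ i ↔ j.1 < ∑ k ∈ univ.filter (· ≤ i), μ k := by
  have mono : ∀ a b : Fin n, a ≤ b → ∑ k ∈ univ.filter (· ≤ a), μ k ≤ ∑ k ∈ univ.filter (· ≤ b), μ k :=
    fun a b h => sum_le_sum_of_subset fun k hk => by simp at hk ⊢; exact hk.trans h
  unfold compLabel
  refine ⟨fun h => Nat.lt_of_not_le fun h' => ?_, fun h => ?_⟩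
  · have := card_le_card (s := Iic i) (t := univ.filter fun t : Fin n =>
      ∑ k ∈ univ.filter (· ≤ t), μ k ≤ j.1) fun t ht => by
        simpa using (mono t i (mem_Iic.1 ht)).trans h'
    rw [Fin.card_Iic] at this
    omega
  · rw [← Fin.card_Iio i]
    exact card_le_card fun t ht => mem_Iio.2 (lt_of_not_ge fun h' =>
      ((mono i t h').trans (mem_filter.1 ht).2).not_gt h)

theorem tsum {n : ℕ} (μ : Fin n → ℕ) (i : Fin n) :
    ∑ k ∈ univ.filter (· ≤ i), μ k = ∑ k : Fin i, μ (Fin.castLE i.2.le k) + μ i := by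
  rw [show univ.filter (· ≤ i) = insert i ((univ : Finset (Fin i)).map (Fin.castLEEmb i.2.le)) by
    ext t
    simp only [mem_filter, mem_univ, true_and, mem_insert, mem_map, Fin.castLEEmb_apply, le_iff_eq_or_lt]
    exact or_congr_right ⟨fun h => ⟨⟨t, h⟩, rfl⟩, by rintro ⟨t, rfl⟩; exact t.2⟩, sum_insert (by
      simp only [mem_map, mem_univ, true_and, not_exists]
      exact fun t h => t.2.ne (congrArg Fin.val h)), sum_map, add_comm]
  rfl

theorem blocks {n : ℕ} (μ : Fin n → ℕ) (hμ : ∑ i, μ i = n) (f : ℕ → ℕ) :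
    (∀ j : Fin n, j.1 < #{i | compLabel μ i ≤ compLabel μ j}) ∧
      ∏ j : Fin n, f (#{i | compLabel μ i ≤ compLabel μ j} - j) = ∏ i, ∏ j ∈ range (μ i), f (j + 1) := by
  let e := (finSigmaFinEquiv (n := μ)).trans (finCongr hμ)
  have he : ∀ x, (e x).1 = ∑ k : Fin x.1, μ (Fin.castLE x.1.2.le k) + x.2 := fun x => finSigmaFinEquiv_apply x
  have h1 : ∀ x, compLabel μ (e x) = x.1 := fun x => by
    refine le_antisymm ((lab μ _ _).2 (by rw [tsum, he]; simp)) (Nat.le_of_not_lt fun h => ?_)
    have := (lab μ (e x) ⟨_, h.trans x.1.2⟩).1 le_rfl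
    rw [he] at this
    refine this.not_ge (le_add_right ?_)
    rw [← add_le_add_iff_left (μ x.1), add_comm _ (∑ k : Fin x.1, _), ← tsum,
      ← sum_insert (by simpa [Fin.lt_def] using h)]
    exact sum_le_sum_of_subset fun t ht => by
      simp only [mem_insert, mem_filter, mem_univ, true_and] at ht ⊢
      exact ht.elim le_of_eq fun h' => h'.trans h.le
  have h2 : ∀ x, #{i | compLabel μ i ≤ compLabel μ (e x)} =
      ∑ k : Fin x.1, μ (Fin.castLE x.1.2.le k) + μ x.1 := fun x => by
    simp only [h1, lab]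
    rw [Fin.card_filter_val_lt, ← tsum]
    exact min_eq_right (le_of_le_of_eq (sum_le_sum_of_subset (subset_univ _)) hμ)
  refine ⟨e.surjective.forall.2 fun x => by rw [h2, he]; simp, ?_⟩
  rw [← e.prod_comp, ← univ_sigma_univ, prod_sigma]
  refine prod_congr rfl fun i _ => ?_
  rw [← prod_range_reflect, prod_range]
  refine prod_congr rfl fun k _ => ?_
  rw [h2, he]
  congr 1
  have := k.2
  simp only
  omega

/-- The number of partial flags of a given type: for a composition `μ` of `n` (with `n` parts, zeros allowed) and a field with `q` elements, the index of the standard parabolic subgroup `P_μ` in `GL_n(q)` times `∏_i {μ_i}` equals `{n}`, where `{r}` denotes the product over `k = 1, …, r` of the q-integers `1 + q + ⋯ + q^(k−1)`. -/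
theorem result {F : Type*} [Field F] [Fintype F] {q : ℕ} (hq : Fintype.card F = q) {n : ℕ} (μ : Fin n → ℕ) (hμ : ∑ i, μ i = n) :
    Nat.card (GL (Fin n) F ⧸ Cfsg.parabolicGL n F μ) * ∏ i : Fin n, ∏ j ∈ Finset.range (μ i), ∑ l ∈ Finset.range (j + 1), q ^ l =
      ∏ j ∈ Finset.range n, ∑ l ∈ Finset.range (j + 1), q ^ l := by
  classical
  obtain ⟨x, rfl⟩ : ∃ x, q = x + 1 := ⟨q - 1, by have := Fintype.card_pos (α := F); omega⟩
  have hx : 0 < x := by have := Fintype.one_lt_card (α := F); omega
  let W : Fin n → Submodule F (Fin n → F) := fun j =>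
    Submodule.pi {i | compLabel μ j < compLabel μ i} fun _ => ⊥
  have hb : Monotone (compLabel μ) := fun a b h => card_le_card fun t ht => by
    simpa using (mem_filter.1 ht).2.trans h
  have cW : ∀ j, Nat.card (W j) = (x + 1) ^ #{i | compLabel μ i ≤ compLabel μ j} := fun j => by
    rw [← hq, ← Fintype.card_subtype, ← Fintype.card_fun, ← Nat.card_eq_fintype_card]
    exact Nat.card_congr
      { toFun := fun v i => v.1 i.1
        invFun := fun f => ⟨fun i => if h : compLabel μ i ≤ compLabel μ j then f ⟨i, h⟩ else 0,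
          fun i hi => dif_neg (not_le.2 hi)⟩
        left_inv := fun v => Subtype.ext (funext fun i => by
          dsimp only
          split_ifs with h
          exacts [rfl, (v.2 i (not_le.1 h)).symm])
        right_inv := fun f => funext fun i => dif_pos i.2 }
  have cP : Nat.card (parabolicGL n F μ) = _ :=
    (Nat.card_congr (((Matrix.equiv_GL_linearindependent n).subtypeEquiv (q := fun s => ∀ j, s.1 j ∈ W j)
      fun g => ⟨fun h j i hi => @h i j hi, fun h i j hi => h j i hi⟩).trans
        (Equiv.subtypeSubtypeEquivSubtypeInter _ fun s : Fin n → Fin n → F => ∀ j, s j ∈ W j))).trans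
      (cnt W fun a b h v hv i hi => hv i ((hb h).trans_lt hi))
  have key : ∀ m j, j < m → (x + 1) ^ m - (x + 1) ^ j =
      (∑ l ∈ range (m - j), (x + 1) ^ l) * ((x + 1) ^ j * x) := fun m j h => by
    obtain ⟨r, rfl⟩ := Nat.exists_eq_add_of_le h.le
    rw [pow_add, ← geom_sum_mul_add x r, Nat.add_sub_cancel_left, mul_add, mul_one, Nat.add_sub_cancel]
    ring
  obtain ⟨b1, b2⟩ := blocks μ hμ fun r => ∑ l ∈ range r, (x + 1) ^ l
  have e := (parabolicGL n F μ).card_eq_card_quotient_mul_card_subgroup
  rw [Matrix.card_GL_field, cP, hq] at e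
  simp only [cW, key _ _ (b1 _), key _ _ (Fin.is_lt _), prod_mul_distrib, ← mul_assoc] at e
  rw [mul_left_inj' (by positivity), mul_left_inj' (by positivity), b2] at e
  rw [← e, ← prod_range_reflect, prod_range]
  exact prod_congr rfl fun j _ => by congr 2; omega

end Cfsg.Agent.S2420
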