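import Cfsg.Statements.S0743
import Mathlib
import Cfsg.Agent.Lib.Perm.PermMulti

set_option autoImplicit false
open Cfsg

namespace Cfsg.Agent.S0743

open MulAction CA.PermBasic CA.PermMulti

theorem aux {G α : Type*} [Group G] [MulAction G α] [Fintype α] [DecidableEq α] {p : ℕ}
    (hp : p.Prime) (k : ℕ) (hkn : k < Fintype.card α)
    (h : ∀ s : Finset α, s.card = k → ∃ P : Subgroup G, IsPGroup p P ∧
      MulAction.fixedPoints P α = (s : Set α)) (t : Finset α) (ht : t.card < k) (x y : α)
    (hx : x ∉ t) (hy : y ∉ t) : ∃ g : G, (∀ z ∈ t, g • z = z) ∧ g • x = y := by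
  have := Fact.mk hp
  -- `O` is the orbit of `x` under the pointwise stabilizer of `t`
  let O : Set α := {u | ∃ g : G, (∀ z ∈ t, g • z = z) ∧ g • x = u}
  by_contra hyO
  have hxO : x ∈ O := ⟨1, by simp, by simp⟩
  have hOt : ∀ u ∈ O, u ∉ t := by
    rintro _ ⟨g, hg, rfl⟩ hu
    have := hg _ hu
    rw [smul_left_cancel_iff] at this
    exact hx (this ▸ hu)
  have key : ∀ s : Finset α, s.card = k → t ⊆ s → O.ncard ≡ (O ∩ s).ncard [MOD p] := by
    intro s hs hts
    obtain ⟨P, hP, hfix⟩ := h s hs
    have hfix' : ∀ u, u ∈ s ↔ ∀ g ∈ P, g • u = u := fun u => by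
      rw [← Finset.mem_coe, ← hfix, mem_fixedPoints]
      exact ⟨fun h g hg => h ⟨g, hg⟩, fun h g => h g g.2⟩
    have := ncard_modEq_fixed P hP O (Set.toFinite _) (by
      rintro g hg _ ⟨k, hk, rfl⟩
      exact ⟨g * k, fun z hz => by rw [mul_smul, hk z hz, (hfix' z).1 (hts hz) g hg],
        mul_smul _ _ _⟩)
    convert this using 2
    ext u
    simp [hfix']
  obtain ⟨s, hs1, hs2, hs3⟩ := Finset.exists_subsuperset_card_eq (s := t)
    (t := (Finset.univ.erase x).erase y) (n := k - 1) (fun z hz => by
      simp only [Finset.mem_erase, Finset.mem_univ, and_true]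
      exact ⟨fun e => hy (e ▸ hz), fun e => hx (e ▸ hz)⟩) (by omega) (by
      have := Finset.pred_card_le_card_erase (s := Finset.univ.erase x) (a := y)
      rw [Finset.card_erase_of_mem (Finset.mem_univ x), Finset.card_univ] at this
      omega)
  have hxs : x ∉ s := fun h => by simpa using hs2 h
  have hys : y ∉ s := fun h => by simpa using hs2 h
  have h1 := key (insert x s) (by rw [Finset.card_insert_of_notMem hxs]; omega)
    (hs1.trans (Finset.subset_insert _ _))
  have h2 := key (insert y s) (by rw [Finset.card_insert_of_notMem hys]; omega)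
    (hs1.trans (Finset.subset_insert _ _))
  rw [Finset.coe_insert, Set.inter_insert_of_mem hxO, Set.ncard_insert_of_notMem
    (fun h => hxs h.2)] at h1
  rw [Finset.coe_insert, Set.inter_insert_of_notMem (show y ∉ O from hyO)] at h2
  have h3 := (h1.symm.trans h2).symm
  have h4 := (Nat.modEq_iff_dvd' (Nat.le_succ _)).1 h3
  simp only [Nat.succ_eq_add_one, add_tsub_cancel_left, Nat.dvd_one] at h4
  exact hp.one_lt.ne' h4

/-- Gleason's Lemma: let `p` be a prime and `1 ≤ k < n`; if every `k`-subset of the `n` points is exactly the fixed-point set of some `p`-subgroup of `G`, then `G` is `k`-transitive. -/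
theorem result {α : Type*} [Fintype α] [DecidableEq α] (G : Subgroup (Equiv.Perm α)) {p k : ℕ} (hp : p.Prime) (hk : 1 ≤ k) (hkn : k < Fintype.card α) (h : ∀ s : Finset α, s.card = k → ∃ P : Subgroup G, IsPGroup p P ∧ MulAction.fixedPoints P α = (s : Set α)) : MulAction.IsMultiplyPretransitive G α k := by
  suffices H : ∀ j ≤ k, IsMultiplyPretransitive G α j from H k le_rfl
  intro j hj
  induction j with
  | zero => exact is_zero_pretransitive
  | succ j ih =>
    obtain ⟨t, -, ht⟩ := Finset.exists_subset_card_eq (s := (Finset.univ : Finset α)) (n := j)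
      (by rw [Finset.card_univ]; omega)
    refine mpt_add_of_fixing (ih (by omega)) (t : Set α) (Set.toFinite _)
      (by rw [Set.ncard_coe_finset, ht]) ?_
    rw [is_one_pretransitive_iff, pretransitive_fixing_iff]
    exact fun x y hx hy => aux hp k hkn h t (by omega) x y hx hy

end Cfsg.Agent.S0743
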