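import Cfsg.Statements.S0744
import Mathlib
import Cfsg.Agent.Lib.Perm.PermMulti
import Cfsg.Agent.S0743

set_option autoImplicit false
open Cfsg

namespace Cfsg.Agent.S0744

open MulAction CA.PermBasic CA.PermMulti

/-- If for some `k > 1` the pointwise stabilisers of all `(k-1)`-subsets have the same order `> 1` and those of all `k`-subsets have the same order, then the group is `(k-1)`-transitive. -/
theorem result {α : Type*} [Fintype α] [DecidableEq α] (G : Subgroup (Equiv.Perm α)) {k : ℕ} (hk : 1 < k) (hkn : k ≤ Fintype.card α) (l m : ℕ) (hl : 1 < l) (hkm1 : ∀ s : Finset α, s.card = k - 1 → Nat.card (fixingSubgroup G (s : Set α)) = l) (hkm : ∀ s : Finset α, s.card = k → Nat.card (fixingSubgroup G (s : Set α)) = m) : MulAction.IsMultiplyPretransitive G α (k - 1) := by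
  classical
  obtain ⟨s₀, -, hs₀⟩ := Finset.exists_subset_card_eq (s := (Finset.univ : Finset α)) (n := k - 1)
      (by rw [Finset.card_univ]; omega)
  -- all orbits of the stabilizer of a `(k-1)`-set outside it have the same length `l / m`
  have horb : ∀ s : Finset α, s.card = k - 1 → ∀ x ∉ s,
      Nat.card (orbit (fixingSubgroup G (s : Set α)) x) * m = l := by
    intro s hs x hx
    rw [← hkm1 s hs, ← card_orbit_mul_card_stabilizer (G := fixingSubgroup G (s : Set α)) x, ← hkm (insert x s)
      (by rw [Finset.card_insert_of_notMem hx]; omega), ← Subgroup.card_subtype _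
      (stabilizer (fixingSubgroup G (s : Set α)) x)]
    congr 3
    ext g
    simp only [Finset.coe_insert, SubMulAction.mem_fixingSubgroup_insert_iff, Subgroup.mem_map,
      mem_stabilizer_iff, Subgroup.coe_subtype]
    exact ⟨fun h => ⟨⟨g, h.2⟩, h.1, rfl⟩, by rintro ⟨u, hu, rfl⟩; exact ⟨hu, u.2⟩⟩
  obtain ⟨x₀, -, hx₀⟩ := Finset.exists_mem_notMem_of_card_lt_card (s := s₀) (t := Finset.univ)
    (by rw [Finset.card_univ]; omega)
  have hm : 0 < m := Nat.pos_of_mul_pos_left (by rw [horb s₀ hs₀ x₀ hx₀]; omega)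
  set d := Nat.card (orbit (fixingSubgroup G (s₀ : Set α)) x₀) with hd
  have horb' : ∀ s : Finset α, s.card = k - 1 → ∀ x ∉ s,
      Nat.card (orbit (fixingSubgroup G (s : Set α)) x) = d := fun s hs x hx =>
    Nat.eq_of_mul_eq_mul_right hm ((horb s hs x hx).trans (horb s₀ hs₀ x₀ hx₀).symm)
  have hd1 : d ≠ 1 := by
    intro h1
    have : fixingSubgroup G (s₀ : Set α) = ⊥ := by
      rw [eq_bot_iff]
      intro g hg
      rw [Subgroup.mem_bot]
      apply eq_one_of_forall_smul (X := α)
      intro x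
      by_cases hx : x ∈ s₀
      · exact (mem_fixingSubgroup_iff G).1 hg x hx
      · have h2 := horb' s₀ hs₀ x hx
        rw [h1, Nat.card_eq_one_iff_unique] at h2
        exact congrArg Subtype.val (h2.1.elim ⟨_, mem_orbit x (⟨g, hg⟩ : fixingSubgroup G _)⟩
          ⟨x, mem_orbit_self x⟩)
    have h2 := hkm1 s₀ hs₀
    rw [this, Subgroup.card_bot] at h2
    omega
  obtain ⟨p, hp, hpd⟩ := Nat.exists_prime_and_dvd hd1
  have := Fact.mk hp
  refine Cfsg.Agent.S0743.result G hp (by omega) (by omega) (fun s hs => ?_)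
  obtain ⟨P, hP⟩ := exists_isSylowIn p (fixingSubgroup G (s : Set α))
  refine ⟨P, hP.isPGroup, ?_⟩
  ext x
  refine ⟨fun hx => ?_, fun hx g => (mem_fixingSubgroup_iff G).1 (hP.1 g.2) x hx⟩
  by_contra hxs
  have h1 := pow_dvd_card_orbit hP x (k := 1) (by rw [horb' s hs x hxs, pow_one]; exact hpd)
  rw [pow_one, mem_fixedPoints_iff_card_orbit_eq_one.1 hx |> (Nat.card_eq_fintype_card.trans ·),
    Nat.dvd_one] at h1
  exact hp.one_lt.ne' h1

end Cfsg.Agent.S0744
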