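import Cfsg.Statements.S0206
import Cfsg.Agent.Lib.Grp.H13Inv

set_option autoImplicit false
open Cfsg

namespace Cfsg.Agent.S0206

open DihedralGroup in
/-- The map from the dihedral group. -/
noncomputable def toFun {G : Type*} [Group G] (x y : G) : DihedralGroup (orderOf (x * y)) → G
  | r i => (x * y) ^ (i.cast : ℤ)
  | sr i => x * (x * y) ^ (i.cast : ℤ)

theorem zpow_cast_add {G : Type*} [Group G] (r : G) (i j : ZMod (orderOf r)) :
    r ^ ((i + j).cast : ℤ) = r ^ (i.cast : ℤ) * r ^ (j.cast : ℤ) := by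
  rw [← zpow_add, zpow_eq_zpow_iff_modEq, ← ZMod.intCast_eq_intCast_iff]
  simp

theorem zpow_cast_sub {G : Type*} [Group G] (r : G) (i j : ZMod (orderOf r)) :
    r ^ ((j - i).cast : ℤ) = r ^ (-(i.cast : ℤ)) * r ^ (j.cast : ℤ) := by
  rw [← zpow_add, zpow_eq_zpow_iff_modEq, ← ZMod.intCast_eq_intCast_iff]
  simp; ring

theorem toFun_mul {G : Type*} [Group G] {x y : G} (hx : x * x = 1) (hy : y * y = 1)
    (a b : DihedralGroup (orderOf (x * y))) : toFun x y (a * b) = toFun x y a * toFun x y b := by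
  rcases a with i | i <;> rcases b with j | j
  · exact zpow_cast_add _ i j
  · show x * (x * y) ^ ((j - i).cast : ℤ) = (x * y) ^ (i.cast : ℤ) * (x * (x * y) ^ (j.cast : ℤ))
    rw [zpow_cast_sub, ← mul_assoc, CA.H13Inv.mul_prod_zpow hx hy, neg_neg, mul_assoc]
  · show x * (x * y) ^ ((i + j).cast : ℤ) = x * (x * y) ^ (i.cast : ℤ) * (x * y) ^ (j.cast : ℤ)
    rw [zpow_cast_add, mul_assoc]
  · show (x * y) ^ ((j - i).cast : ℤ)
      = x * (x * y) ^ (i.cast : ℤ) * (x * (x * y) ^ (j.cast : ℤ))
    rw [zpow_cast_sub, CA.H13Inv.mul_prod_zpow hx hy, mul_assoc, ← mul_assoc x x, hx, one_mul]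

/-- Two distinct involutions x, y of a finite group generate a subgroup isomorphic to the dihedral group of order 2·|xy|. -/
theorem result {G : Type*} [Group G] [Finite G] (x y : G) (hx : orderOf x = 2) (hy : orderOf y = 2) (hxy : x ≠ y) : Nonempty (↥(Subgroup.closure ({x, y} : Set G)) ≃* DihedralGroup (orderOf (x * y))) := by
  have hx2 := CA.H13Inv.mul_self hx
  have hy2 := CA.H13Inv.mul_self hy
  let f : DihedralGroup (orderOf (x * y)) →* G := MonoidHom.mk' (toFun x y) (toFun_mul hx2 hy2)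
  have hinj : Function.Injective f := by
    rw [injective_iff_map_eq_one]
    rintro (i | i) h
    · have h' : (x * y) ^ (i.cast : ℤ) = 1 := h
      rw [← orderOf_dvd_iff_zpow_eq_one, ← ZMod.intCast_zmod_eq_zero_iff_dvd] at h'
      simp only [ZMod.intCast_cast, ZMod.cast_id', id_eq] at h'
      rw [h']; rfl
    · have h' : x * (x * y) ^ (i.cast : ℤ) = 1 := h
      exfalso
      apply CA.H13Inv.not_mem_zpowers hx hy
      rw [eq_inv_of_mul_eq_one_left h']
      exact Subgroup.inv_mem _ (by
        rw [← eq_inv_of_mul_eq_one_left h']; exact Subgroup.zpow_mem_zpowers _ _)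
  have hr : f.range = Subgroup.closure ({x, y} : Set G) := by
    apply le_antisymm
    · rintro _ ⟨i | i, rfl⟩
      · exact CA.H13Inv.zpow_prod_mem x y _
      · exact Subgroup.mul_mem _ (Subgroup.subset_closure (by simp)) (CA.H13Inv.zpow_prod_mem x y _)
    · rw [Subgroup.closure_le]
      have h0 : f (DihedralGroup.sr 0) = x := by
        show x * (x * y) ^ ((0 : ZMod (orderOf (x * y))).cast : ℤ) = x
        simp
      have h1 : f (DihedralGroup.sr 1) = y := by
        show x * (x * y) ^ ((1 : ZMod (orderOf (x * y))).cast : ℤ) = y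
        have : (x * y) ^ ((1 : ZMod (orderOf (x * y))).cast : ℤ) = (x * y) ^ (1 : ℤ) := by
          rw [zpow_eq_zpow_iff_modEq, ← ZMod.intCast_eq_intCast_iff]; simp
        rw [this, zpow_one, ← mul_assoc, hx2, one_mul]
      rintro a (rfl | ha)
      · exact ⟨_, h0⟩
      · rw [Set.mem_singleton_iff] at ha
        subst ha
        exact ⟨_, h1⟩
  exact ⟨(MulEquiv.subgroupCongr hr.symm).trans (MonoidHom.ofInjective hinj).symm⟩

end Cfsg.Agent.S0206
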