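import Cfsg.Statements.S0331
import Cfsg.Agent.Lib.Lie.SzSub

set_option autoImplicit false
open Cfsg

namespace Cfsg.Agent.S0331

/-- For every odd prime `p` the Sylow `p`-subgroups of the Suzuki group are cyclic. -/
theorem result {F : Type*} [Field F] [Fintype F] {m : ℕ} (hm : 1 ≤ m)
    (hF : Fintype.card F = 2 ^ (2 * m + 1)) {p : ℕ} [Fact p.Prime] (hp : p ≠ 2)
    (P : Sylow p (Cfsg.Sz F m)) : IsCyclic P := by
  have : CA.SzBasic.Hyp F m := ⟨hm, hF⟩
  open CA.SzBasic CA.SzGroup CA.SzSub in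
  rcases subsingleton_or_nontrivial P with h | h
  · exact isCyclic_of_subsingleton
  obtain ⟨z, -, hzc, hzo⟩ := CA.PGBasic.exists_mem_center_orderOf P.2 (M := ⊤) top_ne_bot
  have ho : orderOf (z : G F) = p := by rw [Subgroup.orderOf_coe, hzo]
  have hp' : p.Prime := Fact.out
  obtain ⟨-, hc, -⟩ := cent_of_not_cls_U (g := (z : G F))
    (fun e => by rw [e, orderOf_one] at ho; exact hp'.one_lt.ne ho)
    (not_cls_U_of_odd (by rw [ho]; exact hp'.odd_of_ne_two hp))
  exact Subgroup.isCyclic_of_le (H' := Subgroup.centralizer {(z : G F)}) fun s hs =>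
    Subgroup.mem_centralizer_singleton_iff.2 (congrArg Subtype.val (Subgroup.mem_center_iff.1 hzc ⟨s, hs⟩))

end Cfsg.Agent.S0331
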