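import Cfsg.Statements.S0801
import Cfsg.Agent.Lib.Lin.SL2Dickson

set_option autoImplicit false
open Cfsg

namespace Cfsg.Agent.S0801

open Matrix MulAction OnePoint CA.KleinCount CA.PGL2Act CA.PGL2Dickson CA.SL2Embed
open scoped MatrixGroups

theorem card_le_of_pow {F : Type*} [Field F] [Fintype F] (p n : ℕ) [Fact p.Prime] [CharP F p]
    (hn : 0 < n) (lam : F) (hgen : Subfield.closure ({lam} : Set F) = ⊤) (h : lam ^ p ^ n = lam) :
    Fintype.card F ≤ p ^ n := by
  have h1 : ∀ z : F, z ^ p ^ n = z := by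
    intro z
    have : Subfield.closure ({lam} : Set F) ≤
        RingHom.eqLocusField (iterateFrobenius F p n) (RingHom.id F) := by
      rw [Subfield.closure_le]
      rintro _ rfl
      exact h
    rw [hgen] at this
    exact this (Subfield.mem_top z)
  have hp : 1 < p ^ n := Nat.one_lt_pow hn.ne' (Fact.out : p.Prime).one_lt
  have h2 : Fintype.card F - 1 ∣ p ^ n - 1 := by
    rw [← FiniteField.forall_pow_eq_one_iff]
    intro x
    apply mul_right_cancel (b := x)
    rw [← pow_succ, Nat.sub_add_cancel hp.le, one_mul]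
    exact Units.ext (by simpa using h1 x)
  have := Nat.le_of_dvd (by omega) h2
  omega

theorem A5_pow (g : alternatingGroup (Fin 5)) : g ^ 2 = 1 ∨ g ^ 3 = 1 ∨ g ^ 5 = 1 := by
  have : ∀ g : Equiv.Perm (Fin 5), Equiv.Perm.sign g = 1 → g ^ 2 = 1 ∨ g ^ 3 = 1 ∨ g ^ 5 = 1 := by
    decide +kernel
  rcases this g.1 g.2 with h | h | h
  · exact Or.inl (Subtype.ext h)
  · exact Or.inr (Or.inl (Subtype.ext h))
  · exact Or.inr (Or.inr (Subtype.ext h))

theorem trace_cond {F : Type*} [Field F] (a b c d : F) (h : a * d - b * c = 1) (hc : c ≠ 0)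
    (hs : ((mk2 a b c d h) ^ 2).1 1 0 = 0 ∨ ((mk2 a b c d h) ^ 3).1 1 0 = 0 ∨
      ((mk2 a b c d h) ^ 5).1 1 0 = 0) :
    a + d = 0 ∨ (a + d) ^ 2 - 1 = 0 ∨ (a + d) ^ 4 - 3 * (a + d) ^ 2 + 1 = 0 := by
  simp [pow_succ] at hs
  rcases hs with hs | hs | hs
  · left; apply mul_left_cancel₀ hc; grind
  · right; left; apply mul_left_cancel₀ hc; grind
  · right; right; apply mul_left_cancel₀ hc; grind

/-- An invariant form of degree twelve. -/
def f12 {F : Type*} [Field F] (v : Fin 2 → F) : F :=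
  v 0 ^ 12 + v 0 ^ 10 * v 1 ^ 2 - v 0 ^ 6 * v 1 ^ 6 + v 0 ^ 2 * v 1 ^ 10 - v 1 ^ 12

theorem not_top {F : Type*} [Field F] [CharP F 3] (lam : F) (hl : lam ^ 2 = -1) :
    Subgroup.closure {g : SL(2, F) | (g : Matrix (Fin 2) (Fin 2) F) = !![1, 0; 1, 1] ∨
      (g : Matrix (Fin 2) (Fin 2) F) = !![1, lam; 0, 1]} ≠ ⊤ := by
  intro htop
  let S : Subgroup SL(2, F) :=
    { carrier := {g | ∀ v : Fin 2 → F, f12 (g • v) = f12 v}
      one_mem' := fun v => by rw [one_smul]
      mul_mem' := fun {a b} ha hb v => by rw [mul_smul, ha, hb]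
      inv_mem' := fun {a} ha v => by rw [← ha (a⁻¹ • v), smul_inv_smul] }
  have hle : ⊤ ≤ S := by
    rw [← htop, Subgroup.closure_le]
    rintro g (hg | hg) v <;>
      rw [Matrix.SpecialLinearGroup.smul_def, hg] <;> simp [f12, vecHead, vecTail] <;> grind
  have := hle (Subgroup.mem_top (mk2 (1 + lam) 0 0 (1 + lam)⁻¹ (by
    rw [mul_inv_cancel₀ (by grind)]; simp))) ![1, 0]
  rw [Matrix.SpecialLinearGroup.smul_def] at this
  simp [f12] at this
  grind

/-- Let F be a finite field of odd characteristic and λ ≠ 0 an element generating F as a field. Then the lower and upper unitriangular matrices with off-diagonal entries 1 and λ generate SL_2(F), unless |F| = 9 and λ² = −1, in which case they generate a subgroup of order 120. -/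
theorem result {F : Type*} [Field F] [Fintype F] (h2 : (2 : F) ≠ 0) (lam : F) (hlam : lam ≠ 0) (hgen : Subfield.closure ({lam} : Set F) = ⊤) : (Subgroup.closure {g : Matrix.SpecialLinearGroup (Fin 2) F | (g : Matrix (Fin 2) (Fin 2) F) = !![1, 0; 1, 1] ∨ (g : Matrix (Fin 2) (Fin 2) F) = !![1, lam; 0, 1]} = ⊤ ∧ ¬ (Fintype.card F = 9 ∧ lam ^ 2 = -1)) ∨ (Fintype.card F = 9 ∧ lam ^ 2 = -1 ∧ Nat.card ↥(Subgroup.closure {g : Matrix.SpecialLinearGroup (Fin 2) F | (g : Matrix (Fin 2) (Fin 2) F) = !![1, 0; 1, 1] ∨ (g : Matrix (Fin 2) (Fin 2) F) = !![1, lam; 0, 1]}) = 120) := by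
  classical
  set L := Subgroup.closure {g : SL(2, F) | (g : Matrix (Fin 2) (Fin 2) F) = !![1, 0; 1, 1] ∨
    (g : Matrix (Fin 2) (Fin 2) F) = !![1, lam; 0, 1]} with hL
  obtain ⟨p, hp⟩ := CharP.exists F
  have : Fact p.Prime := ⟨CharP.char_is_prime F p⟩
  have hp2 : p ≠ 2 := by
    rintro rfl
    exact h2 (by exact_mod_cast CharP.cast_eq_zero F 2)
  let k := AlgebraicClosure F
  let f := algebraMap F k
  have hx : mk2 (1 : F) 0 1 1 (by simp) ∈ L := Subgroup.subset_closure (Or.inl rfl)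
  have hy : mk2 (1 : F) lam 0 1 (by simp) ∈ L := Subgroup.subset_closure (Or.inr rfl)
  have hx' : piS f (mk2 (1 : F) 0 1 1 (by simp)) = W * A 1 1 * W⁻¹ := by
    rw [W_inv, ← toPGL_transvection10, piS_eq]
    congr 1
    ext i j
    fin_cases i <;> fin_cases j <;> simp [SpecialLinearGroup.transvection_coe]
  have hy' : piS f (mk2 (1 : F) lam 0 1 (by simp)) = A 1 (f lam) := by
    rw [← toPGL_transvection01, piS_eq]
    congr 1
    ext i j
    fin_cases i <;> fin_cases j <;> simp [SpecialLinearGroup.transvection_coe]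
  have ux : Uni (piS f (mk2 (1 : F) 0 1 1 (by simp))) ((W : PGL(2, k)) • (∞ : OnePoint k)) :=
    uni_iff.2 ⟨1, one_ne_zero, hx'⟩
  have uy : Uni (piS f (mk2 (1 : F) lam 0 1 (by simp))) (∞ : OnePoint k) :=
    uni_infty_iff.2 ⟨_, (map_ne_zero f).2 hlam, hy'⟩
  have : Finite (L.map (piS f)) := Finite.of_surjective _ ((piS f).subgroupMap_surjective L)
  have h2k : (2 : k) ≠ 0 := CA.SL2Basic.two_ne_zero_of_char p hp2
  have s1 : mk2 (1 : F) lam 1 (1 + lam) (by ring) ∈ L := by
    convert L.mul_mem hx hy using 1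
    ext i j
    fin_cases i <;> fin_cases j <;> simp [add_comm]
  have s2 : mk2 (1 : F) lam (-1) (1 - lam) (by ring) ∈ L := by
    convert L.mul_mem (L.inv_mem hx) hy using 1
    rw [eq_inv_mul_iff_mul_eq]
    ext i j
    fin_cases i <;> fin_cases j <;> simp
  have hodd := CA.SL2Basic.odd_card_of_two_ne_zero h2
  have hcF := CA.SLnCard.card_PSL2_odd hodd
  have hleR : L.map (piS f) ≤ (piS f).range := Subgroup.map_le_range _ _
  have : Finite (piS f).range := Finite.of_surjective _ (MonoidHom.rangeRestrict_surjective _)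
  have hleC := Subgroup.card_le_of_le hleR
  rw [card_range_piS] at hleC
  rcases dickson_uni h2k (L.map (piS f)) ⟨_, hx, rfl⟩ ⟨_, hy, rfl⟩ ux uy
    (by rw [W_smul_infty]; exact coe_ne_infty _) with ⟨h60, hs, h3⟩ | ⟨K, γ, hK, h3, hle, hge⟩
  · right
    have hp3 : p = 3 := ((Nat.prime_dvd_prime_iff_eq Fact.out Nat.prime_three).1
      ((CharP.cast_eq_zero_iff k p 3).1 h3))
    subst hp3
    obtain ⟨e⟩ := Cfsg.Agent.S0494.result h60
    have key : ∀ s ∈ L, (s ^ 2).1 1 0 = 0 ∨ (s ^ 3).1 1 0 = 0 ∨ (s ^ 5).1 1 0 = 0 := by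
      intro s hs
      have aux : ∀ n : ℕ, e ⟨piS f s, s, hs, rfl⟩ ^ n = 1 → (s ^ n).1 1 0 = 0 := by
        intro n hn
        rw [← map_pow, map_eq_one_iff _ e.injective] at hn
        have : piS f (s ^ n) = 1 := by rw [map_pow]; exact congrArg Subtype.val hn
        rcases (piS_eq_one_iff f _).1 this with h | h <;> rw [h] <;> simp
      exact (A5_pow _).imp (aux 2) (Or.imp (aux 3) (aux 5))
    have t1 := trace_cond _ _ _ _ _ one_ne_zero (key _ s1)
    have t2 := trace_cond _ _ _ _ _ (neg_ne_zero.2 one_ne_zero) (key _ s2)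
    have hq3 : ¬ Fintype.card F ≤ 3 := by
      intro h
      rw [h60] at hleC
      rw [Nat.card_eq_fintype_card (α := F)] at hcF
      interval_cases (Fintype.card F) <;> omega
    have hl : lam ^ 2 = -1 := by
      by_contra hne
      apply hq3
      refine card_le_of_pow 3 1 one_pos lam hgen ?_
      rcases t1 with t1 | t1 | t1 <;> rcases t2 with t2 | t2 | t2 <;> grind
    have hq9 : Fintype.card F ≤ 9 := card_le_of_pow 3 2 two_pos lam hgen (by grind)
    obtain ⟨n, -, hn⟩ := FiniteField.card F 3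
    have hq : Fintype.card F = 9 := by
      rw [hn] at hq3 hq9 ⊢
      have h1 : (n : ℕ) ≤ 2 := by
        by_contra hh
        have : 3 ^ 3 ≤ 3 ^ (n : ℕ) := Nat.pow_le_pow_right (by norm_num) (by omega)
        omega
      interval_cases (n : ℕ) <;> omega
    refine ⟨hq, hl, ?_⟩
    have hd : 2 ∣ Nat.card L := by
      refine dvd_trans ?_ (Subgroup.card_map_dvd L (piS f))
      rw [h60]; norm_num
    rw [card_eq_of_neg_one_mem f h2 L (CA.SL2Basic.neg_one_mem_of_even h2 L hd), h60]
  · left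
    have htau : ∀ s ∈ L, f (s.1.trace ^ 2) ∈ K := by
      intro s hs
      obtain ⟨g, hg⟩ := hle ⟨_, ⟨s, hs, rfl⟩, rfl⟩
      have := congrArg tau hg
      rw [tau_map] at this
      change _ = tau (γ * piS f s * γ⁻¹) at this
      rw [tau_conj, tau_piS] at this
      rw [← this]; exact (tau g).2
    have hlamK : f lam ∈ K := by
      have h8 := K.sub_mem (htau _ s1) (htau _ s2)
      have e8 : f lam = (f ((mk2 (1 : F) lam 1 (1 + lam) (by ring)).1.trace ^ 2) -
          f ((mk2 (1 : F) lam (-1) (1 - lam) (by ring)).1.trace ^ 2)) / 2 ^ 3 := by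
        rw [eq_div_iff (pow_ne_zero _ h2k)]
        simp [trace_fin_two]
        ring
      rw [e8]
      exact K.div_mem h8 (K.pow_mem (by simp) _)
    have hFK : ∀ z : F, f z ∈ K := by
      intro z
      have : Subfield.closure ({lam} : Set F) ≤ K.comap f := by
        rw [Subfield.closure_le]; rintro _ rfl; exact hlamK
      rw [hgen] at this
      exact this (Subfield.mem_top z)
    have hcK : Nat.card F ≤ Nat.card K :=
      Nat.card_le_card_of_injective (fun z => (⟨f z, hFK z⟩ : K))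
        (fun a b h => f.injective (congrArg Subtype.val h))
    have hKodd : Odd (Nat.card K) := CA.SL2Basic.odd_card_of_two_ne_zero (fun h => h2k (by
      have := congrArg K.subtype h
      rwa [map_ofNat, map_zero] at this))
    have hcK2 := CA.SLnCard.card_PSL2_odd hKodd
    have : Finite ((L.map (piS f)).map (MulAut.conj γ).toMonoidHom) :=
      Finite.of_surjective _ (MonoidHom.subgroupMap_surjective _ _)
    have hgeC := Subgroup.card_le_of_le hge
    rw [card_range_piS, Subgroup.card_map_of_injective (MulAut.conj γ).injective] at hgeC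
    have hmono : Nat.card F * (Nat.card F ^ 2 - 1) ≤ Nat.card K * (Nat.card K ^ 2 - 1) :=
      Nat.mul_le_mul hcK (Nat.sub_le_sub_right (Nat.pow_le_pow_left hcK 2) 1)
    have heq : L.map (piS f) = (piS f).range :=
      Subgroup.eq_of_le_of_card_ge hleR (by rw [card_range_piS]; omega)
    have hneg := (exists_sl_le _ f L γ hge).1
    have htop : L = ⊤ := by
      rw [eq_top_iff]
      intro s _
      obtain ⟨t, ht, e⟩ : piS f s ∈ L.map (piS f) := heq ▸ ⟨s, rfl⟩
      rcases (piS_eq_iff f _ _).1 e with rfl | rfl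
      · exact ht
      · simpa using L.mul_mem hneg ht
    refine ⟨htop, fun ⟨h9, hl⟩ => ?_⟩
    have hp3 : p = 3 := by
      have : ((9 : ℕ) : F) = 0 := h9 ▸ FiniteField.cast_card_eq_zero F
      rw [CharP.cast_eq_zero_iff F p, show 9 = 3 ^ 2 by norm_num] at this
      exact (Nat.prime_dvd_prime_iff_eq Fact.out Nat.prime_three).1
        ((Fact.out : p.Prime).dvd_of_dvd_pow this)
    subst hp3
    exact not_top lam hl htop

end Cfsg.Agent.S0801
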