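import Cfsg.Statements.S0006
import Cfsg.Agent.Lib.Char.CharBurn

set_option autoImplicit false
open Cfsg

namespace Cfsg.Agent.S0006

/-- Converse of Hall's Theorem: if for every prime p a finite group has a subgroup of index equal to the p-part of the group order (a Hall p-complement), then the group is solvable. -/
theorem result {G : Type*} [Group G] [Finite G]
    (h : ∀ p : ℕ, p.Prime → ∃ H : Subgroup G, H.index = p ^ (Nat.card G).factorization p) :
    Group.IsSolvable G := by
  refine CChar.CharBurn.isSolvable_of_complements fun p hp => ?_
  obtain ⟨H, hH⟩ := h p hp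
  refine ⟨H, _, hH, fun hd => ?_⟩
  have h1 := H.card_mul_index
  rw [hH] at h1
  have h2 : p ^ ((Nat.card G).factorization p + 1) ∣ Nat.card G := by
    conv_rhs => rw [← h1]
    rw [pow_succ']
    exact Nat.mul_dvd_mul_right hd _
  exact Nat.pow_succ_factorization_not_dvd Nat.card_pos.ne' hp h2

end Cfsg.Agent.S0006
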