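import Cfsg.Statements.S0021
import Cfsg.Agent.Lib.Grp.H1Carter
import Cfsg.Agent.S0006

set_option autoImplicit false
open Pointwise
open Cfsg

namespace Cfsg.Agent.S0021

open CA.H1Carter CA.H1Prod CA.H1Nil CA.H1Basic CA.H1Hall

/-- A finite group with a family of pairwise permuting Sylow subgroups, one for each prime, is solvable (this direction rests on Burnside's two-prime Theorem). -/
theorem result {G : Type*} [Group G] [Finite G]
    (S : (p : Nat.Primes) → Sylow (p : ℕ) G)
    (hS : ∀ p q : Nat.Primes, (S p : Set G) * (S q : Set G) = (S q : Set G) * (S p : Set G)) :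
    Group.IsSolvable G := by
  classical
  have hP : ∀ p q : Nat.Primes, Pm (S p : Subgroup G) (S q : Subgroup G) := fun p q =>
    pm_iff_mul_comm.mpr (hS p q)
  have key : ∀ T : Finset Nat.Primes, ∀ r : ℕ, r.Prime →
      r ∣ Nat.card (⨆ q ∈ T, (S q : Subgroup G) : Subgroup G) → ∃ q ∈ T, (q : ℕ) = r := by
    intro T
    induction T using Finset.induction_on with
    | empty =>
      intro r hr hd
      simp only [Finset.notMem_empty, iSup_false, iSup_bot, Subgroup.card_bot] at hd
      exact absurd hd hr.not_dvd_one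
    | insert a s ha ih =>
      intro r hr hd
      rw [Finset.iSup_insert] at hd
      have h1 : Pm (S a : Subgroup G) (⨆ q ∈ s, (S q : Subgroup G)) :=
        pm_iSup fun i => pm_iSup fun _ => hP a i
      rcases (Nat.Prime.dvd_mul hr).mp (hd.trans h1.card_sup_dvd) with h | h
      · exact ⟨a, Finset.mem_insert_self a s,
          (eq_of_prime_dvd_card_of_isPGroup a.2 hr (S a).2 h).symm⟩
      · obtain ⟨q, hq, e⟩ := ih r hr h
        exact ⟨q, Finset.mem_insert_of_mem hq, e⟩
  refine Cfsg.Agent.S0006.result fun p hp => ?_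
  let H : Subgroup G := ⨆ q ∈ (primesOf G).erase ⟨p, hp⟩, (S q : Subgroup G)
  obtain ⟨j, hj⟩ := dvd_pow_of_prime_factors (p := p) (Subgroup.index_ne_zero_of_finite (H := H))
    fun q hq hd => by
      by_contra hne
      have : Fact q.Prime := ⟨hq⟩
      have h1 : (S ⟨q, hq⟩ : Subgroup G) ≤ H := le_biSup (fun q : Nat.Primes => (S q : Subgroup G))
        (Finset.mem_erase.mpr ⟨fun e => hne (congrArg Subtype.val e),
          mem_primesOf.mpr (hd.trans H.index_dvd_card)⟩)
      exact (S ⟨q, hq⟩).not_dvd_index (hd.trans (Subgroup.index_dvd_of_le h1))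
  refine ⟨H, index_eq_pow_factorization hp hj.dvd fun h => ?_⟩
  obtain ⟨q, hq, e⟩ := key _ p hp h
  exact (Finset.mem_erase.mp hq).1 (Subtype.ext e)

end Cfsg.Agent.S0021
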