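import Cfsg.Statements.S0572
import Cfsg.Agent.Lib.Grp.H1Prod

set_option autoImplicit false
open Cfsg

namespace Cfsg.Agent.S0572

open scoped commutatorElement

/-- Itô's Theorem: if a group G is the product AB of two abelian subgroups, then the commutator subgroup of G is abelian, i.e. the second term of the derived series is trivial. -/
theorem result {G : Type*} [Group G] (A B : Subgroup G) [IsMulCommutative A] [IsMulCommutative B] (hAB : ∀ g : G, ∃ a ∈ A, ∃ b ∈ B, g = a * b) : derivedSeries G 2 = ⊥ := by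
  have hF : CA.H1Prod.Fac A B := hAB
  have cA : ∀ x ∈ A, ∀ y ∈ A, x * y = y * x := fun x hx y hy =>
    congrArg Subtype.val (mul_comm' (⟨x, hx⟩ : A) ⟨y, hy⟩)
  have cB : ∀ x ∈ B, ∀ y ∈ B, x * y = y * x := fun x hx y hy =>
    congrArg Subtype.val (mul_comm' (⟨x, hx⟩ : B) ⟨y, hy⟩)
  have l1 : ∀ a ∈ A, ∀ a' ∈ A, ∀ b : G, ⁅a, b * a'⁆ = ⁅a, b⁆ := by
    intro a ha a' ha' b
    rw [commutatorElement_def, commutatorElement_def, mul_inv_rev]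
    have := cA a⁻¹ (A.inv_mem ha) a' ha'
    calc a * (b * a') * a⁻¹ * (a'⁻¹ * b⁻¹) = a * b * (a' * a⁻¹) * (a'⁻¹ * b⁻¹) := by group
      _ = a * b * a⁻¹ * b⁻¹ := by rw [← this]; group
  have l2 : ∀ b ∈ B, ∀ b' ∈ B, ∀ a : G, ⁅a * b', b⁆ = ⁅a, b⁆ := by
    intro b hb b' hb' a
    rw [← commutatorElement_inv, ← commutatorElement_inv b a]
    congr 1
    rw [commutatorElement_def, commutatorElement_def, mul_inv_rev]
    have := cB b⁻¹ (B.inv_mem hb) b' hb'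
    calc b * (a * b') * b⁻¹ * (b'⁻¹ * a⁻¹) = b * a * (b' * b⁻¹) * (b'⁻¹ * a⁻¹) := by group
      _ = b * a * b⁻¹ * a⁻¹ := by rw [← this]; group
  have cj : ∀ g x y : G, g * ⁅x, y⁆ * g⁻¹ = ⁅g * x * g⁻¹, g * y * g⁻¹⁆ := by
    intro g x y
    rw [commutatorElement_def, commutatorElement_def]; group
  have key : ∀ a ∈ A, ∀ b ∈ B, ∀ a₁ ∈ A, ∀ b₁ ∈ B,
      b₁ * (a₁ * ⁅a, b⁆ * a₁⁻¹) * b₁⁻¹ = a₁ * (b₁ * ⁅a, b⁆ * b₁⁻¹) * a₁⁻¹ := by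
    intro a ha b hb a₁ ha₁ b₁ hb₁
    obtain ⟨b₂, hb₂, a₂, ha₂, e₂⟩ := hF.symm (a₁ * b * a₁⁻¹)
    obtain ⟨a₃, ha₃, b₃, hb₃, e₃⟩ := hF (b₁ * a * b₁⁻¹)
    have f1 : ∀ x ∈ A, a₁ * x * a₁⁻¹ = x := fun x hx => by rw [cA a₁ ha₁ x hx]; group
    have f2 : ∀ x ∈ B, b₁ * x * b₁⁻¹ = x := fun x hx => by rw [cB b₁ hb₁ x hx]; group
    rw [cj, cj b₁ a b, f1 a ha, e₂, l1 a ha a₂ ha₂, cj, e₃, f2 b₂ hb₂, l2 b₂ hb₂ b₃ hb₃, f2 b hb,
      l2 b hb b₃ hb₃, cj, f1 a₃ ha₃, e₂, l1 a₃ ha₃ a₂ ha₂]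
  have hn : (⁅A, B⁆ : Subgroup G).Normal := by
    rw [← Subgroup.normalizer_eq_top_iff, eq_top_iff, ← hF.sup_eq_top]
    exact sup_le (Subgroup.normalizer_commutator_ge_left A B)
      (Subgroup.normalizer_commutator_ge_right A B)
  have h1 : commutator G ≤ ⁅A, B⁆ := by
    rw [← Subgroup.Normal.quotient_commutative_iff_commutator_le]
    refine ⟨⟨fun x y => ?_⟩⟩
    obtain ⟨x, rfl⟩ := QuotientGroup.mk_surjective x
    obtain ⟨y, rfl⟩ := QuotientGroup.mk_surjective y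
    obtain ⟨a, ha, b, hb, rfl⟩ := hF x
    obtain ⟨a', ha', b', hb', rfl⟩ := hF y
    have c1 : ∀ a ∈ A, ∀ b ∈ B, Commute (a : G ⧸ ⁅A, B⁆) (b : G ⧸ ⁅A, B⁆) := by
      intro a ha b hb
      rw [← commutatorElement_eq_one_iff_commute]
      exact (QuotientGroup.eq_one_iff ⁅a, b⁆).mpr (Subgroup.commutator_mem_commutator ha hb)
    have c2 : Commute (a : G ⧸ ⁅A, B⁆) (a' : G ⧸ ⁅A, B⁆) :=
      congrArg (QuotientGroup.mk (s := ⁅A, B⁆)) (cA a ha a' ha')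
    have c3 : Commute (b : G ⧸ ⁅A, B⁆) (b' : G ⧸ ⁅A, B⁆) :=
      congrArg (QuotientGroup.mk (s := ⁅A, B⁆)) (cB b hb b' hb')
    exact (c2.mul_right (c1 a ha b' hb')).mul_left ((c1 a' ha' b hb).symm.mul_right c3)
  have h2 : ⁅(⁅A, B⁆ : Subgroup G), (⁅A, B⁆ : Subgroup G)⁆ = ⊥ := by
    rw [Subgroup.commutator_eq_bot_iff_le_centralizer, Subgroup.commutator_le]
    intro a₁ ha₁ b₁ hb₁
    rw [Subgroup.commutator_def, Subgroup.centralizer_closure, Subgroup.mem_centralizer_iff]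
    rintro _ ⟨a, ha, b, hb, rfl⟩
    have := key a ha b hb a₁⁻¹ (A.inv_mem ha₁) b₁⁻¹ (B.inv_mem hb₁)
    generalize ⁅a, b⁆ = c at this
    rw [commutatorElement_def]
    calc c * (a₁ * b₁ * a₁⁻¹ * b₁⁻¹)
        = a₁ * b₁ * (b₁⁻¹ * (a₁⁻¹ * c * a₁⁻¹⁻¹) * b₁⁻¹⁻¹) * a₁⁻¹ * b₁⁻¹ := by group
      _ = a₁ * b₁ * a₁⁻¹ * b₁⁻¹ * c := by rw [this]; group
  rw [eq_bot_iff, ← h2]
  exact Subgroup.commutator_mono h1 h1

end Cfsg.Agent.S0572
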