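import Cfsg.Statements.S0414
import Cfsg.Agent.Lib.Spor.StModel

set_option autoImplicit false
open Cfsg

namespace Cfsg.Agent.S0414

open Cfsg CA.NatBits CA.Golay CA.M24Core CA.M24Sub CA.M24St2 CA.StSearch CA.StModel CA.CGCert Finset MulAction
open scoped Pointwise

/-- Aut of an S(3, 6, 22) has order 887040, is 3-transitive, and contains a simple subgroup of index 2. -/
theorem result {α : Type*} [Fintype α] [DecidableEq α] (hα : Fintype.card α = 22) {B : Set (Finset α)} (hB : Cfsg.IsSteinerSystem 3 6 B) : Nat.card (Cfsg.setSystemAut B) = 887040 ∧ MulAction.IsMultiplyPretransitive (Cfsg.setSystemAut B) α 3 ∧ ∃ H : Subgroup (Cfsg.setSystemAut B), H.index = 2 ∧ Cfsg.IsM22 H := by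
  obtain ⟨e, h⟩ := mod22 hα hB
  obtain ⟨φ, hφ⟩ := aut22 h
  have e2 : ds 8388609 = {none, some 0} := by ext x; rw [mem_ds']; revert x; decide +kernel
  have hle : stabilizer M24 (none : GolayPt) ⊓ stabilizer M24 (some 0 : GolayPt) ≤ ⊤ ⊓ stabilizer M24 (ds 8388609) :=
    fun g hg => ⟨trivial, mem_stabilizer_iff.2 (by rw [e2, smul_finset_insert, smul_finset_singleton, hg.1, hg.2])⟩
  have c := (Nat.card_congr φ.toEquiv).symm.trans stD2.card
  have ψ := ((Subgroup.subgroupOfEquivOfLe hle).symm.trans (φ.subgroupMap _))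
  have c2 := (Nat.card_congr ψ.toEquiv).symm.trans st22.card
  have := simple22
  refine ⟨c, mt_of_hom h.in φ hφ (mt_fix (R := [none, some 0]) (by simp)
    (fun g hg => hle ⟨hg _ (by simp), hg _ (by simp)⟩) (by simp [Y22, e2]) (by simp)), _, ?_, ψ.symm.isSimpleGroup, c2⟩
  have := Subgroup.card_mul_index (((stabilizer M24 (none : GolayPt) ⊓ stabilizer M24 (some 0 : GolayPt)).subgroupOf
    (⊤ ⊓ stabilizer M24 (ds 8388609))).map (φ : _ →* setSystemAut B))
  rw [c2, c] at this
  omega

end Cfsg.Agent.S0414
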