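import Cfsg.Statements.S5552
import Cfsg.Agent.Lib.Spor.LeechH

set_option autoImplicit false
open Cfsg

namespace Cfsg.Agent.S5552

open CA.Leech

/-- On the Leech lattice of the definitions, let Q be a function to the field with two elements that is constant on cosets of twice the lattice, is a quadratic form there (Q(u+v+w) + Q(u) + Q(v) + Q(w) = Q(u+v) + Q(u+w) + Q(v+w) for all u, v, w), is invariant under every lattice automorphism, and is not identically zero. Then Q(v) is the squared length of v divided by 16, reduced modulo 2, for every lattice vector v (squared lengths of lattice vectors are multiples of 16). -/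
theorem result (Q : ↥Cfsg.leechLattice → ZMod 2) (hcoset : ∀ v w : ↥Cfsg.leechLattice, Q (v + (w + w)) = Q v) (hquad : ∀ u v w : ↥Cfsg.leechLattice, Q (u + v + w) + Q u + Q v + Q w = Q (u + v) + Q (u + w) + Q (v + w)) (hinv : ∀ (g : ↥Cfsg.Co0) (v : ↥Cfsg.leechLattice), Q (g • v) = Q v) (hne : ∃ v : ↥Cfsg.leechLattice, Q v ≠ 0) (v : ↥Cfsg.leechLattice) : Q v = ((Cfsg.sqNorm (v : Cfsg.GolayPt → ℤ) / 16 : ℤ) : ZMod 2) := by
  have h2 : ∀ x : ZMod 2, x + x = 0 := by decide
  have Q0 : Q 0 = 0 := by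
    have := hquad 0 0 0
    simp only [add_zero, h2, zero_add] at this
    exact this.symm
  have tr : ∀ {v w : LL}, Eqv [w] [v] → Q v = Q w := fun e => by obtain ⟨g, rfl⟩ := eqv1.1 e; exact hinv g _
  have t32 : ∀ {v : LL}, sqNorm (v : V) = 32 → Q v = Q vU := fun h => tr (eqv32 sqU h)
  have t48 : ∀ {v : LL}, sqNorm (v : V) = 48 → Q v = Q vV := fun h => tr (eqv48 sqV h)
  have t64 : ∀ {v : LL}, sqNorm (v : V) = 64 → Q v = Q (e8 none) := fun h => tr (eqv64 (sq_e8 none) h)
  have dW := (mem_Cl1.1 mW).2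
  have dY := (mem_Cl1.1 mY).2
  have a : Q vU = 0 := by
    have d : dotInt (vW : V) vY = -8 := (mem_Cl1.1 (mem_Cl (ps := [cW]) (c := cY) (by decide +kernel))).2
    have := hquad vU vW vY
    rw [t32 (v := vU + vW + vY) (by simp [sq_add, dot_add_left, sqU, mW.1, mY.1, d, dW, dY]), t32 mW.1, t32 mY.1,
      t32 (v := vU + vW) (by simp [sq_add, sqU, mW.1, dW]), t48 (v := vU + vY) (by simp [sq_add, sqU, mY.1, dY]),
      t48 (v := vW + vY) (by simp [sq_add, mW.1, mY.1, d])] at this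
    simpa [h2, add_assoc] using this.symm
  have c : Q (e8 none) = 0 := by
    obtain ⟨u, u1, u2, u3⟩ : ∃ u : LL, sqNorm (u : V) = 32 ∧ dotInt (vU : V) u = -16 ∧ dotInt (vW : V) u = 0 :=
      ⟨_, mem_Cl2.1 (sp46.1 (s46_0, 0, 891) (by simp [s46])).1⟩
    have := hquad vU vW u
    rw [t32 (v := vU + vW + u) (by simp [sq_add, dot_add_left, sqU, mW.1, u1, u2, u3, dW]), t32 mW.1, t32 u1,
      t32 (v := vU + vW) (by simp [sq_add, sqU, mW.1, dW]), t32 (v := vU + u) (by simp [sq_add, sqU, u1, u2]),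
      t64 (v := vW + u) (by simp [sq_add, mW.1, u1, u3])] at this
    simpa [h2, add_assoc, a] using this.symm
  have key : ∀ v : LL, Q v = ((sqNorm (v : V) / 16 : ℤ) : ZMod 2) * Q vV := fun v => by
    obtain ⟨y, hy, hn, z, hz, e⟩ := exists_short v.2
    have e1 : v = ⟨y, hy⟩ + (⟨z, hz⟩ + ⟨z, hz⟩) := Subtype.ext (by
      show _ = y + (z + z)
      rw [← two_nsmul, ← e, add_sub_cancel])
    have e2 : ((sqNorm (v : V) / 16 : ℤ) : ZMod 2) = ((sqNorm y / 16 : ℤ) : ZMod 2) := by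
      obtain ⟨a, ha⟩ := dvd_dot hy hz
      obtain ⟨b, hb⟩ := dvd_sq hz
      rw [ZMod.intCast_eq_intCast_iff', e1]
      simp only [AddSubgroup.coe_add, sq_add, dot_add_right, dot_self, ha, hb]
      omega
    rw [e2, e1, hcoset]
    by_cases y0 : y = 0
    · subst y0
      rw [sq_eq_zero'.2 rfl, show Q ⟨0, hy⟩ = 0 from Q0]; simp
    have h1 := min_norm hy y0
    obtain ⟨c', hc⟩ := dvd_sq hy
    rcases show sqNorm y = 32 ∨ sqNorm y = 48 ∨ sqNorm y = 64 by omega with b | b | b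
    · rw [t32 b, a, b, show (((32 : ℤ) / 16 : ℤ) : ZMod 2) = 0 from rfl, zero_mul]
    · rw [t48 b, b, show (((48 : ℤ) / 16 : ℤ) : ZMod 2) = 1 from rfl, one_mul]
    · rw [t64 b, c, b, show (((64 : ℤ) / 16 : ℤ) : ZMod 2) = 0 from rfl, zero_mul]
  obtain ⟨w, hw⟩ := hne
  have : Q vV = 1 := (CA.Golay.zmod2_cases _).resolve_left fun e => hw (by rw [key, e, mul_zero])
  rw [key, this, mul_one]

end Cfsg.Agent.S5552
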