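import Cfsg.Statements.S0005
import Cfsg.Agent.Lib.Grp.H1Hall

set_option autoImplicit false
open Cfsg

namespace Cfsg.Agent.S0005

/-- Hall's Theorem, containment: in a finite solvable group of order m * n with m and n coprime, every subgroup of order coprime to n is contained in a subgroup of order m. -/
theorem result {G : Type*} [Group G] [Finite G] [Group.IsSolvable G] (m n : ℕ)
    (hG : Nat.card G = m * n) (hmn : m.Coprime n) (K : Subgroup G) (hK : (Nat.card K).Coprime n) :
    ∃ H : Subgroup G, Nat.card H = m ∧ K ≤ H := by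
  obtain ⟨H, hH⟩ := CA.H1Hall.exists_card_eq hG hmn
  have hm : 0 < m := hH ▸ Nat.card_pos
  have hi : H.index = n := by
    have h1 := H.card_mul_index
    rw [hH, hG] at h1
    exact Nat.eq_of_mul_eq_mul_left hm h1
  obtain ⟨g, hg⟩ := CA.H1Hall.le_conj_hall H K (by rwa [hH, hi]) (by rwa [hi])
  exact ⟨_, by rw [CA.H1Basic.card_smul, hH], hg⟩

end Cfsg.Agent.S0005
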