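import Cfsg.Statements.S0018
import Cfsg.Agent.Lib.Grp.Fitting

set_option autoImplicit false
open Cfsg

namespace Cfsg.Agent.S0018

/-- A finite solvable group whose Sylow p-subgroups are abelian has p-length one: a Sylow p-subgroup together with the largest normal subgroup of order prime to p generates a normal subgroup. -/
theorem result {G : Type*} [Group G] [Finite G] [Group.IsSolvable G]
    (p : ℕ) [Fact p.Prime] (P : Sylow p G) (hP : IsMulCommutative P) :
    ((P : Subgroup G) ⊔ Cfsg.pPrimeCore p G).Normal := by
  have hf := QuotientGroup.mk'_surjective (Cfsg.pPrimeCore p G)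
  have h1 : ((P.mapSurjective hf : Sylow p _) : Subgroup _) = pCore p (G ⧸ pPrimeCore p G) := by
    refine le_antisymm ?_ (CA.Fitting.pCore_le_sylow _)
    refine le_trans ?_ (CA.Fitting.centralizer_pCore_le p CA.Core.pPrimeCore_quotient_pPrimeCore)
    refine le_trans ?_ (CA.Fitting.centralizer_anti (CA.Fitting.pCore_le_sylow (P.mapSurjective hf)))
    rw [Sylow.coe_mapSurjective, ← Subgroup.commutator_eq_bot_iff_le_centralizer,
      ← Subgroup.map_commutator, Subgroup.commutator_self_eq_bot_iff.2 hP, Subgroup.map_bot]
  rw [← QuotientGroup.ker_mk' (Cfsg.pPrimeCore p G), ← Subgroup.comap_map_eq,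
    ← Sylow.coe_mapSurjective hf, h1]
  infer_instance

end Cfsg.Agent.S0018
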