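import Cfsg.Statements.S0019
import Cfsg.Agent.Lib.Grp.H1Prod

set_option autoImplicit false
open Cfsg

namespace Cfsg.Agent.S0019

open CA.H1Basic CA.H1Prod Pointwise

theorem step {G : Type*} [Group G] [Finite G] {H₁ H₂ A : Subgroup G} {p : ℕ} (hp : p.Prime)
    (h12 : Fac H₁ H₂) (hA : IsPGroup p A) (hn : H₁ ≤ Subgroup.normalizer (A : Set G))
    (hd : ¬ p ∣ H₂.index) : A ≤ H₂.normalCore := by
  have : Fact p.Prime := ⟨hp⟩
  obtain ⟨Q⟩ : Nonempty (Sylow p H₂) := inferInstance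
  have hQ : ¬ p ∣ ((Q : Subgroup H₂).map H₂.subtype).index := by
    rw [Subgroup.index_map_subtype]
    exact fun h => ((Nat.Prime.dvd_mul hp).mp h).elim Q.not_dvd_index hd
  obtain ⟨P, hP⟩ := hA.exists_le_sylow
  obtain ⟨x, hx⟩ := MulAction.exists_smul_eq G ((Q.2.map H₂.subtype).toSylow hQ) P
  obtain ⟨a, ha, b, hb, rfl⟩ := h12 x
  refine h12.le_normalCore ?_ hn
  intro y hy
  have h1 : a * y * a⁻¹ ∈ A := (Subgroup.mem_normalizer_iff.mp (hn ha) y).mp hy
  have h2 := hP h1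
  rw [← hx, Sylow.coe_subgroup_smul, mem_conj_smul] at h2
  have h3 : (a * b)⁻¹ * (a * y * a⁻¹) * (a * b) ∈ H₂ := Subgroup.map_subtype_le _ h2
  have := H₂.mul_mem (H₂.mul_mem hb h3) (H₂.inv_mem hb)
  simpa [mul_assoc] using this

/-- A finite group that factorises as H₁H₂ and as H₁H₃ with all three subgroups solvable and the indices of H₂ and H₃ coprime is solvable. -/
theorem result {G : Type*} [Group G] [Finite G] (H₁ H₂ H₃ : Subgroup G)
    (h₁ : Group.IsSolvable H₁) (h₂ : Group.IsSolvable H₂) (h₃ : Group.IsSolvable H₃)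
    (h12 : ∀ g : G, ∃ x ∈ H₁, ∃ y ∈ H₂, g = x * y) (h13 : ∀ g : G, ∃ x ∈ H₁, ∃ y ∈ H₃, g = x * y)
    (hcop : H₂.index.Coprime H₃.index) : Group.IsSolvable G := by
  induction hn : Nat.card G using Nat.strong_induction_on generalizing G with
  | _ n ih =>
  have f12 : Fac H₁ H₂ := h12
  have f13 : Fac H₁ H₃ := h13
  by_cases hb : H₁ = ⊥
  · have := f12.sup_eq_top
    rw [hb, bot_sup_eq] at this
    subst this
    exact Group.isSolvable_of_surjective (f := (⊤ : Subgroup G).subtype) (fun x => ⟨⟨x, trivial⟩, rfl⟩)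
  have : Nontrivial H₁ := (Subgroup.nontrivial_iff_ne_bot H₁).mpr hb
  obtain ⟨p, A, hp, hAn, hA, -, hAp⟩ := exists_normal_pgroup_of_nontrivial (G := H₁)
  have hn' : H₁ ≤ Subgroup.normalizer ((A.map H₁.subtype : Subgroup G) : Set G) := by
    rw [← Subgroup.normal_subgroupOf_iff_le_normalizer (Subgroup.map_subtype_le A),
      Subgroup.subgroupOf, Subgroup.comap_map_eq_self_of_injective H₁.subtype_injective]
    exact hAn
  have hA' : A.map H₁.subtype ≠ ⊥ := by
    rwa [Ne, Subgroup.map_eq_bot_iff_of_injective _ H₁.subtype_injective]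
  have key : ∃ N : Subgroup G, N.Normal ∧ N ≠ ⊥ ∧ Group.IsSolvable N := by
    by_cases hd : p ∣ H₂.index
    · have hd' : ¬ p ∣ H₃.index := fun h => hp.one_lt.ne' (Nat.eq_one_of_dvd_coprimes hcop hd h)
      exact ⟨H₃.normalCore, inferInstance, fun h => hA' (le_bot_iff.mp
        (h ▸ step hp f13 (hAp.map _) hn' hd')), isSolvable_of_le H₃.normalCore_le⟩
    · exact ⟨H₂.normalCore, inferInstance, fun h => hA' (le_bot_iff.mp
        (h ▸ step hp f12 (hAp.map _) hn' hd)), isSolvable_of_le H₂.normalCore_le⟩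
  obtain ⟨N, hNn, hN, hNs⟩ := key
  have hs := QuotientGroup.mk'_surjective N
  have := ih _ (hn ▸ card_quotient_lt hN) (H₁.map (QuotientGroup.mk' N))
    (H₂.map (QuotientGroup.mk' N)) (H₃.map (QuotientGroup.mk' N)) (isSolvable_map _ _)
    (isSolvable_map _ _) (isSolvable_map _ _) (f12.map hs) (f13.map hs)
    ((hcop.coprime_dvd_left (H₂.index_map_dvd hs)).coprime_dvd_right (H₃.index_map_dvd hs)) rfl
  exact (Group.isSolvable_iff_subgroup_quotient N).mpr ⟨hNs, this⟩

end Cfsg.Agent.S0019
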