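import Cfsg.Statements.S0020
import Cfsg.Agent.Lib.Grp.H1Carter

set_option autoImplicit false
open Pointwise
open Cfsg

namespace Cfsg.Agent.S0020

open CA.H1Carter CA.H1Prod

/-- A finite solvable group admits a Sylow system: Sylow subgroups, one for each prime, that pairwise permute as sets. -/
theorem result {G : Type*} [Group G] [Finite G] [Group.IsSolvable G] :
    ∃ S : (p : Nat.Primes) → Sylow (p : ℕ) G,
      ∀ p q : Nat.Primes, (S p : Set G) * (S q : Set G) = (S q : Set G) * (S p : Set G) := by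
  obtain ⟨K, hK⟩ := exists_system (G := G)
  refine ⟨fun p => haveI : Fact (p : ℕ).Prime := ⟨p.2⟩
    (isPGroup_hallOf hK p).toSylow ((hallOf_hall hK {(p : ℕ)}).2 p p.2 rfl), fun p q => ?_⟩
  exact pm_iff_mul_comm.mp (pm_hallOf hK {(p : ℕ)} {(q : ℕ)}).1

end Cfsg.Agent.S0020
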