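import Cfsg.Statements.S0031
import Mathlib

set_option autoImplicit false
open Cfsg

namespace Cfsg.Agent.S0031

/-- A fixed-point-free automorphism of a finite group maps some Sylow p-subgroup to itself. -/
theorem result {G : Type*} [Group G] [Finite G] (φ : G ≃* G)
    (hφ : MonoidHom.FixedPointFree (φ : G →* G)) (p : ℕ) [Fact p.Prime] :
    ∃ P : Sylow p G, (P : Subgroup G).map (φ : G →* G) = P := by
  obtain ⟨P⟩ := (inferInstance : Nonempty (Sylow p G))
  obtain ⟨g, hg⟩ := MulAction.exists_smul_eq G P ((show MulAut G from φ) • P)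
  obtain ⟨y, hy⟩ := hφ.commutatorMap_surjective g⁻¹
  have hy' : y * (φ y)⁻¹ = g⁻¹ := by simpa [div_eq_mul_inv] using hy
  have h1 : (P : Subgroup G).map (φ : G →* G) = (P : Subgroup G).map (MulAut.conj g).toMonoidHom :=
    (congrArg (fun Q : Sylow p G => (Q : Subgroup G)) hg).symm
  refine ⟨y⁻¹ • P, ?_⟩
  change ((P : Subgroup G).map (MulAut.conj y⁻¹).toMonoidHom).map _ =
    (P : Subgroup G).map (MulAut.conj y⁻¹).toMonoidHom
  have h2 : (φ : G →* G).comp (MulAut.conj y⁻¹).toMonoidHom =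
      (MulAut.conj (φ y)⁻¹).toMonoidHom.comp (φ : G →* G) := by
    ext x; simp
  have h3 : (MulAut.conj (φ y)⁻¹).toMonoidHom.comp (MulAut.conj g).toMonoidHom =
      (MulAut.conj y⁻¹).toMonoidHom := by
    have : (φ y)⁻¹ * g = y⁻¹ := by
      rw [← inv_inv g, ← hy']; group
    ext x
    rw [← this]
    simp [mul_assoc]
  rw [Subgroup.map_map, h2, ← Subgroup.map_map, h1, Subgroup.map_map, h3]

end Cfsg.Agent.S0031
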