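import Cfsg.Statements.S0038
import Cfsg.Agent.Lib.Grp.Frob2
import Cfsg.Agent.S0035

set_option autoImplicit false
open Pointwise
open Cfsg

namespace Cfsg.Agent.S0038

/-- All Frobenius complements of a finite group are conjugate to one another. -/
theorem result {G : Type*} [Group G] [Finite G] (H H₀ : Subgroup G)
    (hH : Cfsg.IsFrobeniusComplement H) (hH₀ : Cfsg.IsFrobeniusComplement H₀) :
    ∃ g : G, MulAut.conj g • H₀ = H := by
  have key : ∀ H H₀ : Subgroup G, IsFrobeniusComplement H → IsFrobeniusComplement H₀ →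
      Nat.card H₀ ≤ Nat.card H → ∃ g : G, H₀ = MulAut.conj g • H := by
    intro H H₀ hH hH₀ hle
    obtain ⟨g, hg⟩ := CA.Frob.exists_le_conj_of_card_le hH hH₀ hle
    refine ⟨g, le_antisymm hg fun x hx => ?_⟩
    have hH' := CA.Frob.isFrob_conj hH g
    obtain ⟨K, hK, -⟩ := Cfsg.Agent.S0035.result _ hH'
    obtain ⟨hn, -, hK1, hs⟩ := CA.Frob2.of_coe_eq_kernel hH' hK
    obtain ⟨⟨z, hz⟩, hz1⟩ := Subgroup.ne_bot_iff_exists_ne_one.mp
      (hs.center_ne_bot Subgroup.le_normalizer_of_normal hK1 hH'.1)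
    obtain ⟨⟨y, hy⟩, hy1⟩ := Subgroup.ne_bot_iff_exists_ne_one.mp hH₀.1
    have h1 : (z : G) ∈ H₀ := CA.Frob.mem_of_commute hH₀ hy (fun e => hy1 (Subtype.ext e))
      (congrArg Subtype.val (Subgroup.mem_center_iff.mp hz ⟨y, hg hy⟩)).symm
    exact CA.Frob.mem_of_commute hH₀ h1 (fun e => hz1 (Subtype.ext (Subtype.ext e)))
      (congrArg Subtype.val (Subgroup.mem_center_iff.mp hz ⟨x, hx⟩))
  rcases le_total (Nat.card H₀) (Nat.card H) with h | h
  · obtain ⟨g, rfl⟩ := key H H₀ hH hH₀ h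
    exact ⟨g⁻¹, CA.SylIn.inv_conj_conj g H⟩
  · obtain ⟨g, rfl⟩ := key H₀ H hH₀ hH h
    exact ⟨g, rfl⟩

end Cfsg.Agent.S0038
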