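import Cfsg.Statements.S0053
import Cfsg.Agent.Lib.Grp.H1Prod
import Mathlib.GroupTheory.Frattini

set_option autoImplicit false
open Cfsg

namespace Cfsg.Agent.S0053

open CA.H1Basic CA.H1Prod Pointwise

/-- An abelian minimal normal subgroup N of a finite group is complemented exactly when N is not inside the Frattini subgroup. -/
theorem result {G : Type*} [Group G] [Finite G]
    (N : Subgroup G) [N.Normal] [IsMulCommutative N] (hN : N ≠ ⊥)
    (hmin : ∀ M : Subgroup G, M.Normal → M ≤ N → M = ⊥ ∨ M = N) :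
    (∃ H : Subgroup G, Subgroup.IsComplement' N H) ↔ ¬ N ≤ frattini G := by
  constructor
  · rintro ⟨H, hH⟩ hle
    have h1 : H = ⊤ := frattini_nongenerating (by
      rw [eq_top_iff, ← hH.symm.sup_eq_top]; exact sup_le_sup_left hle _)
    rw [h1, Subgroup.isComplement'_top_right] at hH
    exact hN hH
  · intro h
    have : ∃ M : Subgroup G, IsCoatom M ∧ ¬ N ≤ M := by
      by_contra hcon
      push Not at hcon
      exact h (le_iInf₂ hcon)
    obtain ⟨M, hM, hNM⟩ := this
    have h1 : M ⊔ N = ⊤ := hM.2 _ (left_lt_sup.mpr hNM)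
    have h2 : (N ⊓ M).Normal := by
      rw [← Subgroup.normalizer_eq_top_iff, eq_top_iff, ← h1]
      refine sup_le ((le_inf Subgroup.le_normalizer_of_normal Subgroup.le_normalizer).trans
        Subgroup.inf_normalizer_le_normalizer_inf) ?_
      refine le_trans ?_ (Subgroup.centralizer_le_normalizer _)
      intro x hx y hy
      exact congrArg Subtype.val (mul_comm' (⟨y, hy.1⟩ : N) ⟨x, hx⟩)
    have h3 : N ⊓ M = ⊥ := (hmin _ h2 inf_le_left).resolve_right
      (fun h => hNM (inf_eq_left.mp h))
    exact ⟨M, Subgroup.isComplement'_of_disjoint_and_mul_eq_univ (disjoint_iff.mpr h3)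
      (fac_iff_mul_eq.mp (fac_of_normal h1).symm)⟩

end Cfsg.Agent.S0053
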