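import Cfsg.Statements.S0054
import Mathlib
import Cfsg.Agent.Lib.Perm.PermBasic

set_option autoImplicit false
open Cfsg

namespace Cfsg.Agent.S0054

open MulAction CA.PermBasic

/-- A regular normal subgroup of a finite 2-transitive group is elementary abelian: it is commutative and all its elements have order dividing one prime. -/
theorem result {G : Type*} [Group G] [Finite G]
    {X : Type*} [Nonempty X] [MulAction G X] (h2 : MulAction.IsMultiplyPretransitive G X 2)
    (N : Subgroup G) [N.Normal] (htrans : MulAction.IsPretransitive N X) (hreg : ∀ x : X, MulAction.stabilizer N x = ⊥) :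
    IsMulCommutative N ∧ ∃ p : ℕ, p.Prime ∧ ∀ n ∈ N, n ^ p = 1 := by
  obtain ⟨a⟩ := ‹Nonempty X›
  have hr := (subgroup_stabilizer_eq_bot_iff N a).1 (hreg a)
  apply elemAbelian_of_conj N
  intro n hn m hm hn1 hm1
  obtain ⟨g, hg1, hg2⟩ := two_iff.1 h2 a (n • a) a (m • a) (fun h => hn1 (hr n hn h.symm))
    (fun h => hm1 (hr m hm h.symm))
  exact ⟨g, conj_eq_of_regular N hr hg1 hn hm hg2⟩

end Cfsg.Agent.S0054
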