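import Cfsg.Statements.S0059
import Cfsg.Agent.Lib.Grp.H1Hall

set_option autoImplicit false
open Cfsg

namespace Cfsg.Agent.S0059

open CA.H1Basic CA.H1SZ Pointwise

/-- Let a finite group act on a set on which a normal subgroup K of coprime order and index is transitive, with K or the quotient solvable. Then any complement H of K has a fixed point, and any two H-fixed points are interchanged by an element of K centralising H. -/
theorem result {G : Type*} [Group G] [Finite G] {X : Type*} [Nonempty X] [MulAction G X]
    (K H : Subgroup G) [K.Normal] (hc : Subgroup.IsComplement' K H) (hcop : (Nat.card K).Coprime K.index)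
    (hsolv : Group.IsSolvable K ∨ Group.IsSolvable (G ⧸ K)) (htrans : MulAction.IsPretransitive K X) :
    (∃ x : X, ∀ h ∈ H, h • x = x) ∧
    ∀ x y : X, (∀ h ∈ H, h • x = x) → (∀ h ∈ H, h • y = y) → ∃ k ∈ K ⊓ Subgroup.centralizer (H : Set G), k • x = y := by
  have hH : Nat.card H = K.index := hc.symm.index_eq_card.symm
  have hrel : ∀ x : X, K.relIndex (MulAction.stabilizer G x) = K.index := by
    intro x
    have : MulAction.stabilizer G x ⊔ K = ⊤ := by
      rw [eq_top_iff]
      intro g _
      obtain ⟨k, hk⟩ := htrans.exists_smul_eq x (g⁻¹ • x)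
      have h1 : g * k ∈ MulAction.stabilizer G x := by
        rw [MulAction.mem_stabilizer_iff, mul_smul]
        change g • (k • x) = x
        rw [hk, smul_inv_smul]
      have := Subgroup.mul_mem_sup h1 (K.inv_mem k.2)
      simpa using this
    rw [← Subgroup.relIndex_sup_right, this, Subgroup.relIndex_top_right]
  have hcop' : ∀ x : X, (Nat.card (K.subgroupOf (MulAction.stabilizer G x))).Coprime
      (K.subgroupOf (MulAction.stabilizer G x)).index := by
    intro x
    change (Nat.card (K.subgroupOf (MulAction.stabilizer G x))).Coprime (K.relIndex _)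
    rw [hrel, card_subgroupOf_eq_inf]
    exact hcop.coprime_dvd_left (Subgroup.card_dvd_of_le inf_le_left)
  constructor
  · obtain ⟨x⟩ := ‹Nonempty X›
    obtain ⟨H₀, hH₀⟩ := Subgroup.exists_right_complement'_of_coprime (hcop' x)
    obtain ⟨g, -, hg⟩ := sz_conj_card K hcop hsolv (H₀.map (MulAction.stabilizer G x).subtype) H
      (by rw [card_map_subtype, ← hH₀.symm.index_eq_card]; exact hrel x) hH
    refine ⟨g • x, fun h hh => ?_⟩
    rw [← hg, mem_conj_smul] at hh
    have := Subgroup.map_subtype_le H₀ hh
    rw [MulAction.mem_stabilizer_iff, mul_smul, mul_smul, inv_smul_eq_iff] at this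
    exact this
  · intro x y hx hy
    obtain ⟨k, hk⟩ := htrans.exists_smul_eq x y
    set S := MulAction.stabilizer G y with hS
    have h1 : H ≤ S := hy
    have h2 : MulAut.conj (k : G) • H ≤ S := by
      intro h hh
      rw [mem_conj_smul] at hh
      have := hx _ hh
      rw [mul_smul, mul_smul, inv_smul_eq_iff] at this
      rw [MulAction.mem_stabilizer_iff, ← hk]
      exact this
    have hs : Group.IsSolvable (K.subgroupOf S) ∨ Group.IsSolvable (S ⧸ K.subgroupOf S) := by
      rcases hsolv with h | h
      · exact Or.inl (isSolvable_subgroupOf K S)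
      · exact Or.inr (isSolvable_quotient_subgroupOf K S)
    obtain ⟨m, hm, hm2⟩ := sz_conj_card (K.subgroupOf S) (hcop' y) hs
      ((MulAut.conj (k : G) • H).subgroupOf S) (H.subgroupOf S)
      (by rw [card_subgroupOf h2, card_smul, hH]; exact (hrel y).symm)
      (by rw [card_subgroupOf h1, hH]; exact (hrel y).symm)
    have h3 := conj_eq_of_subgroupOf h2 h1 m hm2
    rw [← conj_mul_smul] at h3
    have hmk : (m : G) * k ∈ K := K.mul_mem hm k.2
    refine ⟨m * k, Subgroup.mem_inf.mpr ⟨hmk, ?_⟩, ?_⟩
    · rw [Subgroup.mem_centralizer_iff]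
      intro h hh
      have h4 : ((m : G) * k) * h * ((m : G) * k)⁻¹ ∈ H := h3 ▸ conj_mem_conj_smul hh
      have h5 : ((m : G) * k) * h * ((m : G) * k)⁻¹ * h⁻¹ ∈ K ⊓ H := by
        refine Subgroup.mem_inf.mpr ⟨?_, H.mul_mem h4 (H.inv_mem hh)⟩
        have := K.mul_mem hmk (Subgroup.Normal.conj_mem inferInstance _ (K.inv_mem hmk) h)
        simpa only [mul_assoc] using this
      rw [hc.disjoint.eq_bot, Subgroup.mem_bot, mul_inv_eq_one, mul_inv_eq_iff_eq_mul] at h5
      exact h5.symm
    · rw [mul_smul]
      change (m : G) • (k • x) = y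
      rw [hk]
      exact m.2

end Cfsg.Agent.S0059
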