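import Cfsg.Statements.S0060
import Cfsg.Agent.Lib.Grp.Fitting

set_option autoImplicit false
open Pointwise
open Cfsg

namespace Cfsg.Agent.S0060

open Subgroup CA.Rad CA.Core CA.Fitting in
/-- Brodkey's Theorem: in a finite group with abelian Sylow p-subgroups and no nontrivial normal p-subgroup, some conjugate of a Sylow p-subgroup meets it trivially. -/
theorem result {G : Type*} [Group G] [Finite G] (p : ℕ) [Fact p.Prime]
    (S : Sylow p G) (hS : IsMulCommutative S) (hOp : Cfsg.pCore p G = ⊥) :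
    ∃ g : G, (S : Subgroup G) ⊓ MulAut.conj g • (S : Subgroup G) = ⊥ := by
  obtain ⟨D, -, ⟨P, rfl⟩, hmin⟩ := Finite.exists_le_minimal
    (p := fun D : Subgroup G => ∃ P : Sylow p G, D = (S : Subgroup G) ⊓ P) ⟨S, rfl⟩
  obtain ⟨g, rfl⟩ := MulAction.exists_smul_eq G S P
  refine ⟨g, ?_⟩
  rw [← Sylow.coe_subgroup_smul, eq_bot_iff, ← hOp, pCore_eq_iInf_sylow]
  refine le_iInf fun Q => ?_
  set D := (S : Subgroup G) ⊓ (g • S : Sylow p G) with hD
  have hT : IsMulCommutative ((g • S : Sylow p G) : Subgroup G) := by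
    rw [Sylow.coe_subgroup_smul, conj_smul_eq_map]
    infer_instance
  have h1 : (S : Subgroup G) ≤ normalizer (D : Set G) :=
    ((le_centralizer _).trans (centralizer_anti inf_le_left)).trans (centralizer_le_normalizer _)
  have h2 : ((g • S : Sylow p G) : Subgroup G) ≤ normalizer (D : Set G) :=
    ((le_centralizer _).trans (centralizer_anti inf_le_right)).trans (centralizer_le_normalizer _)
  set N := normalizer (D : Set G) with hN
  obtain ⟨R, hR⟩ := (isPGroup_subgroupOf Q.isPGroup' N).exists_le_sylow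
  obtain ⟨x, hx⟩ := MulAction.exists_smul_eq N ((g • S).subtype h2) R
  -- `S ⊓ Q ^ x⁻¹ ≤ D`
  have h3 : (S : Subgroup G) ⊓ ((x : G)⁻¹ • Q : Sylow p G) ≤ D := by
    rintro y ⟨hy1, hy2⟩
    refine ⟨hy1, ?_⟩
    have hy3 : y ∈ (((x : G)⁻¹ • Q : Sylow p G) : Subgroup G) := hy2
    rw [Sylow.coe_subgroup_smul, conj_smul_eq_map, mem_map_conj_iff, inv_inv] at hy3
    have hy4 : (⟨x * y * (x : G)⁻¹, mul_mem (mul_mem x.2 (h1 hy1)) (inv_mem x.2)⟩ : N) ∈
        (R : Subgroup N) := hR hy3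
    rw [← hx, Sylow.coe_subgroup_smul, conj_smul_eq_map, mem_map_conj_iff, Sylow.coe_subtype,
      mem_subgroupOf] at hy4
    have hy5 : y ∈ ((g • S : Sylow p G) : Subgroup G) := by simpa [mul_assoc] using hy4
    exact hy5
  have h4 := (hmin ⟨_, rfl⟩ h3).trans inf_le_right
  intro y hy
  have hy' := h4 ((mem_normalizer_iff''.1 x.2 y).1 hy)
  rw [Sylow.coe_subgroup_smul, conj_smul_eq_map, mem_map_conj_iff, inv_inv] at hy'
  simpa [mul_assoc] using hy'

end Cfsg.Agent.S0060
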