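import Cfsg.Statements.S0068
import Cfsg.Agent.Lib.Grp.Frob2

set_option autoImplicit false
open Cfsg

namespace Cfsg.Agent.S0068

/-- Frobenius complements of even order: if H complements a nontrivial normal subgroup K, each nonidentity element of H has trivial centraliser in K, and H has even order, then H contains a unique involution s, K is abelian, and s inverts every element of K. -/
theorem result {G : Type*} [Group G] [Finite G] (K H : Subgroup G) [K.Normal]
    (hc : Subgroup.IsComplement' K H) (hK : K ≠ ⊥) (hfpf : ∀ h ∈ H, h ≠ 1 → K ⊓ Subgroup.centralizer {h} = ⊥)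
    (heven : 2 ∣ Nat.card H) :
    (∃ s ∈ H, orderOf s = 2 ∧ (∀ t ∈ H, orderOf t = 2 → t = s) ∧ ∀ k ∈ K, s * k * s⁻¹ = k⁻¹) ∧ IsMulCommutative K := by
  have h : CA.Frob2.Semireg K H := hfpf
  obtain ⟨⟨s, hs⟩, ho⟩ := exists_prime_orderOf_dvd_card' (G := H) 2 heven
  rw [Subgroup.orderOf_mk] at ho
  have hHK : H ≤ Subgroup.normalizer (K : Set G) := Subgroup.le_normalizer_of_normal
  have hs2 : s * s = 1 := by rw [← sq, ← ho, pow_orderOf_eq_one]
  have hs1 : s ≠ 1 := by rintro rfl; simp at ho
  exact ⟨⟨s, hs, ho, fun t ht hto => h.involution_unique hHK hK hs ht ho hto,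
    fun k hk => CA.Frob2.conj_eq_inv_of_involution (hHK hs) hs2 (h s hs hs1) hk⟩,
    CA.Frob2.isMulCommutative_of_involution (hHK hs) hs2 (h s hs hs1)⟩

end Cfsg.Agent.S0068
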