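import Cfsg.Statements.S0073
import Cfsg.Agent.Lib.Grp.H28Aut
-- import your own Cfsg.Agent.* helpers here

set_option autoImplicit false
open Cfsg

namespace Cfsg.Agent.S0073

/-- For a finite non-abelian simple group, either the cube of the least prime divisor of the order divides the order, or 12 does. -/
theorem result {G : Type*} [Group G] [Finite G] [IsSimpleGroup G] (hG : ∃ x y : G, x * y ≠ y * x) : (Nat.card G).minFac ^ 3 ∣ Nat.card G ∨ 12 ∣ Nat.card G := by
  have h1 : ¬ IsMulCommutative G := fun h => by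
    obtain ⟨x, y, hxy⟩ := hG
    exact hxy (h.is_comm.comm x y)
  have hp := Nat.minFac_prime (Finite.one_lt_card (α := G)).ne'
  haveI := Fact.mk hp
  obtain ⟨r, a, b, hr, h2, h3, h4, h5, h6⟩ := CA.H28Aut.exists_act h1 (Nat.minFac_dvd (Nat.card G))
  have h7 := lt_of_le_of_ne (Nat.minFac_le_of_dvd hr.two_le h3) h2.symm
  generalize (Nat.card G).minFac = p at *
  by_cases h8 : 3 ≤ b
  · exact Or.inl ((pow_dvd_pow p h8).trans h5)
  obtain ⟨c, rfl⟩ := Nat.exists_eq_add_of_lt h4
  rw [add_assoc, pow_add, mul_comm] at h6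
  nth_rewrite 2 [← one_mul (p ^ a)] at h6
  have h9 := (Nat.modEq_iff_dvd' (Nat.one_le_pow _ _ hp.pos)).1 (Nat.ModEq.cancel_right_of_coprime
    (Nat.Coprime.pow_right a ((Nat.coprime_primes hr hp).2 h2)) h6).symm
  have h10 : ¬ r ∣ p - 1 := fun h => by
    have := Nat.le_of_dvd (by have := hp.two_le; omega) h
    omega
  obtain rfl | rfl : c = 0 ∨ c = 1 := by omega
  · exact absurd (by simpa using h9) h10
  · have h11 : p ^ (1 + 1) - 1 = (p + 1) * (p - 1) := by simpa using Nat.sq_sub_sq p 1
    rw [h11] at h9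
    have h12 := Nat.le_of_dvd (by omega) (((Nat.Prime.dvd_mul hr).1 h9).resolve_right h10)
    obtain rfl : r = p + 1 := by omega
    obtain rfl : p = 2 := by
      have := hp.eq_two_or_odd
      have := hr.eq_two_or_odd
      have := hp.two_le
      omega
    obtain rfl : a = 0 := by omega
    exact Or.inr (Nat.Coprime.mul_dvd_of_dvd_of_dvd (by norm_num : Nat.Coprime 4 3) h5 h3)

end Cfsg.Agent.S0073
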