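import Cfsg.Statements.S0076
import Cfsg.Agent.Lib.Grp.SylIn

set_option autoImplicit false
open Cfsg

namespace Cfsg.Agent.S0076

open CA.SylIn Subgroup
theorem mem_norm {G : Type*} [Group G] {Y : Set G} {x : G} :
    x ∈ normalizer Y ↔ (fun y => x * y * x⁻¹) '' Y = Y := by
  rw [mem_set_normalizer_iff]
  constructor
  · intro h
    ext y
    constructor
    · rintro ⟨z, hz, rfl⟩; exact (h z).1 hz
    · intro hy
      exact ⟨x⁻¹ * y * x, (h _).2 (by simpa [mul_assoc] using hy), by group⟩
  · intro h y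
    constructor
    · intro hy; rw [← h]; exact ⟨y, hy, rfl⟩
    · intro hy
      rw [← h] at hy
      obtain ⟨z, hz, e⟩ := hy
      rwa [← show z = y by simpa using e]

theorem image_image {G : Type*} [Group G] (Y : Set G) (a b : G) :
    (fun y => a * y * a⁻¹) '' ((fun y => b * y * b⁻¹) '' Y) =
      (fun y => (a * b) * y * (a * b)⁻¹) '' Y := by
  rw [Set.image_image]
  congr 1
  ext y
  group

/-- Two P-invariant subsets of a Sylow p-subgroup P that are conjugate in G are conjugate under the normalizer of P. -/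
theorem result {G : Type*} [Group G] [Finite G] {p : ℕ} [Fact p.Prime] (P : Sylow p G) (X Y : Set G) (hXP : X ⊆ P) (hYP : Y ⊆ P) (hX : ∀ x ∈ P, (fun y => x * y * x⁻¹) '' X = X) (hY : ∀ x ∈ P, (fun y => x * y * x⁻¹) '' Y = Y) (g : G) (hg : (fun y => g * y * g⁻¹) '' X = Y) : ∃ n ∈ Subgroup.normalizer (P : Set G), (fun y => n * y * n⁻¹) '' X = Y := by
  have h1 : IsSylowIn p (P : Subgroup G) (normalizer Y) :=
    isSylowIn_of_le P fun x hx => mem_norm.2 (hY x hx)
  have h2 : IsSylowIn p ((g • P : Sylow p G) : Subgroup G) (normalizer Y) := by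
    refine isSylowIn_of_le _ fun x hx => mem_norm.2 ?_
    have := hX _ (mem_smul_sylow.1 hx)
    rw [← hg, image_image]
    conv_rhs => rw [← this, image_image]
    congr 1
    ext y
    group
  obtain ⟨k, hk, e⟩ := h2.exists_conj_eq h1
  rw [coe_smul_sylow, conj_conj] at e
  refine ⟨k * g, mem_normalizer_iff_conj_eq.2 e, ?_⟩
  rw [← image_image, hg, mem_norm.1 hk]

end Cfsg.Agent.S0076
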