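import Cfsg.Statements.S0078
import Cfsg.Agent.Lib.Grp.Trf

set_option autoImplicit false
open Cfsg

namespace Cfsg.Agent.S0078

open CA.Trf CA.SylIn Subgroup

/-- In a p-normal group, a Sylow p-subgroup P meets O^p(G) exactly where it meets O^p(V), for any subgroup V containing the normalizer of the centre of P. -/
theorem result {G : Type*} [Group G] [Finite G] {p : ℕ} [Fact p.Prime] (P : Sylow p G) (hn : ∀ Q : Sylow p G, (P : Subgroup G) ⊓ Subgroup.centralizer (P : Set G) ≤ (Q : Subgroup G) → (Q : Subgroup G) ⊓ Subgroup.centralizer (Q : Set G) = (P : Subgroup G) ⊓ Subgroup.centralizer (P : Set G)) (V : Subgroup G) (hV : Subgroup.normalizer (((P : Subgroup G) ⊓ Subgroup.centralizer (P : Set G) : Subgroup G) : Set G) ≤ V) : (P : Subgroup G) ⊓ Cfsg.pResidual p G = (P : Subgroup G) ⊓ (Cfsg.pResidual p V).map V.subtype := by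
  set Z : Subgroup G := (P : Subgroup G) ⊓ centralizer (P : Set G) with hZdef
  have hW : IsWeaklyClosed Z (P : Subgroup G) := by
    refine ⟨inf_le_left, fun g hg => ?_⟩
    have h1 : Z ≤ ((g⁻¹ • P : Sylow p G) : Subgroup G) := by
      rw [coe_smul_sylow]; exact conj_le_iff_le_inv_conj.1 hg
    have h2 := hn _ h1
    have h3 : g⁻¹ •ᶜ Z = Z := by
      conv_rhs => rw [← h2]
      rw [hZdef, conj_inf, ← coe_smul_sylow]
      congr 1
      exact conj_centralizer g⁻¹ (P : Subgroup G)
    conv_lhs => rw [← h3]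
    exact conj_inv_conj g Z
  rw [inf_comm, inf_comm (P : Subgroup G)]
  refine pResidual_inf_eq_of_controls P ((sylow_le_normalizer_of_weaklyClosed hW).trans hV)
    (fun x hx g hg => ?_)
  obtain ⟨n, hn', h⟩ := exists_normalizer_conj_elt_of_weaklyClosed P hW (x := x) (g := g)
    (mem_centralizer_iff.2 fun z hz => ((mem_centralizer_iff.1 hz.2) x hx).symm)
    (mem_centralizer_iff.2 fun z hz => ((mem_centralizer_iff.1 hz.2) _ hg).symm)
  exact ⟨n, hV hn', h⟩

end Cfsg.Agent.S0078
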