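import Cfsg.Statements.S0080
import Cfsg.Agent.Lib.Grp.Trf

set_option autoImplicit false
open Cfsg

namespace Cfsg.Agent.S0080

open CA.Trf CA.Hyperfocal Subgroup

/-- When the index of H is prime to the order of H/H', the focal subgroup of H is G' ∩ H, and H/(G' ∩ H) has a normal complement. -/
theorem result {G : Type*} [Group G] [Finite G] (H : Subgroup G) (h : Nat.Coprime H.index (⁅H, H⁆.relIndex H)) : Subgroup.focalSubgroup H = commutator G ⊓ H ∧ ∃ N : Subgroup G, N.Normal ∧ N ⊓ H = commutator G ⊓ H ∧ N ⊔ H = ⊤ := by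
  have hle : ⁅H, H⁆ ≤ focalSubgroup H := by
    rw [Subgroup.commutator_le]
    intro a ha b hb
    have := inv_mul_conj_mem_focalSubgroup (H := H) (x := b⁻¹) (g := a) (H.inv_mem hb)
      (H.mul_mem (H.mul_mem ha (H.inv_mem hb)) (H.inv_mem ha))
    have h2 := (focalSubgroup H).inv_mem this
    rw [commutatorElement_def]
    convert h2 using 1
    group
  have hc : H.index.Coprime ((focalSubgroup H).relIndex H) :=
    h.coprime_dvd_right (relIndex_dvd_of_le_left H hle)
  have h1 := commutator_inf_eq_focal H hc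
  obtain ⟨N, hN, -, h2, h3⟩ := exists_normal_focal H hc
  exact ⟨h1.symm, N, hN, h2.trans h1.symm, h3⟩

end Cfsg.Agent.S0080
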