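import Cfsg.Statements.S0083
import Cfsg.Agent.Lib.Grp.NPC2

set_option autoImplicit false
open Cfsg

namespace Cfsg.Agent.S0083

open CA.PRes Subgroup

/-- For an abelian Sylow p-subgroup P, a normal p-complement exists exactly when the normalizer of P is an internal direct product of P with some subgroup. -/
theorem result {G : Type*} [Group G] [Finite G] {p : ℕ} [Fact p.Prime] (P : Sylow p G) (hP : IsMulCommutative P) : Cfsg.HasNormalPComplement p G ↔ ∃ Q : Subgroup G, Q ≤ Subgroup.centralizer (P : Set G) ∧ Q ⊓ (P : Subgroup G) = ⊥ ∧ Q ⊔ (P : Subgroup G) = Subgroup.normalizer (P : Set G) := by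
  have hPC : (P : Subgroup G) ≤ centralizer (P : Set G) := fun x hx =>
    mem_centralizer_iff.2 fun y hy => (CA.PGBasic.isMulCommutative_iff.1 hP) _ hy _ hx
  constructor
  · intro h
    refine ⟨pResidual p G ⊓ normalizer (P : Set G), fun x hx => ?_, ?_, ?_⟩
    · exact mem_centralizer_of_hasNPC h P.isPGroup' hx.2 ((mem_pResidual_iff_of_hasNPC h).1 hx.1)
    · rw [eq_bot_iff, ← (hasNPC_iff_inf_eq_bot P).1 h]
      exact inf_le_inf_right _ inf_le_left
    · refine le_antisymm (sup_le inf_le_right le_normalizer) fun g hg => ?_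
      obtain ⟨n, hn, x, hx, rfl⟩ := exists_mul_eq_pResidual_sylow P g
      refine mul_mem (mem_sup_left ⟨hn, ?_⟩) (mem_sup_right hx)
      simpa using mul_mem hg (inv_mem (le_normalizer (H := (P : Subgroup G)) hx))
  · rintro ⟨Q, h1, -, h3⟩
    exact hasNPC_of_normalizer_le_centralizer P (h3 ▸ sup_le h1 hPC)

end Cfsg.Agent.S0083
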