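import Cfsg.Statements.S0087
import Cfsg.Agent.Lib.Grp.NPC2

set_option autoImplicit false
open Cfsg

namespace Cfsg.Agent.S0087

open Subgroup CA.SylIn

universe u

theorem aux (n : ℕ) : ∀ {G : Type u} [Group G] [Finite G], Nat.card G = n → ∀ (H : Subgroup G),
    Nat.Coprime (Nat.card H) H.index → normalizer (H : Set G) ≤ centralizer (H : Set G) →
    ∃ N : Subgroup G, N.Normal ∧ N.IsComplement' H := by
  induction n using Nat.strong_induction_on with
  | _ n ih =>
  intro G _ _ hn H hHall h
  have hcomm : ∀ a ∈ H, ∀ b ∈ H, a * b = b * a := fun a ha b hb =>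
    mem_centralizer_iff.1 (h (le_normalizer hb)) a ha
  have hc : IsMulCommutative H := CA.PGBasic.isMulCommutative_iff.2 hcomm
  have hnil := CA.Core.isNilpotent_of_isMulCommutative hc
  refine CA.NPC2.exists_normal_complement_of_controls H hnil hHall fun x hx g hg => ⟨1, one_mem _, ?_⟩
  rw [one_mul, inv_one, mul_one]
  set y := g * x * g⁻¹ with hy
  let C : Subgroup G := centralizer {y}
  by_cases hC : C = ⊤
  · have : g⁻¹ * y = y * g⁻¹ := mem_centralizer_singleton_iff.1 (hC ▸ mem_top g⁻¹ : g⁻¹ ∈ C)
    calc x = g⁻¹ * y * g := by rw [hy]; group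
      _ = y := by rw [this]; group
  have hHC : H ≤ C := fun a ha => mem_centralizer_singleton_iff.2 (hcomm _ ha _ hg)
  have hgC : g •ᶜ H ≤ C := conj_le_iff.2 fun a ha => mem_centralizer_singleton_iff.2 (by
    calc g * a * g⁻¹ * y = g * (a * x) * g⁻¹ := by rw [hy]; group
      _ = y * (g * a * g⁻¹) := by rw [hcomm _ ha _ hx, hy]; group)
  have hlt : Nat.card C < n := by
    rw [← hn, ← card_top (G := G)]; exact card_lt_of_lt (lt_top_iff_ne_top.2 hC)
  have hcard : Nat.card (H.subgroupOf C) = Nat.card H := CA.Coprime.card_subgroupOf hHC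
  have hcop : Nat.Coprime (Nat.card (H.subgroupOf C)) (H.subgroupOf C).index := by
    rw [hcard]; exact hHall.coprime_dvd_right (relIndex_dvd_index_of_le hHC)
  obtain ⟨M, hM, hMc⟩ := ih _ hlt rfl (H.subgroupOf C) hcop fun a ha => by
    have ha' : (a : G) ∈ normalizer (H : Set G) := mem_normalizer_of_forall fun z hz =>
      conj_mem_of_mem_normalizer ha (x := ⟨z, hHC hz⟩) hz
    exact mem_centralizer_iff.2 fun z hz => Subtype.ext (mem_centralizer_iff.1 (h ha') z hz)
  have hMcard : (Nat.card (H.subgroupOf C)).Coprime (Nat.card M) := by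
    rwa [← hMc.index_eq_card]
  obtain ⟨k, -, hk⟩ := CA.Coprime.exists_conj_mem (A := H.subgroupOf C) (K := M)
    (B := (g •ᶜ H).subgroupOf C) le_normalizer_of_normal hMcard (by rw [hMc.symm.sup_eq_top]; exact le_top)
    (by rwa [CA.Coprime.card_subgroupOf hgC, card_conj, ← hcard])
    (Or.inl (haveI := CA.Core.isNilpotent_subgroupOf hnil C; inferInstance))
  have h1 : (k : G) * g ∈ normalizer (H : Set G) := mem_normalizer_of_forall fun z hz => by
    have := hk ⟨g * z * g⁻¹, hgC (conj_mem_conj.2 hz)⟩ (conj_mem_conj.2 hz)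
    rw [mem_subgroupOf] at this
    convert this using 1
    simp only [coe_mul, coe_inv]
    group
  have h2 := mem_centralizer_iff.1 (h h1) x hx
  have h3 : (k : G) * y = y * k := mem_centralizer_singleton_iff.1 k.2
  calc x = (k * g) * x * (k * g)⁻¹ := by rw [← h2]; group
    _ = k * y * (k : G)⁻¹ := by rw [hy]; group
    _ = y := by rw [h3]; group

/-- A Hall subgroup that is central in its normalizer has a normal complement. -/
theorem result {G : Type*} [Group G] [Finite G] (H : Subgroup G) (hHall : Nat.Coprime (Nat.card H) H.index) (h : Subgroup.normalizer (H : Set G) ≤ Subgroup.centralizer (H : Set G)) : ∃ N : Subgroup G, N.Normal ∧ N.IsComplement' H := by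
  exact aux _ rfl H hHall h

end Cfsg.Agent.S0087
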