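import Cfsg.Statements.S0088
import Cfsg.Agent.Lib.Grp.NPC2

set_option autoImplicit false
open Cfsg

namespace Cfsg.Agent.S0088


/-- An abelian Hall subgroup meets G' ∩ Z(G) trivially. -/
theorem result {G : Type*} [Group G] [Finite G] (H : Subgroup G) (hc : IsMulCommutative H) (hHall : Nat.Coprime (Nat.card H) H.index) : H ⊓ commutator G ⊓ Subgroup.center G = ⊥ := by
  rw [eq_bot_iff]
  rintro x ⟨⟨h1, h2⟩, h3⟩
  exact CA.NPC2.eq_one_of_mem_commutator_of_center hc hHall h1 h2 h3

end Cfsg.Agent.S0088
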