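import Cfsg.Statements.S0089
import Cfsg.Agent.Lib.Grp.NPC2

set_option autoImplicit false
open Cfsg

namespace Cfsg.Agent.S0089

open Subgroup CA.SylIn

/-- When all Sylow subgroups are abelian, the derived subgroup meets the centre trivially. -/
theorem result {G : Type*} [Group G] [Finite G] (h : ∀ p : ℕ, p.Prime → ∀ P : Sylow p G, IsMulCommutative P) : commutator G ⊓ Subgroup.center G = ⊥ := by
  rw [eq_bot_iff]
  rintro x ⟨h1, h2⟩
  by_contra hne
  obtain ⟨r, hr, hd⟩ := Nat.exists_prime_and_dvd (show orderOf x ≠ 1 by simpa using hne)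
  haveI := Fact.mk hr
  have ho : orderOf (x ^ (orderOf x / r)) = r := orderOf_pow_orderOf_div (orderOf_pos x).ne' hd
  obtain ⟨P⟩ : Nonempty (Sylow r G) := inferInstance
  obtain ⟨g, hg⟩ := exists_conj_mem_sylow P (x := x ^ (orderOf x / r)) (k := 1)
    (by rw [pow_one]; exact orderOf_dvd_iff_pow_eq_one.1 ho.dvd)
  rw [mem_center_iff.1 (pow_mem h2 _) g, mul_inv_cancel_right] at hg
  have := CA.NPC2.eq_one_of_mem_commutator_of_center (h r hr P) P.card_coprime_index hg
    (pow_mem h1 _) (pow_mem h2 _)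
  rw [this, orderOf_one] at ho
  exact hr.one_lt.ne ho

end Cfsg.Agent.S0089
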