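import Cfsg.Statements.S0090
import Cfsg.Agent.Lib.Grp.NPC2

set_option autoImplicit false
open Cfsg

namespace Cfsg.Agent.S0090

open Subgroup CA.Trf CA.Hyperfocal

/-- An abelian normal Hall subgroup A splits as the internal direct product of G' ∩ A and Z(G) ∩ A, and [A, G] = G' ∩ A. -/
theorem result {G : Type*} [Group G] [Finite G] (A : Subgroup G) [A.Normal] (hc : IsMulCommutative A) (hHall : Nat.Coprime (Nat.card A) A.index) : ⁅A, (⊤ : Subgroup G)⁆ = commutator G ⊓ A ∧ (commutator G ⊓ A) ⊓ (Subgroup.center G ⊓ A) = ⊥ ∧ (commutator G ⊓ A) ⊔ (Subgroup.center G ⊓ A) = A := by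
  have h1 : ⁅A, (⊤ : Subgroup G)⁆ = commutator G ⊓ A := by
    refine le_antisymm (le_inf (commutator_mono le_top le_rfl) (commutator_le_left _ _)) ?_
    rw [commutator_inf_eq_focal_of_hall A hHall, focalSubgroup_le_iff]
    exact fun x hx g _ => inv_mul_conj_mem_commutator hx trivial
  refine ⟨h1, ?_, ?_⟩
  · rw [eq_bot_iff]
    rintro x ⟨⟨h1, h2⟩, h3, -⟩
    exact CA.NPC2.eq_one_of_mem_commutator_of_center hc hHall h2 h1 h3
  · refine le_antisymm (sup_le inf_le_right inf_le_right) ?_
    obtain ⟨K, hK⟩ := exists_right_complement'_of_coprime hHall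
    have h2 := CA.Coprime.commutator_sup_centralizer (A := K) (K := A) le_normalizer_of_normal
      (by rw [← hK.symm.index_eq_card]; exact hHall.symm) (Or.inr (haveI := CA.Core.isNilpotent_of_isMulCommutative hc; inferInstance))
    conv_lhs => rw [← h2]
    refine sup_le_sup (h1 ▸ commutator_mono le_rfl le_top) fun x hx => ⟨?_, hx.1⟩
    have h3 : A ⊔ K ≤ centralizer {x} := sup_le
      (fun a ha => mem_centralizer_singleton_iff.2
        ((CA.PGBasic.isMulCommutative_iff.1 hc) _ ha _ hx.1))
      (fun k hk => mem_centralizer_singleton_iff.2 (mem_centralizer_iff.1 hx.2 k hk))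
    rw [hK.sup_eq_top] at h3
    exact mem_center_iff.2 fun g => mem_centralizer_singleton_iff.1 (h3 trivial)

end Cfsg.Agent.S0090
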