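import Cfsg.Statements.S0092
import Cfsg.Agent.Lib.Grp.Fus2

set_option autoImplicit false
open Cfsg

namespace Cfsg.Agent.S0092

open Subgroup CA.SylIn CA.PRes CA.Fus2

/-- If the Sylow p-subgroups of O^p(G) are abelian then G splits over O^p(G). -/
theorem result {G : Type*} [Group G] [Finite G] {p : ℕ} [Fact p.Prime] (h : ∀ Q : Sylow p (Cfsg.pResidual p G), IsMulCommutative Q) : ∃ K : Subgroup G, K.IsComplement' (Cfsg.pResidual p G) := by
  set K := pResidual p G with hK
  obtain ⟨Q, hQ⟩ := exists_isSylowIn p K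
  have hc : IsMulCommutative Q := CA.PGBasic.isMulCommutative_iff.2 fun a ha b hb =>
    congrArg Subtype.val (CA.PGBasic.isMulCommutative_iff.1 (h hQ.toSylow) ⟨a, hQ.le ha⟩ ha
      ⟨b, hQ.le hb⟩ hb)
  set L := K ⊓ normalizer (Q : Set G) with hL
  have hQL : IsSylowIn p Q L := hQ.of_le (le_inf hQ.le le_normalizer) inf_le_left
  have h1 : Q = ⁅Q, L⁆ := by
    rw [← inf_map_pResidual_eq_of_comm hQ hc, map_pResidual_eq_of_le le_rfl, inf_eq_left.2 hQ.le]
  have h2 := (abelian_decomp hQL.le inf_le_right hc (coprime_card_relIndex hQL)).1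
  rw [← h1, inf_eq_left.2 inf_le_left] at h2
  obtain ⟨H, hHL, hH, hs, hd⟩ := exists_complement_in hQL.le inf_le_right
    (coprime_card_relIndex hQL)
  have hcop : (Nat.card H).Coprime (Nat.card Q) := hH ▸ (coprime_card_relIndex hQL).symm
  obtain ⟨R, hR⟩ := exists_isSylowIn p (normalizer (Q : Set G) ⊓ normalizer (H : Set G))
  refine ⟨R, (isComplement'_of_normal ?_ ?_).symm⟩
  · rw [eq_bot_iff, ← h2]
    rintro x ⟨hxK, hxR⟩
    obtain ⟨k, hk⟩ := exists_pow_eq_one hR.isPGroup hxR
    have hxQ : x ∈ Q := mem_of_normal_sylow hQL inf_le_right ⟨hxK, (hR.le hxR).1⟩ hk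
    refine ⟨hxQ, ?_⟩
    rw [← hs, CA.Fitting.centralizer_sup]
    refine ⟨mem_centralizer_iff.2 fun y hy => ?_, mem_centralizer_iff.2 fun y hy =>
      CA.PGBasic.isMulCommutative_iff.1 hc _ hy _ hxQ⟩
    have : x * y * x⁻¹ * y⁻¹ ∈ H ⊓ Q := mem_inf.2
      ⟨mul_mem (conj_mem_of_mem_normalizer (hR.le hxR).2 hy) (inv_mem hy), by
        have := mul_mem hxQ (conj_mem_of_mem_normalizer (hHL hy).2 (inv_mem hxQ))
        simpa [mul_assoc] using this⟩
    rw [hd, mem_bot] at this
    exact (commutatorElement_eq_one_iff_mul_comm.1 this).symm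
  · rw [eq_top_iff]
    intro g _
    obtain ⟨k, hk, n, hn, rfl⟩ := hQ.frattini (g := g) (le_normalizer_of_normal (mem_top g))
    refine mul_mem (mem_sup_left hk) ?_
    have hnL : n •ᶜ H ≤ H ⊔ Q := by
      have e : n •ᶜ L = L := conj_eq_of_mem_normalizer (inf_normalizer_le_normalizer_inf K _
        ⟨le_normalizer_of_normal (mem_top n), le_normalizer hn⟩)
      rw [hs, ← e]
      exact conj_mono n hHL
    obtain ⟨q, hq, hq'⟩ := CA.Coprime.exists_conj_mem (hHL.trans inf_le_right) hcop hnL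
      (by rwa [card_conj]) (Or.inr (Or.inr (CA.Coprime2.isSolvable_of_comm Q)))
    have h3 : q * n ∈ normalizer (Q : Set G) ⊓ normalizer (H : Set G) :=
      ⟨mul_mem (le_normalizer hq) hn, mem_normalizer_of_forall fun y hy => by
        have := hq' _ (conj_mem_conj.2 hy)
        convert this using 1
        group⟩
    obtain ⟨a, ha, r, hr, e⟩ := exists_mul_eq_of_isSylowIn hR h3
    have : n = q⁻¹ * (a * r) := by rw [← e]; group
    rw [this]
    exact mul_mem (mem_sup_left (inv_mem (hQ.le hq)))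
      (mul_mem (mem_sup_left (map_pResidual_le _ ha)) (mem_sup_right hr))

end Cfsg.Agent.S0092
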