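import Cfsg.Statements.S0094
import Cfsg.Agent.Lib.Grp.PGFrattini

set_option autoImplicit false
open Cfsg

namespace Cfsg.Agent.S0094

open Subgroup CA.PGBasic CA.PGClassTwo CA.PGFrattini CA.PGNormalCyclic
open scoped commutatorElement

/-- In a special p-group every central element has order dividing p. -/
theorem result {P : Type*} [Group P] [Finite P] {p : ℕ} [Fact p.Prime] (h : Cfsg.IsSpecial p P) (z : P) (hz : z ∈ Subgroup.center P) : z ^ p = 1 := by
  have hc : commutator P ≤ center P := h.2.2.le
  have : commutator P ≤ omegaAb (center P) p := by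
    rw [commutator_def, commutator_le]
    intro x _ y _
    refine ⟨hc (comm_mem_commutator x y), ?_⟩
    rw [← comm_pow_left (commute_of_mem_center (hc (comm_mem_commutator x y)) x),
      commutatorElement_eq_one_iff_commute]
    exact (commute_of_mem_center (h.2.1 ▸ pow_mem_frattini h.1 x) y).symm
  exact (this (h.2.2 ▸ hz)).2

end Cfsg.Agent.S0094
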