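import Cfsg.Statements.S0097
import Cfsg.Agent.Lib.Grp.PGFrattini

set_option autoImplicit false
open Cfsg

namespace Cfsg.Agent.S0097

open Subgroup
open scoped commutatorElement

/-- For odd p and E extraspecial, the subgroup generated by the elements of order dividing p has exponent dividing p and index at most p. -/
theorem result {E : Type*} [Group E] [Finite E] {p : ℕ} [Fact p.Prime] (hp : p ≠ 2) (h : Cfsg.IsExtraspecial p E) : (Subgroup.closure {x : E | x ^ p = 1}).index ≤ p ∧ ∀ g ∈ Subgroup.closure {x : E | x ^ p = 1}, g ^ p = 1 := by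
  have hpp : p.Prime := Fact.out
  have hc : ∀ x y : E, ⁅x, y⁆ ∈ center E := fun x y =>
    h.1.2.2 ▸ commutator_mem_commutator (mem_top x) (mem_top y)
  have hz : ∀ z ∈ center E, z ^ p = 1 := fun z hz => by
    have := pow_card_eq_one' (x := (⟨z, hz⟩ : center E))
    rw [h.2] at this
    exact congrArg Subtype.val this
  have hm : ∀ x y : E, (x * y) ^ p = x ^ p * y ^ p := fun x y =>
    CA.PGClassTwo.mul_pow_odd (mem_center_iff.1 (hc y x) x) (mem_center_iff.1 (hc y x) y)
      (hpp.odd_of_ne_two hp) (hz _ (hc y x))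
  let f : E →* center E := MonoidHom.mk' (fun x => ⟨x ^ p, h.1.2.1 ▸
    CA.PGFrattini.pow_mem_frattini h.1.1 x⟩) fun x y => Subtype.ext (hm x y)
  have e : closure {x : E | x ^ p = 1} = f.ker :=
    le_antisymm ((closure_le _).2 fun x hx => Subtype.ext hx)
      fun x hx => subset_closure (congrArg Subtype.val hx)
  rw [e, index_ker]
  exact ⟨h.2 ▸ Nat.card_le_card_of_injective _ Subtype.val_injective, fun x hx => congrArg Subtype.val hx⟩

end Cfsg.Agent.S0097
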