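import Cfsg.Statements.S0099
import Cfsg.Agent.Lib.Grp.H7Ext

set_option autoImplicit false
open Cfsg

namespace Cfsg.Agent.S0099

open CA.H7Ext

/-- Among three extraspecial 2-groups of equal order, some two are isomorphic. -/
theorem result {E₁ : Type*} {E₂ : Type*} {E₃ : Type*} [Group E₁] [Group E₂] [Group E₃] [Finite E₁] [Finite E₂] [Finite E₃] (h₁ : Cfsg.IsExtraspecial 2 E₁) (h₂ : Cfsg.IsExtraspecial 2 E₂) (h₃ : Cfsg.IsExtraspecial 2 E₃) (h12 : Nat.card E₁ = Nat.card E₂) (h23 : Nat.card E₂ = Nat.card E₃) : Nonempty (E₁ ≃* E₂) ∨ Nonempty (E₂ ≃* E₃) ∨ Nonempty (E₁ ≃* E₃) := by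
  obtain ⟨n, m, c, -, a1, a2, a3, a4⟩ := exists_two h₁
  obtain ⟨n', m', c', -, b1, b2, b3, b4⟩ := exists_two h₂
  obtain ⟨n'', m'', c'', -, d1, d2, d3, d4⟩ := exists_two h₃
  rw [a3, b3, Nat.pow_right_inj one_lt_two] at h12
  rw [d3, b3, Nat.pow_right_inj one_lt_two] at h23
  obtain rfl : n = n' := by omega
  obtain rfl : n = n'' := by omega
  have : m = m' ∨ m' = m'' ∨ m = m'' := by omega
  rcases this with rfl | rfl | rfl
  · exact Or.inl (iso_of_index a1 a2 b1 b2)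
  · exact Or.inr (Or.inl (iso_of_index b1 b2 d1 d2))
  · exact Or.inr (Or.inr (iso_of_index a1 a2 d1 d2))

end Cfsg.Agent.S0099
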