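import Cfsg.Statements.S0101
import Cfsg.Agent.Lib.Grp.NPC2

set_option autoImplicit false
open Cfsg

namespace Cfsg.Agent.S0101

open Subgroup

/-- In a perfect central extension, the kernel meets each Sylow p-subgroup P inside the Frattini subgroup of P. -/
theorem result {H : Type*} {G : Type*} [Group H] [Group G] [Finite H] (σ : H →* G) (hσ : Function.Surjective σ) (hc : σ.ker ≤ Subgroup.center H) (hH : commutator H = ⊤) {p : ℕ} [Fact p.Prime] (P : Sylow p H) : σ.ker ⊓ (P : Subgroup H) ≤ (frattini P).map (P : Subgroup H).subtype := by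
  rintro x ⟨h1, h2⟩
  obtain ⟨e, he⟩ := P.isPGroup' ⟨x, h2⟩
  refine CA.PGFrattini.commutator_le_map_frattini P.isPGroup'
    (CA.NPC2.mem_commutator_sylow_of_center P.not_dvd_index h2 (e := e) ?_ (hH ▸ mem_top x) (hc h1))
  simpa using congrArg Subtype.val he

end Cfsg.Agent.S0101
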