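import Cfsg.Statements.S0104
import Cfsg.Agent.Lib.Grp.Trf

set_option autoImplicit false
open Cfsg

namespace Cfsg.Agent.S0104

open Subgroup CA.SylIn

/-- A subgroup Z of a Sylow p-subgroup P that is normalized by N_G(P) is weakly closed in P exactly when it is normal in every Sylow p-subgroup containing it. -/
theorem result {G : Type*} [Group G] [Finite G] {p : ℕ} [Fact p.Prime] (P : Sylow p G) (Z : Subgroup G) (hZP : Z ≤ (P : Subgroup G)) (hZN : Subgroup.normalizer (P : Set G) ≤ Subgroup.normalizer (Z : Set G)) : Cfsg.IsWeaklyClosed Z P ↔ ∀ R : Sylow p G, Z ≤ (R : Subgroup G) → (R : Subgroup G) ≤ Subgroup.normalizer (Z : Set G) := by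
  constructor
  · intro hW R hR
    obtain ⟨g, rfl⟩ := MulAction.exists_smul_eq G P R
    rw [coe_smul_sylow] at hR ⊢
    have h1 : g⁻¹ •ᶜ Z = Z := hW.2 _ (le_conj_iff_inv_conj_le.1 hR)
    have h2 : g •ᶜ Z = Z := by
      conv_lhs => rw [← h1]
      exact conj_inv_conj g Z
    rw [← h2, ← conj_normalizer]
    exact conj_mono g (le_normalizer.trans hZN)
  · intro h
    refine ⟨hZP, fun g hg => ?_⟩
    have h1 : IsSylowIn p (P : Subgroup G) (normalizer (Z : Set G)) := isSylowIn_of_le P (h P hZP)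
    have h2 : IsSylowIn p ((g⁻¹ • P : Sylow p G) : Subgroup G) (normalizer (Z : Set G)) :=
      isSylowIn_of_le _ (h _ (by rw [coe_smul_sylow]; exact conj_le_iff_le_inv_conj.1 hg))
    obtain ⟨k, hk, e⟩ := h2.exists_conj_eq h1
    rw [coe_smul_sylow, conj_conj] at e
    have h3 := hZN (mem_normalizer_iff_conj_eq.2 e)
    have h4 : g ∈ normalizer (Z : Set G) := by
      simpa using mul_mem (inv_mem h3) hk
    exact conj_eq_of_mem_normalizer h4

end Cfsg.Agent.S0104
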