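import Cfsg.Statements.S0109
import Cfsg.Agent.Lib.Loc.H6NPC

set_option autoImplicit false
open Cfsg

set_option linter.unusedVariables false
set_option linter.unusedSimpArgs false
set_option linter.style.haveILetI false

namespace Cfsg.Agent.S0109

open CA CA.H6NPC CA.H6Stab CA.H6PSolv CA.H6ZJ CA.H6Op CA.Amb CA.AmbSyl CA.AmbCore CA.AmbRes CA.AmbChar Subgroup
open CA.H6J hiding Z


/-- The Thompson factorization Theorem for solvable groups states that, with p odd (and abelian Sylow 2-subgroups when p = 3) and no nontrivial normal subgroup of order prime to p, every element of G is a product of an element normalizing J(P) and an element centralizing the elements of order dividing p in the centre of P. -/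
theorem result {G : Type*} [Group G] [Finite G] {p : ℕ} [Fact p.Prime] (hp : p ≠ 2) (hs : Group.IsSolvable G) (h3 : p = 3 → ∀ T : Sylow 2 G, IsMulCommutative T) (hF : ∀ N : Subgroup G, N.Normal → Nat.Coprime (Nat.card N) p → N = ⊥) (P : Sylow p G) (g : G) : ∃ a ∈ Subgroup.normalizer (Cfsg.thompsonSubgroupOf p (P : Subgroup G) : Set G), ∃ c ∈ Subgroup.centralizer {x : G | x ∈ (P : Subgroup G) ∧ (∀ y ∈ (P : Subgroup G), x * y = y * x) ∧ x ^ p = 1}, g = a * c := by
  have hs' : PSolv p (⊤ : Subgroup G) := isPSolvable_iff.1 (isPSolvable_of_isSolvable hs)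
  have hO : Cfsg.pPrimeCore p G = ⊥ := hF _ inferInstance (by simpa [π_ker] using (π_cop (p := p) (G := G)))
  have hc : CharP p (⊤ : Subgroup G) := charP_top_of_psolv hO (hs'.mono le_top)
  have hst : ∀ V : Subgroup G, V ≤ ⊤ → ⊤ ≤ 𝐍 V → IsPGroup p V → IsMulCommutative V → Stab p ⊤ V := by
    intro V _ hn hV _
    by_cases h : p = 3
    · obtain ⟨T⟩ : Nonempty (Sylow 2 G) := inferInstance
      exact stab_of_abSyl hp hV hn (abSyl_top_of_sylow T (h3 h T))
    · exact stab_of_psolv hp h hV hn hs'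
  obtain ⟨c, hc', x, hx, e⟩ := thompson_factorization hp dvd_rfl hc (sylIn_top P)
    (le_refl (H6J.Z (P : Subgroup G))) hst (mem_top g⁻¹)
  refine ⟨x⁻¹, ?_, c⁻¹, ?_, by rw [← mul_inv_rev, ← e, inv_inv]⟩
  · rw [thompsonSubgroupOf_eq]; exact inv_mem hx.2
  · refine inv_mem fun y hy => hc'.2 y (le_ncl _ _ ⟨hy.1, fun z hz => hy.2.1 z hz ▸ rfl⟩)

end Cfsg.Agent.S0109
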