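import Cfsg.Statements.S0113
import Cfsg.Agent.Lib.Grp.H7Max

set_option autoImplicit false
open Cfsg

namespace Cfsg.Agent.S0113

open Subgroup CA.BG CA.BG4 CA.OQuo CA.H7Max

/-- A 2-group of maximal class contains a cyclic subgroup of index 2. -/
theorem result {X : Type*} [Group X] [Finite X] (n : ℕ) (hn : 3 ≤ n) (hX : Nat.card X = 2 ^ n) (hc : Group.nilpotencyClass X = n - 1) : ∃ C : Subgroup X, IsCyclic C ∧ C.index = 2 := by
  obtain ⟨n, rfl⟩ : ∃ k, n = k + 3 := ⟨n - 3, by omega⟩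
  obtain ⟨a, y, h, e⟩ := mc3_of_class hX ((class_iff (n := n + 1) Nat.prime_two hX).1 hc)
  obtain ⟨ε, δ, h⟩ := h.exists
  exact ⟨zpowers a, inferInstance, by rw [← relIndex_top_right, ← e, h.relIndex]⟩

end Cfsg.Agent.S0113
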