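import Cfsg.Statements.S0114
import Cfsg.Agent.Lib.Grp.H7Max

set_option autoImplicit false
open Cfsg

namespace Cfsg.Agent.S0114

open Subgroup CA.BG CA.BG4 CA.OQuo CA.H7Max

/-- The central quotient of a 2-group of maximal class is dihedral. -/
theorem result {X : Type*} [Group X] [Finite X] (n : ℕ) (hn : 3 ≤ n) (hX : Nat.card X = 2 ^ n) (hc : Group.nilpotencyClass X = n - 1) : Nonempty (X ⧸ Subgroup.center X ≃* DihedralGroup (2 ^ (n - 2))) := by
  obtain ⟨n, rfl⟩ : ∃ k, n = k + 3 := ⟨n - 3, by omega⟩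
  obtain ⟨a, y, h, e⟩ := mc3_of_class hX ((class_iff (n := n + 1) Nat.prime_two hX).1 hc)
  obtain ⟨ε, δ, h⟩ := h.exists
  have hZ : center X = zpowers (a ^ (2 ^ (n + 1) : ℤ)) := by
    rw [← h.inf_centralizer (by omega), e, top_inf_eq, coe_top, centralizer_univ]
  have hm : ∀ i : ℤ, (QuotientGroup.mk' (center X) a) ^ i = 1 ↔ (2 : ℤ) ^ (n + 1) ∣ i := fun i => by
    rw [← map_zpow, QuotientGroup.mk'_apply, QuotientGroup.eq_one_iff, hZ, h.mem_pow_iff (by omega)]
  refine CA.PGDihedral.nonempty_mulEquiv_dihedral (a := QuotientGroup.mk' (center X) a)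
    (x := QuotientGroup.mk' (center X) y) ?_ ?_ ?_ ?_ ?_
  · apply Nat.dvd_antisymm
    · rw [orderOf_dvd_iff_pow_eq_one, ← zpow_natCast, hm]; simp
    · have := (hm (orderOf (QuotientGroup.mk' (center X) a) : ℕ)).1 (by rw [zpow_natCast, pow_orderOf_eq_one])
      exact_mod_cast this
  · rintro ⟨i, hi⟩
    apply h.notMem
    have h1 : (a ^ i)⁻¹ * y ∈ center X := QuotientGroup.eq.1 (by simpa using hi)
    rw [hZ] at h1
    have := mul_mem (zpow_mem (mem_zpowers a) i) (CA.MC2.zpowers_pow_le a _ h1)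
    simpa using this
  · rw [← map_pow, h.sq, map_zpow, hm]; exact Dvd.intro _ rfl
  · rw [← map_inv, ← map_mul, ← map_mul, h.conj, map_zpow, zpow_sub_one, (hm _).2 (Dvd.intro _ rfl), one_mul]
  · rw [← MonoidHom.map_zpowers, ← MonoidHom.map_zpowers, ← Subgroup.map_sup, e]
    exact Subgroup.map_top_of_surjective _ (QuotientGroup.mk'_surjective _)

end Cfsg.Agent.S0114
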