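import Cfsg.Statements.S0115
import Cfsg.Agent.Lib.Grp.H7Max

set_option autoImplicit false
open Cfsg

namespace Cfsg.Agent.S0115

open Subgroup CA.BG CA.BG4 CA.OQuo CA.H7Max

/-- A 2-group of order 2^n, n ≥ 3, is of maximal class exactly when its commutator quotient is a Klein four-group. -/
theorem result {X : Type*} [Group X] [Finite X] (n : ℕ) (hn : 3 ≤ n) (hX : Nat.card X = 2 ^ n) : Group.nilpotencyClass X = n - 1 ↔ IsKleinFour (X ⧸ commutator X) := by
  obtain ⟨n, rfl⟩ : ∃ k, n = k + 3 := ⟨n - 3, by omega⟩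
  refine (class_iff (n := n + 1) Nat.prime_two hX).trans ⟨fun h => ?_, fun h => ?_⟩
  · obtain ⟨h1, h2⟩ := index_der_of_class Nat.prime_two hX h
    have hG : IsPGroup 2 X := IsPGroup.of_card hX
    haveI : Nontrivial (X ⧸ commutator X) := Finite.one_lt_card_iff_nontrivial.1 (by
      rw [← index_eq_card, h1]; norm_num)
    refine ⟨h1, (Monoid.exponent_eq_prime_iff Nat.prime_two).2 fun g hg => ?_⟩
    by_contra hne
    have h4 : orderOf g ∣ 2 ^ 2 := h1 ▸ orderOf_dvd_natCard g
    haveI := isCyclic_of_orderOf_eq_card g ((orderOf_eq_prime_pow (n := 1)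
      (fun e => hne (orderOf_eq_prime (by simpa using e) hg)) (orderOf_dvd_iff_pow_eq_one.1 h4)).trans h1.symm)
    haveI := CA.PGFrattini.isCyclic_of_quotient (CA.PGFrattini.commutator_le_frattini hG) this
    exact h2 IsCyclic.isMulCommutative
  · have h1 : (commutator X).index = 4 := h.card_four
    obtain ⟨m, a, y, h3, h4⟩ := taussky (IsPGroup.of_card hX) h1 (fun e => by
      rw [show commutator X = ⊥ from comm_iff_der_eq_bot.1 (comm_top_iff.2 e), index_bot, hX, pow_add] at h1
      omega)
    obtain ⟨ε, δ, h5⟩ := h3.exists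
    have := h5.card
    rw [h4, card_top, hX] at this
    obtain rfl : n = m := by have := Nat.pow_right_injective le_rfl this; omega
    exact h4 ▸ mc_lcs h5

end Cfsg.Agent.S0115
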