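import Cfsg.Statements.S0117
import Cfsg.Agent.Lib.Loc.H6NPC

set_option autoImplicit false
open Cfsg

set_option linter.unusedVariables false
set_option linter.unusedSimpArgs false
set_option linter.style.haveILetI false

namespace Cfsg.Agent.S0117

open CA CA.H6NPC CA.H6Stab CA.H6PSolv CA.H6ZJ CA.H6Op CA.Amb CA.AmbSyl CA.AmbCore CA.AmbRes CA.AmbChar Subgroup
open CA.H6J hiding Z


/-- The Glauberman–Thompson Theorem states that for odd p, a single p-local subgroup, the normalizer of the centre of the Thompson subgroup of a Sylow p-subgroup, decides whether G has a normal p-complement. -/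
theorem result {G : Type*} [Group G] [Finite G] {p : ℕ} [Fact p.Prime] (hp : p ≠ 2) (P : Sylow p G) : Cfsg.HasNormalPComplement p G ↔ Cfsg.HasNormalPComplement p (Subgroup.normalizer (Cfsg.centerThompsonOf p (P : Subgroup G) : Set G)) := by
  refine ⟨fun h => PRes.hasNPC_subgroup h _, fun h => ?_⟩
  rw [centerThompsonOf_eq] at h
  exact glauberman_thompson hp dvd_rfl (sylIn_top P) h

end Cfsg.Agent.S0117
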