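import Cfsg.Statements.S0122
import Cfsg.Agent.Lib.Odd.BG4x2
import Cfsg.Agent.Lib.Grp.H7Cam
import Cfsg.Agent.Lib.Grp.PGNormalCyclic

set_option autoImplicit false
open Cfsg

namespace Cfsg.Agent.S0122

section Aux
open Subgroup CA.BG CA.BG4
open scoped commutatorElement
variable {G : Type*} [Group G] [Finite G] {p : ℕ} {R A B E E' : Subgroup G} {a : G}

/-- a normal maximal elementary abelian subgroup of order `p ^ 3` with an invariant hyperplane -/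
structure St (p : ℕ) (R A B : Subgroup G) (a : G) : Prop where
  pr : p.Prime
  pi : IsPi {p} R
  el : El p 3 A
  om : ∀ x ∈ R, x ∈ 𝓒(A) → x ^ p = 1 → x ∈ A
  nA : R ≤ 𝓝(A)
  le : B ≤ A
  cB : ♯B = p ^ 2
  nB : R ≤ 𝓝(B)
  mem : a ∈ A
  gen : B ⊔ zpowers a = A
  comm : ∀ g ∈ R, ⁅a, g⁆ ∈ B

namespace St
variable (h : St p R A B a)
include h

theorem cent {x g : G} (hx : x ∈ A) (hn : x ∉ B) (h1 : g ∈ 𝓒(B)) (h2 : x * g = g * x) : g ∈ 𝓒(A) := by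
  rw [← sup_zpowers_eq h.pr h.le (by rw [h.el.card, h.cB, pow_succ]) hx hn]
  intro y hy
  exact mem_centralizer_singleton_iff.1 ((sup_le (fun b hb => mem_centralizer_singleton_iff.2 (h1 b hb))
    (zpowers_le.2 (mem_centralizer_singleton_iff.2 h2)) : B ⊔ zpowers x ≤ 𝓒₁(g)) hy)

theorem not_mem : a ∉ B := fun ha => by
  have := h.gen
  rw [sup_eq_left.2 (zpowers_le.2 ha)] at this
  have h1 := h.cB
  rw [this, h.el.card] at h1
  have := Nat.pow_right_injective h.pr.two_le h1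
  omega

theorem l1 (hE : El p 4 E) (hER : E ≤ R) : E ≤ 𝓒(B) ∧ E ⊓ A = B := by
  have hp := h.pr
  have pw : ∀ {i j : ℕ}, p ^ i ≤ p ^ j → i ≤ j := fun h => (Nat.pow_le_pow_iff_right hp.one_lt).1 h
  have hn : ¬ E ≤ 𝓒(A) := fun e => by
    have := card_le_of_le fun x hx => h.om x (hER hx) (e hx) (hE.elem.2 x hx)
    rw [hE.card, h.el.card] at this
    have := pw this; omega
  have hF : 𝓒₁(a) ⊓ (E ⊓ 𝓒(B)) = E ⊓ A := le_antisymm
    (fun x hx => ⟨hx.2.1, h.om x (hER hx.2.1) (h.cent h.mem h.not_mem hx.2.2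
      (mem_centralizer_singleton_iff.1 hx.1).symm) (hE.elem.2 x hx.2.1)⟩)
    fun x hx => ⟨mem_centralizer_singleton_iff.2 (h.el.le_cent h.mem x hx.2), hx.1,
      fun b hb => h.el.le_cent hx.2 b (h.le hb)⟩
  have hc := card_inf_mul_relIndex 𝓒₁(a) (E ⊓ 𝓒(B))
  rw [hF] at hc
  by_cases e : E ≤ 𝓒(B)
  · refine ⟨e, CA.BG.eq_of_le_of_card_le (fun x hx => ?_) ?_⟩
    · by_contra hx'
      exact hn fun g hg => h.cent hx.2 hx' (e hg) (hE.le_cent hg x hx.1)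
    · have h1 := relIndex_cent1_dvd (R := E ⊓ 𝓒(B)) (x := a) inf_le_right
        fun g hg => h.comm g (hER hg.1)
      rw [inf_eq_left.2 e] at hc h1
      rw [h.cB] at h1 ⊢
      have h2 := Nat.mul_le_mul_left ♯(E ⊓ A) (Nat.le_of_dvd (pow_pos hp.pos 2) h1)
      rw [hc, hE.card, show p ^ 4 = p ^ 2 * p ^ 2 by ring] at h2
      exact Nat.le_of_mul_le_mul_right h2 (pow_pos hp.pos 2)
  exfalso
  obtain ⟨x, hx, hxn⟩ := SetLike.not_le_iff_exists.1 e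
  have h1 := relIndex_cent_dvd hp (hE.pi hp) (hER.trans h.nB) h.cB.dvd
  have h2 : p ^ 3 ≤ ♯(E ⊓ 𝓒(B)) := by
    have h3 := card_inf_mul_relIndex 𝓒(B) E
    have h4 := Nat.mul_le_mul_left ♯(𝓒(B) ⊓ E) (Nat.le_of_dvd hp.pos h1)
    rw [h3, hE.card, pow_succ, inf_comm] at h4
    exact Nat.le_of_mul_le_mul_right h4 hp.pos
  have hY : B ⊓ 𝓒₁(x) < B := lt_of_le_of_ne inf_le_left fun e' => hxn fun b hb =>
    mem_centralizer_singleton_iff.1 (inf_eq_left.1 e' hb)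
  have h3 := relIndex_cent1_dvd (R := E ⊓ 𝓒(B)) (x := a) (Z := B ⊓ 𝓒₁(x))
    (fun g hg b hb => hg.2 b hb.1) fun g hg => ⟨h.comm g (hER hg.1), by
      have c1 := h.comm x (hER hx)
      have e1 : g * x = x * g := hE.le_cent hx g hg.1
      have e2 : ⁅a, x⁆ * g = g * ⁅a, x⁆ := hg.2 _ c1
      have e3 : ⁅a, x⁆ * ⁅a, g⁆ = ⁅a, g⁆ * ⁅a, x⁆ :=
        h.el.le_cent (h.le (h.comm g (hER hg.1))) _ (h.le c1)
      refine mem_centralizer_singleton_iff.2 ?_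
      have e4 : x * g * x⁻¹ = g := by rw [← e1, mul_inv_cancel_right]
      have e5 : g⁻¹ * ⁅a, x⁆ = ⁅a, x⁆ * g⁻¹ := by
        rw [inv_mul_eq_iff_eq_mul, ← mul_assoc, ← e2, mul_inv_cancel_right]
      rw [← mul_inv_eq_iff_eq_mul.1 (show x * ⁅a, g⁆ * x⁻¹ = ⁅a, g⁆ from ?_)]
      calc x * ⁅a, g⁆ * x⁻¹ = ⁅a, x⁆⁻¹ * a * (x * g * x⁻¹) * a⁻¹ * ⁅a, x⁆ * (x * g * x⁻¹)⁻¹ := by
            simp only [commutatorElement_def]; group
        _ = ⁅a, x⁆⁻¹ * (⁅a, g⁆ * (g * (⁅a, x⁆ * g⁻¹))) := by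
            rw [e4]; simp only [commutatorElement_def]; group
        _ = _ := by rw [← e5, mul_inv_cancel_left, ← e3, inv_mul_cancel_left]⟩
  have h4 : p ^ 2 ≤ ♯(E ⊓ A) := by
    have h5 := Nat.mul_le_mul_left ♯(E ⊓ A) (Nat.le_of_dvd hp.pos
      (h3.trans (by simpa using card_dvd_of_lt (k := 1) hp hY h.cB.dvd)))
    rw [hc] at h5
    exact Nat.le_of_mul_le_mul_right ((pow_succ p 2).ge.trans (h2.trans h5)) hp.pos
  by_cases e' : E ⊓ A ≤ B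
  · have := CA.BG.eq_of_le_of_card_le e' (h.cB.le.trans h4)
    exact hxn fun b hb => hE.le_cent hx b (this ▸ hb : b ∈ E ⊓ A).1
  · obtain ⟨y, hy, hyn⟩ := SetLike.not_le_iff_exists.1 e'
    have h5 : E ⊓ 𝓒(B) ≤ A := fun g hg => h.om g (hER hg.1)
      (h.cent hy.2 hyn hg.2 (hE.le_cent hg.1 y hy.1)) (hE.elem.2 g hg.1)
    have h6 := CA.BG.eq_of_le_of_card_le h5 (h.el.card.le.trans h2)
    exact hn fun g hg y hy => hE.le_cent hg y (h6 ▸ hy : y ∈ E ⊓ 𝓒(B)).1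

theorem l2 (h2 : p ≠ 2) (hE : El p 4 E) (hER : E ≤ R) (hE' : El p 4 E') (hER' : E' ≤ R)
    (n1 : E ≤ 𝓝(E')) (n2 : E' ≤ 𝓝(E)) : E' ≤ E := by
  have hp := h.pr
  obtain ⟨c1, i1⟩ := h.l1 hE hER
  obtain ⟨c2, i2⟩ := h.l1 hE' hER'
  have hi : 𝓒₁(a).relIndex E = p ^ 2 := by
    have h3 := card_inf_mul_relIndex 𝓒₁(a) E
    have h4 : 𝓒₁(a) ⊓ E = B := le_antisymm (fun x hx => i1 ▸ ⟨hx.2, h.om x (hER hx.2)
      (h.cent h.mem h.not_mem (c1 hx.2) (mem_centralizer_singleton_iff.1 hx.1).symm)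
      (hE.elem.2 x hx.2)⟩) fun x hx => ⟨mem_centralizer_singleton_iff.2
        (h.el.le_cent h.mem x (h.le hx)), (i1 ▸ hx : x ∈ E ⊓ A).1⟩
    rw [h4, h.cB, hE.card, show p ^ 4 = p ^ 2 * p ^ 2 by ring] at h3
    exact Nat.eq_of_mul_eq_mul_left (pow_pos hp.pos 2) h3
  have hcl : {y | ∃ g ∈ E, g * a * g⁻¹ = y} = {y | ∃ g ∈ R ⊓ 𝓒(B), g * a * g⁻¹ = y} := by
    refine Set.eq_of_subset_of_ncard_le (fun y ⟨g, hg, e⟩ => ⟨g, ⟨hER hg, c1 hg⟩, e⟩) ?_ (Set.toFinite _)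
    rw [CA.H7Cam.card_cls, CA.H7Cam.card_cls, hi, ← h.cB]
    exact Nat.le_of_dvd Nat.card_pos (relIndex_cent1_dvd inf_le_right fun g hg => h.comm g hg.1)
  have key : ∀ x ∈ E', ∃ e ∈ E, e⁻¹ * x ∈ A := by
    intro x hx
    obtain ⟨e, he, e1⟩ : x * a * x⁻¹ ∈ {y | ∃ g ∈ E, g * a * g⁻¹ = y} :=
      hcl ▸ ⟨x, ⟨hER' hx, c2 hx⟩, rfl⟩
    refine ⟨e, he, h.om _ (mul_mem (inv_mem (hER he)) (hER' hx)) (h.cent h.mem h.not_mem
      (mul_mem (inv_mem (c1 he)) (c2 hx)) ?_) ?_⟩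
    · calc _ = e⁻¹ * (e * a * e⁻¹) * x := by group
        _ = _ := by rw [e1]; group
    · have m1 : ⁅x, e⁻¹⁆ ∈ E := comm_mem_of_norm (n2 hx) (inv_mem he)
      have m2 : ⁅x, e⁻¹⁆ ∈ E' := comm_mem_of_norm' hx (n1 (inv_mem he))
      exact CA.PGClassTwo.mul_pow_odd_eq_one (hE.le_cent m1 _ (inv_mem he)) (hE'.le_cent m2 _ hx)
        (hp.odd_of_ne_two h2) (hE.elem.2 _ (inv_mem he)) (hE'.elem.2 _ hx)
  have h3 : ¬ E ⊓ E' ≤ B := fun e => by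
    have h4 := card_sup_mul_inf n1
    have h5 := card_sup_mul_inf (hER.trans h.nA)
    rw [i1, h.cB, hE.card, h.el.card, show p ^ 4 * p ^ 3 = p ^ 5 * p ^ 2 by ring] at h5
    have h6 : ♯(E ⊔ E') ≤ ♯(E ⊔ A) := card_le_of_le (sup_le le_sup_left fun x hx => by
      obtain ⟨e, he, e1⟩ := key x hx
      simpa using mul_mem (mem_sup_left he) (mem_sup_right e1 : _ ∈ E ⊔ A))
    rw [Nat.eq_of_mul_eq_mul_right (pow_pos hp.pos 2) h5] at h6
    have h7 := Nat.mul_le_mul h6 ((card_le_of_le e).trans h.cB.le)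
    rw [h4, hE.card, hE'.card, ← pow_add, ← pow_add] at h7
    have := (Nat.pow_le_pow_iff_right hp.one_lt).1 h7
    omega
  obtain ⟨f, hf, hfn⟩ := SetLike.not_le_iff_exists.1 h3
  intro x hx
  obtain ⟨e, he, e1⟩ := key x hx
  by_cases e2 : e⁻¹ * x ∈ B
  · have := E.mul_mem he (i1.ge e2).1
    rwa [mul_inv_cancel_left] at this
  · refine absurd (i1 ▸ ⟨hf.1, h.om f (hER hf.1) (h.cent e1 e2 (c1 hf.1) ?_) (hE.elem.2 f hf.1)⟩) hfn
    rw [mul_assoc, hE'.le_cent hf.2 x hx, ← mul_assoc, hE.le_cent hf.1 _ (inv_mem he), mul_assoc]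

end St

theorem main (hp : p.Prime) (h2 : p ≠ 2) (n : ℕ) : ∀ R E : Subgroup G, ♯R = n → IsPi {p} R → E ≤ R →
    El p 4 E → ∃ A, A ≤ R ∧ El p 4 A ∧ R ≤ 𝓝(A) := by
  induction n using Nat.strong_induction_on with
  | _ n ih =>
  intro R E hn hR hER hE
  rcases hER.eq_or_lt with rfl | hlt
  · exact ⟨E, le_rfl, hE, le_normalizer⟩
  obtain ⟨M, h3, h4, h5, h6⟩ := exists_below hp hR hlt
  obtain ⟨E, hEM, hE, hME⟩ := ih ♯M (by
    have := card_mul_relIndex h4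
    have h7 : 0 < ♯M := Nat.card_pos
    rw [h5, hn] at this
    nlinarith [hp.one_lt]) M E rfl (hR.of_le h4) h3 hE
  obtain ⟨A0, a1, a2, a3⟩ := rank3_normal_p3Elem hp h2 hR ((hE.prk (hEM.trans h4)).le hp (by norm_num))
  obtain ⟨A, b1, b2, b3⟩ := exists_normal_maxEl hp h2 hR a1 a3 a2.elem
  by_cases h7 : p ^ 4 ≤ ♯A
  · obtain ⟨K, k1, k2, k3⟩ := exists_normal_card hp hR b3.le b2 h7
    exact ⟨K, k1.trans b3.le, ⟨CA.PGNormalCyclic.isElementaryAbelian_of_le b3.elem k1, k3⟩, k2⟩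
  have hA : ♯A = p ^ 3 := by
    refine le_antisymm (Nat.le_of_dvd (pow_pos hp.pos 3) ?_) (a2.card.ge.trans (card_le_of_le b1))
    by_contra h8
    exact h7 (pow_le_of_not_dvd hp (hR.of_le b3.le) h8)
  obtain ⟨B, c1, c2, c3⟩ := exists_normal_card (k := 2) hp hR b3.le b2
    (hA ▸ Nat.pow_le_pow_right hp.pos (by norm_num))
  have hAB : ♯A = ♯B * p := by rw [hA, c3, pow_succ]
  obtain ⟨a, d1, d2, d3⟩ := exists_sup_zpowers hp c1 (relIndex_eq_of_card c1 hAB)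
  have h : St p R A B a := ⟨hp, hR, ⟨b3.elem, hA⟩, fun x hx hc hxp => by
      rw [← b3.2.2 _ (sup_le b3.le (zpowers_le.2 hx))
        (CA.PGNormalCyclic.isElementaryAbelian_sup_zpowers b3.elem hc hxp) le_sup_left]
      exact mem_sup_right (mem_zpowers x), b2, c1, c3, c2, d1, d3, fun g hg =>
    comm_le_of_card hp hR le_rfl b3.le b2 c2 c1 hAB.dvd (commutator_mem_commutator d1 hg)⟩
  refine ⟨E, hEM.trans h4, hE, fun g hg => mem_norm_of_cj_le ?_⟩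
  have e1 : CA.BG.cj g E ≤ M := (cj_mono g hEM).trans (mem_norm_iff_cj.1 (h6 hg)).le
  have e2 : M ≤ 𝓝(CA.BG.cj g E) := by
    rw [← cj_norm, ← mem_norm_iff_cj.1 (h6 hg)]; exact cj_mono g hME
  exact h.l2 h2 hE (hEM.trans h4) (hE.cj g) (e1.trans h4) (hEM.trans e2) (e1.trans hME)

end Aux

open CA.BG in

/-- For odd p, a p-group containing an elementary abelian subgroup of order p^4 has a normal elementary abelian subgroup of order p^4. -/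
theorem result {G : Type*} [Group G] [Finite G] {p : ℕ} [Fact p.Prime] (hp : p ≠ 2) (hG : IsPGroup p G) (E : Subgroup G) (hE : Cfsg.IsElementaryAbelian p E) (hE4 : Nat.card E = p ^ 4) : ∃ A : Subgroup G, A.Normal ∧ Cfsg.IsElementaryAbelian p A ∧ Nat.card A = p ^ 4 := by
  have hpp : p.Prime := Fact.out
  obtain ⟨A, -, h1, h2⟩ := main hpp hp _ ⊤ E rfl (isPi_of_isPGroup hpp (hG.to_subgroup ⊤)) le_top ⟨hE, hE4⟩
  exact ⟨A, Subgroup.normalizer_eq_top_iff.1 (top_le_iff.1 h2), h1.elem, h1.card⟩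

end Cfsg.Agent.S0122
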