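import Cfsg.Statements.S0125
import Cfsg.Agent.Lib.Odd.BG4x2

set_option autoImplicit false
open Cfsg

namespace Cfsg.Agent.S0125

open CA.BG

/-- The centralizer of a self-centralizing normal subgroup A of a Sylow p-subgroup is the direct product of A with a normal p'-subgroup. -/
theorem result {G : Type*} [Group G] [Finite G] {p : ℕ} [Fact p.Prime] (R : Sylow p G) (A : Subgroup G) (hAR : A ≤ (R : Subgroup G)) (hAn : (R : Subgroup G) ≤ Subgroup.normalizer (A : Set G)) (hC : (R : Subgroup G) ⊓ Subgroup.centralizer (A : Set G) = A) : ∃ H : Subgroup G, H ≤ Subgroup.centralizer (A : Set G) ∧ Nat.Coprime (Nat.card H) p ∧ Subgroup.centralizer (A : Set G) ≤ Subgroup.normalizer (H : Set G) ∧ H ⊓ A = ⊥ ∧ H ⊔ A = Subgroup.centralizer (A : Set G) := by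
  have hpp : p.Prime := Fact.out
  have h := SCN_Sylow_cent_dprod hpp (syl_top hpp R) ⟨hAR, hAn, hC⟩
  rw [top_inf_eq] at h
  exact ⟨_, h.1, (isPi_compl_iff_coprime hpp).1 (core_pi _ _), le_norm_core _ _,
    by rw [inf_comm]; exact h.2.1, by rw [sup_comm]; exact h.2.2⟩

end Cfsg.Agent.S0125
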