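import Cfsg.Statements.S0129
import Cfsg.Agent.Lib.Odd.BG4x2

set_option autoImplicit false
open Cfsg

namespace Cfsg.Agent.S0129

open CA.BG CA.BG4 Subgroup

theorem aux {G : Type*} [Group G] [Finite G] {p : ℕ} (hp : p.Prime) {R A : Subgroup G}
    (hR : IsPi {p} R) (hA : A ≤ R) (hn : R ≤ 𝓝(A)) (k : ℕ) (hk : p ^ k ≤ ♯A) :
    ∃ K, K ≤ A ∧ R ≤ 𝓝(K) ∧ ♯K = p ^ k ∧ 𝓒(K).relIndex R ∣ p ^ k.choose 2 := by
  induction k with
  | zero => exact ⟨⊥, bot_le, le_norm_bot R, by simp, by rw [cent_bot]; simp⟩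
  | succ k ih =>
    have h0 : p ^ k < p ^ (k + 1) := Nat.pow_lt_pow_right hp.one_lt (by omega)
    obtain ⟨K, h1, h2, h3, h4⟩ := ih (h0.le.trans hk)
    obtain ⟨x, hx, h5, h6, h7⟩ := CA.BG4.layer hp hR le_rfl hA hn (hA.trans h2)
      fun h => by have := card_le_of_le' h; omega
    refine ⟨K ⊔ zpowers x, sup_le h1 (zpowers_le.2 hx), norm_sup_zpowers h2 (h2 (hA hx)) h7,
      by rw [card_sup_zpowers hp (h2 (hA hx)) h5 h6, h3, pow_succ], ?_⟩
    refine (relIndex_cent_sup_zpowers_dvd inf_le_right h7).trans ?_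
    rw [Nat.choose_succ_succ' k 1, Nat.choose_one_right, pow_add, mul_comm, h3]
    exact Nat.mul_dvd_mul_left _ h4

/-- The order of a p-group is bounded by p^(a(a+1)/2) when it has a maximal normal abelian subgroup of order p^a. -/
theorem result {G : Type*} [Group G] [Finite G] {p : ℕ} [Fact p.Prime] (hG : IsPGroup p G) (A : Subgroup G) [A.Normal] (hA : IsMulCommutative A) (hmax : ∀ B : Subgroup G, B.Normal → IsMulCommutative B → A ≤ B → B = A) (a : ℕ) (ha : Nat.card A = p ^ a) : Nat.card G ≤ p ^ (a * (a + 1) / 2) := by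
  have hpp : p.Prime := Fact.out
  have hG' : IsPi {p} (⊤ : Subgroup G) := isPi_of_isPGroup hpp (hG.to_subgroup ⊤)
  haveI := hG.isNilpotent
  obtain ⟨K, h1, -, h3, h4⟩ := aux hpp hG' le_top (normalizer_eq_top_iff.2 ‹_›).ge a ha.ge
  rw [eq_of_le_of_card_eq h1 (h3.trans ha.symm), CA.PGBasic.centralizer_eq_of_maximal hmax,
    relIndex_top_right] at h4
  rw [← A.card_mul_index, ha, show a * (a + 1) / 2 = a + a.choose 2 by
    have := Nat.choose_succ_succ' a 1
    rw [Nat.choose_one_right, Nat.choose_two_right, mul_comm] at this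
    exact this, pow_add]
  exact Nat.mul_le_mul_left _ (Nat.le_of_dvd (pow_pos hpp.pos _) h4)

end Cfsg.Agent.S0129
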