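import Cfsg.Statements.S0132
import Cfsg.Agent.Lib.Grp.Fus2

set_option autoImplicit false
open Cfsg

namespace Cfsg.Agent.S0132

open Subgroup CA.SylIn CA.PRes CA.Hyperfocal CA.NPC2

/-- A minimal non-p-nilpotent finite group is a minimal non-nilpotent group with a normal Sylow p-subgroup. -/
theorem result {G : Type*} [Group G] [Finite G] {p : ℕ} [Fact p.Prime] (h1 : ¬ Cfsg.HasNormalPComplement p G) (h2 : ∀ H : Subgroup G, H ≠ ⊤ → Cfsg.HasNormalPComplement p H) : (∀ H : Subgroup G, H ≠ ⊤ → Group.IsNilpotent H) ∧ ¬ Group.IsNilpotent G ∧ ∀ P : Sylow p G, (P : Subgroup G).Normal := by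
  have h1' := h1
  rw [hasNPC_iff_forall_pgroup] at h1'
  push Not at h1'
  obtain ⟨Q, hQ, g, hg, hc, hn⟩ := h1'
  have htop : zpowers g ⊔ Q = ⊤ := by
    by_contra hne
    exact hn (mem_centralizer_of_hasNPC_subgroup (h2 _ hne) hQ le_sup_right
      (mem_sup_left (mem_zpowers g)) hg hc)
  have hQn : Q.Normal := normalizer_eq_top_iff.1
    (eq_top_iff.2 (htop.ge.trans (sup_le (zpowers_le.2 hg) le_normalizer)))
  have hcyc : IsCyclic (G ⧸ Q) := ⟨⟨(g : G ⧸ Q), fun x => by
    have : x ∈ (⊤ : Subgroup G).map (QuotientGroup.mk' Q) := by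
      rw [map_top_of_surjective _ (QuotientGroup.mk'_surjective Q)]; trivial
    rwa [← htop, Subgroup.map_sup, QuotientGroup.map_mk'_self, sup_bot_eq,
      MonoidHom.map_zpowers] at this⟩⟩
  have hS : IsSylowIn p Q ⊤ := ⟨le_top, hQ, fun hd => by
    have := CA.Coprime.relIndex_dvd_card_of_le_sup (zpowers_le.2 hg) htop.ge
    rw [Nat.card_zpowers] at this
    exact coprime_iff_not_dvd.1 hc (hd.trans this)⟩
  refine ⟨fun H hH => isNilpotent_of_forall_hasNPC fun r hr _ => ?_,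
    fun hn => h1 (hasNPC_of_isNilpotent hn), fun P => ?_⟩
  · haveI := Fact.mk hr
    by_cases hrp : r = p
    · subst hrp; exact h2 H hH
    refine hasNPC_subgroup (hasNPC_of_quotient Q (fun hd => hrp ?_) (hasNPC_of_comm inferInstance)) H
    obtain ⟨k, hk⟩ := hQ.exists_card_eq
    exact (Nat.prime_dvd_prime_iff_eq hr Fact.out).1 (hr.dvd_of_dvd_pow (hk ▸ hd))
  · obtain ⟨x, -, e⟩ := hS.exists_conj_eq (isSylowIn_top P)
    rw [← e, conj_eq_of_normal]
    exact hQn

end Cfsg.Agent.S0132
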