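import Cfsg.Statements.S0163
import Cfsg.Agent.Lib.Char.H12Ch8

set_option autoImplicit false
open Cfsg

namespace Cfsg.Agent.S0163

open CA.PF CA.OQuo CA.H12Gl CA.H12Gl2 CA.H12Mon CA.H12Ch8 Subgroup
open CA.BG hiding cj cj_one cj_mul cj_inv_cj cj_cj_inv mem_cent1

/-- Brauer's induction Theorem: every character of a finite group is a ℤ-linear combination of functions induced from linear characters (homomorphisms to ℂˣ) of elementary subgroups. -/
theorem result {G : Type*} [Group G] [Fintype G] (χ : G → ℂ) (hχ : Cfsg.IsCharacter G χ) : ∃ l : List ((E : Subgroup G) × ((E →* ℂˣ) × ℤ)), (∀ t ∈ l, ∃ p : ℕ, p.Prime ∧ Cfsg.IsElementary p t.1) ∧ χ = (l.map fun t => (t.2.2 : ℂ) • Cfsg.indFun t.1 (fun e => (t.2.1 e : ℂ))).sum := by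
  refine brauer_lin (S := lists (fun t : (E : Subgroup G) × ((E →* ℂˣ) × ℤ) =>
    (t.2.2 : ℂ) • indFun t.1 (fun e => (t.2.1 e : ℂ))) (fun t => ∃ p : ℕ, p.Prime ∧ IsElementary p t.1)
    fun t h => ⟨⟨t.1, t.2.1, -t.2.2⟩, h, by simp⟩) (fun E p hp hE i => ?_) (isChar_top.2 hχ).VC
  exact mem_lists ⟨E, i.hom, 1⟩ ⟨p, hp, hE⟩ (by simpa [lin] using Ind_top E _)

end Cfsg.Agent.S0163
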