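import Cfsg.Statements.S0166
import Cfsg.Agent.Lib.Char.H12Ch8
import Cfsg.Agent.Lib.Char.CharMisc

set_option autoImplicit false
open Cfsg

namespace Cfsg.Agent.S0166

open CChar CChar.CharRep CA.MatRep

section
variable {G : Type*} [Group G] {K : Type} [Field K] (f : K →+* ℂ)

/-- Characters realised over `K`. -/
def RK (χ : G → ℂ) : Prop :=
  ∃ (n : ℕ) (σ : Representation K G (Fin n → K)), χ = fun g => f (σ.character g)

theorem rk_of {V : Type*} [AddCommGroup V] [Module K V] [FiniteDimensional K V]
    (σ : Representation K G V) : RK f (fun g => f (σ.character g)) := by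
  obtain ⟨τ, ⟨e⟩⟩ := exists_equiv_fin σ
  exact ⟨_, τ, by rw [Representation.char_iso e]⟩

theorem rk_add {χ ψ : G → ℂ} (h1 : RK f χ) (h2 : RK f ψ) : RK f (χ + ψ) := by
  obtain ⟨n, σ, rfl⟩ := h1
  obtain ⟨m, τ, rfl⟩ := h2
  have := rk_of f (σ.prod τ)
  rw [character_prod] at this
  convert this using 1
  ext g; simp

theorem rk_zero : RK f (0 : G → ℂ) := by
  refine ⟨0, 1, ?_⟩
  ext g
  have : (1 : Representation K G (Fin 0 → K)) g = 0 := Subsingleton.elim _ _
  simp [Representation.character, this]

theorem rk_mat {ι : Type*} [Fintype ι] [DecidableEq ι] (M : G →* Matrix ι ι K) :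
    RK f (fun g => f (M g).trace) := by
  have := rk_of f ((Matrix.toLinAlgEquiv' : Matrix ι ι K ≃ₐ[K] _).toMonoidHom.comp M :
    Representation K G (ι → K))
  convert this using 3 with g
  exact (Matrix.trace_toLin'_eq (M g)).symm

theorem mat_of_rk {χ : G → ℂ} (h : RK f χ) :
    ∃ (n : ℕ) (M : G →* Matrix (Fin n) (Fin n) K), χ = fun g => f (M g).trace := by
  obtain ⟨n, σ, rfl⟩ := h
  refine ⟨n, (LinearMap.toMatrixAlgEquiv' : _ ≃ₐ[K] Matrix (Fin n) (Fin n) K).toMonoidHom.comp σ,
    ?_⟩
  ext g
  congr 1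
  have : σ g = Matrix.toLin' (LinearMap.toMatrix' (σ g)) := (Matrix.toLin'_toMatrix' _).symm
  rw [Representation.character, this, Matrix.trace_toLin'_eq]
  rfl

theorem char_of_rk {χ : G → ℂ} (h : RK f χ) : IsCharacter G χ := by
  obtain ⟨n, M, rfl⟩ := mat_of_rk f h
  exact isCharacter_of_trace (mapHom f M) fun g => (trace_mapHom f M g).symm

theorem rk_sub [Finite G] {ψ : G → ℂ} (hψ : RK f ψ) :
    ∀ φ χ : G → ℂ, RK f φ → IsCharacter G χ → φ = χ + ψ → RK f χ := by
  classical
  have := Fintype.ofFinite G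
  have hK : CharZero K := f.charZero
  have hne : NeZero (Nat.card G : K) := ⟨Nat.cast_ne_zero.2 Nat.card_pos.ne'⟩
  have hI : Invertible (Nat.card G : K) := invertibleOfNonzero hne.1
  have hI' : Invertible (Nat.card G : ℂ) := invertibleOfNonzero (Nat.cast_ne_zero.2 Nat.card_pos.ne')
  obtain ⟨n, τ, rfl⟩ := hψ
  refine (character_induction (P := fun ψ : G → K => RK f (fun g => f (ψ g)) ∧
    ∀ φ χ : G → ℂ, RK f φ → IsCharacter G χ → φ = χ + (fun g => f (ψ g)) → RK f χ) ?_ ?_ ?_ τ).2
  · have e : (fun g : G => f ((0 : G → K) g)) = 0 := by ext g; simp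
    rw [e]
    exact ⟨rk_zero f, fun φ χ h1 _ h3 => by rw [add_zero] at h3; exact h3 ▸ h1⟩
  · intro m σ hσ
    refine ⟨rk_of f σ, fun φ χ h1 h2 h3 => ?_⟩
    obtain ⟨k, V, rfl⟩ := h1
    obtain ⟨a, X, rfl⟩ := h2
    obtain ⟨b, Y, hY⟩ := char_of_rk f (rk_of f σ)
    have e1 := Representation.card_inv_mul_sum_char_mul_char_eq_finrank σ V
    have e2 := Representation.card_inv_mul_sum_char_mul_char_eq_finrank σ σ
    have e3 := Representation.card_inv_mul_sum_char_mul_char_eq_finrank Y X
    have e1' := congrArg f e1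
    have e2' := congrArg f e2
    simp only [map_mul, map_inv₀, map_natCast, map_sum] at e1' e2'
    have h4 : ∀ g, f (V.character g) = X.character g + f (σ.character g) := fun g => congrFun h3 g
    simp only [h4, add_mul, Finset.sum_add_distrib, mul_add] at e1'
    rw [hY] at e3
    rw [e2', e3] at e1'
    have e4 : Module.finrank ℂ (Representation.IntertwiningMap Y X) +
      Module.finrank K (Representation.IntertwiningMap σ σ) =
        Module.finrank K (Representation.IntertwiningMap σ V) := by exact_mod_cast e1'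
    have hnt := nontrivial_of_isIrreducible σ
    have p1 : 0 < Module.finrank K (Representation.IntertwiningMap σ σ) := by
      have : Nontrivial (Representation.IntertwiningMap σ σ) := by
        refine ⟨⟨Representation.IntertwiningMap.id σ, 0, fun h => ?_⟩⟩
        obtain ⟨v, hv⟩ := exists_ne (0 : Fin m → K)
        exact hv (by simpa using congrArg (fun F : Representation.IntertwiningMap σ σ => F v) h)
      exact Module.finrank_pos
    have p2 : 0 < Module.finrank K (Representation.IntertwiningMap σ V) := by omega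
    have : Nontrivial (Representation.IntertwiningMap σ V) := Module.nontrivial_of_finrank_pos p2
    obtain ⟨F, hF⟩ := exists_ne (0 : Representation.IntertwiningMap σ V)
    have hinj : Function.Injective F :=
      (Representation.IsIrreducible.injective_or_eq_zero F).resolve_right hF
    obtain ⟨U', hU⟩ := exists_isCompl F.range
    have e5 := character_eq_add_of_isCompl hU
    rw [← Representation.char_iso (equivRange F hinj)] at e5
    have e6 : X.character = fun g => f (U'.toRepresentation.character g) := by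
      ext g
      have := h4 g
      rw [e5, Pi.add_apply, map_add, add_comm] at this
      exact (add_right_cancel this).symm
    rw [e6]
    exact rk_of f _
  · rintro φ ψ ⟨a1, a2⟩ ⟨b1, b2⟩
    have e : (fun g : G => f ((φ + ψ) g)) = (fun g => f (φ g)) + fun g => f (ψ g) := by
      ext g; simp
    rw [e]
    refine ⟨rk_add f a1 b1, fun θ χ h1 h2 h3 => ?_⟩
    exact a2 _ χ (b2 θ (χ + fun g => f (φ g)) h1 (CharFun.char_add h2 (char_of_rk f a1))
      (by rw [h3, add_assoc])) h2 rfl

/-- Differences of characters realised over `K`. -/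
def SK : Submodule ℤ (G → ℂ) :=
  AddSubgroup.toIntSubmodule
    { carrier := {θ | ∃ φ ψ, RK f φ ∧ RK f ψ ∧ θ = φ - ψ}
      zero_mem' := ⟨0, 0, rk_zero f, rk_zero f, by simp⟩
      add_mem' := by
        rintro _ _ ⟨a, b, h1, h2, rfl⟩ ⟨c, d, h3, h4, rfl⟩
        exact ⟨a + c, b + d, rk_add f h1 h3, rk_add f h2 h4, by abel⟩
      neg_mem' := by
        rintro _ ⟨a, b, h1, h2, rfl⟩
        exact ⟨b, a, h2, h1, by abel⟩ }

theorem rk_all [Finite G] (hf : ∀ z : ℂ, z ^ Monoid.exponent G = 1 → z ∈ f.range) {χ : G → ℂ}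
    (hχ : IsCharacter G χ) : RK f χ := by
  classical
  have := Fintype.ofFinite G
  have h : χ ∈ SK f := by
    refine CA.H12Ch8.brauer_lin (fun E p _ _ i => ?_) (CA.PF.mem_VC_top.2 ⟨χ, 0, hχ,
      char_of_rk f (rk_zero f), by simp⟩)
    have hv : ∀ e : E, ∃ k : K, f k = (i e : ℂ) := fun e => hf _ (by
      rw [← Units.val_pow_eq_pow_val, ← map_pow]
      have : e ^ Monoid.exponent G = 1 := Subtype.ext (Monoid.pow_exponent_eq_one (e : G))
      rw [this, map_one, Units.val_one])
    choose k hk using hv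
    let M : E →* Matrix Unit Unit K :=
      { toFun := fun e => Matrix.of fun _ _ => k e
        map_one' := by
          ext a b
          apply f.injective
          simp [hk]
        map_mul' := fun x y => by
          ext a b
          apply f.injective
          simp [hk, Matrix.mul_apply] }
    refine ⟨_, 0, rk_mat f (indMat E M), rk_zero f, ?_⟩
    rw [sub_zero, CA.PF.lin, CA.PF.Ind_top]
    ext g
    rw [← trace_mapHom]
    have e1 : mapHom f (indMat E M) g = indMat E (mapHom f M) g := by
      ext a b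
      rw [mapHom_apply, Matrix.map_apply, indMat_apply, indMat_apply]
      by_cases hm : a.1.out⁻¹ * g * b.1.out ∈ E
      · rw [extM_of_mem _ _ hm, extM_of_mem _ _ hm]; rfl
      · rw [extM_of_not_mem _ _ hm, extM_of_not_mem _ _ hm]; simp
    rw [e1, trace_indMat_eq_indFun]
    congr 1
    ext e
    rw [trace_mapHom]
    simp [M, Matrix.trace, hk]
  obtain ⟨φ, ψ, h1, h2, h3⟩ := h
  exact rk_sub f h2 φ χ h1 hχ (by rw [h3]; abel)

end

/-- Brauer's splitting field Theorem: a complex representation of a finite group of exponent m is equivalent to a representation by matrices with entries in ℚ adjoined exp(2πi/m). -/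
theorem result {G : Type*} [Group G] [Finite G] (n : ℕ) (ρ : Representation ℂ G (Fin n → ℂ)) : ∃ σ : Representation ℂ G (Fin n → ℂ), Nonempty (ρ.Equiv σ) ∧ ∀ g : G, ∀ i j : Fin n, LinearMap.toMatrix' (σ g) i j ∈ Algebra.adjoin ℚ ({Complex.exp (2 * Real.pi * Complex.I / (Monoid.exponent G : ℂ))} : Set ℂ) := by
  classical
  set ζ := Complex.exp (2 * Real.pi * Complex.I / (Monoid.exponent G : ℂ)) with hζ
  have hm : Monoid.exponent G ≠ 0 := Monoid.exponent_ne_zero_of_finite
  have hp : IsPrimitiveRoot ζ (Monoid.exponent G) := Complex.isPrimitiveRoot_exp _ hm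
  let K := IntermediateField.adjoin ℚ ({ζ} : Set ℂ)
  have hK : K.toSubalgebra = Algebra.adjoin ℚ {ζ} :=
    IntermediateField.adjoin_simple_toSubalgebra_of_isAlgebraic
      ((hp.isIntegral (Nat.pos_of_ne_zero hm)).tower_top (A := ℚ)).isAlgebraic
  have h1 : RK (algebraMap K ℂ) ρ.character := by
    refine rk_all _ (fun z hz => ?_) ⟨n, ρ, rfl⟩
    have : NeZero (Monoid.exponent G) := ⟨hm⟩
    obtain ⟨i, -, rfl⟩ := hp.eq_pow_of_pow_eq_one hz
    exact ⟨⟨ζ ^ i, pow_mem (IntermediateField.mem_adjoin_simple_self ℚ ζ) i⟩, rfl⟩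
  obtain ⟨m, M, hM⟩ := mat_of_rk _ h1
  have hmn : m = n := by
    have := congrFun hM 1
    simp at this
    exact this.symm
  subst hmn
  refine ⟨toRep (mapHom (algebraMap K ℂ) M), CChar.CharMisc.nonempty_equiv_of_character_eq _ _ ?_,
    fun g i j => ?_⟩
  · ext g
    rw [toRep_character, trace_mapHom, hM]
  · rw [toRep_apply, LinearMap.toMatrix'_toLin', mapHom_apply, Matrix.map_apply, ← hK]
    exact (M g i j).2

end Cfsg.Agent.S0166
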