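import Cfsg.Statements.S0170
import Cfsg.Agent.Lib.Char.Ind2

set_option autoImplicit false
open Cfsg

namespace Cfsg.Agent.S0170

/-- Exceptional characters. Let S be a subset of a finite group contained in its normalizer N and meeting its conjugates by elements outside N only in the identity. Given n ≥ 2 distinct irreducible characters of N of equal degree that vanish on N away from S, there exist a sign ε and n distinct irreducible characters θ_i of G such that inducing χ_i − χ_j to G gives ε (θ_i − θ_j) for all i, j. -/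
theorem result {G : Type*} [Group G] [Fintype G] (S : Set G) (hSN : S ⊆ Subgroup.normalizer S) (hTI : ∀ g : G, g ∉ Subgroup.normalizer S → ∀ s ∈ S, g * s * g⁻¹ ∈ S → s = 1) (n : ℕ) (hn : 2 ≤ n) (χ : Fin n → (Subgroup.normalizer S → ℂ)) (hirr : ∀ i, Cfsg.IsIrrCharacter (Subgroup.normalizer S) (χ i)) (hinj : Function.Injective χ) (hvan : ∀ i, ∀ x : Subgroup.normalizer S, (x : G) ∉ S → χ i x = 0) (hdeg : ∀ i j, χ i 1 = χ j 1) : ∃ ε : ℂ, (ε = 1 ∨ ε = -1) ∧ ∃ θ : Fin n → (G → ℂ), (∀ i, Cfsg.IsIrrCharacter G (θ i)) ∧ Function.Injective θ ∧ ∀ i j, Cfsg.indFun (Subgroup.normalizer S) (χ i) - Cfsg.indFun (Subgroup.normalizer S) (χ j) = ε • (θ i - θ j) := by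
  have := Fintype.ofFinite (Subgroup.normalizer S)
  let i₀ : Fin n := ⟨0, by omega⟩
  have hg : ∀ i, Cfsg.IsGeneralizedCharacter (Subgroup.normalizer S) (χ i - χ i₀) := fun i =>
    CChar.CharGen.gen_sub (CChar.CharGen.gen_of_irr (hirr i)) (CChar.CharGen.gen_of_irr (hirr i₀))
  have h1 : ∀ i, (χ i - χ i₀) 1 = 0 := fun i => by rw [Pi.sub_apply, hdeg i i₀, sub_self]
  have hv : ∀ i, ∀ x : Subgroup.normalizer S, (x : G) ∉ S → (χ i - χ i₀) x = 0 := fun i x hx => by
    rw [Pi.sub_apply, hvan i x hx, hvan i₀ x hx, sub_self]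
  obtain ⟨ε, hε, μ, m1, m2, m3⟩ := CA.Ind2.isometry_sub i₀ χ hirr hinj
    (fun i => Cfsg.indFun (Subgroup.normalizer S) (χ i - χ i₀))
    (by simp only [sub_self]; exact CA.Ind.indFun_zero _)
    (fun i => CA.MatRep.isGenChar_indFun _ (hg i))
    (fun i => by rw [CA.Ind.indFun_one, h1, mul_zero])
    (fun i j => CA.Ind.inner_ind_ind_TI S hTI (CChar.CharGen.gen_classFun (hg j)) (hv i) (hv j)
      (h1 i))
  refine ⟨ε, hε, μ, m1, m2, fun i j => ?_⟩
  have e1 := m3 i
  have e2 := m3 j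
  simp only [CA.Ind.indFun_sub] at e1 e2
  rw [← sub_sub_sub_cancel_right _ _ (Cfsg.indFun (Subgroup.normalizer S) (χ i₀)), e1, e2,
    ← smul_sub, sub_sub_sub_cancel_right]

end Cfsg.Agent.S0170
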