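import Cfsg.Statements.S0176
import Cfsg.Agent.Lib.Char.H12Mon

set_option autoImplicit false
open Cfsg

namespace Cfsg.Agent.S0176

open CA.PF CA.OQuo CA.H12Gl CA.H12Gl2 CA.H12Gl3 CA.H12Tri CA.H12Mon Subgroup
open CA.BG hiding cj cj_one cj_mul cj_inv_cj cj_cj_inv mem_cent1

/-- A finite nilpotent group is an M-group: each irreducible complex character is induced from a homomorphism of some subgroup into ℂˣ. -/
theorem result {G : Type*} [Group G] [Fintype G] [Group.IsNilpotent G] (χ : G → ℂ) (hχ : Cfsg.IsIrrCharacter G χ) : ∃ (H : Subgroup G) (lam : H →* ℂˣ), χ = Cfsg.indFun H (fun h => (lam h : ℂ)) := by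
  obtain ⟨U, -, i, e⟩ := nil_mon (G := ⊤) inferInstance (mem_irr_top.2 hχ)
  exact ⟨U, i.hom, e.symm.trans (Ind_top U _)⟩

end Cfsg.Agent.S0176
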