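import Cfsg.Statements.S0177
import Cfsg.Agent.Lib.Char.H12Ch8

set_option autoImplicit false
open Cfsg

namespace Cfsg.Agent.S0177

open CA.PF CA.OQuo CA.H12Gl CA.H12Gl2 CA.H12Mon CA.H12Ch8 Subgroup
open CA.BG hiding cj cj_one cj_mul cj_inv_cj cj_cj_inv mem_cent1

/-- The Artin induction Theorem: for a character χ of a finite group, |G| • χ is a ℤ-linear combination of functions induced from homomorphisms of cyclic subgroups into ℂˣ. -/
theorem result {G : Type*} [Group G] [Fintype G] (χ : G → ℂ) (hχ : Cfsg.IsCharacter G χ) : ∃ l : List ((A : Subgroup G) × ((A →* ℂˣ) × ℤ)), (∀ t ∈ l, IsCyclic t.1) ∧ (Nat.card G : ℂ) • χ = (l.map fun t => (t.2.2 : ℂ) • Cfsg.indFun t.1 (fun a => (t.2.1 a : ℂ))).sum := by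
  rw [← card_top]
  refine artin (S := lists (fun t : (E : Subgroup G) × ((E →* ℂˣ) × ℤ) =>
    (t.2.2 : ℂ) • indFun t.1 (fun e => (t.2.1 e : ℂ))) (fun t => IsCyclic t.1)
    fun t h => ⟨⟨t.1, t.2.1, -t.2.2⟩, h, by simp⟩) (fun E _ hE i => ?_) (isChar_top.2 hχ).VC
  exact mem_lists ⟨E, i.hom, 1⟩ hE (by simpa [lin] using Ind_top E _)

end Cfsg.Agent.S0177
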