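import Cfsg.Statements.S0180
import Cfsg.Agent.Lib.Char.Cons
import Cfsg.Agent.Lib.Char.GalC
import Cfsg.Agent.S0136

set_option autoImplicit false
open Cfsg

namespace Cfsg.Agent.S0180

/-- Every irreducible complex character of a finite group takes only rational values if and only if g is conjugate to g ^ m for every element g and every m coprime to the group order. -/
theorem result {G : Type*} [Group G] [Finite G] : (∀ χ : Cfsg.IrrCharacter G, ∀ g : G, ∃ q : ℚ, (χ : G → ℂ) g = (q : ℂ)) ↔ ∀ m : ℕ, m.Coprime (Nat.card G) → ∀ g : G, IsConj g (g ^ m) := by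
  have hpow : ∀ (g : G) (z : ℂ), z ^ orderOf g = 1 → z ^ Nat.card G = 1 := by
    intro g z hz
    obtain ⟨c, hc⟩ := orderOf_dvd_natCard g
    rw [hc, pow_mul, hz, one_pow]
  constructor
  · intro h m hm g
    obtain ⟨σ, hσ⟩ := CA.GalC.exists_equiv_pow (Nat.card_pos (α := G)) hm
    rw [Cfsg.Agent.S0136.result]
    intro χ
    rw [← CA.Cons.map_char_apply (σ : ℂ →+* ℂ) (CChar.CharFun.char_of_irr χ.2) g m
      (fun z hz => hσ z (hpow g z hz))]
    obtain ⟨q, hq⟩ := h χ g
    rw [hq, map_ratCast]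
  · intro h χ g
    have hχ := CChar.CharFun.char_of_irr χ.2
    refine CA.GalC.exists_rat_of_fixed (CChar.CharFun.char_isIntegral hχ g).tower_top fun σ => ?_
    obtain ⟨k, hk, hσ⟩ := CA.GalC.exists_pow_of_hom (σ : ℂ →+* ℂ) (Nat.card_pos (α := G))
    exact (CA.Cons.map_char_apply (σ : ℂ →+* ℂ) hχ g k (fun z hz => hσ z (hpow g z hz))).trans
      (CChar.CharFun.classFun_of_isConj (CChar.CharFun.char_classFun hχ) (h k hk g)).symm

end Cfsg.Agent.S0180
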