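import Cfsg.Statements.S0181
import Cfsg.Agent.Lib.Char.BPerm

set_option autoImplicit false
open Cfsg

namespace Cfsg.Agent.S0181

/-- Let H be a normal subgroup of a finite group G and ρ an irreducible complex representation whose kernel does not contain H. If g commutes with no non-identity element of H, then the character of ρ vanishes at g. -/
theorem result {G : Type*} [Group G] [Finite G] {V : Type*} [AddCommGroup V] [Module ℂ V] [FiniteDimensional ℂ V] (ρ : Representation ℂ G V) [ρ.IsIrreducible] (H : Subgroup G) [H.Normal] (hker : ∃ h ∈ H, ρ h ≠ LinearMap.id) (g : G) (hg : ∀ h ∈ H, h * g = g * h → h = 1) : ρ.character g = 0 := by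
  refine CA.BPerm.apply_eq_zero_of_fpf (N := H) (CChar.CharRep.isIrrCharacter_character ρ) ?_ hg
  obtain ⟨h, hh, h1⟩ := hker
  refine ⟨h, hh, fun h2 => h1 ?_⟩
  rw [← CChar.CharRep.character_eq_finrank_iff, h2, Representation.char_one]

end Cfsg.Agent.S0181
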