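import Cfsg.Statements.S0184
import Cfsg.Agent.Lib.Char.CharMisc

set_option autoImplicit false
open Cfsg

namespace Cfsg.Agent.S0184

/-- A finite p-group admits a faithful irreducible complex representation if and only if its centre is cyclic. -/
theorem result {G : Type*} [Group G] [Finite G] (p : ℕ) [Fact p.Prime] (hG : IsPGroup p G) : (∃ (n : ℕ) (ρ : Representation ℂ G (Fin n → ℂ)), ρ.IsIrreducible ∧ Function.Injective ρ) ↔ IsCyclic (Subgroup.center G) := by
  constructor
  · rintro ⟨n, ρ, hρ, hinj⟩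
    refine CChar.CharKer.isCyclic_center_of_faithful ⟨n, ρ, hρ, rfl⟩ ?_
    rw [CChar.CharKer.charKer_character]
    exact (MonoidHom.ker_eq_bot_iff ρ).mpr hinj
  · intro h
    obtain ⟨χ, ⟨n, ρ, hρ, rfl⟩, h1⟩ := CChar.CharMisc.exists_faithful_irr_of_isCyclic_center hG h
    rw [CChar.CharKer.charKer_character] at h1
    exact ⟨n, ρ, hρ, (MonoidHom.ker_eq_bot_iff ρ).mp h1⟩

end Cfsg.Agent.S0184
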