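import Cfsg.Statements.S0186
import Cfsg.Agent.Lib.Char.CharMisc

set_option autoImplicit false
open Cfsg

namespace Cfsg.Agent.S0186

open CChar.CharRep CChar.CharFun CChar.CharOrth CChar.CharKer CChar.CharInt CChar.CharMisc

/-- Let G be a finite simple group of order n and p a prime dividing n. If G has more than n / p^2 conjugacy classes, then every Sylow p-subgroup of G is abelian. -/
theorem result {G : Type*} [Group G] [Finite G] [IsSimpleGroup G] (p : ℕ) [Fact p.Prime] (hp : p ∣ Nat.card G) (hmany : Nat.card G < p ^ 2 * Nat.card (ConjClasses G)) (P : Sylow p G) (a b : G) (ha : a ∈ P) (hb : b ∈ P) : a * b = b * a := by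
  classical
  by_contra hab
  have hpp : p.Prime := Fact.out
  have hP : ¬ ∀ x y : P, x * y = y * x := fun h => hab (congrArg Subtype.val (h ⟨a, ha⟩ ⟨b, hb⟩))
  have h3 : p ^ 3 ∣ Nat.card G :=
    (pow_three_dvd_card_of_not_comm P.isPGroup' hP).trans (Subgroup.card_subgroup_dvd_card _)
  have hZ : Subgroup.center G = ⊥ :=
    (Subgroup.Normal.eq_bot_or_eq_top inferInstance).resolve_right fun h =>
      hab (Subgroup.mem_center_iff.mp (h ▸ Subgroup.mem_top b) a)
  have hdeg : ∀ χ ∈ Finset.univ.erase (irrOne G), (p + 1) ^ 2 ≤ charDegree (χ : G → ℂ) ^ 2 := by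
    intro χ hχ
    have h1 : (χ : G → ℂ) ≠ fun _ => 1 := fun h => (Finset.mem_erase.mp hχ).1 (Subtype.ext h)
    have hk := charKer_eq_bot_of_simple χ.2 h1
    apply Nat.pow_le_pow_left
    by_contra hlt
    have hkP : charKer (fun x : P => (χ : G → ℂ) x) = ⊥ := by
      refine (charKer_comp (char_of_irr χ.2) (P : Subgroup G).subtype).trans ?_
      rw [hk, Subgroup.comap_subtype, Subgroup.bot_subgroupOf]
    obtain ⟨-, hirr⟩ := irr_restrict_of_degree_le P.isPGroup' (char_of_irr χ.2)
      (irr_apply_one_eq χ.2) (by omega) (fun h => hP (comm_of_commutator_eq_bot (hkP ▸ h)))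
    have : Nontrivial P := by
      by_contra hc
      have := not_nontrivial_iff_subsingleton.mp hc
      exact hP fun x y => Subsingleton.elim _ _
    obtain ⟨z, -, hz, hzp⟩ := CA.PGBasic.exists_mem_center_orderOf P.isPGroup' (M := ⊤) top_ne_bot
    have h4 := (mem_charCenter (char_of_irr hirr)).mp (center_le_charCenter hirr hz)
    have h5 := (mem_charCenter (char_of_irr χ.2)).mpr h4
    rw [charCenter_eq_center χ.2 hk, hZ, Subgroup.mem_bot] at h5
    rw [show z = 1 from Subtype.ext h5, orderOf_one] at hzp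
    exact hpp.one_lt.ne hzp
  have h6 := Finset.card_nsmul_le_sum _ _ _ hdeg
  have h7 := sum_charDegree_sq (G := G)
  rw [← Finset.add_sum_erase _ _ (Finset.mem_univ (irrOne G))] at h7
  rw [Finset.card_erase_of_mem (Finset.mem_univ _), Finset.card_univ, ← Nat.card_eq_fintype_card,
    card_irr, smul_eq_mul] at h6
  have h8 := Nat.le_of_dvd Nat.card_pos h3
  set k := Nat.card (ConjClasses G)
  have h9 : p < k := by
    by_contra h
    have : p ^ 2 * k ≤ p ^ 2 * p := Nat.mul_le_mul_left _ (by omega)
    have : p ^ 2 * p = p ^ 3 := by ring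
    omega
  obtain ⟨j, hj⟩ : ∃ j, k = j + 1 := ⟨k - 1, by omega⟩
  rw [hj] at h6 hmany h9
  simp only [Nat.add_sub_cancel] at h6
  have h10 : p ≤ j := by omega
  nlinarith

end Cfsg.Agent.S0186
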