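import Cfsg.Statements.S0190
import Cfsg.Agent.Lib.Char.Ind

set_option autoImplicit false
open Cfsg

namespace Cfsg.Agent.S0190

/-- For a transitive action of a finite group on X, the permutation character g ↦ (number of fixed points of g) is the function induced from the principal character of the stabilizer of any point. -/
theorem result {G : Type*} [Group G] [Fintype G] (X : Type*) [MulAction G X] [Finite X] [MulAction.IsPretransitive G X] (x : X) : (fun g : G => (Nat.card (MulAction.fixedBy X g) : ℂ)) = Cfsg.indFun (MulAction.stabilizer G x) (fun _ => 1) := by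
  funext g
  rw [CA.Ind.indFun_one_eq_card_fixedBy]
  congr 1
  let e : X ≃ G ⧸ MulAction.stabilizer G x :=
    ((Equiv.Set.univ X).symm.trans (Equiv.setCongr (MulAction.orbit_eq_univ G x).symm)).trans
      (MulAction.orbitEquivQuotientStabilizer G x)
  have he : ∀ a : G, e.symm (a : G ⧸ MulAction.stabilizer G x) = a • x := fun a => rfl
  symm
  refine Nat.card_congr (e.symm.subtypeEquiv fun q => ?_)
  induction q using QuotientGroup.induction_on with
  | H a =>
    rw [MulAction.mem_fixedBy, MulAction.mem_fixedBy, he, ← mul_smul, ← he, ← he,
      e.symm.apply_eq_iff_eq]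
    rfl

end Cfsg.Agent.S0190
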