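import Cfsg.Statements.S0192
import Cfsg.Agent.Lib.Char.H12Misc
import Cfsg.Agent.Lib.Char.BPerm
import Cfsg.Agent.Lib.Char.Gall

set_option autoImplicit false
open Cfsg

namespace Cfsg.Agent.S0192

open CChar.CharRep CChar.CharFun CChar.CharOrth CChar.CharKer CChar.CharInt CChar.CharGen
  CChar.CharMisc CChar.CharProd CA.H12Misc Subgroup
open scoped ComplexConjugate commutatorElement

/-- Brauer's generation criterion. Let G be a finite simple group, H₁ and H₂ subgroups, and χ a non-principal irreducible character. If the multiplicity of the principal character in χ restricted to H₁ ⊓ H₂ is less than the sum of the corresponding multiplicities for H₁ and H₂, then H₁ and H₂ do not generate G. -/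
theorem result {G : Type*} [Group G] [Fintype G] [IsSimpleGroup G] (H₁ H₂ : Subgroup G) [Fintype H₁] [Fintype H₂] [Fintype ↥(H₁ ⊓ H₂)] (χ : G → ℂ) (hχ : Cfsg.IsIrrCharacter G χ) (hχ1 : χ ≠ fun _ => 1) (hlt : (Cfsg.classInner (fun x : ↥(H₁ ⊓ H₂) => χ x) (fun _ => 1)).re < (Cfsg.classInner (fun x : H₁ => χ x) (fun _ => 1)).re + (Cfsg.classInner (fun x : H₂ => χ x) (fun _ => 1)).re) : H₁ ⊔ H₂ ≠ ⊤ := by
  intro h
  obtain ⟨n, ρ, -, rfl, -⟩ := irr_exists_rep hχ
  have h1 : ∀ (H : Subgroup G) [Fintype H], classInner (fun x : H => ρ.character x) (fun _ => 1) =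
      Module.finrank ℂ (Representation.invariants (ρ.comp H.subtype)) := fun H _ => by
    have := invertibleOfNonzero (card_ne_zero (G := H))
    rw [inner_one_right, ← Representation.card_inv_mul_sum_char_eq_finrank]; rfl
  have h2 := Submodule.finrank_sup_add_finrank_inf_eq
    (Representation.invariants (ρ.comp H₁.subtype)) (Representation.invariants (ρ.comp H₂.subtype))
  have h3 := Submodule.finrank_mono (sup_le (fun v hv g => hv ⟨g, g.2.1⟩) (fun v hv g => hv ⟨g, g.2.2⟩) :
    Representation.invariants (ρ.comp H₁.subtype) ⊔ Representation.invariants (ρ.comp H₂.subtype) ≤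
      Representation.invariants (ρ.comp (H₁ ⊓ H₂).subtype))
  have h4 : Representation.invariants (ρ.comp H₁.subtype) ⊓
      Representation.invariants (ρ.comp H₂.subtype) ≤ ρ.invariants := fun v hv g => by
      have hg := h.ge (mem_top g)
      rw [sup_eq_closure] at hg
      induction hg using closure_induction with
      | mem x hx => exact hx.elim (fun e => hv.1 ⟨x, e⟩) fun e => hv.2 ⟨x, e⟩
      | one => simp
      | mul x y _ _ hx hy => rw [map_mul, Module.End.mul_apply, hy, hx]
      | inv x _ hx => rw [← hx, ← Module.End.mul_apply, ← map_mul, inv_mul_cancel, map_one, hx]; rfl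
  replace h4 := Submodule.finrank_mono h4
  have := invertibleOfNonzero (card_ne_zero (G := G))
  have h5 := ρ.card_inv_mul_sum_char_eq_finrank
  rw [sum_irr_eq_zero hχ hχ1, mul_zero, eq_comm, Nat.cast_eq_zero] at h5
  simp only [h1, Complex.natCast_re] at hlt
  norm_cast at hlt
  omega

end Cfsg.Agent.S0192
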