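import Cfsg.Statements.S0195
import Cfsg.Agent.Lib.Grp.SylIn

set_option autoImplicit false
open Cfsg

namespace Cfsg.Agent.S0195

/-- Let A be a subgroup of G that equals the centralizer of each of its non-identity elements. If g lies outside the normalizer of A, then the only element of A conjugated by g into A is the identity (A is a trivial-intersection set). -/
theorem result {G : Type*} [Group G] [Finite G] (A : Subgroup G) (hA : ∀ x ∈ A, x ≠ 1 → Subgroup.centralizer ({x} : Set G) = A) (g : G) (hg : g ∉ Subgroup.normalizer (A : Set G)) (x : G) (hx : x ∈ A) (hgx : g * x * g⁻¹ ∈ A) : x = 1 := by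
  by_contra hx1
  apply hg
  rw [CA.SylIn.mem_normalizer_iff_conj_eq]
  conv_lhs => rw [← hA x hx hx1, CA.SylIn.conj_centralizer_singleton]
  exact hA _ hgx (mt conj_eq_one_iff.mp hx1)

end Cfsg.Agent.S0195
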