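import Cfsg.Statements.S0196
import Cfsg.Agent.Lib.Grp.Act

set_option autoImplicit false
open Cfsg

namespace Cfsg.Agent.S0196

/-- Let A be a subgroup of a finite group G that equals the centralizer of each of its non-identity elements, and let N be its normalizer. Then the index of A in N divides |A| − 1 (N/A permutes the non-identity elements of A in orbits of full length). -/
theorem result {G : Type*} [Group G] [Finite G] (A : Subgroup G) (hA : ∀ x ∈ A, x ≠ 1 → Subgroup.centralizer ({x} : Set G) = A) : (A.subgroupOf (Subgroup.normalizer (A : Set G))).index ∣ Nat.card A - 1 := by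
  by_cases hA1 : A = ⊥
  · rw [hA1, Subgroup.card_bot]; exact dvd_zero _
  have hker : A.normalizerMonoidHom.ker = A.subgroupOf (Subgroup.normalizer (A : Set G)) := by
    rw [Subgroup.normalizerMonoidHom_ker]
    congr 1
    obtain ⟨⟨x, hx⟩, hx1⟩ := Subgroup.ne_bot_iff_exists_ne_one.mp hA1
    apply le_antisymm
    · exact (Subgroup.centralizer_le (Set.singleton_subset_iff.mpr hx)).trans
        (hA x hx fun e => hx1 (Subtype.ext e)).le
    · intro a ha
      rw [Subgroup.mem_centralizer_iff]
      intro b hb
      by_cases hb1 : b = 1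
      · simp [hb1]
      · exact (Subgroup.mem_centralizer_singleton_iff.mp ((hA b hb hb1).ge ha)).symm
  rw [← hker, Subgroup.index_ker]
  apply CA.Act.card_dvd_card_sub_one
  rintro ⟨_, n, rfl⟩ h1 x hx
  by_contra hx1
  refine h1 (Subtype.ext (MonoidHom.mem_ker.mp ?_))
  rw [hker, Subgroup.mem_subgroupOf]
  exact (hA x x.2 (fun e => hx1 (Subtype.ext e))).le (Subgroup.mem_centralizer_singleton_iff.mpr
    (mul_inv_eq_iff_eq_mul.mp (congrArg Subtype.val hx)))

end Cfsg.Agent.S0196
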