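import Cfsg.Statements.S0197
import Cfsg.Agent.Lib.Char.H28GL23
-- import your own Cfsg.Agent.* helpers here

set_option autoImplicit false
open Cfsg

namespace Cfsg.Agent.S0197

/-- If a finite simple group has an involution whose centralizer is isomorphic to the general linear group GL(2, 3), then the group has order 5616 or 7920. -/
theorem result {G : Type*} [Group G] [Finite G] [IsSimpleGroup G] (t : G) (ht : orderOf t = 2) (e : Subgroup.centralizer ({t} : Set G) ≃* Matrix.GeneralLinearGroup (Fin 2) (ZMod 3)) : Nat.card G = 5616 ∨ Nat.card G = 7920 := by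
  have := Fintype.ofFinite G
  obtain ⟨ι, h, -⟩ := CA.H28GL23.exists_hyp ht e
  refine h.card fun H hH => ?_
  have h1 := h.index_mul
  rcases (Subgroup.normal_of_index_eq_two hH).eq_bot_or_eq_top with rfl | rfl
  · rw [Subgroup.index_bot] at hH; omega
  · simp at hH

end Cfsg.Agent.S0197
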