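import Cfsg.Statements.S0203
import Cfsg.Agent.Lib.Grp.H13Hom

set_option autoImplicit false
open Cfsg

namespace Cfsg.Agent.S0203

/-- If a Sylow 2-subgroup P of a finite group G is a Klein four-group, then G has three classes of involutions if and only if P has a normal complement in G. -/
theorem result {G : Type*} [Group G] [Finite G] (P : Sylow 2 G) (hP : IsKleinFour (P : Subgroup G)) : Nat.card {C : ConjClasses G // ∃ t : G, orderOf t = 2 ∧ ConjClasses.mk t = C} = 3 ↔ ∃ N : Subgroup G, N.Normal ∧ Subgroup.IsComplement' N (P : Subgroup G) := by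
  obtain ⟨a, b, h⟩ := CA.H13Hom.rk2_of_klein hP
  constructor
  · intro h3
    rcases h.cases with h1 | h1
    · exact CA.H13Hom.exists_compl P h1.1
    · rw [CA.H13Hom.card_cls_one h.oa fun s hs => CA.H13Hom.isConj_of_all h1.2 hs] at h3
      omega
  · rintro ⟨N, hN, hc⟩
    exact h.card_cls_three (CA.H13Hom.normalizer_le_of_compl h.comm hc)

end Cfsg.Agent.S0203
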