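import Cfsg.Statements.S0210
import Cfsg.Agent.Lib.Grp.H13Inv

set_option autoImplicit false
open Cfsg

namespace Cfsg.Agent.S0210

/-- If x, y are involutions whose product has even order, no element of the subgroup generated by x and y conjugates x to y. -/
theorem result {G : Type*} [Group G] [Finite G] (x y : G) (hx : orderOf x = 2) (hy : orderOf y = 2) (heven : Even (orderOf (x * y))) (d : G) (hd : d ∈ Subgroup.closure ({x, y} : Set G)) : d * x * d⁻¹ ≠ y := by
  have hx2 := CA.H13Inv.mul_self hx
  have hy2 := CA.H13Inv.mul_self hy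
  obtain ⟨k, hk⟩ := CA.H13Inv.conj_left_of_mem hx2 hy2 hd
  intro h
  rw [h] at hk
  have h2 := (CA.H13Inv.right_eq hx2 hy2).symm.trans hk
  have h3 := mul_right_cancel h2
  rw [zpow_eq_zpow_iff_modEq, Int.modEq_iff_dvd] at h3
  obtain ⟨m, hm⟩ := heven
  rw [hm] at h3
  obtain ⟨c, hc⟩ := h3
  push_cast at hc
  have : (2 : ℤ) * k + 1 = 2 * (m * c) := by linarith
  omega

end Cfsg.Agent.S0210
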