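import Cfsg.Statements.S0211
import Cfsg.Agent.Lib.Grp.H13Inv

set_option autoImplicit false
open Cfsg

namespace Cfsg.Agent.S0211

/-- Let x, y be involutions with xy of even order n and z = (xy)^(n/2). Then xz is conjugate to x by an element of the subgroup generated by x, y if and only if 4 divides n. -/
theorem result {G : Type*} [Group G] [Finite G] (x y : G) (hx : orderOf x = 2) (hy : orderOf y = 2) (heven : Even (orderOf (x * y))) : (∃ d ∈ Subgroup.closure ({x, y} : Set G), d * x * d⁻¹ = x * (x * y) ^ (orderOf (x * y) / 2)) ↔ 4 ∣ orderOf (x * y) := by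
  have hx2 := CA.H13Inv.mul_self hx
  have hy2 := CA.H13Inv.mul_self hy
  constructor
  · rintro ⟨d, hd, h⟩
    obtain ⟨k, hk⟩ := CA.H13Inv.conj_left_of_mem hx2 hy2 hd
    rw [h, ← (CA.H13Inv.commute_pow_half_left hx2 hy2 heven).eq] at hk
    have h3 := mul_right_cancel hk
    rw [← zpow_natCast, zpow_eq_zpow_iff_modEq, Int.modEq_iff_dvd] at h3
    obtain ⟨m, hm⟩ := heven
    have hm2 : orderOf (x * y) / 2 = m := by omega
    rw [hm2, hm] at h3
    obtain ⟨c, hc⟩ := h3
    push_cast at hc
    have : (m : ℤ) = 2 * (k - m * c) := by linarith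
    omega
  · intro h4
    rcases CA.H13Inv.conj_mul_half hx2 hy2 heven with ⟨_, k, hk⟩ | ⟨h, _⟩
    · exact ⟨_, CA.H13Inv.zpow_prod_mem x y k, hk⟩
    · omega

end Cfsg.Agent.S0211
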