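import Cfsg.Statements.S0235
import Cfsg.Agent.Lib.Grp.H13Inv

set_option autoImplicit false
open Cfsg

namespace Cfsg.Agent.S0235

/-- If x² ≠ 1, the ordered pairs (u, v) of involutions with uv = x correspond bijectively to the involutions t with t x t⁻¹ = x⁻¹ (via (u, v) ↦ u), so the two counts agree. -/
theorem result {G : Type*} [Group G] [Finite G] (x : G) (hx : x ^ 2 ≠ 1) : Nat.card {p : G × G // orderOf p.1 = 2 ∧ orderOf p.2 = 2 ∧ p.1 * p.2 = x} = Nat.card {t : G // orderOf t = 2 ∧ t * x * t⁻¹ = x⁻¹} := by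
  refine Nat.card_congr
    { toFun := fun p => ⟨p.1.1, p.2.1, ?_⟩
      invFun := fun t => ⟨(t.1, t.1 * x), t.2.1, ?_, ?_⟩
      left_inv := ?_
      right_inv := ?_ }
  · have h := CA.H13Inv.conj_prod (CA.H13Inv.mul_self p.2.1) (CA.H13Inv.mul_self p.2.2.1)
    rw [p.2.2.2] at h
    exact h
  · refine CA.H13Inv.orderOf_eq_two_iff.mpr ⟨?_, ?_⟩
    · have h := t.2.2
      rw [CA.H13Inv.inv_eq t.2.1] at h
      show t.1 * x * (t.1 * x) = 1
      rw [← mul_assoc, h, inv_mul_cancel]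
    · intro h
      have h' : t.1 * x = 1 := h
      apply hx
      rw [eq_inv_of_mul_eq_one_right h', CA.H13Inv.inv_eq t.2.1, pow_two, CA.H13Inv.mul_self t.2.1]
  · show t.1 * (t.1 * x) = x
    rw [← mul_assoc, CA.H13Inv.mul_self t.2.1, one_mul]
  · rintro ⟨⟨u, v⟩, hu, hv, huv⟩
    apply Subtype.ext
    simp only at hu hv huv ⊢
    rw [← huv, ← mul_assoc, CA.H13Inv.mul_self hu, one_mul]
  · intro t; rfl

end Cfsg.Agent.S0235
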