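import Cfsg.Statements.S0236
import Cfsg.Agent.Lib.Grp.H13Inv

set_option autoImplicit false
open Cfsg

namespace Cfsg.Agent.S0236

/-- If x is an involution, the number of ordered pairs (u, v) of involutions with uv = x, plus one, equals the number of involutions in the centralizer of x. -/
theorem result {G : Type*} [Group G] [Finite G] (x : G) (hx : orderOf x = 2) : Nat.card {p : G × G // orderOf p.1 = 2 ∧ orderOf p.2 = 2 ∧ p.1 * p.2 = x} + 1 = Nat.card {t : G // orderOf t = 2 ∧ Commute t x} := by
  classical
  rw [← Finite.card_option]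
  have hx2 := CA.H13Inv.mul_self hx
  refine Nat.card_congr
    { toFun := fun o => match o with
        | none => ⟨x, hx, Commute.refl x⟩
        | some p => ⟨p.1.1, p.2.1, by
            have h := CA.H13Inv.conj_prod (CA.H13Inv.mul_self p.2.1) (CA.H13Inv.mul_self p.2.2.1)
            rw [p.2.2.2, CA.H13Inv.inv_eq hx] at h
            exact mul_inv_eq_iff_eq_mul.mp h⟩
      invFun := fun t => if h : t.1 = x then none else some ⟨(t.1, t.1 * x), t.2.1, ?_, ?_⟩
      left_inv := ?_
      right_inv := ?_ }
  · refine CA.H13Inv.orderOf_eq_two_iff.mpr ⟨?_, ?_⟩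
    · show t.1 * x * (t.1 * x) = 1
      rw [mul_assoc, ← mul_assoc x, ← t.2.2.eq, mul_assoc, hx2, mul_one, CA.H13Inv.mul_self t.2.1]
    · intro h1
      have h' : t.1 * x = 1 := h1
      apply h
      rw [eq_inv_of_mul_eq_one_left h', CA.H13Inv.inv_eq hx]
  · show t.1 * (t.1 * x) = x
    rw [← mul_assoc, CA.H13Inv.mul_self t.2.1, one_mul]
  · rintro (_ | ⟨⟨u, v⟩, hu, hv, huv⟩)
    · simp
    · simp only at hu hv huv
      have hne : u ≠ x := by
        intro h
        rw [h] at huv
        exact CA.H13Inv.ne_one hv (by simpa using huv)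
      simp only [hne, dite_false, Option.some.injEq]
      apply Subtype.ext
      simp only
      rw [← huv, ← mul_assoc, CA.H13Inv.mul_self hu, one_mul]
  · intro t
    by_cases h : t.1 = x
    · simp only [h, dite_true]; exact Subtype.ext h.symm
    · simp only [h, dite_false]

end Cfsg.Agent.S0236
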