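import Cfsg.Statements.S0238
import Cfsg.Agent.Lib.Grp.H13Count
import Cfsg.Agent.S0235
import Cfsg.Agent.S0236
import Cfsg.Agent.S0237

set_option autoImplicit false
open Cfsg

namespace Cfsg.Agent.S0238

/-- For every x in a finite group G, the number c of ordered pairs (u, v) of involutions with uv = x is at most |C_G(x)|; c = 0 when x is not conjugate to x⁻¹; and c + 2 ≤ |C_G(x)| when x is an involution. -/
theorem result {G : Type*} [Group G] [Finite G] (x : G) : Nat.card {p : G × G // orderOf p.1 = 2 ∧ orderOf p.2 = 2 ∧ p.1 * p.2 = x} ≤ Nat.card (Subgroup.centralizer ({x} : Set G)) ∧ (¬ IsConj x x⁻¹ → Nat.card {p : G × G // orderOf p.1 = 2 ∧ orderOf p.2 = 2 ∧ p.1 * p.2 = x} = 0) ∧ (orderOf x = 2 → Nat.card {p : G × G // orderOf p.1 = 2 ∧ orderOf p.2 = 2 ∧ p.1 * p.2 = x} + 2 ≤ Nat.card (Subgroup.centralizer ({x} : Set G))) := by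
  classical
  have h3 : orderOf x = 2 → Nat.card {p : G × G // orderOf p.1 = 2 ∧ orderOf p.2 = 2 ∧ p.1 * p.2 = x} + 2
      ≤ Nat.card (Subgroup.centralizer ({x} : Set G)) := by
    intro hx
    have h := Cfsg.Agent.S0236.result x hx
    have h2 : Nat.card (Option {t : G // orderOf t = 2 ∧ Commute t x})
        ≤ Nat.card (Subgroup.centralizer ({x} : Set G)) := by
      refine Nat.card_le_card_of_injective (fun o => match o with
        | none => 1
        | some t => ⟨t.1, Subgroup.mem_centralizer_singleton_iff.mpr t.2.2⟩) ?_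
      rintro (_ | a) (_ | b) h
      · rfl
      · exact absurd (congrArg Subtype.val h).symm (CA.H13Inv.ne_one b.2.1)
      · exact absurd (congrArg Subtype.val h) (CA.H13Inv.ne_one a.2.1)
      · have h' : a.1 = b.1 := congrArg (fun z : Subgroup.centralizer ({x} : Set G) => (z : G)) h
        exact congrArg some (Subtype.ext h')
    rw [Finite.card_option] at h2
    omega
  have h2 : ¬ IsConj x x⁻¹ →
      Nat.card {p : G × G // orderOf p.1 = 2 ∧ orderOf p.2 = 2 ∧ p.1 * p.2 = x} = 0 := by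
    intro h
    rw [Nat.card_eq_zero]
    left
    refine ⟨fun p => h ?_⟩
    have h1 := CA.H13Inv.conj_prod (CA.H13Inv.mul_self p.2.1) (CA.H13Inv.mul_self p.2.2.1)
    rw [p.2.2.2] at h1
    exact isConj_iff.mpr ⟨_, h1⟩
  refine ⟨?_, h2, h3⟩
  by_cases hreal : IsConj x x⁻¹
  · rw [← Cfsg.Agent.S0237.result x hreal]
    refine Nat.card_le_card_of_injective (fun p => ⟨p.1.1, ?_⟩) ?_
    · have h1 := CA.H13Inv.conj_prod (CA.H13Inv.mul_self p.2.1) (CA.H13Inv.mul_self p.2.2.1)
      rwa [p.2.2.2] at h1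
    · intro a b h
      have h1 : a.1.1 = b.1.1 := congrArg Subtype.val h
      have h4 := a.2.2.2.trans b.2.2.2.symm
      rw [h1] at h4
      exact Subtype.ext (Prod.ext h1 (mul_left_cancel h4))
  · rw [h2 hreal]; exact Nat.zero_le _

end Cfsg.Agent.S0238
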