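import Cfsg.Statements.S0233
import Cfsg.Agent.Lib.Grp.H13Count
import Cfsg.Agent.S0238

set_option autoImplicit false
open Cfsg

namespace Cfsg.Agent.S0233

/-- Let G be a finite group of even order with exactly n involutions whose centre has odd order, and put a = |G|/n. Then G has a proper subgroup H with |G : H| = 2 or |G : H| < a(a+1)/2; over ℕ the latter reads 2·|G:H|·n² < |G|·(|G| + n). -/
theorem result {G : Type*} [Group G] [Finite G] (heven : Even (Nat.card G)) (hZ : Odd (Nat.card (Subgroup.center G))) : ∃ H : Subgroup G, H ≠ ⊤ ∧ (H.index = 2 ∨ 2 * H.index * (Nat.card {t : G // orderOf t = 2}) ^ 2 < Nat.card G * (Nat.card G + Nat.card {t : G // orderOf t = 2})) := by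
  classical
  have := Fintype.ofFinite G
  by_cases h2 : ∃ H : Subgroup G, H.index = 2
  · obtain ⟨H, hH⟩ := h2
    refine ⟨H, fun h => ?_, Or.inl hH⟩
    rw [h, Subgroup.index_top] at hH
    exact absurd hH (by decide)
  push Not at h2
  obtain ⟨t₀, ht₀⟩ := CA.H13Inv.exists_involution_of_even' heven
  have hprop : ∀ t : G, orderOf t = 2 → Subgroup.centralizer ({t} : Set G) ≠ ⊤ := by
    intro t ht h
    refine CA.H13Inv.odd_card_iff.mp hZ t (Subgroup.mem_center_iff.mpr fun g => ?_) ht
    exact Subgroup.mem_centralizer_singleton_iff.mp (h ▸ Subgroup.mem_top g)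
  obtain ⟨H, hH, hmin⟩ := Set.exists_min_image {H : Subgroup G | H ≠ ⊤} (fun H => H.index)
    (Set.toFinite _) ⟨_, hprop t₀ ht₀⟩
  refine ⟨H, hH, Or.inr ?_⟩
  set j := H.index with hj
  set n := Nat.card {t : G // orderOf t = 2} with hn
  set g := Nat.card G with hg
  have hle : ∀ K : Subgroup G, K ≠ ⊤ → j * Nat.card K ≤ g := fun K hK => by
    rw [hg, ← K.index_mul_card]; exact Nat.mul_le_mul_right _ (hmin K hK)
  let c : G → ℕ := fun x => Nat.card {p : G × G // orderOf p.1 = 2 ∧ orderOf p.2 = 2 ∧ p.1 * p.2 = x}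
  have hsum : n ^ 2 = ∑ x : G, c x := by
    have e1 : Nat.card {p : G × G // orderOf p.1 = 2 ∧ orderOf p.2 = 2} = n ^ 2 := by
      rw [Nat.card_congr (Equiv.subtypeProdEquivProd (p := fun a : G => orderOf a = 2)
        (q := fun a : G => orderOf a = 2)), Nat.card_prod, pow_two]
    rw [← e1, CA.H13Count.card_eq_sum_fibers
      (fun p : {p : G × G // orderOf p.1 = 2 ∧ orderOf p.2 = 2} => p.1.1 * p.1.2)]
    refine Finset.sum_congr rfl fun x _ => Nat.card_congr ?_
    exact (Equiv.subtypeSubtypeEquivSubtypeInter (fun p : G × G => orderOf p.1 = 2 ∧ orderOf p.2 = 2)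
      (fun p => p.1 * p.2 = x)).trans (Equiv.subtypeEquivRight fun p => and_assoc)
  have hc1 : c 1 ≤ n := by
    refine Nat.card_le_card_of_injective (fun p => (⟨p.1.1, p.2.1⟩ : {t : G // orderOf t = 2})) ?_
    intro a b h
    have h1 : a.1.1 = b.1.1 := congrArg Subtype.val h
    have h4 := a.2.2.2.trans b.2.2.2.symm
    rw [h1] at h4
    exact Subtype.ext (Prod.ext h1 (mul_left_cancel h4))
  have hb : ∀ x : G, 2 * j * c x + (if orderOf x = 2 then 4 * j else 0) + (if x = 1 then g else 0)
      ≤ g + (if orderOf x = 2 then g else 0) + (if x = 1 then 2 * j * n else 0) := by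
    intro x
    obtain ⟨r1, r2, r3⟩ := Cfsg.Agent.S0238.result x
    by_cases hx1 : x = 1
    · subst hx1
      simp only [orderOf_one, if_true]
      have := Nat.mul_le_mul_left (2 * j) hc1
      simp only [show ¬ (1 = 2) by decide, if_false]
      omega
    by_cases hx2 : orderOf x = 2
    · simp only [hx1, hx2, if_true, if_false]
      have a1 := Nat.mul_le_mul_left j (r3 hx2)
      have a2 := hle _ (hprop x hx2)
      change j * (c x + 2) ≤ _ at a1
      nlinarith
    simp only [hx1, hx2, if_false, add_zero]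
    by_cases hreal : IsConj x x⁻¹
    · have hxx : x ≠ x⁻¹ := fun h => hx2 (CA.H13Inv.orderOf_eq_two_iff.mpr
        ⟨by nth_rewrite 1 [h]; exact inv_mul_cancel x, hx1⟩)
      have hr := CA.H13Count.relIndex_extCentralizer hxx hreal
      have hne : CA.H13Count.extCentralizer x ≠ ⊤ := by
        intro h
        rw [h, Subgroup.relIndex_top_right] at hr
        exact h2 _ hr
      have a2 := hle _ hne
      have a3 := Subgroup.card_mul_index
        ((Subgroup.centralizer ({x} : Set G)).subgroupOf (CA.H13Count.extCentralizer x))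
      rw [Nat.card_congr (Subgroup.subgroupOfEquivOfLe
        (CA.H13Count.centralizer_le_extCentralizer x)).toEquiv] at a3
      change _ * Subgroup.relIndex _ _ = _ at a3
      rw [hr] at a3
      have a1 := Nat.mul_le_mul_left (2 * j) r1
      change 2 * j * c x ≤ _ at a1
      rw [← a3] at a2
      nlinarith
    · have : c x = 0 := r2 hreal
      rw [this]; exact Nat.zero_le _
  have hS := Finset.sum_le_sum fun x (_ : x ∈ Finset.univ) => hb x
  have hnn : (Finset.univ.filter fun x : G => orderOf x = 2).card = n := by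
    rw [hn, Nat.card_eq_fintype_card, Fintype.card_subtype]
  simp only [Finset.sum_add_distrib, ← Finset.mul_sum, ← hsum, Finset.sum_ite_eq', Finset.mem_univ,
    if_true, Finset.sum_const, Finset.card_univ, smul_eq_mul, ← Finset.sum_filter, hnn,
    ← Nat.card_eq_fintype_card, ← hg] at hS
  have hgpos : 0 < g := Nat.card_pos
  nlinarith

end Cfsg.Agent.S0233
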