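import Cfsg.Statements.S0212
import Cfsg.Agent.Lib.Grp.H13Count
import Cfsg.Agent.S0233

set_option autoImplicit false
open Cfsg

namespace Cfsg.Agent.S0212

/-- The Brauer–Fowler bound: if G is a finite simple group and t an involution of G whose centralizer has order n, then |G| ≤ (2n^2)!. -/
theorem result {G : Type*} [Group G] [Finite G] [IsSimpleGroup G] (t : G) (ht : orderOf t = 2) : Nat.card G ≤ Nat.factorial (2 * (Nat.card (Subgroup.centralizer ({t} : Set G))) ^ 2) := by
  set c := Nat.card (Subgroup.centralizer ({t} : Set G)) with hc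
  have hc2 : 2 ≤ c := by
    have := Subgroup.orderOf_dvd_natCard (Subgroup.centralizer ({t} : Set G))
      (Subgroup.mem_centralizer_singleton_iff.mpr rfl)
    rw [ht] at this
    exact Nat.le_of_dvd Nat.card_pos this
  have hfac : ∀ H : Subgroup G, H ≠ ⊤ → H.index ≤ 2 * c ^ 2 → Nat.card G ≤ (2 * c ^ 2).factorial :=
    fun H hH hi => (Nat.le_of_dvd (Nat.factorial_pos _) (CA.H13Count.card_dvd_factorial hH)).trans
      (Nat.factorial_le hi)
  rcases (inferInstance : (Subgroup.center G).Normal).eq_bot_or_eq_top with hZ | hZ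
  · have heven : Even (Nat.card G) := by
      rw [even_iff_two_dvd, ← ht]; exact orderOf_dvd_natCard t
    obtain ⟨H, hH, h | h⟩ := Cfsg.Agent.S0233.result heven (by rw [hZ]; simp)
    · exact hfac H hH (by rw [h]; nlinarith)
    · refine hfac H hH ?_
      set n := Nat.card {t : G // orderOf t = 2} with hn
      have h1 : Nat.card {y : G // IsConj t y} ≤ n :=
        Nat.card_le_card_of_injective (fun y => (⟨y.1,
          (CA.H13Inv.orderOf_eq_of_isConj y.2).symm.trans ht⟩ : {t : G // orderOf t = 2}))
          fun a b h => Subtype.ext (congrArg (fun z : {t : G // orderOf t = 2} => z.1) h)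
      have h2 := CA.H13Count.card_isConj_mul t
      rw [← hc] at h2
      have h3 : Nat.card G ≤ n * c := h2 ▸ Nat.mul_le_mul_right _ h1
      have h4 : Nat.card G * (Nat.card G + n) ≤ (n * c) * (n * c + n) :=
        Nat.mul_le_mul h3 (Nat.add_le_add_right h3 _)
      have h5 : 2 * H.index * n ^ 2 < c * (c + 1) * n ^ 2 := by nlinarith
      have h6 := lt_of_mul_lt_mul_right h5 (Nat.zero_le _)
      nlinarith
  · have : Subgroup.centralizer ({t} : Set G) = ⊤ := by
      rw [eq_top_iff]
      intro g _
      rw [Subgroup.mem_centralizer_singleton_iff]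
      exact Subgroup.mem_center_iff.mp (hZ ▸ Subgroup.mem_top t) g
    have h2 : c = Nat.card G := by rw [hc, this, Subgroup.card_top]
    rw [← h2]
    exact le_trans (by nlinarith) (Nat.self_le_factorial _)

end Cfsg.Agent.S0212
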