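import Cfsg.Statements.S0216
import Cfsg.Agent.Lib.Grp.H13Inv

set_option autoImplicit false
open Cfsg

namespace Cfsg.Agent.S0216

/-- For an involution u in a Sylow 2-subgroup P of a finite group G, the following are equivalent: no G-conjugate of u other than u lies in P; every commutator of u with an element of G has odd order. -/
theorem result {G : Type*} [Group G] [Finite G] (P : Sylow 2 G) (u : G) (hu : orderOf u = 2) (huP : u ∈ P) : (∀ g : G, g * u * g⁻¹ ∈ P → g * u * g⁻¹ = u) ↔ (∀ g : G, Odd (orderOf (u * g * u⁻¹ * g⁻¹))) := by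
  have hu2 := CA.H13Inv.mul_self hu
  constructor
  · intro hiso g
    have h := CA.H13Inv.odd_orderOf_mul_of_isolated (v := g * u * g⁻¹) hu2 (isConj_iff.mpr ⟨g, rfl⟩)
      (fun w hw hc => (CA.H13Inv.isolated_eq P hu2 hiso (IsConj.refl u) hw hc).symm)
    rw [CA.H13Inv.inv_eq hu]
    simpa [mul_assoc] using h
  · intro h g hg
    have h1 := h g
    have hmem : u * g * u⁻¹ * g⁻¹ ∈ P := by
      rw [CA.H13Inv.inv_eq hu]
      have := P.1.mul_mem huP hg
      rw [← mul_assoc, ← mul_assoc] at this
      exact this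
    obtain ⟨k, hk⟩ := P.2 ⟨_, hmem⟩
    have hk' : (u * g * u⁻¹ * g⁻¹) ^ 2 ^ k = 1 := by
      simpa using congrArg Subtype.val hk
    have hd := orderOf_dvd_of_pow_eq_one hk'
    have hone : orderOf (u * g * u⁻¹ * g⁻¹) = 1 := by
      obtain ⟨j, _, hj⟩ := (Nat.dvd_prime_pow Nat.prime_two).mp hd
      rcases j with _ | j
      · simpa using hj
      · rw [hj] at h1
        exact absurd h1 (by simp [Nat.even_pow])
    rw [orderOf_eq_one_iff, CA.H13Inv.inv_eq hu] at hone
    have : g * u * g⁻¹ = u⁻¹ := by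
      rw [eq_inv_iff_mul_eq_one]
      have h2 : u * (g * u * g⁻¹) = 1 := by rw [← hone]; group
      exact (mul_eq_one_comm).mp h2
    rw [this, CA.H13Inv.inv_eq hu]

end Cfsg.Agent.S0216
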