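import Cfsg.Statements.S0220
import Cfsg.Agent.Lib.Grp.H13Count
import Cfsg.Agent.S0219

set_option autoImplicit false
open Cfsg

namespace Cfsg.Agent.S0220

/-- If x is an involution of a finite group G and a Sylow 2-subgroup of the centralizer of x is cyclic, then G has a subgroup of index 2; in particular G is not simple unless it has order 2. -/
theorem result {G : Type*} [Group G] [Finite G] (x : G) (hx : orderOf x = 2) (S : Sylow 2 ↥(Subgroup.centralizer ({x} : Set G))) (hS : IsCyclic (S : Subgroup ↥(Subgroup.centralizer ({x} : Set G)))) : ∃ H : Subgroup G, H.index = 2 := by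
  have hT := CA.SylIn.isSylowIn_map S
  set T := (S : Subgroup ↥(Subgroup.centralizer ({x} : Set G))).map
    (Subgroup.centralizer ({x} : Set G)).subtype with hTdef
  have hTc : IsCyclic T := (MulEquiv.isCyclic (Subgroup.equivMapOfInjective _ _
    (Subgroup.centralizer ({x} : Set G)).subtype_injective)).mp hS
  have hxC : x ∈ Subgroup.centralizer ({x} : Set G) := Subgroup.mem_centralizer_singleton_iff.mpr rfl
  have hxT : x ∈ T := by
    have hz : IsPGroup 2 (Subgroup.zpowers x) := IsPGroup.of_card (n := 1) (by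
      rw [Nat.card_zpowers, hx]; rfl)
    refine hT.le_of_le_normalizer hz (Subgroup.zpowers_le.mpr hxC) ?_ (Subgroup.mem_zpowers x)
    intro t ht
    have h1 := Subgroup.mem_centralizer_singleton_iff.mp (hT.le ht)
    rw [CA.SylIn.mem_normalizer_iff_conj_eq, CA.SylIn.conj_zpowers, h1, mul_inv_cancel_right]
  have htop : CA.SylIn.IsSylowIn 2 T ⊤ := by
    refine CA.H13Count.isSylowIn_of_normalizer_le hT le_top ?_
    rintro n ⟨-, hn⟩
    rw [Subgroup.mem_centralizer_singleton_iff, ← mul_inv_eq_iff_eq_mul]
    exact CA.H13Count.eq_of_isCyclic hTc (CA.SylIn.conj_mem_of_mem_normalizer hn hxT) hxT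
      (by rw [CA.H13Inv.orderOf_conj, hx]) hx
  obtain ⟨P, hP⟩ := htop.exists_sylow_eq
  refine Cfsg.Agent.S0219.result ?_ P (hP ▸ hTc)
  rw [even_iff_two_dvd, ← hx]; exact orderOf_dvd_natCard x

end Cfsg.Agent.S0220
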