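import Cfsg.Statements.S0221
import Cfsg.Agent.Lib.Loc.Dich

set_option autoImplicit false
open Cfsg

namespace Cfsg.Agent.S0221

/-- Let G be a finite group with no subgroup of index 2 whose 2-rank is at least 3 (it contains an elementary abelian subgroup of order 8). Then the centralizer of every involution of G also contains an elementary abelian subgroup of order 8. -/
theorem result {G : Type*} [Group G] [Finite G] (hno : ∀ H : Subgroup G, H.index ≠ 2) (hrank : ∃ E : Subgroup G, Nat.card E = 8 ∧ ∀ e ∈ E, e ^ 2 = 1) (x : G) (hx : orderOf x = 2) : ∃ E : Subgroup G, E ≤ Subgroup.centralizer ({x} : Set G) ∧ Nat.card E = 8 ∧ ∀ e ∈ E, e ^ 2 = 1 := by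
  obtain ⟨E, c, h⟩ := hrank
  have k : ∀ {E : Subgroup G}, (∀ e ∈ E, e ^ 2 = 1) → IsMulCommutative E := fun {E} h =>
    ⟨⟨fun a b => Subtype.ext (by
      have i : ∀ e ∈ E, e⁻¹ = e := fun e he => inv_eq_of_mul_eq_one_right (by rw [← sq]; exact h e he)
      have := i _ (mul_mem a.2 b.2)
      rw [mul_inv_rev, i _ a.2, i _ b.2] at this
      exact this.symm)⟩⟩
  obtain ⟨F, ea, c', l⟩ := CA.Dich.eight_of_transfer (fun N _ => hno N)
    (fun h3 => absurd (h3 E (k h) h) (by omega)) x hx
  have hp : IsPGroup 2 F := fun y => ⟨1, Subtype.ext (by simpa using ea.2 y y.2)⟩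
  obtain ⟨H, e⟩ := Sylow.exists_subgroup_card_pow_prime_of_le_card (n := 3) Nat.prime_two hp c'
  have l' := Subgroup.map_subtype_le H
  exact ⟨H.map F.subtype, l'.trans l, (Subgroup.card_map_of_injective F.subtype_injective).trans e,
    fun y hy => ea.2 y (l' hy)⟩

end Cfsg.Agent.S0221
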