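import Cfsg.Statements.S0226
import Cfsg.Agent.Lib.Grp.H13Inv

set_option autoImplicit false
open Cfsg

namespace Cfsg.Agent.S0226

/-- A finite group of even order has an odd number of involutions. -/
theorem result {G : Type*} [Group G] [Finite G] (heven : Even (Nat.card G)) : Odd (Nat.card {t : G // orderOf t = 2}) := by
  classical
  have := Fintype.ofFinite G
  let f : Function.End G := fun x => x⁻¹
  have hf : f ^ 2 ^ 1 = 1 := by
    funext x
    show (x⁻¹)⁻¹ = x
    exact inv_inv x
  have h := Equiv.Perm.card_fixedPoints_modEq hf
  have e : Option {t : G // orderOf t = 2} ≃ Function.fixedPoints f :=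
    { toFun := fun o => match o with
        | none => ⟨1, by show (1 : G)⁻¹ = 1; simp⟩
        | some t => ⟨t.1, CA.H13Inv.inv_eq t.2⟩
      invFun := fun x => if h : x.1 = 1 then none else some ⟨x.1, CA.H13Inv.orderOf_eq_two_iff.mpr
        ⟨by have h2 : x.1⁻¹ = x.1 := x.2
            nth_rewrite 1 [← h2]; exact inv_mul_cancel _, h⟩⟩
      left_inv := by
        rintro (_ | t)
        · simp
        · simp [CA.H13Inv.ne_one t.2]
      right_inv := by
        intro x
        by_cases h : x.1 = 1
        · simp only [h, dite_true]; exact Subtype.ext h.symm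
        · simp only [h, dite_false] }
  have h2 := Nat.card_congr e
  rw [Finite.card_option, Nat.card_eq_fintype_card (α := Function.fixedPoints f)] at h2
  rw [Nat.card_eq_fintype_card] at heven
  rw [← h2] at h
  obtain ⟨m, hm⟩ := heven
  rw [hm] at h
  unfold Nat.ModEq at h
  rw [Nat.odd_iff]
  omega

end Cfsg.Agent.S0226
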