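import Cfsg.Statements.S0229
import Cfsg.Agent.Lib.Grp.H13Inv

set_option autoImplicit false
open Cfsg

namespace Cfsg.Agent.S0229

/-- Let t be an involution of a Sylow 2-subgroup S of a finite group G, conjugate in G to no other element of S, and let s be an involution of G not conjugate to t. Then the order of st is twice an odd number. -/
theorem result {G : Type*} [Group G] [Finite G] (S : Sylow 2 G) (t : G) (ht : orderOf t = 2) (htS : t ∈ S) (hiso : ∀ g : G, g * t * g⁻¹ ∈ S → g * t * g⁻¹ = t) (s : G) (hs : orderOf s = 2) (hns : ¬ IsConj s t) : orderOf (s * t) % 4 = 2 := by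
  have ht2 := CA.H13Inv.mul_self ht
  have hs2 := CA.H13Inv.mul_self hs
  have heven : Even (orderOf (t * s)) := CA.H13Inv.even_of_not_isConj ht2 hs2 (fun h => hns h.symm)
  have hts : orderOf (s * t) = orderOf (t * s) := by
    rw [← CA.H13Inv.orderOf_conj s (t * s)]
    congr 1; group
  rw [hts]
  rcases CA.H13Inv.conj_mul_half ht2 hs2 heven with ⟨_, k, hk⟩ | ⟨h, _⟩
  · exfalso
    have hc := CA.H13Inv.commute_pow_half_left ht2 hs2 heven
    have := CA.H13Inv.isolated_eq S ht2 hiso (IsConj.refl t) (isConj_iff.mpr ⟨_, hk⟩)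
      ((Commute.refl t).mul_right hc.symm)
    exact CA.H13Inv.ne_one (CA.H13Inv.orderOf_pow_half heven) (by simpa using this)
  · exact h

end Cfsg.Agent.S0229
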