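import Cfsg.Statements.S0230
import Cfsg.Agent.Lib.Grp.H13Count

set_option autoImplicit false
open Cfsg

namespace Cfsg.Agent.S0230

/-- Let G be a finite group with two non-conjugate involutions, and let t be an involution whose centralizer has maximal order among centralizers of involutions. Then |G| < |C_G(t)|^3. -/
theorem result {G : Type*} [Group G] [Finite G] (s t : G) (hs : orderOf s = 2) (ht : orderOf t = 2) (hnc : ¬ IsConj s t) (hmax : ∀ u : G, orderOf u = 2 → Nat.card (Subgroup.centralizer ({u} : Set G)) ≤ Nat.card (Subgroup.centralizer ({t} : Set G))) : Nat.card G < Nat.card (Subgroup.centralizer ({t} : Set G)) ^ 3 := by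
  classical
  set c := Nat.card (Subgroup.centralizer ({t} : Set G)) with hc
  have hs2 := CA.H13Inv.mul_self hs
  have hev : ∀ y : {y : G // IsConj t y}, Even (orderOf (s * y.1)) := fun y =>
    CA.H13Inv.even_of_not_isConj hs2 (CA.H13Inv.mul_self
      ((CA.H13Inv.orderOf_eq_of_isConj y.2).symm.trans ht)) fun h => hnc (h.trans y.2.symm)
  have hy2 : ∀ y : {y : G // IsConj t y}, orderOf y.1 = 2 := fun y =>
    (CA.H13Inv.orderOf_eq_of_isConj y.2).symm.trans ht
  have lt_of : ∀ (u : G) (α : Type _) (f : α → G), Function.Injective f → (∀ a, f a ≠ 1) →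
      (∀ a, Commute (f a) u) → orderOf u = 2 → Nat.card α < c := by
    intro u α f hf h1 hcomm hu
    have hinj : Function.Injective (fun o : Option α => (match o with
        | none => 1
        | some a => ⟨f a, Subgroup.mem_centralizer_singleton_iff.mpr (hcomm a)⟩ :
          Subgroup.centralizer ({u} : Set G))) := by
      rintro (_ | a) (_ | b) h
      · rfl
      · exact absurd (congrArg Subtype.val h).symm (h1 b)
      · exact absurd (congrArg Subtype.val h) (h1 a)
      · have h' : f a = f b := congrArg (fun z : Subgroup.centralizer ({u} : Set G) => (z : G)) h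
        exact congrArg some (hf h')
    have hfin : Finite α := Finite.of_injective f hf
    have := Nat.card_le_card_of_injective _ hinj
    rw [Finite.card_option] at this
    exact lt_of_lt_of_le this (hmax u hu)
  let F : {y : G // IsConj t y} → {z : G // orderOf z = 2 ∧ Commute z s} := fun y =>
    ⟨(s * y.1) ^ (orderOf (s * y.1) / 2), CA.H13Inv.orderOf_pow_half (hev y),
      CA.H13Inv.commute_pow_half_left hs2 (CA.H13Inv.mul_self (hy2 y)) (hev y)⟩
  have h1 := CA.H13Count.card_le_mul_of_fibers F c (fun z => by
    refine (lt_of z.1 _ (fun a => a.1.1) (fun a b h => Subtype.ext (Subtype.ext h))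
      (fun a => CA.H13Inv.ne_one (hy2 a.1)) (fun a => ?_) z.2.1).le
    have e : (s * a.1.1) ^ (orderOf (s * a.1.1) / 2) = z.1 := congrArg Subtype.val a.2
    rw [← e]
    exact (CA.H13Inv.commute_pow_half_right hs2 (CA.H13Inv.mul_self (hy2 a.1)) (hev a.1)).symm)
  have h2 : Nat.card {z : G // orderOf z = 2 ∧ Commute z s} < c :=
    lt_of s _ (fun a => a.1) Subtype.val_injective (fun a => CA.H13Inv.ne_one a.2.1)
      (fun a => a.2.2) hs
  have h3 := CA.H13Count.card_isConj_mul t
  rw [← hc] at h3
  have hpos : 0 < c := Nat.card_pos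
  rw [← h3]
  calc _ ≤ Nat.card {z : G // orderOf z = 2 ∧ Commute z s} * c * c := Nat.mul_le_mul_right _ h1
    _ < c * c * c := by
        apply Nat.mul_lt_mul_of_pos_right _ hpos
        exact Nat.mul_lt_mul_of_pos_right h2 hpos
    _ = c ^ 3 := by ring

end Cfsg.Agent.S0230
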