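import Cfsg.Statements.S0231
import Cfsg.Agent.Lib.Grp.H13Count

set_option autoImplicit false
open scoped Pointwise
open Cfsg

namespace Cfsg.Agent.S0231

/-- Let T be a Sylow 2-subgroup of the finite group G which is not normal and which intersects every other Sylow 2-subgroup trivially. Then G has a single conjugacy class of involutions. -/
theorem result {G : Type*} [Group G] [Finite G] (T : Sylow 2 G) (hnn : ¬ (T : Subgroup G).Normal) (hTI : ∀ g : G, MulAut.conj g • (T : Subgroup G) ≠ T → MulAut.conj g • (T : Subgroup G) ⊓ T = ⊥) (s t : G) (hs : orderOf s = 2) (ht : orderOf t = 2) : IsConj s t := by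
  by_contra hnc
  have hs2 := CA.H13Inv.mul_self hs
  have ht2 := CA.H13Inv.mul_self ht
  have hTI' : ∀ P Q : Sylow 2 G, ∀ x : G, x ≠ 1 → x ∈ P → x ∈ Q → P = Q := by
    intro P Q x hx hP hQ
    obtain ⟨a, rfl⟩ := MulAction.exists_smul_eq G T P
    obtain ⟨b, rfl⟩ := MulAction.exists_smul_eq G T Q
    by_contra hne
    have h1 : MulAut.conj (b⁻¹ * a) • (T : Subgroup G) ≠ T := by
      intro h
      apply hne
      have h2 : (b⁻¹ * a) • T = T := Sylow.ext h
      rw [mul_smul, inv_smul_eq_iff] at h2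
      exact h2
    have h3 : b⁻¹ * x * b ∈ MulAut.conj (b⁻¹ * a) • (T : Subgroup G) ⊓ T := by
      refine ⟨?_, CA.SylIn.mem_smul_sylow.mp hQ⟩
      have h4 := CA.SylIn.mem_smul_sylow.mp hP
      have : b⁻¹ * x * b ∈ (b⁻¹ * a) • T := by
        rw [CA.SylIn.mem_smul_sylow]
        have e : (b⁻¹ * a)⁻¹ * (b⁻¹ * x * b) * (b⁻¹ * a) = a⁻¹ * x * a := by group
        rw [e]; exact h4
      exact this
    rw [hTI _ h1, Subgroup.mem_bot] at h3
    apply hx
    calc x = b * (b⁻¹ * x * b) * b⁻¹ := by group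
      _ = 1 := by rw [h3]; group
  obtain ⟨T', hT'⟩ : ∃ T' : Sylow 2 G, T' ≠ T := by
    by_contra h
    push Not at h
    have : Subsingleton (Sylow 2 G) := ⟨fun a b => (h a).trans (h b).symm⟩
    exact hnn (Sylow.normal_of_subsingleton T)
  obtain ⟨a, ha⟩ := CA.H13Inv.exists_conj_mem_sylow T hs2
  obtain ⟨b, hb⟩ := CA.H13Inv.exists_conj_mem_sylow T' ht2
  have hs' : orderOf (a * s * a⁻¹) = 2 := by rw [CA.H13Inv.orderOf_conj, hs]
  have ht' : orderOf (b * t * b⁻¹) = 2 := by rw [CA.H13Inv.orderOf_conj, ht]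
  have hnc' : ¬ IsConj (a * s * a⁻¹) (b * t * b⁻¹) := fun h =>
    hnc (((isConj_iff.mpr ⟨a, rfl⟩).trans h).trans (isConj_iff.mpr ⟨b, rfl⟩).symm)
  generalize a * s * a⁻¹ = s' at *
  generalize b * t * b⁻¹ = t' at *
  have hs2' := CA.H13Inv.mul_self hs'
  have ht2' := CA.H13Inv.mul_self ht'
  have hev := CA.H13Inv.even_of_not_isConj hs2' ht2' hnc'
  have hz := CA.H13Inv.orderOf_pow_half hev
  have h1 := CA.H13Inv.commute_pow_half_left hs2' ht2' hev
  have h2 := CA.H13Inv.commute_pow_half_right hs2' ht2' hev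
  generalize (s' * t') ^ (orderOf (s' * t') / 2) = z at *
  have key : ∀ (P : Sylow 2 G) (u : G), orderOf u = 2 → u ∈ P → Commute z u → z ∈ P := by
    intro P u hu huP hc
    obtain ⟨R, hR⟩ := (CA.H13Inv.isPGroup_closure_pair_of_commute (CA.H13Inv.mul_self hz)
      (CA.H13Inv.mul_self hu) hc).exists_le_sylow
    have hzR : z ∈ R := hR (Subgroup.subset_closure (by simp))
    have huR : u ∈ R := hR (Subgroup.subset_closure (by simp))
    rwa [hTI' P R u (CA.H13Inv.ne_one hu) huP huR]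
  exact hT' (hTI' T' T z (CA.H13Inv.ne_one hz) (key T' t' ht' hb h2) (key T s' hs' ha h1))

end Cfsg.Agent.S0231
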