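import Cfsg.Statements.S0232
import Cfsg.Agent.Lib.Grp.H13Count
import Cfsg.Agent.S0233
import Cfsg.Agent.S0219

set_option autoImplicit false
open Cfsg

namespace Cfsg.Agent.S0232

theorem of_index_two {G : Type*} [Group G] [Finite G] (hgt : 2 < Nat.card G) (H : Subgroup G)
    (hH : H.index = 2) : H ≠ ⊤ ∧ Nat.card G < (Nat.card H) ^ 3 := by
  refine ⟨fun h => ?_, ?_⟩
  · rw [h, Subgroup.index_top] at hH
    exact absurd hH (by decide)
  · have := H.card_mul_index
    rw [hH] at this
    have h2 : 2 ≤ Nat.card H := by omega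
    rw [← this]
    calc Nat.card H * 2 < Nat.card H * (2 * 2) := by nlinarith
      _ ≤ Nat.card H * (Nat.card H * Nat.card H) := by gcongr
      _ = _ := by ring

universe u

theorem aux (n : ℕ) : ∀ {G : Type u} [Group G] [Finite G], Nat.card G = n → Even (Nat.card G) →
    2 < Nat.card G → ∃ H : Subgroup G, H ≠ ⊤ ∧ Nat.card G < (Nat.card H) ^ 3 := by
  induction n using Nat.strong_induction_on with
  | _ n ih =>
  intro G _ _ hn heven hgt
  by_cases h2 : ∃ H : Subgroup G, H.index = 2
  · obtain ⟨H, hH⟩ := h2
    exact ⟨H, of_index_two hgt H hH⟩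
  by_cases hZ : Odd (Nat.card (Subgroup.center G))
  · obtain ⟨H, hH, h | h⟩ := Cfsg.Agent.S0233.result heven hZ
    · exact absurd ⟨H, h⟩ h2
    obtain ⟨K, hK, hmin⟩ := Set.exists_min_image {H : Subgroup G | H ≠ ⊤} (fun H => H.index)
      (Set.toFinite _) ⟨_, hH⟩
    refine ⟨K, hK, ?_⟩
    obtain ⟨t, ht⟩ := CA.H13Inv.exists_involution_of_even' heven
    have hprop : Subgroup.centralizer ({t} : Set G) ≠ ⊤ := by
      intro h
      refine CA.H13Inv.odd_card_iff.mp hZ t (Subgroup.mem_center_iff.mpr fun g => ?_) ht
      exact Subgroup.mem_centralizer_singleton_iff.mp (h ▸ Subgroup.mem_top g)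
    set m := Nat.card {t : G // orderOf t = 2} with hm
    have h1 : Nat.card {y : G // IsConj t y} ≤ m :=
      Nat.card_le_card_of_injective (fun y => (⟨y.1,
        (CA.H13Inv.orderOf_eq_of_isConj y.2).symm.trans ht⟩ : {t : G // orderOf t = 2}))
        fun a b h => Subtype.ext (congrArg (fun z : {t : G // orderOf t = 2} => z.1) h)
    rw [CA.H13Count.card_isConj] at h1
    have h3 : K.index ≤ m := (hmin _ hprop).trans h1
    have h4 : K.index ≤ H.index := hmin _ hH
    have h5 := K.index_mul_card
    have hk : 0 < Nat.card K := Nat.card_pos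
    have hj : 0 < K.index := Nat.pos_of_ne_zero Subgroup.index_ne_zero_of_finite
    rw [← h5] at h ⊢
    generalize K.index = j at *
    generalize Nat.card K = k at *
    by_contra hc
    push Not at hc
    have h6 : k ^ 2 ≤ j := by
      have : k ^ 2 * k ≤ j * k := by rw [← pow_succ]; exact hc
      exact le_of_mul_le_mul_right this hk
    have h7 : j * (2 * m ^ 2) < j * (k * (j * k + m)) := by
      calc j * (2 * m ^ 2) = 2 * j * m ^ 2 := by ring
        _ ≤ 2 * H.index * m ^ 2 := by gcongr
        _ < _ := h
        _ = _ := by ring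
    have h8 := lt_of_mul_lt_mul_left h7 (Nat.zero_le _)
    have h9 : k ≤ m := by nlinarith
    have h10 : k * (j * k) ≤ m * m := by
      calc k * (j * k) = k ^ 2 * j := by ring
        _ ≤ m * m := Nat.mul_le_mul (h6.trans h3) h3
    nlinarith
  · obtain ⟨z, hzZ, hz⟩ := CA.H13Inv.exists_involution_of_even (Nat.not_odd_iff_even.mp hZ)
    let N := Subgroup.zpowers z
    have hNn : N.Normal := ⟨fun a ha g => by
      have : g * a = a * g := Subgroup.mem_center_iff.mp (Subgroup.zpowers_le.mpr hzZ ha) g
      rwa [this, mul_inv_cancel_right]⟩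
    have hN : Nat.card N = 2 := by rw [Nat.card_zpowers, hz]
    have hq := N.card_mul_index
    rw [hN, Subgroup.index_eq_card] at hq
    by_cases hqe : Even (Nat.card (G ⧸ N))
    · by_cases hq2 : 2 < Nat.card (G ⧸ N)
      · obtain ⟨H, hH, hlt⟩ := ih _ (by omega) (G := G ⧸ N) rfl hqe hq2
        refine ⟨H.comap (QuotientGroup.mk' N), fun h => hH ?_, ?_⟩
        · rw [← Subgroup.map_comap_eq_self_of_surjective (QuotientGroup.mk'_surjective N) H, h,
            Subgroup.map_top_of_surjective _ (QuotientGroup.mk'_surjective N)]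
        · have e1 := (H.comap (QuotientGroup.mk' N)).card_mul_index
          rw [Subgroup.index_comap_of_surjective _ (QuotientGroup.mk'_surjective N), ← hq,
            ← H.card_mul_index, ← mul_assoc] at e1
          have e2 := Nat.eq_of_mul_eq_mul_right
            (Nat.pos_of_ne_zero Subgroup.index_ne_zero_of_finite) e1
          rw [e2, ← hq, mul_pow]
          omega
      · exfalso
        apply h2
        refine ⟨N, ?_⟩
        rw [Subgroup.index_eq_card]
        obtain ⟨r, hr⟩ := hqe
        omega
    · exfalso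
      apply h2
      obtain ⟨T⟩ : Nonempty (Sylow 2 G) := inferInstance
      refine Cfsg.Agent.S0219.result heven T ?_
      have hT : Nat.card T = 2 := by
        rw [T.card_eq_multiplicity, ← hq, Nat.factorization_mul (by decide) Nat.card_pos.ne']
        simp only [Finsupp.add_apply, Nat.Prime.factorization_self Nat.prime_two]
        rw [Nat.factorization_eq_zero_of_not_dvd (fun h => hqe (even_iff_two_dvd.mpr h))]
        rfl
      exact isCyclic_of_prime_card hT

/-- A finite group G of even order greater than 2 has a proper subgroup H with |G| < |H|^3. -/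
theorem result {G : Type*} [Group G] [Finite G] (heven : Even (Nat.card G)) (hgt : 2 < Nat.card G) : ∃ H : Subgroup G, H ≠ ⊤ ∧ Nat.card G < (Nat.card H) ^ 3 := by
  exact aux _ rfl heven hgt

end Cfsg.Agent.S0232
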