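import Cfsg.Statements.S0234
import Cfsg.Agent.Lib.Grp.H13Count
import Cfsg.Agent.S0233
import Cfsg.Agent.S0493

set_option autoImplicit false
open Cfsg

namespace Cfsg.Agent.S0234

theorem card_inv_perm5 :
    Fintype.card {s : Equiv.Perm (Fin 5) // s * s = 1 ∧ s ≠ 1 ∧ Equiv.Perm.sign s = 1} = 15 := by
  decide +kernel

/-- In a finite simple group G of even order greater than 2, the number n of involutions satisfies 3n < |G|. -/
theorem result {G : Type*} [Group G] [Finite G] [IsSimpleGroup G] (heven : Even (Nat.card G)) (hgt : 2 < Nat.card G) : 3 * Nat.card {t : G // orderOf t = 2} < Nat.card G := by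
  classical
  have hno2 : ∀ H : Subgroup G, H.index ≠ 2 := by
    intro H hH
    rcases (Subgroup.normal_of_index_eq_two hH).eq_bot_or_eq_top with h | h
    · rw [h, Subgroup.index_bot] at hH; omega
    · rw [h, Subgroup.index_top] at hH; omega
  have hnc : ¬ IsCyclic G := by
    intro h
    have hp := @IsSimpleGroup.prime_card G (IsCyclic.commGroup) ‹_›
    have := (Nat.Prime.even_iff hp).mp heven
    omega
  have hZ : Subgroup.center G = ⊥ := by
    rcases (inferInstance : (Subgroup.center G).Normal).eq_bot_or_eq_top with hZ | hZ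
    · exact hZ
    · exfalso
      apply hnc
      have : IsMulCommutative G := ⟨⟨fun a b =>
        Subgroup.mem_center_iff.mp (hZ ▸ Subgroup.mem_top b) a⟩⟩
      exact @IsSimpleGroup.isCyclic G { (inferInstance : Group G) with mul_comm := this.1.1 } ‹_›
  obtain ⟨H, hH, h | h⟩ := Cfsg.Agent.S0233.result heven (by rw [hZ]; simp)
  · exact absurd h (hno2 H)
  by_contra hc
  push Not at hc
  set n := Nat.card {t : G // orderOf t = 2} with hn
  have h4 : Nat.card G * (Nat.card G + n) ≤ (3 * n) * (3 * n + n) :=
    Nat.mul_le_mul hc (Nat.add_le_add_right hc _)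
  have h5 : 2 * H.index * n ^ 2 < 12 * n ^ 2 := by nlinarith
  have h6 := lt_of_mul_lt_mul_right h5 (Nat.zero_le _)
  have h7 : Nat.card (G ⧸ H) ≤ Nat.card (Fin 5) := by
    rw [← Subgroup.index_eq_card]; simp; omega
  have := Fintype.ofFinite (G ⧸ H)
  rw [Nat.card_eq_fintype_card, Nat.card_eq_fintype_card] at h7
  obtain ⟨e⟩ := Function.Embedding.nonempty_of_card_le h7
  let φ : G →* Equiv.Perm (Fin 5) :=
    (Equiv.Perm.viaEmbeddingHom e).comp (MulAction.toPermHom G (G ⧸ H))
  have hφ : Function.Injective φ :=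
    (Equiv.Perm.viaEmbeddingHom_injective e).comp (CA.H13Count.toPermHom_injective hH)
  have hsign : ∀ g, Equiv.Perm.sign (φ g) = 1 := by
    rcases (MonoidHom.normal_ker (Equiv.Perm.sign.comp φ)).eq_bot_or_eq_top with h | h
    · have := Nat.card_le_card_of_injective _ ((MonoidHom.ker_eq_bot_iff _).mp h)
      simp at this
      omega
    · intro g
      exact (h ▸ Subgroup.mem_top g : g ∈ (Equiv.Perm.sign.comp φ).ker)
  have h60 : Nat.card G ≤ 60 := by
    have := Nat.card_le_card_of_injective (fun g => (⟨φ g, hsign g⟩ : alternatingGroup (Fin 5)))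
      fun a b h => hφ (congrArg Subtype.val h)
    rw [nat_card_alternatingGroup] at this
    simpa [Nat.factorial] using this
  have h60' := Cfsg.Agent.S0493.result hnc (by omega)
  have h15 : n ≤ 15 := by
    rw [← card_inv_perm5, ← Nat.card_eq_fintype_card]
    refine Nat.card_le_card_of_injective (fun t => ⟨φ t.1, ?_, ?_, hsign _⟩) ?_
    · rw [← map_mul, CA.H13Inv.mul_self t.2, map_one]
    · intro h1
      exact CA.H13Inv.ne_one t.2 (hφ (h1.trans (map_one φ).symm))
    · intro a b h
      exact Subtype.ext (hφ (congrArg Subtype.val h))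
  omega

end Cfsg.Agent.S0234
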