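import Cfsg.Statements.S0239
import Cfsg.Agent.Lib.Grp.H13Inv

set_option autoImplicit false
open Cfsg

namespace Cfsg.Agent.S0239

theorem odd_pow_inverts {G : Type*} [Group G] {x c : G} (hc : c * x * c⁻¹ = x⁻¹) {m : ℕ}
    (hm : Odd m) : c ^ m * x * (c ^ m)⁻¹ = x⁻¹ := by
  obtain ⟨k, rfl⟩ := hm
  have h2 : c ^ 2 * x * (c ^ 2)⁻¹ = x := by
    have : c * x⁻¹ * c⁻¹ = x := by
      have h5 : c * x⁻¹ * c⁻¹ = (c * x * c⁻¹)⁻¹ := by group
      rw [h5, hc, inv_inv]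
    calc c ^ 2 * x * (c ^ 2)⁻¹ = c * (c * x * c⁻¹) * c⁻¹ := by rw [pow_two]; group
      _ = x := by rw [hc, this]
  have h3 : Commute (c ^ 2) x := mul_inv_eq_iff_eq_mul.mp h2
  have h4 : Commute ((c ^ 2) ^ k) x := h3.pow_left k
  rw [pow_succ', pow_mul]
  calc c * (c ^ 2) ^ k * x * (c * (c ^ 2) ^ k)⁻¹
      = c * ((c ^ 2) ^ k * x) * (c * (c ^ 2) ^ k)⁻¹ := by group
    _ = c * x * c⁻¹ := by rw [h4.eq]; group
    _ = x⁻¹ := hc

/-- If some nontrivial element x of a finite group G is conjugate to x⁻¹, then |G| is even. -/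
theorem result {G : Type*} [Group G] [Finite G] (x : G) (hx : x ≠ 1) (hreal : IsConj x x⁻¹) : Even (Nat.card G) := by
  obtain ⟨c, hc⟩ := isConj_iff.mp hreal
  by_contra hodd
  have hodd := Nat.not_even_iff_odd.mp hodd
  have h := odd_pow_inverts hc hodd
  rw [pow_card_eq_one'] at h
  have h2 : x = x⁻¹ := by simpa using h
  have hx2 : orderOf x = 2 := CA.H13Inv.orderOf_eq_two_iff.mpr
    ⟨by nth_rewrite 1 [h2]; exact inv_mul_cancel x, hx⟩
  have := orderOf_dvd_natCard x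
  rw [hx2] at this
  exact (Nat.not_even_iff_odd.mpr hodd) (even_iff_two_dvd.mpr this)

end Cfsg.Agent.S0239
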