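import Cfsg.Statements.S0240
import Cfsg.Agent.Lib.Grp.H13Count

set_option autoImplicit false
open Cfsg

namespace Cfsg.Agent.S0240

/-- Let G be a finite group with n involutions and H a subgroup with |H|·(n+1) > |G|. Then some nontrivial h ∈ H is strongly real in G: an involution t of G satisfies t h t⁻¹ = h⁻¹. -/
theorem result {G : Type*} [Group G] [Finite G] (H : Subgroup G) (hH : Nat.card G < Nat.card H * (Nat.card {t : G // orderOf t = 2} + 1)) : ∃ h : G, h ∈ H ∧ h ≠ 1 ∧ ∃ t : G, orderOf t = 2 ∧ t * h * t⁻¹ = h⁻¹ := by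
  have hlt : Nat.card (G ⧸ H) < Nat.card (Option {t : G // orderOf t = 2}) := by
    rw [Finite.card_option, ← Subgroup.index_eq_card]
    rw [← H.card_mul_index] at hH
    exact lt_of_mul_lt_mul_left hH (Nat.zero_le _)
  let e : Option {t : G // orderOf t = 2} → G := fun o => match o with
    | none => 1
    | some t => t.1
  have : ¬ Function.Injective (fun o => ((e o : G) : G ⧸ H)) := fun h =>
    absurd (Nat.card_le_card_of_injective _ h) (not_le.mpr hlt)
  obtain ⟨a, b, hab, hne⟩ := Function.not_injective_iff.mp this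
  rw [QuotientGroup.eq] at hab
  have inv_case : ∀ t : G, orderOf t = 2 → t ∈ H →
      ∃ h : G, h ∈ H ∧ h ≠ 1 ∧ ∃ t : G, orderOf t = 2 ∧ t * h * t⁻¹ = h⁻¹ := fun t ht htH =>
    ⟨t, htH, CA.H13Inv.ne_one ht, t, ht, by rw [CA.H13Inv.inv_eq ht, CA.H13Inv.mul_self ht, one_mul]⟩
  rcases a with _ | a <;> rcases b with _ | b
  · exact absurd rfl hne
  · exact inv_case b.1 b.2 (by simpa [e] using hab)
  · exact inv_case a.1 a.2 (by simpa [e] using hab)
  · simp only [e] at hab
    rw [CA.H13Inv.inv_eq a.2] at hab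
    refine ⟨_, hab, fun h => hne ?_, a.1, a.2,
      CA.H13Inv.conj_prod (CA.H13Inv.mul_self a.2) (CA.H13Inv.mul_self b.2)⟩
    congr 1
    exact Subtype.ext (by rw [eq_inv_of_mul_eq_one_left h, CA.H13Inv.inv_eq b.2])

end Cfsg.Agent.S0240
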