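import Cfsg.Statements.S0241
import Cfsg.Agent.Lib.Grp.H13Inv
import Cfsg.Agent.S0239

set_option autoImplicit false
open Cfsg

namespace Cfsg.Agent.S0241

/-- If x ≠ 1 is conjugate to x⁻¹ in a finite group G and |C_G(x)| is odd, then some involution t satisfies t x t⁻¹ = x⁻¹. -/
theorem result {G : Type*} [Group G] [Finite G] (x : G) (hx : x ≠ 1) (hreal : IsConj x x⁻¹) (hodd : Odd (Nat.card (Subgroup.centralizer ({x} : Set G)))) : ∃ t : G, orderOf t = 2 ∧ t * x * t⁻¹ = x⁻¹ := by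
  obtain ⟨c, hc⟩ := isConj_iff.mp hreal
  have h := Cfsg.Agent.S0239.odd_pow_inverts hc hodd
  have hne : x ≠ x⁻¹ := by
    intro h2
    have hx2 : orderOf x = 2 := CA.H13Inv.orderOf_eq_two_iff.mpr
      ⟨by nth_rewrite 1 [h2]; exact inv_mul_cancel x, hx⟩
    exact CA.H13Inv.odd_card_iff.mp hodd x (Subgroup.mem_centralizer_singleton_iff.mpr rfl) hx2
  refine ⟨_, CA.H13Inv.orderOf_eq_two_iff.mpr ⟨?_, ?_⟩, h⟩
  · have hm : c ^ 2 ∈ Subgroup.centralizer ({x} : Set G) := by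
      rw [Subgroup.mem_centralizer_singleton_iff]
      have : c * x⁻¹ * c⁻¹ = x := by
        have h5 : c * x⁻¹ * c⁻¹ = (c * x * c⁻¹)⁻¹ := by group
        rw [h5, hc, inv_inv]
      have h2 : c ^ 2 * x * (c ^ 2)⁻¹ = x := by
        calc c ^ 2 * x * (c ^ 2)⁻¹ = c * (c * x * c⁻¹) * c⁻¹ := by rw [pow_two]; group
          _ = x := by rw [hc, this]
      exact mul_inv_eq_iff_eq_mul.mp h2
    have h3 := pow_card_eq_one' (x := (⟨c ^ 2, hm⟩ : Subgroup.centralizer ({x} : Set G)))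
    have h4 := congrArg Subtype.val h3
    simp only [SubmonoidClass.mk_pow, OneMemClass.coe_one] at h4
    rw [← pow_add, ← two_mul, pow_mul, h4]
  · intro h1
    rw [h1] at h
    exact hne (by simpa using h)

end Cfsg.Agent.S0241
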