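import Cfsg.Statements.S2427
import Cfsg.Agent.Lib.Lin.SLnCard

set_option autoImplicit false
open Cfsg

namespace Cfsg.Agent.S2427

open Matrix

abbrev G := SpecialLinearGroup (Fin 2) (ZMod 3)

def i : G := ⟨!![0, 2; 1, 0], by rw [det_fin_two]; decide⟩
def j : G := ⟨!![1, 1; 1, 2], by rw [det_fin_two]; decide⟩
def u : G := ⟨!![1, 1; 0, 1], by rw [det_fin_two]; decide⟩

def q : QuaternionGroup 2 → G
  | .a k => i ^ k.val
  | .xa k => j * i ^ k.val

def φ : QuaternionGroup 2 →* G := MonoidHom.mk' q (by decide +kernel)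

theorem φ_inj : Function.Injective φ := (injective_iff_map_eq_one _).2 (by decide +kernel)

theorem card_G : Nat.card G = 24 := by rw [CA.SLnCard.card_SL2, Nat.card_zmod]; rfl

theorem card_Q : Nat.card φ.range = 8 := by
  rw [← Nat.card_congr (MonoidHom.ofInjective φ_inj).toEquiv, Nat.card_eq_fintype_card,
    QuaternionGroup.card]

theorem index_Q : φ.range.index = 3 := by
  have := φ.range.card_mul_index
  rw [card_Q, card_G] at this
  omega

theorem Q_le {N : Subgroup G} (hi : i ∈ N) (hj : j ∈ N) : φ.range ≤ N := by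
  rintro _ ⟨k | k, rfl⟩
  · exact N.pow_mem hi _
  · exact N.mul_mem hj (N.pow_mem hi _)

theorem Q_le' {N : Subgroup G} [hN : N.Normal] (hi : i ∈ N) : φ.range ≤ N := by
  obtain ⟨a, ha⟩ : ∃ a : G, j = a * i * a⁻¹ := by decide +kernel
  exact Q_le hi (ha ▸ hN.conj_mem i hi a)

theorem comm_eq : commutator G = φ.range := by
  refine le_antisymm ?_ (Q_le' ?_)
  · rw [commutator, Subgroup.commutator_le]
    have : ∀ a b : G, ∃ x, φ x = a * b * a⁻¹ * b⁻¹ := by decide +kernel
    exact fun a _ b _ => this a b
  · obtain ⟨a, ha⟩ : ∃ a : G, i = u * a * u⁻¹ * a⁻¹ := by decide +kernel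
    rw [ha]
    exact Subgroup.commutator_mem_commutator (Subgroup.mem_top u) (Subgroup.mem_top a)

/-- The group SL₂ over the field with 3 elements has order 24 and centre of order 2; its commutator subgroup has order 8, is isomorphic to the quaternion group of order 8 and is complemented by every Sylow 3-subgroup (so the group is a semidirect product of a quaternion group of order 8 by a cyclic group of order 3); and its only normal subgroups besides the trivial subgroup and the whole group are the centre and the commutator subgroup. -/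
theorem result :
    Nat.card (Matrix.SpecialLinearGroup (Fin 2) (ZMod 3)) = 24 ∧
    Nat.card (Subgroup.center (Matrix.SpecialLinearGroup (Fin 2) (ZMod 3))) = 2 ∧
    Nat.card (commutator (Matrix.SpecialLinearGroup (Fin 2) (ZMod 3))) = 8 ∧
    Nonempty (commutator (Matrix.SpecialLinearGroup (Fin 2) (ZMod 3)) ≃* QuaternionGroup 2) ∧
    (∀ P : Sylow 3 (Matrix.SpecialLinearGroup (Fin 2) (ZMod 3)),
      Subgroup.IsComplement' (commutator (Matrix.SpecialLinearGroup (Fin 2) (ZMod 3)))
        (P : Subgroup (Matrix.SpecialLinearGroup (Fin 2) (ZMod 3)))) ∧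
    ∀ N : Subgroup (Matrix.SpecialLinearGroup (Fin 2) (ZMod 3)), N.Normal →
      N = ⊥ ∨ N = ⊤ ∨ N = Subgroup.center (Matrix.SpecialLinearGroup (Fin 2) (ZMod 3)) ∨
        N = commutator (Matrix.SpecialLinearGroup (Fin 2) (ZMod 3)) := by
  have hz : Nat.card (Subgroup.center G) = 2 := by
    rw [CA.SLnCard.card_center_SL, Nat.card_zmod]; rfl
  refine ⟨card_G, hz, by rw [comm_eq, card_Q],
    ⟨(MulEquiv.subgroupCongr comm_eq).trans (MonoidHom.ofInjective φ_inj).symm⟩, fun P => ?_,
    fun N hN => ?_⟩
  · have hP : Nat.card P = 3 := by rw [P.card_eq_multiplicity, card_G]; decide +kernel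
    exact Subgroup.isComplement'_of_coprime (by rw [comm_eq, card_Q, hP, card_G])
      (by rw [comm_eq, card_Q, hP]; norm_num)
  · by_cases h : N ≤ Subgroup.center G
    · rcases (Nat.dvd_prime Nat.prime_two).1 (hz ▸ Subgroup.card_dvd_of_le h) with h1 | h1
      · exact Or.inl (Subgroup.card_eq_one.1 h1)
      · exact Or.inr (Or.inr (Or.inl (Subgroup.eq_of_le_of_card_ge h (by rw [h1]; exact hz.le))))
    · obtain ⟨g, hg, hg'⟩ := SetLike.not_le_iff_exists.1 h
      have : ∀ g : G, (∀ x, x * g = g * x) ∨ ∃ a : G, i = a * g * a⁻¹ ∨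
          i = a * (g * (i * g⁻¹ * i⁻¹)) * a⁻¹ := by decide +kernel
      have hi : i ∈ N := by
        rcases this g with h1 | ⟨a, h1 | h1⟩
        · exact (hg' (Subgroup.mem_center_iff.2 h1)).elim
        · exact h1 ▸ hN.conj_mem _ hg a
        · rw [h1]
          exact hN.conj_mem _ (N.mul_mem hg (hN.conj_mem _ (N.inv_mem hg) i)) a
      have hle := Q_le' hi
      rcases (Nat.dvd_prime Nat.prime_three).1 (index_Q ▸ Subgroup.index_dvd_of_le hle) with h1 | h1
      · exact Or.inr (Or.inl (Subgroup.index_eq_one.1 h1))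
      · refine Or.inr (Or.inr (Or.inr ?_))
        have := N.card_mul_index
        rw [h1, card_G] at this
        rw [comm_eq]
        exact (Subgroup.eq_of_le_of_card_ge hle (by rw [card_Q]; linarith)).symm

end Cfsg.Agent.S2427
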