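import Cfsg.Statements.S0257
import Cfsg.Agent.Lib.Lin.FieldIso
import Cfsg.Agent.S2427

set_option autoImplicit false
open Cfsg

namespace Cfsg.Agent.S0257

/-- SL_2(3) has a normal subgroup of index 3 isomorphic to the quaternion group of order 8, and its centre has order 2. -/
theorem result {F : Type*} [Field F] [Fintype F] (hF : Fintype.card F = 3) : (∃ Q : Subgroup (Matrix.SpecialLinearGroup (Fin 2) F), Q.Normal ∧ Q.index = 3 ∧ Nonempty (Q ≃* QuaternionGroup 2)) ∧ Nat.card (Subgroup.center (Matrix.SpecialLinearGroup (Fin 2) F)) = 2 := by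
  have hF' : Nat.card F = 3 := by rw [Nat.card_eq_fintype_card, hF]
  obtain ⟨e⟩ := CA.FieldIso.nonempty_zmod (F := F) 3 hF'
  obtain ⟨-, -, h8, ⟨f⟩, -⟩ := Cfsg.Agent.S2427.result
  let g := CA.FieldIso.commCongr (CA.FieldIso.slEquiv (n := Fin 2) e)
  refine ⟨⟨commutator _, inferInstance, ?_, ⟨g.trans f⟩⟩, by rw [CA.SLnCard.card_center_SL, hF']; rfl⟩
  have := (commutator (Matrix.SpecialLinearGroup (Fin 2) F)).card_mul_index
  rw [Nat.card_congr g.toEquiv, h8, CA.SLnCard.card_SL2, hF'] at this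
  omega

end Cfsg.Agent.S0257
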