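import Cfsg.Statements.S0259
import Cfsg.Agent.Lib.Lin.SL2Unip

set_option autoImplicit false
open Cfsg

namespace Cfsg.Agent.S0259

/-- Distinct Sylow p-subgroups of GL_2(q), p the characteristic, intersect trivially. -/
theorem result {F : Type*} [Field F] [Fintype F] (p : ℕ) [Fact p.Prime] [CharP F p] (P Q : Sylow p (Matrix.GeneralLinearGroup (Fin 2) F)) (h : P ≠ Q) : (P : Subgroup (Matrix.GeneralLinearGroup (Fin 2) F)) ⊓ (Q : Subgroup (Matrix.GeneralLinearGroup (Fin 2) F)) = ⊥ := by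
  open CA.SL2Unip in
  obtain ⟨x, rfl⟩ := MulAction.exists_smul_eq (Matrix.GeneralLinearGroup (Fin 2) F) (sylowUG F p) P
  obtain ⟨y, rfl⟩ := MulAction.exists_smul_eq (Matrix.GeneralLinearGroup (Fin 2) F) (sylowUG F p) Q
  rw [eq_bot_iff]
  rintro a ⟨⟨_, h1, h1'⟩, ⟨_, h2, h2'⟩⟩
  obtain ⟨b, rfl⟩ := mem_UG.1 h1
  obtain ⟨c, rfl⟩ := mem_UG.1 h2
  rw [Subgroup.mem_bot]
  by_contra ha
  apply h
  have hb : b ≠ 0 := by
    rintro rfl
    exact ha (by rw [← h1']; simp)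
  have e1 : x * Matrix.SpecialLinearGroup.toGL (u b) * x⁻¹ = a := h1'
  have e2 : y * Matrix.SpecialLinearGroup.toGL (u c) * y⁻¹ = a := h2'
  have : y⁻¹ * x ∈ Cfsg.upperTriangularGL 2 F := mem_BG.2 (mem_BG_of_conj hb
    (y := Matrix.SpecialLinearGroup.toGL (u c)) (by
      calc _ = y⁻¹ * (x * Matrix.SpecialLinearGroup.toGL (u b) * x⁻¹) * y := by group
        _ = _ := by rw [e1, ← e2]; group) rfl)
  rw [← normalizer_UG, ← sylowUG_coe p] at this
  have := Sylow.smul_eq_iff_mem_normalizer.2 this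
  rw [mul_smul, inv_smul_eq_iff] at this
  exact this

end Cfsg.Agent.S0259
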