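import Cfsg.Statements.S0260
import Cfsg.Agent.Lib.Lin.SL2Unip

set_option autoImplicit false
open Cfsg

namespace Cfsg.Agent.S0260

/-- Any two distinct Sylow p-subgroups of SL_2(q), p the characteristic, generate SL_2(q). -/
theorem result {F : Type*} [Field F] [Fintype F] (p : ℕ) [Fact p.Prime] [CharP F p] (P Q : Sylow p (Matrix.SpecialLinearGroup (Fin 2) F)) (h : P ≠ Q) : (P : Subgroup (Matrix.SpecialLinearGroup (Fin 2) F)) ⊔ (Q : Subgroup (Matrix.SpecialLinearGroup (Fin 2) F)) = ⊤ := by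
  open CA.SL2Unip in
  obtain ⟨x, rfl⟩ := MulAction.exists_smul_eq (Matrix.SpecialLinearGroup (Fin 2) F) (sylowU F p) P
  obtain ⟨y, rfl⟩ := MulAction.exists_smul_eq (Matrix.SpecialLinearGroup (Fin 2) F) (sylowU F p) Q
  have hB : x⁻¹ * y ∉ B F := by
    intro hh
    rw [← normalizer_U, ← sylowU_coe p] at hh
    have := Sylow.smul_eq_iff_mem_normalizer.2 hh
    rw [mul_smul, inv_smul_eq_iff] at this
    exact h this.symm
  have := eq_top_of_U_le (H := Subgroup.comap (MulAut.conj x).toMonoidHom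
    (((x • sylowU F p : Sylow p _) : Subgroup (Matrix.SpecialLinearGroup (Fin 2) F)) ⊔
      ((y • sylowU F p : Sylow p _) : Subgroup (Matrix.SpecialLinearGroup (Fin 2) F))))
    (fun a ha => Subgroup.mem_sup_left ⟨a, ha, rfl⟩) hB
    (fun b => Subgroup.mem_sup_right ⟨u b, u_mem_U b, by
      show y * u b * y⁻¹ = x * (x⁻¹ * y * u b * (x⁻¹ * y)⁻¹) * x⁻¹
      group⟩)
  rw [eq_top_iff]
  intro g _
  have h2 : x⁻¹ * g * x ∈ _ := this ▸ Subgroup.mem_top _
  simpa [mul_assoc] using h2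

end Cfsg.Agent.S0260
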