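import Cfsg.Statements.S0264
import Cfsg.Agent.Lib.Lin.SLnCard
import Cfsg.Agent.Lib.Lin.SLnGen

set_option autoImplicit false
open Cfsg

namespace Cfsg.Agent.S0264

/-- GL_n(F)' = SL_n(F) (as the kernel of det), for every field F and every n, except n = 2 over the field of two elements. -/
theorem result {F : Type*} [Field F] (n : ℕ) (h : n = 2 → ∃ a : F, a ≠ 0 ∧ a ≠ 1) : commutator (Matrix.GeneralLinearGroup (Fin n) F) = (Matrix.GeneralLinearGroup.det : Matrix.GeneralLinearGroup (Fin n) F →* Fˣ).ker := by
  open Matrix Matrix.SpecialLinearGroup commutatorElement in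
  refine le_antisymm (Abelianization.commutator_subset_ker _) ?_
  rw [← CA.SLnCard.toGL_range]
  rintro _ ⟨s, rfl⟩
  refine CA.SLnGen.transvection_induction (fun s => toGL s ∈ commutator (GL (Fin n) F))
    (by simp) (fun i j hij c => ?_) (fun A B hA hB => by rw [map_mul]; exact mul_mem hA hB) s
  by_cases hn : 3 ≤ n
  · obtain ⟨x, y, hxy⟩ := CA.SLnGen.transvection_mem_commutatorSet (F := F)
      (Or.inl (by simpa using hn)) hij c
    rw [← hxy, map_commutatorElement]
    exact Subgroup.commutator_mem_commutator (Subgroup.mem_top _) (Subgroup.mem_top _)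
  · obtain ⟨a, ha, ha1⟩ := h (by have := i.2; have := j.2; omega)
    have hd : (diagonal fun k => if k = i then a else 1 : Matrix (Fin n) (Fin n) F).det ≠ 0 := by
      simp [ha]
    let d : GL (Fin n) F := GeneralLinearGroup.mkOfDetNeZero _ hd
    have h1 : ∀ b : F, d * toGL (SpecialLinearGroup.transvection hij b) =
        toGL (SpecialLinearGroup.transvection hij (a * b)) * d := by
      intro b
      apply Units.ext
      simp only [d, Units.val_mul, coe_GL_coe_matrix, transvection_coe,
        GeneralLinearGroup.val_mkOfDetNeZero, mul_add, add_mul, one_mul, mul_one]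
      ext x y
      simp only [Matrix.add_apply, diagonal_mul, mul_diagonal, single_apply]
      by_cases h : i = x ∧ j = y
      · obtain ⟨rfl, rfl⟩ := h
        simp [hij.symm]
      · simp [h]
    have h2 : toGL (SpecialLinearGroup.transvection hij c) =
        ⁅d, toGL (SpecialLinearGroup.transvection hij (c / (a - 1)))⁆ := by
      rw [commutatorElement_def, h1, mul_inv_cancel_right, ← map_inv, ← map_mul, transvection_inv,
        ← transvection_add]
      congr 2
      have := sub_ne_zero_of_ne ha1
      field_simp
      ring
    rw [h2]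
    exact Subgroup.commutator_mem_commutator (Subgroup.mem_top _) (Subgroup.mem_top _)

end Cfsg.Agent.S0264
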