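import Cfsg.Statements.S0266
import Cfsg.Agent.Lib.Lin.PGL2Act

set_option autoImplicit false
open scoped MatrixGroups
open Cfsg

namespace Cfsg.Agent.S0266

/-- PGL_2(F) is sharply 3-transitive on the projective line: it is 3-transitive and the stabiliser of three distinct points is trivial. -/
theorem result {F : Type*} [Field F] : MulAction.IsMultiplyPretransitive (Matrix.ProjGenLinGroup (Fin 2) F) (Projectivization F (Fin 2 → F)) 3 ∧ ∀ (g : Matrix.ProjGenLinGroup (Fin 2) F) (a b c : Projectivization F (Fin 2 → F)), a ≠ b → a ≠ c → b ≠ c → g • a = a → g • b = b → g • c = c → g = 1 := by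
  classical
  have he : ∀ (g : Matrix.ProjGenLinGroup (Fin 2) F) (x : OnePoint F),
      OnePoint.equivProjectivization F (g • x) = g • OnePoint.equivProjectivization F x := by
    intro g x
    induction g using Matrix.ProjGenLinGroup.induction_on with | mk g =>
    exact OnePoint.equivProjectivization_smul x
  have he' : ∀ (g : Matrix.ProjGenLinGroup (Fin 2) F) (x : Projectivization F (Fin 2 → F)),
      (OnePoint.equivProjectivization F).symm (g • x) =
        g • (OnePoint.equivProjectivization F).symm x := by
    intro g x
    rw [Equiv.symm_apply_eq, he, Equiv.apply_symm_apply]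
  refine ⟨MulAction.isMultiplyPretransitive_iff.2 fun x y => ?_, fun g a b c hab hac hbc ha hb hc => ?_⟩
  · have key : ∀ x : Fin 3 ↪ Projectivization F (Fin 2 → F), ∃ g : Matrix.ProjGenLinGroup (Fin 2) F,
        ∀ i, x i = g • OnePoint.equivProjectivization F
          (![OnePoint.infty, ((0 : F) : OnePoint F), ((1 : F) : OnePoint F)] i) := by
      intro x
      have hi : ∀ i j, i ≠ j → (OnePoint.equivProjectivization F).symm (x i) ≠
          (OnePoint.equivProjectivization F).symm (x j) := fun i j hij h =>
        hij (x.injective ((OnePoint.equivProjectivization F).symm.injective h))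
      obtain ⟨g, h0, h1, h2⟩ := CA.PGL2Act.exists_smul_three (hi 0 1 (by decide)) (hi 0 2 (by decide))
        (hi 1 2 (by decide))
      refine ⟨g, fun i => ?_⟩
      rw [← he, ← Equiv.symm_apply_eq]
      fin_cases i
      exacts [h0.symm, h1.symm, h2.symm]
    obtain ⟨g, hg⟩ := key x
    obtain ⟨h, hh⟩ := key y
    refine ⟨h * g⁻¹, Function.Embedding.ext fun i => ?_⟩
    rw [Function.Embedding.smul_apply, hg, hh, mul_smul, inv_smul_smul]
  · have hi := (OnePoint.equivProjectivization F).symm.injective
    exact CA.PGL2Act.three g _ _ _ (hi.ne hab) (hi.ne hac) (hi.ne hbc) (by rw [← he', ha])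
      (by rw [← he', hb]) (by rw [← he', hc])

end Cfsg.Agent.S0266
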