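import Cfsg.Statements.S0267
import Cfsg.Agent.S0266

set_option autoImplicit false
open Cfsg

namespace Cfsg.Agent.S0267

/-- SL_2(q) is 3-transitive on the q+1 points of the projective line if and only if q is even. -/
theorem result {F : Type*} [Field F] [Fintype F] : MulAction.IsMultiplyPretransitive (Matrix.SpecialLinearGroup (Fin 2) F) (Projectivization F (Fin 2 → F)) 3 ↔ ringChar F = 2 := by
  open Matrix in
  classical
  constructor
  · intro h
    by_contra h2
    obtain ⟨a, ha⟩ := FiniteField.exists_nonsquare h2
    have ha0 : a ≠ 0 := by rintro rfl; exact ha IsSquare.zero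
    have key : ∀ b : F, b ≠ 0 → Function.Injective (![Projectivization.mk F ![1, 0] (by simp),
        Projectivization.mk F ![0, 1] (by simp), Projectivization.mk F ![b, 1] (by simp)] :
          Fin 3 → Projectivization F (Fin 2 → F)) := by
      intro b hb i j hij
      fin_cases i <;> fin_cases j <;>
        simp [Projectivization.mk_eq_mk_iff', funext_iff, Fin.forall_fin_two, hb, hb.symm] at hij ⊢
    obtain ⟨g, hg⟩ := MulAction.isMultiplyPretransitive_iff.1 h ⟨_, key 1 one_ne_zero⟩ ⟨_, key a ha0⟩
    have h0 := congrArg (fun e => e 0) hg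
    have h1 := congrArg (fun e => e 1) hg
    have h3 := congrArg (fun e => e 2) hg
    simp [Projectivization.mk_eq_mk_iff', funext_iff, Fin.forall_fin_two,
      Matrix.SpecialLinearGroup.smul_def, Matrix.mulVec, dotProduct] at h0 h1 h3
    have hd := g.2
    rw [det_fin_two] at hd
    refine ha ⟨g.1 0 0, ?_⟩
    grind
  · intro h2
    have h3 := (Cfsg.Agent.S0266.result (F := F)).1
    rw [MulAction.isMultiplyPretransitive_iff] at h3 ⊢
    intro x y
    obtain ⟨g, hg⟩ := h3 x y
    obtain ⟨s, rfl⟩ := ProjectiveSpecialLinearGroup.toPGL_surj_of_roots (n := Fin 2) (R := F)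
      (fun r => by
        obtain ⟨k, hk⟩ := FiniteField.isSquare_of_char_two h2 (r : F)
        have : k ≠ 0 := by rintro rfl; simp at hk
        exact ⟨Units.mk0 k this, Units.ext (by simp [hk, sq])⟩) g
    obtain ⟨s, rfl⟩ := QuotientGroup.mk_surjective s
    refine ⟨s, hg ▸ Function.Embedding.ext fun i => ?_⟩
    rw [Function.Embedding.smul_apply, Function.Embedding.smul_apply]
    induction x i using Projectivization.ind with | _ v hv => rfl

end Cfsg.Agent.S0267
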