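import Cfsg.Statements.S0274
import Cfsg.Agent.Lib.Lin.SL2Dickson

set_option autoImplicit false
open Cfsg

namespace Cfsg.Agent.S0274

/-- Dickson's Theorem for SL_2: if p is odd and H is a subgroup of SL_2(q), q a power of p, with more than one Sylow p-subgroup, then H contains a copy of SL_2(p). -/
theorem result {F : Type*} [Field F] [Fintype F] (p : ℕ) [Fact p.Prime] [CharP F p] (hp : p ≠ 2) (H : Subgroup (Matrix.SpecialLinearGroup (Fin 2) F)) (hH : 1 < Nat.card (Sylow p H)) : ∃ K : Subgroup (Matrix.SpecialLinearGroup (Fin 2) F), K ≤ H ∧ Nonempty (K ≃* Matrix.SpecialLinearGroup (Fin 2) (ZMod p)) := by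
  have : Nontrivial (Sylow p H) := Finite.one_lt_card_iff_nontrivial.1 hH
  obtain ⟨P, Q, hPQ⟩ := exists_pair_ne (Sylow p H)
  obtain ⟨a, ha, b, hb, hab⟩ := CA.SL2Dickson.exists_not_commute P Q hPQ
  obtain ⟨m, hm⟩ := P.2 ⟨a, ha⟩
  obtain ⟨n, hn⟩ := Q.2 ⟨b, hb⟩
  exact CA.SL2Dickson.exists_sl2p p hp H a.2 b.2 (m := m) (n := n)
    (congrArg (fun x : P => x.1.1) hm) (congrArg (fun x : Q => x.1.1) hn)
    (fun h => hab (Subtype.ext h))

end Cfsg.Agent.S0274
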