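import Cfsg.Statements.S0275
import Cfsg.Agent.Lib.Lin.SL2Sylow2
import Cfsg.Agent.S0274

set_option autoImplicit false
open Cfsg

namespace Cfsg.Agent.S0275

/-- If p is odd and H is a subgroup of SL_2(q), q a power of p, with more than one Sylow p-subgroup, then the Sylow 2-subgroups of H are generalised quaternion. -/
theorem result {F : Type*} [Field F] [Fintype F] (p : ℕ) [Fact p.Prime] [CharP F p] (hp : p ≠ 2) (H : Subgroup (Matrix.SpecialLinearGroup (Fin 2) F)) (hH : 1 < Nat.card (Sylow p H)) (S : Sylow 2 H) : ∃ k : ℕ, 1 ≤ k ∧ Nonempty ((S : Subgroup H) ≃* QuaternionGroup (2 ^ k)) := by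
  obtain ⟨K, hK, ⟨e⟩⟩ := Cfsg.Agent.S0274.result p hp H hH
  obtain ⟨φ, hφ⟩ := CA.SL2Sylow2.exists_quaternionHom (F := ZMod p) p hp
  exact CA.SL2Sylow2.sylow_quaternion (CA.SL2Basic.two_ne_zero_of_char p hp) H.subtype
    H.subtype_injective ((Subgroup.inclusion hK).comp (e.symm.toMonoidHom.comp φ))
    ((Subgroup.inclusion_injective hK).comp (e.symm.injective.comp hφ)) S

end Cfsg.Agent.S0275
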