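import Cfsg.Statements.S0276
import Cfsg.Agent.Lib.Lin.PSL2Four

set_option autoImplicit false
open Cfsg

namespace Cfsg.Agent.S0276

/-- For q = 3 or 5 mod 8 the Sylow 2-subgroups of PSL_2(q) are elementary abelian of order 4. -/
theorem result {F : Type*} [Field F] [Fintype F] {q : ℕ} (hF : Fintype.card F = q) (hq : q % 8 = 3 ∨ q % 8 = 5) (P : Sylow 2 (Matrix.ProjectiveSpecialLinearGroup (Fin 2) F)) : IsKleinFour (P : Subgroup (Matrix.ProjectiveSpecialLinearGroup (Fin 2) F)) := by
  subst hF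
  exact CA.PSL2Four.isKleinFour_sylow (by rwa [Nat.card_eq_fintype_card]) P

end Cfsg.Agent.S0276
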