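import Cfsg.Statements.S0289
import Cfsg.Agent.Lib.Lin.CFormOrd

set_option autoImplicit false
open Cfsg

namespace Cfsg.Agent.S0289

/-- The hyperbolic quadratic form on F^(2m), m at least 1, has q^(2m-1) + q^m - q^(m-1) zeros (that is, (q^m - 1)(q^(m-1) + 1) non-zero isotropic vectors). -/
theorem result {F : Type*} [Field F] [Fintype F] {q : ℕ} (hF : Fintype.card F = q) (m : ℕ) (hm : 1 ≤ m) : Nat.card {v : Fin m ⊕ Fin m → F // Cfsg.quadFormPlus m F v = 0} = q ^ (2 * m - 1) + q ^ m - q ^ (m - 1) := by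
  obtain ⟨m, rfl⟩ : ∃ k, m = k + 1 := ⟨m - 1, by omega⟩
  open CA.CForm CA.CForm.Form in
  have h := IsIndex.card_singular _ 0 (plusForm_isIndex (F := F) (m + 1)) (plusForm_nondeg F _)
    (finrank_plus _)
  rw [Nat.card_eq_fintype_card (α := F), hF] at h
  have hq : 0 < q := hF ▸ Fintype.card_pos
  have e : 2 * (m + 1) - 1 = 2 * m + 1 := by omega
  rw [e, Nat.add_sub_cancel]
  apply Nat.eq_sub_of_add_eq
  apply Nat.eq_of_mul_eq_mul_left hq
  rw [CA.CForm.plusForm_Q] at h
  zify at h ⊢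
  linear_combination h

end Cfsg.Agent.S0289
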