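import Cfsg.Statements.S0291
import Cfsg.Agent.Lib.Lin.CFormOrd

set_option autoImplicit false
open Cfsg

namespace Cfsg.Agent.S0291

/-- For q odd, the form x_0^2 + sum_{i<m} x_i y_i on F^(2m+1) has exactly q^(2m) zeros. -/
theorem result {F : Type*} [Field F] [Fintype F] {q : ℕ} (hF : Fintype.card F = q) (hodd : Odd q) (m : ℕ) : Nat.card {v : Unit ⊕ (Fin m ⊕ Fin m) → F // Cfsg.quadFormOdd m F v = 0} = q ^ (2 * m) := by
  open CA.CForm CA.CForm.Form in
  have h2 : (2 : F) ≠ 0 := two_ne_zero_iff_odd.2 (hF ▸ hodd)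
  open CA.CForm CA.CForm.Form in
  have h := IsIndex.card_singular _ 1 (oddForm_isIndex h2 m) (oddForm_nondeg h2 _)
    (finrank_odd _)
  rw [Nat.card_eq_fintype_card (α := F), hF] at h
  have hq : 0 < q := hF ▸ Fintype.card_pos
  apply Nat.eq_of_mul_eq_mul_left hq
  rw [CA.CForm.oddForm_Q] at h
  zify at h ⊢
  linear_combination h

end Cfsg.Agent.S0291
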