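import Cfsg.Statements.S0307
import Cfsg.Agent.Lib.Lin.SLnCard

set_option autoImplicit false
open Cfsg

namespace Cfsg.Agent.S0307

/-- PSL_n(q) is normal in PGL_n(q) with cyclic quotient of order gcd(n, q-1): the image of the natural map PSL_n → PGL_n is the kernel of a surjective homomorphism onto the cyclic group of that order. -/
theorem result {F : Type*} [Field F] [Fintype F] {q : ℕ} (hF : Fintype.card F = q) (n : ℕ) (hn : 1 ≤ n) : ∃ g : Matrix.ProjGenLinGroup (Fin n) F →* Multiplicative (ZMod (Nat.gcd n (q - 1))), Function.Surjective g ∧ g.ker = (Matrix.ProjectiveSpecialLinearGroup.toPGL : Matrix.ProjectiveSpecialLinearGroup (Fin n) F →* Matrix.ProjGenLinGroup (Fin n) F).range := by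
  open Matrix in
  subst hF
  have : Nonempty (Fin n) := ⟨⟨0, hn⟩⟩
  let H := (powMonoidHom n : Fˣ →* Fˣ).range
  have hc : Nat.card (Fˣ ⧸ H) = Nat.gcd n (Fintype.card F - 1) := by
    rw [← Subgroup.index_eq_card, IsCyclic.index_powMonoidHom_range, Nat.card_units,
      Nat.card_eq_fintype_card, Nat.gcd_comm]
  have hcyc : IsCyclic (Fˣ ⧸ H) := isCyclic_of_surjective _ (QuotientGroup.mk'_surjective H)
  let e : Multiplicative (ZMod (Nat.gcd n (Fintype.card F - 1))) ≃* Fˣ ⧸ H :=
    hc ▸ zmodCyclicMulEquiv hcyc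
  let f : ProjGenLinGroup (Fin n) F →* Fˣ ⧸ H :=
    ProjGenLinGroup.lift ((QuotientGroup.mk' H).comp GeneralLinearGroup.det) (by
      ext1 u
      simp only [MonoidHom.comp_apply, QuotientGroup.mk'_apply, MonoidHom.one_apply,
        QuotientGroup.eq_one_iff]
      exact ⟨u, by ext; simp⟩)
  have hf : ∀ g : GL (Fin n) F, f (ProjGenLinGroup.mk g) = (GeneralLinearGroup.det g : Fˣ) :=
    fun g => rfl
  refine ⟨e.symm.toMonoidHom.comp f, e.symm.surjective.comp fun x => ?_, ?_⟩
  · obtain ⟨u, rfl⟩ := QuotientGroup.mk_surjective x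
    obtain ⟨g, rfl⟩ := GeneralLinearGroup.det_surjective (n := Fin n) u
    exact ⟨_, hf g⟩
  · ext g
    induction g using ProjGenLinGroup.induction_on with | mk g =>
    rw [MonoidHom.mem_ker, MonoidHom.comp_apply, MulEquiv.coe_toMonoidHom,
      map_eq_one_iff _ e.symm.injective, hf, QuotientGroup.eq_one_iff,
      CA.SLnCard.toPGL_range_eq]
    constructor
    · rintro ⟨r, hr⟩
      have : g * GeneralLinearGroup.scalar (Fin n) r⁻¹ ∈
          (GeneralLinearGroup.det : GL (Fin n) F →* Fˣ).ker := by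
        rw [MonoidHom.mem_ker, map_mul, ← hr]
        ext; simp
      rw [← CA.SLnCard.toGL_range] at this
      obtain ⟨s, hs⟩ := this
      exact ⟨s, by simp [hs]⟩
    · rintro ⟨s, hs⟩
      obtain ⟨u, hu⟩ := ProjGenLinGroup.mk_eq_mk_iff.1 hs
      refine ⟨u, ?_⟩
      rw [← hu]
      ext; simp

end Cfsg.Agent.S0307
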