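import Cfsg.Statements.S0308
import Cfsg.Agent.Lib.Lie.BNParab

set_option autoImplicit false
open Cfsg

namespace Cfsg.Agent.S0308

/-- Bruhat decomposition, existence part: every element of a group with a (B,N)-pair lies in some double
coset `B n B` with `n ∈ N`. -/
theorem result {G : Type*} [Group G] (P : Cfsg.BNPair G) (g : G) :
    ∃ n ∈ P.N, g ∈ DoubleCoset.doubleCoset n (P.B : Set G) P.B := by
  obtain ⟨w, hw⟩ := CA.BNBasic.exists_inCell P g
  obtain ⟨n, rfl⟩ := CA.BNBasic.mkW_surj w
  exact ⟨n, n.2, CA.BNBasic.inCell_iff_mem_doubleCoset.mp hw⟩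

end Cfsg.Agent.S0308
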