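import Cfsg.Statements.S0316
import Cfsg.Agent.Lib.Lie.BNParab

set_option autoImplicit false
open Cfsg

namespace Cfsg.Agent.S0316

/-- The map `J ↦ P_J` is a lattice isomorphism from the power set of the set of distinguished generators onto the
subgroups containing `B`. -/
theorem result {G : Type*} [Group G] (P : Cfsg.BNPair G) :
    ∃ e : Set P.S ≃o {M : Subgroup G // P.B ≤ M},
      ∀ J : Set P.S, ((e J : {M : Subgroup G // P.B ≤ M}) : Subgroup G) = P.parabolic (Subtype.val '' J) := by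
  have hsub : ∀ J : Set P.S, Subtype.val '' J ⊆ P.S := by
    rintro J _ ⟨s, -, rfl⟩
    exact s.2
  let f : Set P.S → {M : Subgroup G // P.B ≤ M} := fun J =>
    ⟨P.parabolic (Subtype.val '' J), CA.BNParab.B_le_parabolic _⟩
  have hle : ∀ J K : Set P.S, f J ≤ f K ↔ J ≤ K := by
    intro J K
    show P.parabolic _ ≤ P.parabolic _ ↔ J ⊆ K
    rw [CA.BNParab.parabolic_le_iff (hsub J) (hsub K), Set.image_subset_image_iff Subtype.val_injective]
  have hsurj : Function.Surjective f := by
    rintro ⟨M, hM⟩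
    refine ⟨{s | (s : G) ∈ M}, Subtype.ext ?_⟩
    show P.parabolic _ = M
    rw [CA.BNParab.eq_parabolic_of_le hM]
    congr 1
    ext x
    constructor
    · rintro ⟨s, hs, rfl⟩
      exact ⟨s.2, by rw [CA.BNParab.eq_parabolic_of_le hM]; exact hs⟩
    · rintro ⟨h1, h2⟩
      exact ⟨⟨x, h1⟩, by rw [Set.mem_setOf_eq, ← CA.BNParab.eq_parabolic_of_le hM]; exact h2, rfl⟩
  exact ⟨RelIso.ofSurjective (OrderEmbedding.ofMapLEIff f hle) hsurj, fun J => rfl⟩

end Cfsg.Agent.S0316
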