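import Cfsg.Statements.S0318
import Cfsg.Agent.Lib.Lie.BNParab

set_option autoImplicit false
open Cfsg

namespace Cfsg.Agent.S0318

/-- For `n ∈ N`, the subgroup generated by `B` and `n` coincides with the subgroup generated by `B` and the
conjugate `n B n⁻¹`. -/
theorem result {G : Type*} [Group G] (P : Cfsg.BNPair G) {n : G}
    (hn : n ∈ P.N) :
    P.B ⊔ Subgroup.closure {n} = P.B ⊔ P.B.map (MulAut.conj n).toMonoidHom := by
  refine le_antisymm (sup_le le_sup_left ?_) (sup_le le_sup_left ?_)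
  · rw [Subgroup.closure_le, Set.singleton_subset_iff]
    exact CA.BNBasic.mem_of_conj_le le_sup_left fun b hb =>
      (le_sup_right : _ ≤ P.B ⊔ P.B.map (MulAut.conj n).toMonoidHom) ⟨b, hb, rfl⟩
  · rintro _ ⟨b, hb, rfl⟩
    have h1 : n ∈ P.B ⊔ Subgroup.closure {n} :=
      (le_sup_right : _ ≤ P.B ⊔ Subgroup.closure {n}) (Subgroup.subset_closure rfl)
    exact Subgroup.mul_mem _ (Subgroup.mul_mem _ h1 ((le_sup_left : _ ≤ P.B ⊔ Subgroup.closure {n}) hb))
      (Subgroup.inv_mem _ h1)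

end Cfsg.Agent.S0318
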