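import Cfsg.Statements.S0321
import Cfsg.Agent.Lib.Lie.BNParab

set_option autoImplicit false
open Cfsg

namespace Cfsg.Agent.S0321

/-- For `n ∈ N` not in `B`, the union `B ∪ B n B` is (the underlying set of) a subgroup exactly when `n` agrees
modulo `B ⊓ N` with one of the distinguished representatives; thus the distinguished involutions are
determined by `B` and `N`. -/
theorem result {G : Type*} [Group G] (P : Cfsg.BNPair G) {n : G}
    (hn : n ∈ P.N) (hnB : n ∉ P.B) :
    (∃ H : Subgroup G, (H : Set G) = (P.B : Set G) ∪ DoubleCoset.doubleCoset n (P.B : Set G) P.B) ↔ ∃ s ∈ P.S, s⁻¹ * n ∈ P.B := by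
  constructor
  · rintro ⟨H, hH⟩
    have hB : P.B ≤ H := fun b hb => by
      show b ∈ (H : Set G)
      rw [hH]; exact Or.inl hb
    have hnH : n ∈ H := by
      show n ∈ (H : Set G)
      rw [hH]; exact Or.inr (DoubleCoset.mem_doubleCoset_self _ _ _)
    obtain ⟨l, hl, e⟩ := (CA.BNBasic.invGen P).exists_red (CA.BNBasic.mkW P ⟨n, hn⟩)
    have h1 := CA.BNBasic.inCell_mk (P := P) ⟨n, hn⟩
    cases l with
    | nil => exact absurd (CA.BNBasic.mkW_eq_one_iff.mp e.symm) hnB
    | cons s l =>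
      have h2 : (s : G) ∈ (H : Set G) :=
        CA.BNBasic.mem_of_red_of_mem hB hl (e ▸ h1) hnH s List.mem_cons_self
      rw [hH] at h2
      rcases h2 with h2 | h2
      · exact absurd h2 (CA.BNBasic.not_mem_B P s.2)
      · have h3 := (CA.BNBasic.inCell_sr s).unique
          ((CA.BNBasic.inCell_iff_mem_doubleCoset (n := ⟨n, hn⟩)).mpr h2)
        exact ⟨s, s.2, CA.BNBasic.mkW_eq_iff.mp h3⟩
  · rintro ⟨s, hs, h⟩
    have e : CA.BNBasic.sr P ⟨s, hs⟩ = CA.BNBasic.mkW P ⟨n, hn⟩ := CA.BNBasic.mkW_eq_iff.mpr h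
    refine ⟨P.parabolic {s}, ?_⟩
    ext g
    rw [SetLike.mem_coe, CA.BNParab.mem_parabolic_iff_word (Set.singleton_subset_iff.mpr hs), Set.mem_union,
      ← CA.BNBasic.inCell_iff_mem_doubleCoset (P := P) (n := ⟨n, hn⟩), ← e, SetLike.mem_coe,
      ← CA.BNBasic.inCell_one_iff]
    constructor
    · rintro ⟨l, hl, hg⟩
      have key : CA.WordLen.wp (CA.BNBasic.sr P) l = 1 ∨
          CA.WordLen.wp (CA.BNBasic.sr P) l = CA.BNBasic.sr P ⟨s, hs⟩ := by
        clear hg
        induction l with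
        | nil => exact Or.inl rfl
        | cons t l ih =>
          have ht : t = ⟨s, hs⟩ := Subtype.ext (hl t List.mem_cons_self)
          rw [CA.WordLen.wp_cons, ht]
          rcases ih (fun u hu => hl u (List.mem_cons_of_mem _ hu)) with h | h
          · right; rw [h, mul_one]
          · left; rw [h, CA.BNBasic.sr_sq]
      rcases key with h | h
      · exact Or.inl (h ▸ hg)
      · exact Or.inr (h ▸ hg)
    · rintro (hg | hg)
      · exact ⟨[], by simp, hg⟩
      · exact ⟨[⟨s, hs⟩], by simp, by simpa using hg⟩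

end Cfsg.Agent.S0321
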