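import Cfsg.Statements.S0322
import Cfsg.Agent.Lib.Lie.BNParab

set_option autoImplicit false
open Cfsg

namespace Cfsg.Agent.S0322

/-- A group with a (B,N)-pair of rank one acts doubly transitively on the left cosets of `B`. -/
theorem result {G : Type*} [Group G] (P : Cfsg.BNPair G) (h : P.rank = 1) : MulAction.IsMultiplyPretransitive G (G ⧸ P.B) 2 := by
  obtain ⟨s, hs⟩ : ∃ s : P.S, ∀ t : P.S, t = s := by
    obtain ⟨h1, ⟨s⟩⟩ := Nat.card_eq_one_iff_unique.mp h
    exact ⟨s, fun t => Subsingleton.elim _ _⟩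
  have hW : ∀ w : CA.BNBasic.W P, w = 1 ∨ w = CA.BNBasic.sr P s := by
    intro w
    obtain ⟨l, rfl⟩ := (CA.BNBasic.invGen P).gen w
    induction l with
    | nil => exact Or.inl rfl
    | cons t l ih =>
      rw [CA.WordLen.wp_cons, hs t]
      rcases ih with h | h
      · right; rw [h, mul_one]
      · left; rw [h, CA.BNBasic.sr_sq]
  have key : ∀ x y : G ⧸ P.B, x ≠ y → ∃ g : G, g • ((1 : G) : G ⧸ P.B) = x ∧ g • ((s : G) : G ⧸ P.B) = y := by
    intro x y hxy
    obtain ⟨g1, rfl⟩ := QuotientGroup.mk_surjective x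
    obtain ⟨g2, rfl⟩ := QuotientGroup.mk_surjective y
    obtain ⟨w, hw⟩ := CA.BNBasic.exists_inCell P (g1⁻¹ * g2)
    rcases hW w with rfl | rfl
    · exact absurd (QuotientGroup.eq.mpr (CA.BNBasic.inCell_one_iff.mp hw)) hxy
    · obtain ⟨b, hb, b', hb', e⟩ := hw.exists_eq
      refine ⟨g1 * b, ?_, ?_⟩
      · rw [MulAction.Quotient.smul_mk, QuotientGroup.eq]
        simpa using hb
      · rw [MulAction.Quotient.smul_mk, QuotientGroup.eq]
        have : g2 = g1 * (b * s * b') := by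
          have e' : g1⁻¹ * g2 = b * s * b' := e
          rw [← e']; group
        rw [this]
        simpa [mul_assoc] using hb'
  rw [MulAction.is_two_pretransitive_iff]
  intro a b c d hab hcd
  obtain ⟨g, h1, h2⟩ := key a b hab
  obtain ⟨g', h1', h2'⟩ := key c d hcd
  refine ⟨g' * g⁻¹, ?_, ?_⟩
  · rw [mul_smul, ← h1, inv_smul_smul, h1']
  · rw [mul_smul, ← h2, inv_smul_smul, h2']

end Cfsg.Agent.S0322
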