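import Cfsg.Statements.S0323

set_option autoImplicit false
open scoped Pointwise
open Cfsg

namespace Cfsg.Agent.S0323

/-- A doubly transitive action on a set with at least three points yields a (B,N)-pair of rank one:
`B` is the stabiliser of a point `x`, `N` the setwise stabiliser of a pair `{x, y}`. -/
theorem result {G Ω : Type*} [Group G] [MulAction G Ω]
    (h2 : MulAction.IsMultiplyPretransitive G Ω 2) {x y z : Ω} (hxy : x ≠ y) (hyz : y ≠ z) (hxz : x ≠ z) :
    ∃ P : Cfsg.BNPair G, P.B = MulAction.stabilizer G x ∧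
      P.N = MulAction.stabilizer G ({x, y} : Set Ω) ∧ P.rank = 1 := by
  rw [MulAction.is_two_pretransitive_iff] at h2
  obtain ⟨s, hsx, hsy⟩ := h2 hxy hxy.symm
  have hN : ∀ n : G, n ∈ MulAction.stabilizer G ({x, y} : Set Ω) ↔
      (n • x = x ∧ n • y = y) ∨ (n • x = y ∧ n • y = x) := by
    intro n
    rw [MulAction.mem_stabilizer_iff, Set.smul_set_insert, Set.smul_set_singleton, Set.pair_eq_pair_iff]
  have hsN : s ∈ MulAction.stabilizer G ({x, y} : Set Ω) := (hN s).mpr (Or.inr ⟨hsx, hsy⟩)
  have hcell : ∀ g n : G, n • x = y → g • x ≠ x →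
      g ∈ DoubleCoset.doubleCoset n (MulAction.stabilizer G x : Set G) (MulAction.stabilizer G x) := by
    intro g n hn hg
    obtain ⟨b, hb1, hb2⟩ := h2 hxy hg.symm
    refine DoubleCoset.mem_doubleCoset.mpr ⟨b, hb1, n⁻¹ * b⁻¹ * g, ?_, by group⟩
    show (n⁻¹ * b⁻¹ * g) • x = x
    rw [mul_smul, mul_smul, ← hb2, inv_smul_smul, ← hn, inv_smul_smul]
  have hcell1 : ∀ g n : G, n • x = x → g • x = x →
      g ∈ DoubleCoset.doubleCoset n (MulAction.stabilizer G x : Set G) (MulAction.stabilizer G x) := by
    intro g n hn hg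
    refine DoubleCoset.mem_doubleCoset.mpr ⟨1, Subgroup.one_mem _, n⁻¹ * g, ?_, by group⟩
    show (n⁻¹ * g) • x = x
    rw [mul_smul, hg, inv_smul_eq_iff, hn]
  refine ⟨{ B := MulAction.stabilizer G x
            N := MulAction.stabilizer G ({x, y} : Set Ω)
            S := {s}
            sup_eq_top := ?_
            conj_mem := ?_
            subset := Set.singleton_subset_iff.mpr hsN
            sq_mem := ?_
            inj := ?_
            closure_sup := ?_
            mul_mem_union := ?_
            conj_ne := ?_ }, rfl, rfl, ?_⟩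
  · rw [eq_top_iff]
    intro g _
    by_cases hg : g • x = x
    · exact Subgroup.mem_sup_left hg
    · obtain ⟨b, hb, b', hb', rfl⟩ := DoubleCoset.mem_doubleCoset.mp (hcell g s hsx hg)
      exact Subgroup.mul_mem _ (Subgroup.mul_mem _ (Subgroup.mem_sup_left hb) (Subgroup.mem_sup_right hsN))
        (Subgroup.mem_sup_left hb')
  · rintro n hn t ⟨ht1, ht2⟩
    have ht1' : t • x = x := ht1
    have hty : t • y = y := by
      rcases (hN t).mp ht2 with h | h
      · exact h.2
      · exact absurd (ht1'.symm.trans h.1) hxy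
    show (n * t * n⁻¹) • x = x
    rcases (hN n).mp hn with h | h
    · rw [mul_smul, mul_smul, inv_smul_eq_iff.mpr h.1.symm, ht1', h.1]
    · rw [mul_smul, mul_smul, inv_smul_eq_iff.mpr h.2.symm, hty, h.2]
  · rintro _ rfl
    show (_ * _) • x = x
    rw [mul_smul, hsx, hsy]
  · rintro _ rfl _ rfl _
    rfl
  · refine le_antisymm (sup_le ((Subgroup.closure_le _).mpr (Set.singleton_subset_iff.mpr hsN)) inf_le_right) ?_
    intro n hn
    rcases (hN n).mp hn with h | h
    · exact Subgroup.mem_sup_right ⟨h.1, hn⟩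
    · have : n = s * (s⁻¹ * n) := by group
      rw [this]
      refine Subgroup.mul_mem _ (Subgroup.mem_sup_left (Subgroup.subset_closure rfl))
        (Subgroup.mem_sup_right ⟨?_, Subgroup.mul_mem _ (Subgroup.inv_mem _ hsN) hn⟩)
      show (s⁻¹ * n) • x = x
      rw [mul_smul, h.1, ← hsx, inv_smul_smul]
  · rintro s' rfl n hn b hb
    have hb' : b • x = x := hb
    rcases (hN n).mp hn with h | h
    · left
      refine hcell _ _ (by rw [mul_smul, h.1, hsx]) ?_
      rw [mul_smul, mul_smul, h.1, hb', hsx]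
      exact hxy.symm
    · by_cases hg : (s' * b * n) • x = x
      · left
        exact hcell1 _ _ (by rw [mul_smul, h.1, hsy]) hg
      · right
        exact hcell _ _ h.1 hg
  · rintro s' rfl h
    obtain ⟨b, hb1, hb2⟩ := h2 hxy hxz
    have : s' * b * s' ∈ (MulAction.stabilizer G x : Set G) := by
      rw [← h]; exact ⟨b, hb1, rfl⟩
    have h3 : (s' * b * s') • x = x := this
    rw [mul_smul, mul_smul, hsx, hb2] at h3
    exact hyz (MulAction.injective s' (hsy.trans h3.symm))
  · show Nat.card ({s} : Set G) = 1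
    simp

end Cfsg.Agent.S0323
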