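import Cfsg.Statements.S0326

set_option autoImplicit false
open Cfsg

namespace Cfsg.Agent.S0326

/-- The Suzuki–Tits ovoid over a finite field with `q` elements has `q² + 1` points. -/
theorem result {F : Type*} [Field F] [Fintype F] (m : ℕ) :
    Nat.card (Cfsg.suzukiOvoid F m) = Fintype.card F ^ 2 + 1 := by
  have hne : ∀ (x y z : F), (![z, y, x, 1] : Fin 4 → F) ≠ 0 := fun x y z h => by simpa using congrFun h 3
  let φ : Option (F × F) → Cfsg.suzukiOvoid F m := fun o => match o with
    | none => ⟨Projectivization.mk F ![1, 0, 0, 0] (by simp), _, _, rfl, Or.inl rfl⟩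
    | some p => ⟨Projectivization.mk F _ (hne p.1 p.2 _), _, _, rfl, Or.inr ⟨p.1, p.2, rfl⟩⟩
  have hφ : Function.Bijective φ := by
    constructor
    · rintro (_ | ⟨x, y⟩) (_ | ⟨x', y'⟩) h
      · rfl
      · obtain ⟨c, hc⟩ := (Projectivization.mk_eq_mk_iff' _ _ _ _ _).1 (congrArg Subtype.val h)
        have h3 := congrFun hc 3
        have h0 := congrFun hc 0
        simp at h3 h0
        simp [h3] at h0
      · obtain ⟨c, hc⟩ := (Projectivization.mk_eq_mk_iff' _ _ _ _ _).1 (congrArg Subtype.val h)
        have h3 := congrFun hc 3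
        simp at h3
      · obtain ⟨c, hc⟩ := (Projectivization.mk_eq_mk_iff' _ _ _ _ _).1 (congrArg Subtype.val h)
        have h3 := congrFun hc 3
        have h1 := congrFun hc 1
        have h2 := congrFun hc 2
        simp at h3 h1 h2
        simp [h3] at h1 h2
        rw [h1, h2]
    · rintro ⟨p, v, hv, rfl, rfl | ⟨x, y, rfl⟩⟩
      · exact ⟨none, rfl⟩
      · exact ⟨some (x, y), rfl⟩
  rw [← Nat.card_eq_of_bijective φ hφ]
  simp [pow_two]

end Cfsg.Agent.S0326
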