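import Cfsg.Statements.S0330
import Cfsg.Agent.Lib.Lie.SzGroup

set_option autoImplicit false
open Cfsg

namespace Cfsg.Agent.S0330

/-- A Sylow 2-subgroup `P` of the Suzuki group (field with `q = 2^(2m+1)` elements, `m ≥ 1`) has order `q²` and
exponent `4`; its centre coincides with its commutator subgroup and has order `q`. -/
theorem result {F : Type*} [Field F] [Fintype F] {m : ℕ} (hm : 1 ≤ m)
    (hF : Fintype.card F = 2 ^ (2 * m + 1)) (P : Sylow 2 (Cfsg.Sz F m)) :
    Nat.card P = (2 ^ (2 * m + 1)) ^ 2 ∧ Monoid.exponent P = 4 ∧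
      Subgroup.center P = commutator P ∧ Nat.card (Subgroup.center P) = 2 ^ (2 * m + 1) := by
  have : CA.SzBasic.Hyp F m := ⟨hm, hF⟩
  open CA.SzGroup in
  let e : P ≃* U F := P.equiv sylU
  refine ⟨?_, ?_, ?_, ?_⟩
  · rw [Nat.card_congr e.toEquiv, card_U]
  · rw [Monoid.exponent_eq_of_mulEquiv e, exponent_U]
  · apply Subgroup.map_injective (f := (e : P →* U F)) e.injective
    rw [map_commutator_eq, MonoidHom.range_eq_top_of_surjective _ e.surjective, ← commutator_def, commutator_U]
    ext x
    obtain ⟨x, rfl⟩ := e.surjective x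
    refine (Subgroup.mem_map_iff_mem (f := (e : P →* U F)) e.injective).trans ?_
    rw [Subgroup.mem_center_iff, Subgroup.mem_center_iff]
    refine ⟨fun h g => ?_, fun h g => e.injective (by rw [map_mul, map_mul, h])⟩
    obtain ⟨g, rfl⟩ := e.surjective g
    rw [← map_mul, h, map_mul]
  · rw [Nat.card_congr (Subgroup.centerCongr e).toEquiv, card_center_U]

end Cfsg.Agent.S0330
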