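import Cfsg.Statements.S0333
import Cfsg.Agent.Lib.Lie.SzSub

set_option autoImplicit false
open Cfsg

namespace Cfsg.Agent.S0333

/-- With `q = 2^(2m+1)` and `r = 2^m`, the Suzuki group has cyclic subgroups of orders `q + 2r + 1` and
`q - 2r + 1`; each is the centraliser of each of its non-identity elements and has index `4` in its normaliser. -/
theorem result {F : Type*} [Field F] [Fintype F] {m : ℕ} (hm : 1 ≤ m)
    (hF : Fintype.card F = 2 ^ (2 * m + 1)) :
    ∀ k ∈ ({2 ^ (2 * m + 1) + 2 ^ (m + 1) + 1, 2 ^ (2 * m + 1) - 2 ^ (m + 1) + 1} : Set ℕ),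
      ∃ U : Subgroup (Cfsg.Sz F m), IsCyclic U ∧ Nat.card U = k ∧
        (∀ u ∈ U, u ≠ 1 → Subgroup.centralizer {u} = U) ∧ Nat.card (Subgroup.normalizer (U : Set (Cfsg.Sz F m))) = 4 * k := by
  have : CA.SzBasic.Hyp F m := ⟨hm, hF⟩
  open CA.SzBasic CA.SzGroup CA.SzTori in
  obtain ⟨x, hx, y, hy', e1, e2, e3, e4, -, -⟩ := exists_tori (F := F)
  rintro k (rfl | rfl)
  · exact ⟨_, isCyclic_cent hx, e1, cc_cent hx, by
      rw [← CA.PGBasic.card_mul_relIndex (Subgroup.le_normalizer (H := Subgroup.centralizer {x})), e1, e3, mul_comm]⟩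
  · exact ⟨_, isCyclic_cent hy', e2, cc_cent hy', by
      rw [← CA.PGBasic.card_mul_relIndex (Subgroup.le_normalizer (H := Subgroup.centralizer {y})), e2, e4, mul_comm]⟩

end Cfsg.Agent.S0333
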