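import Cfsg.Statements.S0335
import Cfsg.Agent.Lib.Lie.SzGroup

set_option autoImplicit false
open Cfsg

namespace Cfsg.Agent.S0335

/-- The Suzuki–Tits point set is an ovoid: any three distinct points of it are projectively independent
(no line of projective 3-space meets it in more than two points). -/
theorem result {F : Type*} [Field F] [Fintype F] {m : ℕ} (hm : 1 ≤ m)
    (hF : Fintype.card F = 2 ^ (2 * m + 1)) (p : Fin 3 ↪ Cfsg.suzukiOvoid F m) :
    Projectivization.Independent (fun i => (p i : Projectivization F (Fin 4 → F))) := by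
  have : CA.SzBasic.Hyp F m := ⟨hm, hF⟩
  open CA.SzGroup CA.SzBasic Matrix in
  obtain ⟨g, e0, e1⟩ := (split (F := F)).two' (pt_ne_inf (F := F) 0 0).symm (p.injective.ne (show (0 : Fin 3) ≠ 1 by decide))
  obtain ⟨x, y, e2⟩ := (cases_pt (g⁻¹ • (p 2 : Ov F))).resolve_left (fun e => by
    rw [inv_smul_eq_iff, e0] at e
    exact absurd (p.injective e) (by decide))
  have hxy : ¬ (x = 0 ∧ y = 0) := by
    rintro ⟨rfl, rfl⟩
    rw [inv_smul_eq_iff, e1] at e2
    exact absurd (p.injective e2) (by decide)
  rw [inv_smul_eq_iff] at e2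
  let v : Fin 3 → Fin 4 → F := ![![1, 0, 0, 0], ![f 0 0, 0, 0, 1], ![f x y, y, x, 1]]
  have hv : LinearIndependent F v := by
    rw [Fintype.linearIndependent_iff]
    intro c hc
    have h0 := congrFun hc 0
    have h1 := congrFun hc 1
    have h2 := congrFun hc 2
    have h3 := congrFun hc 3
    simp [v, Fin.sum_univ_three] at h0 h1 h2 h3
    have h4 : c 2 = 0 := by tauto
    intro i
    fin_cases i <;> simp_all
  have hinj : LinearMap.ker (Matrix.toLin' (mat g)) = ⊥ :=
    LinearMap.ker_eq_bot.2 (Matrix.SpecialLinearGroup.toLin' (g : Matrix.SpecialLinearGroup (Fin 4) F)).injective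
  have hw := hv.map' _ hinj
  have := Projectivization.Independent.mk _ hw.ne_zero hw
  convert this using 2 with i
  symm
  fin_cases i
  · exact congrArg Subtype.val e0
  · exact congrArg Subtype.val e1
  · exact congrArg Subtype.val e2.symm

end Cfsg.Agent.S0335
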