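import Cfsg.Statements.S0338
import Mathlib
import Cfsg.Agent.Lib.Perm.ZassMain

set_option autoImplicit false
open Cfsg

namespace Cfsg.Agent.S0338

open CA.Zass

/-- A Zassenhaus group of odd degree is a simple group. -/
theorem result {G Ω : Type*} [Group G] [MulAction G Ω] [Fintype Ω]
    (hZ : Cfsg.IsZassenhausGroup G Ω) (hodd : Odd (Fintype.card Ω)) : IsSimpleGroup G := by
  have h := zt_of hZ
  have := h.finite
  have := h.faith
  rw [← Nat.card_eq_fintype_card] at hodd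
  obtain ⟨g, hg, a, b, hab, -⟩ := hZ.2.2.2.1
  have : Nontrivial G := ⟨g, 1, hg⟩
  refine ⟨fun N _ => or_iff_not_imp_left.2 fun hN => ?_⟩
  have hZ' := normal_zass hZ N hN
  obtain ⟨⟨x, hx⟩, hx1⟩ := Subgroup.ne_bot_iff_exists_ne_one.1 (St_ne_bot hZ' hab)
  obtain ⟨U, hU⟩ := h.exists_split hab.symm
  have h1 := h.le_of_normal hU hab.symm N x.2 (fun e => hx1 (Subtype.ext (Subtype.ext e))) hx
  obtain ⟨s, hs, hsa, hsb⟩ := (zt_of hZ').exists_inv_swap hab
  refine CA.SplitOne2.eq_top_of_normal h.two N hN a ?_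
  rw [← ZT.sup_eq hU hab.symm]
  refine sup_le (fun y hy => ?_) h1
  have h2 := h.inverts_of_odd hodd hab (congrArg Subtype.val hs) hsa hsb (inv_mem hy)
  have h3 : y ^ 2 ∈ N := by
    have := mul_mem (‹N.Normal›.conj_mem _ s.2 y) (inv_mem s.2)
    rwa [mul_assoc y, mul_assoc y, h2, inv_inv, ← pow_two] at this
  have h4 : Odd (Nat.card (St G a b)) := by
    have := hU.card_Ω hab.symm
    have h5 : 0 < Nat.card U := Nat.card_pos
    refine Odd.of_dvd_nat ?_ (h.card_dvd hU hab.symm)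
    rw [Nat.odd_iff] at hodd ⊢
    omega
  have h5 := h4.of_dvd_nat (orderOf_dvd_natCard (⟨y, hy⟩ : St G a b))
  rw [← Subgroup.orderOf_coe] at h5
  obtain ⟨k, hk⟩ := h5
  have h6 : y = (y ^ 2) ^ (k + 1) := by
    rw [← pow_mul, show 2 * (k + 1) = (2 * k + 1) + 1 by ring, pow_succ, ← hk, pow_orderOf_eq_one, one_mul]
  rw [h6]; exact pow_mem h3 _

end Cfsg.Agent.S0338
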