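import Cfsg.Statements.S0340
import Cfsg.Agent.Lib.Suz.Cor
import Cfsg.Agent.S0344

set_option autoImplicit false
open Cfsg

namespace Cfsg.Agent.S0340

/-- Classification of Zassenhaus groups, simple case, order-level form: a finite simple Zassenhaus group is
isomorphic to `PSL₂(F)` for some finite field `F` or is simple of Suzuki order. -/
theorem result {G Ω : Type*} [Group G] [Finite G] [MulAction G Ω]
    [Finite Ω] (hZ : Cfsg.IsZassenhausGroup G Ω) [IsSimpleGroup G] :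
    (∃ (F : Type) (_ : Field F) (_ : Fintype F), Nonempty (G ≃* Matrix.ProjectiveSpecialLinearGroup (Fin 2) F)) ∨ Cfsg.IsSuzuki G := by
  have h := CA.Zass.zt_of hZ
  obtain ⟨-, -, a, b, hab, -⟩ := hZ.2.2.2.1
  obtain ⟨U, hU⟩ := h.exists_split hab.symm
  rcases Nat.even_or_odd (Nat.card (CA.Zass.St G a b)) with he | ho
  · obtain ⟨F, _, _, -, e⟩ := Cfsg.Agent.S0344.result hZ hab he
    exact Or.inl ⟨F, inferInstance, inferInstance, e⟩
  rcases CA.Zass.large_or_two hZ hU hab.symm with h1 | ⟨h1, h2⟩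
  · rcases CA.Zass.cases_of_comm hZ hU hab.symm (h.comm_of_large hU hab.symm h1) with h2 | ⟨-, K, _, _, -, e⟩
    · obtain ⟨s, -, hsa, hsb⟩ := h.exists_inv_swap hab
      have h3 := (Subgroup.one_lt_card_iff_ne_bot _).2 (h.U_ne_bot hU hab.symm (CA.Zass.St_ne_bot hZ hab))
      obtain ⟨K, _, _, h4, ⟨e⟩⟩ := h.pgl_of_full hU hab.symm h3 h2.ge hsa hsb
        ((CA.Zass.exists_oddZ hZ hab ho hU).inv s hsa hsb)
      obtain ⟨f⟩ := CA.Zass.psl_equiv_pgl (K := K) (by
        rw [h4, ← Nat.sub_add_cancel h3.le, ← h2]; exact ho.add_one)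
      exact Or.inl ⟨K, inferInstance, inferInstance, ⟨e.trans f⟩⟩
    · exact Or.inl ⟨K, inferInstance, inferInstance, e⟩
  · obtain ⟨-, -, -, -, -, h3⟩ := CA.SuzCor.zass h hU h1 (by
      by_contra! h4
      exact h2 ⟨⟨fun u v => Subtype.ext (h4 u u.2 v v.2)⟩⟩) hab.symm
    exact Or.inr (CA.SuzCor.isSuzuki h3)

end Cfsg.Agent.S0340
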