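import Cfsg.Statements.S0341
import Mathlib
import Cfsg.Agent.Lib.Perm.ZassClass

set_option autoImplicit false
open Cfsg

namespace Cfsg.Agent.S0341

open CA.Zass

/-- If a finite group acts faithfully and doubly transitively, no non-identity element fixes three points, some
non-identity element fixes two points, and some normal subgroup acts regularly, then the number of points
is `2^p` with `p` prime. -/
theorem result {G Ω : Type*} [Group G]
    [MulAction G Ω] [Fintype Ω] [FaithfulSMul G Ω] (h2 : MulAction.IsMultiplyPretransitive G Ω 2)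
    (h3 : ∀ g : G, ∀ a b c : Ω, a ≠ b → b ≠ c → a ≠ c → g • a = a → g • b = b → g • c = c → g = 1)
    (hfix : ∃ g : G, g ≠ 1 ∧ ∃ a b : Ω, a ≠ b ∧ g • a = a ∧ g • b = b)
    (N : Subgroup G) [N.Normal] (hNt : MulAction.IsPretransitive N Ω)
    (hNr : ∀ a : Ω, MulAction.stabilizer N a = ⊥) :
    ∃ p : ℕ, p.Prime ∧ Fintype.card Ω = 2 ^ p := by
  have h : ZT G Ω := ⟨inferInstance, h2, h3⟩
  have := h.finite
  obtain ⟨g, hg, a, b, hab, ha, hb⟩ := hfix
  obtain ⟨U, hU⟩ := h.exists_split hab.symm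
  obtain ⟨p, hp, hd⟩ := Nat.exists_prime_and_dvd (orderOf_eq_one_iff.not.2 hg)
  have := Fact.mk hp
  obtain ⟨x, hx⟩ := exists_prime_orderOf_dvd_card' (G := St G a b) p
    (hd.trans (Subgroup.orderOf_dvd_natCard _ ⟨ha, hb⟩))
  rw [← Subgroup.orderOf_coe] at hx
  refine ⟨p, hp, ?_⟩
  rw [← Nat.card_eq_fintype_card, ← hx, ← Nat.card_zpowers]
  exact h.card_of_regular hU hab.symm N hNt ((CA.PermBasic.subgroup_stabilizer_eq_bot_iff N a).1 (hNr a))
    (Subgroup.zpowers_le.2 x.2) fun e => hp.one_lt.ne' (by rw [← hx, Subgroup.zpowers_eq_bot.1 e, orderOf_one])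

end Cfsg.Agent.S0341
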