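import Cfsg.Statements.S0345
import Mathlib
import Cfsg.Agent.Lib.Perm.ZassFull

set_option autoImplicit false
open Cfsg

namespace Cfsg.Agent.S0345

/-- In a finite simple Zassenhaus group the stabiliser `H` of two points `a ≠ b` is cyclic, and some involution
interchanging `a` and `b` inverts every element of `H`. -/
theorem result {G Ω : Type*} [Group G] [Finite G] [MulAction G Ω] [Finite Ω]
    (hZ : Cfsg.IsZassenhausGroup G Ω) [IsSimpleGroup G]
    {a b : Ω} (hab : a ≠ b) :
    IsCyclic ↥(MulAction.stabilizer G a ⊓ MulAction.stabilizer G b) ∧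
      ∃ v : G, orderOf v = 2 ∧ v • a = b ∧ v • b = a ∧ ∀ h ∈ MulAction.stabilizer G a ⊓ MulAction.stabilizer G b, v * h * v⁻¹ = h⁻¹ := by
  have h := CA.Zass.zt_of hZ
  obtain ⟨U, hU⟩ := h.exists_split hab.symm
  obtain ⟨v, hv, hva, hvb⟩ := h.exists_inv_swap hab
  have k : ∀ x ∈ CA.Zass.St G a b, v * x * v⁻¹ = x⁻¹ := by
    rcases Nat.even_or_odd (Nat.card (CA.Zass.St G a b)) with he | ho
    · exact (h.psl_of_even hU hab.symm he (h.lt_of_simple hU hab.symm he)).1 v hva hvb
    · exact (CA.Zass.exists_oddZ hZ hab ho hU).inv v hva hvb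
  exact ⟨h.isCyclic_of_comm hU hab.symm le_rfl fun x hx y hy => CA.Zass.comm_of_inverts k hx hy,
    v, CA.Zass.orderOf_two hv fun e => hab (by rw [← hva, e, one_smul]), hva, hvb, k⟩

end Cfsg.Agent.S0345
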