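import Cfsg.Statements.S0346
import Cfsg.Agent.Lib.Suz.Zas
import Cfsg.Agent.Lib.Perm.ZassBasic

set_option autoImplicit false
open Cfsg

namespace Cfsg.Agent.S0346

/-- The number of points of a finite simple Zassenhaus group is `p^k + 1` for some prime power `p^k` (the regular normal
subgroup of a point stabiliser is a `p`-group). -/
theorem result {G Ω : Type*} [Group G] [Finite G] [MulAction G Ω] [Fintype Ω]
    (hZ : Cfsg.IsZassenhausGroup G Ω) [IsSimpleGroup G] :
    IsPrimePow (Fintype.card Ω - 1) := by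
  classical
  letI := Fintype.ofFinite G
  have h := CA.Zass.zt_of hZ
  obtain ⟨-, -, a, b, hab, -⟩ := hZ.2.2.2.1
  obtain ⟨U, hU⟩ := h.exists_split hab.symm
  obtain ⟨s, h1, h2⟩ := h.exists_swap hab
  have hH := CA.Zass.St_ne_bot hZ hab
  obtain ⟨p, hp, hP⟩ := (CA.PF.splitD_of_split hU hab.symm h1 h2).exists_prime
    (h.nilpotent hU hab.symm hH) (h.semireg hU hab.symm) hH (hU.index_U hab.symm)
  obtain ⟨k, hk⟩ := hP.exists_card hp
  have hc := (Subgroup.one_lt_card_iff_ne_bot _).2 (h.U_ne_bot hU hab.symm hH)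
  rw [← Nat.card_eq_fintype_card, hU.card_Ω hab.symm, Nat.add_sub_cancel]
  refine ⟨p, k, hp.prime, Nat.pos_of_ne_zero ?_, hk.symm⟩
  rintro rfl
  rw [pow_zero] at hk
  omega

end Cfsg.Agent.S0346
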