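import Cfsg.Statements.S0351
import Cfsg.Agent.Lib.Spor.Steiner

set_option autoImplicit false
open Cfsg

namespace Cfsg.Agent.S0351

open Cfsg CA.Steiner Finset

/-- Derived design: removing a point p from the blocks through p of an S(t+1, k+1, v) yields an S(t, k, v-1) on the points other than p. -/
theorem result {α : Type*} [Fintype α] [DecidableEq α] {t k : ℕ} {B : Set (Finset α)} (hB : Cfsg.IsSteinerSystem (t + 1) (k + 1) B) (p : α) : Cfsg.IsSteinerSystem t k {b' : Finset {a : α // a ≠ p} | ∃ b ∈ B, p ∈ b ∧ b' = Finset.subtype (fun a => a ≠ p) b} := by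
  have cs : ∀ b : Finset α, p ∈ b → (Finset.subtype (fun a => a ≠ p) b).card + 1 = b.card := fun b hp => by
    rw [card_subtype, filter_ne', card_erase_add_one hp]
  refine ⟨?_, fun s hs => ?_⟩
  · rintro _ ⟨b, hb, hp, rfl⟩
    have := cs b hp; have := hB.1 b hb; omega
  · have hp : p ∉ s.map (Function.Embedding.subtype _) := by simp
    obtain ⟨b, ⟨hb, hsb⟩, hu⟩ := hB.2 (insert p (s.map (Function.Embedding.subtype _)))
      (by rw [card_insert_of_notMem hp, card_map, hs])
    refine ⟨_, ⟨⟨b, hb, hsb (mem_insert_self _ _), rfl⟩, fun x hx => mem_subtype.2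
      (hsb (mem_insert_of_mem (mem_map_of_mem _ hx)))⟩, ?_⟩
    rintro _ ⟨⟨c, hc, hpc, rfl⟩, hsc⟩
    rw [hu c ⟨hc, insert_subset hpc fun x hx => ?_⟩]
    obtain ⟨y, hy, rfl⟩ := mem_map.1 hx
    exact mem_subtype.1 (hsc hy)

end Cfsg.Agent.S0351
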