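import Cfsg.Statements.S0353
import Cfsg.Agent.Lib.Spor.StModel

set_option autoImplicit false
open Cfsg

namespace Cfsg.Agent.S0353

open Cfsg CA.NatBits CA.Golay CA.M24Core CA.M24Sub CA.M24St2 CA.StSearch CA.StModel CA.CGCert Finset MulAction
open scoped Pointwise

/-- In an S(5, 8, 24), the symmetric difference of two blocks meeting in four points is a block. -/
theorem result {α : Type*} [Fintype α] [DecidableEq α] (hα : Fintype.card α = 24) {B : Set (Finset α)} (hB : Cfsg.IsSteinerSystem 5 8 B) {b c : Finset α} (hb : b ∈ B) (hc : c ∈ B) (h4 : (b ∩ c).card = 4) : symmDiff b c ∈ B := by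
  obtain ⟨e, h⟩ := mod24 hα hB
  have h1 := (h.mem b).1 hb
  have h2 := (h.mem c).1 hc
  have e1 : (symmDiff b c).map e = symmDiff (b.map e) (c.map e) := by
    simp only [map_eq_image]; exact image_symmDiff _ _ e.injective
  have h3 := card_symmDiff b c
  rw [hB.1 b hb, hB.1 c hc, h4] at h3
  rw [h.mem]
  exact ⟨e1 ▸ symmDiff_mem_Cw h1.1 h2.1, by rw [card_map]; omega⟩

end Cfsg.Agent.S0353
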