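import Cfsg.Statements.S0358
import Cfsg.Agent.Lib.Spor.Golay

set_option autoImplicit false
open Cfsg

namespace Cfsg.Agent.S0358

open CA.Golay CA.NatBits

/-- The length-24 code built from the squares modulo 23 has dimension 12 over the field with two elements. -/
theorem result : Module.finrank (ZMod 2) Cfsg.golayCode = 12 := by
  have h1 : Nat.card Cfsg.golayCode = 4096 := by
    rw [← ncard_Cw_eq, Cw, supports, Set.ncard_image_of_injective _ (fun _ _ h => support_inj h)]
    rfl
  rw [Module.natCard_eq_pow_finrank (K := ZMod 2), Nat.card_zmod] at h1
  exact Nat.pow_right_injective (le_refl 2) (h1.trans (by norm_num))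

end Cfsg.Agent.S0358
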