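import Cfsg.Statements.S0362
import Cfsg.Agent.Lib.Spor.Golay

set_option autoImplicit false
open Cfsg

namespace Cfsg.Agent.S0362

open CA.Golay CA.NatBits

/-- The length-24 code is self-orthogonal: the dot product over ZMod 2 of any two of its words vanishes (with dimension 12 this makes it self-dual). -/
theorem result (v w : Cfsg.GolayPt → ZMod 2) (hv : v ∈ Cfsg.golayCode) (hw : w ∈ Cfsg.golayCode) : ∑ i, v i * w i = 0 := by
  have h := even_inter (support_mem_Cw.2 hv) (support_mem_Cw.2 hw)
  have h2 : ∑ i, v i * w i = ((support₂ v ∩ support₂ w).card : ZMod 2) := by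
    rw [Finset.card_eq_sum_ones, Nat.cast_sum, ← Finset.sum_subset (Finset.subset_univ (support₂ v ∩ support₂ w))]
    · refine Finset.sum_congr rfl fun i hi => ?_
      rw [Finset.mem_inter, mem_support', mem_support'] at hi
      simp [hi.1, hi.2]
    · intro i _ hi
      rw [Finset.mem_inter, mem_support, mem_support] at hi
      by_contra h0
      exact hi ⟨left_ne_zero_of_mul h0, right_ne_zero_of_mul h0⟩
  rw [h2]
  exact (ZMod.natCast_eq_zero_iff_even).2 h

end Cfsg.Agent.S0362
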