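import Cfsg.Statements.S0371
import Cfsg.Agent.Lib.Spor.M24Core

set_option autoImplicit false
open Cfsg

namespace Cfsg.Agent.S0371

open Cfsg CA.NatBits CA.Golay CA.M24Core CA.CGCert CA.Perm24

/-- Multiplication by a nonzero square residue modulo 23, fixing the extra point, lies in the group of the length-24 code. -/
theorem result (u : (ZMod 23)ˣ) (hu : IsSquare u) : Equiv.optionCongr (Units.mulLeft u) ∈ Cfsg.M24 := by
  have h2 : Equiv.optionCongr (Units.mulLeft (ZMod.unitOfCoprime 2 (by norm_num : Nat.Coprime 2 23))) ∈ M24 :=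
    mem_M24_of_rep (c := 565976893111451123696566449653690447839358251609054511616)
      (Enc.rep_of (by decide +kernel) (by decide +kernel)) (by decide +kernel)
  have h3 : ∀ r : (ZMod 23)ˣ, ∃ k : Fin 11, Equiv.optionCongr (Units.mulLeft (r * r)) =
      Equiv.optionCongr (Units.mulLeft (ZMod.unitOfCoprime 2 (by norm_num : Nat.Coprime 2 23))) ^ (k : ℕ) := by
    decide +kernel
  obtain ⟨r, rfl⟩ := hu
  obtain ⟨k, hk⟩ := h3 r
  rw [hk]; exact pow_mem h2 _

end Cfsg.Agent.S0371
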