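import Cfsg.Statements.S0376
import Cfsg.Agent.Lib.Spor.M24Sub

set_option autoImplicit false
open Cfsg

namespace Cfsg.Agent.S0376

open Cfsg CA.NatBits CA.Golay CA.M24Core CA.M24Sub CA.CGroup CA.CGParts CA.CGCert CA.CGRank CA.Perm24 MulAction
open scoped Pointwise

/-- A point stabiliser in the group of the length-24 code has order 10200960 = 2^7·3^2·5·7·11·23. -/
theorem result (p : Cfsg.GolayPt) : Nat.card (MulAction.stabilizer Cfsg.M24 p) = 10200960 := by
  obtain ⟨g, rfl⟩ := exists_smul_pt none p
  rw [(conjTo_stabilizer g _).card_eq, st23.card]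

end Cfsg.Agent.S0376
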