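import Cfsg.Statements.S0379
import Cfsg.Agent.Lib.Spor.M24Sub

set_option autoImplicit false
open Cfsg

namespace Cfsg.Agent.S0379

open Cfsg CA.NatBits CA.Golay CA.M24Core CA.M24Sub CA.CGroup CA.CGParts CA.CGCert CA.CGRank CA.Perm24 MulAction
open scoped Pointwise

/-- A two-point stabiliser in the group of the length-24 code is simple. -/
theorem result (p q : Cfsg.GolayPt) (hpq : p ≠ q) : IsSimpleGroup ↥(MulAction.stabilizer Cfsg.M24 p ⊓ MulAction.stabilizer Cfsg.M24 q) := by
  obtain ⟨g, rfl, rfl⟩ := exists_smul_pt2 (p := none) (q := some 0) (by simp) hpq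
  have := simple22
  exact ((conjTo_stabilizer g _).inf (conjTo_stabilizer g _)).equiv.symm.isSimpleGroup

end Cfsg.Agent.S0379
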