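import Cfsg.Statements.S0380
import Cfsg.Agent.Lib.Spor.M24Iso
import Cfsg.Agent.Lib.Spor.CGLin2
import Cfsg.Agent.Lib.Lin.SmallF

set_option autoImplicit false
open Cfsg

namespace Cfsg.Agent.S0380

open Cfsg CA.NatBits CA.OrbBfs CA.CGroup CA.CGConstr CA.CGParts CA.CGCert CA.CGRank CA.CGDec CA.Perm24 CA.Golay
open CA.M24Core CA.M24Sub CA.M24Tools MulAction
open scoped Pointwise
open CA.M24St2 CA.M24Syl CA.M24Cls CA.CGIso CA.CGLin CA.CGLin2 CA.M24Iso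
set_option maxRecDepth 100000

open CA.SmallF

/-- labels -/
noncomputable def cx (v : Fin 3 → F4) : ℕ :=
  nth 0 [0, 4, 4, 4, 3, 11, 20, 19, 3, 19, 11, 20, 3, 20, 19, 11, 2, 13, 22, 16, 5, 8, 15, 7, 17, 6, 12, 9, 14, 10, 21, 18, 2, 16, 13, 22, 14, 18, 10, 21, 5, 7, 8, 15, 17, 9, 6, 12, 2, 22, 16, 13, 17, 12, 9, 6, 14, 21, 18, 10, 5, 15, 7, 8]
    ((v 0).re.val + 2 * (v 0).im.val + 4 * (v 1).re.val + 8 * (v 1).im.val + 16 * (v 2).re.val + 32 * (v 2).im.val)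

theorem card_psl : Nat.card (Matrix.ProjectiveSpecialLinearGroup (Fin 3) F4) = 20160 := by
  have h := CA.SLnCard.card_PSL (F := F4) 3 (by norm_num)
  have h' := CA.SLnCard.card_SL (F := F4) 3 (by norm_num)
  rw [Nat.card_eq_fintype_card (α := F4), card_F4] at h h'
  rw [show ∏ i : Fin 3, (4 ^ 3 - 4 ^ (i : ℕ)) = 181440 by decide] at h'
  rw [show Nat.gcd 3 (4 - 1) = 3 by decide] at h
  omega

theorem iso : Nonempty (↥(stabilizer M24 (none : GolayPt) ⊓ stabilizer M24 (some 0 : GolayPt) ⊓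
    stabilizer M24 (some 1 : GolayPt)) ≃* Matrix.ProjectiveSpecialLinearGroup (Fin 3) F4) := by
  obtain ⟨φ, h, -⟩ := label_PSL' mPt cx (by decide +kernel) (by decide +kernel)
    (fun v _ => ⟨_, sPt' ((by decide +kernel : ∀ v, cx v < 24) v)⟩) st21.ok st21.gen
    [!![⟨1, 0⟩, ⟨0, 0⟩, ⟨1, 0⟩; ⟨0, 1⟩, ⟨1, 0⟩, ⟨0, 0⟩; ⟨1, 0⟩, ⟨0, 1⟩, ⟨1, 1⟩], !![⟨1, 0⟩, ⟨1, 1⟩, ⟨0, 0⟩; ⟨0, 0⟩, ⟨1, 1⟩, ⟨0, 1⟩; ⟨1, 1⟩, ⟨0, 1⟩, ⟨0, 1⟩]]
    (by decide +kernel)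
    [(2, [[2, 1, 1, 1], [0, 2, 0, 2, 2, 0, 2]]), (3, [[0, 2, 2, 0, 3, 1, 3, 3], [2, 0, 3, 3, 3, 1, 2, 2], [0, 3, 3]]), (4, [[0, 5, 5, 1, 3, 3]]), (5, [])]
    (by decide +kernel) 1 (by decide) card_psl (by decide +kernel)
  exact iso_of_surj φ h (st21.card.trans card_psl.symm)

/-- A three-point stabiliser in the group of the length-24 code is isomorphic to PSL(3, F) for the field F with 4 elements. -/
theorem result (p q r : Cfsg.GolayPt) (hpq : p ≠ q) (hpr : p ≠ r) (hqr : q ≠ r) (F : Type) [Field F] [Fintype F] (hF : Fintype.card F = 4) : Nonempty (↥(MulAction.stabilizer Cfsg.M24 p ⊓ MulAction.stabilizer Cfsg.M24 q ⊓ MulAction.stabilizer Cfsg.M24 r) ≃* Matrix.ProjectiveSpecialLinearGroup (Fin 3) F) := by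
  obtain ⟨g, h1, h2, h3⟩ := exists_smul_pt3 (p := none) (q := some 0) (r := some 1) (by decide) (by decide) (by decide)
    hpq hpr hqr
  have hc := conj3 g (none : GolayPt) (some 0 : GolayPt) (some 1 : GolayPt)
  rw [h1, h2, h3] at hc
  obtain ⟨e⟩ := iso
  obtain ⟨f⟩ := CA.SmallF.nonempty_F4 hF
  exact ⟨hc.equiv.symm.trans (e.trans (CA.FieldIso.pslEquiv f).symm)⟩

end Cfsg.Agent.S0380
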