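import Cfsg.Statements.S0381
import Cfsg.Agent.Lib.Spor.M24Sub

set_option autoImplicit false
open Cfsg

namespace Cfsg.Agent.S0381

open Cfsg CA.NatBits CA.Golay CA.M24Core CA.M24Sub CA.CGroup CA.CGParts CA.CGCert CA.CGRank CA.Perm24 MulAction
open scoped Pointwise

/-- generators -/
def gE4 : List ℕ := [565978006712811190384577552928446206662672319317842985216, 564827141425591996311280244733034358286479746640136765696, 565019463388836171544282210455278000650214024247559454976, 564348613710420807073877270882327503557437081886306468096]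

theorem inn : mG.In gE4 (fixingSubgroup M24 (ds O0 : Set GolayPt)) :=
  CG.In.of_forall (ok_of (by decide +kernel)) fun c hc g hg => (mem_fixingSubgroup_iff _).2 fun x hx =>
    gE.ix_inj ((hg.2 x).trans ((by decide +kernel : ∀ c ∈ gE4, ∀ x ∈ ds O0, ap 8 c (gE.ix x) = gE.ix x) c hc x hx))

theorem card0 : Nat.card (fixingSubgroup M24 (ds O0 : Set GolayPt)) = 16 :=
  le_antisymm (card_le_of_ubd [] [4, 6, 7, 8, 9, 10, 11, 12, 13, 15, 16, 18, 19, 20, 21, 22] (m := O0) (by simp) (by decide)
    (fun g hg x hx => (mem_fixingSubgroup_iff _).1 hg x hx) (by decide +kernel))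
    (le_card_of_lowM inn [(4, [])] (by decide +kernel))

theorem sq0 : ∀ g ∈ fixingSubgroup M24 (ds O0 : Set GolayPt), g * g = 1 :=
  sq_eq_one_of_gens (gen_eq_of_lowM inn [(4, [])] card0 (by decide +kernel)) (by decide +kernel)

/-- The pointwise stabiliser of an octad in the group of the length-24 code has order 16 and every element of it squares to the identity. -/
theorem result (o : Finset Cfsg.GolayPt) (ho : o ∈ Cfsg.octads) : Nat.card ↥(Cfsg.M24 ⊓ fixingSubgroup (Equiv.Perm Cfsg.GolayPt) (o : Set Cfsg.GolayPt)) = 16 ∧ ∀ g ∈ Cfsg.M24 ⊓ fixingSubgroup (Equiv.Perm Cfsg.GolayPt) (o : Set Cfsg.GolayPt), g * g = 1 := by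
  obtain ⟨g, rfl⟩ := octad_trans O0_mem ho
  have h1 : ConjTo g (fixingSubgroup M24 (ds O0 : Set GolayPt)) (fixingSubgroup M24 ((g • ds O0 : Finset GolayPt) : Set GolayPt)) := by
    intro x
    simp only [mem_fixingSubgroup_iff, Finset.coe_smul_finset, Set.mem_smul_set,
      forall_exists_index, and_imp, forall_apply_eq_imp_iff₂, mul_smul, inv_smul_smul, smul_left_cancel_iff]
  have h2 : (fixingSubgroup M24 ((g • ds O0 : Finset GolayPt) : Set GolayPt)).map M24.subtype =
      M24 ⊓ fixingSubgroup (Equiv.Perm GolayPt) ((g • ds O0 : Finset GolayPt) : Set GolayPt) := by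
    ext k
    exact ⟨by rintro ⟨k, h, rfl⟩; exact ⟨k.2, h⟩, fun h => ⟨⟨k, h.1⟩, h.2, rfl⟩⟩
  refine ⟨by rw [← Nat.card_congr (eqv h2).toEquiv, h1.card_eq, card0], fun k hk => ?_⟩
  rw [← h2, ← h1.map_eq] at hk
  obtain ⟨_, ⟨k, hk', rfl⟩, rfl⟩ := hk
  rw [← map_mul, ← map_mul, sq0 k hk', map_one, map_one]

end Cfsg.Agent.S0381
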