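import Cfsg.Statements.S0383
import Cfsg.Agent.Lib.Spor.M24Sub

set_option autoImplicit false
open scoped Pointwise
open Cfsg

namespace Cfsg.Agent.S0383

open Cfsg CA.NatBits CA.Golay CA.M24Core CA.M24Sub CA.CGroup CA.CGParts CA.CGCert CA.CGRank CA.Perm24 MulAction
open scoped Pointwise

/-- A dodecad stabiliser in the group of the length-24 code is simple. -/
theorem result (d : Finset Cfsg.GolayPt) (hd : d ∈ Cfsg.dodecads) : IsSimpleGroup (MulAction.stabilizer Cfsg.M24 d) := by
  obtain ⟨g, rfl⟩ := dodecad_trans D0_mem hd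
  have := simple12
  exact (conjTo_stabilizer g _).equiv.symm.isSimpleGroup

end Cfsg.Agent.S0383
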