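import Cfsg.Statements.S0384
import Cfsg.Agent.Lib.Spor.M24Sub

set_option autoImplicit false
open scoped Pointwise
open Cfsg

namespace Cfsg.Agent.S0384

open Cfsg CA.NatBits CA.Golay CA.M24Core CA.M24Sub CA.CGroup CA.CGParts CA.CGCert CA.CGRank CA.Perm24 MulAction
open scoped Pointwise

/-- A dodecad stabiliser is sharply 5-transitive on the dodecad. -/
theorem result (d : Finset Cfsg.GolayPt) (hd : d ∈ Cfsg.dodecads) (x y : Fin 5 ↪ Cfsg.GolayPt) (hx : ∀ i, x i ∈ d) (hy : ∀ i, y i ∈ d) : ∃! g : MulAction.stabilizer Cfsg.M24 d, ∀ i, ((g : Cfsg.M24) : Equiv.Perm Cfsg.GolayPt) (x i) = y i := by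
  obtain ⟨g, rfl⟩ := dodecad_trans D0_mem hd
  have h := mt12.conj (conjTo_stabilizer g (ds D0))
  rw [← Finset.coe_smul_finset] at h
  obtain ⟨k, hk, e⟩ := h x y hx hy
  refine ⟨⟨k, hk⟩, e, fun k' e' => Subtype.ext ?_⟩
  refine (inv_mul_eq_one.1 (sharp_of_mt h (Finset.finite_toSet _) ?_ x hx (mul_mem (inv_mem hk) k'.2) fun i => ?_)).symm
  · rw [card_stab_dodecad hd, Set.ncard_coe_finset, hd.2]; norm_num
  · rw [mul_smul, inv_smul_eq_iff, e]; exact e' i

end Cfsg.Agent.S0384
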