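import Cfsg.Statements.S0385
import Cfsg.Agent.Lib.Spor.M24Sub

set_option autoImplicit false
open Cfsg

namespace Cfsg.Agent.S0385

open Cfsg CA.NatBits CA.Golay CA.M24Core CA.M24Sub CA.CGroup CA.CGParts CA.CGCert CA.CGRank CA.Perm24 MulAction
open scoped Pointwise

/-- The 6-point intersections of octads with a fixed dodecad form a Steiner system S(5, 6, 12) on the dodecad. -/
theorem result (d : Finset Cfsg.GolayPt) (hd : d ∈ Cfsg.dodecads) : Cfsg.IsSteinerSystem 5 6 {h : Finset {p : Cfsg.GolayPt // p ∈ d} | ∃ o ∈ Cfsg.octads, (o ∩ d).card = 6 ∧ h = Finset.subtype (fun p => p ∈ d) o} := by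
  refine ⟨?_, fun s hs => ?_⟩
  · rintro _ ⟨o, -, h, rfl⟩
    rw [Finset.card_subtype, ← h, Finset.filter_mem_eq_inter]
  · obtain ⟨o, ⟨h1, h2⟩, h3⟩ := steiner.2 (s.map (Function.Embedding.subtype _)) (by rw [Finset.card_map, hs])
    have h4 : 5 ≤ (o ∩ d).card := by
      rw [← hs, ← Finset.card_map (Function.Embedding.subtype _)]
      exact Finset.card_le_card (Finset.subset_inter h2 (Finset.map_subtype_subset _))
    have h5 := card_of_mem_Cw (symmDiff_mem_Cw h1.1 hd.1)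
    have h6 := card_symmDiff o d
    have h7 : (o ∩ d).card ≤ o.card := Finset.card_le_card Finset.inter_subset_left
    rw [h1.2] at h6 h7
    rw [hd.2] at h6
    refine ⟨_, ⟨⟨o, h1, by omega, rfl⟩, fun x hx => Finset.mem_subtype.2 (h2 (Finset.mem_map_of_mem _ hx))⟩, ?_⟩
    rintro _ ⟨⟨o', h8, -, rfl⟩, h9⟩
    rw [h3 o' ⟨h8, fun x hx => ?_⟩]
    obtain ⟨y, hy, rfl⟩ := Finset.mem_map.1 hx
    exact Finset.mem_subtype.1 (h9 hy)

end Cfsg.Agent.S0385
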