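import Cfsg.Statements.S0386
import Cfsg.Agent.Lib.Spor.M24Sub

set_option autoImplicit false
open Cfsg

namespace Cfsg.Agent.S0386

open Cfsg CA.NatBits CA.Golay CA.M24Core CA.M24Sub CA.CGroup CA.CGParts CA.CGCert CA.CGRank CA.Perm24 MulAction
open scoped Pointwise

set_option maxRecDepth 100000 in
theorem chk : cntL octL (fun m => Nat.beq (pc24 (Nat.land m D0)) 6) = 132 ∧
    cntL octL (fun m => Nat.beq (pc24 (Nat.land m D0)) 2) = 132 ∧
    cntL octL (fun m => Nat.beq (pc24 (Nat.land m D0)) 4) = 495 := by decide +kernel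

/-- For a fixed dodecad, 132 octads meet it in 6 points, 132 in 2 points and 495 in 4 points. -/
theorem result (d : Finset Cfsg.GolayPt) (hd : d ∈ Cfsg.dodecads) : {o : Finset Cfsg.GolayPt | o ∈ Cfsg.octads ∧ (o ∩ d).card = 6}.ncard = 132 ∧ {o : Finset Cfsg.GolayPt | o ∈ Cfsg.octads ∧ (o ∩ d).card = 2}.ncard = 132 ∧ {o : Finset Cfsg.GolayPt | o ∈ Cfsg.octads ∧ (o ∩ d).card = 4}.ncard = 495 := by
  obtain ⟨g, rfl⟩ := dodecad_trans D0_mem hd
  have key : ∀ k, {o | o ∈ octads ∧ (o ∩ g • ds D0).card = k}.ncard =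
      cntL octL (fun m => Nat.beq (pc24 (Nat.land m D0)) k) := fun k => by
    rw [ncard_smul_of_inv g (P := fun o => o ∈ octads ∧ (o ∩ ds D0).card = k)
      fun y => by rw [smul_mem_octads, card_smul_inter]]
    exact ncard_octads fun m hm _ => by rw [beq_iff, ← card_ds (land_lt _ hm), ds, ds, ds, Enc.ds_land]
  rw [key, key, key]; exact chk

end Cfsg.Agent.S0386
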