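import Cfsg.Statements.S0388
import Cfsg.Agent.Lib.Spor.M24Sub

set_option autoImplicit false
open scoped Pointwise
open Cfsg

namespace Cfsg.Agent.S0388

open Cfsg CA.NatBits CA.Golay CA.M24Core CA.M24Sub CA.CGroup CA.CGParts CA.CGCert CA.CGRank CA.Perm24 MulAction
open scoped Pointwise

/-- The stabiliser of a dodecad and a point on it is simple. -/
theorem result (d : Finset Cfsg.GolayPt) (hd : d ∈ Cfsg.dodecads) (p : Cfsg.GolayPt) (hp : p ∈ d) : IsSimpleGroup ↥(MulAction.stabilizer Cfsg.M24 d ⊓ MulAction.stabilizer Cfsg.M24 p) := by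
  obtain ⟨g, rfl, rfl⟩ := flag_D1 hd hp
  have := simple11
  exact ((conjTo_stabilizer g _).inf (conjTo_stabilizer g _)).equiv.symm.isSimpleGroup

end Cfsg.Agent.S0388
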