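import Cfsg.Statements.S0393
import Cfsg.Agent.Lib.Spor.Leech2

set_option autoImplicit false
open Cfsg

namespace Cfsg.Agent.S0393

open CA.Leech CA.Golay Finset

/-- The lattice has index 2^36 in ℤ^24 (unimodular at scale 1/8). -/
theorem result : Cfsg.leechLattice.index = 2 ^ 36 := by
  let r : V →+ (GolayPt → ZMod 2) := AddMonoidHom.compLeft (Int.castAddHom (ZMod 2)) GolayPt
  have hr : Function.Surjective r := fun x => ⟨fun i => (x i).val, funext fun i => by simp [r]⟩
  have hs : ∀ a, support₂ (r a) = odS a := fun a => Finset.ext fun i => by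
    rw [mem_support', mem_odS]
    exact (ZMod.intCast_eq_intCast_iff' (a i) 1 2).trans (by norm_num)
  let C : AddSubgroup V := golayCode.toAddSubgroup.comap r
  have hC : ∀ a, a ∈ C ↔ odS a ∈ Cw := fun a => by rw [← hs, support_mem_Cw]; rfl
  have i1 : C.index = 4096 := by
    have h1 : Nat.card golayCode.toAddSubgroup = 4096 := by
      rw [← ncard_Cw_eq, Cw, supports, Set.ncard_image_of_injective _ fun _ _ => support_inj]; rfl
    have h2 := golayCode.toAddSubgroup.index_mul_card
    rw [h1, Nat.card_pi, prod_const, Nat.card_zmod, card_univ, card_GolayPt] at h2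
    rw [AddSubgroup.index_comap_of_surjective _ hr]
    exact Nat.eq_of_mul_eq_mul_right (by norm_num) (h2.trans (by norm_num))
  let s : V →+ ℤ := ⟨⟨fun a => ∑ i, a i, by simp⟩, fun a b => by simp [sum_add_distrib]⟩
  let L : AddSubgroup V := C ⊓ (AddSubgroup.zmultiples 4).comap s
  have hL : ∀ a, a ∈ L ↔ odS a ∈ Cw ∧ (4 : ℤ) ∣ ∑ i, a i := fun a =>
    and_congr (hC a) Int.mem_zmultiples_iff
  have i2 : L.relIndex C = 2 := by
    refine AddSubgroup.relIndex_eq_two_iff.2 ⟨Pi.single none 2, ?_, fun b hb => ?_⟩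
    · rw [hC]; convert empty_mem_Cw
      ext i; rw [mem_odS, Pi.single_apply]; split_ifs <;> simp
    · have h1 : odS (b + Pi.single none 2) = odS b := Finset.ext fun i => by
        rw [mem_odS, mem_odS, Pi.add_apply, Pi.single_apply]; split_ifs <;> omega
      have h2 := sum_mul_mod b fun _ => 1
      obtain ⟨k, hk⟩ := four_dvd_card ((hC b).1 hb)
      rw [show odS (fun _ => 1) = univ from Finset.ext fun i => by simp [mem_odS], inter_univ, hk] at h2
      simp only [hL, h1, (hC b).1 hb, true_and, Pi.add_apply, sum_add_distrib, sum_pi_single', mem_univ, if_true, mul_one] at h2 ⊢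
      push_cast at h2
      unfold Xor; omega
  have i3 := AddSubgroup.index_map_of_injective L (f := nsmulAddMonoidHom 2) (nsmul_right_injective two_ne_zero)
  rw [AddSubgroup.index_range_nsmul, ← AddSubgroup.relIndex_mul_index (inf_le_left : L ≤ C), i1, i2,
    Module.finrank_fintype_fun_eq_card, card_GolayPt] at i3
  have hM : ∀ x ∈ leechLattice, x ∈ L.map (nsmulAddMonoidHom 2) ↔ x none % 2 = 0 := fun x hx => by
    refine ⟨?_, fun h => ?_⟩
    · rintro ⟨a, -, rfl⟩
      simp
    · obtain ⟨c, hc, e | e⟩ := mem_iff'.1 hx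
      · have h1 : ∀ i, x i = 2 * (x i / 2) := fun i => by have := e.1 i; split_ifs at this <;> omega
        refine ⟨fun i => x i / 2, (hL _).2 ⟨?_, ?_⟩, funext fun i => by simpa using (h1 i).symm⟩
        · convert hc
          ext i; rw [mem_odS]; have := e.1 i; split_ifs at this with h <;> simp [h] <;> omega
        · have := e.2
          rw [sum_congr rfl fun i _ => h1 i, ← mul_sum] at this; omega
      · have := e.1 none; split_ifs at this <;> omega
  have hle : L.map (nsmulAddMonoidHom 2) ≤ leechLattice := by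
    rintro _ ⟨a, ha, rfl⟩
    exact mem_iff.2 ⟨0, a, fun i => by simp, ((hL a).1 ha).1, by simpa using ((hL a).1 ha).2⟩
  have i4 : (L.map (nsmulAddMonoidHom 2)).relIndex leechLattice = 2 :=
    AddSubgroup.relIndex_eq_two_iff.2 ⟨od0, od0_mem, fun b hb => by
      rw [hM _ hb, hM _ (add_mem hb od0_mem), Pi.add_apply, show od0 none = -3 from rfl]
      unfold Xor; omega⟩
  rw [← AddSubgroup.relIndex_mul_index hle, i4] at i3
  omega

end Cfsg.Agent.S0393
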