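import Cfsg.Statements.S0406
import Cfsg.Agent.Lib.Spor.Leech2
import Cfsg.Agent.Lib.Spor.GolayUniq
-- import your own Cfsg.Agent.* helpers here

set_option autoImplicit false
open Matrix
open Cfsg

namespace Cfsg.Agent.S0406

open CA.Leech CA.LeechGen CA.Golay CA.GolayUniq Finset

structure Lat (M : AddSubgroup V) : Prop where
  dot : ∀ x ∈ M, ∀ y ∈ M, (8 : ℤ) ∣ dotInt x y
  sq : ∀ x ∈ M, (16 : ℤ) ∣ sqNorm x
  no : ∀ x ∈ M, sqNorm x ≠ 16
  four : ∀ i j, Pi.single i 4 + Pi.single j 4 ∈ M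
  cnt : {x | x ∈ M ∧ sqNorm x = 32}.ncard = 196560

def Pt (c : Finset GolayPt) (x : V) : Prop := ∀ i, x i % 4 = if i ∈ c then 2 else 0
noncomputable def CC (M : AddSubgroup V) : Finset (Finset GolayPt) := open Classical in univ.filter fun c => ∃ x ∈ M, Pt c x
theorem mem_CC {M : AddSubgroup V} {c : Finset GolayPt} : c ∈ CC M ↔ ∃ x ∈ M, Pt c x := by simp [CC]
theorem Pt.add {c d : Finset GolayPt} {x y : V} (h : Pt c x) (h' : Pt d y) : Pt (symmDiff c d) (x + y) := fun i => by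
  have := h i; have := h' i
  simp only [mem_symmDiff, Pi.add_apply]
  by_cases a : i ∈ c <;> by_cases b : i ∈ d <;> simp [a, b] at * <;> omega
theorem CC_add {M : AddSubgroup V} {c d : Finset GolayPt} (h : c ∈ CC M) (h' : d ∈ CC M) : symmDiff c d ∈ CC M := by
  obtain ⟨x, hx, a⟩ := mem_CC.1 h
  obtain ⟨y, hy, b⟩ := mem_CC.1 h'
  exact mem_CC.2 ⟨_, add_mem hx hy, a.add b⟩
def code (M : AddSubgroup V) : Submodule (ZMod 2) (GolayPt → ZMod 2) where
  carrier := {w | support₂ w ∈ CC M}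
  zero_mem' := mem_CC.2 ⟨0, zero_mem _, fun i => by simp [mem_support]⟩
  add_mem' h h' := by rw [Set.mem_ofPred_eq, support_add]; exact CC_add h h'
  smul_mem' a w h := by
    rcases zmod2_cases a with rfl | rfl
    · exact mem_CC.2 ⟨0, zero_mem _, fun i => by simp [mem_support]⟩
    · rwa [one_smul]
theorem card_code (M : AddSubgroup V) : Nat.card (code M) = (CC M).card := by
  rw [← Nat.card_eq_finsetCard]
  exact Nat.card_congr ⟨fun w => ⟨_, w.2⟩, fun c => ⟨ind c, by
    show support₂ (ind c.1) ∈ CC M; rw [support_ind]; exact c.2⟩, fun w => Subtype.ext (ind_support _), fun c => Subtype.ext (support_ind _)⟩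

theorem sum_le {C : Finset (Finset GolayPt)} (h : ∀ c ∈ C, c = ∅ ∨ 8 ≤ c.card) (h8 : (C.filter (·.card = 8)).card ≤ 759)
    {f : ℕ → ℕ} {a b k : ℕ} (hf : f 0 ≤ a + k ∧ f 8 ≤ b + k ∧ ∀ w ≤ 24, 8 < w → f w ≤ k) :
    ∑ c ∈ C, f c.card ≤ a + 759 * b + C.card * k := by
  refine (sum_le_sum (g := fun c => (if c = ∅ then a else 0) + (if c.card = 8 then b else 0) + k) fun c hc => ?_).trans ?_
  · rcases h c hc with rfl | h
    · simpa using hf.1
    · rw [if_neg (by rintro rfl; simp at h)]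
      split_ifs with e
      · simpa [e] using hf.2.1
      · simpa using hf.2.2 _ ((card_le_univ c).trans card_GolayPt.le) (by omega)
  · rw [sum_add_distrib, sum_add_distrib, sum_ite_eq', ← sum_filter, sum_const, sum_const]
    have := Nat.mul_le_mul_right b h8
    simp only [smul_eq_mul]; split_ifs <;> omega

namespace Lat
variable {M : AddSubgroup V} (h : Lat M)
include h

theorem mem4 {x : V} (h1 : ∀ i, x i % 4 = 0) (h2 : (∑ i, x i) % 8 = 0) : x ∈ M := by
  have e : x = ∑ i, (x i / 4) • (Pi.single i 4 + Pi.single none 4 : V) -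
      ((∑ i, x i) / 8) • (Pi.single none 4 + Pi.single none 4 : V) := by
    have : ∑ i, x i = 4 * ∑ i, x i / 4 := by rw [mul_sum]; exact sum_congr rfl fun i _ => by have := h1 i; omega
    ext j
    have := h1 j
    simp only [Pi.sub_apply, Finset.sum_apply, Pi.smul_apply, Pi.add_apply, Pi.single_apply, smul_eq_mul, mul_add,
      sum_add_distrib, mul_ite, mul_zero, sum_ite_eq, mem_univ, if_true]
    split_ifs <;> simp only [← sum_mul, sum_const_zero] <;> omega
  rw [e]
  exact sub_mem (sum_mem fun i _ => zsmul_mem (h.four _ _) _) (zsmul_mem (h.four _ _) _)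

theorem par {x : V} (hx : x ∈ M) (i : GolayPt) : x i % 2 = x none % 2 := by
  have := h.dot x hx _ (h.four i none)
  rw [dot_add_right, dot_single, dot_single] at this; omega

theorem pt {x : V} (hx : x ∈ M) (h0 : x none % 2 = 0) : ∃ c ∈ CC M, Pt c x :=
  have : Pt (univ.filter fun i => x i % 4 = 2) x := fun i => by
    have := h.par hx i; simp only [mem_filter, mem_univ, true_and]; split_ifs <;> omega
  ⟨_, mem_CC.2 ⟨x, hx, this⟩, this⟩

theorem wt {c : Finset GolayPt} (hc : c ∈ CC M) : 4 ∣ c.card ∧ (c = ∅ ∨ 8 ≤ c.card) := by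
  rcases c.eq_empty_or_nonempty with rfl | ⟨j, hj⟩
  · simp
  obtain ⟨x, hx, a⟩ := mem_CC.1 hc
  have k : ∀ y : V, (∀ i, y i ^ 2 = if i ∈ c then 4 else 0) → (∑ i, (x - y) i) % 8 = 0 → 4 ∣ c.card ∧ (c = ∅ ∨ 8 ≤ c.card) :=
    fun y h1 h2 => by
    have m : y ∈ M := by
      rw [← sub_sub_cancel x y]
      refine sub_mem hx (h.mem4 (fun i => ?_) h2)
      have := a i; have b := h1 i
      rw [Pi.sub_apply]
      split_ifs at *
      · rcases sq_eq_sq_iff_eq_or_eq_neg.1 (b.trans (show (4 : ℤ) = 2 ^ 2 from rfl)) with e | e <;> omega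
      · have := pow_eq_zero_iff (two_ne_zero) |>.1 b; omega
    have n : sqNorm y = 4 * c.card := by simp only [sqNorm, h1, sum_ite_c]; ring
    have := h.sq y m; have := h.no y m; have := card_pos.2 ⟨j, hj⟩
    omega
  have s : (∑ i, (x - tw c) i) % 4 = 0 := by
    refine Int.emod_eq_zero_of_dvd (dvd_sum fun i _ => ?_)
    have := a i; simp only [Pi.sub_apply, tw]; split_ifs at * <;> omega
  by_cases e : (∑ i, (x - tw c) i) % 8 = 0
  · exact k _ (fun i => by simp only [tw]; split_ifs <;> rfl) e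
  · refine k (tw c - Pi.single j 4) (fun i => ?_) ?_
    · simp only [tw, Pi.sub_apply, Pi.single_apply]; split_ifs <;> simp_all
    · simp only [← sub_add, Pi.add_apply, sum_add_distrib, Pi.single_apply, sum_ite_eq', mem_univ, if_true]; omega

theorem oct : ((CC M).filter (·.card = 8)).card ≤ 759 := by
  have a : (((CC M).filter (·.card = 8)).biUnion (powersetCard 5)).card ≤ (powersetCard 5 (univ : Finset GolayPt)).card :=
    card_le_card fun s hs => by
      obtain ⟨c, -, b⟩ := mem_biUnion.1 hs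
      exact mem_powersetCard.2 ⟨subset_univ _, (mem_powersetCard.1 b).2⟩
  rw [card_biUnion, sum_congr rfl (g := fun _ => 56) fun c hc => by rw [card_powersetCard, (mem_filter.1 hc).2]; rfl,
    card_powersetCard, card_univ, card_GolayPt, sum_const, show Nat.choose 24 5 = 42504 by decide +kernel, smul_eq_mul] at a
  · omega
  intro c hc d hd e
  refine disjoint_left.2 fun s b b' => ?_
  rw [mem_coe, mem_filter] at hc hd
  rw [mem_powersetCard] at b b'
  have := card_le_card (subset_inter b.1 b'.1)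
  have := card_symmDiff c d
  rcases (h.wt (CC_add hc.1 hd.1)).2 with f | f
  · exact e (symmDiff_eq_bot.1 f)
  · omega

theorem odd : ∃ x ∈ M, x none % 2 = 1 := by
  by_contra! n
  let A := fun (e : ℤ) (c : Finset GolayPt) => {x : V | (∀ i, (fun _ => true) (x i) = true) ∧ sqNorm x = (32 : ℕ) ∧ Pt c x ∧ ∏ i, sg (x i) = e}
  have f : ∀ e c, (A e c).Finite := fun e c => (finite_sq _).subset fun x hx => hx.2.1.le
  have := (Set.ncard_le_ncard (t := ⋃ c ∈ CC M, A 1 c ∪ A (-1) c) (s := {x | x ∈ M ∧ sqNorm x = 32}) (fun x hx => by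
    obtain ⟨c, hc, a⟩ := h.pt hx.1 (by have := n x hx.1; omega)
    refine Set.mem_biUnion hc ?_
    have := (prod_sg x univ).2
    split_ifs at this
    exacts [.inl ⟨fun _ => rfl, hx.2, a, this⟩, .inr ⟨fun _ => rfl, hx.2, a, this⟩])
    ((CC M).finite_toSet.biUnion fun c _ => (f _ _).union (f _ _))).trans (((CC M).set_ncard_biUnion_le _).trans
      ((sum_le_sum fun c _ => (Set.ncard_union_le _ _).trans_eq (congrArg₂ _
        (cnt_eq (B := 2 ^ 100) (by norm_num) _ c 2 0 1 (.inl rfl) (by norm_num))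
        (cnt_eq (B := 2 ^ 100) (by norm_num) _ c 2 0 (-1) (.inr rfl) (by norm_num)))).trans
      (sum_le (a := 1104) (b := 256) (k := 0) (f := fun w => cntW (2 ^ 100) (fun _ => true) 2 0 1 32 w +
        cntW (2 ^ 100) (fun _ => true) 2 0 (-1) 32 w) (fun c hc => (h.wt hc).2) h.oct (by decide +kernel))))
  rw [h.cnt] at this; omega

variable {o : V} (ho : o ∈ M) (h1 : ∀ i, o i % 4 = 1)
include ho h1

theorem ev {c : Finset GolayPt} {x : V} (hx : x ∈ M) (a : Pt c x) : Ev c x := by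
  have b := h.dot x hx o ho
  have : (8 : ℤ) ∣ ∑ i, (x i * o i - x i) := dvd_sum fun i _ => by
    obtain ⟨u, hu⟩ : 2 ∣ x i := by have := a i; split_ifs at this <;> omega
    obtain ⟨v, hv⟩ : 4 ∣ o i - 1 := by have := h1 i; omega
    exact ⟨u * v, by rw [← mul_sub_one, hu, hv]; ring⟩
  rw [sum_sub_distrib] at this
  exact ⟨a, by rw [dotInt] at b; omega⟩

theorem so : (∑ i, o i) % 8 = 4 := by
  have b := h.sq o ho
  have : (16 : ℤ) ∣ ∑ i, (o i ^ 2 - 2 * o i + 1) := dvd_sum fun i _ => by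
    obtain ⟨v, hv⟩ : 4 ∣ o i - 1 := by have := h1 i; omega
    exact ⟨v * v, by rw [show o i = 4 * v + 1 by omega]; ring⟩
  rw [sum_add_distrib, sum_sub_distrib, ← mul_sum, sum_c24] at this
  rw [sqNorm] at b; omega

theorem iff {x : V} : x ∈ M ↔ ∃ c ∈ CC M, Ev c x ∨ Od c x := by
  have s := h.so ho h1
  have k : ∀ {x c}, c ∈ CC M → Ev c x → x ∈ M := fun {x c} hc a => by
    obtain ⟨y, hy, b⟩ := mem_CC.1 hc
    rw [← sub_add_cancel x y]
    refine add_mem (h.mem4 (fun i => ?_) ?_) hy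
    · have := a.1 i; have := b i; rw [Pi.sub_apply]; omega
    · have := a.2; have := (h.ev ho h1 hy b).2
      simp only [Pi.sub_apply, sum_sub_distrib]; omega
  have q : ∀ {x c}, Ev c (x - o) ↔ Od c x := fun {x c} => and_congr (forall_congr' fun i => by
    have := h1 i; rw [Pi.sub_apply]; split_ifs <;> omega) (by simp only [Pi.sub_apply, sum_sub_distrib]; omega)
  refine ⟨fun hx => ?_, fun ⟨c, hc, a⟩ => a.elim (k hc) fun a => sub_add_cancel x o ▸ add_mem (k hc (q.2 a)) ho⟩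
  by_cases e : x none % 2 = 0
  · exact (h.pt hx e).imp fun c a => ⟨a.1, .inl (h.ev ho h1 hx a.2)⟩
  · exact (h.pt (sub_mem hx ho) (by have := h1 none; rw [Pi.sub_apply]; omega)).imp fun c a =>
      ⟨a.1, .inr (q.1 (h.ev ho h1 (sub_mem hx ho) a.2))⟩

theorem big : 4096 ≤ (CC M).card := by
  have := ((count_code (B := 2 ^ 100) (by norm_num) (fun _ => true) (n := 32) (by norm_num) (CC M) fun c hc =>
    (h.wt hc).1).trans_le (sum_le (a := 1104) (b := 128) (k := 24) (f := cw1 (2 ^ 100) (fun _ => true) 32)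
      (fun c hc => (h.wt hc).2) h.oct (by decide +kernel)))
  simp only [← h.iff ho h1, implies_true, true_and, and_comm (b := _ ∈ M)] at this
  have e := h.cnt
  erw [e] at this; omega

theorem gol : ∃ e : GolayPt ≃ GolayPt, ∀ w : GolayPt → ZMod 2, w ∈ golayCode ↔ (fun i => w (e i)) ∈ code M := by
  have m : ∀ w ∈ code M, w ≠ 0 → 8 ≤ hammingNorm w := fun w hw n => (h.wt hw).2.resolve_left fun e =>
    n (support_inj (e.trans (by ext; simp [mem_support])))
  have r : 12 ≤ Module.finrank (ZMod 2) (code M) := by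
    have := h.big ho h1
    rw [← card_code, Module.natCard_eq_pow_finrank (K := ZMod 2), Nat.card_zmod] at this
    exact (Nat.pow_le_pow_iff_right one_lt_two).1 this
  obtain ⟨f, hf⟩ := exists_linearIndependent_of_le_finrank r
  obtain ⟨C, h2, h3⟩ : ∃ C ≤ code M, Module.finrank (ZMod 2) C = 12 := ⟨_, Submodule.span_le.2 (by
    rintro _ ⟨i, rfl⟩; exact (f i).2), finrank_span_eq_card (hf.map' _ (code M).ker_subtype)⟩
  have c := card_of_finrank h3
  have m' : ∀ w ∈ C, w ≠ 0 → 8 ≤ hammingNorm w := fun w hw => m w (h2 hw)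
  rw [← le_antisymm h2 fun w hw => ?_]
  · exact golay_uniq card_GolayPt c m'
  have : ∃ u, u - w ∈ C ∧ hammingNorm u ≤ 4 := (cosets card_GolayPt c m' w).elim
    (fun ⟨u, a, _⟩ => ⟨u, a.ge rfl⟩) fun a => Set.nonempty_of_ncard_ne_zero (a.1.trans_ne (by norm_num))
  obtain ⟨u, a, b⟩ := this
  obtain rfl : u = 0 := by_contra fun n => by have := m u (sub_add_cancel u w ▸ add_mem (h2 a) hw) n; omega
  simpa using a

end Lat

section
variable {L : Type*} [AddCommGroup L] {b : L →+ L →+ ℤ} {u : GolayPt → L}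
def Fr (b : L →+ L →+ ℤ) (u : GolayPt → L) : Prop :=
  (∀ i j, b (u i) (u j) = if i = j then 8 else 0) ∧ ∀ i j, ∃ z, u i - u j = 2 • z
def ph (b : L →+ L →+ ℤ) (u : GolayPt → L) : L →+ V :=
  AddMonoidHom.mk' (fun v i => b v (u i)) fun x y => funext fun i => by simp
theorem Fr.perm (hu : Fr b u) (e : GolayPt ≃ GolayPt) : Fr b (u ∘ e) :=
  ⟨fun i j => (hu.1 _ _).trans (by simp), fun _ _ => hu.2 _ _⟩
theorem Fr.sign (hu : Fr b u) (p : GolayPt → Prop) [DecidablePred p] : Fr b fun i => if p i then u i else -u i :=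
  ⟨fun i j => by
    have := hu.1 i j
    by_cases e : i = j
    · subst e; by_cases k : p i <;> simpa [k] using this
    · simp only [if_neg e] at *; split_ifs <;> simp [this], fun i j => by
    obtain ⟨z, e⟩ := hu.2 i j
    rw [sub_eq_iff_eq_add] at e
    beta_reduce
    split_ifs
    exacts [⟨z, by rw [e]; abel⟩, ⟨z + u j, by rw [e]; abel⟩, ⟨-z - u j, by rw [e]; abel⟩, ⟨-z, by rw [e]; abel⟩]⟩
variable [Module.Free ℤ L] [Module.Finite ℤ L] (h : NoRoot b) (hr : Module.finrank ℤ L = 24)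
include h hr

theorem Fr.dot (hu : Fr b u) (v w : L) : dotInt (ph b u v) (ph b u w) = 8 * b v w := by
  have e : (8 : ℤ) • v - ∑ i, b v (u i) • u i = 0 := by
    by_contra n
    have o : ∀ j, b ((8 : ℤ) • v - ∑ i, b v (u i) • u i) (u j) = 0 := fun j => by
      simp only [map_sub, map_zsmul, map_sum, AddMonoidHom.finsetSum_apply, AddMonoidHom.smul_apply, AddMonoidHom.sub_apply,
        smul_eq_mul, hu.1, mul_ite, mul_zero, sum_ite_eq', mem_univ, if_true]; ring
    have := (h.indep (fun o : Option GolayPt => o.elim ((8 : ℤ) • v - ∑ i, b v (u i) • u i) u) (by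
      rintro (_ | i)
      · exact n
      · intro e; have := hu.1 i i; simp [show u i = 0 from e] at this) (by
      rintro (_ | i) (_ | j) e
      · exact (e rfl).elim
      · exact o j
      · exact (h.symm _ _).trans (o i)
      · exact (hu.1 i j).trans (if_neg fun f => e (congrArg _ f)))).fintype_card_le_finrank
    rw [Fintype.card_option, card_GolayPt] at this; omega
  have := congrArg (b · w) (sub_eq_zero.1 e)
  simp only [map_zsmul, map_sum, AddMonoidHom.finsetSum_apply, AddMonoidHom.smul_apply, smul_eq_mul, h.symm (u _) w] at this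
  exact this.symm

theorem Fr.sq (hu : Fr b u) (v : L) : sqNorm (ph b u v) = 8 * b v v := (dot_self _).symm.trans (hu.dot h hr v v)
theorem Fr.inj (hu : Fr b u) : Function.Injective (ph b u) := (injective_iff_map_eq_zero _).2 fun v e => by_contra fun n => by
  have := h.pos v n; have := hu.sq h hr v; have := sq_eq_zero'.2 e; omega

theorem Fr.lat (hu : Fr b u) (h4 : {x | b x x = 4}.ncard = 196560) : Lat (ph b u).range where
  dot := by rintro _ ⟨v, rfl⟩ _ ⟨w, rfl⟩; exact ⟨_, hu.dot h hr v w⟩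
  sq := by rintro _ ⟨v, rfl⟩; have := h.even v; rw [hu.sq h hr]; omega
  no := by rintro _ ⟨v, rfl⟩; have := h.no2 v; rw [hu.sq h hr]; omega
  four i j := by
    obtain ⟨z, e⟩ := hu.2 i j
    refine ⟨z + u j, funext fun k => ?_⟩
    have := congrArg (b · (u k)) e
    simp only [map_sub, map_nsmul, AddMonoidHom.sub_apply, AddMonoidHom.smul_apply, hu.1, eq_comm (b := k)] at this
    simp only [ph, AddMonoidHom.mk'_apply, map_add, AddMonoidHom.add_apply, hu.1, Pi.add_apply, Pi.single_apply, eq_comm (b := k)]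
    split_ifs at * <;> simp at this <;> omega
  cnt := by
    rw [← h4, ← Set.ncard_image_of_injective _ (hu.inj h hr)]
    congr 1; ext x
    exact ⟨fun ⟨⟨v, e⟩, a⟩ => ⟨v, by rw [← e, hu.sq h hr] at a; show b v v = 4; omega, e⟩,
      fun ⟨v, a, e⟩ => ⟨⟨v, e⟩, by rw [← e, hu.sq h hr, show b v v = 4 from a]; rfl⟩⟩

theorem frame {x : L} (hx : {y | b y y = 8 ∧ ∃ z, x - y = 2 • z}.ncard = 48) : ∃ u, Fr b u := by
  classical
  have f := Set.finite_of_ncard_ne_zero (hx.trans_ne (by norm_num))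
  have c : ∀ {y y'}, y ∈ f.toFinset → y' ∈ f.toFinset → b y y = 8 ∧ ∃ z, y - y' = 2 • z := fun {y y'} a a' => by
    rw [Set.Finite.mem_toFinset] at a a'
    obtain ⟨z, e⟩ := a.2
    obtain ⟨z', e'⟩ := a'.2
    exact ⟨a.1, z' - z, by rw [smul_sub, ← e, ← e']; abel⟩
  have n : ∀ y ∈ f.toFinset, y ≠ 0 := fun y a e => by have := (c a a).1; simp [e] at this
  obtain ⟨T, h1, h2, h3⟩ := h.exists_frame _ n fun y a y' a' => by
    by_contra! k
    exact k.2.2 (h.cong (c a a).1.le (c a' a').1.le (c a a').2 k.1 k.2.1).2.2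
  have h4 := h.card_orth T (fun x hx => n x (h1 hx)) h2
  have : f.toFinset ⊆ T ∪ T.image (-·) := fun x hx => (h3 x hx).elim (mem_union_left _)
    fun h5 => mem_union_right _ (mem_image.2 ⟨_, h5, neg_neg x⟩)
  have := (card_le_card this).trans ((card_union_le _ _).trans (Nat.add_le_add_left card_image_le _))
  rw [← Set.ncard_eq_toFinset_card _ f, hx] at this
  have e : GolayPt ≃ T := Fintype.equivOfCardEq (by rw [card_GolayPt, Fintype.card_coe]; omega)
  refine ⟨fun i => e i, fun i j => ?_, fun i j => (c (h1 (e i).2) (h1 (e j).2)).2⟩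
  split_ifs with k
  · exact k ▸ (c (h1 (e i).2) (h1 (e i).2)).1
  · exact h2 _ (e i).2 _ (e j).2 fun a => k (e.injective (Subtype.ext a))

theorem main (hu : Fr b u) (h4 : {x | b x x = 4}.ncard = 196560) : ∃ u, Fr b u ∧ (ph b u).range = leechLattice := by
  obtain ⟨_, ⟨v, rfl⟩, a⟩ := (hu.lat h hr h4).odd
  have p := (hu.lat h hr h4).par ⟨v, rfl⟩
  have h1 := hu.sign fun i => b v (u i) % 4 = 1
  have o : ∀ i, b v (if b v (u i) % 4 = 1 then u i else -u i) % 4 = 1 := fun i => by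
    have : b v (u i) % 2 = _ := (p i).trans a
    split_ifs
    · assumption
    · rw [map_neg]; omega
  obtain ⟨e, he⟩ := (h1.lat h hr h4).gol ⟨v, rfl⟩ o
  refine ⟨_, h1.perm e.symm, AddSubgroup.ext fun x => ?_⟩
  rw [((h1.perm e.symm).lat h hr h4).iff ⟨v, rfl⟩ fun i => o _, mem_iff']
  refine exists_congr fun c => and_congr_left' ?_
  rw [← support_ind c, support_mem_Cw, he, support_ind]
  refine mem_CC.trans (Iff.trans ⟨?_, ?_⟩ mem_CC.symm) <;> rintro ⟨_, ⟨w, rfl⟩, k⟩ <;> refine ⟨_, ⟨w, rfl⟩, fun i => ?_⟩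
  · simpa [ph, mem_support, ind] using k (e i)
  · simpa [ph, mem_support, ind] using k (e.symm i)
end

/-- A rank-24 even lattice with no roots and the stated numbers of vectors of norms 4, 6, 8 is isomorphic to the Leech lattice. -/
theorem result (B : Matrix (Fin 24) (Fin 24) ℤ) (hsymm : B.IsSymm) (hpos : ∀ x : Fin 24 → ℤ, x ≠ 0 → 0 < x ⬝ᵥ (B *ᵥ x)) (heven : ∀ x : Fin 24 → ℤ, (2 : ℤ) ∣ x ⬝ᵥ (B *ᵥ x)) (h2 : ∀ x : Fin 24 → ℤ, x ⬝ᵥ (B *ᵥ x) ≠ 2) (h4 : {x : Fin 24 → ℤ | x ⬝ᵥ (B *ᵥ x) = 4}.ncard = 196560) (h6 : {x : Fin 24 → ℤ | x ⬝ᵥ (B *ᵥ x) = 6}.ncard = 16773120) (h8 : {x : Fin 24 → ℤ | x ⬝ᵥ (B *ᵥ x) = 8}.ncard = 398034000) : ∃ f : (Fin 24 → ℤ) ≃+ Cfsg.leechLattice, ∀ x : Fin 24 → ℤ, Cfsg.sqNorm ((f x : Cfsg.leechLattice) : Cfsg.GolayPt → ℤ) = 8 * (x ⬝ᵥ (B *ᵥ x)) := by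
  have h := noRoot_mat hsymm hpos heven h2
  have hr : Module.finrank ℤ (Fin 24 → ℤ) = 24 := by simp
  obtain ⟨x, hx⟩ := Set.nonempty_of_ncard_ne_zero (h8.trans_ne (by norm_num))
  obtain ⟨u, hu⟩ := frame h hr ((h.classes hr h4 h6 h8).2 x hx)
  obtain ⟨u, hu, e⟩ := main h hr hu h4
  exact ⟨(AddMonoidHom.ofInjective (hu.inj h hr)).trans (AddEquiv.addSubgroupCongr e), hu.sq h hr⟩

end Cfsg.Agent.S0406
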