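import Cfsg.Statements.S0408
import Cfsg.Agent.Lib.Spor.StModel

set_option autoImplicit false
open Cfsg

namespace Cfsg.Agent.S0408

open Cfsg CA.NatBits CA.Golay CA.M24Core CA.M24Sub CA.M24St2 CA.StSearch CA.StModel CA.CGCert Finset MulAction
open scoped Pointwise

/-- Uniqueness of the Steiner system S(5, 6, 12) up to isomorphism. -/
theorem result {α β : Type*} [Fintype α] [DecidableEq α] [Fintype β] [DecidableEq β] (hα : Fintype.card α = 12) (hβ : Fintype.card β = 12) {B : Set (Finset α)} {B' : Set (Finset β)} (hB : Cfsg.IsSteinerSystem 5 6 B) (hB' : Cfsg.IsSteinerSystem 5 6 B') : Cfsg.SetSystemIso B B' := by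
  obtain ⟨e, h⟩ := mod12 hα hB
  obtain ⟨e', h'⟩ := mod12 hβ hB'
  exact h.iso h'

end Cfsg.Agent.S0408
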