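import Cfsg.Statements.S0412
import Cfsg.Agent.Lib.Spor.StModel

set_option autoImplicit false
open Cfsg

namespace Cfsg.Agent.S0412

open Cfsg CA.NatBits CA.Golay CA.M24Core CA.M24Sub CA.M24St2 CA.StSearch CA.StModel CA.CGCert Finset MulAction
open scoped Pointwise

/-- Aut of an S(5, 8, 24) is simple of order 244823040 and 5-transitive on points. -/
theorem result {α : Type*} [Fintype α] [DecidableEq α] (hα : Fintype.card α = 24) {B : Set (Finset α)} (hB : Cfsg.IsSteinerSystem 5 8 B) : Cfsg.IsM24 (Cfsg.setSystemAut B) ∧ MulAction.IsMultiplyPretransitive (Cfsg.setSystemAut B) α 5 := by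
  obtain ⟨e, h⟩ := mod24 hα hB
  obtain ⟨φ, hφ⟩ := aut24 h
  have := simple_top
  exact ⟨⟨φ.symm.isSimpleGroup, (Nat.card_congr φ.toEquiv).symm.trans card_top⟩,
    mt_of_hom h.in φ hφ (by rw [ds_full, coe_univ]; exact mt5)⟩

end Cfsg.Agent.S0412
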