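import Cfsg.Statements.S0413
import Cfsg.Agent.Lib.Spor.StModel

set_option autoImplicit false
open Cfsg

namespace Cfsg.Agent.S0413

open Cfsg CA.NatBits CA.Golay CA.M24Core CA.M24Sub CA.M24St2 CA.StSearch CA.StModel CA.CGCert Finset MulAction
open scoped Pointwise

/-- Aut of an S(4, 7, 23) is simple of order 10200960 and 4-transitive. -/
theorem result {α : Type*} [Fintype α] [DecidableEq α] (hα : Fintype.card α = 23) {B : Set (Finset α)} (hB : Cfsg.IsSteinerSystem 4 7 B) : Cfsg.IsM23 (Cfsg.setSystemAut B) ∧ MulAction.IsMultiplyPretransitive (Cfsg.setSystemAut B) α 4 := by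
  obtain ⟨e, h⟩ := mod23 hα hB
  obtain ⟨φ, hφ⟩ := aut23 h
  have := simple23
  exact ⟨⟨φ.symm.isSimpleGroup, (Nat.card_congr φ.toEquiv).symm.trans st23.card⟩,
    mt_of_hom h.in φ hφ (mt_fix (R := [none]) (by simp) (by simp) (by simp [Y23]) (by simp))⟩

end Cfsg.Agent.S0413
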