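import Cfsg.Statements.S0426
import Cfsg.Agent.Lib.Spor.StModel

set_option autoImplicit false
open Cfsg

namespace Cfsg.Agent.S0426

open Cfsg CA.NatBits CA.Golay CA.M24Core CA.M24Sub CA.M24St2 CA.StSearch CA.StModel CA.CGCert Finset MulAction
open scoped Pointwise

/-- Aut of an S(4, 5, 11) is simple of order 7920 and sharply 4-transitive on points. -/
theorem result {α : Type*} [Fintype α] [DecidableEq α] (hα : Fintype.card α = 11) {B : Set (Finset α)} (hB : Cfsg.IsSteinerSystem 4 5 B) : Cfsg.IsM11 (Cfsg.setSystemAut B) ∧ MulAction.IsMultiplyPretransitive (Cfsg.setSystemAut B) α 4 ∧ ∀ x : Fin 4 ↪ α, MulAction.stabilizer (Cfsg.setSystemAut B) x = ⊥ := by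
  obtain ⟨e, h⟩ := mod11 hα hB
  obtain ⟨φ, hφ⟩ := aut11 h
  have := simple11
  refine ⟨⟨φ.symm.isSimpleGroup, (Nat.card_congr φ.toEquiv).symm.trans st11.card⟩, mt_of_hom h.in φ hφ mt11,
    fun x => eq_bot_iff.2 fun τ hτ => ?_⟩
  obtain ⟨g, rfl⟩ := φ.surjective τ
  have := sharp_of_mt mt11 (Set.toFinite _) (by
    rw [st11.card, Set.ncard_coe_finset, card_ds (by decide)]; decide +kernel) (x.trans e) (fun i => h.in _) g.2
    fun i => (hφ g _).symm.trans (congrArg e (DFunLike.congr_fun (mem_stabilizer_iff.1 hτ) i))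
  rw [show g = 1 from Subtype.ext this, map_one]; exact one_mem _

end Cfsg.Agent.S0426
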