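import Cfsg.Statements.S0429
import Cfsg.Agent.Lib.Fus.FusSrg
import Cfsg.Agent.S0410

set_option autoImplicit false
open Cfsg

namespace Cfsg.Agent.S0429

/-- Uniqueness of the strongly regular graph with parameters (77, 16, 0, 4). -/
theorem result {V W : Type*} [Fintype V] [Fintype W] {G : SimpleGraph V} {H : SimpleGraph W} [DecidableRel G.Adj] [DecidableRel H.Adj] (hG : G.IsSRGWith 77 16 0 4) (hH : H.IsSRGWith 77 16 0 4) : Nonempty (G ≃g H) := by
  classical
  obtain ⟨b, b1, b2, b3⟩ := CA.FusSrg.main hG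
  obtain ⟨c, c1, c2, c3⟩ := CA.FusSrg.main hH
  obtain ⟨e, he⟩ := Cfsg.Agent.S0410.result (CA.FusSrg.card_pl hG) (CA.FusSrg.card_pl hH) b1 c1
  have h1 : ∀ x, ∃ y, c y = (b x).image e := fun x => by
    have : (b x).image e ∈ Set.range c := he ▸ ⟨b x, ⟨x, rfl⟩, rfl⟩
    exact this
  choose φ hφ using h1
  have h2 : Function.Injective φ := fun x y h =>
    b2 (Finset.image_injective e.injective ((hφ x).symm.trans (h ▸ hφ y)))
  refine ⟨⟨Equiv.ofBijective φ ((Fintype.bijective_iff_injective_and_card φ).2 ⟨h2, hG.card.trans hH.card.symm⟩),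
    fun {x y} => ?_⟩⟩
  rw [Equiv.ofBijective_apply, Equiv.ofBijective_apply, c3, b3, hφ, hφ, Finset.disjoint_image e.injective]


end Cfsg.Agent.S0429
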