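import Cfsg.Statements.S0434
import Cfsg.Agent.Lib.Block.H28M11b
import Cfsg.Agent.Lib.Spor.CGParts
-- import your own Cfsg.Agent.* helpers here

set_option autoImplicit false
open Cfsg

namespace Cfsg.Agent.S0434

open Subgroup CA.H28M11 CA.H28Coord CA.CGroup CA.CGParts CA.NatBits CA.H28Syl CA.H28Trick CA.H28Simp

/-- Sylow 3-normalisers in a simple group of order 7920 have order 144 (so there are 55 Sylow 3-subgroups). -/
theorem result {G : Type*} [Group G] [Finite G] (hG : Cfsg.IsM11 G) (P : Sylow 3 G) : Nat.card (Subgroup.normalizer ((P : Subgroup G) : Set G)) = 144 := by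
  obtain ⟨hs, h⟩ := hG
  obtain ⟨φ, h1, h2⟩ := main h
  have hI : G12.In [cX, cY, cU] φ.range := h2 ▸ CG.Ok.in_gen fun c hc => r_valid (by
    simp only [List.mem_cons, List.not_mem_nil, or_false] at hc
    rcases hc with rfl | rfl | rfl <;> decide +kernel)
  obtain ⟨_, ⟨v, rfl⟩, hv⟩ := evalW_mem hI [4, 3, 1]
  obtain ⟨_, ⟨a, rfl⟩, ha⟩ := evalW_mem hI [5, 1, 5, 2]
  replace hv := r_of_eq hv (b := 0x71348629ab5) (by decide +kernel)
  replace ha := r_of_eq ha (b := 0x495b61a83270) (by decide +kernel)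
  have k1 : ∀ {c d : ℕ} {g k : G}, G12.R c (φ g) → G12.R d (φ k) → (g = k ↔ c = d) :=
    fun hg hk => ⟨fun e => r_uniq hg (e ▸ hk), fun e => h1 (G12.R_fun (r_of_eq hg e) hk)⟩
  have k2 : ∀ {c d : ℕ} {g k : G}, G12.R c (φ g) → G12.R d (φ k) →
      G12.R (comp 4 12 c d) (φ (g * k)) := fun hg hk => map_mul φ _ _ ▸ r_mul hg hk
  have k3 : ∀ {c : ℕ} {g : G}, G12.R c (φ g) → ∀ n, G12.R (pw12 c n) (φ (g ^ n)) :=
    fun hg n => map_pow φ _ _ ▸ r_pow hg n
  have k4 : ∀ {c : ℕ} {g : G}, G12.R c (φ g) → G12.R (conjP 4 12 0x71348629ab5 c)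
      (φ (v * g * v⁻¹)) := fun hg => by rw [map_mul, map_mul, map_inv]; exact r_conj hv hg
  have k0 : G12.R (idP 4 12) (φ 1) := map_one φ ▸ G12.R_one
  have := Fact.mk Nat.prime_three
  have := Fact.mk Nat.prime_two
  have a3 : orderOf a = 3 := orderOf_eq_prime ((k1 (k3 ha 3) k0).2 (by decide +kernel))
    (mt (k1 ha k0).1 (by decide +kernel))
  have v8 : orderOf v = 2 ^ (2 + 1) := orderOf_eq_prime_pow (mt (k1 (k3 hv _) k0).1
    (by decide +kernel)) ((k1 (k3 hv _) k0).2 (by decide +kernel))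
  have hb := k4 ha
  have e1 : v * a * v⁻¹ ∈ CC a := mem_CC.2 ((k1 (k2 hb ha) (k2 ha hb)).2 (by decide +kernel))
  have e2 := (k1 (k4 hb) (k2 ha hb)).2 (by decide +kernel)
  have b3 : orderOf (v * a * v⁻¹) = 3 := (CA.H28SC.orderOf_conj' v a).trans a3
  have e3 : v * a * v⁻¹ ∉ zpowers a := fun e => by
    obtain ⟨j, hj⟩ := (mem_zpowers_iff_xp a3).1 e
    have := (k1 (k3 ha j.val) hb).1 hj
    clear hj
    revert this j
    decide +kernel
  generalize hb' : v * a * v⁻¹ = b at *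
  have h3 := card_sup a3 (CC_le_NN a e1) fun i hi => by
    by_contra hc
    refine e3 (zpowers_le.2 hi (mem_zpowers_pow_iff.2 ?_))
    rw [b3]
    exact (Nat.prime_three.coprime_iff_not_dvd.2 fun e => hc (orderOf_dvd_iff_pow_eq_one.1
      (b3 ▸ e))).symm
  rw [b3] at h3
  have m1 := mem_sup_left (T := zpowers b) (mem_zpowers a)
  have m2 := mem_sup_right (S := zpowers a) (mem_zpowers b)
  have h4 : v ∈ normalizer ((zpowers a ⊔ zpowers b : Subgroup G) : Set G) :=
    mem_normalizer_fintype fun n hn => (sup_le (zpowers_le.2 (mem_comap.2 (hb'.symm ▸ m2 :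
      v * a * v⁻¹ ∈ zpowers a ⊔ zpowers b))) (zpowers_le.2 (mem_comap.2 (e2.symm ▸ mul_mem m1 m2 :
      v * b * v⁻¹ ∈ zpowers a ⊔ zpowers b))) : zpowers a ⊔ zpowers b ≤
      (zpowers a ⊔ zpowers b).comap (MulAut.conj v).toMonoidHom) hn
  let Q : Sylow 3 G := (IsPGroup.of_card (n := 2) h3).toSylow (by
    have := card_mul_index (zpowers a ⊔ zpowers b)
    rw [h3] at this
    omega)
  have h5 := (normalizer ((Q : Subgroup G) : Set G)).orderOf_dvd_natCard (x := v) h4
  have h6 := card_dvd_of_le (le_normalizer (H := (Q : Subgroup G)))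
  have h7 := not_dvd_normalizer (fun y hy => (sc5 h hy).1) (P := Q) (h3 ▸ by decide)
    (h3 ▸ by decide)
  have h8 := not_dvd_normalizer (fun y hy => (sc11 h hy).1) (P := Q) (h3 ▸ by decide)
    (h3 ▸ by decide)
  have h9 := card_mul_index (normalizer ((Q : Subgroup G) : Set G))
  have h10 := card_mul_index (normalizer ((P : Subgroup G) : Set G))
  have h11 := card_sylow_modEq_one 3 G
  rw [show (normalizer ((Q : Subgroup G) : Set G)).index = _ from
    (Sylow.card_eq_index_normalizer Q).symm, h] at h9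
  rw [show (normalizer ((P : Subgroup G) : Set G)).index = _ from
    (Sylow.card_eq_index_normalizer P).symm, h] at h10
  rw [v8] at h5
  rw [show Nat.card (Q : Subgroup G) = 9 from h3] at h6
  obtain ⟨k, hk⟩ := Nat.Coprime.mul_dvd_of_dvd_of_dvd (by decide) h5 h6
  have h12 : k ∣ 110 := Nat.dvd_of_mul_dvd_mul_left (by decide : 0 < 72) (hk ▸ ⟨_, h9.symm⟩)
  have := Nat.le_of_dvd (by decide) h12
  rw [hk] at h7 h8 h9
  rw [Nat.ModEq] at h11
  have : Nat.card (Sylow 3 G) = 55 := by interval_cases k <;> omega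
  rw [this] at h10
  omega

end Cfsg.Agent.S0434
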