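import Cfsg.Statements.S0439
import Cfsg.Agent.Lib.Spor.Tr3Basic

set_option autoImplicit false
open Cfsg

namespace Cfsg.Agent.S0439

/-- In the symmetric group of degree n ≥ 2, the set of transpositions is a conjugacy class of 3-transpositions which generates the group. -/
theorem result (n : ℕ) (hn : 2 ≤ n) : Cfsg.IsThreeTranspositionClass {σ : Equiv.Perm (Fin n) | σ.IsSwap} := by
  refine ⟨⟨fun d hd => hd.orderOf, ?_⟩, ?_, Equiv.Perm.closure_isSwap⟩
  · rintro _ ⟨x, y, hxy, rfl⟩ _ ⟨z, w, hzw, rfl⟩
    by_cases h1 : x = z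
    · subst h1
      by_cases h2 : y = w
      · subst h2; left; simp
      · right
        have := (Equiv.Perm.isThreeCycle_swap_mul_swap_same hxy hzw h2).orderOf
        rw [← this]; exact pow_orderOf_eq_one _
    by_cases h2 : x = w
    · subst h2
      by_cases h3 : y = z
      · subst h3; left; rw [Equiv.swap_comm y x]; simp
      · right
        rw [Equiv.swap_comm z x]
        have := (Equiv.Perm.isThreeCycle_swap_mul_swap_same hxy hzw.symm h3).orderOf
        rw [← this]; exact pow_orderOf_eq_one _
    by_cases h3 : y = z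
    · subst h3
      right
      rw [Equiv.swap_comm x y]
      have := (Equiv.Perm.isThreeCycle_swap_mul_swap_same hxy.symm hzw h2).orderOf
      rw [← this]; exact pow_orderOf_eq_one _
    by_cases h4 : y = w
    · subst h4
      right
      rw [Equiv.swap_comm x y, Equiv.swap_comm z y]
      have := (Equiv.Perm.isThreeCycle_swap_mul_swap_same hxy.symm hzw.symm h1).orderOf
      rw [← this]; exact pow_orderOf_eq_one _
    left
    apply CA.Tr3Basic.sq_of_commute (Equiv.swap_mul_self _ _) (Equiv.swap_mul_self _ _)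
    apply Equiv.Perm.Disjoint.commute
    intro i
    by_cases hi : i = x ∨ i = y
    · right
      rcases hi with rfl | rfl
      · exact Equiv.swap_apply_of_ne_of_ne h1 h2
      · exact Equiv.swap_apply_of_ne_of_ne h3 h4
    · left
      push Not at hi
      exact Equiv.swap_apply_of_ne_of_ne hi.1 hi.2
  · have h01 : (⟨0, by omega⟩ : Fin n) ≠ ⟨1, by omega⟩ := by simp
    refine ⟨Equiv.swap ⟨0, by omega⟩ ⟨1, by omega⟩, ⟨_, _, h01, rfl⟩, ?_⟩
    ext σ
    constructor
    · rintro ⟨x, y, hxy, rfl⟩
      exact Equiv.Perm.isConj_swap h01 hxy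
    · intro h
      obtain ⟨g, rfl⟩ := isConj_iff.1 h
      exact ⟨_, _, g.injective.ne h01, (Equiv.swap_apply_apply g _ _).symm⟩

end Cfsg.Agent.S0439
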