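import Cfsg.Statements.S0442
import Mathlib.Tactic.Group
import Mathlib.Tactic.Ring


set_option autoImplicit false
open Cfsg

namespace Cfsg.Agent.S0442

/-- A standard trick for producing elements of an involution centraliser: for an involution a and an element g, let b be the conjugate g⁻¹ * a * g. If a * b has odd order 2m + 1 then g * (a * b) ^ m commutes with a; if a * b has even order 2m then (a * b) ^ m and (a * (g * a * g⁻¹)) ^ m commute with a. -/
theorem result {G : Type*} [Group G] (a g : G) (ha : orderOf a = 2) : (∀ m : ℕ, orderOf (a * (g⁻¹ * a * g)) = 2 * m + 1 → Commute (g * (a * (g⁻¹ * a * g)) ^ m) a) ∧ (∀ m : ℕ, orderOf (a * (g⁻¹ * a * g)) = 2 * m → Commute ((a * (g⁻¹ * a * g)) ^ m) a ∧ Commute ((a * (g * a * g⁻¹)) ^ m) a) := by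
  have ha2 : a * a = 1 := by rw [← pow_two, ← ha, pow_orderOf_eq_one]
  have key : ∀ b : G, b * b = 1 → ∀ n : ℕ, a * (a * b) ^ n = ((a * b) ^ n)⁻¹ * a := by
    intro b hb n
    have h1 : a * (a * b) * a⁻¹ = (a * b)⁻¹ := by
      rw [← mul_assoc, ha2, one_mul, mul_inv_rev, inv_eq_of_mul_eq_one_right hb]
    have h2 : a * (a * b) ^ n * a⁻¹ = ((a * b) ^ n)⁻¹ := by rw [← conj_pow, h1, inv_pow]
    rw [← h2]; group
  have ev : ∀ b : G, b * b = 1 → ∀ m : ℕ, (a * b) ^ (2 * m) = 1 → Commute ((a * b) ^ m) a := by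
    intro b hb m h
    have : ((a * b) ^ m)⁻¹ = (a * b) ^ m :=
      inv_eq_of_mul_eq_one_right (by rw [← pow_add, ← two_mul, h])
    have h2 := key b hb m
    rw [this] at h2
    exact h2.symm
  have hb : g⁻¹ * a * g * (g⁻¹ * a * g) = 1 := by
    rw [show g⁻¹ * a * g * (g⁻¹ * a * g) = g⁻¹ * (a * a) * g by group, ha2]; group
  have hb' : g * a * g⁻¹ * (g * a * g⁻¹) = 1 := by
    rw [show g * a * g⁻¹ * (g * a * g⁻¹) = g * (a * a) * g⁻¹ by group, ha2]; group
  refine ⟨fun m h => ?_, fun m h => ⟨ev _ hb m (h ▸ pow_orderOf_eq_one _), ev _ hb' m ?_⟩⟩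
  · set c := a * (g⁻¹ * a * g) with hc
    have h1 : c ^ (2 * m + 1) = 1 := h ▸ pow_orderOf_eq_one _
    have h2 := key _ hb (m + 1)
    rw [← hc] at h2
    have h3 : (c ^ (m + 1))⁻¹ = c ^ m :=
      inv_eq_of_mul_eq_one_right (by rw [← pow_add, ← h1]; congr 1; ring)
    rw [h3, pow_succ', ← mul_assoc] at h2
    have h4 : a * c = g⁻¹ * a * g := by rw [hc, ← mul_assoc, ha2, one_mul]
    rw [h4] at h2
    show g * c ^ m * a = a * (g * c ^ m)
    rw [mul_assoc, ← h2]; group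
  · have h1 : (a * (g⁻¹ * a * g)) ^ (2 * m) = 1 := h ▸ pow_orderOf_eq_one _
    have ha' : a⁻¹ = a := inv_eq_of_mul_eq_one_right ha2
    have h2 : a * (g * a * g⁻¹) = (g * (a * (g⁻¹ * a * g)) * g⁻¹)⁻¹ := by
      simp only [mul_inv_rev, inv_inv, ha']; group
    rw [h2, inv_pow, conj_pow, h1]; group

end Cfsg.Agent.S0442
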