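import Cfsg.Statements.S0443
import Cfsg.Agent.Lib.Loc.AmbSyl

set_option autoImplicit false
open Cfsg

namespace Cfsg.Agent.S0443

open CA.Amb CA.AmbSyl

/-- Two definitions of a 2-central involution agree: an element t of order 2 of a finite group lies in the centre of some Sylow 2-subgroup if and only if its centraliser contains some Sylow 2-subgroup. -/
theorem result {G : Type*} [Group G] [Finite G] (t : G) (ht : orderOf t = 2) : Cfsg.IsTwoCentralInvolution t ↔ ∃ P : Sylow 2 G, (P : Subgroup G) ≤ Subgroup.centralizer ({t} : Set G) := by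
  haveI : Fact (Nat.Prime 2) := ⟨Nat.prime_two⟩
  constructor
  · rintro ⟨_, P, _, h⟩
    exact ⟨P, fun x hx => Subgroup.mem_centralizer_singleton_iff.2 (h x hx)⟩
  · rintro ⟨P, h⟩
    have h' : ∀ x ∈ P, x * t = t * x := fun x hx => Subgroup.mem_centralizer_singleton_iff.1 (h hx)
    refine ⟨ht, P, ?_, h'⟩
    have := (sylIn_top P).le_of_norm' (Q := Subgroup.zpowers t)
      (isPGroup_zpowers_of_orderOf (k := 1) (by simpa using ht)) le_top
      (norm_of_centralizer (Subgroup.zpowers_le.2 (mem_centralizer_sub.2 h')))
    exact this (Subgroup.mem_zpowers t)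

end Cfsg.Agent.S0443
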