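import Cfsg.Statements.S0446
import Cfsg.Agent.Lib.Loc.AmbSyl

set_option autoImplicit false
open Cfsg

namespace Cfsg.Agent.S0446

open CA.Amb CA.AmbSyl

/-- Every finite group of even order contains a 2-central involution, i.e. an element of order 2 in the centre of some Sylow 2-subgroup. -/
theorem result {G : Type*} [Group G] [Finite G] (h : Even (Nat.card G)) : ∃ t : G, Cfsg.IsTwoCentralInvolution t := by
  haveI : Fact (Nat.Prime 2) := ⟨Nat.prime_two⟩
  obtain ⟨P⟩ : Nonempty (Sylow 2 G) := inferInstance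
  have h1 := (sylIn_top P).ne_bot (by rw [Subgroup.card_top]; exact h.two_dvd)
  obtain ⟨t, ht, ho⟩ := exists_orderOf_eq_of_ne_bot (P.isPGroup'.to_le inf_le_left)
    (center_ne_bot P.isPGroup' h1)
  exact ⟨t, ho, P, ht.1, mem_centralizer_sub.1 ht.2⟩

end Cfsg.Agent.S0446
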