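import Cfsg.Statements.S0458
import Cfsg.Agent.Lib.Spor.J3Perm

set_option autoImplicit false
open Cfsg

namespace Cfsg.Agent.S0458

/-- Janko's third group exists as a transitive permutation group of degree 6156 with point stabiliser of order 8160: a simple group of order 50232960. -/
theorem result : ∃ H : Subgroup (Equiv.Perm (Fin 6156)), Cfsg.IsJ3 H ∧ MulAction.IsPretransitive H (Fin 6156) ∧ Nat.card (MulAction.stabilizer H (0 : Fin 6156)) = 8160 := by
  open CA.J3Perm CA.CPoint in
  obtain ⟨h1, h2⟩ := trans_stab (full_trans L0 hC L0_light L0_eqns L0_H L0_full)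
    (L0.stab_eq hC L0_light L0_eqns L0_H)
  refine ⟨_, ⟨CA.J3Perm.L0_simple, CA.J3Perm.L0_card⟩, h1, ?_⟩
  exact (congrArg (fun K : Subgroup _ => Nat.card K) h2).trans
    (CA.CSimple.card_subgroupOf CA.J3Perm.L0 CA.J3Perm.L0_H)

end Cfsg.Agent.S0458
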