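import Cfsg.Statements.S0459
import Cfsg.Agent.Lib.Spor.RuPerm

set_option autoImplicit false
open Cfsg

namespace Cfsg.Agent.S0459

/-- The Rudvalis group exists as a transitive permutation group of degree 4060: simple of order 145926144000, with point stabiliser of order 35942400 containing a simple subgroup of order 17971200 (the order of the Tits group). -/
theorem result : ∃ H : Subgroup (Equiv.Perm (Fin 4060)), Cfsg.IsRu H ∧ MulAction.IsPretransitive H (Fin 4060) ∧ Nat.card (MulAction.stabilizer H (0 : Fin 4060)) = 35942400 ∧ ∃ T : Subgroup (MulAction.stabilizer H (0 : Fin 4060)), Cfsg.IsTits T := by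
  have gen : ∀ {G : Type} [Group G] {T H A : Subgroup G}, T ≤ H → H ≤ A →
      ∃ T' : Subgroup (H.subgroupOf A), Nonempty (T' ≃* T) := fun {G} _ {T H A} h1 h2 =>
    ⟨(T.subgroupOf A).subgroupOf (H.subgroupOf A),
      ⟨(Subgroup.subgroupOfEquivOfLe (H := T.subgroupOf A) (K := H.subgroupOf A)
        (fun _ hx => h1 hx)).trans (Subgroup.subgroupOfEquivOfLe (h1.trans h2))⟩⟩
  open CA.RuPerm CA.CPoint in
  obtain ⟨h1, h2⟩ := trans_stab (full_trans L0 hC L0_light L0_eqns L0_H L0_full)
    (L0.stab_eq hC L0_light L0_eqns L0_H)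
  open CA.RuPerm in
  refine ⟨_, ⟨L0_simple, L0_card⟩, h1, (congrArg (fun K : Subgroup _ => Nat.card K) h2).trans
    (CA.CSimple.card_subgroupOf L0 L0_H), ?_⟩
  have key := gen CA.RuPerm.T_le CA.RuPerm.L0.hs_le
  rw [← h2] at key
  obtain ⟨T, ⟨e⟩⟩ := key
  have hs := CA.RuPerm.TL0_simple
  exact ⟨T, e.isSimpleGroup, (Nat.card_congr e.toEquiv).trans CA.RuPerm.TL0_card⟩

end Cfsg.Agent.S0459
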