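import Cfsg.Statements.S0460
import Cfsg.Agent.Lib.Spor.ONSub

set_option autoImplicit false
open Cfsg

namespace Cfsg.Agent.S0460

/-- The O'Nan group exists as a transitive permutation group of degree 122760: simple of order 460815505920, point stabiliser of order 3753792, and containing simple subgroups of orders 175560 and 7920. -/
theorem result : ∃ H : Subgroup (Equiv.Perm (Fin 122760)), Cfsg.IsON H ∧ MulAction.IsPretransitive H (Fin 122760) ∧ Nat.card (MulAction.stabilizer H (0 : Fin 122760)) = 3753792 ∧ (∃ K : Subgroup H, Cfsg.IsJ1 K) ∧ (∃ K : Subgroup H, Cfsg.IsM11 K) := by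
  open CA.ONPerm CA.ONPres in
  obtain ⟨h1, h2⟩ := CA.CPoint.trans_stab trans hst
  refine ⟨CA.ONPerm.C.grp CA.ONPerm.gens, ⟨CA.ONPres.simple, CA.ONPres.card⟩, h1, ?_, CA.ONSub.exJ1, CA.ONSub.exM11⟩
  exact (congrArg (fun K : Subgroup _ => Nat.card K) h2).trans
    ((Nat.card_congr (Subgroup.subgroupOfEquivOfLe CA.ONPres.hle).toEquiv).trans CA.ONPres.cardH)

end Cfsg.Agent.S0460
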