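import Cfsg.Statements.S0471
import Cfsg.Agent.Lib.Spor.FiCover
import Cfsg.Agent.Lib.Spor.FiU6
import Cfsg.Agent.Lib.Lin.SmallF

set_option autoImplicit false
open Cfsg

namespace Cfsg.Agent.S0471

/-- The Fischer group of order 64561751654400 exists as a 3-transposition group: a simple group of that order generated by a conjugacy class of 3510 3-transpositions, the centraliser of each being a non-split double cover of PSU(6, 2). -/
theorem result : ∃ (G : Type) (_ : Group G) (_ : Finite G), Cfsg.IsFi22 G ∧ ∃ D : Set G, Cfsg.IsThreeTranspositionClass D ∧ Nat.card D = 3510 ∧ ∀ d ∈ D, ∃ (F : Type) (_ : Field F) (_ : Fintype F), Fintype.card F = 4 ∧ Cfsg.IsNonsplitDoubleCover (Subgroup.centralizer ({d} : Set G)) (Cfsg.PSU 6 F 2) := by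
  obtain ⟨M⟩ := CA.Fi.model22
  obtain ⟨M'⟩ := CA.Fi.model21
  obtain ⟨e⟩ := CA.FiU6.iso M' CA.SmallF.F4 CA.SmallF.card_F4
  exact ⟨_, _, M.finite, ⟨CA.FiSimple.simple22 M, CA.Fi.card22 M⟩, _, M.prim.cls, M.ncard,
    fun d hd => ⟨CA.SmallF.F4, _, _, CA.SmallF.card_F4,
      CA.CTrans.dc_congr (MulEquiv.refl _) e (CA.FiCover.dc22 M M' hd)⟩⟩

end Cfsg.Agent.S0471
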