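import Cfsg.Statements.S0476
import Cfsg.Agent.Lib.Spor.H28J4B
-- import your own Cfsg.Agent.* helpers here

set_option autoImplicit false
open Cfsg

namespace Cfsg.Agent.S0476

open CA.H28J4 Subgroup CA.CNet CA.CWord CA.BM CA.BitW CA.CMat CA.J4D CA.J4Dc CA.J4Mod Matrix in
theorem bound {G : Type} [Group G] [Finite G] {γ γ' : ℕ → G} {μ : G →* Mt} (U : Su γ γ' μ) :
    Nat.card (centralizer {ev γ' [76]}) ≤ 77 * 283115520 := by
  have hE := eq_of U.inj U.b
  have hE' := eq_of U.inj U.b'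
  have same : ∀ w, (∀ a ∈ w, a < 62) → ev γ' w = ev γ w := fun w h => U.inj (by rw [U.b, U.b', evl_eq w h])
  obtain ⟨H, A, mH, cH, hV, hc, hle, hA, hlo⟩ := core hE (ne_of U.b) U.top
  have gq : ∀ w : Word, (∀ b ∈ w, 4 ≤ b ∧ b < 26) → ev γ w ∈ grp γ qs := fun w h => ev_mem' fun a ha =>
    ev_gen γ _ ▸ mem_grp γ ((by decide : ∀ b < 26, 4 ≤ b → [2 * (b / 2)] ∈ qs) a (h a ha).2 (h a ha).1)
  have zV : ev γ' [76] ∈ grp γ qs := by
    rw [hE' _ _ (allR_spec hD (show 7 < 20 by decide)), same _ (by decide)]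
    exact gq _ (by decide)
  have hq : ∀ q ∈ [4, 6, 8, 10, 12, 14, 16, 18, 20, 22, 24], eqM F' [q, q] [] = true ∧
      ∀ r ∈ [4, 6, 8, 10, 12, 14, 16, 18, 20, 22, 24], eqM F' [q, r] [r, q] = true := by decide +kernel
  have cm : ∀ q ∈ [4, 6, 8, 10, 12, 14, 16, 18, 20, 22, 24], ∀ r ∈ [4, 6, 8, 10, 12, 14, 16, 18, 20, 22, 24],
      ev γ' [q] * ev γ' [r] = ev γ' [r] * ev γ' [q] := fun q a r b => by
    rw [← ev_append, ← ev_append]; exact hE' _ _ ((hq q a).2 r b)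
  have pc := P_cl cm (fun q a => (ev_append γ' [q] [q]).symm.trans (hE' _ _ (hq q a).1)) 1
  have ql : ∀ w ∈ qs, ∃ q ∈ [4, 6, 8, 10, 12, 14, 16, 18, 20, 22, 24], ev γ w = ev γ' [q] := fun w hw => by
    obtain ⟨q, a, rfl, b⟩ := (by decide : ∀ w ∈ qs, ∃ q ∈ [4, 6, 8, 10, 12, 14, 16, 18, 20, 22, 24], w = [q] ∧ q < 62) w hw
    exact ⟨q, a, (same _ (by simpa)).symm⟩
  have vP : ∀ v ∈ grp γ qs, v ∈ P (fun q => ev γ' [q]) [4, 6, 8, 10, 12, 14, 16, 18, 20, 22, 24] 1 := fun v hv => by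
    refine closure_induction_right (p := fun v _ => v ∈ P _ _ 1) pc.1 ?_ ?_ hv <;> rintro x - _ ⟨w, hw, rfl⟩ h <;>
      obtain ⟨q, a, e⟩ := ql w hw
    · exact e ▸ pc.2 q a x h
    · rw [e, inv_eq_of_mul_eq_one_right ((ev_append γ' [q] [q]).symm.trans (hE' _ _ (hq q a).1))]
      exact pc.2 q a x h
  have cV : ∀ v ∈ grp γ qs, ∀ w ∈ grp γ qs, v * w = w * v := fun v hv w hw =>
    (show grp γ qs ≤ centralizer (grp γ qs) from (grp_le_iff γ).2 fun a ha => by
      rw [grp, centralizer_closure]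
      rintro _ ⟨b, hb, rfl⟩
      obtain ⟨q, c, e⟩ := ql a ha
      obtain ⟨r, d, e'⟩ := ql b hb
      rw [e, e']; exact cm r d q c) hw v hv
  have hm : Nat.card ↥(centralizer {ev γ' [76]} ⊓ H) ≤ 283115520 := by
    have h1 := wk_le U (O := {v | ∃ h ∈ H, h⁻¹ * ev γ' [76] * h = v}) steps _ 0 _ ∅ (by
      rintro s hs _ ⟨h, hh, rfl⟩
      have := hsteps.2 s hs
      exact ⟨h * ev γ' [s], mul_mem hh (same [s] (by simp; omega) ▸ mH [s] (by simpa)), by group⟩) hwk (U.one 76)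
      ⟨1, one_mem _, by group⟩ (by simp) (by simp)
    have h2 := cls_le (H := H) (z := ev γ' [76]) _ fun v h => h
    rw [hsteps.1, Finset.card_empty, zero_add] at h1
    have := (Nat.mul_le_mul_right _ h1).trans h2
    omega
  refine cent_le hV zV (let ⟨k, _, h⟩ := hr.2.2; ne_of U.b' _ h) hc hle hA hm (fun j => [1, 60, 0, 0, 16].getD j 0) fun j => ?_
  by_cases j0 : j = 0
  · subst j0; exact .inl ⟨rfl, rfl⟩
  have h1 := allR_spec hcnt j.2
  rw [show Nat.beq j 0 = false from Bool.eq_false_iff.2 fun h => j0 (Fin.ext (Nat.eq_of_beq_eq_true h)), Bool.false_or, forceL_eq, force_eq, band_iff,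
    okS_iff, lmap_eq, nth_eq_getD tests] at h1
  obtain ⟨h2, h3⟩ := htest j j.2
  have h4 := cnt_le U (good := fun e => e ∈ grp γ qs ∧ (ev γ (gl j))⁻¹ * e * ev γ (gl j) ∈ grp γ qs) (us := rw (nth CA.H28J4.S0 0 j))
    (ok := fun S => okS ((tests.getD j []).map (evl (E 112) eI F')) S (Nat.shiftRight S 128)) (fun S e h g => (okS_iff _ _ _).2
      fun i hi => by
        rw [List.length_map] at hi
        have e1 := h1.1 i (by rwa [List.length_map])
        rw [rw_shift] at e1 ⊢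
        rw [h 0 (by decide), h (i + 1) (by omega), ← e1, vecMul_vecMul, vecMul_vecMul,
          List.getD_eq_getElem _ _ (by rwa [List.length_map]), List.getElem_map, ← U.b', ← map_mul, ← map_mul]
        obtain ⟨u, -, e2, e3⟩ := h3 _ (List.getElem_mem hi)
        have gl1 : ∀ a ∈ gl j, a < 62 := (by decide : ∀ j : Fin 7, ∀ a ∈ gl j, a < 62) j
        rw [e2, ev_append, ev_append, ev_winv, same _ gl1, same u fun a ha => (e3 a ha).2.trans (by decide)]
        congr 2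
        calc _ = ev γ (gl j) * (((ev γ (gl j))⁻¹ * e * ev γ (gl j)) * ev γ u) * (ev γ (gl j))⁻¹ := by group
          _ = _ := by rw [cV _ g.2 _ (gq u e3)]; group) [4, 6, 8, 10, 12, 14, 16, 18, 20, 22, 24] (nth CA.H28J4.S0 0 j) 1 fun i _ => by rw [map_one, vecMul_one]
  have h5 : {v | v ∈ grp γ qs ∧ (ev γ (gl j))⁻¹ * v * ev γ (gl j) ∈ grp γ qs}.ncard ≤ nth [0, 8, 1, 1, 2] 1 j :=
    le_trans (Set.ncard_le_ncard fun v hv => And.intro (vP v hv.1) hv) (h4.trans (Nat.le_of_ble_eq_true h1.2))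
  refine .inr (lt_of_le_of_lt (Nat.mul_le_mul_right _ (Nat.sub_le_sub_right h5 1)) (lt_of_lt_of_le ?_ (Nat.mul_le_mul_left _ (hlo j))))
  exact (by decide +kernel : ∀ j : Fin 7, j ≠ 0 → (nth [0, 8, 1, 1, 2] 1 j - 1) * 283115520 < ([1, 60, 0, 0, 16].getD j 0 + 1) * lo j) j j0

open CA.H28J4 Subgroup CA.CNet CA.CWord CA.BM CA.BitW CA.CMat CA.Golay CA.Perm24 Matrix in
theorem psi {G : Type} [Group G] [Finite G] {γ γ' : ℕ → G} {μ : G →* Mt} (U : Su γ γ' μ) :
    ∃ ψ : grp γ' (gN ++ [76] :: es) →* Equiv.Perm GolayPt, ∀ a ∈ acts, ∃ h, gE.Rep 8 a.2.2 (ψ ⟨ev γ' [a.1], h⟩) := by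
  let col : ℕ → Vc := fun k i => bt (ZMod 2) B (128 * i + k)
  let lab : GolayPt → Set Vc := fun p => col '' {k | k < 77 ∧ tb (nth masks 0 (gE.ix p)) k = true}
  have nall : ∀ {n : ℕ} {p : ℕ → Bool}, (!allR n p) = true → ∃ i < n, p i = false := fun {n p} h => by
    by_contra e
    push Not at e
    induction n with
    | zero => exact Bool.noConfusion h
    | succ n ih =>
      refine ih ?_ fun i hi => e i (by omega)
      have : allR (n + 1) p = band (p n) (allR n p) := rfl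
      rwa [this, Bool.eq_true_of_not_eq_false (e n (by omega))] at h
  have ci : ∀ k < 77, ∀ l < 77, col k = col l → k = l := by
    have : ∀ k < 77, ∀ l < k, col k ≠ col l := fun k hk l hl e => by
      obtain ⟨i, hi, h⟩ := nall (allR_spec (allR_spec hcol hk) hl)
      rw [tb_eq, tb_eq, bt_inj.1 (congrFun e ⟨i, hi⟩)] at h
      simp at h
    intro k hk l hl e
    rcases lt_trichotomy k l with h | h | h
    exacts [absurd e.symm (this l hl k h), h, absurd e (this k hk l h)]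
  have li : Function.Injective lab := by
    have : ∀ p q, gE.ix q < gE.ix p → lab p ≠ lab q := fun p q h e => by
      obtain ⟨k, hk, h⟩ := nall (allR_spec (allR_spec hmask (gE.ix_lt p)) h)
      have m : ∀ p, col k ∈ lab p ↔ tb (nth masks 0 (gE.ix p)) k = true := fun p =>
        ⟨fun ⟨l, a, b⟩ => ci l a.1 k hk b ▸ a.2, fun h => ⟨k, ⟨hk, h⟩, rfl⟩⟩
      rw [Bool.eq_iff_iff.2 ((m p).symm.trans (e ▸ m q))] at h
      simp at h
    intro p q e
    rcases lt_trichotomy (gE.ix p) (gE.ix q) with h | h | h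
    exacts [absurd e.symm (this q p h), gE.ix_inj h, absurd e (this p q h)]
  let R : G → Equiv.Perm GolayPt → Prop := fun g π => ∀ p, (μ g).mulVec '' lab p = lab (π p)
  have Rm : ∀ g h π ρ, R g π → R h ρ → R (g * h) (π * ρ) := fun g h π ρ a b p => by
    rw [Equiv.Perm.mul_apply, ← a, ← b, Set.image_image (μ g).mulVec (μ h).mulVec, map_mul]
    simp only [mulVec_mulVec]
  have R1 : R 1 1 := fun p => by simp
  have ha : ∀ a ∈ acts, ∃ π, gE.Rep 8 a.2.2 π ∧ R (ev γ' [a.1]) π := fun a h => by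
    obtain ⟨π, hπ⟩ := gE.exists_rep_of_valid (hact'.2.1 a h).1
    have h1 := lall_iff.1 hact a h
    rw [CA.H28J4.actOK, force_eq] at h1
    have h2 := fun k hk => band_iff.1 (force_eq (T7 a.2.1 k) _ ▸ allR_spec h1 (a := k) hk)
    have h3 : ∀ k < 77, (μ (ev γ' [a.1])).mulVec (col k) = col (T7 a.2.1 k) := fun k hk => funext fun i => by
      have := allR_spec (band_iff.1 (h2 k hk).2).1 i.2
      rw [beq_iff_eq, tb_eq, tb_eq, ← bt_inj, bt_mul rfl i.2 (by omega)] at this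
      rw [U.one]
      exact (Fin.sum_univ_eq_sum_range (fun j => bt (ZMod 2) (F' a.1) (128 * i + j) * bt (ZMod 2) B (128 * j + k)) 112).trans this
    have h4 : ∀ k < 77, ∀ p, tb (nth masks 0 (gE.ix p)) k = tb (nth masks 0 (gE.ix (π p))) (T7 a.2.1 k) := fun k hk p => by
      rw [hπ.2]; exact beq_iff_eq.1 (allR_spec (band_iff.1 (h2 k hk).2).2 (gE.ix_lt p))
    refine ⟨π, hπ, fun p => Set.ext fun v => ⟨?_, ?_⟩⟩
    · rintro ⟨_, ⟨k, ⟨a1, a2⟩, rfl⟩, rfl⟩
      exact ⟨_, ⟨Nat.blt_eq.mp (band_iff.1 (h2 k a1).1).1, h4 k a1 p ▸ a2⟩, (h3 k a1).symm⟩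
    · rintro ⟨l, ⟨a1, a2⟩, rfl⟩
      obtain ⟨k, hk, e⟩ := nall (band_iff.1 (h2 l a1).1).2
      obtain rfl : T7 a.2.1 k = l := Nat.eq_of_beq_eq_true (by simpa using e)
      exact ⟨_, ⟨k, ⟨hk, (h4 k hk p).trans a2⟩, rfl⟩, h3 k hk⟩
  have key : ∀ g : grp γ' (gN ++ [76] :: es), ∃ π, R g π := fun ⟨g, hg⟩ => by
    refine closure_induction (p := fun g _ => ∃ π, R g π) ?_ ⟨1, R1⟩ (fun g h _ _ ⟨π, a⟩ ⟨ρ, b⟩ => ⟨_, Rm _ _ _ _ a b⟩)
      (fun g _ ⟨π, a⟩ => ⟨π⁻¹, fun p => ?_⟩) hg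
    · rintro _ ⟨w, hw, rfl⟩
      obtain ⟨a, h, rfl⟩ := List.mem_map.1 (hact'.1 ▸ hw)
      exact (ha a h).imp fun _ h => h.2
    · conv_lhs => rw [← π.apply_symm_apply p, ← a, Set.image_image]
      simp only [mulVec_mulVec, ← map_mul, inv_mul_cancel, map_one, one_mulVec, Set.image_id']
      rfl
  choose f hf using key
  have un : ∀ g π ρ, R g π → R g ρ → π = ρ := fun g π ρ a b => Equiv.ext fun p => li ((a p).symm.trans (b p))
  refine ⟨MonoidHom.mk' f fun g h => un _ _ _ (hf _) (Rm _ _ _ _ (hf g) (hf h)), fun a h => ?_⟩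
  obtain ⟨π, a1, a2⟩ := ha a h
  have m : ev γ' [a.1] ∈ grp γ' (gN ++ [76] :: es) := mem_grp γ' (hact'.1 ▸ List.mem_map_of_mem h)
  exact ⟨m, show gE.Rep 8 a.2.2 (f ⟨_, m⟩) from un _ _ _ a2 (hf ⟨_, m⟩) ▸ a1⟩

theorem extra_equiv {G G' : Type*} [Group G] [Group G'] {p : ℕ} (e : G ≃* G') (h : IsExtraspecial p G) : IsExtraspecial p G' := by
  have h1 : (Subgroup.center G).map e.toMonoidHom = Subgroup.center G' := by
    ext y
    refine ⟨?_, fun hy => ⟨e.symm y, Subgroup.mem_center_iff.2 fun g => e.injective (by simpa using Subgroup.mem_center_iff.1 hy (e g)),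
      e.apply_symm_apply y⟩⟩
    rintro ⟨x, hx, rfl⟩
    exact Subgroup.mem_center_iff.2 fun g => by simpa using congrArg e (Subgroup.mem_center_iff.1 hx (e.symm g))
  refine ⟨⟨h.1.1.of_equiv e, by rw [← h1, ← h.1.2.1, CA.PGFrattini.map_frattini_equiv], ?_⟩, ?_⟩
  · rw [← h1, ← h.1.2.2, map_commutator_eq, MonoidHom.range_eq_top.2 e.surjective, commutator_def]
  · rw [← h1, Subgroup.card_map_of_injective e.injective, h.2]

/-- In some simple group of the order of Janko's fourth group there is an involution whose centraliser C has a normal extraspecial subgroup Q of order 2 ^ 13, a normal subgroup N of order 3 · 2 ^ 13 containing Q, and a subgroup M of index 2 containing N as a normal subgroup with M / N simple of order 443520. -/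
theorem result : ∃ (G : Type) (_ : Group G) (_ : Finite G), Cfsg.IsJ4 G ∧ ∃ z : G, orderOf z = 2 ∧ ∃ (Q N M : Subgroup (Subgroup.centralizer ({z} : Set G))), Q.Normal ∧ N.Normal ∧ Q ≤ N ∧ N ≤ M ∧ Nat.card Q = 2 ^ 13 ∧ Cfsg.IsExtraspecial 2 Q ∧ Nat.card N = 3 * 2 ^ 13 ∧ M.index = 2 ∧ ∃ (_ : (N.subgroupOf M).Normal), Cfsg.IsM22 (M ⧸ N.subgroupOf M) := by
  open CA.H28J4 Subgroup CA.CNet CA.CWord CA.BM CA.BitW CA.CMat CA.Golay CA.Perm24 CA.M24Core CA.M24Sub in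
  obtain ⟨G, _, _, γ, γ', μ, U⟩ := setup
  have hE' := eq_of U.inj U.b'
  have : Fact (Nat.Prime 2) := ⟨by decide⟩
  have : Fact (Nat.Prime 3) := ⟨by decide⟩
  have z1 : ev γ' [76] ≠ 1 := let ⟨k, _, h⟩ := hr.2.2; ne_of U.b' _ h
  have hb := bound U
  obtain ⟨ψ, hψ⟩ := psi U
  obtain ⟨q1, q2, -⟩ := CA.Fi.extra_of (γ := γ') (p := 2) (n := 6) (by decide) (z := [76]) (es := es) rfl _
    (fun e he => by rw [← ev_subst, ← ev_subst]; exact hE' _ _ (lall_iff.1 hex e he)) z1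
  have le : grp γ' (gN ++ [76] :: es) ≤ centralizer {ev γ' [76]} := (grp_le_iff γ').2 fun w hw =>
    mem_centralizer_singleton_iff.2 (by rw [← ev_append, ← ev_append]; exact hE' _ _ (lall_iff.1 hz w hw))
  have lQ : grp γ' ([76] :: es) ≤ grp γ' (gN ++ [76] :: es) := grp_mono γ' fun w h => List.mem_append_right _ h
  have nQ : grp γ' (gN ++ [76] :: es) ≤ normalizer (grp γ' ([76] :: es) : Set G) := (grp_le_iff γ').2 fun w hw => by
    rcases List.mem_append.1 hw with h | h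
    · refine CA.J4Dc.mem_norm ?_
      rintro _ ⟨q, hq, rfl⟩
      obtain ⟨i, hi, rfl⟩ := exists_nth_of_mem [] h
      obtain ⟨j, hj, rfl⟩ := exists_nth_of_mem [] hq
      rw [← ev_winv, ← ev_append, ← ev_append, hE' _ _ (allR_spec (allR_spec hnt.1 hi) hj)]
      exact CA.J4Mod.ev_mem' fun a ha => ev_gen γ' _ ▸ mem_grp γ' (hnt.2 i hi j hj a ha)
    · exact le_normalizer (mem_grp γ' h)
  have k1 : ∀ a ∈ acts.drop 3, ∀ h, (⟨ev γ' [a.1], h⟩ : grp γ' (gN ++ [76] :: es)) ∈ ψ.ker := fun a ha _ => by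
    obtain ⟨_, e⟩ := hψ a (List.mem_of_mem_drop ha)
    rw [hact'.2.2.2.1 a ha] at e
    exact (pG gE).R_fun e (pG gE).R_one
  have kQ : (grp γ' ([76] :: es)).subgroupOf _ ≤ ψ.ker := fun x hx => by
    obtain ⟨y, a, b⟩ := (show grp γ' ([76] :: es) ≤ ψ.ker.map (Subgroup.subtype _) from (grp_le_iff γ').2 fun w hw => by
      obtain ⟨a, h, rfl⟩ := (by decide +kernel : ∀ w ∈ [76] :: es, ∃ a ∈ acts.drop 3, [a.1] = w) w hw
      exact ⟨_, k1 a h (lQ (mem_grp γ' hw)), rfl⟩) hx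
    exact Subtype.ext b ▸ a
  have cQ := (Nat.card_congr (subgroupOfEquivOfLe lQ).toEquiv).trans q2
  have d3 : 3 ∣ Nat.card ψ.ker := by
    obtain ⟨a, h, e⟩ := (by decide +kernel : ∃ a ∈ acts.drop 3, a.1 = 74)
    have := k1 a h (e ▸ mem_grp γ' (by decide))
    rw [← orderOf_eq_prime (x := (⟨_, this⟩ : ψ.ker)) (p := 3) (Subtype.ext (Subtype.ext ?_)) fun h => ?_]
    · exact orderOf_dvd_natCard _
    · show ev γ' [a.1] ^ 3 = 1
      rw [e, ← ev_wpow]; exact hE' _ _ hr.1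
    · obtain ⟨k, _, h'⟩ := hr.2.1
      exact ne_of U.b' _ h' (e ▸ congrArg (·.1.1) h)
  have dk := Nat.le_of_dvd Nat.card_pos (Nat.Coprime.mul_dvd_of_dvd_of_dvd (by decide) d3 (cQ ▸ card_dvd_of_le kQ))
  have lM : Spor.M22 ≤ ψ.range := by
    rw [← map22, ← st22.gen, map_le_iff_le_comap, CA.CGroup.CG.gen, closure_le]
    rintro g ⟨c, hc, hg⟩
    obtain ⟨a, h, rfl⟩ := List.mem_map.1 (hact'.2.2.1 ▸ hc)
    obtain ⟨_, e⟩ := hψ a (List.mem_of_mem_take h)
    exact ⟨_, e.unique hg⟩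
  have i1 : Spor.M22.relIndex ψ.range ≠ 1 := fun h => by
    obtain ⟨m, e⟩ := hψ _ hact'.2.2.2.2
    have := (smul_mem_Cw ⟨_, (relIndex_eq_one.1 h ⟨⟨_, m⟩, rfl⟩).1.1⟩).2 ((ds_mem_Cw (isC_lt hoc.1)).2 hoc.1)
    open scoped Pointwise in replace this : ψ ⟨_, m⟩ • gE.ds _ ∈ Cw := this
    rw [← e.ds_img, ← img24_eq] at this
    exact absurd ((ds_mem_Cw (by decide +kernel)).1 this) (by rw [hoc.2]; decide)
  have i2 := (Spor.M22.subgroupOf ψ.range).index_mul_card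
  have i0 := (Spor.M22.subgroupOf ψ.range).index_ne_zero_of_finite
  rw [Nat.card_congr (subgroupOfEquivOfLe lM).toEquiv, card_M22] at i2
  have i3 := ψ.ker.card_mul_index
  rw [index_ker, ← i2] at i3
  have i4 := card_le_of_le le
  rw [← relIndex] at i0 i3
  have i5 : Spor.M22.relIndex ψ.range = 2 ∧ Nat.card ψ.ker = 3 * 2 ^ 13 := by
    have a := Nat.mul_le_mul_right (Spor.M22.relIndex ψ.range * 443520) dk
    have b := Nat.mul_le_mul_left (Nat.card ψ.ker) (show 887040 ≤ Spor.M22.relIndex ψ.range * 443520 by omega)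
    simp only [Nat.reduceMul, Nat.reduceAdd, Nat.reducePow] at a dk ⊢
    omega
  have e := eq_of_le_of_card_ge le (by rw [← i3, i5.1, i5.2]; exact hb)
  refine ⟨G, inferInstance, inferInstance, CA.J4Ord.main (eq_of U.inj U.b) (ne_of U.b) U.top, ev γ' [76],
    orderOf_eq_prime (by rw [← ev_wpow]; exact hE' _ [] (by decide +kernel)) z1, ?_⟩
  rw [← e]
  let f : Spor.M22.comap ψ →* Spor.M22 := (ψ.comp (Subgroup.subtype _)).codRestrict _ fun x => x.2
  have fk : ψ.ker.subgroupOf (Spor.M22.comap ψ) = f.ker := Subgroup.ext fun x => (Subtype.ext_iff (a1 := f x) (a2 := 1)).symm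
  have fs : Function.Surjective f := fun y => let ⟨x, h⟩ := lM y.2; ⟨⟨x, mem_comap.2 (h ▸ y.2)⟩, Subtype.ext h⟩
  have g := (QuotientGroup.quotientMulEquivOfEq fk).trans (QuotientGroup.quotientKerEquivOfSurjective f fs)
  have := simple_M22
  exact ⟨_, ψ.ker, Spor.M22.comap ψ, normal_subgroupOf_of_le_normalizer nQ, inferInstance, kQ, fun x hx => by
    rw [mem_comap, show ψ x = 1 from hx]; exact one_mem _, cQ, extra_equiv (subgroupOfEquivOfLe lQ).symm q1, i5.2,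
    (index_comap _ _).trans i5.1, inferInstance, g.isSimpleGroup, (Nat.card_congr g.toEquiv).trans card_M22⟩

end Cfsg.Agent.S0476
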