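import Cfsg.Statements.S0480
import Cfsg.Agent.Lib.Spor.Fis20
import Cfsg.Agent.Lib.Fi.FiT
import Cfsg.Agent.Lib.Spor.FiIdx

set_option autoImplicit false
open Cfsg

namespace Cfsg.Agent.S0480

open CA CA.Tr3Block

/-- The simple 3-transposition groups: if a finite non-abelian simple group G is generated by a conjugacy class of 3-transpositions, then G is isomorphic to a symplectic group Sp(2n, 2), or to a projective special unitary group PSU(n, 2) (defined over the field with four elements), or to the projective commutator subgroup of an orthogonal group in odd dimension over the field with three elements, or G has order 64561751654400, or G has order 4089470473293004800. -/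
theorem result {G : Type*} [Group G] [Finite G] [IsSimpleGroup G] (hna : ∃ x y : G, x * y ≠ y * x) {D : Set G} (hD : Cfsg.IsThreeTranspositionClass D) : (∃ n : ℕ, Nonempty (G ≃* Matrix.symplecticGroup (Fin n) (ZMod 2))) ∨ (∃ (F : Type) (_ : Field F) (_ : Fintype F) (n : ℕ), Fintype.card F = 4 ∧ Nonempty (G ≃* Cfsg.PSU n F 2)) ∨ (∃ m : ℕ, Nonempty (G ≃* Cfsg.POmega (ZMod 3) (Cfsg.quadFormOdd m (ZMod 3)))) ∨ Cfsg.IsFi22 G ∨ Cfsg.IsFi23 G := by
  obtain ⟨hc, hp, h⟩ := Fis.simple_list hna hD
  have g := class_group hD
  refine h.imp_right (Or.imp_right (Or.imp_right ?_))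
  rintro (h | h | h)
  · exact .inl ⟨inferInstance, Fi.card22 (Fi.T22 g h).some⟩
  · exact .inr ⟨inferInstance, Fi.card23 (Fi.T23 g hp h).some⟩
  · have := FiIdx.index24 (Fi.T24 g hp h).some
    simp [hc] at this

end Cfsg.Agent.S0480
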