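import Cfsg.Statements.S0481
import Cfsg.Agent.Lib.Grp.H7Lge

set_option autoImplicit false
open Cfsg

namespace Cfsg.Agent.S0481

open Subgroup CA.BG CA.BG4 CA.H7Lge
open scoped commutatorElement

/-- Large extraspecial subgroups: let z be an involution of a finite group G whose centraliser C contains a normal 2-subgroup Q with centre of order 2 and all squares central, such that every element of G centralising Q lies in Q. Then C contains a Sylow 2-subgroup of G, and any involution of G whose centraliser contains a Sylow 2-subgroup of G is conjugate to z. -/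
theorem result {G : Type*} [Group G] [Finite G] (z : G) (hz : orderOf z = 2) (Q : Subgroup G) (hQC : Q ≤ Subgroup.centralizer ({z} : Set G)) (hQn : ∀ g ∈ Subgroup.centralizer ({z} : Set G), ∀ q ∈ Q, g * q * g⁻¹ ∈ Q) (hQ2 : IsPGroup 2 Q) (hZ : Nat.card (Subgroup.center Q) = 2) (hsq : ∀ x : Q, x ^ 2 ∈ Subgroup.center Q) (hlarge : Subgroup.centralizer (Q : Set G) ≤ Q) : (∃ P : Sylow 2 G, (P : Subgroup G) ≤ Subgroup.centralizer ({z} : Set G)) ∧ ∀ u : G, orderOf u = 2 → (∃ P : Sylow 2 G, (P : Subgroup G) ≤ Subgroup.centralizer ({u} : Set G)) → IsConj z u := by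
  haveI := Fact.mk Nat.prime_two
  have z1 : z ≠ 1 := by rintro rfl; simp at hz
  have z2 : z * z = 1 := by rw [← pow_two, ← hz, pow_orderOf_eq_one]
  have h1 : z ∈ 𝓩(Q) := ⟨hlarge (le_cent1_iff.1 hQC), le_cent1_iff.1 hQC⟩
  have h2 : ♯(𝓩(Q)) = 2 := by rw [← map_center, card_map_of_injective Q.subtype_injective, hZ]
  have h3 := eq_zpowers_of_prime (h2 ▸ Nat.prime_two) h1 z1
  obtain ⟨T, hT⟩ := hQ2.exists_le_sylow
  have h4 : 𝓩((T : Subgroup G)) ≤ zpowers z := fun a ha =>
    h3.le ⟨hlarge (cent_anti hT ha.2), cent_anti hT ha.2⟩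
  have h5 := (eq_bot_or_eq_of_prime (by rw [← h3, h2]; exact Nat.prime_two) h4).resolve_left
    ((isPi_of_isPGroup Nat.prime_two T.isPGroup').center_ne_bot (ne_bot_of_mem (hT h1.1) z1))
  refine ⟨⟨T, le_cent1_iff.2 (h5.ge (mem_zpowers z)).2⟩, ?_⟩
  rintro u hu ⟨P, hP⟩
  obtain ⟨g, rfl⟩ := MulAction.exists_smul_eq G T P
  have h6 : IsPGroup 2 (zpowers u) := IsPGroup.of_card (n := 1) (by rw [Nat.card_zpowers, hu]; rfl)
  have h7 : u ∈ ((g • T : Sylow 2 G) : Subgroup G) := by
    rw [← (g • T).is_maximal' (h6.to_sup_of_normal_right' (g • T).isPGroup'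
      (norm_of_cent (zpowers_le.2 (le_cent1_iff.1 hP)))) le_sup_right]
    exact mem_sup_left (mem_zpowers u)
  have h8 : u ∈ cj g (𝓩((T : Subgroup G))) := by
    rw [cj_inf, cj_cent]; exact ⟨h7, le_cent1_iff.1 hP⟩
  rw [h5, cj_zpowers, mem_two (by rw [conj_mul, z2, mul_one, mul_inv_cancel])] at h8
  rcases h8 with rfl | rfl
  · simp at hu
  · exact isConj_iff.2 ⟨g, rfl⟩

end Cfsg.Agent.S0481
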