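import Cfsg.Statements.S0499
import Cfsg.Agent.Lib.Grp.H28Aut
-- import your own Cfsg.Agent.* helpers here

set_option autoImplicit false
open Cfsg

namespace Cfsg.Agent.S0499

/-- A non-abelian finite simple group of even order has order divisible by 12, 16 or 56. -/
theorem result {G : Type*} [Group G] [Finite G] [IsSimpleGroup G]
    (hG : ¬ IsMulCommutative G) (h2 : Even (Nat.card G)) :
    12 ∣ Nat.card G ∨ 16 ∣ Nat.card G ∨ 56 ∣ Nat.card G := by
  obtain ⟨r, a, b, hr, h3, h4, h5, h6, h7⟩ := CA.H28Aut.exists_act hG (p := 2) h2.two_dvd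
  by_cases h8 : 4 ≤ b
  · exact Or.inr (Or.inl ((pow_dvd_pow 2 h8).trans h6))
  have h9 := (Nat.modEq_iff_dvd' (Nat.pow_le_pow_right two_pos h5.le)).1 h7.symm
  have h10 : r ≤ 7 := (Nat.le_of_dvd (Nat.sub_pos_of_lt (Nat.pow_lt_pow_right one_lt_two h5))
    h9).trans (by
      have := Nat.pow_le_pow_right two_pos (show b ≤ 3 by omega)
      have : 0 < 2 ^ a := by positivity
      omega)
  have h11 : b < 4 := by omega
  have := hr.two_le
  have := hr.eq_two_or_odd
  interval_cases b <;> interval_cases a <;> interval_cases r <;> omega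

end Cfsg.Agent.S0499
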