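import Cfsg.Statements.S0505
import Cfsg.Agent.Lib.Grp.Bal
import Cfsg.Agent.Lib.Grp.PGBasic
-- import your own Cfsg.Agent.* helpers here

set_option autoImplicit false
open Cfsg

namespace Cfsg.Agent.S0505

/-- Let G be a finite group of even order in which the centralizer of every involution is solvable and has trivial
core (no nontrivial normal subgroup of odd order). Then G is of characteristic 2 type. -/
theorem result {G : Type*} [Group G] [Finite G]
    (h2 : Even (Nat.card G))
    (hs : ∀ t : G, orderOf t = 2 → Group.IsSolvable (Subgroup.centralizer ({t} : Set G)))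
    (hc : ∀ t : G, orderOf t = 2 → Cfsg.oddCore (Subgroup.centralizer ({t} : Set G)) = ⊥) :
    Cfsg.IsCharacteristicTwoType G := by
  refine ⟨h2, fun T hT h1 => ?_⟩
  haveI : Nontrivial T := (Subgroup.nontrivial_iff_ne_bot T).2 h1
  obtain ⟨⟨t, ht⟩, -, h3, h4⟩ := CA.PGBasic.exists_mem_center_orderOf hT (M := ⊤) top_ne_bot
  rw [Subgroup.orderOf_mk] at h4
  have h5 := CA.Bal.fstar_inf_centralizer_eq_pCore (CA.Fstar.fstar_eq_pCore_iff_bot.2
    ⟨CA.Comp.layer_eq_bot_of_isSolvable (hs t h4), hc t h4⟩) hT fun x hx =>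
      Subgroup.mem_centralizer_singleton_iff.2
        (congrArg Subtype.val (Subgroup.mem_center_iff.1 h3 ⟨x, hx⟩))
  rw [inf_of_le_right (Subgroup.centralizer_le (Set.singleton_subset_iff.2 ht)),
    ← CA.Bal.OE_eq_bot_iff, ← CA.Bal.OE_normalizer_eq hT, CA.Bal.OE_eq_bot_iff] at h5
  exact CA.Fstar.fstar_eq_pCore_iff.1 h5

end Cfsg.Agent.S0505
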