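import Cfsg.Statements.S0514
import Cfsg.Agent.Lib.Grp.Two3

set_option autoImplicit false
open Cfsg

namespace Cfsg.Agent.S0514


open Subgroup CA.SylIn CA.PRes CA.Two CA.MC2 CA.MC3 CA.PGBasic

/-- In a finite group whose Sylow 2-subgroups are dihedral of order at least 4, the centralizer of any involution has a
normal subgroup of odd order whose index in the centralizer is a power of 2. -/
theorem result {X : Type*} [Group X] [Finite X]
    (S : Sylow 2 X) (n : ℕ) (hn : 2 ≤ n) (hS : Nonempty ((S : Subgroup X) ≃* DihedralGroup n)) (t : X)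
    (ht : orderOf t = 2) :
    ∃ N : Subgroup (Subgroup.centralizer ({t} : Set X)), N.Normal ∧ Odd (Nat.card N) ∧ ∃ k : ℕ, N.index = 2 ^ k := by
  have key : HasNormalPComplement 2 (centralizer ({t} : Set X)) := by
    obtain ⟨P⟩ : Nonempty (Sylow 2 (centralizer ({t} : Set X))) := inferInstance
    refine hasNPC_of_not_act P fun D hD hC => ?_
    rintro ⟨g, h1, h2, h3⟩
    let t' : centralizer ({t} : Set X) := ⟨t, mem_centralizer_singleton_iff.2 rfl⟩
    have hc : ∀ c : centralizer ({t} : Set X), c * t' = t' * c := fun c =>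
      Subtype.ext (mem_centralizer_singleton_iff.1 c.2)
    have htD : t' ∈ D := by
      obtain ⟨u, hu, -, e⟩ := exists_isConj_mem P (t := t') (k := 1) (by rw [← orderOf_coe, ht]; rfl)
      obtain ⟨c, rfl⟩ := isConj_iff.1 e
      rw [hc, mul_inv_cancel_right] at hu
      exact hC ⟨hu, mem_centralizer_iff.2 fun c _ => hc c⟩
    obtain ⟨R, hR⟩ := ((P.isPGroup'.to_le hD).map (centralizer ({t} : Set X)).subtype).exists_le_sylow
    obtain ⟨e⟩ := hS
    obtain ⟨m, a, y, -, h, hS⟩ := exists_of_dihedral' R.isPGroup' hn ((R.equiv S).trans e)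
    have g1 := le_normalizer_map _ (mem_map_of_mem (centralizer ({t} : Set X)).subtype h1)
    have g2 : (orderOf ((centralizer ({t} : Set X)).subtype g)).Coprime 2 := by
      rwa [coe_subtype, orderOf_coe]
    have g3 : (centralizer ({t} : Set X)).subtype g ∉
        centralizer ((D.map (centralizer ({t} : Set X)).subtype : Subgroup X) : Set X) := fun h =>
      h3 (mem_centralizer_iff.2 fun d hd => Subtype.ext (mem_centralizer_iff.1 h _ ⟨d, hd, rfl⟩))
    obtain ⟨k, w, hw, hw', e', -, h4⟩ := h.act_cases (hR.trans hS.ge) g1 g2 g3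
    obtain ⟨i, rfl⟩ := h.eq_of_notMem (hR.trans hS.ge hw) hw'
    have hi : Even (0 * i + 0 : ℤ) := by simp
    rcases h4 with ⟨rfl, -⟩ | ⟨-, h4⟩
    · have hK := (h.shift i).isKleinFour_H hi
      rw [← e'] at hK
      refine (klein_act hK g1 g2 g3 ⟨t', htD, rfl⟩ (a := t) (CA.H13Inv.ne_one ht)).1 ?_
      rw [coe_subtype, mem_centralizer_singleton_iff.1 g.2, mul_inv_cancel_right]
    · exact Int.not_odd_iff_even.2 hi ((h.shift i).sq_eq_z.1 h4)
  exact ⟨pResidual 2 _, inferInstance,
    Nat.odd_iff.2 (Nat.two_dvd_ne_zero.1 (hasNPC_iff_not_dvd.1 key)), exists_index_pResidual_eq 2 _⟩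

end Cfsg.Agent.S0514
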