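import Cfsg.Statements.S0518
import Cfsg.Agent.Lib.Loc.ZNH

set_option autoImplicit false
open Cfsg

namespace Cfsg.Agent.S0518

section Aux
open Cfsg CA



end Aux

open Cfsg CA in
/-- Let G be a finite group of characteristic 2 type with trivial 2-core in which every 2-local subgroup is solvable
and, for every Sylow 2-subgroup S, the centralizer of the set of central involutions of S lies in the normalizer of S.
Then either G has a strongly embedded subgroup, or the subgroup generated by the elements of odd order has two distinct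
maximal 2-local subgroups, each isomorphic to the symmetric group of degree 4, whose intersection has order 8. -/
theorem result {G : Type*} [Group G] [Finite G]
    (hL : Cfsg.IsCharacteristicTwoType G) (hO : Cfsg.pCore 2 G = ⊥)
    (hN : ∀ N : Subgroup G, Cfsg.IsTwoLocal N → Group.IsSolvable N)
    (hZ : ∀ S : Sylow 2 G,
      Subgroup.centralizer {z : G | z ∈ (S : Subgroup G) ∧ z ^ 2 = 1 ∧ ∀ s ∈ (S : Subgroup G), s * z = z * s} ≤
        Subgroup.normalizer ((S : Subgroup G) : Set G))
    (H : Subgroup G) (hH : H = Subgroup.closure {g : G | Odd (orderOf g)}) :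
    (∃ K : Subgroup G, Cfsg.IsStronglyEmbedded K) ∨
      ∃ M₁ M₂ : Subgroup H, M₁ ≠ M₂ ∧ Cfsg.IsMaximalTwoLocal M₁ ∧ Cfsg.IsMaximalTwoLocal M₂ ∧
        Nonempty (M₁ ≃* Equiv.Perm (Fin 4)) ∧ Nonempty (M₂ ≃* Equiv.Perm (Fin 4)) ∧ Nat.card ↥(M₁ ⊓ M₂) = 8 := by
  obtain rfl : H = pResidual 2 G := by
    rw [hH, pResidual]; congr 1; ext g; exact Nat.coprime_two_right.symm
  refine ZNH.main ⟨fun Q a b => AmbChar.charP_iff.2 (hL.2 Q a b), hN, fun S h => le_trans ?_ (hZ h.toSylowTop)⟩ hO
    (even_iff_two_dvd.1 hL.1)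
  exact Subgroup.centralizer_le fun z hz => AmbSpe.mem_OZ.2 ⟨hz.1, hz.2.2, hz.2.1⟩

end Cfsg.Agent.S0518
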