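import Cfsg.Statements.S0519
import Cfsg.Agent.Lib.Grp.PGNormalCyclic

set_option autoImplicit false
open Cfsg

namespace Cfsg.Agent.S0519

open Subgroup CA.PGBasic CA.PGNormalCyclic CA.PGCyclicMax CA.PGDihedral

/-- Let P be a finite p-group in which every abelian normal subgroup is cyclic, but which has a non-cyclic abelian
subgroup. Then p = 2 and P is generalized quaternion, dihedral of order at least 16, or quasi-dihedral. -/
theorem result {P : Type*} [Group P] [Finite P] (p : ℕ) [Fact p.Prime]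
    (hP : IsPGroup p P) (hn : ∀ A : Subgroup P, A.Normal → IsMulCommutative A → IsCyclic A)
    (hm : ∃ B : Subgroup P, IsMulCommutative B ∧ ¬ IsCyclic B) :
    p = 2 ∧ ((∃ n : ℕ, Nonempty (P ≃* QuaternionGroup n)) ∨ (∃ n : ℕ, 8 ≤ n ∧ Nonempty (P ≃* DihedralGroup n)) ∨
      Cfsg.IsQuasiDihedral P) := by
  have hp : p.Prime := Fact.out
  rcases trichotomy hP with h | ⟨E, hEn, hE, hc⟩ | ⟨rfl, n, a, y, ha, hgen, hd, h3⟩
  · obtain ⟨B, -, hB⟩ := hm
    exact absurd (Subgroup.isCyclic B) hB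
  · exact absurd (hn E hEn hE.1)
      (not_isCyclic_of_elementary hp.pos hE.2 (by rw [hc]; nlinarith [hp.one_lt]))
  · refine ⟨rfl, ?_⟩
    have hy := dqs_notMem ha hd
    have hy1 : y ≠ 1 := fun h1 => hy (h1 ▸ one_mem _)
    rcases hd.2 with h | h | h
    · refine Or.inr (Or.inl ⟨2 ^ n, ?_, nonempty_mulEquiv_dihedral ha hy h.1 h.2 hgen⟩)
      exact Nat.pow_le_pow_right (n := 2) (by norm_num) (h3 h.1)
    · obtain ⟨m, rfl⟩ : ∃ m, n = m + 1 := ⟨n - 1, by have := hd.1; omega⟩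
      exact Or.inl ⟨2 ^ m, nonempty_mulEquiv_quaternion (by rw [ha, pow_succ']) hy h.1 h.2 hgen⟩
    · refine Or.inr (Or.inr ⟨n, h.1, ?_, a, y, ha, orderOf_eq_prime h.2.1 hy1, h.2.2⟩)
      have h7 := card_sup_zpowers Nat.prime_two (dqs_normalizer hd) hy (dqs_sq_mem hd)
      rw [hgen, Nat.card_zpowers, ha, card_top] at h7
      rw [h7, pow_succ]

end Cfsg.Agent.S0519
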