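import Cfsg.Statements.S0520
import Cfsg.Agent.Lib.Grp.Two
-- import your own Cfsg.Agent.* helpers here

set_option autoImplicit false
open Cfsg

namespace Cfsg.Agent.S0520

open Subgroup CA.SylIn CA.Two

variable {G : Type*} [Group G] [Finite G]

theorem rank_iff (Q : Subgroup G) : ¬ PRankLE 2 1 Q ↔ ∃ U ≤ Q, IsKleinFour U := by
  refine ⟨fun h => ?_, fun ⟨U, h1, h2⟩ h => ?_⟩
  · simp only [PRankLE, not_forall, not_le] at h
    obtain ⟨A, h1, h2, h3⟩ := h
    haveI : Nontrivial A := Finite.one_lt_card_iff_nontrivial.1 (by omega)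
    obtain ⟨a, ha⟩ := exists_ne (1 : A)
    obtain ⟨b, hb⟩ : ∃ b : A, b ≠ 1 ∧ b ≠ a := by
      by_contra h4
      push Not at h4
      have := (Nat.card_eq_two_iff' (1 : A)).2 ⟨a, ha, h4⟩
      omega
    have key : ∀ c : A, c ≠ 1 → orderOf ((c : Q) : G) = 2 := fun c hc => by
      rw [orderOf_coe, orderOf_coe]
      exact orderOf_eq_prime (Subtype.ext (h2 _ c.2)) hc
    exact ⟨_, sup_le (zpowers_le_of_mem a.1.2) (zpowers_le_of_mem b.1.2),
      isKleinFour_sup (key a ha) (key b hb.1)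
        (congrArg (fun x : A => ((x : Q) : G)) (h1.is_comm.comm a b))
        fun e => hb.2 (Subtype.ext (Subtype.ext e.symm))⟩
  · haveI := klein_comm h2
    have h3 := h (U.subgroupOf Q) inferInstance fun a ha => Subtype.ext (klein_sq h2 ha)
    rw [Nat.card_congr (subgroupOfEquivOfLe h1).toEquiv, klein_card h2] at h3
    omega

abbrev Rel (G : Type*) [Group G] : Subgroup G → Subgroup G → Prop := Relation.ReflTransGen
  fun A B => IsKleinFour A ∧ IsKleinFour B ∧ ∀ a ∈ A, ∀ b ∈ B, a * b = b * a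

theorem klein_map {H : Type*} [Group H] {f : H →* G} (hf : Function.Injective f) {A : Subgroup H}
    (h : IsKleinFour A) : IsKleinFour (A.map f) :=
  isKleinFour_of ((card_map_of_injective hf).trans h.card_four) (by
    rintro _ ⟨x, hx, rfl⟩
    have h1 : (⟨x, hx⟩ : A) ^ 2 = 1 := h.exponent_two ▸ Monoid.pow_exponent_eq_one _
    rw [← map_pow, show x ^ 2 = 1 from congrArg Subtype.val h1, map_one])

theorem Rel.map {H : Type*} [Group H] {f : H →* G} (hf : Function.Injective f) {A B : Subgroup H}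
    (h : Rel H A B) : Rel G (A.map f) (B.map f) :=
  h.lift (Subgroup.map f) fun _ _ h => ⟨klein_map hf h.1, klein_map hf h.2.1, by
    rintro _ ⟨a, ha, rfl⟩ _ ⟨b, hb, rfl⟩
    rw [← map_mul, h.2.2 a ha b hb, map_mul]⟩

theorem Rel.conj {A B : Subgroup G} (h : Rel G A B) (g : G) : Rel G (g •ᶜ A) (g •ᶜ B) :=
  h.map (MulAut.conj g).injective

theorem Rel.symm' {A B : Subgroup G} (h : Rel G A B) : Rel G B A := by
  induction h with
  | refl => exact .refl
  | tail _ h ih => exact .head ⟨h.2.1, h.1, fun a ha b hb => (h.2.2 b hb a ha).symm⟩ ih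

/-- Let G be a finite group of 2-rank at least 2 and S a Sylow 2-subgroup whose commuting graph of Klein four-subgroups is
connected. Then the commuting graph of Klein four-subgroups of G is disconnected if and only if the 2-generated core — the
subgroup generated by the normalizers N_G(Q) of the subgroups Q of S that contain a Klein four-group — is a proper
subgroup of G. -/
theorem result {G : Type*} [Group G] [Finite G] (h2 : ¬ Cfsg.PRankLE 2 1 G)
    (S : Sylow 2 G) (hS : Cfsg.IsFourConnected (S : Subgroup G)) :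
    ¬ Cfsg.IsFourConnected G ↔
      (⨆ Q : {Q : Subgroup G // Q ≤ (S : Subgroup G) ∧ ¬ Cfsg.PRankLE 2 1 Q},
          Subgroup.normalizer ((Q : Subgroup G) : Set G)) ≠ ⊤ := by
  set Γ := ⨆ Q : {Q : Subgroup G // Q ≤ (S : Subgroup G) ∧ ¬ Cfsg.PRankLE 2 1 Q},
    Subgroup.normalizer ((Q : Subgroup G) : Set G) with hΓ
  have h1 : ∀ U V : Subgroup G, U ≤ S → V ≤ S → IsKleinFour U → IsKleinFour V → Rel G U V := by
    have h1 : ∀ U : Subgroup G, U ≤ S → IsKleinFour U → IsKleinFour (U.subgroupOf S) :=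
      fun U h h' => isKleinFour_of ((Nat.card_congr (subgroupOfEquivOfLe h).toEquiv).trans
        h'.card_four) fun x hx => Subtype.ext (klein_sq h' hx)
    intro U V hU hV hU' hV'
    have := Rel.map (S : Subgroup G).subtype_injective (hS _ _ (h1 U hU hU') (h1 V hV hV'))
    rwa [map_subgroupOf_eq_of_le hU, map_subgroupOf_eq_of_le hV] at this
  obtain ⟨U, hU, hU'⟩ : ∃ U ≤ (S : Subgroup G), IsKleinFour U := by
    obtain ⟨U, -, h⟩ := (rank_iff (⊤ : Subgroup G)).1 fun h => h2 fun A h3 h4 => by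
      have := h (A.subgroupOf ⊤) inferInstance fun a ha => Subtype.ext (h4 _ ha)
      rwa [Nat.card_congr (subgroupOfEquivOfLe le_top).toEquiv] at this
    obtain ⟨g, hg⟩ := exists_conj_le_sylow S (klein_isPGroup h)
    exact ⟨_, hg, klein_conj h g⟩
  have h3 : ∀ Q ≤ (S : Subgroup G), (∃ V ≤ Q, IsKleinFour V) → normalizer (Q : Set G) ≤ Γ :=
    fun Q h h' => le_iSup_of_le ⟨Q, h, (rank_iff Q).2 h'⟩ le_rfl
  have h4 : (S : Subgroup G) ≤ Γ := le_normalizer.trans (h3 S le_rfl ⟨U, hU, hU'⟩)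
  have h5 : ∀ T ≤ Γ, IsPGroup 2 T → (∃ V ≤ T, IsKleinFour V) → normalizer (T : Set G) ≤ Γ := by
    rintro T h h' ⟨V, hV, hV'⟩
    obtain ⟨g, hg, h5⟩ := (isSylowIn_of_le S h4).exists_conj_le h' h
    have h6 := h3 _ h5 ⟨_, conj_mono g hV, klein_conj hV' g⟩
    rwa [← conj_normalizer, ← conj_eq_of_mem hg, conj_le_conj_iff] at h6
  refine not_congr ⟨fun (h : IsFourConnected G) => eq_top_iff.2 fun g _ => ?_,
    fun h V W hV hW => ?_⟩
  · have h6 : ∀ V : Subgroup G, IsKleinFour V → V ≤ Γ := fun V hV => by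
      have h6 : Rel G U V := h U V hU' hV
      clear hV
      induction h6 with
      | refl => exact hU.trans h4
      | tail _ h7 ih =>
        exact fun b hb => h5 _ ih (klein_isPGroup h7.1) ⟨_, le_rfl, h7.1⟩
          (centralizer_le_normalizer _ fun a ha => h7.2.2 a ha b hb)
    obtain ⟨T, hT, h7⟩ := exists_isSylowIn_ge (klein_isPGroup hU') (H := Γ ⊓ g •ᶜ Γ)
      (le_inf (h6 U hU') (le_conj_iff_inv_conj_le.2 (h6 _ (klein_conj hU' _))))
    have h8 := h5 T (hT.le.trans inf_le_left) hT.isPGroup ⟨U, h7, hU'⟩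
    have h9 := le_conj_iff_inv_conj_le.1 (hT.le.trans inf_le_right)
    have h10 := h5 _ h9 (isPGroup_conj hT.isPGroup _) ⟨_, conj_mono _ h7, klein_conj hU' _⟩
    rw [← conj_normalizer, ← le_conj_iff_inv_conj_le] at h10
    obtain ⟨P, hP⟩ := hT.isPGroup.exists_le_sylow
    obtain rfl : T = P := by_contra fun h11 => (lt_inf_normalizer P.isPGroup' (lt_of_le_of_ne hP h11)
      ).ne' (hT.eq_of_le (P.isPGroup'.to_le inf_le_left) (le_inf hP le_normalizer)
        (inf_le_right.trans (le_inf h8 h10)))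
    obtain ⟨k, hk, h11⟩ := (isSylowIn_of_le (g⁻¹ • P) h9).exists_conj_eq
      (isSylowIn_of_le P (hT.le.trans inf_le_left))
    rw [coe_smul_sylow, conj_conj] at h11
    simpa using Γ.mul_mem (Γ.inv_mem (h8 (mem_normalizer_iff_conj_eq.2 h11))) hk
  · let M : Subgroup G :=
      { carrier := {g | Rel G U (g •ᶜ U)}
        one_mem' := by
          show Rel G U ((1 : G) •ᶜ U)
          rw [one_conj]
        mul_mem' := fun {a b} ha hb => Relation.ReflTransGen.trans ha
          (conj_conj a b U ▸ Rel.conj hb a)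
        inv_mem' := fun {a} ha => by
          have := Rel.conj ha a⁻¹
          rw [inv_conj_conj] at this
          exact this.symm' }
    have h6 : Γ ≤ M := iSup_le fun ⟨Q, hQ, hQ'⟩ g hg => by
      obtain ⟨V, h6, h7⟩ := (rank_iff Q).1 hQ'
      exact (h1 U _ hU (((conj_mono g h6).trans (conj_eq_of_mem_normalizer hg).le).trans hQ) hU'
        (klein_conj h7 g)).trans ((h1 V U (h6.trans hQ) hU h7 hU').conj g)
    have h7 : ∀ V : Subgroup G, IsKleinFour V → Rel G U V := fun V hV => by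
      obtain ⟨g, hg⟩ := exists_conj_le_sylow S (klein_isPGroup hV)
      have h7 := (h1 U _ hU hg hU' (klein_conj hV g)).conj g⁻¹
      rw [inv_conj_conj] at h7
      exact Relation.ReflTransGen.trans (h6 (h ▸ mem_top g⁻¹)) h7
    exact Relation.ReflTransGen.trans (h7 V hV).symm' (h7 W hW)

end Cfsg.Agent.S0520
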