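import Cfsg.Statements.S0521
import Cfsg.Agent.Lib.Odd.BG6a
import Cfsg.Agent.Lib.Odd.BG3b

set_option autoImplicit false
open Cfsg

namespace Cfsg.Agent.S0521

open CA.BG CA.OQuo Subgroup

theorem aux {G : Type*} [Group G] [Finite G] {p : ℕ} (hp : p.Prime) {H S : Subgroup G}
    (hs : Group.IsSolvable H) (ho : Odd ♯H) (hS : Syl p S H) (h1 : 𝓞({p}ᶜ, H) = ⊥)
    (hc : IsCyclic ↥⁅S, S⁆) : S ≤ 𝓞({p}, H) := by
  set P := 𝓞({p}, H) with hP
  have hPp : IsPi {p} P := core_pi _ _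
  have hPS : P ≤ S := hS.core_le
  have hnP : H ≤ 𝓝(P) := le_norm_core _ _
  have hN : H ≤ 𝓝(Phi P) := hnP.trans (norm_Phi P)
  have h2 := core_quo_Phi_eq_bot hp hPp (core_le _ _) hnP (cent_pcore_le hp hs h1)
  have h3 : P /ᵍ Phi P = 𝓞({p}, H /ᵍ Phi P) := quo_core (hPp.of_le (Phi_le P)) hN
  have hV := Phi_quo_abelem hp hPp
  have hSn : S /ᵍ Phi P ≤ 𝓝(P /ᵍ Phi P) := norm_quo _ (hS.le.trans hnP)
  have h4 : ♯⁅P /ᵍ Phi P, S /ᵍ Phi P⁆ ∣ p := by
    refine CA.BG4.card_dvd_of_cyc (cyc_of_le (isCyclic_mim (qh (Phi P)) hc) ?_)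
      (ExpDvd.of_le hV.2 (comm_le_left hSn))
    rw [quo_comm (hS.le.trans hN) (hS.le.trans hN)]
    exact commutator_mono (quo_mono _ hPS) le_rfl
  have h5 : ⁅⁅P /ᵍ Phi P, S /ᵍ Phi P⁆, S /ᵍ Phi P⁆ = ⊥ :=
    comm_eq_bot_iff.2 (cent_symm (CA.BG4.cent_of_card' hp (hS.pi.mim _) (le_norm_comm_right _ _) h4))
  have h6 := odd_p_stable_mim (qh (P /ᵍ Phi P)) hp (norm_quo (Phi P) hnP)
    (by rw [mker_qh, h3]; exact cent_pcore_le hp (solv_quo _ hs) h2) (odd_mim ho _) (hPp.mim _)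
    (norm_quo _ hnP) (quo_mono _ hS.le) h5
  have h7 : 𝓞({p}, (H /ᵍ Phi P) /ᵍ (P /ᵍ Phi P)) = ⊥ := by rw [h3]; exact core_quo_core _ _
  rw [h7, le_bot_iff, quo_eq_bot_iff hSn] at h6
  exact (quo_le_quo_iff (hS.le.trans hN) (le_norm_Phi P) (Phi_le P)).1 h6

/-- Let X be a finite solvable group of odd order, p a prime and S a Sylow p-subgroup of X whose commutator subgroup is
cyclic. Then the product of the largest normal subgroup of X of order prime to p with S is a normal subgroup of X. -/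
theorem result {X : Type*} [Group X] [Finite X] [Group.IsSolvable X]
    (hX : Odd (Nat.card X)) (p : ℕ) [Fact p.Prime] (S : Sylow p X) (hS : IsCyclic (commutator (S : Subgroup X))) :
    (Cfsg.pPrimeCore p X ⊔ (S : Subgroup X)).Normal := by
  have hpp : p.Prime := Fact.out
  have h1 := syl_top hpp S
  have hN : (⊤ : Subgroup X) ≤ 𝓝(𝓞({p}ᶜ, (⊤ : Subgroup X))) := le_norm_core _ _
  have hc : IsCyclic ↥⁅(S : Subgroup X), (S : Subgroup X)⁆ := by
    rw [← map_subtype_commutator]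
    exact isCyclic_of_surjective _ (MonoidHom.subgroupMap_surjective _ _)
  have h2 := aux hpp (solv_quo _ (solv_top ⊤)) (odd_mim (odd_of_top hX ⊤) _) (h1.quo hN)
    (core_quo_core _ _) (by
      rw [← quo_comm (le_top.trans hN) (le_top.trans hN)]; exact isCyclic_mim _ hc)
  have h3 := (PL1_iff_Sylow hpp h1).1 (PL1_of_le_Opp hpp h1 (by
    rw [Opp_eq p hpp]; exact (quo_le_iff (le_top.trans hN)).1 h2))
  rw [core_p'_top hpp] at h3
  exact normal_of_top_le_norm h3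

end Cfsg.Agent.S0521
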