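import Cfsg.Statements.S0522
import Cfsg.Agent.Lib.Odd.BG7
import Cfsg.Agent.Lib.Odd.PF14

set_option autoImplicit false
open Cfsg

namespace Cfsg.Agent.S0522

open CA.BG CA.OQuo Subgroup

/-- Transitivity Theorem (odd-order setting). Let X be a finite group of odd order in which the normalizer of every
nontrivial p-subgroup is solvable, P a Sylow p-subgroup, and B an abelian subgroup of P, normalized by P, with
C_P(B) = B and containing an elementary abelian subgroup of order p^3. Then for every prime q ≠ p, any two q-subgroups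
that are maximal among the q-subgroups normalized by B are conjugate by an element of the centralizer of B. -/
theorem result {X : Type*} [Group X] [Finite X] (hX : Odd (Nat.card X)) (p : ℕ)
    [Fact p.Prime] (hloc : ∀ T : Subgroup X, IsPGroup p T → T ≠ ⊥ → Group.IsSolvable (Subgroup.normalizer (T : Set X)))
    (P : Sylow p X) (B : Subgroup X) (hBP : B ≤ (P : Subgroup X))
    (hBn : ∀ x ∈ (P : Subgroup X), ∀ b ∈ B, x * b * x⁻¹ ∈ B) (hBa : IsMulCommutative B)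
    (hBc : (P : Subgroup X) ⊓ Subgroup.centralizer (B : Set X) = B)
    (hB3 : ∃ E : Subgroup X, E ≤ B ∧ (∀ e ∈ E, e ^ p = 1) ∧ p ^ 3 ≤ Nat.card E)
    (q : ℕ) [Fact q.Prime] (hqp : q ≠ p) (Q₁ Q₂ : Subgroup X)
    (h₁ : IsPGroup q Q₁ ∧ B ≤ Subgroup.normalizer (Q₁ : Set X) ∧
      ∀ R : Subgroup X, IsPGroup q R → B ≤ Subgroup.normalizer (R : Set X) → Q₁ ≤ R → R = Q₁)
    (h₂ : IsPGroup q Q₂ ∧ B ≤ Subgroup.normalizer (Q₂ : Set X) ∧
      ∀ R : Subgroup X, IsPGroup q R → B ≤ Subgroup.normalizer (R : Set X) → Q₂ ≤ R → R = Q₂) :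
    ∃ c ∈ Subgroup.centralizer (B : Set X), Q₂ = Q₁.map (MulAut.conj c).toMonoidHom := by
  have hp := (Fact.out : p.Prime)
  have hq := (Fact.out : q.Prime)
  haveI := CA.PF.odd_solvable X hX
  have hP := syl_top hp P
  have hn : (P : Subgroup X) ≤ 𝓝(B) := fun x hx => mem_normalizer_fintype fun b hb => hBn x hx b hb
  have hB := hP.pi.of_le hBP
  have key : ∀ Q : Subgroup X, IsPGroup q Q → B ≤ 𝓝(Q) → Q ≤ 𝓞({p}ᶜ, ⊤) := fun Q hQ hBQ => by
    have hQ' := (isPi_of_isPGroup hq hQ).ne hqp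
    refine le_core_of_norm_Opp hp le_top hQ' hB hBQ
      (odd_p_abelian_constrained hp (solv_top ⊤) (by rwa [card_top]) hP hBP hn hBa) ?_
    refine le_trans (le_inf ((SCN_cent_hasPC hp hP ⟨hBP, hn, hBc⟩).le_core (hQ'.inf_left _) inf_le_right) le_top) ?_
    exact core_cent_inf_le hp (solv_top ⊤) hB le_top
  have nK : B ≤ 𝓝(𝓞({p}ᶜ, (⊤ : Subgroup X))) := le_top.trans (le_norm_core _ _)
  have hc := (core_pi {p}ᶜ (⊤ : Subgroup X)).coprime' hB
  have sy : ∀ Q : Subgroup X, (IsPGroup q Q ∧ B ≤ Subgroup.normalizer (Q : Set X) ∧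
      ∀ R : Subgroup X, IsPGroup q R → B ≤ Subgroup.normalizer (R : Set X) → Q ≤ R → R = Q) →
      Syl q Q 𝓞({p}ᶜ, ⊤) := fun Q h => by
    obtain ⟨T, hT, h1, h2⟩ := coprime_Sylow_subset hq nK hc (Or.inl (solv_of_comm hBa)) (key Q h.1 h.2.1)
      (isPi_of_isPGroup hq h.1) h.2.1
    rwa [← h.2.2 T (hT.pi.isPGroup hq) h1 h2]
  obtain ⟨x, hx, e⟩ := coprime_Sylow_trans hq nK hc (Or.inl (solv_of_comm hBa)) (sy _ h₁) h₁.2.1 (sy _ h₂) h₂.2.1
  exact ⟨x, hx.2, e.symm⟩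

end Cfsg.Agent.S0522
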