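import Cfsg.Statements.S0525
import Cfsg.Agent.Lib.Solv.SS1

set_option autoImplicit false
open Cfsg

namespace Cfsg.Agent.S0525

open Subgroup CA.BG CA.OQuo

/-- A direct product of two finite supersolvable groups is supersolvable. -/
theorem result {G H : Type*} [Group G] [Group H] [Finite G] [Finite H] (hG : Cfsg.IsSupersolvable G) (hH : Cfsg.IsSupersolvable H) : Cfsg.IsSupersolvable (G × H) := by
  have h2 := ss_iff_top.1 hH
  refine ss_iff_top.2 ?_
  have e : (⊤ : Subgroup (G × H)).map (MonoidHom.snd G H) = ⊤ :=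
    map_top_of_surjective _ fun x => ⟨(1, x), rfl⟩
  have := Ch.comap (H := ⊤) (MonoidHom.snd G H) ?_ (e.symm ▸ h2 : Ch (Subgroup.map _ ⊤) ⊤)
    (by rw [MonoidHom.range_eq_map, e])
  · simpa using this
  · have hk : (MonoidHom.snd G H).ker = (⊤ : Subgroup G).map (MonoidHom.inl G H) := by
      ext ⟨a, b⟩; simp [eq_comm, mem_prod]
    have key : ∀ V : Subgroup G, Ch ⊤ V → Ch (⊤ : Subgroup (G × H)) (V.map (MonoidHom.inl G H)) :=
      fun V h => by
        have hn : ∀ V : Subgroup G, ⊤ ≤ 𝓝(V) →
            (⊤ : Subgroup (G × H)) ≤ 𝓝(V.map (MonoidHom.inl G H)) := fun V h x _ =>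
          mem_norm_of_cj_le (by
            rintro _ ⟨_, ⟨v, hv, rfl⟩, rfl⟩
            exact ⟨_, conj_mem_of_norm h (mem_top x.1) hv, by ext <;> simp⟩)
        induction h with
        | bot => rw [Subgroup.map_bot]; exact .bot
        | step x _ a b ih =>
          have := hn _ b
          rw [Subgroup.map_sup, MonoidHom.map_zpowers] at this ⊢
          exact .step _ ih (le_normalizer_map _ (mem_map_of_mem _ a)) this
    exact hk ▸ key ⊤ (ss_iff_top.1 hG)

end Cfsg.Agent.S0525
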