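import Cfsg.Statements.S0527
import Cfsg.Agent.Lib.Solv.SS1

set_option autoImplicit false
open Cfsg

namespace Cfsg.Agent.S0527

open Subgroup CA.BG CA.OQuo

/-- In a finite supersolvable group the index of any maximal subgroup is a prime number. -/
theorem result {G : Type*} [Group G] [Finite G] (hG : Cfsg.IsSupersolvable G) (M : Subgroup G) (hM : IsCoatom M) : M.index.Prime := by
  have := (ss_iff_top.1 hG).max_prime hM.lt_top fun L a _ => hM.2 L a
  rwa [relIndex_top_right] at this

end Cfsg.Agent.S0527
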