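import Cfsg.Statements.S0528
import Cfsg.Agent.Lib.Solv.SS1

set_option autoImplicit false
open Cfsg

namespace Cfsg.Agent.S0528

open Subgroup CA.BG CA.OQuo

/-- An extension of a cyclic normal subgroup by a supersolvable group is supersolvable: if N is a cyclic normal subgroup of a finite group G and G modulo N is supersolvable, then G is supersolvable. -/
theorem result {G : Type*} [Group G] [Finite G] (N : Subgroup G) [N.Normal] [IsCyclic N] (h : Cfsg.IsSupersolvable (G ⧸ N)) : Cfsg.IsSupersolvable G := by
  have e : (⊤ : Subgroup G).map (QuotientGroup.mk' N) = ⊤ :=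
    map_top_of_surjective _ (QuotientGroup.mk'_surjective N)
  have := Ch.comap (H := ⊤) (QuotientGroup.mk' N) (by
    rw [QuotientGroup.ker_mk']; exact ch_of_cyc ‹_› (top_le_norm N ⊤))
    (e.symm ▸ ss_iff_top.1 h : Ch (Subgroup.map _ ⊤) ⊤) (by rw [MonoidHom.range_eq_map, e])
  exact ss_iff_top.2 (by simpa using this)

end Cfsg.Agent.S0528
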