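import Cfsg.Statements.S0529
import Cfsg.Agent.Lib.Solv.SS1

set_option autoImplicit false
open Cfsg

namespace Cfsg.Agent.S0529

open Subgroup CA CA.BG CA.OQuo

/-- A finite supersolvable group has a chain of normal subgroups, from the trivial subgroup to the whole group, in which every step has prime index and the primes occurring are non-increasing as one goes up the chain. -/
theorem result {G : Type*} [Group G] [Finite G] (hG : Cfsg.IsSupersolvable G) : ∃ (n : ℕ) (H : Fin (n + 1) → Subgroup G), H 0 = ⊥ ∧ H (Fin.last n) = ⊤ ∧ (∀ i, (H i).Normal) ∧ (∀ i : Fin n, H i.castSucc ≤ H i.succ ∧ ((H i.castSucc).relIndex (H i.succ)).Prime) ∧ ∀ i j : Fin n, i ≤ j → (H j.castSucc).relIndex (H j.succ) ≤ (H i.castSucc).relIndex (H i.succ) := by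
  have h := ss_iff_top.1 hG
  suffices ∀ V : Subgroup G, ⊤ ≤ 𝓝(V) → ∃ (n : ℕ) (H : Fin (n + 1) → Subgroup G), H 0 = V ∧
      H (Fin.last n) = ⊤ ∧ (∀ i, (H i).Normal) ∧ (∀ i : Fin n, H i.castSucc ≤ H i.succ ∧
        ((H i.castSucc).relIndex (H i.succ)).Prime ∧
        (H i.castSucc).relIndex (H i.succ) ∣ V.relIndex ⊤) ∧ ∀ i j : Fin n, i ≤ j →
        (H j.castSucc).relIndex (H j.succ) ≤ (H i.castSucc).relIndex (H i.succ) by
    obtain ⟨n, H, a, b, c, d, e⟩ := this ⊥ (BG4.le_norm_bot ⊤)
    exact ⟨n, H, a, b, c, fun i => ⟨(d i).1, (d i).2.1⟩, e⟩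
  intro V
  induction V using WellFoundedGT.induction with
  | ind V ih =>
    intro hn
    by_cases h1 : V = ⊤
    · exact ⟨0, fun _ => V, rfl, h1, fun _ => normal_of_top_le_norm hn, fun i => i.elim0,
        fun i => i.elim0⟩
    obtain ⟨p, hp, hd, hm⟩ := exists_max_prime (quo_ne_bot hn (mt top_le_iff.1 h1))
    rw [card_quo hn] at hd hm
    obtain ⟨U, a, -, b, c⟩ := h.exists_chief_max le_top hn hp hd hm
    have hlt : V < U := a.lt_of_ne (by rintro rfl; exact hp.ne_one (c.symm.trans (relIndex_self _)))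
    obtain ⟨n, H, h0, hl, h2, h3, h4⟩ := ih U hlt b
    have hUV := relIndex_anti a ⊤
    refine ⟨n + 1, Fin.cons V H, rfl, by rw [← Fin.succ_last, Fin.cons_succ, hl], fun i => ?_,
      fun i => ?_, fun i j hij => ?_⟩
    · induction i using Fin.cases with
      | zero => exact normal_of_top_le_norm hn
      | succ i => exact h2 i
    · induction i using Fin.cases with
      | zero => simp only [Fin.castSucc_zero, Fin.cons_zero, Fin.cons_succ, h0, c]; exact ⟨a, hp, hd⟩
      | succ i =>
        simp only [← Fin.succ_castSucc, Fin.cons_succ]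
        exact ⟨(h3 i).1, (h3 i).2.1, (h3 i).2.2.trans hUV⟩
    · induction j using Fin.cases with
      | zero => rw [Fin.le_zero_iff.1 hij]
      | succ j =>
        induction i using Fin.cases with
        | zero =>
          simp only [← Fin.succ_castSucc, Fin.cons_succ, Fin.castSucc_zero, Fin.cons_zero, h0, c]
          exact hm _ (h3 j).2.1 ((h3 j).2.2.trans hUV)
        | succ i =>
          simp only [← Fin.succ_castSucc, Fin.cons_succ]
          exact h4 i j (Fin.succ_le_succ_iff.1 hij)

end Cfsg.Agent.S0529
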