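import Cfsg.Statements.S0530
import Cfsg.Agent.Lib.Solv.SS2

set_option autoImplicit false
open Cfsg

namespace Cfsg.Agent.S0530

open Subgroup CA CA.BG CA.OQuo

/-- A finite group whose order is twice a prime power is supersolvable. -/
theorem result {G : Type*} [Group G] [Finite G] (p n : ℕ) (hp : p.Prime) (hG : Nat.card G = 2 * p ^ n) : Cfsg.IsSupersolvable G := by
  rw [ss_iff_top]
  rw [← card_top] at hG
  by_cases h2 : p = 2
  · subst h2
    exact ch_of_pi hp (isPi_of_card_eq_pow hp (hG.trans (pow_succ' 2 n).symm))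
  obtain ⟨P, hP⟩ := syl_exists hp (⊤ : Subgroup G)
  have hc := (Nat.coprime_primes hp Nat.prime_two).2 h2
  have h1 : P.relIndex ⊤ = 2 := by
    obtain ⟨k, e⟩ := hP.pi.exists_card hp
    have h3 := card_mul_relIndex hP.le
    rw [e, hG] at h3
    refine Nat.dvd_antisymm ((Nat.Coprime.pow_right n ((Nat.coprime_comm.1
      ((Nat.Prime.coprime_iff_not_dvd hp).2 (hP.not_dvd hp))))).dvd_of_dvd_mul_right
      (h3 ▸ dvd_mul_left _ _)) ((hc.symm.pow_right k).dvd_of_dvd_mul_left (h3 ▸ dvd_mul_right _ _))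
  have := normal_of_index_eq_two (relIndex_top_right P ▸ h1)
  have hn := top_le_norm P ⊤
  have hF := le_fit (hP.pi.isNilpotent hp) le_top hn
  have hq := card_quo hn
  refine (ch_of_exp hp hP.pi le_top hn (le_trans ?_ hF) fun k _ => hF ?_).step' le_top hn
    (top_le_norm ⊤ ⊤) (h1 ▸ Nat.prime_two)
  · exact der_le_of_relIndex_p2 Nat.prime_two hn (by rw [h1]; norm_num)
  · obtain ⟨m, e⟩ := (hp.even_sub_one h2).two_dvd
    rw [e, pow_mul]
    exact pow_mem (sq_mem_of_index_two (relIndex_top_right P ▸ h1) k) m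

end Cfsg.Agent.S0530
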