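import Cfsg.Statements.S0533
import Cfsg.Agent.Lib.Solv.SS2

set_option autoImplicit false
open Cfsg

namespace Cfsg.Agent.S0533

open Subgroup CA CA.BG CA.OQuo

/-- If every subgroup of a finite group has subgroups of all orders dividing its order, then the group is supersolvable. -/
theorem result {G : Type*} [Group G] [Finite G] (h : ∀ H : Subgroup G, Cfsg.HasSubgroupOfEveryOrder H) : Cfsg.IsSupersolvable G := by
  refine ss_iff_top.2 (ch_of_clt fun K _ d hd => ?_)
  obtain ⟨L, e⟩ := h K d hd
  exact ⟨L.map K.subtype, map_subtype_le _, by rw [card_map_of_injective K.subtype_injective, e]⟩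

end Cfsg.Agent.S0533
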