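import Cfsg.Statements.S0534
import Cfsg.Agent.Lib.Solv.SS2

set_option autoImplicit false
open Cfsg

namespace Cfsg.Agent.S0534

open Subgroup CA CA.BG CA.OQuo

/-- Let G be a finite solvable group and A a finite abelian group such that every prime dividing the order of A divides the order of G and, for each prime p dividing the order of G, the exponent of p in the order of A is one less than its exponent in the order of G. Then G × A has a subgroup of every order dividing its order. -/
theorem result {G A : Type*} [Group G] [CommGroup A] [Finite G] [Finite A] [Group.IsSolvable G] (hA : ∀ p : ℕ, p.Prime → p ∣ Nat.card A → p ∣ Nat.card G) (hexp : ∀ p : ℕ, p.Prime → p ∣ Nat.card G → (Nat.card A).factorization p + 1 = (Nat.card G).factorization p) : Cfsg.HasSubgroupOfEveryOrder (G × A) := by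
  intro d hd
  rw [Nat.card_prod] at hd
  have h0 : Nat.card G ≠ 0 := Nat.card_pos.ne'
  have h0' : Nat.card A ≠ 0 := Nat.card_pos.ne'
  have hd0 : d ≠ 0 := fun e => mul_ne_zero h0 h0' (zero_dvd_iff.1 (e ▸ hd))
  obtain ⟨H, hH⟩ := hall_exists {p | (Nat.card G).factorization p ≤ d.factorization p}
    (solv_top (⊤ : Subgroup G))
  have h1 := card_mul_relIndex hH.le
  rw [card_top] at h1
  have hH0 := card_ne_zero' H
  have hf : ∀ p, (♯H).factorization p + (H.relIndex ⊤).factorization p =
      (Nat.card G).factorization p := fun p => by
    rw [← h1, Nat.factorization_mul hH0 (relIndex_ne_zero' _ _)]; rfl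
  have key : ∀ p, p.Prime → (♯H).factorization p =
      if (Nat.card G).factorization p ≤ d.factorization p then (Nat.card G).factorization p else 0 :=
    fun p hp => by
      split_ifs with i
      · rw [← hf, Nat.factorization_eq_zero_of_not_dvd fun j => hH.idx p hp j i, add_zero]
      · exact Nat.factorization_eq_zero_of_not_dvd fun j => i (hH.pi p hp j)
  obtain ⟨e, rfl⟩ : ♯H ∣ d := (Nat.factorization_prime_le_iff_dvd hH0 hd0).1 fun p hp => by
    rw [key p hp]; split_ifs with i
    · exact i
    · exact Nat.zero_le _
  have he : e ≠ 0 := right_ne_zero_of_mul hd0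
  have h2 : e ∣ Nat.card A := (Nat.factorization_prime_le_iff_dvd he h0').1 fun p hp => by
    have h3 := (Nat.factorization_prime_le_iff_dvd hd0 (mul_ne_zero h0 h0')).2 hd p hp
    have h4 := key p hp
    have h5 : (♯H * e).factorization p = (♯H).factorization p + e.factorization p := by
      rw [Nat.factorization_mul hH0 he]; rfl
    rw [Nat.factorization_mul h0 h0', Finsupp.add_apply] at h3
    split_ifs at h4 with i
    · omega
    · have := hexp p hp (Nat.dvd_of_factorization_pos (by omega))
      omega
  obtain ⟨K, -, hK⟩ := (ch_of_nil (H := (⊤ : Subgroup A)) inferInstance).exists_card (d := e)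
    (by rwa [card_top])
  exact ⟨H.prod K, by rw [Nat.card_congr (prodEquiv H K).toEquiv, Nat.card_prod, hK]⟩

end Cfsg.Agent.S0534
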