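import Cfsg.Statements.S0535
import Cfsg.Agent.Lib.Solv.SS2
import Cfsg.Agent.S0006

set_option autoImplicit false
open Cfsg

namespace Cfsg.Agent.S0535

open Subgroup CA CA.BG CA.OQuo

/-- Suppose that for every nontrivial subgroup H of a finite group and every prime p dividing the order of H there is a proper subgroup of H whose index in H is a power of p. Then the group is solvable. -/
theorem result {G : Type*} [Group G] [Finite G] (h : ∀ H : Subgroup G, H ≠ ⊥ → ∀ p : ℕ, p.Prime → p ∣ Nat.card H → ∃ K : Subgroup H, K ≠ ⊤ ∧ ∃ k : ℕ, K.index = p ^ k) : Group.IsSolvable G := by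
  refine S0006.result fun p hp => ?_
  have key : ∀ H : Subgroup G, ∃ K, Hall {p}ᶜ K H := fun H => by
    induction H using WellFoundedLT.induction with
    | ind H ih =>
      by_cases hd : p ∣ ♯H
      · obtain ⟨K, a, k, b⟩ := h H (by rintro rfl; exact hp.not_dvd_one (by simpa using hd)) p hp hd
        obtain ⟨L, hL⟩ := ih (K.map H.subtype) ((map_subtype_le K).lt_of_ne fun e => a
          (map_injective H.subtype_injective (by rw [e, ← MonoidHom.range_eq_map, range_subtype])))
        refine ⟨L, hL.of_idx (map_subtype_le K) ?_⟩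
        rw [compl_compl, relIndex, subgroupOf, comap_map_eq_self_of_injective H.subtype_injective, b]
        exact piNat_pow hp k
      · exact ⟨H, hall_self ((isPi_compl_iff hp).2 hd)⟩
  obtain ⟨K, hK⟩ := key ⊤
  obtain ⟨P, hP⟩ := syl_exists hp (⊤ : Subgroup G)
  obtain ⟨S, rfl⟩ := hP.exists_sylow_top hp
  have := Fact.mk hp
  refine ⟨K, ?_⟩
  rw [← relIndex_top_right, hK.relIndex_eq (by rwa [compl_compl]), S.card_eq_multiplicity]

end Cfsg.Agent.S0535
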