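import Cfsg.Statements.S0537
import Cfsg.Agent.Lib.Solv.SS2

set_option autoImplicit false
open Cfsg

namespace Cfsg.Agent.S0537

open Subgroup CA CA.BG CA.OQuo

/-- A finite non-abelian group in which every proper subgroup is abelian is either of prime-power order, or is generated by a cyclic Sylow p-subgroup and a normal Sylow q-subgroup that is elementary abelian, for distinct primes p and q. -/
theorem result {G : Type*} [Group G] [Finite G] (hna : ¬ IsMulCommutative G) (h : ∀ H : Subgroup G, H ≠ ⊤ → IsMulCommutative H) : (∃ p : ℕ, p.Prime ∧ IsPGroup p G) ∨ ∃ p q : ℕ, p.Prime ∧ q.Prime ∧ p ≠ q ∧ ∃ (P : Sylow p G) (Q : Sylow q G), IsCyclic P ∧ (Q : Subgroup G).Normal ∧ Cfsg.IsElementaryAbelian q (Q : Subgroup G) ∧ (P : Subgroup G) ⊔ Q = ⊤ := by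
  have hna' : ¬ IsMulCommutative (⊤ : Subgroup G) := fun h =>
    hna ⟨⟨fun a b => congrArg Subtype.val (h.1.1 ⟨a, trivial⟩ ⟨b, trivial⟩)⟩⟩
  by_cases hn : Group.IsNilpotent (⊤ : Subgroup G)
  · refine .inl (by_contra fun i => hna' (comm_of_nil_syl hn fun p hp _ => ?_))
    obtain ⟨P, hP⟩ := syl_exists hp (⊤ : Subgroup G)
    refine ⟨P, hP, h P ?_⟩
    rintro rfl
    exact i ⟨p, hp, (hP.pi.isPGroup hp).of_equiv topEquiv⟩
  obtain ⟨p, q, x, Q, hp, hq, hpq, h1, h2, h3, h4⟩ := schmidt_struct hn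
    fun K i => nil_of_comm (h K i.ne)
  have hQ : IsMulCommutative Q := h Q fun e => hn (e ▸ h2.pi.isNilpotent hq)
  have hn' := norm_omega q h3.norm
  have h5 : zpowers x ⊔ Ω₁(q, Q) = ⊤ := by_contra fun i => h4
    (coprime_abelian_faithful_Ohm1 h3.norm (h2.pi.coprime_ne h1.pi hpq.symm) hQ h2.pi
      (cent_of_comm (h _ i) le_sup_left le_sup_right) (mem_zpowers x))
  have h6 : Ω₁(q, Q) = Q := Hall.eq_of_le' (h5 ▸ hall_sup_normal' (h1.pi.ne hpq) hn'
    (h2.pi.of_le (omega_le _ _))) h2 (omega_le _ _)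
  have h7 := h6 ▸ omega_elem hQ q
  obtain ⟨P, e⟩ := h1.exists_sylow_top hp
  obtain ⟨Q, rfl⟩ := h2.exists_sylow_top hq
  exact .inr ⟨p, q, hp, hq, hpq, P, Q, (e ▸ cyc_zpowers x : IsCyclic (P : Subgroup G)),
    normal_of_top_le_norm h3.normal, h7, e ▸ h3.sup'⟩

end Cfsg.Agent.S0537
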