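import Cfsg.Statements.S0540
import Cfsg.Agent.Lib.Solv.SS3

set_option autoImplicit false
open Pointwise
open Cfsg

namespace Cfsg.Agent.S0540

open Subgroup CA CA.BG CA.OQuo CA.Subn

/-- A uniqueness lemma of zipper type. Let A be a subgroup of a finite group G and U a nonempty family of subgroups. For V in U write S(V) for the set of conjugates of A that lie in V and are subnormal in V. Assume: A belongs to S(V) for every V in U; a member of some S(W) that lies in V belongs to S(V); and for all V, W in U the normalizer of the join of S(V) ∩ S(W) lies in some member of U. Then U has a greatest element. -/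
theorem result {G : Type*} [Group G] [Finite G] (A : Subgroup G) (U : Set (Subgroup G)) (hU : U.Nonempty) (S : Subgroup G → Set (Subgroup G)) (hS : ∀ V B : Subgroup G, B ∈ S V ↔ (∃ g : G, B = MulAut.conj g • A) ∧ B ≤ V ∧ (B.subgroupOf V).IsSubnormal) (h1 : ∀ V ∈ U, A ∈ S V) (h2 : ∀ V ∈ U, ∀ W ∈ U, ∀ B ∈ S W, B ≤ V → B ∈ S V) (h3 : ∀ V ∈ U, ∀ W ∈ U, ∃ X ∈ U, Subgroup.normalizer ((sSup (S V ∩ S W) : Subgroup G) : Set G) ≤ X) : ∃ M ∈ U, ∀ V ∈ U, V ≤ M := by
  have hmax : ∀ V ∈ U, ∃ M, V ≤ M ∧ M ∈ U ∧ ∀ L, L ∈ U → M ≤ L → L = M := fun V h =>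
    exists_maximal_ge (P := fun V => V ∈ U) h
  have hc : ∀ V, ∀ B ∈ S V, ∀ g ∈ V, cj g B ∈ S V := fun V B hB g hg => by
    obtain ⟨⟨x, rfl⟩, b⟩ := (hS V B).1 hB
    exact (hS V _).2 ⟨⟨g * x, (cj_mul g x A).symm⟩, sn_cj b hg⟩
  have key : ∀ T : Set (Subgroup G), ∀ V ∈ U, (∀ L, L ∈ U → V ≤ L → L = V) → ∀ W ∈ U,
      (∀ L, L ∈ U → W ≤ L → L = W) → S V ∩ S W = T → V = W := fun T => by
    induction T using WellFoundedGT.induction with
    | ind T ih =>
      intro V a b W c d e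
      obtain ⟨Y, i, j⟩ := h3 V a W c
      obtain ⟨X, k, l, m⟩ := hmax Y i
      rw [e] at j
      replace j := j.trans k
      have aux : ∀ V ∈ U, (∀ L, L ∈ U → V ≤ L → L = V) → T ⊆ S V → V = X := fun V a b e => by
        rcases e.eq_or_ssubset with e | e
        · refine (b X l (le_trans (fun x hx => mem_norm_of_cj_le (cj_le_iff.2 (sSup_le fun B hB =>
            cj_le_iff.1 (le_sSup ?_)))) j)).symm
          exact e ▸ hc V B (e ▸ hB) x hx
        · obtain ⟨B, o, p, q⟩ := exists_norm_sSup (V := V) (fun B h => ((hS V B).1 h).2) (hc V) e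
          exact ih (S V ∩ S X) ⟨fun C h => ⟨e.1 h, h2 X l V a C (e.1 h) ((le_norm_of_le (le_sSup h)).trans j)⟩,
            fun h => p (h ⟨o, h2 X l V a B o (q.trans j)⟩)⟩ V a b X l m rfl
      exact (aux V a b (e ▸ Set.inter_subset_left)).trans
        (aux W c d (e ▸ Set.inter_subset_right)).symm
  obtain ⟨V, hV⟩ := hU
  obtain ⟨M, -, a, b⟩ := hmax V hV
  refine ⟨M, a, fun W hW => ?_⟩
  obtain ⟨N, c, d, e⟩ := hmax W hW
  exact key _ N d e M a b rfl ▸ c

end Cfsg.Agent.S0540
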