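import Cfsg.Statements.S0541
import Cfsg.Agent.Lib.Solv.SS3

set_option autoImplicit false
open Pointwise
open Cfsg

namespace Cfsg.Agent.S0541

open Subgroup CA CA.BG CA.OQuo CA.Subn

/-- Let Z and Y be subgroups of a finite group G and p a prime. Suppose that for every g in G the subgroup generated by the conjugates of g Z g⁻¹ under Y is a p-group. Then there is a Sylow p-subgroup P of G such that Y normalizes the subgroup generated by all conjugates of Z contained in P. -/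
theorem result {G : Type*} [Group G] [Finite G] (p : ℕ) [Fact p.Prime] (Z Y : Subgroup G) (h : ∀ g : G, IsPGroup p ↥(⨆ y ∈ Y, MulAut.conj (y * g) • Z)) : ∃ P : Sylow p G, Y ≤ Subgroup.normalizer ((⨆ g ∈ {g : G | MulAut.conj g • Z ≤ (P : Subgroup G)}, MulAut.conj g • Z : Subgroup G) : Set G) := by
  have hp : p.Prime := Fact.out
  obtain ⟨W, -, ⟨h1, h2, h3⟩, h4⟩ := exists_maximal_ge (H := (⊥ : Subgroup G)) (P := fun W =>
    IsPi {p} W ∧ Y ≤ 𝓝(W) ∧ W ≤ sSup {B | (∃ g, B = cj g Z) ∧ B ≤ W})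
    ⟨isPi_bot _, BG4.le_norm_bot Y, bot_le⟩
  obtain ⟨P, hP, a⟩ := syl_superset hp h1 le_top
  obtain ⟨P, rfl⟩ := hP.exists_sylow_top hp
  have e : sSup {B | (∃ g, B = cj g Z) ∧ B ≤ W} = W := le_antisymm (sSup_le fun _ h => h.2) h3
  have hsub : {B | (∃ g, B = cj g Z) ∧ B ≤ W} ⊆ {B | (∃ g, B = cj g Z) ∧ B ≤ P} :=
    fun B h => ⟨h.1, h.2.trans a⟩
  refine ⟨P, ?_⟩
  rcases hsub.eq_or_ssubset with i | i
  · suffices (⨆ g ∈ {g : G | MulAut.conj g • Z ≤ (P : Subgroup G)}, MulAut.conj g • Z) = W from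
      this ▸ h2
    rw [← e, i]
    exact le_antisymm (iSup₂_le fun g hg => le_sSup ⟨⟨g, rfl⟩, hg⟩) (sSup_le (by
      rintro _ ⟨⟨g, rfl⟩, hg⟩; exact le_iSup₂_of_le g hg le_rfl))
  exfalso
  obtain ⟨_, ⟨⟨g, rfl⟩, b⟩, c, d⟩ := exists_norm_sSup (V := P)
    (fun U h => SN.of_isNilpotent (hP.pi.isNilpotent hp) h.2) (by
      rintro _ ⟨⟨g, rfl⟩, b⟩ x hx
      exact ⟨⟨x * g, (cj_mul x g Z).symm⟩, cj_le_of_mem hx b⟩) i
  rw [e] at d
  have j : (⨆ y ∈ Y, cj (y * g) Z) ≤ 𝓝(W) := iSup₂_le fun y hy => by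
    rw [cj_mul, ← cj_of_mem_norm (h2 hy)]; exact norm_cj y d
  refine c ⟨⟨g, rfl⟩, (h4 ((⨆ y ∈ Y, cj (y * g) Z) ⊔ W) ⟨(isPi_of_isPGroup hp (h g)).sup h1 j,
    norm_sup (fun x hx => mem_norm_of_cj_le (cj_le_iff.2 (iSup₂_le fun y hy => cj_le_iff.1 ?_))) h2,
    sup_le (iSup₂_le fun y hy => le_sSup ⟨⟨_, rfl⟩, le_sup_of_le_left (le_iSup₂_of_le y hy le_rfl)⟩)
    (h3.trans (sSup_le_sSup fun B h => ⟨h.1, h.2.trans le_sup_right⟩))⟩ le_sup_right) ▸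
      le_sup_of_le_left (le_iSup₂_of_le 1 (one_mem _) (by rw [one_mul]))⟩
  exact le_iSup₂_of_le (x * y) (mul_mem hx hy) (by rw [← cj_mul, mul_assoc])

end Cfsg.Agent.S0541
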