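import Cfsg.Statements.S0546
import Cfsg.Agent.Lib.Grp.H1Carter

set_option autoImplicit false
open Cfsg

namespace Cfsg.Agent.S0546

open CA.H1Carter CA.H1Basic

/-- The normal closure of a system normalizer of a finite solvable group is the whole group. -/
theorem result {G : Type*} [Group G] [Finite G] [Group.IsSolvable G] (K : Nat.Primes → Subgroup G) (hK : Cfsg.IsComplementSystem K) : Subgroup.normalClosure ((Cfsg.systemNormalizer K : Subgroup G) : Set G) = ⊤ := by
  by_contra hne
  set N := Subgroup.normalClosure ((Cfsg.systemNormalizer K : Subgroup G) : Set G) with hN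
  have : Nontrivial (G ⧸ N) := QuotientGroup.nontrivial_iff.mpr hne
  have h1 := Group.IsSolvable.commutator_lt_top_of_nontrivial (G ⧸ N)
  set M := (commutator (G ⧸ N)).comap (QuotientGroup.mk' N) with hM
  have hNM : N ≤ M := QuotientGroup.le_comap_mk' N _
  have h2 : commutator G ≤ M := by
    rw [hM, ← Subgroup.map_le_iff_le_comap, commutator_def, Subgroup.map_commutator]
    exact Subgroup.commutator_mono le_top le_top
  have h3 : IsMulCommutative (G ⧸ M) :=
    Subgroup.Normal.quotient_commutative_iff_commutator_le.mpr h2
  have h4 : Cfsg.systemNormalizer (fun p => (K p).map (QuotientGroup.mk' M)) = ⊤ := by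
    rw [eq_top_iff]
    intro x _
    exact mem_sysNorm.mpr fun p => Subgroup.le_normalizer_of_normal (K := ⊤) trivial
  rw [sysNorm_map hK M] at h4
  have h5 := congrArg (Subgroup.comap (QuotientGroup.mk' M)) h4
  rw [Subgroup.comap_map_eq, QuotientGroup.ker_mk', Subgroup.comap_top,
    sup_eq_right.mpr (Subgroup.le_normalClosure.trans hNM), hM, ← Subgroup.comap_top (QuotientGroup.mk' N)] at h5
  exact h1.ne (Subgroup.comap_injective (QuotientGroup.mk'_surjective N) h5)

end Cfsg.Agent.S0546
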