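import Cfsg.Statements.S0547
import Cfsg.Agent.Lib.Solv.SS3

set_option autoImplicit false
open Cfsg

namespace Cfsg.Agent.S0547

open Subgroup CA CA.BG CA.OQuo CA.Subn

/-- Let a finite solvable group G act faithfully and primitively on a set, and let M be a minimal normal subgroup of G. Then M is transitive with trivial point stabilizers, and the number of points equals the order of M, which is a prime power p ^ d with d ≥ 1. -/
theorem result {G : Type*} [Group G] [Finite G] [Group.IsSolvable G] {Ω : Type*} [Nonempty Ω] [MulAction G Ω] [FaithfulSMul G Ω] (hprim : MulAction.IsPreprimitive G Ω) (M : Subgroup G) [M.Normal] (hM : M ≠ ⊥) (hmin : ∀ K : Subgroup G, K.Normal → K ≤ M → K = ⊥ ∨ K = M) : MulAction.IsPretransitive M Ω ∧ (∀ ω : Ω, MulAction.stabilizer M ω = ⊥) ∧ ∃ p d : ℕ, p.Prime ∧ 0 < d ∧ Nat.card Ω = p ^ d ∧ Nat.card M = p ^ d := by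
  obtain ⟨p, hp, he⟩ := (minNormal_top hM hmin).elem inferInstance
  have key := fun ω : Ω => ((prim_stabilizer hprim hM ω).nil le_top (top_le_norm M ⊤) hM
    (nil_of_comm he.1)).2.2.1
  obtain ⟨d, e⟩ := (isPi_of_elem hp he).exists_card hp
  obtain ⟨ω⟩ := ‹Nonempty Ω›
  refine ⟨MulAction.IsPretransitive.of_orbit (x₀ := ω) fun z => ?_, fun z => eq_bot_iff.2 fun x hx =>
    Subtype.ext ((key z).disj.le ⟨x.2, hx⟩), p, d, hp, Nat.pos_of_ne_zero ?_, ?_, e⟩
  · obtain ⟨g, rfl⟩ := MulAction.exists_smul_eq G ω z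
    obtain ⟨m, a, u, b, rfl⟩ := (key ω).exists_mul (mem_top g)
    exact ⟨⟨m, a⟩, by rw [mul_smul, MulAction.mem_stabilizer_iff.1 b]; rfl⟩
  · rintro rfl; exact hM (card_eq_one.1 e)
  · rw [← e, ← (key ω).relIndex_right, relIndex_top_right, MulAction.index_stabilizer_of_transitive]

end Cfsg.Agent.S0547
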