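import Cfsg.Statements.S0548
import Cfsg.Agent.Lib.Solv.SS3

set_option autoImplicit false
open Cfsg

namespace Cfsg.Agent.S0548

open Subgroup CA CA.BG CA.OQuo CA.Subn

/-- Let a finite solvable group G act faithfully and primitively on a set, let M be a minimal normal subgroup and H the stabilizer of a point. Then H is a complement to M, no non-identity element of H centralizes M, and the only subgroups of M normalized by H are the trivial subgroup and M. -/
theorem result {G : Type*} [Group G] [Finite G] [Group.IsSolvable G] {Ω : Type*} [MulAction G Ω] [FaithfulSMul G Ω] (hprim : MulAction.IsPreprimitive G Ω) (M : Subgroup G) [M.Normal] (hM : M ≠ ⊥) (hmin : ∀ K : Subgroup G, K.Normal → K ≤ M → K = ⊥ ∨ K = M) (ω : Ω) : Subgroup.IsComplement' M (MulAction.stabilizer G ω) ∧ MulAction.stabilizer G ω ⊓ Subgroup.centralizer (M : Set G) = ⊥ ∧ ∀ K : Subgroup G, K ≤ M → MulAction.stabilizer G ω ≤ Subgroup.normalizer (K : Set G) → K = ⊥ ∨ K = M := by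
  have h := prim_stabilizer hprim hM ω
  obtain ⟨p, -, he⟩ := (minNormal_top hM hmin).elem inferInstance
  obtain ⟨a, b, c, -⟩ := h.nil le_top (top_le_norm M ⊤) hM (nil_of_comm he.1)
  refine ⟨c.compl', (inf_comm _ _).trans (h.cent_inf le_top a.2.1 hM), fun K i j => or_iff_not_imp_left.2
    fun k => a.2.2 K i k (c.sup ▸ sup_le (norm_of_comm he.1 i) j)⟩

end Cfsg.Agent.S0548
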