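import Cfsg.Statements.S0550
import Cfsg.Agent.Lib.Solv.SS3

set_option autoImplicit false
open Cfsg

namespace Cfsg.Agent.S0550

open Subgroup CA CA.BG CA.OQuo CA.Subn

/-- Let U be a maximal subgroup with trivial normal core in a finite group G, and A ≠ B two minimal normal subgroups. Then A is the centralizer of B and B that of A, U complements each of them, A and B are non-abelian, and A, B and (A ⊔ B) ∩ U are pairwise isomorphic. -/
theorem result {G : Type*} [Group G] [Finite G] (U : Subgroup G) (hU : IsCoatom U) (hcore : U.normalCore = ⊥) (A B : Subgroup G) [A.Normal] [B.Normal] (hA : A ≠ ⊥) (hB : B ≠ ⊥) (hAmin : ∀ K : Subgroup G, K.Normal → K ≤ A → K = ⊥ ∨ K = A) (hBmin : ∀ K : Subgroup G, K.Normal → K ≤ B → K = ⊥ ∨ K = B) (hAB : A ≠ B) : Subgroup.centralizer (B : Set G) = A ∧ Subgroup.centralizer (A : Set G) = B ∧ Subgroup.IsComplement' A U ∧ Subgroup.IsComplement' B U ∧ ¬ IsMulCommutative A ∧ Nonempty (A ≃* B) ∧ Nonempty (A ≃* ↥((A ⊔ B) ⊓ U))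 := by
  have h := prim_top hU hcore
  have a := top_le_norm A ⊤
  have b := top_le_norm B ⊤
  have d : A ⊓ B = ⊥ := (hAmin _ inferInstance inf_le_left).resolve_right fun i =>
    hAB ((hBmin A inferInstance (inf_eq_left.1 i)).resolve_left hA)
  have c := cent_of_norm_disjoint (le_top.trans b) (le_top.trans a) d
  have e1 := h.cent_eq le_top b hB le_top c a hA
  have e2 := h.cent_eq le_top a hA le_top (cent_symm c) b hB
  rw [top_inf_eq] at e1 e2
  have s1 := h.sdprod le_top b hB le_top c a hA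
  have s2 := h.sdprod le_top a hA le_top (cent_symm c) b hB
  obtain ⟨f1⟩ := (s1.inf_left (L := A ⊔ B) le_sup_left le_top).quoEquiv
  obtain ⟨f2⟩ := (s2.inf_left (L := A ⊔ B) le_sup_right le_top).quoEquiv
  obtain ⟨f3⟩ := (sdprod_sup (le_top.trans a) d).quoEquiv
  obtain ⟨f4⟩ := SDProd.quoEquiv (K := B) (R := A) (H := A ⊔ B)
    ⟨le_top.trans b, inf_comm A B ▸ d, sup_comm _ _⟩
  refine ⟨e1, e2, s1.compl', s2.compl', fun i => hA ?_, ⟨(f4.trans f2.symm).trans (f1.trans f3.symm)⟩,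
    ⟨inf_comm U _ ▸ f4.trans f2.symm⟩⟩
  exact BG.eq_bot_mono (le_inf le_rfl (e2 ▸ comm_iff_le_cent.1 i)) d

end Cfsg.Agent.S0550
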