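import Cfsg.Statements.S0552
import Cfsg.Agent.Lib.Solv.SS3

set_option autoImplicit false
open Cfsg

namespace Cfsg.Agent.S0552

open Subgroup CA CA.BG CA.OQuo CA.Subn

/-- Let σ be an automorphism of a finite solvable group G fixing every element of the Fitting subgroup. If σ is not the identity then the order of σ and the order of G have a common prime factor. -/
theorem result {G : Type*} [Group G] [Finite G] [Group.IsSolvable G] (σ : G ≃* G) (hσ : ∀ x ∈ Cfsg.fittingSubgroup G, σ x = x) (hne : σ ≠ MulEquiv.refl G) : ¬ (orderOf σ).Coprime (Nat.card G) := by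
  refine fun hc => hne (MulEquiv.ext fun g => ?_)
  have h1 : g⁻¹ * σ g ∈ fittingSubgroup G := Fitting.centralizer_fitting_le (mem_cent.2 fun f hf => by
    have := hσ _ ((inferInstance : (fittingSubgroup G).Normal).conj_mem f hf g)
    rw [map_mul, map_mul, hσ f hf, map_inv] at this
    calc _ = g⁻¹ * (g * f * g⁻¹) * σ g := by group
      _ = _ := by rw [← this]; group)
  have h2 : ∀ n : ℕ, (σ ^ n) g = g * (g⁻¹ * σ g) ^ n := fun n => by
    induction n with
    | zero => simp
    | succ n ih =>
      rw [pow_succ', MulAut.mul_apply, ih, map_mul, hσ _ (pow_mem h1 n), pow_succ', ← mul_assoc,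
        mul_inv_cancel_left]
  have h3 := h2 (orderOf σ)
  rw [pow_orderOf_eq_one, MulAut.one_apply, left_eq_mul] at h3
  have := Nat.eq_one_of_dvd_coprimes hc (orderOf_dvd_of_pow_eq_one h3) (orderOf_dvd_natCard _)
  exact (inv_mul_eq_one.1 (orderOf_eq_one_iff.1 this)).symm

end Cfsg.Agent.S0552
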