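import Cfsg.Statements.S0553
import Cfsg.Agent.Lib.Solv.SS3

set_option autoImplicit false
open Cfsg

namespace Cfsg.Agent.S0553

open Subgroup CA CA.BG CA.OQuo CA.Subn

/-- Let G be a nontrivial finite solvable group in which every maximal subgroup has order coprime to its index. Then for some prime p dividing the order of G the Sylow p-subgroups of G are normal. -/
theorem result {G : Type*} [Group G] [Finite G] [Group.IsSolvable G] [Nontrivial G] (h : ∀ M : Subgroup G, IsCoatom M → (Nat.card M).Coprime M.index) : ∃ p : ℕ, p.Prime ∧ p ∣ Nat.card G ∧ ∀ P : Sylow p G, (P : Subgroup G).Normal := by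
  have h1 : ¬ 𝓕((⊤ : Subgroup G)) ≤ frattini G := fun i => by
    have : Nontrivial (G ⧸ frattini G) := QuotientGroup.nontrivial_iff.2 fun e => by
      obtain ⟨M, a, -⟩ := exists_coatom_ge (bot_ne_top (α := Subgroup G))
      exact a.1 (top_le_iff.1 (e ▸ frattini_le_coatom a))
    refine Fitting.fitting_ne_bot (G := G ⧸ frattini G) ?_
    rwa [← Fitting.map_mk_fitting_of_le_frattini _ le_rfl, Subgroup.map_eq_bot_iff,
      QuotientGroup.ker_mk', ← fit_top]
  obtain ⟨p, hp, M, hM, h2⟩ : ∃ p, p.Prime ∧ ∃ M : Subgroup G, IsCoatom M ∧ ¬ 𝓞({p}, ⊤) ≤ M := by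
    by_contra! i
    exact h1 (fit_le_of_core fun p hp _ => le_iInf₂ (i p hp))
  have h3 : 𝓞({p}, ⊤) ⊔ M = ⊤ := hM.2 _ (right_lt_sup.2 h2)
  have hn := le_norm_core {p} (⊤ : Subgroup G)
  have h5 := relIndex_inf_of_sup (le_top.trans hn) h3
  have h6 : p ∣ M.index := by
    rw [← relIndex_top_right, ← h5]
    by_contra i
    exact h2 ((core_pi _ _).le_of_idx ((piNat_compl_iff hp).2 i))
  have h7 : Syl p 𝓞({p}, ⊤) (⊤ : Subgroup G) := by
    have := hall_sup_normal' ((isPi_compl_iff hp).2 (not_dvd_of_coprime hp (h M hM).symm h6))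
      (le_top.trans hn) (core_pi _ _)
    rwa [sup_comm, h3] at this
  exact ⟨p, hp, h6.trans M.index_dvd_card, fun P =>
    h7.eq_of_normal hn (syl_top hp P) ▸ normal_of_top_le_norm hn⟩

end Cfsg.Agent.S0553
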