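import Cfsg.Statements.S0554
import Cfsg.Agent.Lib.Solv.SS3

set_option autoImplicit false
open Cfsg

namespace Cfsg.Agent.S0554

open Subgroup CA CA.BG CA.OQuo CA.Subn

theorem prod_update {G : Type*} [Group G] {t : ℕ} (s : Fin t → G) (i : Fin t) :
    ∃ a b : G, ∀ y, (List.ofFn (Function.update s i y)).prod = a * y * b := by
  induction t with
  | zero => exact i.elim0
  | succ t ih =>
    induction i using Fin.cases with
    | zero =>
      exact ⟨1, (List.ofFn fun i => s i.succ).prod, fun y => by simp [List.ofFn_succ]⟩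
    | succ i =>
      obtain ⟨a, b, h⟩ := ih (fun i => s i.succ) i
      refine ⟨s 0 * a, b, fun y => ?_⟩
      rw [List.ofFn_succ, List.prod_cons, mul_assoc, mul_assoc, ← mul_assoc a, ← h,
        Function.update_of_ne (Fin.succ_ne_zero i).symm]
      congr 3
      ext j
      simp [Function.update_apply]

/-- Let G be a finite solvable group and let S assign to each of t distinct primes, including every prime divisor of the order of G, a Sylow subgroup of G. Then every element of G is a product s_0 s_1 ⋯ s_(t-1) with s_i in S i, the factors taken in the given order. -/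
theorem result {G : Type*} [Group G] [Finite G] [Group.IsSolvable G] (t : ℕ) (p : Fin t → ℕ) (hp : ∀ i, (p i).Prime) (hinj : Function.Injective p) (hall : ∀ q : ℕ, q.Prime → q ∣ Nat.card G → ∃ i, p i = q) (S : (i : Fin t) → Sylow (p i) G) : ∀ g : G, ∃ s : (i : Fin t) → G, (∀ i, s i ∈ (S i : Subgroup G)) ∧ g = (List.ofFn s).prod := by
  intro g
  suffices ∀ V : Subgroup G, ⊤ ≤ 𝓝(V) → ∃ s : Fin t → G, (∀ i, s i ∈ (S i : Subgroup G)) ∧
      ((List.ofFn s).prod)⁻¹ * g ∈ V by
    obtain ⟨s, a, b⟩ := this ⊥ (BG4.le_norm_bot ⊤)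
    exact ⟨s, a, (inv_mul_eq_one.1 b).symm⟩
  intro V
  induction V using WellFoundedGT.induction with
  | ind V ih =>
    intro hn
    rcases (le_top (a := V)).eq_or_lt with rfl | hlt
    · exact ⟨fun _ => 1, fun _ => one_mem _, mem_top _⟩
    obtain ⟨U, -, hU⟩ := exists_chief_above hlt le_rfl hn (le_norm_self ⊤)
    obtain ⟨q, hq, -, -, h1⟩ := sol_chief_abelem hU inferInstance
    obtain ⟨s, a, b⟩ := ih U hU.1 hU.2.2.1
    obtain ⟨i, rfl⟩ := hall q hq (by
      obtain ⟨r, c, d⟩ := Nat.exists_prime_and_dvd (mt relIndex_eq_one.1 hU.1.not_ge)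
      exact h1 r c d ▸ d.trans ((relIndex_dvd_card' _ _).trans (card_subgroup_dvd_card U)))
    have h2 := ((syl_top hq (S i)).inf_normal le_top (le_top.trans hU.2.2.1)).sup_of_idx hU.1.le h1
    obtain ⟨c, d, e⟩ := prod_update s i
    obtain ⟨y, hy, v, hv, f⟩ := (mem_sup_norm (le_top.trans hn)).1
      (h2.ge (conj_mem_of_norm hU.2.2.1 (mem_top d) b))
    refine ⟨Function.update s i (s i * y), fun j => ?_, ?_⟩
    · rcases eq_or_ne j i with rfl | j'
      · rw [Function.update_self]; exact mul_mem (a j) hy.1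
      · rw [Function.update_of_ne j']; exact a j
    · have := e (s i)
      rw [Function.update_eq_self] at this
      rw [this] at f
      convert conj_mem_of_mem_norm' (hn (mem_top d)) hv using 1
      rw [e, eq_inv_mul_of_mul_eq f]; group

end Cfsg.Agent.S0554
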