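import Cfsg.Statements.S0555
import Cfsg.Agent.Lib.Solv.SS3

set_option autoImplicit false
open Cfsg

namespace Cfsg.Agent.S0555

open Subgroup CA CA.BG CA.OQuo CA.Subn

/-- Let i ≥ 1. If in the derived series of a group the quotient of the i-th term by the (i+1)-st and the quotient of the (i+1)-st by the (i+2)-nd are both cyclic, then the (i+1)-st and (i+2)-nd terms coincide. -/
theorem result {G : Type*} [Group G] (i : ℕ) (hi : 1 ≤ i) (h₁ : IsCyclic (↥(derivedSeries G i) ⧸ (derivedSeries G (i + 1)).subgroupOf (derivedSeries G i))) (h₂ : IsCyclic (↥(derivedSeries G (i + 1)) ⧸ (derivedSeries G (i + 2)).subgroupOf (derivedSeries G (i + 1)))) : derivedSeries G (i + 1) = derivedSeries G (i + 2) := by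
  obtain ⟨i, rfl⟩ := Nat.exists_eq_add_of_le' hi
  set D := derivedSeries G (i + 1 + 2)
  let f := QuotientGroup.mk' D
  have hk : f.ker = D := QuotientGroup.ker_mk' D
  have key : ∀ (A B : Subgroup G) [B.Normal], IsCyclic (A ⧸ B.subgroupOf A) →
      ∃ x ∈ A, A ≤ zpowers x ⊔ B := fun A B _ h => by
    obtain ⟨x, hx⟩ := h.exists_generator
    obtain ⟨x, rfl⟩ := QuotientGroup.mk_surjective x
    refine ⟨x, x.2, fun a ha => ?_⟩
    obtain ⟨n, e⟩ := hx (QuotientGroup.mk ⟨a, ha⟩)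
    have : (x ^ n)⁻¹ * ⟨a, ha⟩ ∈ B.subgroupOf A := QuotientGroup.eq.1 e
    exact (mul_inv_cancel_left ((x : G) ^ n) a) ▸ mul_mem (mem_sup_left (zpow_mem_zpowers _ _))
      (mem_sup_right this)
  obtain ⟨x, hx, a⟩ := key _ _ h₁
  obtain ⟨y, hy, b⟩ := key _ _ h₂
  have c : (derivedSeries G (i + 1 + 1)).map f = zpowers (f y) := le_antisymm
    ((map_mono b).trans (by
      rw [Subgroup.map_sup, MonoidHom.map_zpowers, (Subgroup.map_eq_bot_iff _).2 hk.ge, sup_bot_eq]))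
    (zpowers_le.2 (mem_map_of_mem f hy))
  have : (zpowers (f y)).Normal := c ▸ Normal.map inferInstance f (QuotientGroup.mk'_surjective D)
  have d : (derivedSeries G (i + 1)).map f ≤ 𝓒(zpowers (f y)) := by
    rw [derivedSeries_succ, map_commutator]
    refine commutator_le.2 fun u _ v _ => ?_
    obtain ⟨m, i⟩ := this.conj_mem _ (mem_zpowers _) u⁻¹
    obtain ⟨n, j⟩ := this.conj_mem _ (mem_zpowers _) v⁻¹
    dsimp only at i j
    have k : v⁻¹ * (u⁻¹ * f y * u⁻¹⁻¹) * v⁻¹⁻¹ = u⁻¹ * (v⁻¹ * f y * v⁻¹⁻¹) * u⁻¹⁻¹ := by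
      rw [← i, ← conj_zpow, ← j, ← conj_zpow, ← i, ← zpow_mul, ← zpow_mul, mul_comm]
    rw [cent_zpowers, mem_cent1, commutatorElement_def]
    calc _ = u * v * (u⁻¹ * (v⁻¹ * f y * v⁻¹⁻¹) * u⁻¹⁻¹) * u⁻¹ * v⁻¹ := by group
      _ = _ := by rw [← k]; group
  have e : IsMulCommutative ((derivedSeries G (i + 1)).map f) := comm_of_le (comm_sup
    (comm_of_cyclic (cyc_zpowers (f x))) (comm_of_cyclic (cyc_zpowers (f y)))
    (zpowers_le.2 (d (mem_map_of_mem f hx)))) ((map_mono a).trans (by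
      rw [Subgroup.map_sup, MonoidHom.map_zpowers, c]))
  refine le_antisymm ?_ (der_le _)
  rw [comm_iff_der_eq_bot, ← map_commutator, Subgroup.map_eq_bot_iff, hk] at e
  exact e

end Cfsg.Agent.S0555
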