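import Cfsg.Statements.S0557
import Cfsg.Agent.Lib.Solv.SS3

set_option autoImplicit false
open Cfsg

namespace Cfsg.Agent.S0557

open Subgroup CA CA.BG CA.OQuo CA.Subn

/-- Let H be a subgroup of a finite group G with order coprime to its index. If iterating the focal-subgroup construction starting from H reaches the trivial subgroup after finitely many steps, then H has a normal complement in G. -/
theorem result {G : Type*} [Group G] [Finite G] (H : Subgroup G) (hHall : (Nat.card H).Coprime H.index) (n : ℕ) (hfoc : (fun K : Subgroup G => Subgroup.focalSubgroup K)^[n] H = ⊥) : ∃ N : Subgroup G, N.Normal ∧ Subgroup.IsComplement' N H := by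
  have h := IsHallIn.hall (P := H) ⟨le_top, by rwa [relIndex_top_right]⟩
  obtain ⟨N, -, ⟨a, b⟩, c⟩ := exists_minimal_le (H := (⊤ : Subgroup G)) (P := fun N =>
    ⊤ ≤ 𝓝(N) ∧ PiNat (primesOf H) (N.relIndex ⊤)) ⟨le_norm_self _, by rw [relIndex_self]; exact piNat_one _⟩
  have h1 := h.inf_normal le_top (le_top.trans a)
  have hd := (le_norm_self N).trans (norm_der N)
  have h2 : H ⊓ N ≤ focalSubgroup (H ⊓ N) := le_of_forall_syl fun p hp i => by
    have := Fact.mk hp
    obtain ⟨P, hP⟩ := syl_exists hp (H ⊓ N)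
    have hπ := h1.pi p hp i
    have hP' := hP.trans_syl h1 hπ
    have j := nil_hall_core {p}ᶜ (nil_of_comm ((isMulCommutative_mim_iff (f := qh _) hd).2
      (mker_qh _).ge))
    have k := c _ ⟨norm_qpre_core {p}ᶜ a (a.trans (norm_der N)), PiNat.relIndex_trans
      (qpre_le hd (der_le N) j.le) le_top (by
        rw [relIndex_mpre _ _ hd]; exact j.idx.mono (by simpa using hπ)) b⟩
      (qpre_le hd (der_le N) j.le)
    refine ⟨P, hP, (le_inf (hP.pi.le_of_relIndex hP'.le hd ?_) le_rfl).trans
      (Hyperfocal.commutator_inf_le_in ((syl_iff hp).1 hP') fun x hx g _ l =>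
        Hyperfocal.inv_mul_conj_mem_focalSubgroup (hP.le hx) (hP.le l))⟩
    have := core_pi {p}ᶜ (N /ᵍ ⁅N, N⁆)
    rwa [← quo_mpre 𝓞({p}ᶜ, N /ᵍ ⁅N, N⁆), k, isPi_quo_iff hd] at this
  have h3 : ∀ n, H ⊓ N ≤ (fun K : Subgroup G => focalSubgroup K)^[n] H := fun n => by
    induction n with
    | zero => exact inf_le_left
    | succ n ih =>
      rw [Function.iterate_succ_apply']
      exact h2.trans (Hyperfocal.focalSubgroup_le_iff.2 fun x i g j =>
        Hyperfocal.inv_mul_conj_mem_focalSubgroup (ih i) (ih j))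
  exact ⟨N, normal_of_top_le_norm a, SDProd.compl' ⟨le_top.trans a, inf_comm H N ▸
    BG.eq_bot_mono (h3 n) hfoc, sup_comm H N ▸ h.sup_of_idx le_top b⟩⟩

end Cfsg.Agent.S0557
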