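import Cfsg.Statements.S0558
import Cfsg.Agent.Lib.Solv.SS2

set_option autoImplicit false
open Cfsg

namespace Cfsg.Agent.S0558

open Subgroup CA CA.BG CA.OQuo

/-- Let H be a subgroup of a finite group G that is not a Sylow subgroup of G for any prime, and suppose that for every prime p dividing the order of H and every Sylow p-subgroup P of H the normalizer of P in G is exactly H. Then some normal subgroup of G is a complement to H. -/
theorem result {G : Type*} [Group G] [Finite G] (H : Subgroup G) (hnot : ∀ p : ℕ, p.Prime → ∀ P : Sylow p G, (P : Subgroup G) ≠ H) (hnorm : ∀ p : ℕ, p.Prime → p ∣ Nat.card H → ∀ P : Sylow p H, Subgroup.normalizer (((P : Subgroup H).map H.subtype : Subgroup G) : Set G) = H) : ∃ N : Subgroup G, N.Normal ∧ Subgroup.IsComplement' N H := by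
  have hn : Group.IsNilpotent H := nil_of_syl_normal fun p hp hd => by
    obtain ⟨P, hP⟩ := syl_exists hp H
    obtain ⟨S, rfl⟩ := hP.exists_sylow hp
    exact ⟨_, hP, (hnorm p hp hd S).ge⟩
  have h1 : ∀ p, p.Prime → p ∣ ♯H → ⊤ ⊓ 𝓝(𝓞({p}, H)) ≤ H := fun p hp hd => by
    obtain ⟨S, e⟩ := (nil_hall_core {p} hn).exists_sylow hp
    rw [← e, hnorm p hp hd S]; exact inf_le_right
  by_cases h0 : H = ⊥
  · exact ⟨⊤, inferInstance, h0 ▸ isComplement'_top_bot⟩
  obtain ⟨a, b⟩ := hall_of_norm_syl le_top hn (fun p hp => by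
    have hp' := hp.prime_of_ne_bot h0
    have := h1 p hp' (hp.dvd_card h0)
    rw [core_eq_self hp] at this
    obtain ⟨S, e⟩ := ((hall_self hp).syl_of_norm_le hp' le_top this).exists_sylow_top hp'
    exact hnot p hp' S e) h1
  have := normal_of_top_le_norm (le_norm_core (primesOf H)ᶜ (⊤ : Subgroup G))
  exact ⟨_, this, isComplement'_of_disjoint_and_mul_eq_univ (disjoint_iff.2
    (b.pi.inf_eq_bot' a.pi)) (by rw [← normal_mul, sup_comm, a.sup_compl b, coe_top])⟩

end Cfsg.Agent.S0558
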