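import Cfsg.Statements.S0562
import Cfsg.Agent.Lib.Solv.SS4

set_option autoImplicit false
open Cfsg

namespace Cfsg.Agent.S0562

open Subgroup CA CA.BG CA.OQuo CA.H1Prod

/-- Let the finite group G be the product HK of subgroups, A normal in H, B normal in K, and L the normalizer of the subgroup generated by A and B. Then every element of L is a product of an element of L ∩ H and an element of L ∩ K. -/
theorem result {G : Type*} [Group G] [Finite G] (H K A B : Subgroup G) (hHK : ∀ g : G, ∃ h ∈ H, ∃ k ∈ K, g = h * k) (hA : A ≤ H) (hAn : (A.subgroupOf H).Normal) (hB : B ≤ K) (hBn : (B.subgroupOf K).Normal) : ∀ g ∈ Subgroup.normalizer ((A ⊔ B : Subgroup G) : Set G), ∃ h ∈ Subgroup.normalizer ((A ⊔ B : Subgroup G) : Set G) ⊓ H, ∃ k ∈ Subgroup.normalizer ((A ⊔ B : Subgroup G) : Set G) ⊓ K, g = h * k := by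
  exact facIn_norm hHK ((normal_subgroupOf_iff_le_normalizer hA).1 hAn)
    ((normal_subgroupOf_iff_le_normalizer hB).1 hBn)

end Cfsg.Agent.S0562
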