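import Cfsg.Statements.S0563
import Cfsg.Agent.Lib.Solv.SS4

set_option autoImplicit false
open Pointwise
open Cfsg

namespace Cfsg.Agent.S0563

open Subgroup CA CA.BG CA.OQuo CA.H1Prod

/-- If a finite group G is the product AB of two nilpotent subgroups of coprime orders, then G is solvable, and for every Sylow p-subgroup P of A and Sylow q-subgroup Q of B the product set PQ is a subgroup. -/
theorem result {G : Type*} [Group G] [Finite G] (A B : Subgroup G) (hA : Group.IsNilpotent A) (hB : Group.IsNilpotent B) (hcop : (Nat.card A).Coprime (Nat.card B)) (hAB : ∀ g : G, ∃ a ∈ A, ∃ b ∈ B, g = a * b) : Group.IsSolvable G ∧ ∀ (p q : ℕ) [Fact p.Prime] [Fact q.Prime] (P : Sylow p A) (Q : Sylow q B), ∃ S : Subgroup G, (S : Set G) = (((P : Subgroup A).map A.subtype : Subgroup G) : Set G) * (((Q : Subgroup B).map B.subtype : Subgroup G) : Set G) := by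
  have := kegel_wielandt hA hB hAB
  refine ⟨this, fun p q hp hq P Q => pm_iff_exists.1 ?_⟩
  have a := isPi_primesOf A
  have b := isPi_compl_primesOf hcop.symm
  have l := (facIn_top hAB).hall a b
  have m := (facIn_top (Fac.symm hAB)).hall b (by rwa [compl_compl])
  rw [top_inf_eq] at l m
  have c := syl_map hp.out P
  have d := syl_map hq.out Q
  exact pm_of_hall (solv_top ⊤) (facIn_top hAB) (c.le_norm_of_nil hA) (d.le_norm_of_nil hB)
    ((c.congr fun r i j => ⟨fun k => Set.mem_inter (a r i j) k, And.right⟩).trans l
      Set.inter_subset_left)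
    ((d.congr fun r i j => ⟨fun k => Set.mem_inter (b r i j) k, And.right⟩).trans m
      Set.inter_subset_left)

end Cfsg.Agent.S0563
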