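import Cfsg.Statements.S0567
import Cfsg.Agent.Lib.Solv.SS3

set_option autoImplicit false
open Cfsg

namespace Cfsg.Agent.S0567

open Subgroup CA CA.BG CA.OQuo CA.Subn
open scoped commutatorElement

/-- A subgroup H of a group G is subnormal exactly when, for some m, the subgroup obtained from G by taking the commutator with H m times in succession is contained in H. -/
theorem result {G : Type*} [Group G] (H : Subgroup G) : H.IsSubnormal ↔ ∃ m : ℕ, (fun K : Subgroup G => ⁅K, H⁆)^[m] ⊤ ≤ H := by
  constructor
  · intro h
    suffices ∀ A : Subgroup G, A.IsSubnormal → H ≤ A →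
        ∃ m : ℕ, (fun K : Subgroup G => ⁅K, H⁆)^[m] ⊤ ≤ A from this H h le_rfl
    intro A h
    induction h with
    | top => exact fun _ => ⟨0, le_top⟩
    | step A B a _ b ih =>
      intro c
      obtain ⟨m, d⟩ := ih (c.trans a)
      refine ⟨m + 1, ?_⟩
      rw [Function.iterate_succ_apply']
      exact (commutator_mono d c).trans (comm_le_right ((normal_subgroupOf_iff_le_normalizer a).1 b))
  · rintro ⟨m, h⟩
    suffices ∀ m, ((fun K : Subgroup G => ⁅K, H⁆)^[m] ⊤ ⊔ H).IsSubnormal from
      sup_eq_right.2 h ▸ this m
    intro m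
    induction m with
    | zero => simp
    | succ m ih =>
      rw [Function.iterate_succ_apply']
      refine subnormal_of_le_normalizer (sup_le (comm_le_of_le le_sup_left le_sup_right)
        le_sup_right) (sup_le (norm_of_comm_le_right ?_) (le_norm_of_le le_sup_right)) ih
      generalize (fun K : Subgroup G => ⁅K, H⁆)^[m] ⊤ = K
      have h1 : K ≤ 𝓝(⁅K, H⁆) := normalizer_commutator_ge_left K H
      refine commutator_le.2 fun k hk x hx => ?_
      obtain ⟨c, i, y, j, rfl⟩ := (mem_sup_norm' (normalizer_commutator_ge_right K H)).1 hx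
      have : ⁅k, c * y⁆ = (k * c * k⁻¹) * ⁅k, y⁆ * (y * (c * y)⁻¹) := by
        simp only [commutatorElement_def]; group
      rw [this]
      exact mul_mem (mem_sup_left (mul_mem (conj_mem_of_norm h1 hk i)
        (commutator_mem_commutator hk j))) (mul_mem (mem_sup_right j) (inv_mem hx))

end Cfsg.Agent.S0567
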