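import Cfsg.Statements.S0568
import Cfsg.Agent.Lib.Solv.SS3
import Cfsg.Agent.Lib.Grp.H1Carter

set_option autoImplicit false
open Cfsg

namespace Cfsg.Agent.S0568

open Subgroup CA CA.BG CA.OQuo CA.Subn
open scoped commutatorElement

/-- Let D be the system normalizer of a Hall complement system of a finite solvable group G, and let A < B be normal subgroups with no normal subgroup of G strictly between them (a chief factor). If G centralizes B modulo A then B ≤ A ⊔ D (D covers the factor); otherwise B ∩ D ≤ A (D avoids it). -/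
theorem result {G : Type*} [Group G] [Finite G] [Group.IsSolvable G] (K : Nat.Primes → Subgroup G) (hK : Cfsg.IsComplementSystem K) (A B : Subgroup G) [A.Normal] [B.Normal] (hAB : A < B) (hchief : ∀ N : Subgroup G, N.Normal → A ≤ N → N ≤ B → N = A ∨ N = B) : (⁅B, (⊤ : Subgroup G)⁆ ≤ A → B ≤ A ⊔ Cfsg.systemNormalizer K) ∧ (¬ ⁅B, (⊤ : Subgroup G)⁆ ≤ A → B ⊓ Cfsg.systemNormalizer K ≤ A) := by
  have a := top_le_norm A ⊤
  have b := top_le_norm B ⊤
  have hc : ChiefFactor ⊤ A B := ⟨hAB, le_top, b, a, fun L i j k =>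
    hchief L (normal_of_top_le_norm k) i j⟩
  refine ⟨fun h x hx => ?_, fun h => ?_⟩
  · have : (x : G ⧸ A) ∈ (systemNormalizer K).map (QuotientGroup.mk' A) := by
      rw [← H1Carter.sysNorm_map hK, H1Carter.mem_sysNorm]
      refine fun p => cent_le_norm _ (mem_cent.2 fun y _ => ?_)
      obtain ⟨y, rfl⟩ := QuotientGroup.mk_surjective y
      rw [eq_comm, ← commutatorElement_eq_one_iff_mul_comm]
      exact (QuotientGroup.eq_one_iff ⁅x, y⁆).2 (h (commutator_mem_commutator hx (mem_top y)))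
    have := (mem_comap (f := QuotientGroup.mk' A) (x := x)).2 this
    rwa [comap_map_eq, QuotientGroup.ker_mk', sup_comm] at this
  obtain ⟨p, hp, h1, -, h2⟩ := sol_chief_abelem hc inferInstance
  set C := mpre (qh A) 𝓒(B /ᵍ A)
  have hC : ∀ X : Subgroup G, X ≤ C ↔ ⁅X, B⁆ ≤ A := fun X => by
    rw [← quo_le_iff (le_top.trans a), quo_le_centralizer_iff (le_top.trans a) (le_top.trans a)]
  have hCn : ⊤ ≤ 𝓝(C) := norm_qpre a (norm_cent (norm_quo A b))
  obtain ⟨L, -, hL⟩ := exists_chief_above (H := ⊤) (K := ⊤) (lt_top_iff_ne_top.2 fun e =>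
    h ((comm_symm _ _).le.trans ((hC ⊤).1 e.ge))) le_rfl hCn (le_norm_self _)
  obtain ⟨q, hq, -, -, h3⟩ := sol_chief_abelem hL inferInstance
  have hm := hc.minnormal_quo
  have hB := (isPi_quo_iff (le_top.trans a)).2 h2
  have h4 : ∀ X : Subgroup G, L ≤ X ⊔ C → B /ᵍ A ⊓ 𝓒(X /ᵍ A) = ⊥ := fun X i => by
    refine BG.eq_bot_mono (le_inf inf_le_left (cent_symm ((quo_mono A i).trans ?_))) (by_contra
      fun j => hL.1.not_ge ((quo_le_iff (le_top.trans a)).1 (cent_symm (inf_eq_left.1 (hm.2.2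
        (B /ᵍ A ⊓ 𝓒(L /ᵍ A)) inf_le_left j (norm_inf hm.2.1 (norm_cent (norm_quo A hL.2.2.1))))))))
    rw [quo_sup (le_top.trans a) (le_top.trans a), quo_mpre]
    exact sup_le (cent_symm inf_le_right) (cent_anti inf_le_left)
  have hK' : Hall {p}ᶜ (K ⟨p, hp⟩) ⊤ := Hall.mk' le_top ((isPi_compl_iff hp).2
    (H1Carter.sys_not_dvd hK ⟨p, hp⟩)) (by
      rw [compl_compl, relIndex_top_right]; exact (hK ⟨p, hp⟩).symm ▸ piNat_pow hp _)
  have hqp : q ≠ p := by
    rintro rfl
    obtain ⟨S, hS⟩ := syl_exists hq L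
    exact (hS.pi.mim _).meet_cent hB (norm_quo A (le_top.trans b)) hm.1
      (h4 S (hS.sup_of_idx hL.1.le h3).ge)
  have h5 := h4 (K ⟨p, hp⟩) (((hK'.inf_normal le_top (le_top.trans hL.2.2.1)).sup_of_idx hL.1.le
    (h3.mono (singleton_sub hqp))).ge.trans (sup_le_sup_right inf_le_left _))
  rw [← mker_qh A, ← mim_eq_bot_iff (le_top.trans a)]
  refine BG.eq_bot_mono (le_inf (quo_mono A inf_le_left) (quo_cent_of_comm_le (le_top.trans a)
    (le_top.trans a) ?_)) h5
  exact (hK'.pi.of_le (comm_le_right (inf_le_right.trans (H1Carter.sysNorm_le K _)))).le_of_relIndex'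
    ((comm_mono inf_le_left le_rfl).trans (comm_le_left (le_top.trans b))) (le_top.trans a) h2

end Cfsg.Agent.S0568
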