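import Cfsg.Statements.S0570
import Cfsg.Agent.Lib.Grp.H1Carter

set_option autoImplicit false
open Cfsg

namespace Cfsg.Agent.S0570

open CA.H1Carter CA.H1Basic CA.H1Nil CA.H1Prod Pointwise

/-- Let G be a finite group with a nilpotent normal subgroup F such that G modulo F is nilpotent (nilpotent length at most two). Then a subgroup of G is a Carter subgroup if and only if it is the system normalizer of some Hall complement system. -/
theorem result {G : Type*} [Group G] [Finite G] (F : Subgroup G) [F.Normal] (hF : Group.IsNilpotent F) (hGF : Group.IsNilpotent (G ⧸ F)) (C : Subgroup G) : Cfsg.IsCarterSubgroup C ↔ ∃ K : Nat.Primes → Subgroup G, Cfsg.IsComplementSystem K ∧ C = Cfsg.systemNormalizer K := by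
  have : Group.IsSolvable G := (Group.isSolvable_iff_subgroup_quotient F).mpr
    ⟨inferInstance, inferInstance⟩
  have key : ∀ K : Nat.Primes → Subgroup G, Cfsg.IsComplementSystem K →
      Cfsg.IsCarterSubgroup (Cfsg.systemNormalizer K) := by
    intro K hK
    obtain ⟨D, hD, h, hred⟩ := exists_carter_ge hK
    suffices h2 : D ≤ Cfsg.systemNormalizer K by rwa [le_antisymm h h2]
    refine le_iInf fun q => ?_
    have := hD.1
    obtain ⟨j, hj⟩ := hred q
    obtain ⟨i, hi⟩ := sys_relIndex_normal hK q F
    have c1 : ∀ X : Subgroup G, ¬ (q : ℕ) ∣ Nat.card (K q ⊓ X : Subgroup G) := fun X h =>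
      sys_not_dvd hK q (h.trans (Subgroup.card_dvd_of_le inf_le_left))
    have n1 : D ≤ Subgroup.normalizer ((K q ⊓ D : Subgroup G) : Set G) :=
      le_normalizer_of_hall inf_le_right
        (coprime_of_not_dvd_of_dvd_pow q.2 (c1 D) (by rwa [Subgroup.inf_relIndex_right]))
    have n2 : (K q ⊓ F).Normal := normal_of_hall_of_normal inf_le_right
        (coprime_of_not_dvd_of_dvd_pow q.2 (c1 F) (by rw [Subgroup.inf_relIndex_right, hi]))
    set X := (K q ⊓ D) ⊔ (K q ⊓ F) with hX
    have hXK : X ≤ K q := sup_le inf_le_left inf_le_left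
    have f1 : Fac (X ⊔ F) D := (fac_of_normal (carter_sup_eq_top hD F)).symm.mono le_sup_right le_rfl
    have i1 : X.index ∣ (q : ℕ) ^ (i + j) := by
      rw [← Subgroup.relIndex_top_right, relIndex_dvd_mul X (le_top : F ≤ ⊤),
        Subgroup.relIndex_top_right, ← f1.relIndex_eq, pow_add]
      refine Nat.mul_dvd_mul ?_ ?_
      · rw [← hi, ← Subgroup.inf_relIndex_right (K q)]
        exact Subgroup.relIndex_dvd_of_le_left F le_sup_right
      · refine Dvd.dvd.trans ?_ hj
        rw [← Subgroup.inf_relIndex_right (K q)]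
        exact Subgroup.relIndex_dvd_of_le_left D (le_sup_left.trans le_sup_left)
    have e : X = K q := by
      refine le_antisymm hXK (Subgroup.relIndex_eq_one.mp ?_)
      exact Nat.eq_one_of_dvd_coprimes (coprime_of_not_dvd_of_dvd_pow q.2 (sys_not_dvd hK q) i1)
        (Subgroup.relIndex_dvd_card _ _) (Subgroup.relIndex_dvd_index_of_le hXK)
    rw [← e]
    exact n1.trans Subgroup.normalizer_le_normalizer_sup_normal
  constructor
  · intro hC
    obtain ⟨K, hK⟩ := exists_system (G := G)
    obtain ⟨g, rfl⟩ := carter_conj_eq (key K hK) hC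
    exact ⟨_, sys_conj hK g, (sysNorm_conj K g).symm⟩
  · rintro ⟨K, hK, rfl⟩
    exact key K hK

end Cfsg.Agent.S0570
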