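import Cfsg.Statements.S0571
import Cfsg.Agent.Lib.Solv.SS5
import Cfsg.Agent.S0528

set_option autoImplicit false
open Cfsg

namespace Cfsg.Agent.S0571

open Subgroup CA CA.BG CA.OQuo CA.H1Prod

universe u
theorem aux (n : ℕ) : ∀ {G : Type u} [Group G] [Finite G] {A B : Subgroup G}, Nat.card G ≤ n →
    IsCyclic A → IsCyclic B → Fac A B → IsSupersolvable G := by
  induction n with
  | zero => exact fun h => absurd h Nat.card_pos.not_ge
  | succ n ih =>
    intro G _ _ A B hc hA hB h
    by_cases h0 : (⊤ : Subgroup G) = ⊥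
    · exact ss_iff_top.2 (h0 ▸ .bot)
    obtain ⟨N, a, b, c⟩ := ito_normal (comm_of_cyclic hA) (comm_of_cyclic hB) h h0
    have := normal_of_top_le_norm a
    have := c.elim (cyc_of_le hA) (cyc_of_le hB)
    exact S0528.result N (ih (Nat.le_of_lt_succ ((card_quot_lt b).trans_le hc))
      (isCyclic_of_surjective _ (MonoidHom.subgroupMap_surjective _ A))
      (isCyclic_of_surjective _ (MonoidHom.subgroupMap_surjective _ B)) (h.map_mk N))

/-- If a finite group G is the product AB of two cyclic subgroups (every element is a product ab), then G is supersolvable. -/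
theorem result {G : Type*} [Group G] [Finite G] (A B : Subgroup G) [IsCyclic A] [IsCyclic B] (hAB : ∀ g : G, ∃ a ∈ A, ∃ b ∈ B, g = a * b) : Cfsg.IsSupersolvable G := by
  exact aux _ le_rfl ‹_› ‹_› hAB

end Cfsg.Agent.S0571
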