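import Cfsg.Statements.S0574
import Cfsg.Agent.Lib.Solv.SS5

set_option autoImplicit false
open Cfsg

namespace Cfsg.Agent.S0574

open Subgroup CA CA.BG CA.OQuo CA.H1Prod

/-- Let the finite group G be the product AB of an abelian subgroup A and a subgroup B of nilpotency class at most two, and let Ω be the number of prime factors, with multiplicity, of the order of the commutator subgroup of B. Then the term of index 2(1 + Ω) of the derived series of G is trivial. -/
theorem result {G : Type*} [Group G] [Finite G] (A B : Subgroup G) [IsMulCommutative A] (hB : commutator ↥B ≤ Subgroup.center ↥B) (hAB : ∀ g : G, ∃ a ∈ A, ∃ b ∈ B, g = a * b) : derivedSeries G (2 * (1 + (Nat.card ↥(commutator ↥B)).primeFactorsList.length)) = ⊥ := by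
  refine der_bound _ ‹_› ?_ hAB (card_der B ▸ le_rfl)
  rw [← map_subtype_commutator]
  exact (map_mono hB).trans ((map_center B).le.trans inf_le_right)

end Cfsg.Agent.S0574
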