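import Cfsg.Statements.S0577
import Cfsg.Agent.Lib.Solv.SS2

set_option autoImplicit false
open Cfsg

namespace Cfsg.Agent.S0577

open Subgroup CA CA.BG CA.OQuo

/-- Let G be a finite minimal non-nilpotent group and Q a normal Sylow q-subgroup of G, and let D be the commutator subgroup of Q regarded in G (a normal subgroup). Then G modulo D is non-abelian and all its proper subgroups are abelian. -/
theorem result {G : Type*} [Group G] [Finite G] (hG : Cfsg.IsMinimalNonNilpotent G) (q : ℕ) [Fact q.Prime] (hq : q ∣ Nat.card G) (Q : Sylow q G) (hQ : (Q : Subgroup G).Normal) (D : Subgroup G) [D.Normal] (hD : D = (commutator ↥(Q : Subgroup G)).map (Q : Subgroup G).subtype) : ¬ IsMulCommutative (G ⧸ D) ∧ ∀ K : Subgroup (G ⧸ D), K ≠ ⊤ → IsMulCommutative K := by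
  have hn : ¬ Group.IsNilpotent (⊤ : Subgroup G) :=
    fun h => hG.1 (Group.nilpotent_of_mulEquiv topEquiv)
  obtain ⟨p, r, x, R, hp, hr, h, h1, h2, h3, h4⟩ := schmidt_struct hn fun K h => hG.2 K h.ne
  have hq' : q.Prime := Fact.out
  have hS := syl_top hq' Q
  have hQn := top_le_norm (Q : Subgroup G) ⊤
  have hd : q ∣ ♯R * ♯(zpowers x) := by rwa [h3.card, card_top]
  obtain rfl : q = r := by
    rcases (Nat.Prime.dvd_mul hq').1 hd with i | i
    · exact h2.pi q hq' i
    obtain rfl : q = p := h1.pi q hq' i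
    exact absurd (cent_of_norm_cop h3.norm (hS.eq_of_normal hQn h1 ▸ le_top.trans hQn)
      (h1.pi.coprime_ne h2.pi h) (mem_zpowers x)) h4
  obtain rfl := hS.eq_of_normal hQn h2
  have hD' : D = ⁅(Q : Subgroup G), (Q : Subgroup G)⁆ := hD.trans (map_subtype_commutator _)
  have hG' := h3.der_le_of_comm (comm_of_cyclic (cyc_zpowers x))
  have key : ∀ K : Subgroup G, IsMulCommutative (K.map (QuotientGroup.mk' D)) ↔ ⁅K, K⁆ ≤ D :=
    fun K => by
      rw [comm_iff_der_eq_bot, ← map_commutator, Subgroup.map_eq_bot_iff, QuotientGroup.ker_mk']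
  refine ⟨fun i => h4 (coprime_cent_Phi h3.norm (h2.pi.coprime_ne h1.pi h.symm) ?_
    (mem_zpowers x)), fun K hK => ?_⟩
  · exact (comm_mono le_top le_top).trans (((key ⊤).1 inferInstance).trans
      (hD' ▸ der_le_Phi hq' h2.pi))
  · rw [← map_comap_eq_self_of_surjective (QuotientGroup.mk'_surjective D) K, key]
    have hL := hG.2 (K.comap (QuotientGroup.mk' D)) fun e => hK (by
      rw [← map_comap_eq_self_of_surjective (QuotientGroup.mk'_surjective D) K, e,
        map_top_of_surjective _ (QuotientGroup.mk'_surjective D)])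
    rw [← nil_core_sup {q} hL, der_sup_cent (cent_symm (core_cent_core _ _))]
    refine sup_le ((der_mono (hS.le_of_normal hQn (core_pi _ _) le_top)).trans hD'.ge) ?_
    exact (le_inf ((der_mono le_top).trans hG') (der_le _)).trans
      ((hS.pi.inf_eq_bot (core_pi _ _)).le.trans bot_le)

end Cfsg.Agent.S0577
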