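import Cfsg.Statements.S0578
import Cfsg.Agent.Lib.Solv.SS2

set_option autoImplicit false
open Cfsg

namespace Cfsg.Agent.S0578

open Subgroup CA CA.BG CA.OQuo

/-- If in a finite group the normalizer of each abelian subgroup coincides with its centralizer, then the group is abelian. -/
theorem result {G : Type*} [Group G] [Finite G] (h : ∀ A : Subgroup G, IsMulCommutative A → Subgroup.normalizer (A : Set G) = Subgroup.centralizer (A : Set G)) : IsMulCommutative G := by
  have key : ∀ p, p.Prime → ∃ P, Syl p P (⊤ : Subgroup G) ∧ IsMulCommutative P := fun p hp => by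
    obtain ⟨P, hP⟩ := syl_exists hp (⊤ : Subgroup G)
    obtain ⟨A, -, hA⟩ := BG4.exists_scn (hP.pi.isNilpotent hp) bot_le (BG4.le_norm_bot P) comm_bot
    have := BG4.scn_comm hA
    exact ⟨P, hP, comm_of_le this ((le_inf le_rfl (h A this ▸ hA.2.1)).trans hA.2.2.le)⟩
  have := comm_of_nil_syl (H := (⊤ : Subgroup G)) (nil_of_hasPC fun p hp _ => by
    obtain ⟨P, a, b⟩ := key p hp
    exact burnside_hasPC hp a (h P b ▸ inf_le_right)) fun p hp _ => key p hp
  exact ⟨⟨fun a b => congrArg Subtype.val (this.1.1 ⟨a, trivial⟩ ⟨b, trivial⟩)⟩⟩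

end Cfsg.Agent.S0578
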