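import Cfsg.Statements.S0585
import Cfsg.Agent.Lib.Solv.SS3

set_option autoImplicit false
open Cfsg

namespace Cfsg.Agent.S0585

open Subgroup CA CA.BG CA.OQuo CA.Subn

/-- If the Frattini subgroup of a finite group G is trivial, then every abelian normal subgroup of G has a complement in G. -/
theorem result {G : Type*} [Group G] [Finite G] (hΦ : frattini G = ⊥) (A : Subgroup G) [A.Normal] [IsMulCommutative A] : ∃ H : Subgroup G, Subgroup.IsComplement' A H := by
  have a := top_le_norm A ⊤
  obtain ⟨H, -, b, c⟩ := exists_minimal_le (H := (⊤ : Subgroup G)) (P := fun H => A ⊔ H = ⊤) (by simp)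
  refine ⟨H, SDProd.compl' ⟨le_top.trans a, BG.eq_bot_mono (le_iInf₂ fun M hM => by_contra fun i => ?_)
    hΦ, b⟩⟩
  have d : ⊤ ≤ 𝓝(A ⊓ H) := b ▸ sup_le (norm_of_comm ‹_› inf_le_left)
    (norm_inf (le_top.trans a) (le_norm_self H))
  have e := sup_inf_of_le_right (le_top.trans d : M ≤ _) (inf_le_right : A ⊓ H ≤ H)
  rw [(hM : IsCoatom M).2 _ (left_lt_sup.2 i), top_inf_eq] at e
  refine i (inf_le_right.trans (inf_eq_right.1 (c (M ⊓ H) (top_le_iff.1 (b.ge.trans
    (sup_le le_sup_left (e.le.trans (sup_le le_sup_right (le_sup_of_le_left inf_le_left))))))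
    inf_le_right)))

end Cfsg.Agent.S0585
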