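import Cfsg.Statements.S0586
import Cfsg.Agent.Lib.Solv.SS3
import Cfsg.Agent.S0585

set_option autoImplicit false
open Cfsg

namespace Cfsg.Agent.S0586

open Subgroup CA CA.BG CA.OQuo CA.Subn

/-- If the Frattini subgroup of a finite group G is trivial, then the Fitting subgroup of G equals the join of all abelian minimal normal subgroups of G. -/
theorem result {G : Type*} [Group G] [Finite G] (hΦ : frattini G = ⊥) : Cfsg.fittingSubgroup G = sSup {N : Subgroup G | N.Normal ∧ N ≠ ⊥ ∧ IsMulCommutative N ∧ ∀ K : Subgroup G, K.Normal → K ≤ N → K = ⊥ ∨ K = N} := by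
  set S := sSup {N : Subgroup G | N.Normal ∧ N ≠ ⊥ ∧ IsMulCommutative N ∧
    ∀ K : Subgroup G, K.Normal → K ≤ N → K = ⊥ ∨ K = N}
  have h1 : S ≤ 𝓩(𝓕(⊤)) := sSup_le fun N ⟨a, b, c, d⟩ =>
    minnormal_solvable_Fitting_center (minNormal_top b d) le_top (solv_of_comm c)
  have : S.Normal := normal_of_top_le_norm fun g _ => mem_norm_of_cj_le (cj_le_iff.2 (sSup_le
    fun N hN => by
      have := hN.1
      rw [← cj_le_iff, cj_of_mem_norm (top_le_norm N ⊤ (mem_top g))]; exact le_sSup hN))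
  have := comm_of_le (comm_center _) h1
  obtain ⟨H, hH⟩ := S0585.result hΦ S
  rw [← fit_top]
  have h2 := sup_inf_of_le_right (top_le_norm S H) (h1.trans inf_le_left)
  rw [sup_comm, hH.sup_eq_top, top_inf_eq] at h2
  suffices H ⊓ 𝓕(⊤) = ⊥ by rwa [this, bot_sup_eq] at h2
  by_contra h3
  obtain ⟨N, a, b⟩ := exists_minNormal (H := ⊤) (hH.sup_eq_top.ge.trans <| sup_le (norm_of_cent
    ((h1.trans inf_le_right).trans (cent_anti inf_le_right))) (norm_inf (le_norm_self H)
    (le_top.trans (le_norm_fit ⊤)))) h3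
  obtain ⟨p, -, c⟩ := b.elem (solv_of_nil (nil_of_le (fit_nil ⊤) (a.trans inf_le_right)))
  exact b.1 (BG.eq_bot_mono (le_inf (le_sSup ⟨normal_of_top_le_norm b.2.1, b.1, c.1, b.top⟩ : N ≤ S)
    (a.trans inf_le_left)) hH.disjoint.eq_bot)

end Cfsg.Agent.S0586
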