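import Cfsg.Statements.S0587
import Cfsg.Agent.Lib.Solv.SS3

set_option autoImplicit false
open Cfsg

namespace Cfsg.Agent.S0587

open Subgroup CA CA.BG CA.OQuo CA.Subn

/-- Let G be a finite group whose largest normal p-subgroup L is nontrivial, and M a maximal subgroup of G with trivial normal core. Then L is elementary abelian, M is a complement to L, L is a minimal normal subgroup of G, the centralizer of L is L, and for every prime q such that the largest normal q-subgroup of M is nontrivial, the order of L is congruent to 1 modulo q and q ≠ p. -/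
theorem result {G : Type*} [Group G] [Finite G] (p : ℕ) [Fact p.Prime] (hL : Cfsg.pCore p G ≠ ⊥) (M : Subgroup G) (hM : IsCoatom M) (hcore : M.normalCore = ⊥) : Cfsg.IsElementaryAbelian p (Cfsg.pCore p G) ∧ Subgroup.IsComplement' (Cfsg.pCore p G) M ∧ (∀ K : Subgroup G, K.Normal → K ≤ Cfsg.pCore p G → K = ⊥ ∨ K = Cfsg.pCore p G) ∧ Subgroup.centralizer ((Cfsg.pCore p G : Subgroup G) : Set G) = Cfsg.pCore p G ∧ ∀ (q : ℕ) [Fact q.Prime], Cfsg.pCore q ↥M ≠ ⊥ → Nat.card (Cfsg.pCore p G) % q = 1 % q ∧ q ≠ p := by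
  have hp : p.Prime := Fact.out
  have h := prim_top hM hcore
  have hn := top_le_norm (pCore p G) ⊤
  have hP : IsPi {p} (pCore p G) := core_p_top (G := G) hp ▸ core_pi _ _
  obtain ⟨a, b, c, r, hr, d⟩ := h.nil le_top hn hL (hP.isNilpotent hp)
  obtain rfl : r = p := (isPi_of_elem hr d).mem_of_ne_bot hL hP
  refine ⟨d, c.compl', a.top, top_inf_eq (𝓒(pCore r G)) ▸ b, fun q hq i => ?_⟩
  have j : 𝓞({q}, M) ≠ ⊥ := by
    rwa [core_p_eq hq.out, Ne, Subgroup.map_eq_bot_iff_of_injective _ M.subtype_injective]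
  refine ⟨?_, fun e => j (e ▸ h.core_eq_bot hp le_top hn hL hP)⟩
  have k : pCore r G ⊓ 𝓒(𝓞({q}, M)) = ⊥ := by_contra fun k => j (BG.eq_bot_mono (le_inf (cent_symm
    (inf_eq_left.1 (a.2.2 _ inf_le_left k (c.sup ▸ sup_le (norm_of_comm d.1 inf_le_left)
      (norm_inf c.norm (norm_cent (le_norm_core _ _))))))) (core_le _ _)) (h.cent_inf le_top hn hL))
  exact ((Nat.modEq_iff_dvd' (card_pos' _)).2 (BG4.dvd_card_sub_one hq.out (core_pi _ _)
    (le_top.trans hn) k)).symm

end Cfsg.Agent.S0587
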