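import Cfsg.Statements.S0588
import Cfsg.Agent.Lib.Solv.SS1

set_option autoImplicit false
open Cfsg

namespace Cfsg.Agent.S0588

open Subgroup CA CA.BG CA.OQuo

/-- If a subgroup H of a finite group G contains the centralizer of every non-identity element of H, then the order of H is coprime to its index. -/
theorem result {G : Type*} [Group G] [Finite G] (H : Subgroup G) (h : ∀ x ∈ H, x ≠ 1 → Subgroup.centralizer ({x} : Set G) ≤ H) : (Nat.card H).Coprime H.index := by
  refine Nat.coprime_of_dvd fun p hp hd => ?_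
  obtain ⟨X, a, b⟩ := exists_card_eq_prime hp hd
  obtain ⟨P, hP, c⟩ := syl_superset hp (isPi_of_card_eq hp b) le_top
  have hX := ne_bot_of_prime (b ▸ hp)
  obtain ⟨x, hx, h1⟩ := exists_ne_one hX
  obtain ⟨z, ⟨d, e⟩, h2⟩ := exists_ne_one (hP.pi.center_ne_bot (ne_bot_mono c hX))
  rw [← relIndex_top_right]
  exact not_dvd_relIndex_of_le hp hP ((le_cent1_iff.2 e).trans
    (h z (h x (a hx) h1 (cent_le_cent1 (c hx) e)) h2))

end Cfsg.Agent.S0588
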