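import Cfsg.Statements.S0589
import Cfsg.Agent.Lib.Grp.Frob

set_option autoImplicit false
open Pointwise
open Cfsg

namespace Cfsg.Agent.S0589

/-- Let H be a Frobenius complement in a finite group G and L a subgroup of G whose order divides the order of H. Then L is contained in some conjugate of H. -/
theorem result {G : Type*} [Group G] [Finite G] (H : Subgroup G) (hH : Cfsg.IsFrobeniusComplement H) (L : Subgroup G) (hL : Nat.card L ∣ Nat.card H) : ∃ x : G, L ≤ MulAut.conj x • H := by
  exact CA.Frob.exists_le_conj_of_coprime hH
    (Nat.Coprime.of_dvd_left hL (CA.Frob.coprime_card_index hH))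

end Cfsg.Agent.S0589
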