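import Cfsg.Statements.S0590
import Cfsg.Agent.Lib.Loc.H6Off

set_option autoImplicit false
open Cfsg

set_option linter.unusedVariables false
set_option linter.unusedSimpArgs false
set_option linter.style.haveILetI false

namespace Cfsg.Agent.S0590

open CA CA.H6Off CA.H6NPC CA.H6Stab CA.H6PSolv CA.H6ZJ CA.H6Op CA.Amb CA.AmbSyl CA.AmbCore CA.AmbRes CA.AmbChar Subgroup
open CA.H6J hiding Z


/-- Quadratic action on an elementary abelian p-group forces the acting group modulo the kernel of the action to be elementary abelian. -/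
theorem result {G : Type*} [Group G] [Finite G] {p : ℕ} [Fact p.Prime] (V H : Subgroup G) (hV : Cfsg.IsElementaryAbelian p V) (hHV : H ≤ Subgroup.normalizer (V : Set G)) (hq : ⁅⁅V, H⁆, H⁆ = ⊥) : ⁅H, H⁆ ≤ Subgroup.centralizer (V : Set G) ∧ ∀ a ∈ H, a ^ p ∈ Subgroup.centralizer (V : Set G) := by
  exact ⟨comm_le_cent_of_quad hq,
    fun a ha => pow_mem_cent_of_quad (isAb_iff_isElementaryAbelian.2 hV).2 hHV hq ha⟩

end Cfsg.Agent.S0590
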