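import Cfsg.Statements.S0591
import Cfsg.Agent.Lib.Loc.H6Off

set_option autoImplicit false
open Cfsg

set_option linter.unusedVariables false
set_option linter.unusedSimpArgs false
set_option linter.style.haveILetI false

namespace Cfsg.Agent.S0591

open CA CA.H6Off CA.H6NPC CA.H6Stab CA.H6PSolv CA.H6ZJ CA.H6Op CA.Amb CA.AmbSyl CA.AmbCore CA.AmbRes CA.AmbChar Subgroup
open CA.H6J hiding Z


/-- For a quadratically acting element a on an elementary abelian p-group V, the fixed points C_V(a) have order at least the square root of the order of V. -/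
theorem result {G : Type*} [Group G] [Finite G] {p : ℕ} [Fact p.Prime] (V : Subgroup G) (hV : Cfsg.IsElementaryAbelian p V) (a : G) (ha : a ∈ Subgroup.normalizer (V : Set G)) (hq : ⁅⁅V, Subgroup.zpowers a⁆, Subgroup.zpowers a⁆ = ⊥) : Nat.card V ≤ Nat.card ↥(V ⊓ Subgroup.centralizer (Subgroup.zpowers a : Set G)) ^ 2 := by
  have h := isAb_iff_isElementaryAbelian.2 hV
  rw [← card_cent_mul_card_comm h.1 ha, sq]
  exact Nat.mul_le_mul_left _ (card_le_of_le (le_inf
    (commutator_le_left_of_norm (zpowers_le_of_mem ha)) (commutator_eq_bot_iff_le_centralizer.1 hq)))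

end Cfsg.Agent.S0591
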