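import Cfsg.Statements.S0592
import Cfsg.Agent.Lib.Loc.H6Quad

set_option autoImplicit false
open Cfsg

set_option linter.unusedVariables false
set_option linter.unusedSimpArgs false
set_option linter.style.haveILetI false

namespace Cfsg.Agent.S0592

open CA.H6Quad

/-- Two quadratically acting generators of a linear group that is not a p-group, with the p'-part of the order of their product dividing q - 1, give a homomorphism onto a subgroup of SL(2, q) that is not a p-group. -/
theorem result {K : Type*} [Field K] [Fintype K] {p : ℕ} [Fact p.Prime] [CharP K p] {W : Type*} [AddCommGroup W] [Module K W] [FiniteDimensional K W] [Finite W] [Nontrivial W] (H : Subgroup (W ≃ₗ[K] W)) (a b : W ≃ₗ[K] W) (hH : H = Subgroup.closure {a, b}) (ha : ∀ w : W, a (a w - w) = a w - w) (hb : ∀ w : W, b (b w - w) = b w - w) (hnp : ¬ IsPGroup p H) (hk : ∃ e k : ℕ, orderOf (a * b) = p ^ e * k ∧ k ∣ Fintype.card K - 1) : ∃ φ : H →* Matrix.SpecialLinearGroup (Fin 2) K, ¬ IsPGroup p φ.range := by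
  let ρ : H →* Module.End K W :=
    (LinearEquiv.automorphismGroup.toLinearMapMonoidHom).comp H.subtype
  have hρ : ∀ (h : H) (w : W), ρ h w = (h : W ≃ₗ[K] W) w := fun _ _ => rfl
  have haH : a ∈ H := hH ▸ Subgroup.subset_closure (by simp)
  have hbH : b ∈ H := hH ▸ Subgroup.subset_closure (by simp)
  have hab : Subgroup.closure {(⟨a, haH⟩ : H), ⟨b, hbH⟩} = ⊤ := by
    apply Subgroup.map_injective H.subtype_injective
    rw [MonoidHom.map_closure, ← MonoidHom.range_eq_map, Subgroup.range_subtype,
      Set.image_pair]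
    exact hH.symm
  obtain ⟨e, k, h1, c, hc⟩ := hk
  obtain ⟨l, φ, v, hl, h2, h3, -, -⟩ := exists_hom_SL2 (p := p) ρ hab
    (by ext w; simp [hρ, ← map_sub, ha]) (by ext w; simp [hρ, ← map_sub, hb])
    (by
      by_contra hall
      push Not at hall
      apply hnp
      intro h
      obtain ⟨k, hk⟩ := hall h
      refine ⟨k, Subtype.ext (LinearEquiv.ext fun w => ?_)⟩
      rw [← hρ, hk]; rfl) (e := e)
    (by
      apply Subtype.ext
      simp only [Subgroup.coe_pow, Subgroup.coe_mul, Subgroup.coe_one]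
      rw [hc, ← mul_assoc, ← h1, pow_mul, pow_orderOf_eq_one, one_pow])
  refine ⟨φ, fun h => ?_⟩
  obtain ⟨k, hk⟩ := h ⟨φ (⟨a, haH⟩ * ⟨b, hbH⟩), ⟨_, rfl⟩⟩
  apply not_pow_eq_one (p := p) hl k
  rw [← h2, ← h3, ← map_mul]
  exact congrArg Subtype.val hk

end Cfsg.Agent.S0592
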