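import Cfsg.Statements.S0593
import Cfsg.Agent.Lib.Loc.H6Stab

set_option autoImplicit false
open Cfsg

set_option linter.unusedVariables false
set_option linter.unusedSimpArgs false
set_option linter.style.haveILetI false

namespace Cfsg.Agent.S0593

open CA.H6Stab CA.H6PSolv CA.H6ZJ CA.H6Op CA.H6J CA.Amb CA.AmbSyl CA.AmbCore CA.AmbRes CA.AmbChar Subgroup

/-- For odd p, a faithful group on an elementary abelian p-group generated by two quadratically acting elements is a p-group or has non-abelian Sylow 2-subgroups. -/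
theorem result {G : Type*} [Group G] [Finite G] {p : ℕ} [Fact p.Prime] (hp : p ≠ 2) (V H : Subgroup G) (hV : Cfsg.IsElementaryAbelian p V) (hHV : H ≤ Subgroup.normalizer (V : Set G)) (hf : H ⊓ Subgroup.centralizer (V : Set G) = ⊥) (a b : G) (hab : H = Subgroup.closure {a, b}) (ha : ⁅⁅V, Subgroup.zpowers a⁆, Subgroup.zpowers a⁆ = ⊥) (hb : ⁅⁅V, Subgroup.zpowers b⁆, Subgroup.zpowers b⁆ = ⊥) (hnp : ¬ IsPGroup p H) (T : Sylow 2 H) : ¬ IsMulCommutative T := by
  intro hT
  subst hab
  have ha' : a ∈ closure {a, b} := subset_closure (Or.inl rfl)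
  have hb' : b ∈ closure {a, b} := subset_closure (Set.mem_insert_of_mem _ rfl)
  refine not_sec_of_abSyl hp (abSyl_of_sylow T hT) (sec_SL2_of_quad_sec hp (V := V) (M := ⊥) bot_le
    norm_of_normal (CA.H6Basic.commutator_eq_bot_iff'.2 (CA.H6Basic.isMulCommutative_iff'.1 hV.1)).le
    hV.2 (hHV ha') (hHV hb') (norm_of_normal ha') (norm_of_normal hb') ha.le hb.le fun h => hnp ?_)
  rw [← res_eq_bot_iff, ← le_bot_iff, ← hf]
  exact le_inf (res_le _ _) (commutator_eq_bot_iff'.1 (le_bot_iff.1 h))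

end Cfsg.Agent.S0593
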