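import Cfsg.Statements.S0594
import Cfsg.Agent.Lib.Loc.H6Stab

set_option autoImplicit false
open Cfsg

set_option linter.unusedVariables false
set_option linter.unusedSimpArgs false
set_option linter.style.haveILetI false

namespace Cfsg.Agent.S0594

open CA.H6Stab CA.H6PSolv CA.H6ZJ CA.H6Op CA.H6J CA.Amb CA.AmbSyl CA.AmbCore CA.AmbRes CA.AmbChar Subgroup

/-- For odd p, two quadratic generators of a faithful group that is not a p-group, one of which acts nontrivially on a normal subgroup of order prime to p, force p = 3 and a section isomorphic to SL(2,3). -/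
theorem result {G : Type*} [Group G] [Finite G] {p : ℕ} [Fact p.Prime] (hp : p ≠ 2) (V H : Subgroup G) (hV : Cfsg.IsElementaryAbelian p V) (hHV : H ≤ Subgroup.normalizer (V : Set G)) (hf : H ⊓ Subgroup.centralizer (V : Set G) = ⊥) (a b : G) (hab : H = Subgroup.closure {a, b}) (ha : ⁅⁅V, Subgroup.zpowers a⁆, Subgroup.zpowers a⁆ = ⊥) (hb : ⁅⁅V, Subgroup.zpowers b⁆, Subgroup.zpowers b⁆ = ⊥) (hnp : ¬ IsPGroup p H) (Q : Subgroup G) (hQH : Q ≤ H) (hQn : H ≤ Subgroup.normalizer (Q : Set G)) (hQ : (Nat.card Q).Coprime p) (hQa : ⁅Q, Subgroup.zpowers a⁆ ≠ ⊥) : p = 3 ∧ ∃ (K L : Subgroup G) (hL : (L.subgroupOf K).Normal), K ≤ H ∧ Nonempty ((K ⧸ L.subgroupOf K) ≃* Matrix.SpecialLinearGroup (Fin 2) (ZMod 3)) := by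
  have haH : a ∈ H := hab ▸ subset_closure (Or.inl rfl)
  have hpV : IsPGroup p V := IsAb.isPGroup hV
  -- a is a p-element
  have hpa : IsPGroup p (zpowers a) := by
    rw [← res_eq_bot_iff, ← le_bot_iff, ← hf, res_le_iff]
    intro g hg hc
    have hg' : zpowers g ≤ zpowers a := zpowers_le_of_mem hg
    refine ⟨zpowers_le_of_mem haH hg, mem_cent_of_comm_le hpV (hHV (zpowers_le_of_mem haH hg)) hc ?_⟩
    rw [← commutator_eq_bot_iff_le_centralizer]
    exact le_bot_iff.1 ((commutator_mono (commutator_mono le_rfl hg') hg').trans ha.le)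
  have hn : zpowers a ≤ 𝐍 Q := zpowers_le_of_mem (hQn haH)
  have hd : zpowers a ⊓ Q = ⊥ := CA.Core.inf_eq_bot_of_isPGroup_of_coprime hpa hQ
  have hmem : ∀ x ∈ Q, x * a * x⁻¹ ∈ zpowers a ⊔ Q := fun x hx =>
    mul_mem (mul_mem (mem_sup_right hx) (mem_sup_left (mem_zpowers a))) (inv_mem (mem_sup_right hx))
  have hres : pResidualOf p (zpowers a ⊔ Q) ≤ Q := res_le_of_le_sup hpa hn le_rfl
  obtain ⟨x, hx, hxa⟩ : ∃ x ∈ Q, ¬ IsPGroup p (closure {a, x * a * x⁻¹} : Subgroup G) := by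
    by_contra hall
    push Not at hall
    apply hQa
    rw [commutator_eq_bot_iff', zpowers_le, mem_centralizer_sub]
    intro x hx
    have h1 : closure {a, x * a * x⁻¹} ⊓ Q = ⊥ :=
      CA.Core.inf_eq_bot_of_isPGroup_of_coprime (hall x hx) hQ
    have h2 : x * a * x⁻¹ * a⁻¹ ∈ closure {a, x * a * x⁻¹} ⊓ Q := by
      refine mem_inf.2 ⟨mul_mem (subset_closure (Set.mem_insert_of_mem _ rfl))
        (inv_mem (subset_closure (Or.inl rfl))), ?_⟩
      have := mul_mem hx (conj_mem_of_mem_normalizer (hQn haH) (inv_mem hx))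
      simpa [mul_assoc] using this
    rw [h1, mem_bot] at h2
    calc x * a = (x * a * x⁻¹ * a⁻¹) * (a * x) := by group
      _ = a * x := by rw [h2, one_mul]
  have hb' : x * a * x⁻¹ ∈ H := mul_mem (mul_mem (hQH hx) haH) (inv_mem (hQH hx))
  have hs := sec_SL2_of_quad_sec hp (V := V) (M := ⊥) bot_le
    norm_of_normal (CA.H6Basic.commutator_eq_bot_iff'.2 (CA.H6Basic.isMulCommutative_iff'.1 hV.1)).le
    hV.2 (hHV haH) (hHV hb') (norm_of_normal haH) (norm_of_normal hb') ha.le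
    (quad_conj (hHV (hQH hx)) (norm_of_normal (hQH hx)) ha.le)
    (fun h => hxa (by
      rw [← res_eq_bot_iff, ← le_bot_iff, ← hf]
      exact le_inf ((res_le _ _).trans (pair_le haH hb')) (commutator_eq_bot_iff'.1 (le_bot_iff.1 h))))
  have h3 : p = 3 := by
    by_contra h3
    refine not_sec_of_psolv hp h3 ?_ hs
    refine PSolv.mono (L := zpowers a ⊔ Q) ?_ (pair_le (mem_sup_left (mem_zpowers a)) (hmem x hx))
    exact psolv_of_res ((psolv_of_not_dvd (CA.Fitting.coprime_iff_not_dvd.1 hQ)).mono hres)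
  subst h3
  exact ⟨rfl, sec_iff.1 (hs.mono (pair_le haH hb') bot_le)⟩

end Cfsg.Agent.S0594
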