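import Cfsg.Statements.S0596
import Cfsg.Agent.Lib.Loc.H6Stab

set_option autoImplicit false
open Cfsg

set_option linter.unusedVariables false
set_option linter.unusedSimpArgs false
set_option linter.style.haveILetI false

namespace Cfsg.Agent.S0596

open CA.H6Stab CA.H6PSolv CA.H6ZJ CA.H6Op CA.H6J CA.Amb CA.AmbSyl CA.AmbCore CA.AmbRes CA.AmbChar Subgroup

/-- For odd p, a p-separable group with a faithful action on an elementary abelian p-group that is not p-stable has p = 3 and involves SL(2,3). -/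
theorem result {G : Type*} [Group G] [Finite G] {p : ℕ} [Fact p.Prime] (hp : p ≠ 2) (V H : Subgroup G) (hV : Cfsg.IsElementaryAbelian p V) (hHV : H ≤ Subgroup.normalizer (V : Set G)) (hf : H ⊓ Subgroup.centralizer (V : Set G) = ⊥) (hsep : Cfsg.IsPSolvable p H) (a : G) (haH : a ∈ H) (hq : ⁅⁅V, Subgroup.zpowers a⁆, Subgroup.zpowers a⁆ = ⊥) (hna : a ∉ (Cfsg.pCore p H).map H.subtype) : p = 3 ∧ ∃ (K L : Subgroup G) (hL : (L.subgroupOf K).Normal), K ≤ H ∧ Nonempty ((K ⧸ L.subgroupOf K) ≃* Matrix.SpecialLinearGroup (Fin 2) (ZMod 3)) := by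
  have hpV : IsPGroup p V := IsAb.isPGroup hV
  have hs : Sec (Matrix.SpecialLinearGroup (Fin 2) (ZMod p)) H (𝐂 V) := by
    by_contra h
    have := (stab_of_not_sec hp hpV hHV h).mem hpV hHV haH hq
    rw [Op_eq_pCoreOf (by rw [hf]; exact IsPGroup.of_bot)] at this
    exact hna this
  have h3 : p = 3 := by
    by_contra h3
    exact not_sec_of_psolv hp h3 (isPSolvable_iff'.1 hsep) hs
  subst h3
  exact ⟨rfl, sec_iff.1 hs.bot⟩

end Cfsg.Agent.S0596
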