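import Cfsg.Statements.S0597
import Cfsg.Agent.Lib.Loc.H6Off

set_option autoImplicit false
open Cfsg

set_option linter.unusedVariables false
set_option linter.unusedSimpArgs false
set_option linter.style.haveILetI false

namespace Cfsg.Agent.S0597

open CA CA.H6Off CA.H6NPC CA.H6Stab CA.H6PSolv CA.H6ZJ CA.H6Op CA.Amb CA.AmbSyl CA.AmbCore CA.AmbRes CA.AmbChar Subgroup
open CA.H6J hiding Z


/-- If two subnormal subgroups of a faithful group on an elementary abelian p-group satisfy [V, E₁, E₂] = 1, then their commutator lies in the largest normal p-subgroup. -/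
theorem result {G : Type*} [Group G] [Finite G] {p : ℕ} [Fact p.Prime] (V H : Subgroup G) (hV : Cfsg.IsElementaryAbelian p V) (hHV : H ≤ Subgroup.normalizer (V : Set G)) (hf : H ⊓ Subgroup.centralizer (V : Set G) = ⊥) (E₁ E₂ : Subgroup G) (h₁ : E₁ ≤ H) (h₂ : E₂ ≤ H) (hs₁ : (E₁.subgroupOf H).IsSubnormal) (hs₂ : (E₂.subgroupOf H).IsSubnormal) (hc : ⁅⁅V, E₁⁆, E₂⁆ = ⊥) : ⁅E₁, E₂⁆ ≤ (Cfsg.pCore p H).map H.subtype := by
  exact comm_le_pCoreOf_of_sn (isAb_iff_isElementaryAbelian.2 hV) hHV hf (sn_iff.2 ⟨h₁, hs₁⟩)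
    (sn_iff.2 ⟨h₂, hs₂⟩) hc

end Cfsg.Agent.S0597
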