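import Cfsg.Statements.S0602
import Cfsg.Agent.Lib.Loc.H6J

set_option autoImplicit false
open Cfsg

set_option linter.unusedVariables false
set_option linter.unusedSimpArgs false
set_option linter.style.haveILetI false

namespace Cfsg.Agent.S0602

open Subgroup CA.H6Basic CA.H6J

/-- The Thompson subgroup is characteristic, and nontrivial as soon as p divides the group order. -/
theorem result {G : Type*} [Group G] [Finite G] {p : ℕ} [Fact p.Prime] : (Cfsg.thompsonSubgroup p G).Characteristic ∧ (p ∣ Nat.card G → Cfsg.thompsonSubgroup p G ≠ ⊥) := by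
  rw [thompsonSubgroup_eq]
  refine ⟨characteristic_iff_map_eq.mpr fun φ => ?_, fun hp => J_ne_bot dvd_rfl (by rwa [card_top])⟩
  rw [← J_map φ.injective, map_top_of_surjective _ φ.surjective]

end Cfsg.Agent.S0602
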