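import Cfsg.Statements.S0604
import Cfsg.Agent.Lib.Loc.H6J

set_option autoImplicit false
open Cfsg

set_option linter.unusedVariables false
set_option linter.unusedSimpArgs false
set_option linter.style.haveILetI false

namespace Cfsg.Agent.S0604

open Subgroup CA.H6Basic CA.H6J

/-- The Thompson subgroup of G is the join of the Thompson subgroups of its Sylow p-subgroups. -/
theorem result {G : Type*} [Group G] [Finite G] {p : ℕ} [Fact p.Prime] : Cfsg.thompsonSubgroup p G = ⨆ S : Sylow p G, Cfsg.thompsonSubgroupOf p (S : Subgroup G) := by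
  simp only [thompsonSubgroup_eq, thompsonSubgroupOf_eq]
  apply le_antisymm
  · refine J_le_iff.mpr fun A hA => ?_
    obtain ⟨S, hS⟩ := hA.2.1.isPGroup.exists_le_sylow
    exact (le_J (mem_mx_of_le hA hS le_top)).trans (le_iSup (fun S : Sylow p G => J p (S : Subgroup G)) S)
  · refine iSup_le fun S => ?_
    obtain ⟨A, hA⟩ := mx_nonempty p (⊤ : Subgroup G)
    obtain ⟨T, hT⟩ := hA.2.1.isPGroup.exists_le_sylow
    obtain ⟨g, rfl⟩ := MulAction.exists_smul_eq G T S
    exact J_le_J_of_mem (cj_mem_mx (mem_normalizer_top g) hA) (cj_mono g hT) le_top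

end Cfsg.Agent.S0604
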