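import Cfsg.Statements.S0614
import Cfsg.Agent.Lib.Loc.H6KS

set_option autoImplicit false
open Cfsg

set_option linter.unusedVariables false
set_option linter.unusedSimpArgs false
set_option linter.style.haveILetI false

namespace Cfsg.Agent.S0614

open CA CA.H6KS CA.H6Pl CA.H6Off CA.H6Stab CA.H6PSolv CA.Amb CA.AmbSyl CA.AmbCore CA.AmbRes CA.AmbChar Subgroup
open CA.H6J hiding Z
open scoped commutatorElement MatrixGroups


/-- The commutator of the p'-core with a minimal nontrivially-acting best offender is a 3-group (when p = 2) or a non-abelian 2-group (when p = 3). -/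
theorem result {G : Type*} [Group G] [Finite G] {p : ℕ} [Fact p.Prime] (V H : Subgroup G) (hV : Cfsg.IsElementaryAbelian p V) (hHV : H ≤ Subgroup.normalizer (V : Set G)) (hf : H ⊓ Subgroup.centralizer (V : Set G) = ⊥) (hS1 : Subgroup.centralizer (Cfsg.pPrimeCore p ↥H : Set ↥H) ≤ Cfsg.pPrimeCore p ↥H) (hS3 : H = ⨆ A : {A : Subgroup G // A ≤ H ∧ Cfsg.IsBestOffenderOn p V A}, (A : Subgroup G)) (hH1 : H ≠ ⊥) (A : Subgroup G) (hAH : A ≤ H) (hA : Cfsg.IsBestOffenderOn p V A) (hAV : ⁅V, A⁆ ≠ ⊥) (hmin : ∀ B : Subgroup G, B ≤ A → Cfsg.IsBestOffenderOn p V B → ⁅V, B⁆ ≠ ⊥ → B = A) : (p = 2 ∧ IsPGroup 3 ↥(⁅((Cfsg.pPrimeCore p ↥H).map H.subtype), A⁆)) ∨ (p = 3 ∧ IsPGroup 2 ↥(⁅((Cfsg.pPrimeCore p ↥H).map H.subtype), A⁆) ∧ ¬ IsMulCommutative ↥(⁅((Cfsg.pPrimeCore p ↥H).map H.subtype), A⁆)) := by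
  have s := st_of hV hHV hf hS1
  have t := s.tv_of_min hAH hA hAV hmin
  have : Fact (Nat.Prime 2) := ⟨Nat.prime_two⟩
  have : Fact (Nat.Prime 3) := ⟨Nat.prime_three⟩
  rcases s.p23 t with h | h
  · exact Or.inl ⟨h, s.isPGroup_comm t (k := 1) (by rw [h]; rfl)⟩
  · have h1 : IsPGroup 2 _ := s.isPGroup_comm t (k := 3) (by rw [h]; rfl)
    refine Or.inr ⟨h, h1, fun h2 => ?_⟩
    obtain ⟨e⟩ := (s.pl t).iso
    refine not_sec_of_abSyl (p := p) (by omega) (N := ⊥) (abSyl_of_syl (sylIn_of_not_dvd le_sup_left h1 ?_) h2)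
      ⟨_, le_rfl, e.toMonoidHom, e.surjective, fun g hg => by rw [show g = 1 from Subtype.ext hg, map_one]⟩
    rw [sup_comm, relIndex_sup_of_norm (norm_comm_right _ _)]
    intro h3
    have := h3.trans (relIndex_dvd_card _ _)
    rw [t.card] at this
    omega

end Cfsg.Agent.S0614
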