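import Cfsg.Statements.S0615
import Cfsg.Agent.Lib.Loc.H6KS

set_option autoImplicit false
open Cfsg

set_option linter.unusedVariables false
set_option linter.unusedSimpArgs false
set_option linter.style.haveILetI false

namespace Cfsg.Agent.S0615

open CA CA.H6KS CA.H6Pl CA.H6Off CA.H6Stab CA.H6PSolv CA.Amb CA.AmbSyl CA.AmbCore CA.AmbRes CA.AmbChar Subgroup
open CA.H6J hiding Z
open scoped commutatorElement MatrixGroups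


/-- Two subnormal subgroups acting irreducibly on their incomparable commutator modules, in a faithful group with trivial largest normal p-subgroup, generate their direct product, and the commutator module splits accordingly. -/
theorem result {G : Type*} [Group G] [Finite G] {p : ℕ} [Fact p.Prime] (V E E₁ E₂ : Subgroup G) (hV : Cfsg.IsElementaryAbelian p V) (hEV : E ≤ Subgroup.normalizer (V : Set G)) (hf : E ⊓ Subgroup.centralizer (V : Set G) = ⊥) (hgen : E = E₁ ⊔ E₂) (hs₁ : (E₁.subgroupOf E).IsSubnormal) (hs₂ : (E₂.subgroupOf E).IsSubnormal) (hOp : Cfsg.pCore p ↥E = ⊥) (hirr₁ : (∀ U : Subgroup G, U ≤ ⁅V, E₁⁆ → E₁ ≤ Subgroup.normalizer (U : Set G) → U = ⊥ ∨ U = ⁅V, E₁⁆)) (hirr₂ : (∀ U : Subgroup G, U ≤ ⁅V, E₂⁆ → E₂ ≤ Subgroup.normalizer (U : Set G) → U = ⊥ ∨ U = ⁅V, E₂⁆)) (h12 : ¬ ⁅V, E₁⁆ ≤ ⁅V, E₂⁆) (h21 : ¬ ⁅V,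 E₂⁆ ≤ ⁅V, E₁⁆) (hc₁ : 2 < Nat.card E₁) (hc₂ : 2 < Nat.card E₂) : ⁅E₁, E₂⁆ = ⊥ ∧ E₁ ⊓ E₂ = ⊥ ∧ ⁅V, E₁⁆ ⊓ ⁅V, E₂⁆ = ⊥ ∧ ⁅V, E⁆ = ⁅V, E₁⁆ ⊔ ⁅V, E₂⁆ := by
  have hV' := isAb_iff_isElementaryAbelian.2 hV
  have h1 : E₁ ≤ E := hgen ▸ le_sup_left
  have h2 : E₂ ≤ E := hgen ▸ le_sup_right
  have s1 := sn_iff.2 ⟨h1, hs₁⟩
  have s2 := sn_iff.2 ⟨h2, hs₂⟩
  have hO := pCoreOf_eq_bot_iff.2 hOp
  obtain ⟨k1, k2, k3⟩ := prod_of_irr hV' hEV hf hO _ E₁ E₂ rfl s1 s2 hirr₁ hirr₂ h12 h21 hc₁ hc₂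
  refine ⟨eq_bot_iff.2 (hO ▸ comm_le_pCoreOf_of_sn hV' hEV hf s1 s2 (comm_eq_bot_of_le' k3)),
    eq_bot_iff.2 (faith_of_sn hV' hEV hf hO s1 ▸ inf_le_inf_left _ k3), k1, ?_⟩
  rw [hgen, comm_sup_right (h1.trans hEV) (h2.trans hEV)]

end Cfsg.Agent.S0615
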