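import Cfsg.Statements.S0617
import Cfsg.Agent.Lib.Loc.H6KS

set_option autoImplicit false
open Cfsg

set_option linter.unusedVariables false
set_option linter.unusedSimpArgs false
set_option linter.style.haveILetI false

namespace Cfsg.Agent.S0617

open CA CA.H6KS CA.H6Pl CA.H6Off CA.H6Stab CA.H6PSolv CA.Amb CA.AmbSyl CA.AmbCore CA.AmbRes CA.AmbChar Subgroup
open CA.H6J hiding Z
open scoped commutatorElement MatrixGroups


theorem aux {G : Type*} [Group G] [Finite G] {p : ℕ} [Fact p.Prime] {V H F : Subgroup G}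
    (s : St p V H F) (g : Gen p V H) {Q : Subgroup G → Prop}
    (hQ : ∀ E, Q E ↔ ∃ A, Tv p V H A ∧ E = EE F A) :
    (∀ E : {E // Q E}, H ≤ 𝐍 (E : Subgroup G) ∧ Nonempty ((E : Subgroup G) ≃* SL(2, ZMod p)) ∧
      Nat.card ↥⁅V, (E : Subgroup G)⁆ = p ^ 2) ∧ iSupIndep (fun E : {E // Q E} => (E : Subgroup G)) ∧
      (⨆ E : {E // Q E}, (E : Subgroup G)) = H ∧
      iSupIndep (fun o : Option {E // Q E} => o.elim (V ⊓ 𝐂 H) (fun E => ⁅V, (E : Subgroup G)⁆)) ∧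
      (V ⊓ 𝐂 H) ⊔ (⨆ E : {E // Q E}, ⁅V, (E : Subgroup G)⁆) = V := by
  have k : ∀ E : {E // Q E}, ∃ A, Tv p V H A ∧ (E : Subgroup G) = EE F A := fun E => (hQ _).1 E.2
  choose a ta ea using k
  have hne : ∀ E E', E' ≠ E → EE F (a E) ≠ EE F (a E') := fun E E' h e =>
    h (Subtype.ext (by rw [ea, ea, e]))
  have hle : ∀ E : {E // Q E}, (E : Subgroup G) ≤ H := fun E => (ea E).le.trans (s.EE_le (ta E).le)
  have hVE : ∀ E : {E // Q E}, ⁅V, (E : Subgroup G)⁆ ≤ V := fun E =>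
    commutator_le_left_of_norm ((hle E).trans s.hHV)
  have hgen : ∀ M, (∀ E, EE F (a E) ≤ M) → H ≤ M := fun M hM => g M fun B t' => by
    exact le_sup_right.trans ((ea ⟨_, (hQ _).2 ⟨B, t', rfl⟩⟩).le.trans (hM _))
  have := s.hV.1
  have hD : (⨆ E, EE F (a E) ⊓ F) ≤ F := iSup_le fun E => inf_le_right
  have h1 : V ⊓ 𝐂 (⨆ E, EE F (a E) ⊓ F) = V ⊓ 𝐂 H := le_antisymm
    (le_inf inf_le_left (cent_symm (hgen _ fun E => cent_symm ((inf_le_inf_left _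
      (centralizer_anti (le_iSup (fun E => EE F (a E) ⊓ F) E))).trans
        ((s.cent_eq (s.pl (ta E)) (s.EE_le (ta E).le)).le.trans inf_le_right)))))
    (inf_le_inf_left _ (centralizer_anti (hD.trans s.hF)))
  have h2 : ⁅V, ⨆ E, EE F (a E) ⊓ F⁆ = ⨆ E : {E // Q E}, ⁅V, (E : Subgroup G)⁆ := le_antisymm
    (comm_iSup_le' (iSup_le hVE) fun E => le_iSup_of_le E
      (commutator_mono le_rfl (inf_le_left.trans (ea E).ge)))
    (iSup_le fun E => by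
      rw [ea, ← (s.pl (ta E)).comm]
      exact commutator_mono le_rfl (le_iSup (fun E => EE F (a E) ⊓ F) E))
  refine ⟨fun E => ?_, fun E => ?_, le_antisymm (iSup_le hle)
    (hgen _ fun E => le_iSup_of_le E (ea E).ge), fun o => ?_, ?_⟩
  · rw [ea]; exact ⟨s.norm_EE' g (ta E), (s.pl (ta E)).iso, (s.pl (ta E)).card⟩
  · refine Disjoint.mono (ea E).le (iSup₂_le fun E' h => (ea E').le.trans ?_)
      (disjoint_iff.2 (s.pl (ta E)).faith)
    exact s.le_cent_of_ne (ta E) (ta E') (hne E E' h)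
  · cases o with
    | none =>
      refine Disjoint.mono h1.ge (iSup₂_le fun o h => ?_) (disjoint_iff.2
        (Coprime2.centralizer_inf_commutator (hD.trans (s.hF.trans s.hHV)) (s.cop hD s.hV.isPGroup)))
      cases o with
      | none => exact absurd rfl h
      | some E => exact h2 ▸ le_iSup (fun E : {E // Q E} => ⁅V, (E : Subgroup G)⁆) E
    | some E =>
      refine Disjoint.mono (commutator_mono le_rfl (ea E).le) (iSup₂_le fun o h => ?_)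
        (disjoint_iff.2 (s.inf_cent' (s.pl (ta E)) (s.EE_le (ta E).le)))
      cases o with
      | none => exact inf_le_inf_left _ (centralizer_anti (s.EE_le (ta E).le))
      | some E' =>
        refine le_inf (hVE E') (cent_symm ?_)
        change _ ≤ 𝐂 ⁅V, (E' : Subgroup G)⁆
        rw [ea E']
        exact s.le_cent_of_ne (ta E') (ta E) (hne E E' fun e => h (congrArg _ e)).symm
  · rw [← h1, ← h2]
    exact Coprime2.centralizer_sup_commutator (hD.trans (s.hF.trans s.hHV)) (s.cop hD s.hV.isPGroup)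

/-- Structure Theorem for failure of factorization: a faithful group generated by best offenders, with self-centralizing p'-core, is a direct product of copies of SL(2, p) (p = 2 or 3), each acting on its own plane in V, which is the direct product of these planes and C_V(H). -/
theorem result {G : Type*} [Group G] [Finite G] {p : ℕ} [Fact p.Prime] (V H : Subgroup G) (hV : Cfsg.IsElementaryAbelian p V) (hHV : H ≤ Subgroup.normalizer (V : Set G)) (hf : H ⊓ Subgroup.centralizer (V : Set G) = ⊥) (hS1 : Subgroup.centralizer (Cfsg.pPrimeCore p ↥H : Set ↥H) ≤ Cfsg.pPrimeCore p ↥H) (hS3 : H = ⨆ A : {A : Subgroup G // A ≤ H ∧ Cfsg.IsBestOffenderOn p V A}, (A : Subgroup G)) (hH1 : H ≠ ⊥) : (p = 2 ∨ p = 3) ∧ (∀ E : {E : Subgroup G // ∃ A : Subgroup G, A ≤ H ∧ Cfsg.IsBestOffenderOn p V A ∧ ⁅V, A⁆ ≠ ⊥ ∧ (∀ B : Subgroup G, B ≤ A → Cfsg.IsBestOffenderOn p V B → ⁅V, B⁆ ≠ ⊥ → B = A) ∧ E = ⁅((Cfsg.pPrimeCore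 p ↥H).map H.subtype), A⁆ ⊔ A}, H ≤ Subgroup.normalizer ((E : Subgroup G) : Set G) ∧ Nonempty (↥(E : Subgroup G) ≃* Matrix.SpecialLinearGroup (Fin 2) (ZMod p)) ∧ Nat.card ↥(⁅V, (E : Subgroup G)⁆) = p ^ 2) ∧ iSupIndep (fun E : {E : Subgroup G // ∃ A : Subgroup G, A ≤ H ∧ Cfsg.IsBestOffenderOn p V A ∧ ⁅V, A⁆ ≠ ⊥ ∧ (∀ B : Subgroup G, B ≤ A → Cfsg.IsBestOffenderOn p V B → ⁅V, B⁆ ≠ ⊥ → B = A) ∧ E = ⁅((Cfsg.pPrimeCore p ↥H).map H.subtype), A⁆ ⊔ A} => (E : Subgroup G)) ∧ (⨆ E : {E : Subgroup G // ∃ A : Subgroup G, A ≤ H ∧ Cfsg.IsBestOffenderOn p V A ∧ ⁅V, A⁆ ≠ ⊥ ∧ (∀ B : Subgroup G, B ≤ A → Cfsg.IsBestOffenderOn p V B → ⁅V, B⁆ ≠ ⊥ → B = A) ∧ E = ⁅((Cfsg.pPrimeCore p ↥H).map H.subtype), A⁆ ⊔ A}, (E : Subgroup G)) = H ∧ iSupIndep (fun o : Option {E : Subgroup G // ∃ A : Subgroup G, A ≤ H ∧ Cfsg.IsBestOffenderOn p V A ∧ ⁅V, A⁆ ≠ ⊥ ∧ (∀ B : Subgroup G, B ≤ A → Cfsg.IsBestOffenderOn p V B →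 ⁅V, B⁆ ≠ ⊥ → B = A) ∧ E = ⁅((Cfsg.pPrimeCore p ↥H).map H.subtype), A⁆ ⊔ A} => o.elim (V ⊓ Subgroup.centralizer (H : Set G)) (fun E => ⁅V, (E : Subgroup G)⁆)) ∧ (V ⊓ Subgroup.centralizer (H : Set G)) ⊔ (⨆ E : {E : Subgroup G // ∃ A : Subgroup G, A ≤ H ∧ Cfsg.IsBestOffenderOn p V A ∧ ⁅V, A⁆ ≠ ⊥ ∧ (∀ B : Subgroup G, B ≤ A → Cfsg.IsBestOffenderOn p V B → ⁅V, B⁆ ≠ ⊥ → B = A) ∧ E = ⁅((Cfsg.pPrimeCore p ↥H).map H.subtype), A⁆ ⊔ A}, ⁅V, (E : Subgroup G)⁆) = V := by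
  have s := st_of hV hHV hf hS1
  have g := s.gen_of hS3
  obtain ⟨A, t⟩ := g.exists_tv hH1
  exact ⟨s.p23 t, aux s g fun E => exists_congr fun A => by rw [s.tv_iff]; simp only [and_assoc]⟩

end Cfsg.Agent.S0617
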