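import Cfsg.Statements.S0619
import Cfsg.Agent.Lib.Loc.H6KS2

set_option autoImplicit false
open Cfsg

set_option linter.unusedVariables false
set_option linter.unusedSimpArgs false
set_option linter.style.haveILetI false

namespace Cfsg.Agent.S0619

open CA CA.H6KS2 CA.H6KS CA.H6Pl CA.H6Off CA.H6Op CA.H6W CA.H6Stab CA.H6PSolv CA.Amb CA.AmbSyl CA.AmbCore CA.AmbRes CA.AmbChar Subgroup
open CA.H6J hiding Z
open scoped commutatorElement MatrixGroups


/-- For a p-separable group and a normal elementary abelian p-subgroup V with no nontrivial normal p-subgroup modulo its centralizer C, the Thompson subgroup J(G) moves Ω₁(Z(J(C))) only inside V. -/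
theorem result {G : Type*} [Group G] [Finite G] {p : ℕ} [Fact p.Prime] (hsep : Cfsg.IsPSolvable p G) (V : Subgroup G) [V.Normal] (hV : Cfsg.IsElementaryAbelian p V) (hO : Cfsg.pCore p (G ⧸ Subgroup.centralizer (V : Set G)) = ⊥) : ⁅Cfsg.omegaOne p (Cfsg.centerThompsonOf p (Subgroup.centralizer (V : Set G))), Cfsg.thompsonSubgroup p G⁆ ≤ V := by
  have hV' := isAb_iff_isElementaryAbelian.2 hV
  obtain ⟨Γ, _, _, ι, κ, m⟩ := exists_mod V
  rw [thompsonSubgroup_eq, centerThompsonOf_eq, commutator_comm, J_def, sSup_eq_iSup']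
  refine comm_iSup_le (fun _ => norm_of_normal) fun ⟨A, hA⟩ => ?_
  have h1 := m.sup_mem_mx hV' le_top (isPSolvable_iff.1 hsep) (fun x hx =>
    (QuotientGroup.eq_one_iff x).1 (by rw [← mem_bot, ← hO]; exact (mem_Op_top_iff _ x).1 hx)) hA
  have h2 := mem_mx_of_le h1 (sup_le hV'.le_centralizer inf_le_left) le_top
  rw [commutator_comm]
  refine (commutator_mono (omegaOne_le_iff.2 fun x (hx : x ∈ H6J.Z (J p (𝐂 V))) h =>
    mem_mx_of_mem_centralizer_J h2 (J_le _ _ hx.1) hx.2 h) le_rfl).trans
    (comm_sup_le le_normalizer norm_of_normal (commutator_le_left_of_norm norm_of_normal) ?_)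
  exact (comm_eq_bot_of_le (inf_le_right.trans hA.2.1.le_centralizer)).le.trans bot_le

end Cfsg.Agent.S0619
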