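import Cfsg.Statements.S0620
import Cfsg.Agent.Lib.Loc.H6KS2

set_option autoImplicit false
open Cfsg

set_option linter.unusedVariables false
set_option linter.unusedSimpArgs false
set_option linter.style.haveILetI false

namespace Cfsg.Agent.S0620

open CA CA.H6KS2 CA.H6KS CA.H6Pl CA.H6Off CA.H6Op CA.H6W CA.H6Stab CA.H6PSolv CA.Amb CA.AmbSyl CA.AmbCore CA.AmbRes CA.AmbChar Subgroup
open CA.H6J hiding Z
open scoped commutatorElement MatrixGroups


/-- Under coprime action of an elementary abelian q-group X on a p-separable group K with trivial p'-core, K is generated by the normalizer of J(S), the centralizer of Ω₁(Z(S)) and the fixed points of X. -/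
theorem result {G : Type*} [Group G] [Finite G] {p : ℕ} [Fact p.Prime] {q : ℕ} [Fact q.Prime] (K X : Subgroup G) (hXK : X ≤ Subgroup.normalizer (K : Set G)) (hX : Cfsg.IsElementaryAbelian q X) (hq : ¬ q ∣ Nat.card K) (hsep : Cfsg.IsPSolvable p ↥K) (hO : Cfsg.pPrimeCore p ↥K = ⊥) (S : Sylow p ↥K) : (Subgroup.normalizer (Cfsg.thompsonSubgroupOf p (S : Subgroup ↥K) : Set ↥K) ⊔ Subgroup.centralizer (Cfsg.omegaOne p ((S : Subgroup ↥K) ⊓ Subgroup.centralizer ((S : Subgroup ↥K) : Set ↥K)) : Set ↥K) ⊔ (Subgroup.centralizer (X : Set G)).subgroupOf K) = ⊤ := by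
  let f : K →* 𝐍 K := inclusion le_normalizer
  have hf : Function.Injective f := inclusion_injective _
  have e : (⊤ : Subgroup K).map f = K.subgroupOf (𝐍 K) := by
    rw [← MonoidHom.range_eq_map, inclusion_range]
  have : ((⊤ : Subgroup K).map f).Normal := e ▸ normal_subgroupOf_of_norm le_rfl
  have hX' := (isAb_iff_isElementaryAbelian.2 hX).comap (𝐍 K).subtype_injective
  have h := le_sup_cent (X := X.subgroupOf (𝐍 K)) ((sylIn_top S).map_injective hf)
    ((isPSolvable_iff.1 hsep).map f)
    ((charP_top_iff.2 (centralizer_pCore_le hO hsep)).map_injective hf)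
    (isSolvable_of_isPGroup hX'.isPGroup) (by
      rw [card_map_of_injective hf, card_top]
      exact (coprime_card_of_isPGroup hX'.isPGroup
        ((Fact.out : q.Prime).coprime_iff_not_dvd.2 hq).symm).symm)
  rw [J_map hf, OZ_map (by rw [(MonoidHom.ker_eq_bot_iff f).2 hf, inf_bot_eq]),
    ← MonoidHom.range_eq_map, ← map_normalizer_of_injective hf, ← map_centralizer_of_injective hf,
    Amb.centralizer_subgroupOf hXK] at h
  rw [eq_top_iff, ← map_le_map_iff_of_injective hf, ← MonoidHom.range_eq_map, thompsonSubgroupOf_eq,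
    Subgroup.map_sup, Subgroup.map_sup]
  refine h.trans (sup_le_sup_left ?_ _)
  rintro _ ⟨⟨x, rfl⟩, hx⟩
  exact ⟨x, hx, rfl⟩

end Cfsg.Agent.S0620
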