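import Cfsg.Statements.S0621
import Cfsg.Agent.Lib.Loc.H6KS2

set_option autoImplicit false
open Cfsg

set_option linter.unusedVariables false
set_option linter.unusedSimpArgs false
set_option linter.style.haveILetI false

namespace Cfsg.Agent.S0621

open CA CA.H6KS2 CA.H6KS CA.H6Pl CA.H6Off CA.H6Op CA.H6W CA.H6Stab CA.H6PSolv CA.Amb CA.AmbSyl CA.AmbCore CA.AmbRes CA.AmbChar Subgroup
open CA.H6J hiding Z
open scoped commutatorElement MatrixGroups


/-- Let K be p-separable with O_p'(K) = 1, normalized by an elementary abelian q-group X for a prime q not dividing the order of K. If the Thompson factorization fails in K, then p is 2 or 3 and the fixed points of X contain a plane W of order p² and a subgroup inducing SL(2, p) on it. -/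
theorem result {G : Type*} [Group G] [Finite G] {p : ℕ} [Fact p.Prime] {q : ℕ} [Fact q.Prime] (K X : Subgroup G) (hXK : X ≤ Subgroup.normalizer (K : Set G)) (hX : Cfsg.IsElementaryAbelian q X) (hq : ¬ q ∣ Nat.card K) (hsep : Cfsg.IsPSolvable p ↥K) (hO : Cfsg.pPrimeCore p ↥K = ⊥) (hnf : ¬ Cfsg.IsThompsonFactorizable p ↥K) : (p = 2 ∨ p = 3) ∧ ∃ W D : Subgroup G, W ≤ K ⊓ Subgroup.centralizer (X : Set G) ∧ D ≤ K ⊓ Subgroup.centralizer (X : Set G) ∧ Cfsg.IsElementaryAbelian p W ∧ Nat.card W = p ^ 2 ∧ D ≤ Subgroup.normalizer (W : Set G) ∧ ∃ hn : ((Subgroup.centralizer (W : Set G)).subgroupOf D).Normal, Nonempty ((↥D ⧸ (Subgroup.centralizer (W : Set G)).subgroupOf D) ≃* Matrix.SpecialLinearGroup (Fin 2) (ZMod p)) := by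
  let f : K →* 𝐍 K := inclusion le_normalizer
  have hf : Function.Injective f := inclusion_injective _
  have e : (⊤ : Subgroup K).map f = K.subgroupOf (𝐍 K) := by
    rw [← MonoidHom.range_eq_map, inclusion_range]
  have : ((⊤ : Subgroup K).map f).Normal := e ▸ normal_subgroupOf_of_norm le_rfl
  have hX' := (isAb_iff_isElementaryAbelian.2 hX).comap (𝐍 K).subtype_injective
  obtain ⟨S, hS⟩ := exists_sylIn p (⊤ : Subgroup K)
  rw [isTF_iff_of_bot hO hS] at hnf
  obtain ⟨h0, W, D, h1, h2, h3, h4, h5, ψ, h6, h7⟩ := exists_plane' (X := X.subgroupOf (𝐍 K))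
    (hS.map_injective hf) ((isPSolvable_iff.1 hsep).map f)
    ((charP_top_iff.2 (centralizer_pCore_le hO hsep)).map_injective hf)
    (isSolvable_of_isPGroup hX'.isPGroup) (by
      rw [card_map_of_injective hf, card_top]
      exact (coprime_card_of_isPGroup hX'.isPGroup
        ((Fact.out : q.Prime).coprime_iff_not_dvd.2 hq).symm).symm) (fun h => hnf (by
      rw [J_map hf, OZ_map (by rw [(MonoidHom.ker_eq_bot_iff f).2 hf, inf_bot_eq]), ← map_ncl] at h
      rw [← map_le_map_iff_of_injective hf, map_centralizer_of_injective hf]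
      exact le_inf (map_le_range _ _) h))
  rw [e, Amb.centralizer_subgroupOf hXK] at h1 h2
  have hn : D.map (𝐍 K).subtype ≤ 𝐍 (W.map (𝐍 K).subtype) := norm_map _ h5
  have hn' := normal_subgroupOf_of_norm (norm_centralizer hn)
  refine ⟨h0, W.map (𝐍 K).subtype, D.map (𝐍 K).subtype, map_le_iff_le_comap.2 h1,
    map_le_iff_le_comap.2 h2, isAb_iff_isElementaryAbelian.1 (h3.map _),
    by rw [H6Basic.card_map_subtype, h4], hn, hn', ?_⟩
  let i := D.equivMapOfInjective _ (𝐍 K).subtype_injective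
  refine ⟨(QuotientGroup.quotientMulEquivOfEq ?_).trans (QuotientGroup.quotientKerEquivOfSurjective
    (ψ.comp i.symm.toMonoidHom) (h6.comp i.symm.surjective))⟩
  ext x
  obtain ⟨x, rfl⟩ := i.surjective x
  rw [MonoidHom.mem_ker, MonoidHom.comp_apply, MulEquiv.coe_toMonoidHom, i.symm_apply_apply, h7,
    ← mem_map_iff_mem (𝐍 K).subtype_injective, map_subtype_centralizer]
  exact ⟨fun h => ⟨x.1.2, h⟩, fun h => h.2⟩

end Cfsg.Agent.S0621
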