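import Cfsg.Statements.S0627
import Cfsg.Agent.Lib.Loc.H6W

set_option autoImplicit false
open Cfsg

set_option linter.unusedVariables false
set_option linter.unusedSimpArgs false
set_option linter.style.haveILetI false

namespace Cfsg.Agent.S0627

open CA.H6W
open CA CA.H6Off CA.H6NPC CA.H6Stab CA.H6PSolv CA.H6ZJ CA.H6Op CA.Amb CA.AmbSyl CA.AmbCore CA.AmbRes CA.AmbChar Subgroup
open CA.H6J hiding Z


/-- In a p-separable group with p at least 5, the normalizer of W(S) supplements the largest normal subgroup of order prime to p. -/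
theorem result {G : Type*} [Group G] [Finite G] {p : ℕ} [Fact p.Prime] (hp : 5 ≤ p) (hsep : Cfsg.IsPSolvable p G) (S : Sylow p G) : Cfsg.pPrimeCore p G ⊔ Subgroup.normalizer (((Cfsg.stableNormalClosure p ↥(S : Subgroup G)).map (S : Subgroup G).subtype) : Set G) = ⊤ := by
  have h1 := isPSolvable_iff.1 (isPSolvable_of_surjective hsep (π p G) π_surj)
  have h2 := WS_normal (isActionPStable_of_not_sec (by omega)
    (not_sec_of_psolv (by omega) (by omega) h1)) (charP_quot_of_psolv (isPSolvable_iff.1 hsep))
    (sylIn_map_top (sylIn_top S) π_surj)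
  rw [fn_WS.map (π p G) S.isPGroup' (inf_π_ker S.isPGroup')] at h2
  have := ker_sup_normalizer π_surj π_cop (S.isPGroup'.to_le (fn_WS.le _)) h2
  rwa [π_ker] at this

end Cfsg.Agent.S0627
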