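import Cfsg.Statements.S0629
import Cfsg.Agent.Lib.Loc.H6Con

set_option autoImplicit false
open Cfsg

set_option linter.unusedVariables false
set_option linter.unusedSimpArgs false
set_option linter.style.haveILetI false

namespace Cfsg.Agent.S0629

open CA CA.H6Con CA.H6W CA.H6Off CA.H6NPC CA.H6Stab CA.H6PSolv CA.H6ZJ CA.H6Op CA.Amb CA.AmbSyl CA.AmbCore CA.AmbRes CA.AmbChar Subgroup
open CA.H6J hiding Z


/-- A group in which the centralizer of a Sylow p-subgroup of O_{p',p}(G) is p-solvable is p-constrained. -/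
theorem result {G : Type*} [Group G] [Finite G] {p : ℕ} [Fact p.Prime] (P : Sylow p ↥(Cfsg.pPrimePCore p G)) (hsol : Cfsg.IsPSolvable p ↥(Subgroup.centralizer (((P : Subgroup ↥(Cfsg.pPrimePCore p G)).map (Cfsg.pPrimePCore p G).subtype : Subgroup G) : Set G))) : Cfsg.IsPConstrained p G := by
  rw [isPConstrained_iff]
  refine charP_top_of_psolv Core.pPrimeCore_quotient_pPrimeCore ?_
  rw [← map_syl_pPrimePCore (sylIn_sylow P), ← map_centralizer π_surj π_cop (sylIn_sylow P).pg]
  exact (isPSolvable_iff'.1 hsol).map _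

end Cfsg.Agent.S0629
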