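import Cfsg.Statements.S0632
import Cfsg.Agent.Lib.Loc.H6Con

set_option autoImplicit false
open Cfsg

set_option linter.unusedVariables false
set_option linter.unusedSimpArgs false
set_option linter.style.haveILetI false

namespace Cfsg.Agent.S0632

open CA CA.H6Con CA.H6W CA.H6Off CA.H6NPC CA.H6Stab CA.H6PSolv CA.H6ZJ CA.H6Op CA.Amb CA.AmbSyl CA.AmbCore CA.AmbRes CA.AmbChar Subgroup
open CA.H6J hiding Z


/-- For a group with a nontrivial normal p-subgroup, p-stability passes to and from the quotient by the largest normal subgroup of order prime to p. -/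
theorem result {G : Type*} [Group G] [Finite G] {p : ℕ} [Fact p.Prime] (hO : Cfsg.pCore p G ≠ ⊥) : Cfsg.IsPStable p G ↔ Cfsg.IsPStable p (G ⧸ Cfsg.pPrimeCore p G) := by
  rw [isPStable_iff_quot, isPStable_iff_of_bot Core.pPrimeCore_quotient_pPrimeCore]
  exact ⟨fun h => ⟨h.1, pCore_quot_ne_bot hO, h.2.2⟩, fun h => ⟨h.1, hO, h.2.2⟩⟩

end Cfsg.Agent.S0632
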