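import Cfsg.Statements.S0633
import Cfsg.Agent.Lib.Solv.HH2

set_option autoImplicit false
open Cfsg

namespace Cfsg.Agent.S0633

open Subgroup CA CA.BG CA.HH

/-- Theorem B of Hall and Higman on the minimal polynomial of a p-element of order p^n in a p-solvable linear group on a nonzero vector space in characteristic p with no nontrivial normal p-subgroup: its degree is p^n, except when some p^n₀ - 1 (n₀ ≤ n) is a power of a prime q for which the Sylow q-subgroups are non-abelian, in which case the degree is at least p^(n-n₀)(p^n₀ - 1). -/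
theorem result {F : Type*} [Field F] {p : ℕ} [Fact p.Prime] [CharP F p] {V : Type*} [AddCommGroup V] [Module F V] [FiniteDimensional F V] [Nontrivial V] (H : Subgroup (V ≃ₗ[F] V)) [Finite H] (hsol : Cfsg.IsPSolvable p H) (hOp : Cfsg.pCore p H = ⊥) (x : V ≃ₗ[F] V) (hx : x ∈ H) (n : ℕ) (hn : orderOf x = p ^ n) (r : ℕ) (hr : minpoly F (x : Module.End F V) = (Polynomial.X - 1) ^ r) : r = p ^ n ∨ ∃ n₀ q m : ℕ, 1 ≤ n₀ ∧ n₀ ≤ n ∧ q.Prime ∧ 1 ≤ m ∧ p ^ n₀ - 1 = q ^ m ∧ (∀ Q : Sylow q H, ¬ IsMulCommutative Q) ∧ p ^ (n - n₀) * (p ^ n₀ - 1) ≤ r := by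
  let ρ : Representation F H V :=
    LinearEquiv.automorphismGroup.toLinearMapMonoidHom.comp H.subtype
  have hf : Function.Injective ρ := fun a b h => Subtype.ext (LinearEquiv.toLinearMap_injective h)
  have ho : orderOf (⟨x, hx⟩ : H) = p ^ n := by rw [orderOf_mk, hn]
  have h1 : (ρ ⟨x, hx⟩ - 1) ^ r = 0 := by
    have := minpoly.aeval F (x : Module.End F V)
    rw [hr, map_pow, map_sub, Polynomial.aeval_X, map_one] at this
    exact this
  have h2 : r ≤ p ^ n := by
    have h3 : minpoly F (x : Module.End F V) ∣ (Polynomial.X - 1) ^ p ^ n := minpoly.dvd _ _ (by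
      rw [map_pow, map_sub, Polynomial.aeval_X, map_one, sub_one_pow_char]
      show ρ ⟨x, hx⟩ ^ _ - 1 = 0
      rw [← map_pow, ← ho, pow_orderOf_eq_one, map_one, sub_self])
    rw [hr] at h3
    exact (pow_dvd_pow_iff (Polynomial.X_sub_C_ne_zero 1)
      (Polynomial.irreducible_X_sub_C 1).not_isUnit).1 h3
  refine (thmB ρ hf hsol hOp ho h1).imp (le_antisymm h2) ?_
  rintro ⟨m, q, j, Q, h1, h2, h3, h4, h5, h6, h7, h8⟩
  refine ⟨m, q, j, h1, h2, h3, h4, h5, fun S hS => h7 ?_, h8⟩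
  obtain ⟨g, -, hg⟩ := (syl_top h3 S).syl_conj_le h3 h6 le_top
  exact (isComm_cj g).1 (comm_of_le hS hg)

end Cfsg.Agent.S0633
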