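import Cfsg.Statements.S0635
import Cfsg.Agent.Lib.Loc.H6Con

set_option autoImplicit false
open Cfsg

set_option linter.unusedVariables false
set_option linter.unusedSimpArgs false
set_option linter.style.haveILetI false

namespace Cfsg.Agent.S0635

open CA CA.H6Con CA.H6W CA.H6Off CA.H6NPC CA.H6Stab CA.H6PSolv CA.H6ZJ CA.H6Op CA.Amb CA.AmbSyl CA.AmbCore CA.AmbRes CA.AmbChar Subgroup
open CA.H6J hiding Z


/-- The p-length of a p-soluble group is at most the nilpotency class of its Sylow p-subgroups. -/
theorem result {G : Type*} [Group G] [Finite G] {p : ℕ} [Fact p.Prime] (hsol : Cfsg.IsPSolvable p G) (S : Sylow p G) : Cfsg.PLengthLE p (Group.nilpotencyClass ↥(S : Subgroup G)) G := by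
  have key : ∀ i, (Subgroup.upperCentralSeries (S : Subgroup G) i).map (S : Subgroup G).subtype ≤
      (Cfsg.upperPSeries p G (2 * i)).1 := by
    intro i
    induction i with
    | zero => simp
    | succ i ih =>
      rintro _ ⟨x, hx, rfl⟩
      rw [show 2 * (i + 1) = 2 * i + 2 from rfl, ups_even, mem_comap]
      refine charP_quot_ups hsol i fun y hy => ?_
      rw [← pCoreOf_top] at hy
      have h1 := (pCoreOf_le_syl (sylIn_map_top (sylIn_top S) (QuotientGroup.mk'_surjective _))) hy
      obtain ⟨y, hy', rfl⟩ := h1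
      have h2 := ih (mem_map_of_mem _ (Subgroup.mem_upperCentralSeries_succ_iff.1 hx ⟨y, hy'⟩))
      have h3 : (Cfsg.upperPSeries p G (2 * i)).1 ≤ (Cfsg.upperPSeries p G (2 * i + 1)).1 := by
        rw [ups_odd]; exact le_comap_mk _ _
      have h4 := (QuotientGroup.eq_one_iff _).2 (h3 h2)
      symm
      rw [← commutatorElement_eq_one_iff_mul_comm, ← map_commutatorElement]
      exact h4
  haveI := S.isPGroup'.isNilpotent
  have h := key (Group.nilpotencyClass (S : Subgroup G))
  rw [Subgroup.upperCentralSeries_nilpotencyClass, map_subtype_top] at h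
  rw [Cfsg.PLengthLE, ups_odd, Core.pPrimeCore_eq_top_iff.2, comap_top]
  refine PRes.coprime_iff_not_dvd.2 fun hd => S.not_dvd_index (hd.trans ?_)
  exact index_dvd_of_le h

end Cfsg.Agent.S0635
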