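import Cfsg.Statements.S0636
import Cfsg.Agent.Lib.Odd.BG4x2

set_option autoImplicit false
open Cfsg

namespace Cfsg.Agent.S0636

open CA.BG

/-- For odd p, every non-cyclic normal subgroup of a p-group contains a normal elementary abelian subgroup of the whole group of order p². -/
theorem result {R : Type*} [Group R] [Finite R] {p : ℕ} [Fact p.Prime] (hp : p ≠ 2) (hR : IsPGroup p R) (S : Subgroup R) [S.Normal] (hS : ¬ IsCyclic S) : ∃ A : Subgroup R, A ≤ S ∧ A.Normal ∧ Cfsg.IsElementaryAbelian p A ∧ Nat.card A = p ^ 2 := by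
  have hpp : p.Prime := Fact.out
  have hG' : IsPi {p} (⊤ : Subgroup R) := isPi_of_isPGroup hpp (hR.to_subgroup ⊤)
  obtain ⟨T, h1, h2, h3⟩ := odd_normal_p2Elem_exists hpp hp hG' le_top
    (Subgroup.normalizer_eq_top_iff.2 ‹_›).ge hS
  exact ⟨T, h1, Subgroup.normalizer_eq_top_iff.1 (top_le_iff.1 h3), h2⟩

end Cfsg.Agent.S0636
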