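import Cfsg.Statements.S0637
import Cfsg.Agent.Lib.Odd.BG4x3

set_option autoImplicit false
open Cfsg

namespace Cfsg.Agent.S0637

open CA.BG CA.BG4 Subgroup

/-- For p greater than 3, the bound p² on the order of the subgroup generated by the elements of order dividing p passes from a p-group to all its quotients. -/
theorem result {R : Type*} [Group R] [Finite R] {p : ℕ} [Fact p.Prime] (hp : 3 < p) (hR : IsPGroup p R) (hO : Nat.card ↥(Cfsg.omegaOne p (⊤ : Subgroup R)) ≤ p ^ 2) (T : Subgroup R) [T.Normal] : Nat.card ↥(Cfsg.omegaOne p (⊤ : Subgroup (R ⧸ T))) ≤ p ^ 2 := by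
  have hpp : p.Prime := Fact.out
  have hG' : IsPi {p} (⊤ : Subgroup R) := isPi_of_isPGroup hpp (hR.to_subgroup ⊤)
  have hQ : IsPi {p} (⊤ : Subgroup (R ⧸ T)) :=
    isPi_of_isPGroup hpp ((hR.to_quotient T).to_subgroup ⊤)
  refine Nat.le_of_dvd (pow_pos hpp.pos 2) (NoP3.card_omega (fun U _ h2 h3 => ?_) hpp hp hQ)
  refine noP3_quo_aux hpp hp _ (Nat.lt_succ_self _) (noP3_of_card hpp hO) hG' (T := T) le_top
    (normalizer_eq_top_iff.2 ‹_›).ge (U.comap (QuotientGroup.mk' T)) (QuotientGroup.le_comap_mk' T U)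
    le_top (fun x hx => ?_) (relIndex_eq_of_card (QuotientGroup.le_comap_mk' T U) ?_)
  · rw [← QuotientGroup.eq_one_iff, QuotientGroup.mk_pow]; exact h2 _ hx
  · rw [CA.Rad.card_comap_of_surjective (QuotientGroup.mk'_surjective T), QuotientGroup.ker_mk', h3,
      mul_comm]

end Cfsg.Agent.S0637
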