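import Cfsg.Statements.S0640
import Cfsg.Agent.Lib.Odd.BG4a
import Cfsg.Agent.Lib.Grp.CoprimeAct

set_option autoImplicit false
open Cfsg

namespace Cfsg.Agent.S0640

open CA.BG CA.BG4 Subgroup CA.CoprimeAct SemidirectProduct

/-- For odd p, a prime q ≠ p dividing the order of the automorphism group of a p-group of rank at most 2 divides p² - 1 and is less than p. -/
theorem result {R : Type*} [Group R] [Finite R] {p : ℕ} [Fact p.Prime] (hp : p ≠ 2) (hR : IsPGroup p R) (hrk : Cfsg.PRankLE p 2 R) (q : ℕ) (hq : q.Prime) (hqp : q ≠ p) (hdvd : q ∣ Nat.card (MulAut R)) : q ∣ p ^ 2 - 1 ∧ q < p := by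
  have hpp : p.Prime := Fact.out
  let e : R ≃* (⊤ : Subgroup R).map (inl : R →* SD (MulAut R) R) :=
    topEquiv.symm.trans (equivMapOfInjective _ _ inl_injective)
  have h := pi_Aut_rank2_pgroup hpp hp hq hqp (isPi_of_isPGroup hpp (hR.of_equiv e))
    ((prankLE_iff hpp).1 fun A h1 h2 => by
      rw [← CA.Rad.card_map_of_injective A (f := e.symm.toMonoidHom) e.symm.injective]
      refine hrk _ inferInstance ?_
      rintro _ ⟨a, ha, rfl⟩; rw [← map_pow, h2 a ha, map_one])
    (le_normalizer_top (⊤ : Subgroup (MulAut R))) (by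
      rw [← inf_relIndex_right, eq_bot_iff.2 (?_ : _ ⊓ _ ≤ ⊥), relIndex_bot_left, card_map_inr, card_top]
      · exact hdvd
      rintro _ ⟨h1, a, -, rfl⟩
      rw [show a = 1 from MulEquiv.ext fun k =>
        inr_mul_inl_comm_iff.1 (h1 (inl k) ⟨k, mem_top k, rfl⟩).symm, map_one]
      exact one_mem _)
  exact ⟨h.1, h.2.1⟩

end Cfsg.Agent.S0640
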