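import Cfsg.Statements.S0642
import Cfsg.Agent.Lib.Grp.H7Reg

set_option autoImplicit false
open Cfsg

namespace Cfsg.Agent.S0642

open CA.H7Reg Subgroup
open scoped commutatorElement

/-- Among finite 2-groups the regular ones are exactly the abelian ones. -/
theorem result {G : Type*} [Group G] [Finite G] (hG : IsPGroup 2 G) : Cfsg.IsRegularPGroup 2 G ↔ ∀ a b : G, a * b = b * a := by
  refine ⟨fun h a b => ?_, fun h => (show WR 2 G from fun a b => ⟨1, one_mem _, ?_⟩).regular hG⟩
  · obtain ⟨c, hc, e⟩ := wr_of_regular h a b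
    set H := closure ({a, b} : Set G) with hH
    have hn : H ≤ normalizer (Cfsg.powerClosure 2 1 ⁅H, H⁆ : Set G) := fun g hg =>
      norm_pc 1 _ (CA.H6Basic.mem_normalizer_commutator (le_normalizer hg) (le_normalizer hg))
    have h1 : ⁅a, b⁆ ∈ Cfsg.powerClosure 2 1 ⁅H, H⁆ := by
      have := CA.H6Basic.conj_mem_of_mem_normalizer (hn (mul_mem (mul_mem (left_mem a b) (right_mem a b)) (right_mem a b))) (inv_mem hc)
      convert this using 1
      have : c = (a ^ 2 * b ^ 2)⁻¹ * (a * b) ^ 2 := by rw [e]; group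
      rw [this, commutatorElement_def, pow_two, pow_two, pow_two]; group
    have h2 := der_pair_le hn h1
    have h3 : Cfsg.powerClosure 2 1 ⁅H, H⁆ ≤ (frattini ↥⁅H, H⁆).map (⁅H, H⁆ : Subgroup G).subtype :=
      pc_le_iff.2 fun x hx => by
        simpa using CA.PGFrattini.pow_mem_map_frattini (hG.to_subgroup _) hx
    have h4 := CA.PGFrattini.eq_of_sup_map_frattini (bot_le : ⊥ ≤ ⁅H, H⁆)
      ((h2.trans h3).trans le_sup_right)
    have h5 : ⁅a, b⁆ ∈ (⊥ : Subgroup G) := h4 ▸ commutator_mem_commutator (left_mem a b) (right_mem a b)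
    exact commutatorElement_eq_one_iff_mul_comm.1 h5
  · rw [mul_one, Commute.mul_pow (h a b)]

end Cfsg.Agent.S0642
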