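import Cfsg.Statements.S0645
import Cfsg.Agent.Lib.Grp.PGNormalCyclic

set_option autoImplicit false
open Cfsg

namespace Cfsg.Agent.S0645

open Subgroup CA.PGBasic CA.PGNormalCyclic CA.PGCyclicMax

/-- Classification of p-groups with a cyclic maximal subgroup, odd p: a non-abelian one of order p^n has generators a of order p^(n-1) and b of order p, b outside the cyclic subgroup generated by a, with b a b⁻¹ = a^(1 + p^(n-2)). -/
theorem result {G : Type*} [Group G] [Finite G] {p : ℕ} [Fact p.Prime] (hp : p ≠ 2) (n : ℕ) (hn : 3 ≤ n) (hG : Nat.card G = p ^ n) (C : Subgroup G) (hC : IsCyclic C) (hCi : C.index = p) (hna : ∃ x y : G, x * y ≠ y * x) : ∃ a b : G, orderOf a = p ^ (n - 1) ∧ orderOf b = p ∧ b ∉ Subgroup.zpowers a ∧ b * a * b⁻¹ = a ^ (1 + p ^ (n - 2)) := by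
  obtain ⟨a, rfl⟩ := (Subgroup.isCyclic_iff_exists_zpowers_eq_top C).1 hC
  obtain ⟨m, rfl⟩ : ∃ m, n = m + 1 := ⟨n - 1, by omega⟩
  have hp' : p.Prime := Fact.out
  have ha : orderOf a = p ^ m := by
    have := (zpowers a).card_mul_index
    rw [hCi, hG, Nat.card_zpowers, pow_succ] at this
    exact mul_right_cancel₀ hp'.ne_zero this
  obtain ⟨y, h1, -, h | h⟩ := exists_modular_or_dqs_of_index (IsPGroup.of_card hG) ha hCi
    (fun h => by obtain ⟨x, y, hxy⟩ := hna; exact hxy (mul_comm' x y))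
  · exact ⟨a, y, ha, orderOf_eq_prime h.2.2.1 (fun h' => h1 (h' ▸ one_mem _)), h1, h.2.2.2⟩
  · exact absurd h.1 hp

end Cfsg.Agent.S0645
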