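import Cfsg.Statements.S0646
import Cfsg.Agent.Lib.Grp.PGNormalCyclic

set_option autoImplicit false
open Cfsg

namespace Cfsg.Agent.S0646

open Subgroup CA.PGBasic CA.PGNormalCyclic CA.PGCyclicMax

/-- Classification of non-abelian 2-groups with a cyclic maximal subgroup: dihedral, generalized quaternion, and for order at least 16 the modular group and the semidihedral group, each given by generators a (of index 2) and b with the stated relations. -/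
theorem result {G : Type*} [Group G] [Finite G] (n : ℕ) (hn : 3 ≤ n) (hG : Nat.card G = 2 ^ n) (C : Subgroup G) (hC : IsCyclic C) (hCi : C.index = 2) (hna : ∃ x y : G, x * y ≠ y * x) : ∃ a b : G, orderOf a = 2 ^ (n - 1) ∧ b ∉ Subgroup.zpowers a ∧ ((b ^ 2 = 1 ∧ b * a * b⁻¹ = a⁻¹) ∨ (b ^ 2 = a ^ (2 ^ (n - 2)) ∧ b * a * b⁻¹ = a⁻¹) ∨ (4 ≤ n ∧ b ^ 2 = 1 ∧ b * a * b⁻¹ = a ^ (1 + 2 ^ (n - 2))) ∨ (4 ≤ n ∧ b ^ 2 = 1 ∧ b * a * b⁻¹ = a ^ (2 ^ (n - 2) - 1))) := by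
  obtain ⟨a, rfl⟩ := (Subgroup.isCyclic_iff_exists_zpowers_eq_top C).1 hC
  obtain ⟨m, rfl⟩ : ∃ m, n = m + 1 := ⟨n - 1, by omega⟩
  have ha : orderOf a = 2 ^ m := by
    have := (zpowers a).card_mul_index
    rw [hCi, hG, Nat.card_zpowers, pow_succ] at this
    exact mul_right_cancel₀ two_ne_zero this
  obtain ⟨y, h1, -, h | ⟨-, -, h | h | h⟩⟩ :=
    exists_modular_or_dqs_of_index (IsPGroup.of_card hG) ha hCi
      (fun h => by obtain ⟨x, y, hxy⟩ := hna; exact hxy (mul_comm' x y))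
  · exact ⟨a, y, ha, h1, Or.inr (Or.inr (Or.inl ⟨by have := h.2.1 rfl; omega, h.2.2⟩))⟩
  · exact ⟨a, y, ha, h1, Or.inl h⟩
  · exact ⟨a, y, ha, h1, Or.inr (Or.inl h)⟩
  · exact ⟨a, y, ha, h1, Or.inr (Or.inr (Or.inr ⟨by omega, h.2⟩))⟩

end Cfsg.Agent.S0646
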