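import Cfsg.Statements.S0656
import Cfsg.Agent.Lib.Loc.H6Stab

set_option autoImplicit false
open Cfsg

set_option linter.unusedVariables false
set_option linter.unusedSimpArgs false
set_option linter.style.haveILetI false

namespace Cfsg.Agent.S0656

open CA.H6Stab CA.H6PSolv CA.H6ZJ CA.H6Op CA.H6J CA.Amb CA.AmbSyl CA.AmbCore CA.AmbRes CA.AmbChar Subgroup

/-- For odd p, a faithful group on an elementary abelian p-group with no nontrivial normal p-subgroup in which some nontrivial p-element acts quadratically has a section isomorphic to SL(2, p). -/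
theorem result {G : Type*} [Group G] [Finite G] {p : ℕ} [Fact p.Prime] (hp : p ≠ 2) (V H : Subgroup G) (hV : Cfsg.IsElementaryAbelian p V) (hHV : H ≤ Subgroup.normalizer (V : Set G)) (hf : H ⊓ Subgroup.centralizer (V : Set G) = ⊥) (hO : Cfsg.pCore p ↥H = ⊥) (x : G) (hxH : x ∈ H) (hx1 : x ≠ 1) (hxp : ∃ k : ℕ, orderOf x = p ^ k) (hq : ⁅⁅V, Subgroup.zpowers x⁆, Subgroup.zpowers x⁆ = ⊥) : ∃ (K L : Subgroup G) (hL : (L.subgroupOf K).Normal), K ≤ H ∧ Nonempty ((K ⧸ L.subgroupOf K) ≃* Matrix.SpecialLinearGroup (Fin 2) (ZMod p)) := by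
  have hpV : IsPGroup p V := IsAb.isPGroup hV
  have hs : Sec (Matrix.SpecialLinearGroup (Fin 2) (ZMod p)) H (𝐂 V) := by
    by_contra h
    have := (stab_of_not_sec hp hpV hHV h).mem hpV hHV hxH hq
    rw [Op_eq_pCoreOf (by rw [hf]; exact IsPGroup.of_bot), pCoreOf_eq_bot_iff.2 hO] at this
    exact hx1 this
  exact sec_iff.1 hs.bot

end Cfsg.Agent.S0656
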