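import Cfsg.Statements.S0657
import Cfsg.Agent.Lib.Loc.H6Con

set_option autoImplicit false
open Cfsg

set_option linter.unusedVariables false
set_option linter.unusedSimpArgs false
set_option linter.style.haveILetI false

namespace Cfsg.Agent.S0657

open CA CA.H6Con CA.H6W CA.H6Off CA.H6NPC CA.H6Stab CA.H6PSolv CA.H6ZJ CA.H6Op CA.Amb CA.AmbSyl CA.AmbCore CA.AmbRes CA.AmbChar Subgroup
open CA.H6J hiding Z


/-- For odd p, a group that fails to be p-stable modulo its largest normal subgroup of order prime to p, and whose upper p-series does not stop there, has a section isomorphic to SL(2, p). -/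
theorem result {G : Type*} [Group G] [Finite G] {p : ℕ} [Fact p.Prime] (hp : p ≠ 2) (hO : Cfsg.pPrimeCore p G < Cfsg.pPrimePCore p G) (hns : ¬ Cfsg.IsPStable p (G ⧸ Cfsg.pPrimeCore p G)) : ∃ (K L : Subgroup G) (hL : (L.subgroupOf K).Normal), K ≤ ⊤ ∧ Nonempty ((K ⧸ L.subgroupOf K) ≃* Matrix.SpecialLinearGroup (Fin 2) (ZMod p)) := by
  rw [isPStable_iff_of_bot Core.pPrimeCore_quotient_pPrimeCore] at hns
  refine sec_iff.1 ?_
  by_contra h
  refine hns ⟨(Fact.out : p.Prime).odd_of_ne_two hp, fun e => hO.ne' ?_, fun V hn hV =>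
    stab_of_not_sec hp hV norm_of_normal fun k => h (k.of_surjective_top π_surj)⟩
  rw [pPrimePCore_def, e, MonoidHom.comap_bot, π_ker]

end Cfsg.Agent.S0657
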