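import Cfsg.Statements.S0658
import Cfsg.Agent.Lib.Loc.H6Con

set_option autoImplicit false
open Cfsg

set_option linter.unusedVariables false
set_option linter.unusedSimpArgs false
set_option linter.style.haveILetI false

namespace Cfsg.Agent.S0658

open CA CA.H6Con CA.H6W CA.H6Off CA.H6NPC CA.H6Stab CA.H6PSolv CA.H6ZJ CA.H6Op CA.Amb CA.AmbSyl CA.AmbCore CA.AmbRes CA.AmbChar Subgroup
open CA.H6J hiding Z


/-- In a group of characteristic p type all of whose p-locals are p-stable (p odd), the normalizer of Z(J(P)) contains the normalizer of every nontrivial subgroup of the Sylow p-subgroup P. -/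
theorem result {G : Type*} [Group G] [Finite G] {p : ℕ} [Fact p.Prime] (hp : p ≠ 2) (hloc : ∀ Q : Subgroup G, IsPGroup p Q → Q ≠ ⊥ → Cfsg.pPrimeCore p ↥(Subgroup.normalizer (Q : Set G)) = ⊥ ∧ Cfsg.IsPConstrained p ↥(Subgroup.normalizer (Q : Set G)) ∧ Cfsg.IsPStable p ↥(Subgroup.normalizer (Q : Set G))) (P : Sylow p G) (Q : Subgroup G) (hQP : Q ≤ (P : Subgroup G)) (hQ1 : Q ≠ ⊥) : Subgroup.normalizer (Q : Set G) ≤ Subgroup.normalizer (Cfsg.centerThompsonAOf ((P : Subgroup G)) : Set G) := by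
  rw [centerThompsonAOf_eq]
  set M := 𝐍 (H6J.Z (J 0 (P : Subgroup G))) with hM
  have hPM : (P : Subgroup G) ≤ M := le_normalizer.trans ((fn_ZJ (dvd_zero p)).norm P.isPGroup')
  have hP := sylIn_of_le P hPM
  by_contra hno
  obtain ⟨⟨Q, R⟩, ⟨hQ, hQ0, hQn, hR⟩, hmax⟩ := Set.exists_max_image
    {x : Subgroup G × Subgroup G | IsPGroup p x.1 ∧ x.1 ≠ ⊥ ∧ ¬ 𝐍 x.1 ≤ M ∧ SylIn p x.2 (𝐍 x.1 ⊓ M) ∧
      x.1 ≤ M}
    (fun x => Nat.card x.2) (Set.toFinite _) (by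
      obtain ⟨R, hR⟩ := exists_sylIn p (𝐍 Q ⊓ M)
      exact ⟨⟨Q, R⟩, P.isPGroup'.to_le hQP, hQ1, hno, hR, hQP.trans hPM⟩)
  simp only at hQ hQ0 hQn hR hmax
  obtain ⟨hR, hQM⟩ := hR
  obtain ⟨hc, hst⟩ := local_good (hloc Q hQ hQ0).1 (hloc Q hQ hQ0).2.1 (hloc Q hQ hQ0).2.2
  have hR0 : R ≠ ⊥ := fun e => hQ0 (le_bot_iff.1 (e ▸ hR.le_of_norm hQ (le_inf le_normalizer hQM)
    (hR.le.trans inf_le_left)))
  have key : 𝐍 (H6J.Z (J 0 R)) ≤ M := by
    obtain ⟨g, hg, h⟩ := hP.exists_le_conj hR.pg (hR.le.trans inf_le_right)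
    rcases eq_or_lt_of_le h with e | hlt
    · rw [e, J_cj, Z_cj, H6Basic.cj_eq_self hg]
    · by_contra hn
      have hS := hP.conj_mem hg
      obtain ⟨T, hT, hle⟩ := exists_sylIn_ge (L := 𝐍 (H6J.Z (J 0 R)) ⊓ M)
        (hS.pg.to_inf_left (K := 𝐍 R)) (le_inf (inf_le_right.trans ((fn_ZJ (dvd_zero p)).norm hR.pg))
          (inf_le_left.trans hS.le))
      have hle' : H6J.Z (J 0 R) ≤ R := (fn_ZJ (dvd_zero p)).le R
      exact absurd (hmax ⟨_, T⟩ ⟨hR.pg.to_le hle', Z_J_ne_bot (dvd_zero p) hR.pg hR0, hn, hT,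
        hle'.trans (hR.le.trans inf_le_right)⟩)
        (not_le.2 (card_lt_of_lt ((lt_inf_normalizer hS.pg hlt).trans_le hle)))
  have hR' : SylIn p R (𝐍 Q) := sylIn_of_normalizer (hR.mono
    (le_inf (hR.le.trans inf_le_left) le_normalizer) (inf_le_inf_left _
      (((fn_ZJ (dvd_zero p)).norm hR.pg).trans key)))
  exact hQn ((zj_Z hp (dvd_zero p) hR' hc hst).trans key)

end Cfsg.Agent.S0658
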