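import Cfsg.Statements.S0661
import Cfsg.Agent.Lib.Loc.H6Con

set_option autoImplicit false
open Cfsg

set_option linter.unusedVariables false
set_option linter.unusedSimpArgs false
set_option linter.style.haveILetI false

namespace Cfsg.Agent.S0661

open CA CA.H6Con CA.H6W CA.H6Off CA.H6NPC CA.H6Stab CA.H6PSolv CA.H6ZJ CA.H6Op CA.Amb CA.AmbSyl CA.AmbCore CA.AmbRes CA.AmbChar Subgroup
open CA.H6J hiding Z


/-- If, modulo the largest normal subgroup of order prime to p, the largest normal p-subgroup contains its centralizer, then for every p-subgroup P the p'-core of N_G(P) is just O_p'(G) ∩ N_G(P). -/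
theorem result {G : Type*} [Group G] [Finite G] {p : ℕ} [Fact p.Prime] (hc : Subgroup.centralizer (Cfsg.pCore p (G ⧸ Cfsg.pPrimeCore p G) : Set (G ⧸ Cfsg.pPrimeCore p G)) ≤ Cfsg.pCore p (G ⧸ Cfsg.pPrimeCore p G)) (P : Subgroup G) (hP : IsPGroup p P) : (Cfsg.pPrimeCore p ↥(Subgroup.normalizer (P : Set G))).map (Subgroup.normalizer (P : Set G)).subtype = Cfsg.pPrimeCore p G ⊓ Subgroup.normalizer (P : Set G) := by
  refine le_antisymm (le_inf ?_ (map_subtype_le _)) (Core.inf_le_map_pPrimeCore _)
  have h := (charP_top_iff.2 hc).inf_normalizer (hP.map (π p G)) le_top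
  rw [top_inf_eq, ← map_normalizer π_surj π_cop hP] at h
  rw [← π_ker (G := G), ← Subgroup.map_eq_bot_iff]
  exact h.eq_bot_of_coprime (map_mono (map_subtype_le _)) ((pCoreOf_le _ _).trans
    (norm_map _ (Core.le_normalizer_map_pPrimeCore _)))
    (Core.coprime_card_map (Core.coprime_map_pPrimeCore _) _)

end Cfsg.Agent.S0661
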