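import Cfsg.Statements.S0663
import Cfsg.Agent.Lib.Grp.H7Max

set_option autoImplicit false
open Cfsg

namespace Cfsg.Agent.S0663

open Subgroup CA.BG CA.BG4 CA.OQuo CA.H7Max

/-- A p-group acts uniserially on a p-group N of order p^n exactly when the iterated commutator chain from N has length n; in that case the chain terms are all the invariant subgroups of N and they are normal in N. -/
theorem result {L : Type*} [Group L] [Finite L] {p : ℕ} [Fact p.Prime] (N G : Subgroup L) (hN : IsPGroup p N) (hG : IsPGroup p G) (hGN : G ≤ Subgroup.normalizer (N : Set L)) (n : ℕ) (hn : Nat.card N = p ^ n) : ((∀ H : Subgroup L, H ≤ N → G ≤ Subgroup.normalizer (H : Set L) → H ≠ ⊥ → (⁅H, G⁆).relIndex H = p) ↔ Cfsg.iterCommutator N G (n - 1) ≠ ⊥ ∨ n = 0) ∧ ((∀ H : Subgroup L, H ≤ N → G ≤ Subgroup.normalizer (H : Set L) → H ≠ ⊥ → (⁅H, G⁆).relIndex H = p) → ∀ H : Subgroup L, H ≤ N → G ≤ Subgroup.normalizer (H : Set L) → (∃ i ≤ n, H = Cfsg.iterCommutator N G i) ∧ N ≤ Subgroup.normalizer (H : Set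 L)) := by
  have hp : p.Prime := Fact.out
  have hN' := isPi_of_isPGroup hp hN
  have hG' := isPi_of_isPGroup hp hG
  have A : (∀ H : Subgroup L, H ≤ N → G ≤ 𝓝(H) → H ≠ ⊥ → (⁅H, G⁆).relIndex H = p) →
      Cfsg.iterCommutator N G (n - 1) ≠ ⊥ ∨ n = 0 := by
    intro h
    have key : ∀ i k, i + k = n → ♯(Cfsg.iterCommutator N G i) = p ^ k := by
      intro i
      induction i with
      | zero => intro k hk; rw [← hk, zero_add] at hn; exact hn
      | succ i ih =>
        intro k hk
        have h1 := ih (k + 1) (by omega)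
        have h2 := card_mul_relIndex (comm_le_left (it_norm hGN i))
        rw [h _ (it_le hGN i) (it_norm hGN i) (fun e => by
          rw [e, card_bot] at h1
          exact (Nat.one_lt_pow (by omega) hp.one_lt).ne h1), h1, pow_succ] at h2
        exact Nat.eq_of_mul_eq_mul_right hp.pos h2
    rcases n with _ | n
    · exact Or.inr rfl
    · refine Or.inl fun e => ?_
      have := key n 1 rfl
      rw [show Cfsg.iterCommutator N G n = ⊥ from e, card_bot, pow_one] at this
      exact hp.one_lt.ne this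
  have B : Cfsg.iterCommutator N G (n - 1) ≠ ⊥ ∨ n = 0 → ∀ i k, i + k = n →
      ♯(Cfsg.iterCommutator N G i) = p ^ k := by
    intro h i k hik
    rcases n with _ | n
    · obtain rfl : i = 0 := by omega
      obtain rfl : k = 0 := by omega
      exact hn
    · have := card_it (j := 0) (m := n) hp hG' hGN hN' hn.le
        (by rw [zero_add]; exact h.resolve_right (by omega)) hik
      rwa [zero_add] at this
  have C : Cfsg.iterCommutator N G (n - 1) ≠ ⊥ ∨ n = 0 → ∀ H : Subgroup L, H ≤ N → G ≤ 𝓝(H) →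
      ∃ i k, i + k = n ∧ H = Cfsg.iterCommutator N G i ∧ ♯H = p ^ k := by
    intro h H hH hn'
    obtain ⟨k, hk⟩ := (hN'.of_le hH).exists_card hp
    have h1 : k ≤ n := (Nat.pow_dvd_pow_iff_le_right hp.one_lt).1 (hk ▸ hn ▸ card_dvd hH)
    refine ⟨n - k, k, by omega, (eq_of_le_of_card_eq (it_le_of_relIndex hp hN' hG' hGN _ H hH hn' ?_) ?_).symm, hk⟩
    · rw [hk, hn, ← pow_add, Nat.add_sub_cancel' h1]
    · rw [hk, B h _ k (by omega)]
  refine ⟨⟨A, fun h H hH hn' hb => ?_⟩, fun h H hH hn' => ?_⟩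
  · obtain ⟨i, k, hik, rfl, hk⟩ := C h H hH hn'
    rcases k with _ | k
    · exact absurd (card_eq_one.1 hk) hb
    · refine relIndex_eq_of_card (comm_le_left hn') ?_
      rw [hk, ← it_succ, B h (i + 1) k (by omega), pow_succ]
  · obtain ⟨i, k, hik, rfl, hk⟩ := C (A h) H hH hn'
    refine ⟨⟨i, by omega, rfl⟩, ?_⟩
    have hK : G ⊔ N ≤ 𝓝(N) := sup_le hGN le_normalizer
    obtain ⟨M, m1, m2, m3⟩ := exists_normal_card (k := k) hp (hG'.sup hN' hGN) le_sup_right hK
      (hn ▸ Nat.pow_le_pow_right hp.pos (by omega))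
    obtain ⟨j, l, hjl, e, hl⟩ := C (A h) M m1 (le_sup_left.trans m2)
    obtain rfl : k = l := Nat.pow_right_injective hp.two_le (m3.symm.trans hl)
    obtain rfl : i = j := by omega
    exact e ▸ le_sup_right.trans m2

end Cfsg.Agent.S0663
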