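import Cfsg.Statements.S0666
import Cfsg.Agent.Lib.Grp.Fpf
import Cfsg.Agent.S0035

set_option autoImplicit false
open Cfsg

namespace Cfsg.Agent.S0666

/-- A Frobenius group acting on a nontrivial abelian group of order prime to that of its kernel, with the kernel acting without nontrivial fixed points, has a complement with a nontrivial fixed point. -/
theorem result {G : Type*} [Group G] [Finite G] (V F : Subgroup G) (hVab : IsMulCommutative V) (hV1 : V ≠ ⊥) (hFV : F ≤ Subgroup.normalizer (V : Set G)) (H : Subgroup ↥F) (hH : Cfsg.IsFrobeniusComplement H) (hcop : (Nat.card V).Coprime (Nat.card (Cfsg.frobeniusKernel H))) (hCK : V ⊓ Subgroup.centralizer (Subtype.val '' Cfsg.frobeniusKernel H : Set G) = ⊥) : V ⊓ Subgroup.centralizer ((H.map F.subtype : Subgroup G) : Set G) ≠ ⊥ := by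
  obtain ⟨N, hN, -⟩ := Cfsg.Agent.S0035.result H hH
  obtain ⟨hn, -, -, hs⟩ := CA.Frob2.of_coe_eq_kernel hH hN
  intro h
  have h1 : H.map F.subtype ≤ Subgroup.normalizer ((N.map F.subtype : Subgroup G) : Set G) :=
    (Subgroup.map_subtype_le _).trans (CA.Rad.le_normalizer_map_subtype N)
  have h2 : CA.Frob2.Semireg (N.map F.subtype) (H.map F.subtype) := by
    rw [CA.Frob2.semireg_iff]
    rintro _ ⟨x, hx, rfl⟩ hx1 _ ⟨k, hk, rfl⟩ e
    rw [hs.eq_one hx (fun e => hx1 (by rw [e, map_one])) hk (Subtype.ext e), map_one]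
  have h3 := CA.Fpf.le_centralizer_of_frobenius_comm h1 h2 hVab
    ((Subgroup.map_subtype_le _).trans hFV) ((Subgroup.map_subtype_le _).trans hFV)
    (by rw [CA.Coprime.card_map_subtype]; rw [← hN] at hcop; exact hcop.symm) h
  rw [← hN] at hCK
  exact hV1 (eq_bot_iff.mpr (le_trans (le_inf le_rfl (Subgroup.le_centralizer_iff.mp h3)) hCK.le))

end Cfsg.Agent.S0666
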