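import Cfsg.Statements.S0667
import Cfsg.Agent.Lib.Loc.H6Con

set_option autoImplicit false
open Cfsg

set_option linter.unusedVariables false
set_option linter.unusedSimpArgs false
set_option linter.style.haveILetI false

namespace Cfsg.Agent.S0667

open CA CA.H6Con CA.H6W CA.H6Off CA.H6NPC CA.H6Stab CA.H6PSolv CA.H6ZJ CA.H6Op CA.Amb CA.AmbSyl CA.AmbCore CA.AmbRes CA.AmbChar Subgroup
open CA.H6J hiding Z


/-- Glauberman's Theorem in the p-constrained, p-stable vocabulary: for odd p such a group is the product of its largest normal subgroup of order prime to p with the normalizer of Z(J(P)), and Z(J(P)) is normal when that p'-subgroup is trivial. -/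
theorem result {G : Type*} [Group G] [Finite G] {p : ℕ} [Fact p.Prime] (hp : p ≠ 2) (hc : Cfsg.IsPConstrained p G) (hs : Cfsg.IsPStable p G) (P : Sylow p G) : Cfsg.pPrimeCore p G ⊔ Subgroup.normalizer (Cfsg.centerThompsonAOf ((P : Subgroup G)) : Set G) = ⊤ ∧ (Cfsg.pPrimeCore p G = ⊥ → (Cfsg.centerThompsonAOf ((P : Subgroup G))).Normal) := by
  rw [centerThompsonAOf_eq]
  have h1 := normal_of_top_le (zj_Z hp (dvd_zero p) (sylIn_map_top (sylIn_top P) π_surj)
    (isPConstrained_iff.1 hc) fun V _ hn hV => (isPStable_iff_quot.1 hs).2.2 V (normal_of_top_le hn) hV)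
  rw [ZJ_map' (inf_π_ker P.isPGroup')] at h1
  have h2 := ker_sup_normalizer π_surj π_cop (P.isPGroup'.to_le ((fn_ZJ (dvd_zero p)).le _)) h1
  rw [π_ker] at h2
  exact ⟨h2, fun e => normalizer_eq_top_iff.1 (by rwa [e, bot_sup_eq] at h2)⟩

end Cfsg.Agent.S0667
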