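import Cfsg.Statements.S0668
import Mathlib
import Cfsg.Agent.Lib.Perm.PermMod

set_option autoImplicit false
open Cfsg

namespace Cfsg.Agent.S0668

open MulAction CA.PermMod

/-- The equivariant linear maps between the permutation modules of two finite `G`-sets form a space whose dimension is the number of `G`-orbits on the product of the two sets. -/
theorem result {G : Type*} [Group G] {K : Type*} [Field K] {Ω₁ Ω₂ : Type*} [Fintype Ω₁] [Fintype Ω₂] [MulAction G Ω₁] [MulAction G Ω₂] : Module.finrank K ((Cfsg.permRep K G Ω₁).linHom (Cfsg.permRep K G Ω₂)).invariants = Nat.card (MulAction.orbitRel.Quotient G (Ω₁ × Ω₂)) := by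
  classical
  have := Fintype.ofFinite (orbitRel.Quotient G (Ω₁ × Ω₂))
  let F : (orbitRel.Quotient G (Ω₁ × Ω₂) → K) →ₗ[K] ((Ω₁ → K) →ₗ[K] (Ω₂ → K)) :=
    Matrix.toLin'.toLinearMap ∘ₗ
      { toFun := fun c => Matrix.of fun y x => c (Quotient.mk'' (x, y))
        map_add' := fun _ _ => rfl
        map_smul' := fun _ _ => rfl }
  have hF : ∀ c w y, F c w y = ∑ x, c (Quotient.mk'' (x, y)) * w x := fun _ _ _ => rfl
  have hF1 : ∀ c x y, F c (Pi.single x 1) y = c (Quotient.mk'' (x, y)) := fun c x y => by
    simp [hF, Pi.single_apply]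
  have hq : ∀ (g : G) x y, (Quotient.mk'' (g • x, g • y) : orbitRel.Quotient G (Ω₁ × Ω₂)) =
      Quotient.mk'' (x, y) := fun g x y => Quotient.sound' ⟨g, rfl⟩
  have hinj : Function.Injective F := by
    intro c c' e
    ext q
    induction q using Quotient.inductionOn' with | h z =>
    rw [← hF1 c z.1 z.2, ← hF1 c' z.1 z.2, e]
  have hrange : LinearMap.range F =
      ((Cfsg.permRep K G Ω₁).linHom (Cfsg.permRep K G Ω₂)).invariants := by
    ext T
    rw [Representation.mem_invariants]
    constructor
    · rintro ⟨c, rfl⟩ g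
      apply LinearMap.ext
      intro w
      ext y
      show F c (fun x => w (g⁻¹⁻¹ • x)) (g⁻¹ • y) = F c w y
      rw [hF, hF, inv_inv]
      exact Fintype.sum_equiv (toPerm g) _ _ (fun x => by
        simp only [toPerm_apply]; rw [← hq g, smul_inv_smul])
    · intro h
      refine ⟨Quotient.lift (fun z : Ω₁ × Ω₂ => T (Pi.single z.1 1) z.2) ?_, ?_⟩
      · rintro _ z ⟨g, rfl⟩
        have := congrFun (LinearMap.congr_fun (h g) (Pi.single (g • z.1) 1)) (g • z.2)
        refine this.symm.trans ?_
        show T (fun x => (Pi.single (g • z.1) 1 : Ω₁ → K) (g⁻¹⁻¹ • x)) (g⁻¹ • g • z.2) = _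
        rw [inv_smul_smul, inv_inv]
        have e : (fun x => (Pi.single (g • z.1) 1 : Ω₁ → K) (g • x)) = Pi.single z.1 1 := by
          ext x
          simp [Pi.single_apply]
        rw [e]
      · apply LinearMap.pi_ext'
        intro x
        apply LinearMap.ext_ring
        ext y
        exact hF1 _ x y
  rw [← hrange, LinearMap.finrank_range_of_inj hinj, Module.finrank_fintype_fun_eq_card,
    Nat.card_eq_fintype_card]

end Cfsg.Agent.S0668
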