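import Cfsg.Statements.S0669
import Mathlib
import Cfsg.Agent.Lib.Perm.PermBasic

set_option autoImplicit false
open Cfsg

namespace Cfsg.Agent.S0669

open MulAction CA.PermBasic

/-- The rank of a transitive action: orbits on ordered pairs correspond to orbits of a point stabiliser. -/
theorem result {G : Type*} [Group G] {Ω : Type*} [Finite Ω] [MulAction G Ω] [MulAction.IsPretransitive G Ω] (a : Ω) : Nat.card (MulAction.orbitRel.Quotient G (Ω × Ω)) = Nat.card (MulAction.orbitRel.Quotient (MulAction.stabilizer G a) Ω) := by
  symm
  let f : orbitRel.Quotient (stabilizer G a) Ω → orbitRel.Quotient G (Ω × Ω) :=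
    Quotient.map' (fun b => (a, b)) (by
      intro b c h
      obtain ⟨g, hg⟩ := h
      refine ⟨(g : G), ?_⟩
      ext
      · exact g.2
      · exact hg)
  refine Nat.card_congr (Equiv.ofBijective f ⟨?_, ?_⟩)
  · intro x y
    induction x using Quotient.inductionOn' with | h b =>
    induction y using Quotient.inductionOn' with | h c =>
    intro h
    obtain ⟨g, hg⟩ := Quotient.exact' h
    apply Quotient.sound'
    exact ⟨⟨g, congrArg Prod.fst hg⟩, congrArg Prod.snd hg⟩
  · intro x
    induction x using Quotient.inductionOn' with | h p =>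
    obtain ⟨g, hg⟩ := exists_smul_eq G p.1 a
    refine ⟨Quotient.mk'' (g • p.2), Quotient.sound' ⟨g, ?_⟩⟩
    ext
    · exact hg
    · rfl

end Cfsg.Agent.S0669
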