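import Cfsg.Statements.S0677
import Mathlib
import Cfsg.Agent.Lib.Perm.PrimeDeg
import Cfsg.Agent.S0675
import Cfsg.Agent.S0059

set_option autoImplicit false
open Cfsg

namespace Cfsg.Agent.S0677

open MulAction CA.PermBasic CA.PermMulti CA.PermMod CA.PrimeDeg Pointwise

/-- In a transitive permutation group of prime degree `p` whose Sylow `p`-normaliser has even order, the point stabilisers are the only subgroups of index `p`. -/
theorem result {α : Type*} [Fintype α] [DecidableEq α] {p : ℕ} [Fact p.Prime] (hα : Fintype.card α = p) (G : Subgroup (Equiv.Perm α)) [MulAction.IsPretransitive G α] (P : Sylow p G) (heven : Even (Nat.card (Subgroup.normalizer ((P : Subgroup G) : Set G)))) (H : Subgroup G) (hH : H.index = p) : ∃ a : α, H = MulAction.stabilizer G a := by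
  classical
  have hp : p.Prime := Fact.out
  have := Fact.mk Nat.prime_two
  have hα' : Nat.card α = p := by rw [Nat.card_eq_fintype_card, hα]
  have : Nonempty α := Fintype.card_pos_iff.1 (by rw [hα]; exact hp.pos)
  suffices h : ∃ a : α, ∀ h ∈ H, h • a = a by
    obtain ⟨a, ha⟩ := h
    refine ⟨a, Subgroup.eq_of_le_of_card_ge ha (le_of_eq ?_)⟩
    have h1 := H.index_mul_card
    rw [hH, card_eq_card_mul_card_stabilizer (G := G) a, hα'] at h1
    exact (Nat.eq_of_mul_eq_mul_left hp.pos h1).symm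
  have hPc := card_sylow hα' P
  have hHP : Nat.card H = (P : Subgroup G).index := by
    have h1 := H.index_mul_card
    rw [hH, ← (P : Subgroup G).card_mul_index, hPc] at h1
    exact Nat.eq_of_mul_eq_mul_left hp.pos h1
  have hpH : ¬ p ∣ Nat.card H := hHP ▸ P.not_dvd_index
  have hPt := sylow_pretransitive (f := 1) (by rw [pow_one, hα']) P (Ω := α)
  rcases Cfsg.Agent.S0675.result (hα ▸ hp) G with hs | h2
  · have := (isSolvable_iff hα' P).1 hs
    exact (Cfsg.Agent.S0059.result (P : Subgroup G) H (Subgroup.isComplement'_of_coprime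
      (by rw [hHP, Subgroup.card_mul_index]) (by rw [hPc]; exact (hp.coprime_iff_not_dvd).2 hpH))
      (by rw [hPc]; exact (hp.coprime_iff_not_dvd).2 P.not_dvd_index) (Or.inl inferInstance) hPt).1
  rcases hp.eq_two_or_odd' with rfl | hodd
  · have h1 : Nat.card G ≤ 2 := by
      have := Nat.card_le_card_of_injective _ G.subtype_injective
      rwa [Nat.card_perm, hα'] at this
    have h3 := H.index_mul_card
    have h4 : 0 < Nat.card H := Nat.card_pos
    rw [hH] at h3
    rw [Subgroup.eq_bot_of_card_le H (by omega)]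
    exact ⟨Classical.arbitrary α, fun h hh => by rw [Subgroup.mem_bot.1 hh, one_smul]⟩
  obtain ⟨t, ht⟩ := exists_prime_orderOf_dvd_card' 2 heven.two_dvd
  obtain ⟨t, htN⟩ := t
  rw [← Subgroup.orderOf_coe] at ht
  simp only at ht
  have ht1 : t ≠ 1 := by rintro rfl; simp at ht
  have ht2 : t ^ 2 ^ 1 = 1 := by rw [pow_one, ← ht, pow_orderOf_eq_one]
  have ht3 : ∀ {Y : Type} [MulAction G Y] (x : Y), t • t • x = x := fun x => by
    rw [← mul_smul, ← pow_two, ← ht, pow_orderOf_eq_one, one_smul]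
  have hfix : ∀ (Y : Type u_1) [MulAction G Y] [FaithfulSMul G Y] [IsPretransitive G Y],
      Nat.card Y = p → ∃ m : Y, ∀ y, t • y = y ↔ y = m := by
    intro Y _ _ _ hY
    obtain ⟨m, hm⟩ := exists_fixed_of_mem_normalizer hY P htN (fun h => by
      have := Subgroup.orderOf_dvd_natCard _ h
      rw [ht, hPc] at this
      exact (Nat.not_even_iff_odd.2 hodd) (even_iff_two_dvd.2 this))
    refine ⟨m, fun y => ⟨fun h => ?_, fun h => h ▸ hm⟩⟩
    by_contra hne
    exact ht1 (eq_one_of_mem_normalizer hY P htN hne h hm)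
  have : FaithfulSMul G (G ⧸ H) := by
    have h1 : H.normalCore = ⊥ := by
      by_contra hne
      have := Subgroup.card_dvd_of_le ((sylow_le_of_normal hα' P _ hne).trans H.normalCore_le)
      exact hpH (hPc ▸ this)
    rw [Subgroup.normalCore_eq_ker, MonoidHom.ker_eq_bot_iff] at h1
    exact ⟨fun {g h} e => h1 (Equiv.ext e)⟩
  obtain ⟨m, hm⟩ := hfix α hα'
  obtain ⟨y₀, hy₀⟩ := hfix (G ⧸ H) hH
  obtain ⟨x⟩ : Nonempty α := inferInstance
  -- incidence between points and cosets
  let I : α → G ⧸ H → Prop := fun u y => ∃ g : G, (g : G ⧸ H) = y ∧ g • x = u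
  have hI : ∀ (g : G) u y, I (g • u) (g • y) ↔ I u y := fun g u y =>
    ⟨fun ⟨k, h1, h2⟩ => ⟨g⁻¹ * k, by
      rw [← smul_eq_mul, ← MulAction.Quotient.smul_mk, h1, inv_smul_smul],
      by rw [mul_smul, h2, inv_smul_smul]⟩,
    fun ⟨k, h1, h2⟩ => ⟨g * k, by rw [← smul_eq_mul, ← MulAction.Quotient.smul_mk, h1],
      by rw [mul_smul, h2]⟩⟩
  have hcount : ∀ u v u' v', u ≠ v → u' ≠ v' →
      {y | I u y ∧ I v y}.ncard = {y | I u' y ∧ I v' y}.ncard := by
    intro u v u' v' h h'
    obtain ⟨g, rfl, rfl⟩ := two_iff.1 h2 u v u' v' h h'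
    refine Set.ncard_congr (fun y _ => g • y) (fun y hy => ⟨(hI g _ _).2 hy.1, (hI g _ _).2 hy.2⟩)
      (fun y y' _ _ e => MulAction.injective g e) (fun y hy => ⟨g⁻¹ • y, ?_, smul_inv_smul _ _⟩)
    constructor
    · rw [← hI g, smul_inv_smul]; exact hy.1
    · rw [← hI g, smul_inv_smul]; exact hy.2
  have htt : ∀ u : α, t • t • u = u := fun u => by
    rw [← mul_smul, ← pow_two, ← ht, pow_orderOf_eq_one, one_smul]
  have hpar : ∀ u, {y | I u y ∧ I (t • u) y}.ncard % 2 = if I u y₀ then 1 else 0 := by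
    intro u
    have h1 := ncard_modEq_fixedBy ht2 {y | I u y ∧ I (t • u) y} (Set.toFinite _)
      (fun y hy => ⟨by rw [← htt u, hI]; exact hy.2, (hI t _ _).2 hy.1⟩)
    rw [Nat.ModEq] at h1
    rw [h1]
    split_ifs with h
    · have : {y ∈ {y | I u y ∧ I (t • u) y} | t • y = y} = {y₀} := by
        ext y
        simp only [Set.mem_setOf_eq, hy₀, Set.mem_singleton_iff]
        refine ⟨fun h => h.2, fun e => ⟨⟨e ▸ h, ?_⟩, e⟩⟩
        rw [e, ← (hy₀ y₀).2 rfl, hI]; exact h
      rw [this]; simp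
    · have : {y ∈ {y | I u y ∧ I (t • u) y} | t • y = y} = ∅ := by
        rw [Set.eq_empty_iff_forall_notMem]
        rintro y ⟨⟨h1, -⟩, h2⟩
        exact h ((hy₀ y).1 h2 ▸ h1)
      rw [this]; simp
  have hconst : ∀ u v, u ≠ m → v ≠ m → I u y₀ → I v y₀ := by
    intro u v hu hv h
    have h1 := hpar u
    rw [hcount u (t • u) v (t • v) (fun e => hu ((hm u).1 e.symm)) (fun e => hv ((hm v).1 e.symm)),
      hpar, if_pos h] at h1
    by_contra h'
    simp [h'] at h1
  obtain ⟨g, rfl⟩ := QuotientGroup.mk_surjective y₀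
  refine ⟨g⁻¹ • m, fun h hh => ?_⟩
  have hk : (g * h * g⁻¹) • (g : G ⧸ H) = g := by
    rw [MulAction.Quotient.smul_mk, smul_eq_mul, QuotientGroup.eq]
    simpa using hh
  suffices h1 : (g * h * g⁻¹) • m = m by
    rw [mul_smul, mul_smul, ← eq_inv_smul_iff] at h1; exact h1
  generalize g * h * g⁻¹ = k at hk
  by_contra hne
  have hkI : ∀ u, I (k • u) g ↔ I u g := fun u => by conv_lhs => rw [← hk, hI]
  have hall : ∀ u, I u g := by
    have h1 : I (g • x) g := ⟨g, rfl, rfl⟩
    have h3 : I (k • m) g := by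
      by_cases e : g • x = m
      · rw [hkI, ← e]; exact h1
      · exact hconst _ _ e hne h1
    intro u
    by_cases e : u = m
    · rw [e, ← hkI]; exact h3
    · exact hconst _ _ hne e h3
  apply hpH
  have : IsPretransitive H α := by
    rw [subgroup_pretransitive_iff_base H x]
    intro u
    obtain ⟨k, h1, h2⟩ := hall (g • u)
    rw [eq_comm, QuotientGroup.eq] at h1
    exact ⟨_, h1, by rw [mul_smul, h2, inv_smul_smul]⟩
  exact hα' ▸ card_dvd_card

end Cfsg.Agent.S0677
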