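import Cfsg.Statements.S0680
import Mathlib
import Cfsg.Agent.Lib.Perm.Sharp2

set_option autoImplicit false
open Cfsg

namespace Cfsg.Agent.S0680

open MulAction CA.PermBasic CA.PermMulti CA.Sharp2

/-- A finite sharply doubly transitive permutation group has degree a prime power `p ^ j`; a Sylow `p`-subgroup is normal, elementary abelian and regular, and consists of the identity together with the elements without fixed points. (Frobenius' Theorem is not needed.) -/
theorem result {α : Type*} [Fintype α] [DecidableEq α] (G : Subgroup (Equiv.Perm α)) [MulAction.IsMultiplyPretransitive G α 2] (hsharp : ∀ x : Fin 2 ↪ α, MulAction.stabilizer G x = ⊥) (h2 : 2 ≤ Fintype.card α) : ∃ p j : ℕ, p.Prime ∧ 1 ≤ j ∧ Fintype.card α = p ^ j ∧ ∀ (hp : Fact p.Prime) (P : Sylow p G), (P : Subgroup G).Normal ∧ IsMulCommutative (P : Subgroup G) ∧ (∀ x ∈ (P : Subgroup G), x ^ p = 1) ∧ MulAction.IsPretransitive (P : Subgroup G) α ∧ (∀ a : α, MulAction.stabilizer (P : Subgroup G) a = ⊥) ∧ ∀ g : G, g ∈ (P : Subgroup G) ↔ g = 1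 ∨ ∀ a : α, g • a ≠ a := by
  have : Nontrivial α := Fintype.one_lt_card_iff_nontrivial.1 h2
  have hs := (sharp_two_iff (G := G)).1 hsharp
  obtain ⟨K, hK, hKn, hKt, hKc, hKab, p, hp, hexp⟩ := exists_kernel (G := G) (X := α) inferInstance hs
  have := Fact.mk hp
  have hP : IsPGroup p K := fun n => ⟨1, Subtype.ext (by simpa using hexp n n.2)⟩
  obtain ⟨j, hj⟩ := IsPGroup.iff_card.1 hP
  rw [hKc, Nat.card_eq_fintype_card] at hj
  have hj1 : 1 ≤ j := by
    rcases Nat.eq_zero_or_pos j with rfl | h
    · rw [pow_zero] at hj; omega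
    · exact h
  refine ⟨p, j, hp, hj1, hj, fun _ P => ?_⟩
  have : IsPretransitive G α := isPretransitive_of_is_two_pretransitive
  obtain ⟨a⟩ : Nonempty α := inferInstance
  have h1 := card_of_sharp2 (G := G) inferInstance hs a
  have h3 := card_eq_card_mul_card_stabilizer (G := G) a
  have h4 : K.index = Nat.card (stabilizer G a) := by
    have := K.card_mul_index
    rw [hKc, h3] at this
    exact Nat.eq_of_mul_eq_mul_left Nat.card_pos this
  have h5 : ¬ p ∣ K.index := by
    rw [h4]
    intro h
    have h6 : p ∣ Nat.card (stabilizer G a) + 1 := by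
      rw [h1, Nat.card_eq_fintype_card, hj]; exact dvd_pow_self p (by omega)
    exact hp.one_lt.ne' (Nat.dvd_one.1 ((Nat.dvd_add_right h).1 h6))
  have hPK : (P : Subgroup G) = K := by
    have : (hP.toSylow h5 : Subgroup G).Normal := hKn
    have := Sylow.unique_of_normal (hP.toSylow h5) this
    rw [Subsingleton.elim P (hP.toSylow h5)]
    rfl
  rw [hPK]
  refine ⟨hKn, hKab, hexp, hKt, fun b => ?_, hK⟩
  rw [subgroup_stabilizer_eq_bot_iff]
  exact fun g hg hb => ((hK g).1 hg).resolve_right (fun h => h b hb)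

end Cfsg.Agent.S0680
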