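import Cfsg.Statements.S0681
import Mathlib
import Cfsg.Agent.Lib.Perm.PermBasic

set_option autoImplicit false
open Cfsg

namespace Cfsg.Agent.S0681

open MulAction CA.PermBasic

theorem zero_mul' {F : Type*} [Cfsg.NearField F] (a : F) : 0 * a = 0 := by
  have := NearField.right_distrib (0 : F) 0 a
  rw [add_zero] at this
  exact left_eq_add.1 this

theorem neg_mul' {F : Type*} [Cfsg.NearField F] (x a : F) : (-x) * a = -(x * a) := by
  rw [eq_neg_iff_add_eq_zero, ← NearField.right_distrib, neg_add_cancel, zero_mul']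

theorem mul_ne_zero' {F : Type*} [Cfsg.NearField F] {a b : F} (ha : a ≠ 0) (hb : b ≠ 0) :
    a * b ≠ 0 := by
  obtain ⟨c, hc, -⟩ := NearField.exists_inv b hb
  intro h
  apply ha
  rw [← mul_one a, ← hc, ← mul_assoc, h, zero_mul']

/-- The affine permutation `x ↦ x * a + b`. -/
theorem exists_perm {F : Type*} [Cfsg.NearField F] {a : F} (ha : a ≠ 0) (b : F) :
    ∃ σ : Equiv.Perm F, ∀ x, σ x = x * a + b := by
  obtain ⟨c, h1, h2⟩ := NearField.exists_inv a ha
  exact ⟨⟨fun x => x * a + b, fun y => (y - b) * c, fun x => by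
    simp only [add_sub_cancel_right, mul_assoc, h1, mul_one], fun y => by
    simp only [mul_assoc, h2, mul_one, sub_add_cancel]⟩, fun x => rfl⟩

/-- The affine maps `x ↦ x * a + b`, `a ≠ 0`, of a near-field form a sharply doubly transitive permutation group. -/
theorem result {F : Type*} [Cfsg.NearField F] : ∃ H : Subgroup (Equiv.Perm F), (∀ σ : Equiv.Perm F, σ ∈ H ↔ ∃ a b : F, a ≠ 0 ∧ ∀ x : F, σ x = x * a + b) ∧ MulAction.IsMultiplyPretransitive H F 2 ∧ ∀ x : Fin 2 ↪ F, MulAction.stabilizer H x = ⊥ := by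
  let H : Subgroup (Equiv.Perm F) :=
    { carrier := {σ | ∃ a b : F, a ≠ 0 ∧ ∀ x : F, σ x = x * a + b}
      one_mem' := ⟨1, 0, NearField.zero_ne_one.symm, fun x => by simp⟩
      mul_mem' := by
        rintro σ τ ⟨a, b, ha, hσ⟩ ⟨c, d, hc, hτ⟩
        refine ⟨c * a, d * a + b, mul_ne_zero' hc ha, fun x => ?_⟩
        rw [Equiv.Perm.mul_apply, hτ, hσ, NearField.right_distrib, mul_assoc, add_assoc]
      inv_mem' := by
        rintro σ ⟨a, b, ha, hσ⟩
        obtain ⟨c, h1, h2⟩ := NearField.exists_inv a ha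
        refine ⟨c, (-b) * c, fun e => NearField.zero_ne_one (by
          rw [← h1, e, NearField.mul_zero]), fun x => ?_⟩
        rw [Equiv.Perm.inv_eq_iff_eq, hσ, ← NearField.right_distrib, mul_assoc, h2, mul_one,
          neg_add_cancel_right] }
  refine ⟨H, fun σ => Iff.rfl, ?_, ?_⟩
  · rw [two_iff]
    intro x y u v hxy huv
    obtain ⟨c, h1, h2⟩ := NearField.exists_inv (x - y) (sub_ne_zero.2 hxy)
    have hc : c ≠ 0 := fun e => NearField.zero_ne_one (by rw [← h1, e, NearField.mul_zero])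
    have ha := mul_ne_zero' hc (sub_ne_zero.2 huv)
    obtain ⟨σ, hσ⟩ := exists_perm ha (-(y * (c * (u - v))) + v)
    refine ⟨⟨σ, _, _, ha, hσ⟩, ?_, ?_⟩
    · show σ x = u
      rw [hσ, ← add_assoc, ← neg_mul', ← NearField.right_distrib, ← sub_eq_add_neg, ← mul_assoc, h1,
        one_mul, sub_add_cancel]
    · show σ y = v
      rw [hσ, add_neg_cancel_left]
  · refine (sharp_two_iff (G := H)).2 ?_
    rintro ⟨σ, a, b, ha, hσ⟩ x y hxy hx hy
    change σ x = x at hx
    change σ y = y at hy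
    rw [hσ] at hx hy
    obtain ⟨c, h1, h2⟩ := NearField.exists_inv (x - y) (sub_ne_zero.2 hxy)
    have h3 : (x - y) * a = x - y := by
      rw [sub_eq_add_neg, NearField.right_distrib, neg_mul', eq_sub_of_add_eq hx,
        eq_sub_of_add_eq hy, neg_sub, sub_add_sub_cancel, sub_eq_add_neg]
    have h4 : a = 1 := by rw [← one_mul a, ← h2, mul_assoc, h3]
    subst h4
    rw [mul_one, add_eq_left] at hx
    subst hx
    ext z
    simp [hσ]

end Cfsg.Agent.S0681
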