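import Cfsg.Statements.S0682
import Mathlib
import Cfsg.Agent.Lib.Perm.Sharp2
import Cfsg.Agent.S0681

set_option autoImplicit false
open Cfsg

namespace Cfsg.Agent.S0682

open MulAction CA.PermBasic CA.PermMulti CA.Sharp2

/-- A finite near-field has prime-power order; its additive group is commutative of prime exponent. -/
theorem result {F : Type*} [Cfsg.NearField F] [Finite F] : ∃ p j : ℕ, p.Prime ∧ 1 ≤ j ∧ Nat.card F = p ^ j ∧ (∀ x y : F, x + y = y + x) ∧ ∀ x : F, p • x = 0 := by
  obtain ⟨H, hH, h2, hs⟩ := Cfsg.Agent.S0681.result (F := F)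
  have : Nontrivial F := ⟨0, 1, NearField.zero_ne_one⟩
  obtain ⟨K, hK, hKn, hKt, hKc, hKab, p, hp, hexp⟩ := exists_kernel h2 ((sharp_two_iff (G := H)).1 hs)
  have := Fact.mk hp
  have hP : IsPGroup p K := fun n => ⟨1, Subtype.ext (by simpa using hexp n n.2)⟩
  obtain ⟨j, hj⟩ := IsPGroup.iff_card.1 hP
  rw [hKc] at hj
  have hj1 : 1 ≤ j := by
    rcases Nat.eq_zero_or_pos j with rfl | h
    · have := Finite.one_lt_card (α := F)
      rw [pow_zero] at hj; omega
    · exact h
  let τ : F → H := fun b => ⟨Equiv.addRight b, (hH _).2 ⟨1, b, NearField.zero_ne_one.symm,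
    fun x => by simp⟩⟩
  have hτ : ∀ b, τ b ∈ K := by
    intro b
    rw [hK]
    by_cases hb : b = 0
    · left; ext x; simp [τ, hb]
    · right; intro x hx; exact hb (add_eq_left.1 hx)
  refine ⟨p, j, hp, hj1, hj, fun x y => ?_, fun x => ?_⟩
  · have := congrArg (fun u : K => u • (0 : F)) (hKab.is_comm.comm ⟨_, hτ y⟩ ⟨_, hτ x⟩)
    simp only [mul_smul] at this
    change 0 + x + y = 0 + y + x at this
    simpa using this
  · have h1 : ∀ n : ℕ, τ x ^ n • (0 : F) = n • x := by
      intro n
      induction n with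
      | zero => simp
      | succ n ih => rw [pow_succ', mul_smul, ih, succ_nsmul]; rfl
    rw [← h1, hexp _ (hτ x), one_smul]

end Cfsg.Agent.S0682
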