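import Cfsg.Statements.S0683
import Mathlib
import Cfsg.Agent.Lib.Perm.Sharp2

set_option autoImplicit false
open Cfsg

namespace Cfsg.Agent.S0683

open MulAction CA.PermBasic CA.PermMulti CA.Sharp2

/-- A finite sharply doubly transitive permutation group is the affine group of a near-field: the permuted set carries a near-field structure for which the group consists exactly of the maps `x ↦ x * a + b` with `a ≠ 0`. -/
theorem result {α : Type*} [Fintype α] [DecidableEq α] (H : Subgroup (Equiv.Perm α)) [MulAction.IsMultiplyPretransitive H α 2] (hsharp : ∀ x : Fin 2 ↪ α, MulAction.stabilizer H x = ⊥) (h2 : 2 ≤ Fintype.card α) : ∃ _ : Cfsg.NearField α, ∀ σ : Equiv.Perm α, σ ∈ H ↔ ∃ a b : α, a ≠ 0 ∧ ∀ x : α, σ x = x * a + b := by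
  have : Nontrivial α := Fintype.one_lt_card_iff_nontrivial.1 h2
  have hs := (sharp_two_iff (G := H)).1 hsharp
  obtain ⟨K, hK, hKn, hKt, -⟩ := exists_kernel (G := H) (X := α) inferInstance hs
  obtain ⟨o, e, hoe⟩ := exists_pair_ne α
  have hKr : ∀ k ∈ K, k • o = o → k = 1 := fun g hg hb => ((hK g).1 hg).resolve_right (fun h => h o hb)
  choose τ hτK hτ using fun x : α => (subgroup_pretransitive_iff K).1 hKt o x
  have hτu : ∀ k ∈ K, τ (k • o) = k := by
    intro k hk
    have := hKr (k⁻¹ * τ (k • o)) (K.mul_mem (K.inv_mem hk) (hτK _)) (by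
      rw [mul_smul, hτ, inv_smul_smul])
    rw [inv_mul_eq_one] at this
    exact this.symm
  have hτo : τ o = 1 := by simpa using hτu 1 K.one_mem
  have hex : ∀ a : α, ∃ g : H, a ≠ o → g • o = o ∧ g • e = a := by
    intro a
    by_cases ha : a = o
    · exact ⟨1, fun h => absurd ha h⟩
    · obtain ⟨g, hg⟩ := two_iff.1 (inferInstance : IsMultiplyPretransitive H α 2) o e o a hoe
        (Ne.symm ha)
      exact ⟨g, fun _ => hg⟩
  choose μ hμ using hex
  have hne : ∀ (g : H) x, g • o = o → x ≠ o → g • x ≠ o := fun g x hg hx h =>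
    hx (MulAction.injective g (h.trans hg.symm))
  have hμu : ∀ g : H, g • o = o → μ (g • e) = g := by
    intro g hg
    have h := hμ (g • e) (hne g e hg hoe.symm)
    have := hs (g⁻¹ * μ (g • e)) o e hoe (by rw [mul_smul, h.1, inv_smul_eq_iff, hg])
      (by rw [mul_smul, h.2, inv_smul_smul])
    rw [inv_mul_eq_one] at this
    exact this.symm
  letI : Add α := ⟨fun x y => τ y • x⟩
  letI : Zero α := ⟨o⟩
  letI : Neg α := ⟨fun x => (τ x)⁻¹ • o⟩
  letI : Mul α := ⟨fun x a => if a = o then o else μ a • x⟩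
  have hadd : ∀ x y : α, x + y = τ y • x := fun _ _ => rfl
  have hmul : ∀ x a : α, a ≠ o → x * a = μ a • x := fun _ _ h => if_neg h
  have hmul0 : ∀ x : α, x * o = o := fun _ => if_pos rfl
  have hτadd : ∀ x y : α, τ (x + y) = τ y * τ x := fun x y => by
    rw [← hτu _ (K.mul_mem (hτK y) (hτK x)), mul_smul, hτ, hadd]
  letI A : AddGroup α := AddGroup.ofRightAxioms
    (fun x y z => by rw [hadd x (y + z), hτadd, mul_smul]; rfl)
    (fun x => by show τ o • x = x; rw [hτo, one_smul])
    (fun x => by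
      show τ ((τ x)⁻¹ • o) • x = o
      rw [hτu _ (K.inv_mem (hτK x)), inv_smul_eq_iff, hτ])
  have hμe : μ e = 1 := by simpa using hμu 1 (one_smul _ _)
  have h0mul : ∀ a : α, o * a = o := fun a => by
    by_cases ha : a = o
    · rw [ha, hmul0]
    · rw [hmul _ _ ha, (hμ a ha).1]
  letI M : Monoid α :=
    { mul_assoc := fun x a b => by
        by_cases hb : b = o
        · rw [hb, hmul0, hmul0, hmul0]
        by_cases ha : a = o
        · rw [ha, hmul0, h0mul, hmul0]
        have h1 : μ b • a = (μ b * μ a) • e := by rw [mul_smul, (hμ a ha).2]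
        rw [hmul _ _ hb, hmul _ _ ha, hmul _ _ hb, hmul _ _ (hne _ _ (hμ b hb).1 ha), h1,
          hμu _ (by rw [mul_smul, (hμ a ha).1, (hμ b hb).1]), mul_smul]
      one := e
      one_mul := fun a => by
        show e * a = a
        by_cases ha : a = o
        · rw [ha, hmul0]
        · rw [hmul _ _ ha, (hμ a ha).2]
      mul_one := fun a => by
        show a * e = a
        rw [hmul _ _ hoe.symm, hμe, one_smul] }
  have hconj : ∀ g : H, g • o = o → ∀ y, τ (g • y) = g * τ y * g⁻¹ := fun g hg y =>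
    (conj_eq_of_regular K hKr hg (hτK y) (hτK _) (by rw [hτ, hτ])).symm
  refine ⟨{ A, M with
    right_distrib := fun x y a => ?_
    mul_zero := hmul0
    zero_ne_one := hoe
    exists_inv := fun a ha => ?_ }, fun σ => ⟨fun hσ => ?_, ?_⟩⟩
  · by_cases ha : a = o
    · rw [ha, hmul0, hmul0, hmul0]; exact (add_zero (0 : α)).symm
    · rw [hmul _ _ ha, hmul _ _ ha, hmul _ _ ha, hadd, hadd, hconj _ (hμ a ha).1]
      simp [mul_smul]
  · have h1 : (μ a)⁻¹ • o = o := by rw [inv_smul_eq_iff, (hμ a ha).1]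
    refine ⟨(μ a)⁻¹ • e, ?_, ?_⟩
    · rw [hmul _ _ (hne _ _ h1 hoe.symm), hμu _ h1, inv_smul_eq_iff]
      exact (hμ a ha).2.symm
    · rw [hmul _ _ ha, smul_inv_smul]; rfl
  · let g : H := (τ (σ o))⁻¹ * ⟨σ, hσ⟩
    have hg : g • o = o := by
      rw [mul_smul, inv_smul_eq_iff, hτ]; rfl
    refine ⟨g • e, σ o, hne _ _ hg hoe.symm, fun x => ?_⟩
    rw [hmul _ _ (hne _ _ hg hoe.symm), hμu _ hg, hadd, mul_smul, smul_inv_smul]
    rfl
  · rintro ⟨a, b, ha, h⟩
    have : σ = (τ b * μ a : H) := by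
      ext x
      rw [h, hmul _ _ ha, hadd, ← mul_smul]; rfl
    rw [this]; exact Subtype.prop _

end Cfsg.Agent.S0683
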