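import Cfsg.Statements.S0684
import Mathlib
import Cfsg.Agent.Lib.Perm.RegLin

set_option autoImplicit false
open Cfsg

namespace Cfsg.Agent.S0684

/-- Point stabiliser of a sharply doubly transitive group not of semilinear type: a maximal normal abelian subgroup `A` of a linear group `H` that is regular on non-zero vectors and has no irreducible cyclic normal subgroup is cyclic and reducible, and the order of `A` divides `p ^ k - 1` for `k` the dimension of a minimal `A`-invariant subspace. -/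
theorem result {p : ℕ} [Fact p.Prime] {V : Type*} [AddCommGroup V] [Module (ZMod p) V] [Finite V] (H : Subgroup (V ≃ₗ[ZMod p] V)) (hreg : ∀ v w : V, v ≠ 0 → w ≠ 0 → ∃! h : H, (h : V ≃ₗ[ZMod p] V) v = w) (hI : ∀ A : Subgroup H, A.Normal → IsCyclic A → ∃ W : Submodule (ZMod p) V, W ≠ ⊥ ∧ W ≠ ⊤ ∧ ∀ a ∈ A, ∀ v ∈ W, ((a : H) : V ≃ₗ[ZMod p] V) v ∈ W) (A : Subgroup H) (hAn : A.Normal) (hAc : IsMulCommutative A) (hAmax : ∀ B : Subgroup H, B.Normal → IsMulCommutative B → A ≤ B → B = A) : IsCyclic A ∧ ∃ W : Submodule (ZMod p) V, W ≠ ⊥ ∧ W ≠ ⊤ ∧ (∀ a ∈ A, ∀ v ∈ W, ((a : H) : V ≃ₗ[ZMod p] V) v ∈ W) ∧ (∀ W' : Submodule (ZMod p) V, W' ≤ W → (∀ a ∈ A, ∀ v ∈ W', ((a : H) : V ≃ₗ[ZMod p] V) v ∈ W') → W' = ⊥ ∨ W' = W) ∧ Nat.card A ∣ p ^ Module.finrank (ZMod p) W - 1 := by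
  have h := CA.RegLin.reg_of_sub hreg
  have hI := CA.RegLin.ni_of hI
  have := hI.nontrivial
  have hc := h.isCyclic hAc
  obtain ⟨v, hv⟩ := exists_ne (0 : V)
  refine ⟨hc, AddSubgroup.toZModSubmodule p (CA.TrLin.orb A v), fun e => hv ?_,
    fun e => h.tr.orb_ne_top (hI A hAn hc) hv (congrArg Submodule.toAddSubgroup e), CA.TrLin.inv_orb A v,
    fun W' h1 h2 => (h.tr.orb_min hv (W := W'.toAddSubgroup) h2 h1).imp
      (fun e => Submodule.toAddSubgroup_injective e) (fun e => Submodule.toAddSubgroup_injective e), ?_⟩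
  · exact (Submodule.mem_bot _).1 (e.le (CA.TrLin.mem_orb_self A v))
  · have := h.card_dvd A (CA.TrLin.inv_orb A v)
    have e := Module.natCard_eq_pow_finrank (K := ZMod p) (V := AddSubgroup.toZModSubmodule p (CA.TrLin.orb A v))
    rw [Nat.card_zmod] at e
    rwa [← e]

end Cfsg.Agent.S0684
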