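import Cfsg.Statements.S0691
import Mathlib
import Cfsg.Agent.Lib.Perm.RegCert

set_option autoImplicit false
open Cfsg

namespace Cfsg.Agent.S0691

def LL : List CA.RegCert.T := [(4, 1, 2, 2), (4, 4, 3, 2), (2, 3, 4, 4), (2, 2, 1, 4), (1, 1, 2, 3), (3, 4, 3, 1), (3, 2, 1, 1), (1, 3, 4, 3), (1, 4, 3, 3), (3, 1, 2, 1), (4, 3, 4, 2), (0, 1, 4, 0), (3, 0, 0, 2), (3, 3, 4, 1), (4, 2, 1, 2), (2, 4, 3, 4), (0, 3, 3, 0), (2, 1, 2, 4), (0, 2, 2, 0), (4, 0, 0, 4), (1, 2, 1, 3), (0, 4, 1, 0), (2, 0, 0, 3), (1, 0, 0, 1)]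

instance : Fact (Nat.Prime 5) := ⟨by norm_num⟩

set_option maxRecDepth 100000 in

/-- An exceptional sharply doubly transitive group of degree 5^2: the listed matrices generate a subgroup of GL(2,5) of order 24 acting regularly on the non-zero vectors. -/
theorem result (A : Matrix.GeneralLinearGroup (Fin 2) (ZMod 5)) (B : Matrix.GeneralLinearGroup (Fin 2) (ZMod 5)) (C : Matrix.GeneralLinearGroup (Fin 2) (ZMod 5)) (hA : (A : Matrix (Fin 2) (Fin 2) (ZMod 5)) = !![2, 0; 0, -2]) (hB : (B : Matrix (Fin 2) (Fin 2) (ZMod 5)) = !![0, -1; 1, 0]) (hC : (C : Matrix (Fin 2) (Fin 2) (ZMod 5)) = !![1, 2; 1, -2]) : Nat.card (Subgroup.closure ({A, B, C} : Set (Matrix.GeneralLinearGroup (Fin 2) (ZMod 5)))) = 24 ∧ ∀ v w : Fin 2 → ZMod 5, v ≠ 0 → w ≠ 0 → ∃! h : Subgroup.closure ({A, B, C} : Set (Matrix.GeneralLinearGroup (Fin 2) (ZMod 5))), Matrix.mulVec ((h : Matrix.GeneralLinearGroup (Fin 2) (ZMod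 5)) : Matrix (Fin 2) (Fin 2) (ZMod 5)) v = w := by
  have eA : (A : Matrix (Fin 2) (Fin 2) (ZMod 5)) = CA.RegCert.R 5 (2, 0, 0, 3) := by
    rw [hA]; decide +kernel
  have eB : (B : Matrix (Fin 2) (Fin 2) (ZMod 5)) = CA.RegCert.R 5 (0, 4, 1, 0) := by
    rw [hB]; decide +kernel
  have eC : (C : Matrix (Fin 2) (Fin 2) (ZMod 5)) = CA.RegCert.R 5 (1, 2, 1, 3) := by
    rw [hC]; decide +kernel
  refine CA.RegCert.reg (p := 5) _ [(2, 0, 0, 3), (0, 4, 1, 0), (1, 2, 1, 3)] LL 1 1 (by norm_num) (by decide +kernel) ?_ ?_ ?_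
    (by decide +kernel) (by decide +kernel) (by decide +kernel) (by decide +kernel)
  · rintro s (rfl | rfl | rfl)
    · exact Or.inr ⟨_, by simp, eA⟩
    · exact Or.inr ⟨_, by simp, eB⟩
    · exact Or.inr ⟨_, by simp, eC⟩
  · simp only [List.mem_cons, List.not_mem_nil, or_false]
    rintro g (rfl | rfl | rfl)
    · exact ⟨A, by simp, eA⟩
    · exact ⟨B, by simp, eB⟩
    · exact ⟨C, by simp, eC⟩
  · exact ⟨1, Subgroup.one_mem _, by simp⟩

end Cfsg.Agent.S0691
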