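import Cfsg.Statements.S0693
import Mathlib
import Cfsg.Agent.Lib.Perm.RegCert

set_option autoImplicit false
open Cfsg

namespace Cfsg.Agent.S0693

def LL : List CA.RegCert.T := [(3, 7, 7, 56), (7, 56, 56, 52), (41, 14, 40, 18), (34, 17, 43, 25), (52, 3, 3, 7), (45, 41, 41, 40), (43, 25, 25, 42), (53, 21, 21, 5), (48, 40, 40, 10), (42, 34, 34, 43), (56, 52, 52, 3), (40, 18, 18, 45), (18, 45, 19, 41), (25, 42, 16, 34), (41, 40, 14, 18), (34, 43, 17, 25), (38, 53, 54, 21), (19, 48, 49, 40), (21, 5, 6, 38), (40, 10, 11, 19), (14, 18, 18, 19), (17, 25, 25, 16), (38, 30, 31, 54), (19, 41, 41, 14), (16, 34, 34, 17), (6, 38, 38, 54), (11, 19, 19, 49), (29, 38, 5, 31), (54, 21, 21, 6), (49, 40, 40, 11), (31, 54, 21, 29), (32, 25, 24, 28), (54, 29, 28, 38), (25, 28, 27, 35), (18, 19, 45, 41), (25, 16, 42, 34), (21, 6, 5, 38), (40, 11, 10, 19), (21, 29, 28, 5), (38, 54, 53, 21), (19, 49, 48, 40), (5, 31, 30, 21),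 (34, 32, 31, 24), (30, 54, 21, 28), (31, 25, 24, 27), (24, 28, 27, 34), (28, 38, 5, 30), (27, 35, 34, 31), (30, 21, 54, 28), (5, 38, 38, 53), (10, 19, 19, 48), (28, 5, 38, 30), (27, 34, 35, 31), (5, 30, 31, 21), (34, 31, 32, 24), (31, 24, 25, 27), (21, 28, 29, 5), (24, 27, 28, 34), (39, 14, 48, 46), (4, 36, 11, 55), (58, 55, 30, 1), (46, 11, 45, 39), (54, 28, 29, 38), (25, 27, 28, 35), (29, 5, 38, 31), (28, 34, 35, 32), (35, 31, 32, 25), (31, 21, 54, 29), (32, 24, 25, 28), (45, 39, 13, 48), (23, 4, 4, 11), (4, 58, 58, 30), (48, 46, 20, 45), (11, 55, 55, 23), (30, 1, 1, 4), (45, 13, 39, 48), (28, 35, 34, 32), (38, 31, 30, 54), (35, 32, 31, 25), (20, 45, 11, 13), (55, 23, 48, 4), (1, 4, 29, 58), (13, 48, 14, 20), (4, 11, 36, 55), (58, 30, 55, 1), (46, 45, 11, 39), (9, 49, 15, 49), (39, 48, 14, 46), (14, 20, 46, 11), (36, 55, 55, 48), (55, 1, 1, 29), (11, 13, 39, 14), (48, 4, 4, 36), (29, 58, 58, 55), (14,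 46, 20, 11), (10, 9, 10, 15), (11, 39, 13, 14), (15, 49, 50, 10), (49, 10, 44, 9), (55, 48, 23, 4), (1, 29, 4, 58), (13, 14, 48, 20), (50, 10, 44, 10), (20, 11, 45, 13), (10, 15, 49, 50), (49, 49, 50, 44), (44, 9, 10, 49), (49, 50, 49, 44), (48, 20, 46, 45), (44, 10, 9, 49), (10, 49, 15, 50), (50, 44, 10, 10), (0, 1, 58, 0), (49, 44, 10, 9), (10, 10, 9, 15), (15, 50, 49, 10), (58, 0, 0, 58), (9, 15, 49, 49), (0, 58, 1, 0), (1, 0, 0, 1)]

instance : Fact (Nat.Prime 59) := ⟨by norm_num⟩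

set_option maxRecDepth 100000 in

/-- An exceptional sharply doubly transitive group of degree 59^2: the listed matrices generate a subgroup of GL(2,59) of order 3480 acting regularly on the non-zero vectors. -/
theorem result (A : Matrix.GeneralLinearGroup (Fin 2) (ZMod 59)) (B : Matrix.GeneralLinearGroup (Fin 2) (ZMod 59)) (C : Matrix.GeneralLinearGroup (Fin 2) (ZMod 59)) (hA : (A : Matrix (Fin 2) (Fin 2) (ZMod 59)) = !![0, -1; 1, 0]) (hB : (B : Matrix (Fin 2) (Fin 2) (ZMod 59)) = !![9, 15; -10, -10]) (hC : (C : Matrix (Fin 2) (Fin 2) (ZMod 59)) = !![4, 0; 0, 4]) : Nat.card (Subgroup.closure ({A, B, C} : Set (Matrix.GeneralLinearGroup (Fin 2) (ZMod 59)))) = 3480 ∧ ∀ v w : Fin 2 → ZMod 59, v ≠ 0 → w ≠ 0 → ∃! h : Subgroup.closure ({A, B, C} : Set (Matrix.GeneralLinearGroup (Fin 2) (ZMod 59))), Matrix.mulVec ((h : Matrix.GeneralLinearGroup (Fin 2) (ZMod 59)) : Matrix (Fin 2) (Fin 2) (ZMod 59)) v = w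 := by
  have eA : (A : Matrix (Fin 2) (Fin 2) (ZMod 59)) = CA.RegCert.R 59 (0, 58, 1, 0) := by
    rw [hA]; decide +kernel
  have eB : (B : Matrix (Fin 2) (Fin 2) (ZMod 59)) = CA.RegCert.R 59 (9, 15, 49, 49) := by
    rw [hB]; decide +kernel
  have eC : (C : Matrix (Fin 2) (Fin 2) (ZMod 59)) = ((4 : ℕ) : ZMod 59) • (1 : Matrix (Fin 2) (Fin 2) (ZMod 59)) := by
    rw [hC]; decide +kernel
  refine CA.RegCert.reg (p := 59) _ [(0, 58, 1, 0), (9, 15, 49, 49)] LL 4 29 (by norm_num) (by decide +kernel) ?_ ?_ ?_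
    (by decide +kernel) (by decide +kernel) (by decide +kernel) (by decide +kernel)
  · rintro s (rfl | rfl | rfl)
    · exact Or.inr ⟨_, by simp, eA⟩
    · exact Or.inr ⟨_, by simp, eB⟩
    · exact Or.inl eC
  · simp only [List.mem_cons, List.not_mem_nil, or_false]
    rintro g (rfl | rfl)
    · exact ⟨A, by simp, eA⟩
    · exact ⟨B, by simp, eB⟩
  · exact ⟨C, Subgroup.subset_closure (by simp), eC⟩

end Cfsg.Agent.S0693
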