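import Cfsg.Statements.S0694
import Mathlib

set_option autoImplicit false
open Cfsg

namespace Cfsg.Agent.S0694

theorem aux_mul (q : ℕ) (hq : 2 ≤ q) (i : ℕ) :
    (∑ j ∈ Finset.range i, q ^ j) * (q - 1) = q ^ i - 1 := by
  have h := geom_sum_mul (q : ℤ) i
  have h1 : 1 ≤ q ^ i := Nat.one_le_pow _ _ (by omega)
  zify [h1, (by omega : 1 ≤ q)]
  exact h

theorem aux_dvd (q n : ℕ) (hq : 2 ≤ q) (i : ℕ) :
    q ^ i ≡ 1 [MOD n * (q - 1)] ↔ n ∣ ∑ j ∈ Finset.range i, q ^ j := by
  rw [Nat.ModEq.comm, Nat.modEq_iff_dvd' (Nat.one_le_pow _ _ (by omega)), ← aux_mul q hq,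
    Nat.mul_dvd_mul_iff_right (by omega)]

theorem aux_pos (q : ℕ) (hq : 2 ≤ q) {i : ℕ} (hi : i ≠ 0) : ∑ j ∈ Finset.range i, q ^ j ≠ 0 := by
  intro h
  have := aux_mul q hq i
  have h1 := Nat.one_lt_pow hi (by omega : 1 < q)
  rw [h] at this
  omega

theorem aux_two (q : ℕ) (hq : q % 2 = 1) (i : ℕ) :
    (∑ j ∈ Finset.range i, q ^ j) % 2 = i % 2 := by
  induction i with
  | zero => simp
  | succ i ih =>
    have : q ^ i % 2 = 1 := by rw [Nat.pow_mod, hq]; simp
    rw [Finset.sum_range_succ]; omega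

theorem aux_val (q r : ℕ) (hq : 2 ≤ q) (hr : r.Prime) (hrq : r ∣ q - 1) (h4 : r = 2 → 4 ∣ q - 1)
    {i : ℕ} (hi : i ≠ 0) : padicValNat r (∑ j ∈ Finset.range i, q ^ j) = padicValNat r i := by
  have := Fact.mk hr
  have hnd : ¬ r ∣ q := fun h => hr.one_lt.ne' (Nat.dvd_one.1 (by
    have := Nat.dvd_sub h hrq
    rwa [show q - (q - 1) = 1 by omega] at this))
  have h1 : padicValNat r (q ^ i - 1) =
      padicValNat r (∑ j ∈ Finset.range i, q ^ j) + padicValNat r (q - 1) := by
    rw [← aux_mul q hq, padicValNat.mul (aux_pos q hq hi) (by omega)]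
  rcases hr.eq_two_or_odd' with rfl | hodd
  · rcases Nat.even_or_odd i with hev | hodd
    · have h2 := padicValNat.pow_two_sub_one (by omega : 1 < q) hnd hi hev
      have h3 : padicValNat 2 (q + 1) = 1 := by
        have h5 := h4 rfl
        apply le_antisymm
        · by_contra h
          have := (padicValNat_dvd_iff_le (p := 2) (n := 2) (a := q + 1) (by omega)).2 (by omega)
          omega
        · exact (padicValNat_dvd_iff_le (p := 2) (n := 1) (a := q + 1) (by omega)).1 (by omega)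
      omega
    · have h2 := aux_two q (by omega) i
      rw [Nat.odd_iff] at hodd
      rw [padicValNat.eq_zero_of_not_dvd (by omega), padicValNat.eq_zero_of_not_dvd (by omega)]
  · have h2 := padicValNat.pow_sub_pow hodd (by omega : 1 < q) hrq hnd hi
    rw [one_pow] at h2
    omega

/-- The Dickson pair condition: for a prime power `q` and `n > 1`, (every prime factor of `n` divides `q - 1`, and `4 ∣ n → 4 ∣ q - 1`) holds exactly when `q ^ n ≡ 1` modulo `n * (q - 1)` but `q ^ i` is not, for `0 < i < n`. -/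
theorem result (q n : ℕ) (hq : IsPrimePow q) (hn : 1 < n) : ((∀ r : ℕ, r.Prime → r ∣ n → r ∣ q - 1) ∧ (4 ∣ n → 4 ∣ q - 1)) ↔ (q ^ n ≡ 1 [MOD n * (q - 1)] ∧ ∀ i : ℕ, 0 < i → i < n → ¬ q ^ i ≡ 1 [MOD n * (q - 1)]) := by
  have hq2 : 2 ≤ q := hq.two_le
  simp only [aux_dvd q n hq2]
  constructor
  · rintro ⟨h1, h2⟩
    have key : ∀ i, i ≠ 0 → (n ∣ ∑ j ∈ Finset.range i, q ^ j ↔ n ∣ i) := by
      intro i hi
      rw [Nat.dvd_iff_prime_pow_dvd_dvd, Nat.dvd_iff_prime_pow_dvd_dvd]
      refine forall_congr' fun r => forall_congr' fun k => forall_congr' fun hr =>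
        forall_congr' fun hk => ?_
      have := Fact.mk hr
      rcases Nat.eq_zero_or_pos k with rfl | hk0
      · simp
      have hrq := h1 r hr ((dvd_pow_self r hk0.ne').trans hk)
      by_cases h4 : r = 2 → 4 ∣ q - 1
      · rw [padicValNat_dvd_iff_le (aux_pos q hq2 hi), padicValNat_dvd_iff_le hi,
          aux_val q r hq2 hr hrq h4 hi]
      · push Not at h4
        obtain ⟨rfl, h4⟩ := h4
        have hk1 : k = 1 := by
          by_contra h
          exact h4 (h2 ((pow_dvd_pow 2 (by omega : 2 ≤ k)).trans hk))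
        subst hk1
        have := aux_two q (by omega) i
        omega
    exact ⟨(key n (by omega)).2 dvd_rfl, fun i hi hin h =>
      absurd (Nat.le_of_dvd hi ((key i hi.ne').1 h)) (by omega)⟩
  · rintro ⟨h1, h2⟩
    have : NeZero n := ⟨by omega⟩
    have hqn : (q : ZMod n) ^ n = 1 := by
      have h3 := ((aux_dvd q n hq2 n).2 h1).of_mul_right
      simpa using (ZMod.natCast_eq_natCast_iff _ _ _).2 h3
    have hu : IsUnit (q : ZMod n) := IsUnit.of_pow_eq_one hqn (by omega)
    have hinj : Function.Injective (fun i : Fin n => ((∑ j ∈ Finset.range i, q ^ j : ℕ) : ZMod n)) := by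
      have : ∀ i k : ℕ, i + k < n → ((∑ j ∈ Finset.range i, q ^ j : ℕ) : ZMod n) =
          ((∑ j ∈ Finset.range (i + k), q ^ j : ℕ) : ZMod n) → k = 0 := by
        intro i k hik e
        by_contra hk
        apply h2 k (by omega) (by omega)
        rw [Finset.sum_range_add, Nat.cast_add, left_eq_add] at e
        simp only [pow_add, ← Finset.mul_sum, Nat.cast_mul, Nat.cast_pow] at e
        rw [(hu.pow i).mul_right_eq_zero] at e
        exact (ZMod.natCast_eq_zero_iff _ _).1 e
      intro i k e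
      rcases le_total i.1 k.1 with h | h
      · obtain ⟨d, hd⟩ := Nat.exists_eq_add_of_le h
        have := this i d (hd ▸ k.2) (by rw [← hd]; exact e)
        exact Fin.ext (by omega)
      · obtain ⟨d, hd⟩ := Nat.exists_eq_add_of_le h
        have := this k d (hd ▸ i.2) (by rw [← hd]; exact e.symm)
        exact Fin.ext (by omega)
    have hsurj := ((Fintype.bijective_iff_injective_and_card _).2 ⟨hinj, by simp⟩).2
    have hs : ∀ m, m ∣ n → ∀ c : ZMod m, ∃ i, ∑ j ∈ Finset.range i, (q : ZMod m) ^ j = c := by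
      intro m hm c
      obtain ⟨d, rfl⟩ := ZMod.castHom_surjective hm c
      obtain ⟨i, rfl⟩ := hsurj d
      exact ⟨i, by rw [map_natCast]; push_cast; rfl⟩
    have h3 : ∀ r : ℕ, r.Prime → r ∣ n → r ∣ q - 1 := by
      intro r hr hrn
      have := Fact.mk hr
      by_contra hnd
      rw [← ZMod.natCast_eq_zero_iff, Nat.cast_sub (by omega), Nat.cast_one] at hnd
      obtain ⟨i, hi⟩ := hs r hrn (-((q : ZMod r) - 1)⁻¹)
      have h4 := geom_sum_mul (q : ZMod r) i
      rw [hi, neg_mul, inv_mul_cancel₀ hnd, eq_sub_iff_add_eq, neg_add_cancel] at h4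
      have h5 := congrArg (ZMod.castHom hrn (ZMod r)) hqn
      rw [map_pow, map_natCast, map_one, eq_zero_of_pow_eq_zero h4.symm, zero_pow (by omega)] at h5
      exact zero_ne_one h5
    refine ⟨h3, fun h4 => ?_⟩
    by_contra hnd
    have h5 := h3 2 Nat.prime_two (Dvd.dvd.trans (by norm_num) h4)
    have h6 : (q : ZMod 4) = 3 := (ZMod.natCast_eq_natCast_iff' q 3 4).2 (by omega)
    obtain ⟨i, hi⟩ := hs 4 h4 2
    have h7 : ∀ i, ∑ j ∈ Finset.range i, (q : ZMod 4) ^ j = 0 ∨
        ∑ j ∈ Finset.range i, (q : ZMod 4) ^ j = 1 := by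
      intro i
      induction i with
      | zero => simp
      | succ i ih =>
        rw [geom_sum_succ]
        rcases ih with e | e <;> rw [e, h6] <;> decide
    rcases h7 i with e | e <;> rw [hi] at e <;> exact absurd e (by decide)

end Cfsg.Agent.S0694
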