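import Cfsg.Statements.S0698
import Mathlib
import Cfsg.Agent.Lib.Perm.PermNormal
import Cfsg.Agent.S0697

set_option autoImplicit false
open Cfsg

namespace Cfsg.Agent.S0698

open MulAction CA.PermBasic CA.PermMulti CA.PermNormal

/-- Jordan's Theorem on normal subgroups of multiply transitive groups: if `G` is `k`-transitive (`k > 1`) of degree greater than `k`, a non-trivial normal subgroup is `(k-1)`-transitive, except possibly for `k = 3` when it may be an elementary abelian 2-group. -/
theorem result {α : Type*} [Fintype α] [DecidableEq α] (G : Subgroup (Equiv.Perm α)) {k : ℕ} (hk : 1 < k) (hdeg : k < Fintype.card α) (hG : MulAction.IsMultiplyPretransitive G α k) (N : Subgroup G) [N.Normal] (hN : N ≠ ⊥) : MulAction.IsMultiplyPretransitive N α (k - 1) ∨ (k = 3 ∧ IsMulCommutative N ∧ ∀ n ∈ N, n ^ 2 = 1) := by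
  have hdeg' : k < Nat.card α := by rwa [Nat.card_eq_fintype_card]
  have hle : ∀ j, j + 1 ≤ k → IsMultiplyPreprimitive G α j := fun j hj => by
    have := mpt_of_le hG hj hdeg'.le
    exact isMultiplyPreprimitive_of_isMultiplyPretransitive_succ G α (by
      rw [ENat.card_eq_coe_natCard]; exact_mod_cast (by omega))
  have hprim := (is_one_preprimitive_iff G α).1 (hle 1 hk)
  have hNt : IsPretransitive N α := normal_pretransitive N hN
  rcases (by omega : k = 2 ∨ 3 ≤ k) with rfl | hk3
  · exact Or.inl (is_one_pretransitive_iff.2 hNt)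
  by_cases hreg : ∀ a : α, stabilizer N a = ⊥
  · right
    rcases hk3.eq_or_lt with rfl | hk4
    · rcases Cfsg.Agent.S0695.result (by omega) (hle 2 le_rfl) N hNt hreg with h | h
      · omega
      · exact ⟨rfl, h.1, h.2.1⟩
    · have := Cfsg.Agent.S0696.result (by omega) (hle 3 hk4) N hNt hreg
      omega
  left
  push Not at hreg
  by_cases htop : G = ⊤
  swap
  · exact Cfsg.Agent.S0697.result G (by omega) (by omega) (hle _ (by omega)) htop N hN hreg
  rcases hk3.eq_or_lt with rfl | hk4
  · obtain ⟨a, ha⟩ := hreg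
    refine (mpt_succ_iff_subgroupOf N hNt a).2 (is_one_pretransitive_iff.2 ?_)
    have := faithful_stab (G := G) a
    have h2 := hle 2 le_rfl
    have := (is_one_preprimitive_iff _ _).1 (isMultiplyPreprimitive_ofStabilizer G α (a := a) (n := 1))
    apply normal_pretransitive
    intro e
    apply ha
    rw [subgroup_stabilizer_eq_bot_iff]
    intro h hh ha
    have : (⟨h, ha⟩ : stabilizer G a) ∈ N.subgroupOf (stabilizer G a) := hh
    rw [e, Subgroup.mem_bot] at this
    exact congrArg Subtype.val this
  subst htop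
  have : (N.map (⊤ : Subgroup (Equiv.Perm α)).subtype).Normal :=
    Subgroup.Normal.map inferInstance _ (fun x => ⟨⟨x, trivial⟩, rfl⟩)
  have hA := Equiv.Perm.alternatingGroup_le_of_normal (N := N.map (⊤ : Subgroup (Equiv.Perm α)).subtype)
    (by omega) ((Subgroup.nontrivial_iff_ne_bot _).2 (by
      rwa [Ne, Subgroup.map_eq_bot_iff_of_injective _ (Subgroup.subtype_injective _)]))
  have h1 := mpt_of_le (m := k - 1) (mpt_mono hA (alternatingGroup.isMultiplyPretransitive α))
    (by omega) (by omega)
  rw [mpt_iff_fun] at h1 ⊢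
  intro f f' hf hf'
  obtain ⟨⟨_, g, hg, rfl⟩, h⟩ := h1 f f' hf hf'
  exact ⟨⟨g, hg⟩, h⟩

end Cfsg.Agent.S0698
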