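import Cfsg.Statements.S0705
import Mathlib
import Cfsg.Agent.Lib.Perm.PermMulti

set_option autoImplicit false
open scoped Pointwise
open Cfsg

namespace Cfsg.Agent.S0705

open MulAction CA.PermBasic CA.PermMulti

/-- A generously `k`-transitive permutation group (every `(k+1)`-subset has its full symmetric group induced by the setwise stabiliser) of degree greater than `k` is `k`-transitive, and for a `k`-subset the setwise and pointwise stabilisers have the same orbits outside it. -/
theorem result {α : Type*} [Fintype α] [DecidableEq α] (G : Subgroup (Equiv.Perm α)) {k : ℕ} (hk : k < Fintype.card α) (hgen : ∀ s : Finset α, s.card = k + 1 → ∀ σ : Equiv.Perm ↥s, ∃ g ∈ G, ∀ x : ↥s, g (x : α) = σ x) : MulAction.IsMultiplyPretransitive G α k ∧ ∀ s : Finset α, s.card = k → ∀ a b : α, a ∉ s → b ∉ s → (∃ g ∈ G, g • s = s ∧ g a = b) → ∃ g ∈ G, (∀ x ∈ s, g x = x) ∧ g a = b := by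
  -- two points outside a `k`-set... first: any injective tuple can be moved inside a `(k+1)`-set
  have hstep : ∀ s : Finset α, s.card = k + 1 → ∀ f : α → α, Set.InjOn f s → Set.MapsTo f s s →
      ∃ g ∈ G, ∀ x ∈ s, g x = f x := by
    intro s hs f hf hm
    let σ : Equiv.Perm s := Equiv.ofBijective (fun x => ⟨f x, hm x.2⟩)
      (Finite.injective_iff_bijective.1 (fun x y e => Subtype.ext (hf x.2 y.2
        (congrArg Subtype.val e))))
    obtain ⟨g, hg, h⟩ := hgen s hs σ
    exact ⟨g, hg, fun x hx => h ⟨x, hx⟩⟩
  refine ⟨?_, ?_⟩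
  · apply mpt_of_perm
    intro s hs σ
    induction σ using Equiv.Perm.swap_induction_on with
    | one => exact ⟨1, fun x _ => rfl⟩
    | swap_mul σ x y hxy ih =>
      obtain ⟨g, hg⟩ := ih
      have hc : (s.image σ).card = k := by rw [Finset.card_image_of_injective _ σ.injective, hs]
      by_cases hb : x ∉ s.image σ ∧ y ∉ s.image σ
      · refine ⟨g, fun z hz => ?_⟩
        rw [hg z hz, Equiv.Perm.mul_apply, Equiv.swap_apply_of_ne_of_ne]
        · rintro e; exact hb.1 (e ▸ Finset.mem_image_of_mem σ hz)
        · rintro e; exact hb.2 (e ▸ Finset.mem_image_of_mem σ hz)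
      have hle : (insert x (insert y (s.image σ))).card ≤ k + 1 := by
        rw [not_and_or, not_not, not_not] at hb
        rcases hb with hb | hb
        · rw [Finset.insert_comm, Finset.insert_eq_of_mem hb]
          exact (Finset.card_insert_le _ _).trans (by omega)
        · rw [Finset.insert_eq_of_mem hb]
          exact (Finset.card_insert_le _ _).trans (by omega)
      obtain ⟨t, ht1, -, ht2⟩ := Finset.exists_subsuperset_card_eq (Finset.subset_univ _) hle
        (by rw [Finset.card_univ]; omega)
      obtain ⟨h, hh, e⟩ := hstep t ht2 (Equiv.swap x y) (Equiv.injective _).injOn (by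
        intro z hz
        rw [Equiv.swap_apply_def]
        split_ifs
        · exact ht1 (by simp)
        · exact ht1 (by simp)
        · exact hz)
      refine ⟨⟨h, hh⟩ * g, fun z hz => ?_⟩
      rw [mul_smul, hg z hz, Equiv.Perm.mul_apply]
      exact e _ (ht1 (by simp [hz]))
  · rintro s hs a b ha hb ⟨g, hg, hgs, hgab⟩
    have hmem : ∀ x, x ∈ s ↔ g x ∈ s := by
      intro x
      conv_rhs => rw [← hgs]
      exact (Finset.smul_mem_smul_finset_iff g).symm
    obtain ⟨h, hh, e⟩ := hstep (insert a s) (by rw [Finset.card_insert_of_notMem ha, hs])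
      (fun x => if x = a then a else g x) (by
        intro x hx y hy e
        simp only [Finset.coe_insert, Set.mem_insert_iff, Finset.mem_coe] at hx hy
        simp only at e
        split_ifs at e with h1 h2 h2
        · rw [h1, h2]
        · exact absurd (e ▸ (hmem y).1 (hy.resolve_left h2)) ha
        · exact absurd (e ▸ (hmem x).1 (hx.resolve_left h1)) ha
        · exact g.injective e) (by
        intro x hx
        simp only [Finset.coe_insert, Set.mem_insert_iff, Finset.mem_coe] at hx ⊢
        split_ifs with h1
        · exact Or.inl rfl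
        · exact Or.inr ((hmem x).1 (hx.resolve_left h1)))
    have e1 : h a = a := by simpa using e a (by simp)
    refine ⟨g * h⁻¹, G.mul_mem hg (G.inv_mem hh), fun x hx => ?_, ?_⟩
    · obtain ⟨y, rfl⟩ := g.surjective x
      have hy := (hmem y).2 hx
      have : h y = g y := by
        rw [e y (by simp [hy]), if_neg (fun e : y = a => ha (e ▸ hy))]
      rw [Equiv.Perm.mul_apply]
      congr 1
      rw [Equiv.Perm.inv_eq_iff_eq, this]
    · rw [Equiv.Perm.mul_apply, ← hgab]
      congr 1
      rw [Equiv.Perm.inv_eq_iff_eq, e1]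

end Cfsg.Agent.S0705
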