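import Cfsg.Statements.S0706
import Mathlib
import Cfsg.Agent.Lib.Perm.PermMulti
import Cfsg.Agent.S0705

set_option autoImplicit false
open Cfsg

namespace Cfsg.Agent.S0706

open MulAction CA.PermBasic CA.PermMulti Pointwise

/-- In a generously `k`-transitive permutation group, for a prime `p ≤ k` and a `k`-set `Γ`, there are no `p` points outside `Γ` lying in distinct orbits of the pointwise stabiliser of `Γ` all of length prime to `p` (at most `p - 1` such orbits). -/
theorem result {α : Type*} [Fintype α] [DecidableEq α] (G : Subgroup (Equiv.Perm α)) {k : ℕ} (hk : k < Fintype.card α) (hgen : ∀ s : Finset α, s.card = k + 1 → ∀ σ : Equiv.Perm ↥s, ∃ g ∈ G, ∀ x : ↥s, g (x : α) = σ x) {p : ℕ} (hp : p.Prime) (hpk : p ≤ k) (Γ : Finset α) (hΓ : Γ.card = k) (f : Fin p → α) (hf : ∀ i, f i ∉ Γ) (hdist : ∀ i j, i ≠ j → f j ∉ MulAction.orbit (fixingSubgroup G (Γ : Set α)) (f i)) : ∃ i, p ∣ Nat.card (MulAction.orbit (fixingSubgroup G (Γ : Set α)) (f i)) := by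
  classical
  have := Fact.mk hp
  by_contra hcon
  push Not at hcon
  obtain ⟨hk1, hk2⟩ := Cfsg.Agent.S0705.result G hk hgen
  obtain ⟨T, hTΓ, hT⟩ := Finset.exists_subset_card_eq (s := Γ) (n := p) (by omega)
  -- a `p`-cycle on `T`
  obtain ⟨σ, hσ⟩ : ∃ σ : Equiv.Perm α, σ.IsCycle ∧ σ.support = T := by
    refine ⟨T.toList.formPerm, List.isCycle_formPerm T.nodup_toList (by
      rw [Finset.length_toList, hT]; exact hp.two_le), ?_⟩
    rw [List.support_formPerm_of_nodup _ T.nodup_toList, Finset.toList_toFinset]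
    intro x hx
    have := congrArg List.length hx
    rw [Finset.length_toList, hT] at this
    exact hp.one_lt.ne' this
  have hσo : orderOf σ = p := by rw [hσ.1.orderOf, hσ.2, hT]
  set H := fixingSubgroup G (Γ : Set α) with hH
  -- the subgroup `L` of elements acting on `Γ` as a power of `σ`
  let L : Subgroup G :=
    { carrier := {g | ∃ i : ℤ, ∀ x ∈ Γ, g • x = (σ ^ i) x}
      one_mem' := ⟨0, fun x _ => by simp⟩
      mul_mem' := by
        rintro g h ⟨i, hi⟩ ⟨j, hj⟩
        refine ⟨i + j, fun x hx => ?_⟩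
        rw [mul_smul, hj x hx, hi, zpow_add, Equiv.Perm.mul_apply]
        by_cases hx' : x ∈ T
        · apply hTΓ; rw [← hσ.2] at hx' ⊢; exact Equiv.Perm.zpow_apply_mem_support.2 hx'
        · rw [← hσ.2, Equiv.Perm.notMem_support] at hx'
          rwa [Equiv.Perm.zpow_apply_eq_self_of_apply_eq_self hx']
      inv_mem' := by
        rintro g ⟨i, hi⟩
        refine ⟨-i, fun x hx => ?_⟩
        rw [inv_smul_eq_iff, hi, ← Equiv.Perm.mul_apply, ← zpow_add]
        · simp
        by_cases hx' : x ∈ T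
        · apply hTΓ; rw [← hσ.2] at hx' ⊢; exact Equiv.Perm.zpow_apply_mem_support.2 hx'
        · rw [← hσ.2, Equiv.Perm.notMem_support] at hx'
          rwa [Equiv.Perm.zpow_apply_eq_self_of_apply_eq_self hx'] }
  have hσΓ : ∀ i : ℤ, ∀ x ∈ Γ, (σ ^ i) x ∈ Γ := by
    intro i x hx
    by_cases hx' : x ∈ T
    · apply hTΓ; rw [← hσ.2] at hx' ⊢; exact Equiv.Perm.zpow_apply_mem_support.2 hx'
    · rw [← hσ.2, Equiv.Perm.notMem_support] at hx'
      rwa [Equiv.Perm.zpow_apply_eq_self_of_apply_eq_self hx']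
  have hHL : H ≤ L := fun g hg => ⟨0, fun x hx => by
    simpa using (mem_fixingSubgroup_iff G).1 hg x hx⟩
  obtain ⟨t, ht⟩ : T.Nonempty := Finset.card_pos.1 (by rw [hT]; exact hp.pos)
  -- the `L`-orbit of `t` is `T`
  have horb : orbit L t = (T : Set α) := by
    ext y
    constructor
    · rintro ⟨⟨g, i, hi⟩, rfl⟩
      show g • t ∈ T
      rw [hi t (hTΓ ht), ← hσ.2, Equiv.Perm.zpow_apply_mem_support, hσ.2]; exact ht
    · intro hy
      obtain ⟨i, hi⟩ := hσ.1.exists_zpow_eq (x := t) (y := y)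
        (by rw [← Equiv.Perm.mem_support, hσ.2]; exact ht)
        (by rw [← Equiv.Perm.mem_support, hσ.2]; exact hy)
      obtain ⟨g, hg⟩ := mpt_exists_injOn hk1 Γ hΓ (σ ^ i : Equiv.Perm α) (Equiv.injective _).injOn
      exact ⟨⟨g, i, hg⟩, by show g • t = y; rw [hg t (hTΓ ht), hi]⟩
  obtain ⟨Q, hQ⟩ := exists_isSylowIn p L
  have hQt : p ^ 1 ∣ Nat.card (orbit Q t) := pow_dvd_card_orbit hQ t (by
    rw [horb, pow_one, Nat.card_coe_set_eq, Set.ncard_coe_finset, hT])
  -- `Q` fixes a point in each of the orbits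
  have hfix : ∀ i, ∃ x ∈ orbit H (f i), ∀ g ∈ Q, g • x = x := by
    intro i
    apply exists_fixed_of_not_dvd Q hQ.isPGroup _ _ (hcon i)
    rintro g hg _ ⟨h, rfl⟩
    obtain ⟨j, hj⟩ := hQ.1 hg
    have hgΓ : ∀ x, x ∈ Γ → g • x ∈ Γ := fun x hx => by rw [hj x hx]; exact hσΓ j x hx
    have hgs : (g : Equiv.Perm α) • Γ = Γ := by
      apply Finset.eq_of_subset_of_card_le _ (by rw [Finset.card_smul_finset])
      intro y hy
      obtain ⟨x, hx, rfl⟩ := Finset.mem_smul_finset.1 hy
      exact hgΓ x hx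
    have hhs : ((h : G) : Equiv.Perm α) • Γ = Γ := by
      apply Finset.eq_of_subset_of_card_le _ (by rw [Finset.card_smul_finset])
      intro y hy
      obtain ⟨x, hx, rfl⟩ := Finset.mem_smul_finset.1 hy
      have : ((h : G) : Equiv.Perm α) • x = x := (mem_fixingSubgroup_iff G).1 h.2 x hx
      rwa [this]
    have hs : ((g * h : G) : Equiv.Perm α) • Γ = Γ := by
      rw [Subgroup.coe_mul, mul_smul, hhs, hgs]
    obtain ⟨u, hu, hu1, hu2⟩ := hk2 Γ hΓ (f i) ((g * h : G) • f i) (hf i) (by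
      rw [← hs]
      exact fun e => hf i ((Finset.smul_mem_smul_finset_iff _).1 e)) ⟨_, (g * h : G).2, hs, rfl⟩
    exact ⟨⟨⟨u, hu⟩, (mem_fixingSubgroup_iff G).2 hu1⟩, hu2⟩
  choose x hx1 hx2 using hfix
  have hxΓ : ∀ i, x i ∉ Γ := by
    intro i hi
    obtain ⟨h, hh⟩ := hx1 i
    have h1 : (h⁻¹ : H) • x i = x i := (mem_fixingSubgroup_iff G).1 (h⁻¹).2 _ hi
    rw [inv_smul_eq_iff, ← hh] at h1
    simp only [smul_left_cancel_iff] at h1
    apply hf i
    rw [h1]; simp only at hh; rwa [hh]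
  have hxinj : Function.Injective x := by
    intro i j e
    by_contra hij
    apply hdist i j hij
    have h1 := hx1 j
    rw [← e] at h1
    rw [← orbit_eq_iff.2 (hx1 i), orbit_eq_iff.2 h1]
    exact mem_orbit_self _
  let Δ : Finset α := (Γ \ T) ∪ Finset.univ.image x
  have hΔ : Δ.card = k := by
    rw [Finset.card_union_of_disjoint, Finset.card_sdiff_of_subset hTΓ,
      Finset.card_image_of_injective _ hxinj, Finset.card_univ, Fintype.card_fin]
    · omega
    · rw [Finset.disjoint_right]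
      intro y hy hy'
      obtain ⟨i, -, rfl⟩ := Finset.mem_image.1 hy
      exact hxΓ i (Finset.mem_sdiff.1 hy').1
  have hQΔ : Q ≤ fixingSubgroup G (Δ : Set α) := by
    intro g hg
    rw [mem_fixingSubgroup_iff]
    intro y hy
    rcases Finset.mem_union.1 hy with hy | hy
    · obtain ⟨j, hj⟩ := hQ.1 hg
      rw [Finset.mem_sdiff, ← hσ.2, Equiv.Perm.notMem_support] at hy
      rw [hj y hy.1, Equiv.Perm.zpow_apply_eq_self_of_apply_eq_self hy.2]
    · obtain ⟨i, -, rfl⟩ := Finset.mem_image.1 hy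
      exact hx2 i g hg
  have h1 : Nat.card Q ∣ Nat.card H := by
    rw [hH, card_fixing_eq hk1 Γ Δ hΓ hΔ]
    exact Subgroup.card_dvd_of_le hQΔ
  -- but `|L| = p * |stabilizer|` with `H` inside the stabilizer
  have h2 := card_orbit_mul_card_stabilizer (G := L) t
  rw [horb, Nat.card_coe_set_eq, Set.ncard_coe_finset, hT] at h2
  have h3 : Nat.card H ∣ Nat.card (stabilizer L t) := by
    rw [← Subgroup.card_subtype L (stabilizer L t)]
    apply Subgroup.card_dvd_of_le
    intro g hg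
    exact ⟨⟨g, hHL hg⟩, (mem_fixingSubgroup_iff G).1 hg t (hTΓ ht), rfl⟩
  have h4 : p * Nat.card Q ∣ Nat.card L := by
    rw [← h2]; exact Nat.mul_dvd_mul_left p (h1.trans h3)
  rw [hQ.2, ← pow_succ'] at h4
  exact Nat.pow_succ_factorization_not_dvd Nat.card_pos.ne' hp h4

end Cfsg.Agent.S0706
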