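import Cfsg.Statements.S0699
import Mathlib
import Cfsg.Agent.Lib.Perm.PermNormal
import Cfsg.Agent.S0698
import Cfsg.Agent.S0706

set_option autoImplicit false
open Cfsg

namespace Cfsg.Agent.S0699

open MulAction CA.PermBasic CA.PermMulti CA.PermNormal

/-- Wagner's Theorem: a non-trivial normal subgroup of a triply transitive permutation group of odd degree at least 5 is triply transitive. -/
theorem result {α : Type*} [Fintype α] [DecidableEq α] (G : Subgroup (Equiv.Perm α)) (hodd : Odd (Fintype.card α)) (h5 : 5 ≤ Fintype.card α) (hG : MulAction.IsMultiplyPretransitive G α 3) (N : Subgroup G) [N.Normal] (hN : N ≠ ⊥) : MulAction.IsMultiplyPretransitive N α 3 := by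
  classical
  have := Fact.mk Nat.prime_two
  have hN2 : IsMultiplyPretransitive N α 2 := by
    rcases Cfsg.Agent.S0698.result G (by norm_num) (by omega) hG N hN with h | ⟨-, hc, hsq⟩
    · exact h
    exfalso
    have := isPreprimitive_of_is_two_pretransitive (mpt_of_le (m := 2) hG (by norm_num)
      (by rw [Nat.card_eq_fintype_card]; omega))
    have ht : IsPretransitive N α := normal_pretransitive N hN
    obtain ⟨a⟩ : Nonempty α := Fintype.card_pos_iff.1 (by omega)
    have hP : IsPGroup 2 N := fun n => ⟨1, Subtype.ext (by simpa using hsq n n.2)⟩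
    obtain ⟨m, hm⟩ := IsPGroup.iff_card.1 hP
    rw [card_eq_of_regular a (regular_of_comm N ht hc a), Nat.card_eq_fintype_card] at hm
    rcases Nat.eq_zero_or_pos m with rfl | h
    · omega
    · rw [hm] at hodd
      exact (Nat.not_odd_iff_even.2 ((Nat.even_pow' h.ne').2 even_two)) hodd
  -- orbits of `N_{ab}`
  let O : α → α → α → Set α := fun a b c => {y | ∃ n ∈ N, n • a = a ∧ n • b = b ∧ n • c = y}
  have hOconj : ∀ (g : G) a b c, O (g • a) (g • b) (g • c) = (fun y => g • y) '' O a b c := by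
    intro g a b c
    ext y
    constructor
    · rintro ⟨n, hn, h1, h2, rfl⟩
      refine ⟨_, ⟨g⁻¹ * n * g, by simpa using Subgroup.Normal.conj_mem inferInstance n hn g⁻¹,
        ?_, ?_, rfl⟩, by simp [mul_smul]⟩
      · rw [mul_smul, mul_smul, h1, inv_smul_smul]
      · rw [mul_smul, mul_smul, h2, inv_smul_smul]
    · rintro ⟨_, ⟨n, hn, h1, h2, rfl⟩, rfl⟩
      exact ⟨g * n * g⁻¹, Subgroup.Normal.conj_mem inferInstance n hn g, by simp [mul_smul, h1],
        by simp [mul_smul, h2], by simp [mul_smul]⟩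
  have hOcard : ∀ a b c a' b' c', a ≠ b → a ≠ c → b ≠ c → a' ≠ b' → a' ≠ c' → b' ≠ c' →
      (O a' b' c').ncard = (O a b c).ncard := by
    intro a b c a' b' c' h1 h2 h3 h4 h5 h6
    obtain ⟨g, rfl, rfl, rfl⟩ := three_iff.1 hG a b c a' b' c' h1 h2 h3 h4 h5 h6
    rw [hOconj, Set.ncard_image_of_injective _ (MulAction.injective g)]
  -- these orbits have odd length
  have hOodd : ∀ a b c, a ≠ b → a ≠ c → b ≠ c → ¬ 2 ∣ (O a b c).ncard := by
    intro a b c h1 h2 h3 hev
    obtain ⟨P, hP⟩ := exists_isSylowIn 2 (N ⊓ stabilizer G a ⊓ stabilizer G b)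
    obtain ⟨x, hx, hfix⟩ := exists_fixed_of_not_dvd P hP.isPGroup (({a, b} : Set α)ᶜ)
      (fun g hg x hx => by
        simp only [Set.mem_compl_iff, Set.mem_insert_iff, Set.mem_singleton_iff, not_or] at hx ⊢
        exact ⟨fun e => hx.1 (MulAction.injective g (e.trans (hP.1 hg).1.2.symm)),
          fun e => hx.2 (MulAction.injective g (e.trans (hP.1 hg).2.symm))⟩) (by
        rw [Set.ncard_compl, Set.ncard_pair h1, Nat.card_eq_fintype_card]
        obtain ⟨m, hm⟩ := hodd
        omega)
    simp only [Set.mem_compl_iff, Set.mem_insert_iff, Set.mem_singleton_iff, not_or] at hx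
    have e : O a b x = orbit ↥(N ⊓ stabilizer G a ⊓ stabilizer G b) x := by
      ext y
      exact ⟨fun ⟨n, hn, h1, h2, h3⟩ => ⟨⟨n, ⟨hn, h1⟩, h2⟩, h3⟩,
        fun ⟨n, h⟩ => ⟨n, n.2.1.1, n.2.1.2, n.2.2, h⟩⟩
    have h4 := pow_dvd_card_orbit hP x (k := 1) (by
      rw [← e, Nat.card_coe_set_eq, hOcard a b c a b x h1 h2 h3 h1 (Ne.symm hx.1) (Ne.symm hx.2)]
      simpa using hev)
    have h5 : orbit P x = {x} := by
      rw [Set.eq_singleton_iff_unique_mem]
      exact ⟨mem_orbit_self x, by rintro _ ⟨g, rfl⟩; exact hfix g g.2⟩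
    rw [h5] at h4
    simp at h4
  -- every pair is swapped by an element of `N` fixing a given third point
  have hswap : ∀ a b c : α, a ≠ b → a ≠ c → b ≠ c → ∃ n ∈ N, n • a = b ∧ n • b = a ∧ n • c = c := by
    intro a b c h1 h2 h3
    obtain ⟨s, hs1, hs2⟩ := two_iff.1 hN2 a b b a h1 h1.symm
    -- replace `s` by an odd power of 2-power order
    obtain ⟨k, m, hm, e⟩ := Nat.exists_eq_two_pow_mul_odd (orderOf_pos s).ne'
    have hpow : ∀ j : ℕ, (s ^ (2 * j + 1)) • a = b ∧ (s ^ (2 * j + 1)) • b = a := by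
      intro j
      induction j with
      | zero => simpa using ⟨hs1, hs2⟩
      | succ j ih =>
        rw [show 2 * (j + 1) + 1 = (2 * j + 1) + 1 + 1 by ring, pow_succ, pow_succ, mul_smul,
          mul_smul, mul_smul, mul_smul, hs1, hs2, hs1]
        exact ih
    obtain ⟨j, rfl⟩ := hm
    have ht : (s ^ (2 * j + 1)) ^ 2 ^ k = 1 := by
      rw [← pow_mul, mul_comm, ← e, pow_orderOf_eq_one]
    have h4 := ncard_modEq_fixedBy ht (({a, b} : Set α)ᶜ) (Set.toFinite _) (fun x hx => by
        simp only [Set.mem_compl_iff, Set.mem_insert_iff, Set.mem_singleton_iff, not_or] at hx ⊢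
        exact ⟨fun e => hx.2 (MulAction.injective (s ^ (2 * j + 1)) (e.trans (hpow j).2.symm)),
          fun e => hx.1 (MulAction.injective (s ^ (2 * j + 1)) (e.trans (hpow j).1.symm))⟩)
    obtain ⟨x, hx, hfix⟩ : {x ∈ ({a, b} : Set α)ᶜ | s ^ (2 * j + 1) • x = x}.Nonempty := by
      rw [Set.nonempty_iff_ne_empty]
      intro e
      rw [e, Set.ncard_empty, Set.ncard_compl, Set.ncard_pair h1, Nat.card_eq_fintype_card,
        Nat.modEq_zero_iff_dvd] at h4
      obtain ⟨m, hm⟩ := hodd
      omega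
    simp only [Set.mem_compl_iff, Set.mem_insert_iff, Set.mem_singleton_iff, not_or] at hx
    obtain ⟨g, e1, e2, rfl⟩ := three_iff.1 hG a b x a b c h1 (Ne.symm hx.1) (Ne.symm hx.2) h1 h2 h3
    refine ⟨g * (s ^ (2 * j + 1) : N) * g⁻¹, Subgroup.Normal.conj_mem inferInstance _
      (Subtype.prop _) g, ?_, ?_, ?_⟩
    · rw [mul_smul, mul_smul, inv_smul_eq_iff.2 e1.symm, ← e2]; congr 1; exact (hpow j).1
    · rw [mul_smul, mul_smul, inv_smul_eq_iff.2 e2.symm, ← e1]; congr 1; exact (hpow j).2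
    · rw [mul_smul, mul_smul, inv_smul_smul]; congr 1
  let N' := N.map G.subtype
  have hgen : ∀ s : Finset α, s.card = 2 + 1 → ∀ σ : Equiv.Perm ↥s, ∃ g ∈ N', ∀ x : ↥s,
      g (x : α) = σ x := by
    intro s hs σ
    induction σ using Equiv.Perm.swap_induction_on with
    | one => exact ⟨1, N'.one_mem, fun x => rfl⟩
    | swap_mul σ x y hxy ih =>
      obtain ⟨g, hg, h⟩ := ih
      obtain ⟨c, hc1, hc2⟩ := Finset.exists_mem_notMem_of_card_lt_card (s := {(x : α), (y : α)})
        (t := s) (by rw [hs]; exact Finset.card_le_two.trans_lt (by norm_num))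
      simp only [Finset.mem_insert, Finset.mem_singleton, not_or] at hc2
      have hxy' : (x : α) ≠ y := fun e => hxy (Subtype.ext e)
      obtain ⟨n, hn, h1, h2, h3⟩ := hswap x y c hxy' (Ne.symm hc2.1) (Ne.symm hc2.2)
      have hs' : s = {(x : α), (y : α), c} := by
        symm
        apply Finset.eq_of_subset_of_card_le
        · intro z hz
          simp only [Finset.mem_insert, Finset.mem_singleton] at hz
          rcases hz with rfl | rfl | rfl
          exacts [x.2, y.2, hc1]
        · rw [hs, Finset.card_eq_three.2 ⟨_, _, _, hxy', Ne.symm hc2.1, Ne.symm hc2.2, rfl⟩]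
      refine ⟨n * g, N'.mul_mem ⟨n, hn, rfl⟩ hg, fun z => ?_⟩
      rw [Equiv.Perm.mul_apply, h, Equiv.Perm.mul_apply]
      generalize σ z = w
      have hw : (w : α) ∈ ({(x : α), (y : α), c} : Finset α) := hs' ▸ w.2
      simp only [Finset.mem_insert, Finset.mem_singleton] at hw
      rcases hw with hw | hw | hw
      · rw [Subtype.ext hw, Equiv.swap_apply_left]; exact h1
      · rw [Subtype.ext hw, Equiv.swap_apply_right]; exact h2
      · rw [Equiv.swap_apply_of_ne_of_ne (fun e => hc2.1 (by rw [← hw, e]))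
          (fun e => hc2.2 (by rw [← hw, e])), hw]
        exact h3
  rw [three_iff]
  intro a b c a' b' c' h1 h2 h3 h4 h5 h6
  obtain ⟨n, rfl, rfl⟩ := two_iff.1 hN2 a b a' b' h1 h4
  obtain ⟨d, rfl⟩ := MulAction.surjective n c'
  have had : a ≠ d := fun e => h5 (by rw [e])
  have hbd : b ≠ d := fun e => h6 (by rw [e])
  have hO : ∀ x, orbit (fixingSubgroup N' (({a, b} : Finset α) : Set α)) x = O a b x := by
    intro x
    ext y
    constructor
    · rintro ⟨⟨⟨_, m, hm, rfl⟩, hm'⟩, rfl⟩
      rw [mem_fixingSubgroup_iff] at hm'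
      exact ⟨m, hm, hm' a (by simp), hm' b (by simp), rfl⟩
    · rintro ⟨m, hm, e1, e2, rfl⟩
      refine ⟨⟨⟨_, m, hm, rfl⟩, (mem_fixingSubgroup_iff N').2 ?_⟩, rfl⟩
      intro z hz
      simp only [Finset.coe_insert, Finset.coe_singleton, Set.mem_insert_iff,
        Set.mem_singleton_iff] at hz
      rcases hz with rfl | rfl <;> assumption
  by_cases hd : d ∈ O a b c
  · obtain ⟨m, hm, e1, e2, rfl⟩ := hd
    exact ⟨n * ⟨m, hm⟩, by rw [mul_smul]; congr 1, by rw [mul_smul]; congr 1, by rw [mul_smul]; rfl⟩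
  exfalso
  obtain ⟨i, hi⟩ := Cfsg.Agent.S0706.result N' (by omega) hgen Nat.prime_two le_rfl {a, b}
    (Finset.card_pair h1) ![c, d] (fun i => by
      fin_cases i <;> simp [h2.symm, h3.symm, had.symm, hbd.symm]) (fun i j hij => by
      fin_cases i <;> fin_cases j
      · exact absurd rfl hij
      · simpa [hO] using hd
      · intro h
        apply hd
        rw [← hO]
        exact mem_orbit_symm.1 h
      · exact absurd rfl hij)
  rw [hO, Nat.card_coe_set_eq] at hi
  fin_cases i
  · exact hOodd a b c h1 h2 h3 hi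
  · exact hOodd a b d h1 had hbd hi

end Cfsg.Agent.S0699
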