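import Cfsg.Statements.S0701
import Mathlib
import Cfsg.Agent.Lib.Perm.PermBasic

set_option autoImplicit false
open Cfsg

namespace Cfsg.Agent.S0701

open MulAction CA.PermBasic

/-- The centraliser in the full symmetric group of a transitive permutation group `G` is semiregular, and it is transitive if and only if `G` is regular. -/
theorem result {α : Type*} (G : Subgroup (Equiv.Perm α)) [MulAction.IsPretransitive G α] : (∀ c ∈ Subgroup.centralizer (G : Set (Equiv.Perm α)), ∀ a : α, c a = a → c = 1) ∧ (MulAction.IsPretransitive (Subgroup.centralizer (G : Set (Equiv.Perm α))) α ↔ ∀ a : α, MulAction.stabilizer G a = ⊥) := by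
  have hG : IsPretransitive G α := inferInstance
  have h1 : ∀ c ∈ Subgroup.centralizer (G : Set (Equiv.Perm α)), ∀ a : α, c a = a → c = 1 :=
    fun c hc a ha => eq_one_of_commute_of_fix (X := α) G hG (fun n hn => hc n hn) ha
  refine ⟨h1, fun h a => ?_, fun h => ?_⟩
  · rw [subgroup_stabilizer_eq_bot_iff]
    intro g hg ha
    exact eq_one_of_commute_of_fix (X := α) _ h (fun n hn => (hn g hg).symm) ha
  · rw [subgroup_pretransitive_iff]
    intro a b
    have hr : ∀ x : α, ∀ g ∈ G, g • x = x → g = 1 :=
      fun x => (subgroup_stabilizer_eq_bot_iff G x).1 (h x)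
    have key : ∀ x y : α, ∀ g h : G, g • x = h • x → g • y = h • y := by
      intro x y g h e
      have : (h⁻¹ * g : G) = 1 := by
        apply Subtype.ext
        apply hr x _ (h⁻¹ * g).2
        show (h⁻¹ * g) • x = x
        rw [mul_smul, e, inv_smul_smul]
      rw [← mul_one h, ← this, mul_inv_cancel_left]
    choose t ht using fun x y : α => exists_smul_eq G x y
    let c : Equiv.Perm α :=
      { toFun := fun x => t a x • b
        invFun := fun x => t b x • a
        left_inv := fun x => by
          show t b (t a x • b) • a = x
          rw [key b a _ (t a x) (ht _ _), ht]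
        right_inv := fun x => by
          show t a (t b x • a) • b = x
          rw [key a b _ (t b x) (ht _ _), ht] }
    refine ⟨c, ?_, ?_⟩
    · intro g hg
      ext x
      show ((⟨g, hg⟩ : G) • t a x • b) = t a ((⟨g, hg⟩ : G) • x) • b
      rw [← mul_smul]
      apply key a b
      rw [mul_smul, ht, ht]
    · show t a a • b = b
      rw [key a b _ 1 (by rw [ht, one_smul]), one_smul]

end Cfsg.Agent.S0701
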