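import Cfsg.Statements.S0702
import Mathlib
import Cfsg.Agent.Lib.Perm.PermMulti

set_option autoImplicit false
open Cfsg

namespace Cfsg.Agent.S0702

open MulAction CA.PermBasic CA.PermMulti

/-- For a transitive permutation group `G` on a finite set, the centraliser of `G` in the symmetric group is isomorphic to `N_G(G_ω)/G_ω`, and its orbit of `ω` is the set of fixed points of `G_ω`. -/
theorem result {α : Type*} [Finite α] (G : Subgroup (Equiv.Perm α)) [MulAction.IsPretransitive G α] (a : α) : Nonempty (Subgroup.centralizer (G : Set (Equiv.Perm α)) ≃* Subgroup.normalizer ((MulAction.stabilizer G a : Subgroup G) : Set G) ⧸ (MulAction.stabilizer G a).subgroupOf (Subgroup.normalizer ((MulAction.stabilizer G a : Subgroup G) : Set G))) ∧ MulAction.orbit (Subgroup.centralizer (G : Set (Equiv.Perm α))) a = MulAction.fixedPoints (MulAction.stabilizer G a) α := by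
  have hG : IsPretransitive G α := inferInstance
  choose t ht using fun x : α => exists_smul_eq G a x
  have key : ∀ b : α, (∀ s : G, s • a = a → s • b = b) → ∀ g h : G, g • a = h • a → g • b = h • b := by
    intro b hb g h e
    have := hb (h⁻¹ * g) (by rw [mul_smul, e, inv_smul_smul])
    rwa [mul_smul, inv_smul_eq_iff] at this
  have hN : ∀ n ∈ Subgroup.normalizer (stabilizer G a : Set G), ∀ s : G, s • a = a →
      s • n • a = n • a := by
    intro n hn s hs
    have : (n⁻¹ * s * n) • a = a := (Subgroup.mem_normalizer_iff''.1 hn s).1 hs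
    rwa [mul_smul, mul_smul, inv_smul_eq_iff] at this
  let c : Subgroup.normalizer (stabilizer G a : Set G) → Equiv.Perm α := fun n =>
    { toFun := fun x => t x • (n⁻¹ : G) • a
      invFun := fun x => t x • (n : G) • a
      left_inv := fun x => by
        show t (t x • (n⁻¹ : G) • a) • (n : G) • a = x
        rw [key _ (hN n n.2) _ (t x * (n⁻¹ : G)) (by rw [ht, mul_smul]), mul_smul, inv_smul_smul, ht]
      right_inv := fun x => by
        show t (t x • (n : G) • a) • (n⁻¹ : G) • a = x
        rw [key _ (hN _ (Subgroup.inv_mem _ n.2)) _ (t x * (n : G)) (by rw [ht, mul_smul]), mul_smul,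
          smul_inv_smul, ht] }
  have hc : ∀ n (g : G), c n (g • a) = g • ((n : G)⁻¹) • a := fun n g =>
    key _ (hN _ (Subgroup.inv_mem _ n.2)) _ _ (ht _)
  have hcm : ∀ n, c n ∈ Subgroup.centralizer (G : Set (Equiv.Perm α)) := by
    intro n g hg
    ext x
    obtain ⟨h, rfl⟩ := exists_smul_eq G a x
    show (⟨g, hg⟩ : G) • c n (h • a) = c n ((⟨g, hg⟩ : G) • h • a)
    rw [← mul_smul, hc, hc, mul_smul]
  let φ : Subgroup.normalizer (stabilizer G a : Set G) →*
      Subgroup.centralizer (G : Set (Equiv.Perm α)) :=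
    MonoidHom.mk' (fun n => ⟨c n, hcm n⟩) (fun n m => by
      ext x
      obtain ⟨h, rfl⟩ := exists_smul_eq G a x
      show c (n * m) (h • a) = c n (c m (h • a))
      rw [hc, hc, ← mul_smul h (m : G)⁻¹, hc]
      simp [mul_smul])
  have hfixC : ∀ z ∈ Subgroup.centralizer (G : Set (Equiv.Perm α)), ∀ (g : G) (x : α),
      z (g • x) = g • z x := fun z hz g x =>
    (congrArg (fun u : Equiv.Perm α => u x) (hz g g.2)).symm
  have hfix : ∀ b : α, (∀ s : G, s • a = a → s • b = b) →
      ∃ n : Subgroup.normalizer (stabilizer G a : Set G), (n : G)⁻¹ • a = b := by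
    intro b hb
    have h1 : stabilizer G a = stabilizer G b :=
      Subgroup.eq_of_le_of_card_ge hb (card_stabilizer_eq b a).le
    refine ⟨⟨(t b)⁻¹, ?_⟩, by simp [ht]⟩
    apply Subgroup.inv_mem
    rw [Subgroup.mem_normalizer_iff]
    intro h
    rw [← mem_stabilizer_conj (g := t b), ht, ← h1]
  have hsurj : Function.Surjective φ := by
    intro z
    obtain ⟨n, hn⟩ := hfix (z.1 a) (fun s hs => by rw [← hfixC _ z.2, hs])
    refine ⟨n, ?_⟩
    ext x
    obtain ⟨h, rfl⟩ := exists_smul_eq G a x
    show c n (h • a) = z.1 (h • a)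
    rw [hc, hn, hfixC _ z.2]
  have hker : φ.ker = (stabilizer G a).subgroupOf (Subgroup.normalizer (stabilizer G a : Set G)) := by
    ext n
    rw [MonoidHom.mem_ker, Subgroup.mem_subgroupOf, mem_stabilizer_iff]
    constructor
    · intro h
      have h1 : c n ((1 : G) • a) = (1 : G) • a := congrArg (fun u => u.1 ((1 : G) • a)) h
      rw [hc, one_smul, one_smul, inv_smul_eq_iff] at h1
      exact h1.symm
    · intro h
      ext x
      obtain ⟨g, rfl⟩ := exists_smul_eq G a x
      show c n (g • a) = g • a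
      rw [hc, inv_smul_eq_iff.2 h.symm]
  refine ⟨⟨((QuotientGroup.quotientMulEquivOfEq hker).symm.trans
    (QuotientGroup.quotientKerEquivOfSurjective φ hsurj)).symm⟩, ?_⟩
  ext b
  constructor
  · rintro ⟨z, rfl⟩ s
    show (s : G) • z.1 a = z.1 a
    rw [← hfixC _ z.2, s.2]
  · intro hb
    obtain ⟨n, rfl⟩ := hfix b (fun s hs => hb ⟨s, hs⟩)
    refine ⟨φ n, ?_⟩
    show c n a = _
    simpa using hc n 1

end Cfsg.Agent.S0702
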