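import Cfsg.Statements.S0703
import Mathlib
import Cfsg.Agent.Lib.Perm.PermMulti

set_option autoImplicit false
open Cfsg

namespace Cfsg.Agent.S0703

open MulAction CA.PermBasic CA.PermMulti

/-- An abelian transitive minimal normal subgroup `M` of a permutation group on a finite set is self-centralising in the symmetric group, regular, elementary abelian, and is the unique minimal normal subgroup. -/
theorem result {α : Type*} [Finite α] (G : Subgroup (Equiv.Perm α)) (M : Subgroup G) [M.Normal] (hM : M ≠ ⊥) (hmin : ∀ L : Subgroup G, L.Normal → L ≤ M → L = ⊥ ∨ L = M) (hab : IsMulCommutative M) (htrans : MulAction.IsPretransitive M α) : Subgroup.centralizer ((M.map G.subtype : Subgroup (Equiv.Perm α)) : Set (Equiv.Perm α)) = M.map G.subtype ∧ (∀ a : α, MulAction.stabilizer M a = ⊥) ∧ (∃ p : ℕ, p.Prime ∧ ∀ m ∈ M, m ^ p = 1) ∧ ∀ L : Subgroup G, L.Normal → L ≠ ⊥ → (∀ L' : Subgroup G, L'.Normal → L' ≤ L → L' = ⊥ ∨ L' = L) → L = M := by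
  have hreg : ∀ a : α, stabilizer M a = ⊥ := regular_of_comm M htrans hab
  have hcomm : ∀ x ∈ M, ∀ y ∈ M, x * y = y * x := fun x hx y hy =>
    congrArg Subtype.val (hab.is_comm.comm (⟨x, hx⟩ : M) ⟨y, hy⟩)
  have htr := (subgroup_pretransitive_iff M).1 htrans
  have ht' : IsPretransitive (M.map G.subtype) α := by
    rw [subgroup_pretransitive_iff]
    exact fun a b => let ⟨m, hm, e⟩ := htr a b; ⟨m, ⟨m, hm, rfl⟩, e⟩
  have hC : Subgroup.centralizer ((M.map G.subtype : Subgroup (Equiv.Perm α)) : Set (Equiv.Perm α))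
      = M.map G.subtype := by
    apply le_antisymm
    · intro z hz
      rcases isEmpty_or_nonempty α with h | ⟨⟨a⟩⟩
      · rw [Subsingleton.elim z 1]; exact Subgroup.one_mem _
      obtain ⟨m, hm, e⟩ := htr a (z a)
      have : (m : Equiv.Perm α)⁻¹ * z = 1 := by
        refine eq_one_of_commute_of_fix (X := α) _ ht' ?_ (a := a) ?_
        · rintro _ ⟨n, hn, rfl⟩
          have h1 := congrArg Subtype.val (hcomm n hn m⁻¹ (M.inv_mem hm))
          have h2 := hz _ ⟨n, hn, rfl⟩
          simp only [Subgroup.coe_mul, InvMemClass.coe_inv, Subgroup.coe_subtype] at h1 h2 ⊢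
          rw [← mul_assoc, h1, mul_assoc, h2, mul_assoc]
        · show (m : Equiv.Perm α)⁻¹ (z a) = a
          rw [Equiv.Perm.inv_eq_iff_eq]; exact e.symm
      rw [inv_mul_eq_one] at this
      exact ⟨m, hm, this⟩
    · rintro _ ⟨m, hm, rfl⟩ _ ⟨n, hn, rfl⟩
      exact congrArg Subtype.val (hcomm n hn m hm)
  refine ⟨hC, hreg, ?_, fun L hL hL1 hLmin => ?_⟩
  · have : Nontrivial M := (Subgroup.nontrivial_iff_ne_bot M).2 hM
    obtain ⟨p, hp, hpd⟩ := Nat.exists_prime_and_dvd (n := Nat.card M) Finite.one_lt_card.ne'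
    have := Fact.mk hp
    obtain ⟨z, hz⟩ := exists_prime_orderOf_dvd_card' p hpd
    let K : Subgroup G :=
      { carrier := {m | m ∈ M ∧ m ^ p = 1}
        one_mem' := ⟨M.one_mem, one_pow p⟩
        mul_mem' := fun {x y} hx hy => ⟨M.mul_mem hx.1 hy.1, by
          rw [Commute.mul_pow (hcomm x hx.1 y hy.1), hx.2, hy.2, one_mul]⟩
        inv_mem' := fun {x} hx => ⟨M.inv_mem hx.1, by rw [inv_pow, hx.2, inv_one]⟩ }
    have hK : K.Normal := ⟨fun x hx g => ⟨Subgroup.Normal.conj_mem inferInstance x hx.1 g, by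
      rw [conj_pow, hx.2]; simp⟩⟩
    rcases hmin K hK (fun x hx => hx.1) with h | h
    · have : (z : G) ∈ K := ⟨z.2, by
        rw [← hz, ← Subgroup.orderOf_coe]; exact pow_orderOf_eq_one _⟩
      rw [h, Subgroup.mem_bot] at this
      rw [← Subgroup.orderOf_coe, this, orderOf_one] at hz
      exact absurd hz hp.one_lt.ne
    · exact ⟨p, hp, fun m hm => (show m ∈ K from h ▸ hm).2⟩
  · by_contra hne
    have hd : Disjoint L M := by
      rw [disjoint_iff]
      refine (hLmin (L ⊓ M) inferInstance inf_le_left).resolve_right (fun h => hne ?_)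
      exact (hmin L hL (inf_eq_left.1 h)).resolve_left hL1
    have hle : L ≤ M := by
      intro l hl
      have : (l : Equiv.Perm α) ∈ M.map G.subtype := by
        rw [← hC]
        rintro _ ⟨m, hm, rfl⟩
        exact congrArg Subtype.val
          (Subgroup.commute_of_normal_of_disjoint L M hL inferInstance hd l m hl hm).eq.symm
      obtain ⟨m, hm, e⟩ := this
      rwa [← Subtype.ext e]
    exact hne ((hmin L hL hle).resolve_left hL1)

end Cfsg.Agent.S0703
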