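import Cfsg.Statements.S0704
import Mathlib
import Cfsg.Agent.Lib.Perm.PermMulti

set_option autoImplicit false
open Cfsg

namespace Cfsg.Agent.S0704

open MulAction CA.PermBasic CA.PermMulti

theorem aux {α : Type*} (G : Subgroup (Equiv.Perm α)) (M N : Subgroup G)
    (hc : ∀ m ∈ M, ∀ n ∈ N, m * n = n * m)
    (hMt : MulAction.IsPretransitive M α) (hNt : MulAction.IsPretransitive N α) :
    (∀ a : α, MulAction.stabilizer M a = ⊥) ∧
    Subgroup.centralizer ((M.map G.subtype : Subgroup (Equiv.Perm α)) : Set (Equiv.Perm α)) =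
      N.map G.subtype := by
  refine ⟨fun a => ?_, ?_⟩
  · rw [subgroup_stabilizer_eq_bot_iff]
    exact fun m hm ha => eq_one_of_commute_of_fix N hNt (fun n hn => (hc m hm n hn).symm) ha
  have ht' : IsPretransitive (M.map G.subtype) α := by
    rw [subgroup_pretransitive_iff]
    exact fun a b => let ⟨m, hm, e⟩ := (subgroup_pretransitive_iff M).1 hMt a b
      ⟨m, ⟨m, hm, rfl⟩, e⟩
  apply le_antisymm
  · intro z hz
    rcases isEmpty_or_nonempty α with h | ⟨⟨a⟩⟩
    · rw [Subsingleton.elim z 1]; exact Subgroup.one_mem _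
    obtain ⟨m, hm, e⟩ := (subgroup_pretransitive_iff N).1 hNt a (z a)
    have : (m : Equiv.Perm α)⁻¹ * z = 1 := by
      refine eq_one_of_commute_of_fix (X := α) _ ht' ?_ (a := a) ?_
      · rintro _ ⟨n, hn, rfl⟩
        have h1 := congrArg Subtype.val (hc n hn m⁻¹ (N.inv_mem hm))
        have h2 := hz _ ⟨n, hn, rfl⟩
        simp only [Subgroup.coe_mul, InvMemClass.coe_inv, Subgroup.coe_subtype] at h1 h2 ⊢
        rw [← mul_assoc, h1, mul_assoc, h2, mul_assoc]
      · show (m : Equiv.Perm α)⁻¹ (z a) = a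
        rw [Equiv.Perm.inv_eq_iff_eq]; exact e.symm
    rw [inv_mul_eq_one] at this
    exact ⟨m, hm, this⟩
  · rintro _ ⟨n, hn, rfl⟩ _ ⟨m, hm, rfl⟩
    exact congrArg Subtype.val (hc m hm n hn)

/-- Two distinct transitive minimal normal subgroups `M`, `N` of a permutation group are regular, non-abelian, isomorphic, each other's centraliser in the symmetric group, and the only minimal normal subgroups. -/
theorem result {α : Type*} (G : Subgroup (Equiv.Perm α)) (M N : Subgroup G) [M.Normal] [N.Normal] (hM : M ≠ ⊥) (hN : N ≠ ⊥) (hMmin : ∀ L : Subgroup G, L.Normal → L ≤ M → L = ⊥ ∨ L = M) (hNmin : ∀ L : Subgroup G, L.Normal → L ≤ N → L = ⊥ ∨ L = N) (hMN : M ≠ N) (hMt : MulAction.IsPretransitive M α) (hNt : MulAction.IsPretransitive N α) : (∀ a : α, MulAction.stabilizer M a = ⊥) ∧ (∀ a : α, MulAction.stabilizer N a = ⊥) ∧ ¬ IsMulCommutative M ∧ Nonempty (M ≃* N) ∧ Subgroup.centralizer ((M.map G.subtype : Subgroup (Equiv.Perm α)) : Set (Equiv.Perm α)) = N.map G.subtype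 ∧ Subgroup.centralizer ((N.map G.subtype : Subgroup (Equiv.Perm α)) : Set (Equiv.Perm α)) = M.map G.subtype ∧ ∀ L : Subgroup G, L.Normal → L ≠ ⊥ → (∀ L' : Subgroup G, L'.Normal → L' ≤ L → L' = ⊥ ∨ L' = L) → L = M ∨ L = N := by
  have hcomm : ∀ L K : Subgroup G, L.Normal → K.Normal → L ≠ ⊥ →
      (∀ L' : Subgroup G, L'.Normal → L' ≤ L → L' = ⊥ ∨ L' = L) →
      (∀ L' : Subgroup G, L'.Normal → L' ≤ K → L' = ⊥ ∨ L' = K) → L ≠ K →
      ∀ l ∈ L, ∀ k ∈ K, l * k = k * l := by
    intro L K hL hK hL1 hLmin hKmin hne l hl k hk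
    have hd : Disjoint L K := by
      rw [disjoint_iff]
      refine (hLmin (L ⊓ K) inferInstance inf_le_left).resolve_right (fun h => hne ?_)
      exact (hKmin L hL (inf_eq_left.1 h)).resolve_left hL1
    exact (Subgroup.commute_of_normal_of_disjoint L K hL hK hd l k hl hk).eq
  have hc := hcomm M N inferInstance inferInstance hM hMmin hNmin hMN
  obtain ⟨h1, h2⟩ := aux G M N hc hMt hNt
  obtain ⟨h3, h4⟩ := aux G N M (fun n hn m hm => (hc m hm n hn).symm) hNt hMt
  have hle : ∀ L : Subgroup G, (∀ l ∈ L, ∀ m ∈ M, l * m = m * l) → L ≤ N := by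
    intro L hL l hl
    have : (l : Equiv.Perm α) ∈ N.map G.subtype := by
      rw [← h2]
      rintro _ ⟨m, hm, rfl⟩
      exact congrArg Subtype.val (hL l hl m hm).symm
    obtain ⟨m, hm, e⟩ := this
    rwa [← Subtype.ext e]
  refine ⟨h1, h3, fun hab => hMN ?_, ?_, h2, h4, fun L hL hL1 hLmin => ?_⟩
  · exact (hNmin M inferInstance (hle M (fun x hx y hy =>
      congrArg Subtype.val (hab.is_comm.comm (⟨x, hx⟩ : M) ⟨y, hy⟩)))).resolve_left hM
  · rcases isEmpty_or_nonempty α with h | ⟨⟨a⟩⟩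
    · exact absurd (Subsingleton.elim _ _) hM
    have hinj : ∀ n n' : N, n • a = n' • a → n = n' := by
      intro n n' e
      have : n'⁻¹ * n ∈ stabilizer N a := by
        rw [mem_stabilizer_iff, mul_smul, e, inv_smul_smul]
      rw [h3, Subgroup.mem_bot, inv_mul_eq_one] at this
      exact this.symm
    choose f hf using fun m : M => exists_smul_eq N a (m⁻¹ • a)
    have hcs : ∀ (m : M) (n : N) (x : α), m • n • x = n • m • x := fun m n x => by
      show (m : G) • (n : G) • x = (n : G) • (m : G) • x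
      rw [← mul_smul, ← mul_smul, hc m m.2 n n.2]
    let φ : M →* N := MonoidHom.mk' f (fun m m' => hinj _ _ (by
      rw [hf, mul_smul, hf, ← hcs, hf, mul_inv_rev, mul_smul]))
    refine ⟨MulEquiv.ofBijective φ ⟨?_, ?_⟩⟩
    · rw [injective_iff_map_eq_one]
      intro m hm
      have h5 := hf m
      rw [show f m = 1 from hm, one_smul, eq_comm, ← mem_stabilizer_iff, h1, Subgroup.mem_bot,
        inv_eq_one] at h5
      exact h5
    · intro n
      obtain ⟨m, hm⟩ := exists_smul_eq M a (n • a)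
      exact ⟨m⁻¹, hinj _ _ (by rw [← hm]; exact (hf m⁻¹).trans (by rw [inv_inv]))⟩
  · by_cases hLM : L = M
    · exact Or.inl hLM
    · exact Or.inr ((hNmin L hL (hle L (hcomm L M hL inferInstance hL1 hLmin hMmin hLM))).resolve_left hL1)

end Cfsg.Agent.S0704
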