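import Cfsg.Statements.S0707
import Mathlib
import Cfsg.Agent.Lib.Perm.PermBasic

set_option autoImplicit false
open Cfsg

namespace Cfsg.Agent.S0707

open MulAction CA.PermBasic

/-- In a primitive permutation group, distinct points have distinct stabilisers unless the group is regular of prime degree. -/
theorem result {α : Type*} (G : Subgroup (Equiv.Perm α)) [MulAction.IsPreprimitive G α] (h : ¬ (Nat.card α).Prime ∨ ∃ a : α, MulAction.stabilizer G a ≠ ⊥) {a b : α} (hab : a ≠ b) : MulAction.stabilizer G a ≠ MulAction.stabilizer G b := by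
  intro e
  have : Nontrivial α := ⟨a, b, hab⟩
  have hmax : IsCoatom (stabilizer G a) := IsPreprimitive.isCoatom_stabilizer_of_isPreprimitive G a
  obtain ⟨g, hg⟩ := exists_smul_eq G a b
  have hnorm : Subgroup.normalizer (stabilizer G a : Set G) = ⊤ := by
    apply hmax.2
    refine lt_of_le_of_ne Subgroup.le_normalizer (fun h' => ?_)
    have : g ∈ Subgroup.normalizer (stabilizer G a : Set G) := by
      rw [Subgroup.mem_normalizer_iff]
      intro x
      rw [← mem_stabilizer_conj (g := g), hg, ← e]
    rw [← h', mem_stabilizer_iff, hg] at this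
    exact hab this.symm
  have hN : (stabilizer G a).Normal := Subgroup.normalizer_eq_top_iff.1 hnorm
  have hbot : stabilizer G a = ⊥ := normal_le_stabilizer_eq_bot (X := α) _ a le_rfl
  rcases h with h | ⟨c, hc⟩
  · apply h
    rw [← card_eq_of_regular a hbot]
    rw [hbot] at hmax
    have hG : Nontrivial G := by
      by_contra hn
      rw [not_nontrivial_iff_subsingleton] at hn
      exact hmax.1 (Subsingleton.elim _ _)
    have hso : ∀ H : Subgroup G, H = ⊥ ∨ H = ⊤ := by
      intro H
      by_cases hH : H = ⊥
      · exact Or.inl hH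
      · exact Or.inr (hmax.2 H (bot_lt_iff_ne_bot.2 hH))
    have hcyc : IsCyclic G := by
      obtain ⟨x, hx⟩ := exists_ne (1 : G)
      refine isCyclic_iff_exists_zpowers_eq_top.2 ⟨x, (hso _).resolve_left ?_⟩
      simpa using hx
    have hs : IsSimpleGroup G := ⟨fun H _ => hso H⟩
    letI : CommGroup G := IsCyclic.commGroup
    exact IsSimpleGroup.prime_card
  · apply hc
    obtain ⟨k, rfl⟩ := exists_smul_eq G a c
    rw [stabilizer_smul_eq_stabilizer_map_conj, hbot, Subgroup.map_bot]

end Cfsg.Agent.S0707
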