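import Cfsg.Statements.S0709
import Mathlib

set_option autoImplicit false
open Cfsg

namespace Cfsg.Agent.S0709

def T {α : Type*} (K : Subgroup (Equiv.Perm α)) (S : Set α) (k : ℕ) : Prop :=
  ∀ f f' : Fin k → α, Function.Injective f → Function.Injective f' → (∀ i, f i ∉ S) →
    (∀ i, f' i ∉ S) → ∃ g ∈ K, ∀ i, g (f i) = f' i

theorem step {α : Type*} (G : Subgroup (Equiv.Perm α)) (S : Set α) (o x y : α) (h g : Equiv.Perm α)
    (hfix : ∀ f ∈ G, ∀ z ∈ insert o S, f z = z) (hh : ∀ z ∈ S, h z = z) (ho : o ∉ S)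
    (hx : x ∉ insert o S) (hy : y ∉ insert o S) (hxy : x ≠ y) (hT : T G (insert o S) 2)
    (hg : g ∈ G) (h1 : h o = x) (h2 : h x = o) (h4 : g x = y)
    (h6 : (g * h) ^ 3 ∈ G) (h7 : h ^ 2 ∈ G) (h8 : ∀ f ∈ G, f x = x → h * f * h⁻¹ ∈ G)
    (M : Subgroup (Equiv.Perm α)) (hM : M = Subgroup.closure ((G : Set (Equiv.Perm α)) ∪ {h})) :
    (∀ f ∈ M, f o = o → f ∈ G) ∧ (∀ f ∈ M, ∀ z ∈ S, f z = z) ∧
      ∀ k, T G (insert o S) k → T M S (k + 1) := by
  classical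
  have hGM : G ≤ M := fun f hf => hM ▸ Subgroup.subset_closure (Or.inl hf)
  have hhM : h ∈ M := hM ▸ Subgroup.subset_closure (Or.inr rfl)
  have sm : ∀ f ∈ G, ∀ a ∉ insert o S, f a ∉ insert o S := fun f hf a ha e =>
    ha (by rwa [← f.injective (hfix f hf _ e)])
  have two : ∀ a b c d : α, a ∉ insert o S → b ∉ insert o S → c ∉ insert o S → d ∉ insert o S →
      a ≠ b → c ≠ d → ∃ f ∈ G, f a = c ∧ f b = d := by
    intro a b c d ha hb hc hd hab hcd
    obtain ⟨f, hf, e⟩ := hT ![a, b] ![c, d] (by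
      intro i j; fin_cases i <;> fin_cases j <;> simp [hab, hab.symm]) (by
      intro i j; fin_cases i <;> fin_cases j <;> simp [hcd, hcd.symm])
      (fun i => by fin_cases i; exacts [ha, hb]) (fun i => by fin_cases i; exacts [hc, hd])
    exact ⟨f, hf, e 0, e 1⟩
  have h8' : ∀ f ∈ G, f x = x → h * f * h ∈ G := fun f hf e => by
    rw [show h * f * h = h * f * h⁻¹ * h ^ 2 by rw [pow_two]; group]
    exact G.mul_mem (h8 f hf e) h7
  have key : ∀ f ∈ G, h * f * h ∈ G ∨ ∃ u ∈ G, ∃ v ∈ G, h * f * h = u * h * v := by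
    intro f hf
    by_cases e : f x = x
    · exact Or.inl (h8' f hf e)
    right
    obtain ⟨a, ha, a1, a2⟩ := two x y x (f x) hx hy hx (sm f hf x hx) hxy (Ne.symm e)
    have hb : g⁻¹ * a⁻¹ * f ∈ G := G.mul_mem (G.mul_mem (G.inv_mem hg) (G.inv_mem ha)) hf
    have b1 : (g⁻¹ * a⁻¹ * f) x = x := by
      simp only [Equiv.Perm.mul_apply]
      rw [← a2, Equiv.Perm.inv_eq_iff_eq, h4]; simp
    have A := h8' a ha a1
    have B := h8' _ hb b1
    refine ⟨(h * a * h) * (h ^ 2)⁻¹ * g⁻¹ * (g * h) ^ 3 * (h ^ 2)⁻¹, ?_,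
      g⁻¹ * (h ^ 2)⁻¹ * (h * (g⁻¹ * a⁻¹ * f) * h), ?_, ?_⟩
    · exact G.mul_mem (G.mul_mem (G.mul_mem (G.mul_mem A (G.inv_mem h7)) (G.inv_mem hg)) h6)
        (G.inv_mem h7)
    · exact G.mul_mem (G.mul_mem (G.inv_mem hg) (G.inv_mem h7)) B
    · simp only [pow_succ, pow_zero]; group
  let U : Subgroup (Equiv.Perm α) :=
    { carrier := {s | s ∈ G ∨ ∃ u ∈ G, ∃ v ∈ G, s = u * h * v}
      one_mem' := Or.inl G.one_mem
      mul_mem' := by
        rintro s t (hs | ⟨u, hu, v, hv, rfl⟩) (ht | ⟨u', hu', v', hv', rfl⟩)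
        · exact Or.inl (G.mul_mem hs ht)
        · exact Or.inr ⟨s * u', G.mul_mem hs hu', v', hv', by group⟩
        · exact Or.inr ⟨u, hu, v * t, G.mul_mem hv ht, by group⟩
        · rcases key _ (G.mul_mem hv hu') with e | ⟨a, ha, b, hb, e⟩
          · exact Or.inl (by
              rw [show u * h * v * (u' * h * v') = u * (h * (v * u') * h) * v' by group]
              exact G.mul_mem (G.mul_mem hu e) hv')
          · refine Or.inr ⟨u * a, G.mul_mem hu ha, b * v', G.mul_mem hb hv', ?_⟩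
            rw [show u * h * v * (u' * h * v') = u * (h * (v * u') * h) * v' by group, e]; group
      inv_mem' := by
        rintro s (hs | ⟨u, hu, v, hv, rfl⟩)
        · exact Or.inl (G.inv_mem hs)
        · exact Or.inr ⟨v⁻¹ * (h ^ 2)⁻¹, G.mul_mem (G.inv_mem hv) (G.inv_mem h7), u⁻¹,
            G.inv_mem hu, by simp only [pow_succ, pow_zero]; group⟩ }
  have hMS : M ≤ U := hM ▸ (Subgroup.closure_le _).2 (by
    rintro s (hs | rfl)
    · exact Or.inl hs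
    · exact Or.inr ⟨1, G.one_mem, 1, G.one_mem, by simp⟩)
  have hMfix : ∀ f ∈ M, ∀ z ∈ S, f z = z := by
    intro f hf z hz
    rcases hMS hf with h' | ⟨u, hu, v, hv, rfl⟩
    · exact hfix f h' z (Or.inr hz)
    · rw [Equiv.Perm.mul_apply, Equiv.Perm.mul_apply, hfix v hv z (Or.inr hz), hh z hz,
        hfix u hu z (Or.inr hz)]
  refine ⟨fun f hf e => ?_, hMfix, fun k hk f f' hf hf' n1 n2 => ?_⟩
  · rcases hMS hf with h' | ⟨u, hu, v, hv, rfl⟩
    · exact h'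
    · rw [Equiv.Perm.mul_apply, Equiv.Perm.mul_apply, hfix v hv o (Or.inl rfl), h1] at e
      exact absurd (Or.inl e) (sm u hu x hx)
  · have t0 : ∀ a ∉ S, ∃ m ∈ M, m a = o := by
      intro a ha
      by_cases e0 : a = o
      · exact ⟨1, M.one_mem, e0⟩
      obtain ⟨f, hf, e⟩ : ∃ f ∈ G, f a = x := by
        by_cases e : a = x
        · exact ⟨1, G.one_mem, e⟩
        · obtain ⟨f, hf, e, -⟩ := two a x x y (fun h => h.elim e0 ha) hx hx hy e hxy
          exact ⟨f, hf, e⟩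
      exact ⟨h * f, M.mul_mem hhM (hGM hf), by rw [Equiv.Perm.mul_apply, e, h2]⟩
    have t1 : ∀ m ∈ M, ∀ f : Fin (k + 1) → α, Function.Injective f → (∀ i, f i ∉ S) →
        m (f 0) = o → ∀ i : Fin k, m (f i.succ) ∉ insert o S := by
      rintro m hm f hf n e i (e' | e')
      · exact Fin.succ_ne_zero i (hf (m.injective (e'.trans e.symm)))
      · exact n _ (by rwa [← m.injective (hMfix m hm _ e')])
    obtain ⟨m, hm, e⟩ := t0 _ (n1 0)
    obtain ⟨m', hm', e'⟩ := t0 _ (n2 0)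
    obtain ⟨u, hu, hu'⟩ := hk (fun i => m (f i.succ)) (fun i => m' (f' i.succ))
      (m.injective.comp (hf.comp (Fin.succ_injective _)))
      (m'.injective.comp (hf'.comp (Fin.succ_injective _))) (t1 m hm f hf n1 e)
      (t1 m' hm' f' hf' n2 e')
    refine ⟨m'⁻¹ * u * m, M.mul_mem (M.mul_mem (M.inv_mem hm') (hGM hu)) hm, fun i => ?_⟩
    rw [Equiv.Perm.mul_apply, Equiv.Perm.mul_apply, Equiv.Perm.inv_eq_iff_eq]
    refine Fin.cases ?_ (fun i => hu' i) i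
    rw [e, e', hfix u hu o (Or.inl rfl)]

/-- Witt's Lemma for constructing transitive extensions. Points `q 1, …, q t` (`t ≥ 2`) of a finite set are given; `G` fixes `q i` for `i ≥ 3` and is doubly transitive on the remaining points; `s 1 ∈ G` swaps `q 1, q 2`; for `2 ≤ i ≤ t-1`, `s i` swaps `q i, q (i+1)` and fixes the other `q j`; with `H` the stabiliser of `q 1, q 2` in `G`: `s i ^ 2 ∈ H`, `(s i * s (i+1)) ^ 3 ∈ H`, `(s i * s j) ^ 2 ∈ H` for `j ≥ i + 2`, and `s i` (`i ≥ 2`) normalises the stabiliser of `q 2` in `G`. Then `G` and the `s i` generate a `t`-transitive group whose pointwise stabiliser of the `q`'s is `H`. -/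
theorem result {α : Type*} [Fintype α] [DecidableEq α] (t : ℕ) (ht : 2 ≤ t) (q : ℕ → α) (hq : ∀ i j : ℕ, 1 ≤ i → i ≤ t → 1 ≤ j → j ≤ t → q i = q j → i = j) (G : Subgroup (Equiv.Perm α)) (hfix : ∀ g ∈ G, ∀ i : ℕ, 3 ≤ i → i ≤ t → g (q i) = q i) (h2 : ∀ a b c d : α, (∀ i, 3 ≤ i → i ≤ t → a ≠ q i ∧ b ≠ q i ∧ c ≠ q i ∧ d ≠ q i) → a ≠ b → c ≠ d → ∃ g ∈ G, g a = c ∧ g b = d) (s : ℕ → Equiv.Perm α) (hs1 : s 1 ∈ G) (hs1q : s 1 (q 1) = q 2 ∧ s 1 (q 2) = q 1) (hsq : ∀ i : ℕ, 2 ≤ i → i + 1 ≤ t → s i (q i) = q (i + 1) ∧ s i (q (i + 1)) = q i ∧ ∀ j : ℕ, 1 ≤ j → j ≤ t → j ≠ i → j ≠ i + 1 → s i (q j) = q j) (H : Subgroup (Equiv.Perm α)) (hH : H = G ⊓ MulAction.stabilizer (Equiv.Perm α) (q 1) ⊓ MulAction.stabilizer (Equiv.Perm α) (q 2)) (hsq2 : ∀ i : ℕ, 1 ≤ i → i + 1 ≤ t → s i ^ 2 ∈ H) (hbraid : ∀ i : ℕ, 1 ≤ i → i + 2 ≤ t → (s i * s (i + 1)) ^ 3 ∈ H) (hcomm : ∀ i j : ℕ, 1 ≤ i → i + 2 ≤ j → j + 1 ≤ t → (s i * s j) ^ 2 ∈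 H ∧ (s j * s i) ^ 2 ∈ H) (hnorm : ∀ i : ℕ, 2 ≤ i → i + 1 ≤ t → ∀ g ∈ G ⊓ MulAction.stabilizer (Equiv.Perm α) (q 2), s i * g * (s i)⁻¹ ∈ G ⊓ MulAction.stabilizer (Equiv.Perm α) (q 2)) : MulAction.IsMultiplyPretransitive ↥(Subgroup.closure ((G : Set (Equiv.Perm α)) ∪ {x | ∃ i : ℕ, 2 ≤ i ∧ i + 1 ≤ t ∧ x = s i})) α t ∧ Subgroup.closure ((G : Set (Equiv.Perm α)) ∪ {x | ∃ i : ℕ, 2 ≤ i ∧ i + 1 ≤ t ∧ x = s i}) ⊓ fixingSubgroup (Equiv.Perm α) {x | ∃ i : ℕ, 1 ≤ i ∧ i ≤ t ∧ x = q i} = H := by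
  let G₂ := G ⊓ MulAction.stabilizer (Equiv.Perm α) (q 2)
  let K : ℕ → Subgroup (Equiv.Perm α) := fun i =>
    Subgroup.closure ((G₂ : Set (Equiv.Perm α)) ∪ {x | ∃ j, 1 ≤ j ∧ j + 1 ≤ i ∧ x = s j})
  let S : ℕ → Set α := fun i => {x | ∃ j, i < j ∧ j ≤ t ∧ x = q j}
  have hGK : ∀ i, G₂ ≤ K i := fun i x hx => Subgroup.subset_closure (Or.inl hx)
  have hsK : ∀ i j, 1 ≤ j → j + 1 ≤ i → s j ∈ K i := fun i j h1 h2 =>
    Subgroup.subset_closure (Or.inr ⟨j, h1, h2, rfl⟩)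
  have hHK : ∀ i, H ≤ K i := fun i x hx => hGK i (by rw [hH] at hx; exact ⟨hx.1.1, hx.2⟩)
  have hmono : ∀ i j, i ≤ j → K i ≤ K j := fun i j h => Subgroup.closure_mono (by
    rintro x (hx | ⟨l, h1, h2, rfl⟩)
    exacts [Or.inl hx, Or.inr ⟨l, h1, by omega, rfl⟩])
  have hqS : ∀ i j, 1 ≤ j → j ≤ i → j ≤ t → q j ∉ S i := by
    rintro i j h1 h2 h3 ⟨l, h4, h5, e⟩
    have := hq j l h1 h3 (by omega) h5 e
    omega
  have hq12 : q 1 ≠ q 2 := fun e => by have := hq 1 2 le_rfl (by omega) (by omega) ht e; omega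
  have two : ∀ a b c d : α, a ∉ S 2 → b ∉ S 2 → c ∉ S 2 → d ∉ S 2 →
      a ≠ b → c ≠ d → ∃ f ∈ G, f a = c ∧ f b = d := fun a b c d ha hb hc hd =>
    h2 a b c d fun i h1 h2 => ⟨fun e => ha ⟨i, h1, h2, e⟩, fun e => hb ⟨i, h1, h2, e⟩,
      fun e => hc ⟨i, h1, h2, e⟩, fun e => hd ⟨i, h1, h2, e⟩⟩
  have n1 := hqS 2 1 le_rfl (by omega) (by omega)
  have n2 := hqS 2 2 (by omega) le_rfl ht
  have hK2 : K 2 = G := by
    refine le_antisymm ((Subgroup.closure_le _).2 ?_) fun g hg => ?_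
    · rintro x (hx | ⟨l, h1, h2, rfl⟩)
      · exact hx.1
      · obtain rfl : l = 1 := by omega
        exact hs1
    by_cases e : g (q 2) = q 2
    · exact hGK 2 ⟨hg, e⟩
    obtain ⟨u, hu, u1, u2⟩ := two (q 2) (g (q 2)) (q 2) (q 1) n2 (by
      rintro ⟨j, h1, h2, e'⟩
      rw [← hfix g hg j h1 h2] at e'
      exact n2 ⟨j, h1, h2, g.injective e'⟩) n2 n1 (Ne.symm e) hq12.symm
    have h3 : s 1 * u * g ∈ K 2 := hGK 2 ⟨G.mul_mem (G.mul_mem hs1 hu) hg, by
      change s 1 (u (g (q 2))) = q 2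
      rw [u2, hs1q.1]⟩
    exact (Subgroup.mul_mem_cancel_left _ ((K 2).mul_mem (hsK 2 1 le_rfl le_rfl)
      (hGK 2 ⟨hu, u1⟩))).1 h3
  have hind : ∀ i, 2 ≤ i → i ≤ t → (∀ f ∈ K i, ∀ z ∈ S i, f z = z) ∧ (∀ k ≤ i, T (K i) (S i) k) ∧
      (∀ f ∈ K i, f (q i) = q i → f ∈ K (i - 1)) ∧
      ∀ f ∈ K i, (∀ j, 1 ≤ j → j ≤ i → f (q j) = q j) → f ∈ H := by
    intro i hi
    induction i, hi using Nat.le_induction with
    | base =>
      intro _
      rw [hK2]
      refine ⟨?_, fun k hk f f' hf hf' m1 m2 => ?_, fun f hf e => hGK _ ⟨hf, e⟩, fun f hf e => ?_⟩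
      · rintro f hf _ ⟨j, h1, h2, rfl⟩
        exact hfix f hf j h1 h2
      · interval_cases k
        · exact ⟨1, G.one_mem, fun i => i.elim0⟩
        · have h3 : ∀ a, ∃ b ∉ S 2, a ≠ b := fun a => by
            by_cases e : a = q 1
            · exact ⟨_, n2, e ▸ hq12⟩
            · exact ⟨_, n1, e⟩
          obtain ⟨b, hb, hb'⟩ := h3 (f 0)
          obtain ⟨d, hd, hd'⟩ := h3 (f' 0)
          obtain ⟨g, hg, e, -⟩ := two _ _ _ _ (m1 0) hb (m2 0) hd hb' hd'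
          exact ⟨g, hg, fun i => by fin_cases i; exact e⟩
        · obtain ⟨g, hg, e, e'⟩ := two _ _ _ _ (m1 0) (m1 1) (m2 0) (m2 1)
            (hf.ne (by decide)) (hf'.ne (by decide))
          exact ⟨g, hg, fun i => by fin_cases i; exacts [e, e']⟩
      · rw [hH]
        exact ⟨⟨hf, e 1 le_rfl (by omega)⟩, e 2 (by omega) le_rfl⟩
    | succ i hi ih =>
      intro hit
      obtain ⟨i1, i2, i3, i4⟩ := ih (by omega)
      have hS : S i = insert (q (i + 1)) (S (i + 1)) := by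
        ext z
        constructor
        · rintro ⟨j, h1, h2, rfl⟩
          by_cases e : j = i + 1
          · exact Or.inl (e ▸ rfl)
          · exact Or.inr ⟨j, by omega, h2, rfl⟩
        · rintro (rfl | ⟨j, h1, h2, rfl⟩)
          exacts [⟨_, by omega, hit, rfl⟩, ⟨j, by omega, h2, rfl⟩]
      obtain ⟨j, rfl⟩ : ∃ j, i = j + 1 := ⟨i - 1, by omega⟩
      rw [Nat.add_sub_cancel] at i3 ⊢
      obtain ⟨s1, s2, s3⟩ := hsq (j + 1) hi hit
      have hnm : ∀ f ∈ K j, s (j + 1) * f * (s (j + 1))⁻¹ ∈ K j := by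
        intro f hf
        induction hf using Subgroup.closure_induction with
        | mem x hx =>
          rcases hx with hx | ⟨l, h1, h2, rfl⟩
          · exact hGK _ (hnorm _ hi hit x hx)
          · rw [show s (j + 1) * s l * (s (j + 1))⁻¹ =
              (s l)⁻¹ * (s l * s (j + 1)) ^ 2 * (s (j + 1) ^ 2)⁻¹ by simp only [pow_two]; group]
            exact (K j).mul_mem ((K j).mul_mem ((K j).inv_mem (hsK _ _ h1 h2))
              (hHK _ (hcomm l (j + 1) h1 (by omega) hit).1))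
              ((K j).inv_mem (hHK _ (hsq2 _ (by omega) hit)))
        | one => simpa using (K j).one_mem
        | mul x y _ _ hx hy =>
          rw [show s (j + 1) * (x * y) * (s (j + 1))⁻¹ =
            s (j + 1) * x * (s (j + 1))⁻¹ * (s (j + 1) * y * (s (j + 1))⁻¹) by group]
          exact (K j).mul_mem hx hy
        | inv x _ hx =>
          rw [show s (j + 1) * x⁻¹ * (s (j + 1))⁻¹ = (s (j + 1) * x * (s (j + 1))⁻¹)⁻¹ by group]
          exact (K j).inv_mem hx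
      obtain ⟨r1, r2, r3⟩ := step (K (j + 1)) (S (j + 1 + 1)) (q (j + 1 + 1)) (q (j + 1)) (q j)
        (s (j + 1)) (s j) (hS ▸ i1) (by
          rintro _ ⟨l, h1, h2, rfl⟩
          exact s3 l (by omega) h2 (by omega) (by omega))
        (hqS _ _ (by omega) le_rfl hit) (hS ▸ hqS _ _ (by omega) le_rfl (by omega))
        (hS ▸ hqS _ _ (by omega) (by omega) (by omega))
        (fun e => by have := hq _ _ (by omega) (by omega) (by omega) (by omega) e; omega)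
        (hS ▸ i2 2 hi) (hsK _ _ (by omega) le_rfl) s2 s1 (by
          by_cases e : j = 1
          · subst e; exact hs1q.2
          · exact (hsq j (by omega) (by omega)).2.1)
        (hHK _ (hbraid j (by omega) hit)) (hHK _ (hsq2 _ (by omega) hit))
        (fun f hf e => hmono _ _ (by omega) (hnm f (i3 f hf e))) (K (j + 1 + 1)) (by
          refine le_antisymm ((Subgroup.closure_le _).2 ?_) ((Subgroup.closure_le _).2 ?_)
          · rintro x (hx | ⟨l, h1, h2, rfl⟩)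
            · exact Subgroup.subset_closure (Or.inl (hGK _ hx))
            · by_cases e : l = j + 1
              · exact Subgroup.subset_closure (Or.inr (e ▸ rfl))
              · exact Subgroup.subset_closure (Or.inl (hsK _ _ h1 (by omega)))
          · rintro x (hx | rfl)
            exacts [hmono _ _ (by omega) hx, hsK _ _ (by omega) le_rfl])
      refine ⟨r2, fun k hk => ?_, r1, fun f hf e =>
        i4 f (r1 f hf (e _ (by omega) le_rfl)) fun l h1 h2 => e l h1 (by omega)⟩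
      rcases k with _ | k
      · exact fun _ _ _ _ _ _ => ⟨1, Subgroup.one_mem _, fun i => i.elim0⟩
      · exact r3 k (hS ▸ i2 k (by omega))
  have hKt : Subgroup.closure ((G : Set (Equiv.Perm α)) ∪
      {x | ∃ i : ℕ, 2 ≤ i ∧ i + 1 ≤ t ∧ x = s i}) = K t := by
    refine le_antisymm ((Subgroup.closure_le _).2 ?_) ((Subgroup.closure_le _).2 ?_)
    · rintro x (hx | ⟨l, h1, h2, rfl⟩)
      exacts [hmono _ _ ht (hK2.ge hx), hsK _ _ (by omega) h2]
    · rintro x (hx | ⟨l, h1, h2, rfl⟩)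
      · exact Subgroup.subset_closure (Or.inl hx.1)
      · by_cases e : l = 1
        · exact Subgroup.subset_closure (Or.inl (e ▸ hs1))
        · exact Subgroup.subset_closure (Or.inr ⟨l, by omega, h2, rfl⟩)
  rw [hKt]
  obtain ⟨-, i2, -, i4⟩ := hind t ht le_rfl
  refine ⟨MulAction.isMultiplyPretransitive_iff.2 fun x y => ?_, le_antisymm (fun f hf => ?_)
    (le_inf (hHK t) fun f hf => ?_)⟩
  · have hS : ∀ z, z ∉ S t := by rintro z ⟨j, h1, h2, -⟩; omega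
    obtain ⟨g, hg, e⟩ := i2 t le_rfl x y x.injective y.injective (fun _ => hS _) (fun _ => hS _)
    exact ⟨⟨g, hg⟩, Function.Embedding.ext e⟩
  · exact i4 f hf.1 fun j h1 h2 => hf.2 ⟨q j, j, h1, h2, rfl⟩
  · rintro ⟨_, j, h1, h2, rfl⟩
    rw [hH] at hf
    by_cases e1 : j = 1
    · subst e1; exact hf.1.2
    by_cases e2 : j = 2
    · subst e2; exact hf.2
    exact hfix f hf.1.1 j (by omega) h2

end Cfsg.Agent.S0709
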