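import Cfsg.Statements.S0711
import Mathlib
import Cfsg.Agent.Lib.Perm.PermJordan

set_option autoImplicit false
open Cfsg

namespace Cfsg.Agent.S0711

open MulAction CA.PermJordan

/-- A `k`-transitive permutation group (`k ≥ 3`) with a non-identity element of support smaller than `2k - 2` contains a non-identity element of support at most 3, and therefore contains the alternating group. -/
theorem result {α : Type*} [Fintype α] [DecidableEq α] (G : Subgroup (Equiv.Perm α)) {k : ℕ} (hk : 3 ≤ k) (hkn : k ≤ Fintype.card α) (hG : MulAction.IsMultiplyPretransitive G α k) (g : Equiv.Perm α) (hg : g ∈ G) (hg1 : g ≠ 1) (hsupp : g.support.card < 2 * k - 2) : (∃ h : Equiv.Perm α, h ∈ G ∧ h ≠ 1 ∧ h.support.card ≤ 3) ∧ alternatingGroup α ≤ G := by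
  exact ⟨exists_support_le_three G hk hkn hG g hg hg1 hsupp,
    alt_le_of_support_lt G hk hkn hG g hg hg1 hsupp⟩

end Cfsg.Agent.S0711
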