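import Cfsg.Statements.S0714
import Mathlib
import Cfsg.Agent.Lib.Perm.PermMod

set_option autoImplicit false
open Cfsg

namespace Cfsg.Agent.S0714

open MulAction CA.PermBasic CA.PermMulti CA.PermMod

/-- Over any field, the permutation module of the alternating group of degree at least 5 has exactly four invariant subspaces: zero, the constant functions, the functions with coordinate sum zero, and everything. -/
theorem result {α : Type*} [Fintype α] [DecidableEq α] (hα : 5 ≤ Fintype.card α) {K : Type*} [Field K] (W : Subrepresentation (Cfsg.permRep K (alternatingGroup α) α)) : W.toSubmodule = ⊥ ∨ W = Cfsg.permConstants K (alternatingGroup α) α ∨ W = Cfsg.permSumZero K (alternatingGroup α) α ∨ W.toSubmodule = ⊤ := by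
  have hW := inv_subrep W
  have h3 : IsMultiplyPretransitive (alternatingGroup α) α 3 :=
    mpt_of_le (alternatingGroup.isMultiplyPretransitive α) (by rw [Nat.card_eq_fintype_card]; omega)
      (by omega)
  by_cases hc : ∀ f ∈ W.toSubmodule, ∀ x y, f x = f y
  · by_cases h0 : W.toSubmodule = ⊥
    · exact Or.inl h0
    refine Or.inr (Or.inl (Subrepresentation.toSubmodule_injective (le_antisymm ?_ ?_)))
    · intro f hf
      obtain ⟨a⟩ : Nonempty α := Fintype.card_pos_iff.1 (by omega)
      exact mem_permConstants.2 ⟨f a, funext fun x => hc f hf x a⟩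
    · obtain ⟨f, hf, hf0⟩ := (Submodule.ne_bot_iff _).1 h0
      obtain ⟨a, ha⟩ := Function.ne_iff.1 hf0
      rw [permConstants_le_iff]
      convert W.toSubmodule.smul_mem (f a)⁻¹ hf using 1
      ext x
      rw [Pi.smul_apply, hc f hf x a, smul_eq_mul, inv_mul_cancel₀ ha]
  push Not at hc
  obtain ⟨f, hf, a, b, hab⟩ := hc
  have hab' : a ≠ b := fun e => hab (by rw [e])
  -- `f - f ∘ (a b)(c d)`-type differences give a vector of support at most three
  have hdiff : ∀ f ∈ W.toSubmodule, ∀ x y z : α, x ≠ y → x ≠ z → y ≠ z →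
      (f y - f x) • (Pi.single x 1 : α → K) + (f z - f y) • (Pi.single y 1 : α → K) +
        (f x - f z) • (Pi.single z 1 : α → K) ∈ W.toSubmodule := by
    intro f hf x y z hxy hxz hyz
    have := W.toSubmodule.sub_mem (hW ⟨Equiv.swap x z * Equiv.swap x y,
      Equiv.Perm.mul_mem_alternatingGroup_of_isSwap ⟨_, _, hxz, rfl⟩ ⟨_, _, hxy, rfl⟩⟩ f hf) hf
    convert this using 1
    ext u
    show _ = f (Equiv.swap x z (Equiv.swap x y u)) - f u
    by_cases h1 : u = x
    · subst h1; simp [hxy, hxz, Equiv.swap_apply_of_ne_of_ne hxy.symm hyz]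
    by_cases h2 : u = y
    · subst h2; simp [h1, hyz]
    by_cases h3 : u = z
    · subst h3; simp [h1, h2, Equiv.swap_apply_of_ne_of_ne h1 h2]
    simp [h1, h2, h3, Equiv.swap_apply_of_ne_of_ne]
  obtain ⟨c, -, hc⟩ := Finset.exists_mem_notMem_of_card_lt_card (s := {a, b}) (t := Finset.univ)
    (Finset.card_le_two.trans_lt (by rw [Finset.card_univ]; omega))
  obtain ⟨d, -, hd⟩ := Finset.exists_mem_notMem_of_card_lt_card (s := {a, b, c}) (t := Finset.univ)
    (Finset.card_le_three.trans_lt (by rw [Finset.card_univ]; omega))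
  obtain ⟨e, -, he⟩ := Finset.exists_mem_notMem_of_card_lt_card (s := insert d {a, b, c})
    (t := Finset.univ) (((Finset.card_insert_le _ _).trans
      (Nat.succ_le_succ Finset.card_le_three)).trans_lt (by rw [Finset.card_univ]; omega))
  simp only [Finset.mem_insert, Finset.mem_singleton, not_or] at hc hd he
  have h1 := hdiff f hf a b c hab' (Ne.symm hc.1) (Ne.symm hc.2)
  have h2 := hdiff _ h1 a d e (Ne.symm hd.1) (Ne.symm he.2.1) (Ne.symm he.1)
  have h4 : (Pi.single e 1 - Pi.single a 1 : α → K) ∈ W.toSubmodule := by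
    convert W.toSubmodule.smul_mem (f b - f a)⁻¹ h2 using 1
    have : f b - f a ≠ 0 := sub_ne_zero.2 hab.symm
    simp only [Pi.add_apply, Pi.smul_apply, Pi.single_apply, hab', Ne.symm hc.1, hd.1, hd.2.1,
      hd.2.2, he.2.1, he.2.2.1, he.2.2.2, if_true, if_false, smul_eq_mul, mul_one, mul_zero,
      add_zero, zero_sub, sub_zero, zero_smul, smul_add, smul_smul, mul_neg, inv_mul_cancel₀ this,
      sub_self]
    module
  have h5 : ∀ x y : α, (Pi.single x 1 - Pi.single y 1 : α → K) ∈ W.toSubmodule := by
    intro x y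
    by_cases hxy : x = y
    · simp [hxy]
    obtain ⟨g, e1, e2⟩ := two_iff.1 (mpt_of_le h3 (by norm_num) (by
      rw [Nat.card_eq_fintype_card]; omega)) x y e a hxy he.2.1
    convert hW g _ h4 using 1
    ext u
    simp [Pi.single_apply, ← e1, ← e2]
  have h6 : (Cfsg.permSumZero K (alternatingGroup α) α).toSubmodule ≤ W.toSubmodule := by
    intro v hv
    have : v = ∑ x, v x • (Pi.single x 1 - Pi.single a 1 : α → K) := by
      simp only [smul_sub, Finset.sum_sub_distrib, ← Finset.sum_smul, mem_permSumZero.1 hv,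
        zero_smul, sub_zero]
      exact pi_eq_sum_univ' v
    rw [this]
    exact Submodule.sum_mem _ (fun x _ => W.toSubmodule.smul_mem _ (h5 x a))
  by_cases h7 : W.toSubmodule ≤ (Cfsg.permSumZero K (alternatingGroup α) α).toSubmodule
  · exact Or.inr (Or.inr (Or.inl (Subrepresentation.toSubmodule_injective (le_antisymm h7 h6))))
  refine Or.inr (Or.inr (Or.inr ?_))
  obtain ⟨u, hu, hu'⟩ := SetLike.not_le_iff_exists.1 h7
  rw [mem_permSumZero] at hu'
  rw [eq_top_iff]
  intro v _
  have := W.toSubmodule.add_mem (h6 (x := v - ((∑ x, v x) / ∑ x, u x) • u) (by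
    rw [mem_permSumZero]
    simp only [Pi.sub_apply, Pi.smul_apply, smul_eq_mul, Finset.sum_sub_distrib, ← Finset.mul_sum]
    rw [div_mul_cancel₀ _ hu', sub_self])) (W.toSubmodule.smul_mem ((∑ x, v x) / ∑ x, u x) hu)
  simpa using this

end Cfsg.Agent.S0714
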