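import Cfsg.Statements.S0716
import Mathlib
import Cfsg.Agent.Lib.Perm.PermChar

set_option autoImplicit false
open Cfsg

namespace Cfsg.Agent.S0716

open MulAction CA.PermChar CChar.CharFun CChar.CharOrth Cfsg

theorem partA {G : Type*} [Group G] [Fintype G] {Ω : Type*} [Fintype Ω] [MulAction G Ω]
    [IsPretransitive G Ω] (a : Ω) (f : ℕ) (hf : ∀ χ : G → ℂ, IsIrrCharacter G χ →
      χ ≠ (fun _ => 1) → classInner (pc G Ω) χ ≠ 0 → χ 1 = f) :
    (∀ χ : G → ℂ, IsIrrCharacter G χ → classInner (pc G Ω) χ = 0 ∨ classInner (pc G Ω) χ = 1) ∧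
      ∀ b : Ω, b ≠ a → Nat.card (orbit (stabilizer G a) b) = f := by
  classical
  have : Nonempty Ω := ⟨a⟩
  obtain ⟨e, he, -⟩ := char_exists_nat_coeffs (char_perm (G := G) Ω)
  have h1 : e (irrOne G) = 1 := by
    exact_mod_cast (he (irrOne G)).symm.trans inner_pc_one_of_pretransitive
  have h2 : Nat.card Ω = 1 + f * ∑ χ ∈ Finset.univ.erase (irrOne G), e χ := by
    have := classFun_apply_eq_sum (char_classFun (char_perm (G := G) Ω)) 1
    rw [← Finset.add_sum_erase _ _ (Finset.mem_univ (irrOne G)), he, h1, irrOne_apply,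
      Finset.sum_congr rfl (g := fun χ => (f : ℂ) * e χ) (fun χ hχ => by
        by_cases h0 : classInner (pc G Ω) χ = 0
        · rw [← he, h0]; simp
        · rw [hf χ χ.2 (fun e => (Finset.mem_erase.1 hχ).1 (Subtype.ext e)) h0, he, mul_comm]),
      ← Finset.mul_sum] at this
    have h := pc_one (G := G) (X := Ω)
    rw [pc, this] at h
    exact_mod_cast h.symm
  have h3 : Nat.card (orbitRel.Quotient (stabilizer G a) Ω) =
      1 + ∑ χ ∈ Finset.univ.erase (irrOne G), e χ * e χ := by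
    have := inner_pc_self (G := G) a
    rw [inner_eq_sum (char_classFun (char_perm (G := G) Ω)),
      ← Finset.add_sum_erase _ _ (Finset.mem_univ (irrOne G))] at this
    simp only [he, h1, map_natCast] at this
    exact_mod_cast this.symm
  have := Fintype.ofFinite (orbitRel.Quotient (stabilizer G a) Ω)
  have h4 := sum_card_orbits (X := Ω) (stabilizer G a)
  rw [finsum_eq_sum_of_fintype, ← Finset.add_sum_erase _ _ (Finset.mem_univ (Quotient.mk'' a)),
    orbitRel.Quotient.orbit_mk, show orbit (stabilizer G a) a = {a} from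
      Set.eq_singleton_iff_unique_mem.2 ⟨mem_orbit_self a, by rintro _ ⟨g, rfl⟩; exact g.2⟩,
    Nat.card_unique] at h4
  have h5 : ∀ q ∈ Finset.univ.erase (Quotient.mk'' a : orbitRel.Quotient (stabilizer G a) Ω),
      f ≤ Nat.card (orbitRel.Quotient.orbit q) := by
    intro q hq
    induction q using Quotient.inductionOn' with
    | h b =>
      have : Nonempty (orbit (stabilizer G a) b) := ⟨⟨b, mem_orbit_self b⟩⟩
      rw [orbitRel.Quotient.orbit_mk]
      exact Nat.le_of_dvd Nat.card_pos (dvd_subdegree f (fun χ h1 h2 h3 => ⟨1, by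
        rw [hf χ h1 h2 h3]; simp⟩) fun e : a = b => (Finset.mem_erase.1 hq).1 (by rw [e]))
  have h6 := Finset.sum_le_sum h5
  rw [Finset.sum_const, Finset.card_erase_of_mem (Finset.mem_univ _), Finset.card_univ,
    ← Nat.card_eq_fintype_card, h3, Nat.add_sub_cancel_left, smul_eq_mul] at h6
  have h7 : ∀ χ ∈ Finset.univ.erase (irrOne G), e χ ≤ e χ * e χ := fun χ _ => Nat.le_mul_self _
  have h8 := Finset.sum_le_sum h7
  constructor
  · intro χ hχ
    by_cases h0 : χ = fun _ => 1
    · exact Or.inr (h0 ▸ inner_pc_one_of_pretransitive)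
    by_cases h9 : classInner (pc G Ω) χ = 0
    · exact Or.inl h9
    have hf0 : 0 < f := Nat.pos_of_ne_zero fun e => irr_apply_one_ne_zero hχ (by
      rw [hf χ hχ h0 h9, e, Nat.cast_zero])
    have := (Finset.sum_eq_sum_iff_of_le h7).1 (by nlinarith) ⟨χ, hχ⟩
      (Finset.mem_erase.2 ⟨fun e => h0 (congrArg Subtype.val e), Finset.mem_univ _⟩)
    have h10 := he ⟨χ, hχ⟩
    right
    rw [h10, Nat.cast_eq_one]
    rw [h10, Nat.cast_eq_zero] at h9
    exact (Nat.eq_of_mul_eq_mul_left (Nat.pos_of_ne_zero h9) (by rw [← this, mul_one])).symm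
  · intro b hb
    refine ((Finset.sum_eq_sum_iff_of_le h5).1 ?_ (Quotient.mk'' b) (Finset.mem_erase.2
      ⟨fun e => ?_, Finset.mem_univ _⟩)).symm
    · rw [Finset.sum_const, Finset.card_erase_of_mem (Finset.mem_univ _), Finset.card_univ,
        ← Nat.card_eq_fintype_card, h3, Nat.add_sub_cancel_left, smul_eq_mul]
      nlinarith
    · obtain ⟨g, hg⟩ := Quotient.exact' e
      exact hb (hg.symm.trans g.2)

/-- (a) If all non-principal irreducible constituents of the permutation character of a transitive group have the same degree `f`, the character is multiplicity-free and all non-trivial subdegrees equal `f`. (b) A transitive group of rank at most 5 has multiplicity-free permutation character. -/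
theorem result {G : Type*} [Group G] [Fintype G] {Ω : Type*} [Fintype Ω] [MulAction G Ω] [MulAction.IsPretransitive G Ω] (a : Ω) : ((f : ℕ) → (∀ χ : G → ℂ, Cfsg.IsIrrCharacter G χ → χ ≠ (fun _ => 1) → Cfsg.classInner (fun g : G => (Nat.card (MulAction.fixedBy Ω g) : ℂ)) χ ≠ 0 → χ 1 = f) → (∀ χ : G → ℂ, Cfsg.IsIrrCharacter G χ → Cfsg.classInner (fun g : G => (Nat.card (MulAction.fixedBy Ω g) : ℂ)) χ = 0 ∨ Cfsg.classInner (fun g : G => (Nat.card (MulAction.fixedBy Ω g) : ℂ)) χ = 1) ∧ ∀ b : Ω, b ≠ a → Nat.card (MulAction.orbit (MulAction.stabilizer G a) b) = f) ∧ (Nat.card (MulAction.orbitRel.Quotient (MulAction.stabilizer G a) Ω) ≤ 5 → ∀ χ : G → ℂ, Cfsg.IsIrrCharacter G χ → Cfsg.classInner (fun g : G => (Nat.card (MulAction.fixedBy Ω g) : ℂ)) χ = 0 ∨ Cfsg.classInner (fun g : G => (Nat.card (MulAction.fixedBy Ω g) : ℂ)) χ = 1) := by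
  classical
  refine ⟨partA a, fun h => ?_⟩
  have : Nonempty Ω := ⟨a⟩
  obtain ⟨e, he, -⟩ := char_exists_nat_coeffs (char_perm (G := G) Ω)
  have h1 : e (irrOne G) = 1 := by
    exact_mod_cast (he (irrOne G)).symm.trans inner_pc_one_of_pretransitive
  have h3 : Nat.card (orbitRel.Quotient (stabilizer G a) Ω) =
      1 + ∑ χ ∈ Finset.univ.erase (irrOne G), e χ * e χ := by
    have := inner_pc_self (G := G) a
    rw [inner_eq_sum (char_classFun (char_perm (G := G) Ω)),
      ← Finset.add_sum_erase _ _ (Finset.mem_univ (irrOne G))] at this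
    simp only [he, h1, map_natCast] at this
    exact_mod_cast this.symm
  intro χ hχ
  by_contra hcon
  have h4 : 2 ≤ e ⟨χ, hχ⟩ := by
    rw [show Cfsg.classInner _ χ = _ from he ⟨χ, hχ⟩, Nat.cast_eq_zero, Nat.cast_eq_one] at hcon
    omega
  have h5 : (⟨χ, hχ⟩ : IrrCharacter G) ∈ Finset.univ.erase (irrOne G) :=
    Finset.mem_erase.2 ⟨fun e' => by rw [e', h1] at h4; omega, Finset.mem_univ _⟩
  rw [← Finset.add_sum_erase _ _ h5] at h3
  have h6 : ∑ ψ ∈ (Finset.univ.erase (irrOne G)).erase ⟨χ, hχ⟩, e ψ * e ψ = 0 := by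
    have := Nat.mul_le_mul h4 h4
    generalize ∑ ψ ∈ (Finset.univ.erase (irrOne G)).erase ⟨χ, hχ⟩, e ψ * e ψ = c at h3 ⊢
    omega
  obtain ⟨n, -, hn⟩ := irr_apply_one hχ
  refine hcon ((partA a n fun ψ h7 h8 h9 => ?_).1 χ hχ)
  by_contra h10
  have := Finset.sum_eq_zero_iff.1 h6 ⟨ψ, h7⟩ (Finset.mem_erase.2
    ⟨fun e => h10 (by rw [← hn, show ψ = χ from congrArg Subtype.val e]),
    Finset.mem_erase.2 ⟨fun e => h8 (congrArg Subtype.val e), Finset.mem_univ _⟩⟩)
  exact h9 ((he ⟨ψ, h7⟩).trans (by rw [mul_self_eq_zero.1 this, Nat.cast_zero]))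

end Cfsg.Agent.S0716
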