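import Cfsg.Statements.S0717
import Mathlib
import Cfsg.Agent.Lib.Perm.PermChar

set_option autoImplicit false
open Cfsg

namespace Cfsg.Agent.S0717

open MulAction CA.PermChar CA.Commutant CChar.CharFun CChar.CharOrth Cfsg
open scoped ComplexConjugate

theorem E_tr {G : Type*} [Group G] [Fintype G] {Ω : Type*} [Fintype Ω] [DecidableEq Ω]
    [MulAction G Ω] {χ : G → ℂ} (hχ : IsCharacter G χ) (x y : Ω) :
    LinearMap.toMatrix' (E (permRep ℂ G Ω) χ) y x =
      LinearMap.toMatrix' (E (permRep ℂ G Ω) fun g => conj (χ g)) x y := by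
  rw [toMatrix_E, toMatrix_E, ← Equiv.sum_comp (Equiv.inv G)]
  refine Finset.sum_congr rfl fun g _ => ?_
  simp only [Equiv.inv_apply, eq_inv_smul_iff, char_apply_inv hχ, eq_comm]

/-- All suborbits of a transitive group are self-paired (every pair of points is interchanged by some group element) if and only if the permutation character is multiplicity-free and each of its irreducible constituents is real-valued. -/
theorem result {G : Type*} [Group G] [Fintype G] {Ω : Type*} [Fintype Ω] [MulAction G Ω] [MulAction.IsPretransitive G Ω] : (∀ a b : Ω, ∃ g : G, g • a = b ∧ g • b = a) ↔ ∀ χ : G → ℂ, Cfsg.IsIrrCharacter G χ → Cfsg.classInner (fun g : G => (Nat.card (MulAction.fixedBy Ω g) : ℂ)) χ ≠ 0 → Cfsg.classInner (fun g : G => (Nat.card (MulAction.fixedBy Ω g) : ℂ)) χ = 1 ∧ ∀ g : G, (starRingEnd ℂ) (χ g) = χ g := by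
  classical
  constructor
  · intro h χ hχ h0
    have hs : ∀ A : Module.End ℂ (Ω → ℂ), (∀ g, A * permRep ℂ G Ω g = permRep ℂ G Ω g * A) →
        (LinearMap.toMatrix' A).transpose = LinearMap.toMatrix' A := by
      intro A hA
      ext x y
      obtain ⟨g, h1, h2⟩ := h x y
      rw [Matrix.transpose_apply, ← comm_iff_invM.1 hA g x y, h1, h2]
    have h1 := multFree_of_comm (permRep ℂ G Ω) (fun A B hA hB => by
      apply LinearMap.toMatrix'.injective
      rw [← hs (A * B) (fun g => by rw [mul_assoc, hB, ← mul_assoc, hA, mul_assoc]),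
        LinearMap.toMatrix'_mul, LinearMap.toMatrix'_mul, Matrix.transpose_mul, hs A hA, hs B hB])
      hχ
    rw [character_permRep] at h1
    refine ⟨h1.resolve_left h0, ?_⟩
    by_contra hne
    have h2 : E (permRep ℂ G Ω) χ = E (permRep ℂ G Ω) fun g => conj (χ g) := by
      apply LinearMap.toMatrix'.injective
      rw [← hs _ (E_comm _ (irr_classFun hχ))]
      ext x y
      exact E_tr (char_of_irr hχ) x y
    have h3 := E_mul_E (permRep ℂ G Ω) hχ (irr_conj hχ)
    rw [if_neg (fun e => hne fun g => (congrFun e g).symm), ← h2, E_mul_E _ hχ hχ, if_pos rfl,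
      smul_eq_zero, E_eq_zero_iff _ hχ, character_permRep] at h3
    exact h3.elim (div_ne_zero CChar.CharRep.card_ne_zero (irr_apply_one_ne_zero hχ)) h0
  · intro h a b
    obtain ⟨c, hc⟩ := exists_eq_sum_E (permRep ℂ G Ω) (fun χ hχ => by
      rw [character_permRep]
      exact (eq_or_ne _ _).imp_right fun h0 => (h χ hχ h0).1) (invM_adj (G := G) a b).comm
    have h1 := congrArg LinearMap.toMatrix' hc
    rw [LinearMap.toMatrix'_toLin'] at h1
    have h2 : adj G a b b a = adj G a b a b := by
      rw [h1]
      simp only [map_sum, map_smul, Matrix.sum_apply, Matrix.smul_apply]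
      refine Finset.sum_congr rfl fun χ _ => ?_
      by_cases h0 : classInner (pc G Ω) χ = 0
      · rw [(E_eq_zero_iff _ χ.2).2 (by rwa [character_permRep])]; simp
      · rw [E_tr (char_of_irr χ.2), funext (h χ χ.2 h0).2]
    by_contra h3
    rw [adj, adj, if_neg h3, if_pos ⟨1, by simp⟩] at h2
    exact zero_ne_one h2

end Cfsg.Agent.S0717
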