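import Cfsg.Statements.S0718
import Mathlib
import Cfsg.Agent.Lib.Perm.PermChar

set_option autoImplicit false
open Cfsg

namespace Cfsg.Agent.S0718

open MulAction CA.PermChar CA.Commutant CChar.CharFun CChar.CharOrth Cfsg

/-- Multiplicity-freeness of the permutation character is equivalent to commutativity of the centraliser ring, i.e. of the algebra of `G`-equivariant endomorphisms of the complex permutation module. -/
theorem result {G : Type*} [Group G] [Fintype G] {Ω : Type*} [Fintype Ω] [MulAction G Ω] : (∀ χ : G → ℂ, Cfsg.IsIrrCharacter G χ → Cfsg.classInner (fun g : G => (Nat.card (MulAction.fixedBy Ω g) : ℂ)) χ = 0 ∨ Cfsg.classInner (fun g : G => (Nat.card (MulAction.fixedBy Ω g) : ℂ)) χ = 1) ↔ ∀ S T : (Ω → ℂ) →ₗ[ℂ] (Ω → ℂ), S ∈ ((Cfsg.permRep ℂ G Ω).linHom (Cfsg.permRep ℂ G Ω)).invariants → T ∈ ((Cfsg.permRep ℂ G Ω).linHom (Cfsg.permRep ℂ G Ω)).invariants → S ∘ₗ T = T ∘ₗ S := by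
  classical
  have key : ∀ S : (Ω → ℂ) →ₗ[ℂ] (Ω → ℂ),
      S ∈ ((permRep ℂ G Ω).linHom (permRep ℂ G Ω)).invariants ↔
        ∀ g, S * permRep ℂ G Ω g = permRep ℂ G Ω g * S := by
    intro S
    rw [Representation.mem_invariants]
    refine forall_congr' fun g => ?_
    show permRep ℂ G Ω g * (S * permRep ℂ G Ω g⁻¹) = S ↔ _
    constructor
    · intro h
      rw [← h, mul_assoc, mul_assoc, ← map_mul, inv_mul_cancel, map_one, mul_one, h]
    · intro h
      rw [← mul_assoc, ← h, mul_assoc, ← map_mul, mul_inv_cancel, map_one, mul_one]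
  simp only [key]
  constructor
  · intro h S T hS hT
    exact comm_of_multFree _ (by rwa [character_permRep]) hS hT
  · intro h χ hχ
    have := multFree_of_comm _ h hχ
    rwa [character_permRep] at this

end Cfsg.Agent.S0718
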