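import Cfsg.Statements.S0722
import Mathlib
import Cfsg.Agent.Lib.Perm.PermMulti

set_option autoImplicit false
open Cfsg

namespace Cfsg.Agent.S0722

open MulAction CA.PermBasic CA.PermMulti

/-- In a primitive group `H`, with `N` a minimal normal subgroup and `K` a point stabiliser, `K ⊓ N` is maximal among proper `K`-invariant subgroups of `N`. -/
theorem result {α : Type*} [Finite α] (H : Subgroup (Equiv.Perm α)) [MulAction.IsPreprimitive H α] (N : Subgroup H) [N.Normal] (hN : N ≠ ⊥) (hmin : ∀ M : Subgroup H, M.Normal → M ≤ N → M = ⊥ ∨ M = N) (a : α) (X : Subgroup H) (hX : X ≤ N) (hKX : MulAction.stabilizer H a ⊓ N ≤ X) (hinv : MulAction.stabilizer H a ≤ Subgroup.normalizer (X : Set H)) : X = MulAction.stabilizer H a ⊓ N ∨ X = N := by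
  by_cases h : X ≤ stabilizer H a
  · exact Or.inl (le_antisymm (le_inf h hX) hKX)
  right
  obtain ⟨x, hxX, hxa⟩ := SetLike.not_le_iff_exists.1 h
  have htop : X ⊔ stabilizer H a = ⊤ :=
    eq_top_of_stabilizer_le inferInstance le_sup_right (Subgroup.mem_sup_left hxX) hxa
  have hnorm : X.Normal := by
    rw [← Subgroup.normalizer_eq_top_iff, eq_top_iff, ← htop]
    exact sup_le Subgroup.le_normalizer hinv
  refine (hmin X hnorm hX).resolve_left ?_
  rintro rfl
  exact h bot_le

end Cfsg.Agent.S0722
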