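import Cfsg.Statements.S0724
import Mathlib
import Cfsg.Agent.Lib.Perm.PermMulti

set_option autoImplicit false
open Cfsg

namespace Cfsg.Agent.S0724

open MulAction CA.PermBasic CA.PermMulti

/-- Blichfeldt's Theorem: if a finite set `L` of natural numbers contains the number of fixed points of every non-identity element of a permutation group `G` of degree `n`, then the order of `G` divides `∏ (n - l)` over `l ∈ L`. -/
theorem result {α : Type*} [Fintype α] [DecidableEq α] (G : Subgroup (Equiv.Perm α)) (L : Finset ℕ) (hL : ∀ g ∈ G, g ≠ 1 → Nat.card (MulAction.fixedBy α g) ∈ L) : Nat.card G ∣ ∏ l ∈ L, (Fintype.card α - l) := by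
  classical
  have key : ∀ (m : ℕ), ((Nat.card G : ℤ)) ∣ ∑ g : G, (Nat.card (fixedBy α g) : ℤ) ^ m := by
    intro m
    have h := sum_card_fixedBy (G := G) (X := Fin m → α)
    have e : ∀ g : G, Nat.card (fixedBy (Fin m → α) g) = Nat.card (fixedBy α g) ^ m := by
      intro g
      have : fixedBy (Fin m → α) g ≃ (Fin m → fixedBy α g) :=
        { toFun := fun x i => ⟨x.1 i, congrFun x.2 i⟩
          invFun := fun y => ⟨fun i => y i, funext fun i => (y i).2⟩
          left_inv := fun _ => rfl
          right_inv := fun _ => rfl }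
      rw [Nat.card_congr this, Nat.card_fun, Nat.card_fin]
    simp only [e] at h
    have := congrArg (Nat.cast : ℕ → ℤ) h
    push_cast at this
    rw [this]
    exact Dvd.intro_left _ rfl
  have key2 : ∀ P : Polynomial ℤ,
      ((Nat.card G : ℤ)) ∣ ∑ g : G, P.eval (Nat.card (fixedBy α g) : ℤ) := by
    intro P
    induction P using Polynomial.induction_on' with
    | add p q hp hq => simp only [Polynomial.eval_add, Finset.sum_add_distrib]; exact dvd_add hp hq
    | monomial n a =>
      simp only [Polynomial.eval_monomial, ← Finset.mul_sum]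
      exact (key n).mul_left a
  have h := key2 (∏ l ∈ L, (Polynomial.X - Polynomial.C (l : ℤ)))
  rw [Finset.sum_eq_single (1 : G)] at h
  · rw [fixedBy_one_eq_univ, Nat.card_coe_set_eq, Set.ncard_univ, Nat.card_eq_fintype_card (α := α)] at h
    simp only [Polynomial.eval_prod, Polynomial.eval_sub, Polynomial.eval_X, Polynomial.eval_C] at h
    by_cases hl : ∀ l ∈ L, l ≤ Fintype.card α
    · rw [← Int.natCast_dvd_natCast, Nat.cast_prod]
      convert h using 1
      exact Finset.prod_congr rfl (fun l hl' => Nat.cast_sub (hl l hl'))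
    · push Not at hl
      obtain ⟨l, hl1, hl2⟩ := hl
      rw [Finset.prod_eq_zero hl1 (by omega)]
      exact dvd_zero _
  · intro g _ hg
    rw [Polynomial.eval_prod]
    exact Finset.prod_eq_zero (hL g g.2 (fun e => hg (Subtype.ext e))) (by rw [Polynomial.eval_sub, Polynomial.eval_X, Polynomial.eval_C]; exact sub_self _)
  · simp

end Cfsg.Agent.S0724
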