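import Cfsg.Statements.S0726
import Mathlib
import Cfsg.Agent.Lib.Perm.PermMulti

set_option autoImplicit false
open Cfsg

namespace Cfsg.Agent.S0726

open MulAction CA.PermBasic CA.PermMulti

/-- The left and right regular permutation representations of a group are each other's centralisers in the symmetric group: the centraliser of the left regular image is the right regular image, and a transitive subgroup centralising the left regular image is the whole right regular image. -/
theorem result {G : Type*} [Group G] : Subgroup.centralizer ((MulAction.toPermHom G G).range : Set (Equiv.Perm G)) = (MulAction.toPermHom Gᵐᵒᵖ G).range ∧ ∀ H : Subgroup (Equiv.Perm G), H ≤ Subgroup.centralizer ((MulAction.toPermHom G G).range : Set (Equiv.Perm G)) → MulAction.IsPretransitive H G → H = (MulAction.toPermHom Gᵐᵒᵖ G).range := by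
  have h1 : Subgroup.centralizer ((MulAction.toPermHom G G).range : Set (Equiv.Perm G)) =
      (MulAction.toPermHom Gᵐᵒᵖ G).range := by
    ext σ
    rw [Subgroup.mem_centralizer_iff]
    constructor
    · intro h
      refine ⟨MulOpposite.op (σ 1), ?_⟩
      ext x
      have := congrArg (fun τ : Equiv.Perm G => τ 1) (h _ ⟨x, rfl⟩)
      simpa using this
    · rintro ⟨c, rfl⟩ _ ⟨g, rfl⟩
      ext x
      simp [mul_assoc]
  refine ⟨h1, fun H hH ht => ?_⟩
  rw [h1] at hH
  refine le_antisymm hH ?_
  rintro _ ⟨c, rfl⟩
  obtain ⟨h, hh, e⟩ := (subgroup_pretransitive_iff H).1 ht 1 c.unop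
  obtain ⟨d, rfl⟩ := hH hh
  have : d = c := by
    apply MulOpposite.unop_injective
    simpa using e
  rwa [← this]

end Cfsg.Agent.S0726
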