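import Cfsg.Statements.S0728
import Mathlib
import Cfsg.Agent.Lib.Perm.ZassFull

set_option autoImplicit false
open Cfsg

namespace Cfsg.Agent.S0728

/-- In a sharply triply transitive group of even degree at least 6 (degree `q + 1`, `q` odd), a two-point stabiliser has at most one subgroup of order 3. -/
theorem result {α : Type*} [Fintype α] [DecidableEq α] (heven : Even (Fintype.card α)) (h6 : 6 ≤ Fintype.card α) (G : Subgroup (Equiv.Perm α)) (h3 : MulAction.IsMultiplyPretransitive G α 3) (hsharp : ∀ x : Fin 3 ↪ α, MulAction.stabilizer G x = ⊥) {a b : α} (hab : a ≠ b) (A B : Subgroup G) (hA : A ≤ MulAction.stabilizer G a ⊓ MulAction.stabilizer G b) (hB : B ≤ MulAction.stabilizer G a ⊓ MulAction.stabilizer G b) (hA3 : Nat.card A = 3) (hB3 : Nat.card B = 3) : A = B := by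
  have h := CA.Zass.zt_of_sharp inferInstance h3 (by rw [Nat.card_eq_fintype_card]; omega) hsharp
  have := Nat.fact_prime_three
  have k : ∀ C : Subgroup G, Nat.card C = 3 → ∃ x ∈ C, x ≠ 1 ∧ x ^ 3 = 1 ∧ C = Subgroup.zpowers x := fun C hC => by
    obtain ⟨x, hx⟩ := exists_prime_orderOf_dvd_card' (G := C) 3 hC.symm.dvd
    rw [← Subgroup.orderOf_coe] at hx
    exact ⟨x, x.2, fun e => by simp [e] at hx, hx ▸ pow_orderOf_eq_one _,
      (Subgroup.eq_of_le_of_card_ge (Subgroup.zpowers_le.2 x.2) (by rw [hC, Nat.card_zpowers, hx])).symm⟩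
  obtain ⟨x, hx, x1, x3, rfl⟩ := k A hA3
  obtain ⟨y, hy, y1, y3, rfl⟩ := k B hB3
  rcases h.eq_or_inv_of_three h3 hab (hA hx) (hB hy) x1 y1 x3 y3 with rfl | rfl <;> simp

end Cfsg.Agent.S0728
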