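import Cfsg.Statements.S0729
import Mathlib
import Cfsg.Agent.Lib.Perm.ZassFull

set_option autoImplicit false
open Cfsg

namespace Cfsg.Agent.S0729

/-- In a sharply triply transitive group of even degree at least 6, the two-point stabiliser `H = G_{a,b}` has a normal subgroup of index 2 that is normalised by the element `s` interchanging `a, b` and fixing a third point `c`. -/
theorem result {α : Type*} [Fintype α] [DecidableEq α] (heven : Even (Fintype.card α)) (h6 : 6 ≤ Fintype.card α) (G : Subgroup (Equiv.Perm α)) (h3 : MulAction.IsMultiplyPretransitive G α 3) (hsharp : ∀ x : Fin 3 ↪ α, MulAction.stabilizer G x = ⊥) {a b c : α} (hab : a ≠ b) (hac : a ≠ c) (hbc : b ≠ c) (s : G) (hsa : s • a = b) (hsb : s • b = a) (hsc : s • c = c) : ∃ N : Subgroup G, N ≤ MulAction.stabilizer G a ⊓ MulAction.stabilizer G b ∧ (N.subgroupOf (MulAction.stabilizer G a ⊓ MulAction.stabilizer G b)).Normal ∧ N.relIndex (MulAction.stabilizer G a ⊓ MulAction.stabilizer G b) = 2 ∧ ∀ n ∈ N, s * n * s⁻¹ ∈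 N := by
  have h := CA.Zass.zt_of_sharp inferInstance h3 (by rw [Nat.card_eq_fintype_card]; omega) hsharp
  obtain ⟨U, hU⟩ := h.exists_split hab.symm
  have h1 := hU.card_Ω hab.symm
  have h2 := h.card_le_of_three hU hab.symm h3
  rw [Nat.card_eq_fintype_card] at h1
  have h4 := Nat.le_of_dvd (by omega) (h.card_dvd hU hab.symm)
  obtain ⟨N, hN, h5, h6⟩ := h.exists_index_two_full hU hab.symm (by obtain ⟨r, hr⟩ := heven; exact ⟨r - 1, by omega⟩) h2
    (h.eq_one hab hac.symm hbc.symm (CA.Zass.mem_St.2 ⟨by rw [mul_smul, hsa, hsb],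
      by rw [mul_smul, hsb, hsa]⟩) (by rw [mul_smul, hsc, hsc])) hsa hsb
  exact ⟨N, hN, Subgroup.normal_of_index_eq_two h5, h5, h6⟩

end Cfsg.Agent.S0729
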