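import Cfsg.Statements.S0730
import Mathlib
import Cfsg.Agent.Lib.Perm.ZassFull

set_option autoImplicit false
open Cfsg

namespace Cfsg.Agent.S0730

/-- A sharply triply transitive group of degree `p^f + 1`, `p` an odd prime and `f` odd, is isomorphic to the projective general linear group of degree 2 over the field with `p^f` elements (for even `f` there is a second, twisted, group). -/
theorem result {α : Type*} [Fintype α] [DecidableEq α] {p f : ℕ} (hp : p.Prime) (hp2 : p ≠ 2) (hfo : Odd f) (hα : Fintype.card α = p ^ f + 1) (G : Subgroup (Equiv.Perm α)) (h3 : MulAction.IsMultiplyPretransitive G α 3) (hsharp : ∀ x : Fin 3 ↪ α, MulAction.stabilizer G x = ⊥) : ∃ (F : Type) (_ : Field F) (_ : Fintype F), Fintype.card F = p ^ f ∧ Nonempty (G ≃* Matrix.ProjGenLinGroup (Fin 2) F) := by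
  have hq : 3 ≤ p ^ f := (Nat.le_self_pow hfo.pos.ne' p).trans' (by have := hp.two_le; omega)
  have hc : Nat.card α = p ^ f + 1 := by rw [Nat.card_eq_fintype_card, hα]
  have h := CA.Zass.zt_of_sharp inferInstance h3 (by omega) hsharp
  obtain ⟨a, b, hab⟩ := (Fintype.one_lt_card_iff (α := α)).1 (by omega)
  obtain ⟨U, hU⟩ := h.exists_split hab.symm
  have h1 := hU.card_Ω hab.symm
  have h2 := h.card_le_of_three hU hab.symm h3
  have h4 := Nat.le_of_dvd (by omega) (h.card_dvd hU hab.symm)
  have he : Even (Nat.card (CA.Zass.St G a b)) := by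
    obtain ⟨r, hr⟩ : Odd (p ^ f) := (hp.odd_of_ne_two hp2).pow
    exact ⟨r, by omega⟩
  obtain ⟨c, hca, hcb⟩ := CA.Zass.ZT.exists_third' hU hab.symm (by omega)
  obtain ⟨s, hs, hsa, hsb, hsc⟩ := h.exists_inv_swap_fix hab he hca hcb
  obtain ⟨N, hN, h5, h6⟩ := h.exists_index_two_full hU hab.symm he h2 hs hsa hsb
  obtain ⟨K, _, _, hK, e⟩ := h.pgl_of_full_even hU hab.symm hca hcb he h2 hN h5 hs hsa hsb hsc h6 hp hfo (by omega)
  exact ⟨K, inferInstance, inferInstance, by rw [← Nat.card_eq_fintype_card]; omega, e⟩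

end Cfsg.Agent.S0730
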