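import Cfsg.Statements.S0733
import Mathlib
import Cfsg.Agent.Lib.Perm.PermMulti

set_option autoImplicit false
open Cfsg

namespace Cfsg.Agent.S0733

open MulAction CA.PermBasic CA.PermMulti

/-- A permutation group of affine type — generated by the translations of a finite vector space `V` over `ZMod p` together with a group `G₀` of linear automorphisms — is primitive on `V` if and only if `G₀` is irreducible on `V`. -/
theorem result {p : ℕ} [Fact p.Prime] {V : Type*} [AddCommGroup V] [Module (ZMod p) V] [Finite V] [Nontrivial V] (G₀ : Subgroup (V ≃ₗ[ZMod p] V)) (G : Subgroup (Equiv.Perm V)) (hG : ∀ σ : Equiv.Perm V, σ ∈ G ↔ ∃ g ∈ G₀, ∃ b : V, ∀ x : V, σ x = (g : V ≃ₗ[ZMod p] V) x + b) : MulAction.IsPreprimitive G V ↔ ∀ W : Submodule (ZMod p) V, (∀ g ∈ G₀, ∀ v ∈ W, (g : V ≃ₗ[ZMod p] V) v ∈ W) → W = ⊥ ∨ W = ⊤ := by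
  have htr : ∀ b : V, ∃ g : G, ∀ x, g • x = x + b := fun b =>
    ⟨⟨Equiv.addRight b, (hG _).2 ⟨1, G₀.one_mem, b, fun x => rfl⟩⟩, fun x => rfl⟩
  constructor
  · intro h W hW
    refine (prim_rel h (fun x y => x - y ∈ W) ⟨fun x => by simp, fun h => ?_, fun h1 h2 => ?_⟩
      ?_).elim (fun h => Or.inl ?_) (fun h => Or.inr ?_)
    · simpa using W.neg_mem h
    · simpa using W.add_mem h1 h2
    · intro σ x y hxy
      obtain ⟨g, hg, b, e⟩ := (hG σ).1 σ.2
      show (σ : Equiv.Perm V) x - (σ : Equiv.Perm V) y ∈ W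
      rw [e, e, add_sub_add_right_eq_sub, ← map_sub]
      exact hW g hg _ hxy
    · rw [eq_bot_iff]
      intro x hx
      exact h x 0 (by simpa using hx)
    · rw [eq_top_iff]
      intro x _
      simpa using h x 0
  · intro h
    have : IsPretransitive G V := ⟨fun x y => by
      obtain ⟨g, hg⟩ := htr (y - x)
      exact ⟨g, by rw [hg]; simp⟩⟩
    apply prim_of_rel
    intro r hr hinv
    have ht : ∀ b x y, r x y → r (x + b) (y + b) := by
      intro b x y hxy
      obtain ⟨g, hg⟩ := htr b
      rw [← hg, ← hg]; exact hinv g _ _ hxy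
    let A : AddSubgroup V :=
      { carrier := {v | r 0 v}
        zero_mem' := hr.refl 0
        add_mem' := fun {a b} ha hb => hr.trans hb (by simpa using ht b _ _ ha)
        neg_mem' := fun {a} ha => hr.symm (by simpa using ht (-a) _ _ ha) }
    rcases h (AddSubgroup.toZModSubmodule p A) (fun g hg v hv => by
      have := hinv ⟨g.toEquiv, (hG _).2 ⟨g, hg, 0, fun x => by simp⟩⟩ _ _ (show r 0 v from hv)
      show r 0 (g v)
      rw [← map_zero g]
      exact this) with h1 | h1
    · left
      intro x y hxy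
      have : y - x ∈ AddSubgroup.toZModSubmodule p A := by
        show r 0 (y - x)
        simpa [sub_eq_add_neg] using ht (-x) _ _ hxy
      rw [h1, Submodule.mem_bot, sub_eq_zero] at this
      exact this.symm
    · right
      intro x y
      have : y - x ∈ AddSubgroup.toZModSubmodule p A := by rw [h1]; trivial
      simpa using ht x _ _ (show r 0 (y - x) from this)

end Cfsg.Agent.S0733
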