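import Cfsg.Statements.S0735
import Mathlib
import Cfsg.Agent.Lib.Perm.PermJordan

set_option autoImplicit false
open Cfsg

namespace Cfsg.Agent.S0735

open MulAction CA.PermBasic CA.PermMulti CA.PermJordan

/-- A 2-homogeneous permutation group (transitive on 2-subsets) of even order is doubly transitive; a non-trivial 2-homogeneous group is primitive. -/
theorem result {α : Type*} [Fintype α] [DecidableEq α] (G : Subgroup (Equiv.Perm α)) (h2 : MulAction.IsPretransitive G (Set.powersetCard α 2)) (hα : 3 ≤ Fintype.card α) : (Even (Nat.card G) → MulAction.IsMultiplyPretransitive G α 2) ∧ (G ≠ ⊥ → MulAction.IsPreprimitive G α) := by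
  replace h2 := (homog_iff (G := G)).1 h2
  have key : ∀ a b c d : α, a ≠ b → c ≠ d →
      ∃ g : G, (g • a = c ∧ g • b = d) ∨ (g • a = d ∧ g • b = c) := by
    intro a b c d hab hcd
    obtain ⟨g, hg⟩ := h2 {a, b} {c, d} (Finset.card_pair hab) (Finset.card_pair hcd)
    have h1 : g • a ∈ ({c, d} : Finset α) := hg ▸ Finset.smul_mem_smul_finset (by simp)
    have h2 : g • b ∈ ({c, d} : Finset α) := hg ▸ Finset.smul_mem_smul_finset (by simp)
    have h3 : g • a ≠ g • b := fun e => hab (MulAction.injective g e)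
    simp only [Finset.mem_insert, Finset.mem_singleton] at h1 h2
    refine ⟨g, ?_⟩
    rcases h1 with h1 | h1 <;> rcases h2 with h2 | h2
    · exact absurd (h1.trans h2.symm) h3
    · exact Or.inl ⟨h1, h2⟩
    · exact Or.inr ⟨h1, h2⟩
    · exact absurd (h1.trans h2.symm) h3
  have hrel : ∀ r : α → α → Prop, Equivalence r → (∀ (g : G) x y, r x y → r (g • x) (g • y)) →
      (∀ x y, r x y → x = y) ∨ (∀ x y, r x y) := by
    intro r hr hinv
    by_cases h1 : ∀ x y, r x y → x = y
    · exact Or.inl h1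
    right
    push Not at h1
    obtain ⟨a, b, hab, hne⟩ := h1
    intro x y
    by_cases hxy : x = y
    · rw [hxy]; exact hr.refl y
    obtain ⟨g, ⟨rfl, rfl⟩ | ⟨rfl, rfl⟩⟩ := key a b x y hne hxy
    · exact hinv g _ _ hab
    · exact hr.symm (hinv g _ _ hab)
  refine ⟨fun hev => ?_, fun hne => ?_⟩
  · have := Fact.mk Nat.prime_two
    obtain ⟨t, ht⟩ := exists_prime_orderOf_dvd_card' (G := G) 2 hev.two_dvd
    have ht1 : t ≠ 1 := by rintro rfl; simp at ht
    have ht2 : ∀ x : α, t • t • x = x := fun x => by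
      rw [← mul_smul, ← pow_two, ← ht, pow_orderOf_eq_one, one_smul]
    obtain ⟨u, hu⟩ : ∃ u : α, t • u ≠ u := by
      by_contra h
      push Not at h
      exact ht1 (eq_one_of_forall_smul h)
    have hswap : ∀ c d : α, c ≠ d → ∃ s : G, s • c = d ∧ s • d = c := by
      intro c d hcd
      obtain ⟨g, ⟨rfl, rfl⟩ | ⟨rfl, rfl⟩⟩ := key u (t • u) c d hu.symm hcd
      · exact ⟨g * t * g⁻¹, by simp [mul_smul], by simp [mul_smul, ht2]⟩
      · exact ⟨g * t * g⁻¹, by simp [mul_smul, ht2], by simp [mul_smul]⟩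
    rw [two_iff]
    intro a b c d hab hcd
    obtain ⟨g, h | ⟨h1, h2⟩⟩ := key a b c d hab hcd
    · exact ⟨g, h⟩
    · obtain ⟨s, hs1, hs2⟩ := hswap c d hcd
      exact ⟨s * g, by rw [mul_smul, h1, hs2], by rw [mul_smul, h2, hs1]⟩
  · have : IsPretransitive G α := by
      rcases hrel (orbitRel G α) (orbitRel G α).iseqv (fun g x y h => by
        rw [orbitRel_apply] at h ⊢
        rw [orbit_smul]; exact mem_orbit_of_mem_orbit g h) with h | h
      · exfalso
        apply hne
        rw [eq_bot_iff]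
        intro g hg
        ext x
        exact h _ _ (orbitRel_apply.2 (mem_orbit x (⟨g, hg⟩ : G)))
      · exact ⟨fun a b => orbitRel_apply.1 (h b a)⟩
    exact prim_of_rel hrel

end Cfsg.Agent.S0735
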