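import Cfsg.Statements.S0737
import Mathlib
import Cfsg.Agent.Lib.Perm.HupTr
import Cfsg.Agent.Lib.Perm.PrimFit
import Cfsg.Agent.Lib.Odd.PF14
import Cfsg.Agent.Lib.Lie.RankOne3
import Cfsg.Agent.S0735

set_option autoImplicit false
open Cfsg

namespace Cfsg.Agent.S0737

open MulAction CA.PermBasic CA.PermMulti CA.TrLin

/-- A non-trivial 2-homogeneous permutation group that is not doubly transitive has odd order and degree `p^f ≡ 3 (mod 4)`, and is permutation-isomorphic to a group of semi-affine transformations `x ↦ a φ(x) + b` of the field with `p^f` elements containing all translations. -/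
theorem result {α : Type*} [Fintype α] [DecidableEq α] (G : Subgroup (Equiv.Perm α)) (hne : G ≠ ⊥) (h2 : MulAction.IsPretransitive G (Set.powersetCard α 2)) (hn2 : ¬ MulAction.IsMultiplyPretransitive G α 2) : Odd (Nat.card G) ∧ ∃ (p f : ℕ) (_ : Fact p.Prime), p ≠ 2 ∧ Fintype.card α = p ^ f ∧ p ^ f % 4 = 3 ∧ ∃ e : α ≃ GaloisField p f, (∀ g : G, e.symm.trans (((g : Equiv.Perm α)).trans e) ∈ Cfsg.semiaffineGroup (GaloisField p f)) ∧ ∀ b : GaloisField p f, ∃ g : G, ∀ x : α, e ((g : Equiv.Perm α) x) = e x + b := by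
  have hα : 3 ≤ Fintype.card α := by
    by_contra hc
    refine hn2 (two_iff.2 fun a b c d hab hcd => ?_)
    have k : ∀ x, x = a ∨ x = b := fun x => by
      by_contra hx
      push Not at hx
      exact hc (Fintype.two_lt_card_iff.2 ⟨a, b, x, hab, hx.1.symm, hx.2.symm⟩)
    obtain ⟨g, hg⟩ := Subgroup.ne_bot_iff_exists_ne_one.1 hne
    have h1 : g • a ≠ g • b := fun e => hab (MulAction.injective g e)
    have h3 : g • a = b ∧ g • b = a := by
      rcases k (g • a) with e | e <;> rcases k (g • b) with e' | e'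
      · exact (h1 (e.trans e'.symm)).elim
      · exact (hg (eq_one_of_forall_smul fun x : α => by rcases k x with rfl | rfl <;> assumption)).elim
      · exact ⟨e, e'⟩
      · exact (h1 (e.trans e'.symm)).elim
    rcases k c with rfl | rfl <;> rcases k d with rfl | rfl
    · exact (hcd rfl).elim
    · exact ⟨1, one_smul _ _, one_smul _ _⟩
    · exact ⟨g, h3⟩
    · exact (hcd rfl).elim
  obtain ⟨s1, s2⟩ := Cfsg.Agent.S0735.result G h2 hα
  have ho : Odd (Nat.card G) := Nat.not_even_iff_odd.1 fun e => hn2 (s1 e)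
  refine ⟨ho, ?_⟩
  have := s2 hne
  have hsol := CA.PF.odd_solvable G ho
  have := (G.nontrivial_iff_ne_bot).2 hne
  obtain ⟨N, _, -, hN0, hc, ⟨p, hp, hp'⟩, ht, hC, hcard⟩ :=
    CA.PrimFit.exists_regular_of_solvable (X := α) (⊤ : Subgroup G) top_ne_bot
  have := Fact.mk hp
  obtain ⟨a⟩ : Nonempty α := Fintype.card_pos_iff.1 (by omega)
  have hreg := (subgroup_stabilizer_eq_bot_iff N a).1 (regular_of_comm N ht hc a)
  have hNo : Odd (Nat.card N) := ho.of_dvd_nat N.card_subgroup_dvd_card
  let _ : CommGroup N := { (inferInstance : Group N) with mul_comm := mul_comm' }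
  let _ : MulDistribMulAction (stabilizer G a) N :=
    MulDistribMulAction.compHom N ((MulAut.conjNormal (H := N)).comp (stabilizer G a).subtype)
  let _ := CA.RankOne3.addAct (stabilizer G a) N
  have hsm : ∀ (g : stabilizer G a) (x : Additive N), ((g • x).toMul : G) = g * (x.toMul : G) * (g : G)⁻¹ :=
    fun _ _ => rfl
  have hext : ∀ {x y : Additive N}, (x.toMul : G) = y.toMul → x = y := fun h =>
    Additive.toMul.injective (Subtype.ext h)
  obtain ⟨_⟩ : Nonempty (Module (ZMod p) (Additive N)) :=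
    ⟨AddCommGroup.zmodModule fun x => hext (hp' _ x.toMul.2)⟩
  have : Nontrivial (Additive N) := (N.nontrivial_iff_ne_bot).2 hN0
  let _ : DistribMulAction (stabilizer G a × ℤˣ) (Additive N) :=
    { smul := fun g v => (g.2 : ℤ) • g.1 • v
      one_smul := fun v => show ((1 : ℤˣ) : ℤ) • (1 : stabilizer G a) • v = v by simp
      mul_smul := fun g h v => show ((g.2 * h.2 : ℤˣ) : ℤ) • (g.1 * h.1) • v = (g.2 : ℤ) • g.1 • (h.2 : ℤ) • h.1 • v by
        rw [Units.val_mul, mul_smul, mul_smul, smul_comm g.1 (h.2 : ℤ)]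
      smul_zero := fun g => show (g.2 : ℤ) • g.1 • (0 : Additive N) = 0 by simp
      smul_add := fun g v w => show (g.2 : ℤ) • g.1 • (v + w) = (g.2 : ℤ) • g.1 • v + (g.2 : ℤ) • g.1 • w by
        rw [smul_add, smul_add] }
  have hs : ∀ (g : stabilizer G a × ℤˣ) (v : Additive N), g • v = (g.2 : ℤ) • g.1 • v := fun _ _ => rfl
  have k1 : ∀ g : stabilizer G a, (∀ v : Additive N, g • v = v) → g = 1 := fun g e =>
    Subtype.ext (hreg g (hC fun n hn => (mul_inv_eq_iff_eq_mul.1
      (congrArg (fun x : Additive N => (x.toMul : G)) (e (Additive.ofMul ⟨n, hn⟩)))).symm) g.2)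
  have : FaithfulSMul (stabilizer G a × ℤˣ) (Additive N) := ⟨fun {g h} e => by
    rw [← mul_inv_eq_one]
    have e' : ∀ v : Additive N, (g * h⁻¹) • v = v := fun v => by rw [mul_smul, e, smul_inv_smul]
    generalize g * h⁻¹ = x at e'
    obtain ⟨x, u⟩ := x
    rcases Int.units_eq_one_or u with rfl | rfl
    · exact Prod.ext (k1 x fun v => by simpa [hs] using e' v) rfl
    have e1 : ∀ v : Additive N, x • v = -v := fun v => by simpa [hs, neg_eq_iff_eq_neg] using e' v
    have e2 : x = 1 := by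
      have := orderOf_dvd_of_pow_eq_one (k1 (x ^ 2) fun v => by rw [sq, mul_smul, e1, e1, neg_neg])
      exact orderOf_eq_one_iff.1 (Nat.eq_one_of_dvd_coprimes (Nat.coprime_two_left.2 ho) this
        ((orderOf_dvd_natCard x).trans (Subgroup.card_subgroup_dvd_card _)))
    obtain ⟨v, hv⟩ := exists_ne (0 : Additive N)
    have e3 := addOrderOf_dvd_of_nsmul_eq_zero (show 2 • v = 0 by
      rw [two_nsmul]; nth_rewrite 1 [← one_smul (stabilizer G a) v, ← e2, e1]; exact neg_add_cancel v)
    exact (hv (AddMonoid.addOrderOf_eq_one_iff.1 (Nat.eq_one_of_dvd_coprimes (Nat.coprime_two_left.2 hNo) e3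
      (addOrderOf_dvd_natCard v)))).elim⟩
  have htr : Tr (stabilizer G a × ℤˣ) (Additive N) := fun v w hv hw => by
    have ne : ∀ v : Additive N, v ≠ 0 → a ≠ (v.toMul : G) • a := fun v hv e =>
      hv (hext (hreg _ v.toMul.2 e.symm))
    obtain ⟨g, hg⟩ := CA.PermJordan.homog_iff.1 h2 _ _ (Finset.card_pair (ne v hv)) (Finset.card_pair (ne w hw))
    have h1 : g • a ∈ ({a, (w.toMul : G) • a} : Finset α) := hg ▸ Finset.smul_mem_smul_finset (by simp)
    have h3 : g • (v.toMul : G) • a ∈ ({a, (w.toMul : G) • a} : Finset α) :=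
      hg ▸ Finset.smul_mem_smul_finset (by simp)
    have h4 : g • a ≠ g • (v.toMul : G) • a := fun e => ne v hv (MulAction.injective g e)
    simp only [Finset.mem_insert, Finset.mem_singleton] at h1 h3
    rcases h1 with h1 | h1 <;> rcases h3 with h3 | h3
    · exact absurd (h1.trans h3.symm) h4
    · exact ⟨(⟨g, h1⟩, 1), by
        rw [hs, Units.val_one, one_smul]
        exact hext (conj_eq_of_regular N hreg h1 v.toMul.2 w.toMul.2 h3)⟩
    · have h5 : ((w.toMul : G)⁻¹ * g) • a = a := by rw [mul_smul, h1, inv_smul_smul]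
      exact ⟨(⟨_, h5⟩, -1), by
        rw [hs, Units.val_neg, Units.val_one, neg_one_zsmul, neg_eq_iff_eq_neg]
        have := conj_eq_of_regular N hreg h5 v.toMul.2 (N.inv_mem w.toMul.2) (by rw [mul_smul, h3])
        exact hext this⟩
    · exact absurd (h1.trans h3.symm) h4
  have h4 : Nat.card (Additive N) % 4 = 3 := by
    obtain ⟨v, hv⟩ := exists_ne (0 : Additive N)
    have h1 := Dvd.intro _ (htr.dvd_card hv)
    rw [Nat.card_prod, Nat.card_eq_fintype_card (α := ℤˣ), Fintype.card_units_int] at h1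
    obtain ⟨r, hr⟩ := ho.of_dvd_nat (stabilizer G a).card_subgroup_dvd_card
    obtain ⟨t, ht⟩ := hNo
    change Nat.card N - 1 ∣ _ at h1
    change Nat.card N % 4 = 3
    by_contra hn
    have := (show 4 ∣ Nat.card N - 1 by omega).trans h1
    omega
  rcases CA.HupTr.huppert p htr inferInstance with ⟨F, _, _, e, he⟩ | h
  swap
  · simp only [Set.mem_insert_iff, Set.mem_singleton_iff] at h
    omega
  have h5 := Module.natCard_eq_pow_finrank (K := ZMod p) (V := Additive N)
  rw [Nat.card_zmod] at h5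
  generalize Module.finrank (ZMod p) (Additive N) = f at h5
  rw [h5] at h4
  have f0 : f ≠ 0 := fun e => by simp [e] at h4
  have := Fintype.ofFinite (GaloisField p f)
  let φ : F ≃+* GaloisField p f := FiniteField.ringEquivOfCardEq (by
    rw [← Nat.card_eq_fintype_card, ← Nat.card_eq_fintype_card, GaloisField.card p f f0, ← h5,
      Nat.card_congr e.toEquiv])
  let E : Additive N ≃ α := Equiv.ofBijective (fun v => (v.toMul : G) • a) ⟨fun v w (h : _ • a = _ • a) =>
    hext (inv_mul_eq_one.1 (hreg _ (N.mul_mem (N.inv_mem v.toMul.2) w.toMul.2)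
      (by rw [mul_smul, ← h, inv_smul_smul]))), fun b => by
      obtain ⟨n, hn, rfl⟩ := (subgroup_pretransitive_iff_base N a).1 ht b
      exact ⟨Additive.ofMul ⟨n, hn⟩, rfl⟩⟩
  have hE : ∀ v w : Additive N, (v.toMul : G) • E w = E (v + w) := fun v w => (mul_smul _ _ _).symm
  refine ⟨p, f, inferInstance, fun e => ?_, by rw [← Nat.card_eq_fintype_card, ← hcard, ← h5]; rfl, h4,
    E.symm.trans (e.toEquiv.trans φ.toEquiv), fun g => ?_, fun b => ⟨(e.symm (φ.symm b)).toMul, fun x => ?_⟩⟩
  · subst e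
    obtain ⟨r, rfl⟩ := Nat.exists_eq_succ_of_ne_zero f0
    rw [pow_succ] at h4
    omega
  · obtain ⟨n, hn, s, hs', rfl⟩ := exists_mul_stabilizer N ht a g
    obtain ⟨c, σ, h6⟩ := he (⟨s, hs'⟩, 1)
    simp only [hs, Units.val_one, one_smul] at h6
    have c0 : φ c ≠ 0 := fun e' => by
      have := h6 (e.symm 1)
      rw [φ.map_eq_zero_iff.1 e', zero_mul, e.map_eq_zero_iff, smul_eq_zero_iff_eq] at this
      simp at this
    refine ⟨Units.mk0 _ c0, φ (e (Additive.ofMul ⟨n, hn⟩)), φ.symm.trans (σ.trans φ), fun x => ?_⟩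
    have h7 : (n * s) • E (e.symm (φ.symm x)) =
        E (Additive.ofMul ⟨n, hn⟩ + (⟨s, hs'⟩ : stabilizer G a) • e.symm (φ.symm x)) := by
      rw [← hE, mul_smul]
      generalize e.symm (φ.symm x) = v
      change n • s • (v.toMul : G) • a = n • (s * v.toMul * s⁻¹) • a
      rw [mul_smul, mul_smul, show s⁻¹ • a = a from inv_mem hs']
    change φ (e (E.symm ((n * s) • E (e.symm (φ.symm x))))) = _
    rw [h7, E.symm_apply_apply, map_add, h6, add_comm]
    simp
  · obtain ⟨v, rfl⟩ := E.surjective x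
    change φ (e (E.symm (((e.symm (φ.symm b)).toMul : G) • E v))) = φ (e (E.symm (E v))) + b
    rw [hE, E.symm_apply_apply, E.symm_apply_apply, add_comm]
    simp

end Cfsg.Agent.S0737
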