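import Cfsg.Statements.S0739
import Mathlib
import Cfsg.Agent.Lib.Perm.ZassMain

set_option autoImplicit false
open Cfsg

namespace Cfsg.Agent.S0739

open CA.Zass

/-- In a finite Zassenhaus group whose two-point stabiliser `H = G_{a,b}` has odd order `d`, and which has no normal `q`-complement for any prime `q ∣ d`, `H` is cyclic, `C_G(H) = H`, and every element swapping `a` and `b` inverts each element of `H`. -/
theorem result {G Ω : Type*} [Group G] [Finite G] [MulAction G Ω] [Fintype Ω] (hZ : Cfsg.IsZassenhausGroup G Ω) {a b : Ω} (hab : a ≠ b) (hodd : Odd (Nat.card ↥(MulAction.stabilizer G a ⊓ MulAction.stabilizer G b))) (hnil : ∀ q : ℕ, q.Prime → q ∣ Nat.card ↥(MulAction.stabilizer G a ⊓ MulAction.stabilizer G b) → ¬ ∃ N : Subgroup G, N.Normal ∧ N.index = q ^ (Nat.card G).factorization q) : IsCyclic ↥(MulAction.stabilizer G a ⊓ MulAction.stabilizer G b) ∧ Subgroup.centralizer ((MulAction.stabilizer G a ⊓ MulAction.stabilizer G b : Subgroup G) : Set G) = MulAction.stabilizer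 G a ⊓ MulAction.stabilizer G b ∧ ∀ s : G, s • a = b → s • b = a → ∀ h ∈ MulAction.stabilizer G a ⊓ MulAction.stabilizer G b, s * h * s⁻¹ = h⁻¹ := by
  obtain ⟨h1, h2⟩ := (zt_of hZ).cyclic_inverted hab hodd fun q hq hd P hP => hnil q hq.out hd
    ⟨_, inferInstance, by
      rw [(MonoidHom.ker_transferSylow_isComplement' P hP).symm.index_eq_card, P.card_eq_multiplicity]⟩
  refine ⟨h1, le_antisymm (fun g hg => ?_) fun g hg x hx => ?_, h2⟩
  · obtain ⟨⟨x, hx⟩, hx1⟩ := Subgroup.ne_bot_iff_exists_ne_one.1 (St_ne_bot hZ hab)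
    have h3 : g * x * g⁻¹ = x := by rw [← hg x hx]; simp
    refine ((zt_of hZ).perm_of_conj hab hx (fun e => hx1 (Subtype.ext e))
      (by rw [h3]; exact hx)).resolve_right fun h => hx1 ?_
    have h4 := h3.symm.trans (h2 g h.1 h.2 x hx)
    have h5 : orderOf (⟨x, hx⟩ : St G a b) ∣ 2 := orderOf_dvd_of_pow_eq_one (Subtype.ext (by
      simpa [pow_two] using mul_eq_one_iff_eq_inv.2 h4))
    exact orderOf_eq_one_iff.1 (Nat.Coprime.eq_one_of_dvd
      (Nat.coprime_two_right.2 (hodd.of_dvd_nat (orderOf_dvd_natCard _))) h5)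
  · exact congrArg Subtype.val (mul_comm' (⟨x, hx⟩ : St G a b) ⟨g, hg⟩)

end Cfsg.Agent.S0739
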