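import Cfsg.Statements.S0740
import Mathlib
import Cfsg.Agent.Lib.Perm.ZassMain

set_option autoImplicit false
open Cfsg

namespace Cfsg.Agent.S0740

open CA.Zass CA.Derange

/-- In a finite Zassenhaus group any two points `a ≠ b` are swapped by an involution; every such involution has exactly one fixed point when the degree is odd and 0 or 2 fixed points when the degree is even; and if the two-point stabiliser has even order, some such involution has exactly 2 fixed points. -/
theorem result {G Ω : Type*} [Group G] [Finite G] [MulAction G Ω] [Fintype Ω] (hZ : Cfsg.IsZassenhausGroup G Ω) {a b : Ω} (hab : a ≠ b) : (∃ s : G, orderOf s = 2 ∧ s • a = b ∧ s • b = a) ∧ (∀ s : G, orderOf s = 2 → s • a = b → s • b = a → (Odd (Fintype.card Ω) → Nat.card (MulAction.fixedBy Ω s) = 1) ∧ (Even (Fintype.card Ω) → Nat.card (MulAction.fixedBy Ω s) = 0 ∨ Nat.card (MulAction.fixedBy Ω s) = 2)) ∧ (Even (Fintype.card Ω) → Even (Nat.card ↥(MulAction.stabilizer G a ⊓ MulAction.stabilizer G b)) → ∃ s : G, orderOf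 s = 2 ∧ s • a = b ∧ s • b = a ∧ Nat.card (MulAction.fixedBy Ω s) = 2) := by
  have h := zt_of hZ
  have key : ∀ s : G, s * s = 1 → s • a = b → orderOf s = 2 := fun s h1 h2 =>
    orderOf_eq_prime (by rw [pow_two, h1]) fun e => hab (by simpa [e] using h2)
  have key2 : ∀ s : G, orderOf s = 2 → s • a = b → s • b = a → (Odd (Fintype.card Ω) →
      Nat.card (MulAction.fixedBy Ω s) = 1) ∧ (Even (Fintype.card Ω) →
        Nat.card (MulAction.fixedBy Ω s) = 0 ∨ Nat.card (MulAction.fixedBy Ω s) = 2) := by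
    intro s h1 h2 _
    have h3 := fx_modEq_two (Ω := Ω) (s := s) (by rw [← pow_two, ← h1, pow_orderOf_eq_one])
    have h4 := h.fx_le_two (g := s) fun e => hab (by simpa [e] using h2)
    rw [Nat.odd_iff, Nat.even_iff, ← Nat.card_eq_fintype_card]
    unfold Nat.ModEq fx at *
    omega
  refine ⟨?_, key2, fun h1 h2 => ?_⟩
  · obtain ⟨s, h1, h2, h3⟩ := h.exists_inv_swap hab
    exact ⟨s, key s h1 h2, h2, h3⟩
  · obtain ⟨c, hca, hcb⟩ := h.exists_third (St_ne_bot hZ hab)
    obtain ⟨s, h3, h4, h5, h6⟩ := h.exists_inv_swap_fix hab h2 hca hcb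
    exact ⟨s, key s h3 h4, h4, h5, ((key2 s (key s h3 h4) h4 h5).2 h1).resolve_left fun e =>
      fx_eq_zero_iff.1 e c h6⟩

end Cfsg.Agent.S0740
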