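import Cfsg.Statements.S0742
import Mathlib
import Cfsg.Agent.Lib.Perm.ZassMain

set_option autoImplicit false
open Cfsg

namespace Cfsg.Agent.S0742

open CA.Zass

/-- A finite Zassenhaus group of degree `n + 1` with two-point stabilisers of even order `d` satisfying `2d ≤ n - 1` has `n = p^f` for an odd prime `p` and is isomorphic to `PSL(2, p^f)`. -/
theorem result {G Ω : Type*} [Group G] [Finite G] [MulAction G Ω] [Fintype Ω] (hZ : Cfsg.IsZassenhausGroup G Ω) {a b : Ω} (hab : a ≠ b) (heven : Even (Nat.card ↥(MulAction.stabilizer G a ⊓ MulAction.stabilizer G b))) (hd : 2 * Nat.card ↥(MulAction.stabilizer G a ⊓ MulAction.stabilizer G b) ≤ Fintype.card Ω - 2) : ∃ (p f : ℕ) (K : Type) (_ : Field K) (_ : Fintype K), p.Prime ∧ p ≠ 2 ∧ Fintype.card K = p ^ f ∧ Fintype.card Ω = p ^ f + 1 ∧ Nonempty (G ≃* Matrix.ProjectiveSpecialLinearGroup (Fin 2) K) := by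
  have h := zt_of hZ
  obtain ⟨U, hU⟩ := h.exists_split hab.symm
  have h1 := hU.card_Ω hab.symm
  rw [← Nat.card_eq_fintype_card] at hd ⊢
  obtain ⟨-, K, _, _, hK, e⟩ := h.psl_of_even hU hab.symm heven (by rw [h1] at hd; exact hd)
  obtain ⟨p, hp, n, hp', hn⟩ := FiniteField.card' K
  refine ⟨p, n, K, inferInstance, inferInstance, hp', ?_, hn, by
    rw [h1, ← hn, ← hK, Nat.card_eq_fintype_card], e⟩
  rintro rfl
  have h2 := h.odd_of_even hU hab.symm heven
  rw [← hK, Nat.card_eq_fintype_card, hn, ← Nat.not_even_iff_odd] at h2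
  exact h2 ((Nat.even_pow' n.2.ne').2 even_two)

end Cfsg.Agent.S0742
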