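import Cfsg.Statements.S0752
import Cfsg.Agent.Lib.Lin.CFormFin

set_option autoImplicit false
open Cfsg

namespace Cfsg.Agent.S0752

/-- Classification of alternating forms: for an alternating bilinear form B on a finite-dimensional space over any field there is a basis indexed by (Fin m ⊕ Fin m) ⊕ Fin k such that B (e_i, f_j) = δ_ij, the e's are pairwise orthogonal, the f's are pairwise orthogonal, and the last k basis vectors are orthogonal to everything (they span the radical). -/
theorem result {F V : Type*} [Field F] [AddCommGroup V] [Module F V] [FiniteDimensional F V] (B : LinearMap.BilinForm F V) (hA : B.IsAlt) : ∃ (m k : ℕ) (b : Module.Basis ((Fin m ⊕ Fin m) ⊕ Fin k) F V), (∀ i j : Fin m, B (b (Sum.inl (Sum.inl i))) (b (Sum.inl (Sum.inr j))) = if i = j then 1 else 0) ∧ (∀ i j : Fin m, B (b (Sum.inl (Sum.inl i))) (b (Sum.inl (Sum.inl j))) = 0) ∧ (∀ i j : Fin m, B (b (Sum.inl (Sum.inr i))) (b (Sum.inl (Sum.inr j))) = 0) ∧ (∀ (j : Fin k) (v : V), B (b (Sum.inr j)) v = 0) := by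
  let f := CA.CForm.Form.ofAlt B hA
  obtain ⟨W, hW⟩ := Submodule.exists_isCompl (f.perp ⊤)
  have hnd : (f.restrict W).Nondeg := by
    rw [CA.CForm.Form.nondeg_restrict_iff, Submodule.disjoint_def]
    intro x hx hx'
    refine Submodule.disjoint_def.1 hW.disjoint x ?_ hx
    intro y _
    have hy : y ∈ f.perp ⊤ ⊔ W := by rw [hW.sup_eq_top]; trivial
    obtain ⟨r, hr, w, hw, rfl⟩ := Submodule.mem_sup.1 hy
    rw [f.B_add_left, hx' w hw, f.eq_zero_symm (hr x trivial), add_zero]
  obtain ⟨m, b, hb⟩ := hnd.symp_exists_basis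
  let c := Module.finBasis F (f.perp ⊤)
  refine ⟨m, _, (b.prod c).map (Submodule.prodEquivOfIsCompl _ _ hW.symm), fun i j => ?_,
    fun i j => ?_, fun i j => ?_, fun j v => ?_⟩
  · simpa [f] using hb.B_ey_ite i j
  · simpa [f] using hb.B_ee i j
  · simpa [f] using hb.B_yy i j
  · simpa [f] using f.eq_zero_symm ((c j).2 v trivial)

end Cfsg.Agent.S0752
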