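import Cfsg.Statements.S0757
import Cfsg.Agent.Lib.Lin.CFormOSub

set_option autoImplicit false
open Cfsg

namespace Cfsg.Agent.S0757

open CA.CForm CA.CForm.Form in
/-- The two diagonal forms Σ x_i^2 and Σ_(i<n) x_i^2 + α x_n^2 on F^(n+1), with α a non-square and 2 ≠ 0 in F, are inequivalent quadratic forms (so over a finite field of odd order there are exactly two classes of non-singular symmetric bilinear forms in each dimension). -/
theorem result {F : Type*} [Field F] (h2 : (2 : F) ≠ 0) (n : ℕ) (α : F) (hα : ¬ IsSquare α) : ¬ (QuadraticMap.weightedSumSquares F (fun _ : Fin (n + 1) => (1 : F))).Equivalent (QuadraticMap.weightedSumSquares F (fun i : Fin (n + 1) => if i = Fin.last n then α else (1 : F))) := by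
  rintro ⟨e⟩
  have key : ∀ w : Fin (n + 1) → F, ∃ u, u ≠ 0 ∧ 2 ^ (n + 1) * ∏ i, w i =
      u ^ 2 * (ofQuad (QuadraticMap.weightedSumSquares F w)).disc := by
    intro w
    have hB : ∀ i j, (ofQuad (QuadraticMap.weightedSumSquares F w)).B (Pi.basisFun F _ i) (Pi.basisFun F _ j) =
        if i = j then 2 * w i else 0 := by
      intro i j
      rw [orth_B_eq]
      simp only [ofQuad_Q, QuadraticMap.weightedSumSquares_apply, ← Finset.sum_sub_distrib,
        Pi.basisFun_apply, Pi.add_apply, smul_eq_mul]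
      rw [Finset.sum_eq_single i (fun k _ hk => by simp [hk]) (by simp)]
      by_cases h : i = j
      · subst h; simp; ring
      · simp [h]
    obtain ⟨u, hu, h⟩ := (ofQuad (QuadraticMap.weightedSumSquares F w)).exists_det_gram_eq (Pi.basisFun F _)
    refine ⟨u, hu, ?_⟩
    rw [← h, det_gram_of_orth _ (fun i j h => by rw [hB, if_neg h])]
    simp [hB, Finset.prod_mul_distrib, -Pi.basisFun_apply]
  obtain ⟨u, hu, h1⟩ := key (fun _ => 1)
  obtain ⟨v, hv, h3⟩ := key (fun i => if i = Fin.last n then α else 1)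
  obtain ⟨w, hw, h4⟩ := Equivalent.exists_disc_eq (f := ofQuad _) (f' := ofQuad _)
    ⟨e.toLinearEquiv, (orth_pres_iff (φ := e.toLinearEquiv.toLinearMap)).2 e.map_app⟩
  rw [h4] at h1
  simp only [Finset.prod_const_one, Finset.prod_ite_eq', Finset.mem_univ, if_true] at h1 h3
  refine hα ⟨v / (u * w), mul_left_cancel₀ (pow_ne_zero (n + 1) h2) ?_⟩
  rw [h3, ← mul_one (2 ^ (n + 1)), h1]
  field_simp

end Cfsg.Agent.S0757
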