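import Cfsg.Statements.S0759
import Cfsg.Agent.Lib.Lin.CFormOSub

set_option autoImplicit false
open Cfsg

namespace Cfsg.Agent.S0759

open CA.CForm CA.CForm.Form in
/-- Type of the orthonormal form: over a finite field of odd order q and for m ≥ 1, the quadratic form Σ_(i<2m) x_i² on F^(2m) admits an m-dimensional subspace on which it vanishes identically if and only if it is not the case that q ≡ 3 (mod 4) and m is odd. -/
theorem result {F : Type*} [Field F] [Fintype F] (h2 : (2 : F) ≠ 0) (m : ℕ) (hm : 1 ≤ m) : (∃ W : Submodule F (Fin (2 * m) → F), Module.finrank F W = m ∧ ∀ w ∈ W, ∑ i, w i ^ 2 = 0) ↔ ¬ (Fintype.card F % 4 = 3 ∧ Odd m) := by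
  let f := ofQuad (QuadraticMap.weightedSumSquares F (fun _ : Fin (2 * m) => (1 : F)))
  have hQ : ∀ w, f.Q w = ∑ i, w i ^ 2 := fun w => by
    simp [f, QuadraticMap.weightedSumSquares_apply, sq]
  have hB : ∀ i j, f.B (Pi.basisFun F _ i) (Pi.basisFun F _ j) = if i = j then 2 else 0 := by
    intro i j
    rw [orth_B_eq]
    simp only [hQ, ← Finset.sum_sub_distrib, Pi.basisFun_apply, Pi.add_apply]
    rw [Finset.sum_eq_single i (fun k _ hk => by simp [hk]) (by simp)]
    by_cases h : i = j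
    · subst h; simp; ring
    · simp [h]
  have hd : (f.gram (Pi.basisFun F _)).det = (2 ^ m) ^ 2 := by
    rw [det_gram_of_orth _ (fun i j h => by rw [hB, if_neg h])]
    simp [hB, ← pow_mul, mul_comm, -Pi.basisFun_apply]
  have hf : f.Nondeg := nondeg_of_det_gram_ne_zero _ (by rw [hd]; simp [h2])
  have hm' : Module.finrank F (Fin (2 * m) → F) = 2 * m := by simp
  have h1 := hf.isIndex_iff_isSquare h2 hm'
  rw [← isSquare_mul_det_gram_iff (Pi.basisFun F _), hd, mul_comm ((-1 : F) ^ m),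
    isSquare_mul_left_iff ⟨_, sq _⟩ (by simp [h2]), isSquare_neg_one_pow_iff h2] at h1
  have h3 : Fintype.card F ^ m % 4 = 1 ↔ ¬ (Fintype.card F % 4 = 3 ∧ Odd m) := by
    have := Nat.odd_iff.1 (two_ne_zero_iff_odd.1 h2)
    have h4 : Fintype.card F % 4 = 1 ∨ Fintype.card F % 4 = 3 := by omega
    rw [Nat.pow_mod]
    rcases h4 with h4 | h4 <;> rw [h4]
    · simp
    · rcases Nat.even_or_odd m with ⟨t, rfl⟩ | ⟨t, rfl⟩
      · rw [← two_mul, pow_mul, Nat.pow_mod]; simp
      · rw [pow_succ, pow_mul, Nat.mul_mod, Nat.pow_mod]; simp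
  rw [← h3, ← h1]
  constructor
  · rintro ⟨W, dW, hW⟩
    exact hf.isIndex_of_two_mul (orth_ts_iff.2 fun w hw => (hQ w).trans (hW w hw)) dW (by omega)
  · rintro ⟨⟨W, hW, dW⟩, -⟩
    exact ⟨W, dW, fun w hw => (hQ w).symm.trans (hW.Q_eq w hw)⟩

end Cfsg.Agent.S0759
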