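import Cfsg.Statements.S0763
import Cfsg.Agent.Lib.Lin.CFormFin

set_option autoImplicit false
open Cfsg

namespace Cfsg.Agent.S0763

/-- Binary quadratic forms in characteristic two over a finite field: if Q is a quadratic form on a 2-dimensional space whose polar form is non-degenerate, then either there are vectors v, w with Q v = Q w = 0 and polar value 1 (Q is xy in these coordinates), or there are v, w and μ with Q v = 1, Q w = μ, polar value 1 and x² + x + μ without roots in F (Q is x² + xy + μy²). -/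
theorem result {F V : Type*} [Field F] [Finite F] [CharP F 2] [AddCommGroup V] [Module F V] (Q : QuadraticForm F V) (h2 : Module.finrank F V = 2) (hQ : (QuadraticMap.polarBilin Q).Nondegenerate) : (∃ v w : V, LinearIndependent F ![v, w] ∧ Q v = 0 ∧ Q w = 0 ∧ QuadraticMap.polar Q v w = 1) ∨ (∃ (v w : V) (μ : F), LinearIndependent F ![v, w] ∧ (∀ x : F, x ^ 2 + x + μ ≠ 0) ∧ Q v = 1 ∧ Q w = μ ∧ QuadraticMap.polar Q v w = 1) := by
  have hf := CA.CForm.Form.ofQuad_nondeg hQ
  set f := CA.CForm.Form.ofQuad Q with hfdef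
  have hli : ∀ v w : V, f.B v v = 0 → f.B v w = 1 → LinearIndependent F ![v, w] := by
    intro v w h1 h3
    rw [LinearIndependent.pair_iff]
    intro s t hst
    have e1 := congrArg (f.B v) hst
    simp only [map_add, map_smul, smul_eq_mul, h1, h3, map_zero] at e1
    have ht : t = 0 := by simpa using e1
    rw [ht, zero_smul, add_zero] at hst
    refine ⟨(smul_eq_zero.1 hst).resolve_right ?_, ht⟩
    rintro rfl
    simp at h3
  have h20 : (2 : F) = 0 := CharTwo.two_eq_zero
  by_cases han : ∀ v, Q v = 0 → v = 0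
  · right
    obtain ⟨v, hv⟩ := hf.exists_Q_eq h2.ge 1
    have hv0 : v ≠ 0 := by rintro rfl; simp at hv
    obtain ⟨w, hw⟩ := hf.exists_B_ne_zero hv0
    have hvv : f.B v v = 0 := by rw [f.orth_B_self, h20, zero_mul]
    have hw1 : f.B v ((f.B v w)⁻¹ • w) = 1 := by rw [map_smul, smul_eq_mul, inv_mul_cancel₀ hw]
    refine ⟨v, (f.B v w)⁻¹ • w, _, hli _ _ hvv hw1, fun x hx => ?_, hv, rfl, hw1⟩
    have h3 := han (x • v + (1 : F) • ((f.B v w)⁻¹ • w)) (by
      have := f.orth_Q_pair x 1 v ((f.B v w)⁻¹ • w)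
      rw [hv, hw1] at this
      change f.Q _ = 0
      rw [this]
      change x ^ 2 + x + f.Q _ = 0 at hx
      linear_combination hx)
    have := ((LinearIndependent.pair_iff).1 (hli _ _ hvv hw1) x 1 h3).2
    exact one_ne_zero this
  · left
    push Not at han
    obtain ⟨v, hv, hv0⟩ := han
    obtain ⟨w, hw, hvw⟩ := hf.exists_partner (p := v) hv hv0
    exact ⟨v, w, hli _ _ (f.B_self_of_Q hv) hvw, hv, hw, hvw⟩

end Cfsg.Agent.S0763
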