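import Cfsg.Statements.S0765
import Cfsg.Agent.Lib.Lin.CFormPt

set_option autoImplicit false
open Cfsg

namespace Cfsg.Agent.S0765

/-- Generation of the symplectic group by symplectic transvections: the subgroup of Sp_2m(F) generated by all matrices of maps x ↦ x + c f(x, w) w is the whole group. -/
theorem result {F : Type*} [Field F] (m : ℕ) : Subgroup.closure {A : Matrix.symplecticGroup (Fin m) F | ∃ (w : Fin m ⊕ Fin m → F) (c : F), (A : Matrix (Fin m ⊕ Fin m) (Fin m ⊕ Fin m) F) = Cfsg.sympTransvection m w c} = ⊤ := by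
  apply Subgroup.map_injective (f := (CA.CForm.spEquiv F m).toMonoidHom)
    (CA.CForm.spEquiv F m).injective
  rw [Subgroup.map_top_of_surjective _ (CA.CForm.spEquiv F m).surjective]
  refine (CA.CForm.sympStd_nondeg F m).symp_eq_top_of_Tgrp fun x c h => ?_
  refine ⟨(CA.CForm.spEquiv F m).symm _, Subgroup.subset_closure ⟨x, -c, ?_⟩,
    (CA.CForm.spEquiv F m).apply_symm_apply _⟩
  open CA.CForm CA.CForm.Form in
  rw [matrix_eq_iff_mulVec]
  intro v
  open CA.CForm CA.CForm.Form in
  rw [spEquiv_symm_mulVec, sympTransvection_mulVec, eichler_zero_apply]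
  simp

end Cfsg.Agent.S0765
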