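import Cfsg.Statements.S0767
import Cfsg.Agent.Lib.Lin.CFormEich

set_option autoImplicit false
open Cfsg

namespace Cfsg.Agent.S0767

/-- The root group of a point: T_v(c) T_v(d) = T_v(c + d), and for A in the symplectic group with A v = a v, the conjugate A T_v(c) A⁻¹ is again some T_v(d). -/
theorem result {F : Type*} [Field F] (m : ℕ) (v : Fin m ⊕ Fin m → F) : (∀ c d : F, Cfsg.sympTransvection m v c * Cfsg.sympTransvection m v d = Cfsg.sympTransvection m v (c + d)) ∧ ∀ (A : Matrix (Fin m ⊕ Fin m) (Fin m ⊕ Fin m) F) (a : F), A ∈ Matrix.symplecticGroup (Fin m) F → A.mulVec v = a • v → ∀ c : F, ∃ d : F, A * Cfsg.sympTransvection m v c * A⁻¹ = Cfsg.sympTransvection m v d := by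
  open CA.CForm CA.CForm.Form in
  refine ⟨fun c d => matrix_eq_iff_mulVec.2 fun x => ?_, fun A a hA hv c => ⟨a * a * c, ?_⟩⟩
  · open CA.CForm CA.CForm.Form in
    simp only [← Matrix.mulVec_mulVec, sympTransvection_mulVec, map_add, map_smul, symp_B_self]
    module
  · have hu : IsUnit A.det := SymplecticGroup.symplectic_det hA
    have : A * sympTransvection m v c = sympTransvection m v (a * a * c) * A := by
      rw [CA.CForm.matrix_eq_iff_mulVec]
      intro x
      have h1 := CA.CForm.mem_symplecticGroup_iff.1 hA v x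
      open CA.CForm CA.CForm.Form in
      rw [← sympStd_B, ← sympStd_B, hv, B_smul_left, Kind.symp_σ] at h1
      open CA.CForm CA.CForm.Form in
      rw [← Matrix.mulVec_mulVec, ← Matrix.mulVec_mulVec, sympTransvection_mulVec,
        sympTransvection_mulVec, Matrix.mulVec_add, Matrix.mulVec_smul, hv, ← h1]
      module
    rw [this, Matrix.mul_nonsing_inv_cancel_right _ _ hu]

end Cfsg.Agent.S0767
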