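import Cfsg.Statements.S0768
import Cfsg.Agent.Lib.Lin.CFormPt

set_option autoImplicit false
open scoped LinearAlgebra.Projectivization
open Cfsg

namespace Cfsg.Agent.S0768

/-- Primitivity: for m ≥ 1 and F finite, the symplectic group of the form sympForm (as a subgroup of the general linear group) acts primitively on the projective space of F^(2m). -/
theorem result {F : Type*} [Field F] [Finite F] (m : ℕ) (hm : 1 ≤ m) : MulAction.IsPreprimitive ↥(Cfsg.spGL m F) (ℙ F (Fin m ⊕ Fin m → F)) := by
  open CA.CForm CA.CForm.Form in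
  have := (sympStd_nondeg F m).isPreprimitive_Pt (sympStd F m).symp_prim (G := ⊤) le_top
  let φ : (⊤ : Subgroup (CA.CForm.sympStd F m).Isom) → spGL m F :=
    fun g => (CA.CForm.spGLEquiv F m).symm g
  let ψ : (CA.CForm.sympStd F m).Pt →ₑ[φ] ℙ F (Fin m ⊕ Fin m → F) :=
    { toFun := fun p => p.1
      map_smul' := fun g p => by
        obtain ⟨x, hx0, hx, rfl⟩ := (CA.CForm.sympStd F m).exists_pt p
        apply (Projectivization.mk_eq_mk_iff' F _ _ _ _).2
        exact ⟨1, by rw [one_smul]; exact CA.CForm.glEquiv_symm_mulVec _ x⟩ }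
  exact MulAction.IsPreprimitive.of_surjective (f := ψ) fun p => ⟨⟨p, rfl⟩, rfl⟩

end Cfsg.Agent.S0768
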