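import Cfsg.Statements.S0770
import Cfsg.Agent.Lib.Lin.GLPar

set_option autoImplicit false
open Cfsg

namespace Cfsg.Agent.S0770

open CA.CForm CA.GLPar Cfsg.Geo Matrix Module in
/-- For a field with at least 3 elements, an invertible matrix normalises the subgroup of invertible diagonal matrices of GL_n if and only if it is monomial (exactly one non-zero entry in each row). -/
theorem result {F : Type*} [Field F] (hF : ∃ a : F, a ≠ 0 ∧ a ≠ 1) (n : ℕ) (g : Matrix.GeneralLinearGroup (Fin n) F) : g ∈ Subgroup.normalizer ((Units.map (Matrix.diagonalRingHom (Fin n) F).toMonoidHom).range : Subgroup (Matrix.GeneralLinearGroup (Fin n) F)) ↔ ∀ i : Fin n, ∃! j : Fin n, (g : Matrix (Fin n) (Fin n) F) i j ≠ 0 := by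
  obtain ⟨a, a0, a1⟩ := hF
  set T := (Units.map (Matrix.diagonalRingHom (Fin n) F).toMonoidHom).range with hT
  have mT : ∀ t : GL (Fin n) F, t ∈ T ↔ ∀ i j, i ≠ j → (t : Matrix (Fin n) (Fin n) F) i j = 0 := by
    refine fun t => ⟨?_, fun h => ?_⟩
    · rintro ⟨d, rfl⟩ i j hij
      exact diagonal_apply_ne _ hij
    · have e : (t : Matrix (Fin n) (Fin n) F) = diagonal fun i => t.1 i i := by
        ext i j
        by_cases hij : i = j
        · subst hij; simp
        · rw [h i j hij, diagonal_apply_ne _ hij]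
      have hd := t.det_ne_zero
      rw [e, det_diagonal, Finset.prod_ne_zero_iff] at hd
      exact ⟨(Pi.isUnit_iff.2 fun i => (hd i (Finset.mem_univ _)).isUnit).unit, Units.ext e.symm⟩
  have ex : ∀ (g : GL (Fin n) F) i, ∃ j, (g : Matrix (Fin n) (Fin n) F) i j ≠ 0 := fun g i => by
    by_contra! h
    exact g.det_ne_zero (det_eq_zero_of_row_eq_zero i h)
  have key : ∀ g : GL (Fin n) F, (∀ i, ∃! j, (g : Matrix (Fin n) (Fin n) F) i j ≠ 0) →
      (∀ t ∈ T, g * t * g⁻¹ ∈ T) ∧ ∀ i, ∃! j, ((g⁻¹ : GL (Fin n) F) : Matrix (Fin n) (Fin n) F) i j ≠ 0 := by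
    intro g h
    choose σ h1 h2 using h
    have e : ∀ (M : Matrix (Fin n) (Fin n) F) i j, (g.1 * M) i j = g.1 i (σ i) * M (σ i) j := fun M i j => by
      rw [mul_apply]
      exact Finset.sum_eq_single _ (fun b _ hb => by
        rw [of_not_not (fun h => hb (h2 i b h)), zero_mul]) (by simp)
    have e1 : ∀ i j, i ≠ j → (g⁻¹).1 (σ i) j = 0 := fun i j hij => by
      have := e (g⁻¹).1 i j
      rw [Units.mul_inv, one_apply_ne hij] at this
      exact (mul_eq_zero.1 this.symm).resolve_left (h1 i)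
    have inj : Function.Injective σ := fun i j hij => by_contra fun hne => by
      obtain ⟨l, hl⟩ := ex g⁻¹ (σ i)
      by_cases hil : i = l
      · exact hl (hil ▸ hij ▸ e1 j i (Ne.symm hne))
      · exact hl (e1 i l hil)
    refine ⟨fun t ht => (mT _).2 fun i j hij => ?_, fun i => ?_⟩
    · rw [mul_assoc, Units.val_mul, e, Units.val_mul, mul_apply, Finset.sum_eq_single (σ i)
        (fun b _ hb => by rw [(mT t).1 ht _ _ (Ne.symm hb), zero_mul]) (by simp), e1 i j hij]
      simp
    · obtain ⟨i, rfl⟩ := Finite.surjective_of_injective inj i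
      obtain ⟨l, hl⟩ := ex g⁻¹ (σ i)
      have : ∀ l, (g⁻¹).1 (σ i) l ≠ 0 → l = i := fun l hl => by_contra fun h => hl (e1 i l (Ne.symm h))
      exact ⟨l, hl, fun y hy => (this y hy).trans (this l hl).symm⟩
  refine ⟨fun h i => ?_, fun h => Subgroup.mem_normalizer_iff.2 fun t => ⟨(key g h).1 t, fun ht => ?_⟩⟩
  · obtain ⟨j, hj⟩ := ex g i
    refine ⟨j, hj, fun l hl => by_contra fun hne => ?_⟩
    let d : GL (Fin n) F := GeneralLinearGroup.mkOfDetNeZero (diagonal (Function.update 1 j a)) (by
      rw [det_diagonal, Finset.prod_update_of_mem (Finset.mem_univ _)]; simpa using a0)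
    have hd : d ∈ T := (mT _).2 fun i j hij => diagonal_apply_ne _ hij
    have h1 := (mT _).1 ((Subgroup.mem_normalizer_iff.1 h d).1 hd)
    have h2 : ∀ b, (g * d * g⁻¹).1 i i * g.1 i b = g.1 i b * Function.update (1 : Fin n → F) j a b := fun b => by
      have : ((g * d * g⁻¹).1 * g.1) i b = (g.1 * d.1) i b := by
        rw [← Units.val_mul, inv_mul_cancel_right, Units.val_mul]
      rw [mul_apply, Finset.sum_eq_single i (fun c _ hc => by rw [h1 _ _ (Ne.symm hc), zero_mul])
        (by simp)] at this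
      rw [this]
      exact mul_diagonal _ _ _ _
    have h3 := h2 j
    have h4 := h2 l
    rw [Function.update_self, mul_comm] at h3
    rw [Function.update_of_ne hne, mul_comm] at h4
    exact a1 ((mul_left_cancel₀ hj h3).symm.trans (mul_left_cancel₀ hl h4))
  · simpa [mul_assoc] using (key g⁻¹ (key g h).2).1 _ ht

end Cfsg.Agent.S0770
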