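import Cfsg.Statements.S0773
import Cfsg.Agent.Lib.Lin.GLPar
import Cfsg.Agent.Lib.Lin.CFormMisc

set_option autoImplicit false
open Cfsg

namespace Cfsg.Agent.S0773

open CA.CForm CA.GLPar Cfsg.Geo Matrix Module in
/-- The stabilisers in GL_n(F), F finite, of the coordinate subspaces of dimensions k and n − k are isomorphic groups, but when 2k ≠ n (and 0 < k < n) no element of GL_n conjugates one onto the other. -/
theorem result {F : Type*} [Field F] [Finite F] (n k : ℕ) (hk0 : 0 < k) (hkn : k < n) (h2 : 2 * k ≠ n) : Nonempty (↥(Cfsg.stabilizing (Cfsg.glToMat (Fin n) F) {v : Fin n → F | ∀ i : Fin n, k ≤ (i : ℕ) → v i = 0}) ≃* ↥(Cfsg.stabilizing (Cfsg.glToMat (Fin n) F) {v : Fin n → F | ∀ i : Fin n, n - k ≤ (i : ℕ) → v i = 0})) ∧ ∀ g : Matrix.GeneralLinearGroup (Fin n) F, (Cfsg.stabilizing (Cfsg.glToMat (Fin n) F) {v : Fin n → F | ∀ i : Fin n, k ≤ (i : ℕ) → v i = 0}).map (MulAut.conj g).toMonoidHom ≠ Cfsg.stabilizing (Cfsg.glToMat (Fin n) F) {v : Fin n → F |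 ∀ i : Fin n, n - k ≤ (i : ℕ) → v i = 0} := by
  have hd : ∀ j ≤ n, finrank F (cw F fun i : Fin n => j ≤ (i : ℕ)) = j := fun j hj => by
    rw [finrank_cw, card_not_ge hj]
  let τ : GL (Fin n) F → GL (Fin n) F := fun g =>
    ⟨((g⁻¹ : GL (Fin n) F) : Matrix (Fin n) (Fin n) F)ᵀ.submatrix Fin.revPerm Fin.revPerm,
      (g : Matrix (Fin n) (Fin n) F)ᵀ.submatrix Fin.revPerm Fin.revPerm,
      by rw [submatrix_mul_equiv, ← transpose_mul, Units.mul_inv, transpose_one, submatrix_one_equiv],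
      by rw [submatrix_mul_equiv, ← transpose_mul, Units.inv_mul, transpose_one, submatrix_one_equiv]⟩
  have hτ : ∀ g, τ (τ g) = g := fun g => Units.ext (by
    ext i j
    show (g : Matrix (Fin n) (Fin n) F) (Fin.rev (Fin.rev i)) (Fin.rev (Fin.rev j)) = _
    rw [Fin.rev_rev, Fin.rev_rev])
  have hm : ∀ j l, j + l = n → ∀ g ∈ subspaceStabilizer (cw F fun i : Fin n => j ≤ (i : ℕ)),
      τ g ∈ subspaceStabilizer (cw F fun i : Fin n => l ≤ (i : ℕ)) := fun j l e g hg =>
    mem_stab_cw.2 fun a ha b hb => mem_stab_cw.1 (inv_mem hg) (Fin.rev b)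
      (by rw [Fin.val_rev]; omega) (Fin.rev a) (by rw [Fin.val_rev]; omega)
  let E : GL (Fin n) F ≃* GL (Fin n) F :=
    { toFun := τ, invFun := τ, left_inv := hτ, right_inv := hτ
      map_mul' := fun a b => Units.ext (by
        simp only [τ, Units.val_mul, _root_.mul_inv_rev, transpose_mul, submatrix_mul_equiv]) }
  refine ⟨⟨subCongr E _ _ fun g => ⟨hm k (n - k) (by omega) g, fun h => ?_⟩⟩, fun g h => ?_⟩
  · exact hτ g ▸ hm (n - k) k (by omega) _ h
  · have h1 := hd k hkn.le
    have h3 := hd (n - k) (by omega)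
    have := eq_of_stab_le (W := cw F fun i : Fin n => n - k ≤ (i : ℕ))
      (U := (cw F fun i : Fin n => k ≤ (i : ℕ)).map (glEquiv g).toLinearMap) (fun x hx => by
        obtain ⟨y, hy, rfl⟩ := h.ge hx
        refine mem_stab_of_map ?_
        rintro _ ⟨v, hv, rfl⟩
        refine ⟨_, CA.AschFG.mulVec_mem_of_stab hy hv, ?_⟩
        simp [glEquiv_apply, mulVec_mulVec, mul_assoc]) (fun e => ?_) fun e => ?_
    · rw [← this, LinearEquiv.finrank_map_eq] at h3; omega
    · have := congrArg (fun W : Submodule F (Fin n → F) => finrank F W) e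
      simp only [LinearEquiv.finrank_map_eq, finrank_bot] at this; omega
    · have := congrArg (fun W : Submodule F (Fin n → F) => finrank F W) e
      simp only [LinearEquiv.finrank_map_eq, finrank_top, finrank_fin_fun] at this; omega

end Cfsg.Agent.S0773
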