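import Cfsg.Statements.S0774
import Cfsg.Agent.Lib.Lin.CFormMisc2
import Cfsg.Agent.Lib.Lin.H22Embed

set_option autoImplicit false
open Cfsg

namespace Cfsg.Agent.S0774

open CA.CForm CA.CForm.Form Matrix in
/-- Borel subgroup of the symplectic group: the elements of Sp_2m(q) stabilising each of the totally isotropic coordinate subspaces ⟨e_0, ..., e_k⟩ (k < m) form a subgroup of order q^(m²) (q − 1)^m. -/
theorem result {F : Type*} [Field F] [Fintype F] {q : ℕ} (hF : Fintype.card F = q) (m : ℕ) : Nat.card ↥(⨅ k : Fin m, Cfsg.stabilizing (Cfsg.spToMat m F) {v : Fin m ⊕ Fin m → F | (∀ i : Fin m, (k : ℕ) < (i : ℕ) → v (Sum.inl i) = 0) ∧ ∀ i : Fin m, v (Sum.inr i) = 0}) = q ^ (m ^ 2) * (q - 1) ^ m := by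
  let f := sympStd F m
  have hf := sympStd_nondeg F m
  let Vk : Fin m → Submodule F (Fin m ⊕ Fin m → F) := fun k =>
    { carrier := {v | (∀ i : Fin m, (k : ℕ) < (i : ℕ) → v (Sum.inl i) = 0) ∧ ∀ i : Fin m, v (Sum.inr i) = 0}
      add_mem' := fun ha hb => ⟨fun i h => by simp [ha.1 i h, hb.1 i h], fun i => by simp [ha.2 i, hb.2 i]⟩
      zero_mem' := ⟨fun _ _ => rfl, fun _ => rfl⟩
      smul_mem' := fun c _ ha => ⟨fun i h => by simp [ha.1 i h], fun i => by simp [ha.2 i]⟩ }
  rw [Nat.card_congr (subCongr (spEquiv F m) _ (⨅ k, f.stab (Vk k)) fun g => by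
    simp only [Subgroup.mem_iInf]; rfl).toEquiv]
  have hs := sympStd_hypSys F m
  let x : Fin m → Fin m ⊕ Fin m → F := fun i => Pi.single (Sum.inl i) 1
  have hx : ∀ v : Fin m → F, Sum.elim v 0 = ∑ j, v j • x j := fun v => by
    ext (i | i) <;> simp [x, Pi.single_apply]
  let φ : {g : GL (Fin m) F // ∀ i j : Fin m, j < i → (g : Matrix (Fin m) (Fin m) F) i j = 0} →
      Fin m → Fin m ⊕ Fin m → F := fun g j => Sum.elim (fun i => (g.1 : Matrix (Fin m) (Fin m) F) i j) 0
  have hφ : Function.Injective φ := fun a b h => by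
    ext i j
    exact congrFun (congrFun h j) (Sum.inl i)
  obtain ⟨N, -, hN, -, h1, h2⟩ := hf.card_fix_ts hs.ts_y (m := m)
    (by rw [finrank_span_eq_card hs.linearIndependent_y, Fintype.card_fin]) (r := 2 * 0) (by rw [finrank_plus]; rfl)
  rw [card_eq_card_mul_card_of_orbit _ (f.fix (Submodule.span F (Set.range x))) x (· ∈ Set.range φ) ?_ ?_,
    h2, (hf.restrict_perp hN).card_isom_symp _ h1, card_ker_π_symp, Nat.card_range_of_injective hφ,
    card_upper, Nat.card_eq_fintype_card, hF, Nat.choose_two_right]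
  · have h3 : 2 * (m * (m - 1) / 2) = m * (m - 1) := Nat.mul_div_cancel' (Nat.even_mul_pred_self m).two_dvd
    have h4 : m ^ 2 = m * (m - 1) / 2 + (m * (m - 1) / 2 + m) := by
      rcases m with _ | m
      · simp
      · simp only [Nat.add_sub_cancel] at h3 ⊢; nlinarith
    rw [h4]
    simp only [pow_add]
    simp
    ring
  · intro s
    constructor
    · rintro ⟨t, rfl⟩
      have h : ∀ v, (spEquiv F m (CA.H22Embed.leviSp (Fin m) F t) : (Fin m ⊕ Fin m → F) ≃ₗ[F] (Fin m ⊕ Fin m → F)) v =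
          Sum.elim ((t.1 : Matrix (Fin m) (Fin m) F) *ᵥ (v ∘ Sum.inl))
            (((t.1⁻¹ : GL (Fin m) F) : Matrix (Fin m) (Fin m) F)ᵀ *ᵥ (v ∘ Sum.inr)) := fun v => by
        change fromBlocks _ _ _ _ *ᵥ v = _
        rw [fromBlocks_mulVec]; simp
      refine ⟨spEquiv F m (CA.H22Embed.leviSp (Fin m) F t), Subgroup.mem_iInf.2 fun k =>
        f.mem_stab_of_le fun v hv => ?_, funext fun j => ?_⟩
      · rw [h, show v ∘ Sum.inr = 0 from funext hv.2]
        refine ⟨fun i hi => ?_, fun i => by simp⟩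
        rw [Sum.elim_inl, mulVec, dotProduct]
        refine Finset.sum_eq_zero fun j _ => ?_
        by_cases hj : j < i
        · simp [t.2 i j hj]
        · simp [hv.1 j (by omega)]
      · change (spEquiv F m (CA.H22Embed.leviSp (Fin m) F t) : (Fin m ⊕ Fin m → F) ≃ₗ[F] (Fin m ⊕ Fin m → F)) (x j) = _
        rw [h]
        ext (i | i) <;> simp [x, φ, mulVec, dotProduct, Pi.single_apply]
    · rintro ⟨g, hg, rfl⟩
      have h3 : ∀ j, (g : (Fin m ⊕ Fin m → F) ≃ₗ[F] (Fin m ⊕ Fin m → F)) (x j) ∈ Vk j := fun j => (Subgroup.mem_iInf.1 hg j _).1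
        ⟨fun i h => by simp [x, Pi.single_apply]; omega, fun i => by simp [x]⟩
      let A : Matrix (Fin m) (Fin m) F := of fun i j => (g : (Fin m ⊕ Fin m → F) ≃ₗ[F] (Fin m ⊕ Fin m → F)) (x j) (Sum.inl i)
      have hA : A.det ≠ 0 := by
        rw [ne_eq, ← exists_mulVec_eq_zero_iff]
        rintro ⟨v, hv, h⟩
        have : (g : (Fin m ⊕ Fin m → F) ≃ₗ[F] (Fin m ⊕ Fin m → F)) (Sum.elim v 0) = 0 := by
          rw [hx, map_sum]
          ext (i | i)
          · simpa [A, mulVec, dotProduct, mul_comm] using congrFun h i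
          · simp [(h3 _).2 i]
        exact hv (funext fun i => congrFun ((map_eq_zero_iff _ (LinearEquiv.injective _)).1 this) (Sum.inl i))
      refine ⟨⟨GeneralLinearGroup.mkOfDetNeZero A hA, fun i j h => (h3 j).1 i h⟩, funext fun j => ?_⟩
      ext (i | i)
      · rfl
      · exact ((h3 j).2 i).symm
  · intro g
    rw [mem_fix_span, Set.forall_mem_range, funext_iff]
    refine ⟨fun h => ⟨Subgroup.mem_iInf.2 fun k => f.fix_le_stab _ fun v hv => ?_, h⟩, fun h => h.2⟩
    rw [← Sum.elim_comp_inl_inr v, show v ∘ Sum.inr = 0 from funext hv.2, hx, map_sum]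
    simp [h]

end Cfsg.Agent.S0774
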