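import Cfsg.Statements.S0776
import Cfsg.Agent.Lib.Lin.CFormMisc

set_option autoImplicit false
open Cfsg

namespace Cfsg.Agent.S0776

open CA.CForm CA.CForm.Form in
/-- If W ≤ F^(2m) is a 2k-dimensional subspace on which the symplectic form is non-degenerate, then the stabiliser of W in Sp_2m(F) is isomorphic to Sp_2k(F) × Sp_(2m−2k)(F). -/
theorem result {F : Type*} [Field F] (m k : ℕ) (hk : k ≤ m) (W : Submodule F (Fin m ⊕ Fin m → F)) (hWk : Module.finrank F W = 2 * k) (hW : ∀ u ∈ W, (∀ v ∈ W, Cfsg.sympForm m F u v = 0) → u = 0) : Nonempty (↥(Cfsg.stabilizing (Cfsg.spToMat m F) (W : Set (Fin m ⊕ Fin m → F))) ≃* Matrix.symplecticGroup (Fin k) F × Matrix.symplecticGroup (Fin (m - k)) F) := by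
  have hf := sympStd_nondeg F m
  have hW' : Disjoint W ((sympStd F m).perp W) := Submodule.disjoint_def.2 fun u hu h =>
    hW u hu fun v hv => (sympStd_B F m u v).symm.trans ((mem_perp' _).1 h v hv)
  have h1 := hf.finrank_perp W
  rw [hWk, finrank_plus] at h1
  obtain ⟨e₁⟩ := ((((sympStd F m).nondeg_restrict_iff W).2 hW').symp_equivalent (sympStd_nondeg F k)
    (by rw [hWk, finrank_plus])).nonempty_mulEquiv
  obtain ⟨e₂⟩ := ((hf.restrict_perp hW').symp_equivalent (sympStd_nondeg F (m - k))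
    (by rw [finrank_plus]; omega)).nonempty_mulEquiv
  exact ⟨(spStabEquiv m W).trans (((sympStd F m).stabEquiv (hf.isCompl_perp hW')).symm.trans
    ((e₁.trans (spEquiv F k).symm).prodCongr (e₂.trans (spEquiv F (m - k)).symm)))⟩

end Cfsg.Agent.S0776
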