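import Cfsg.Statements.S0777
import Cfsg.Agent.Lib.Lin.CFormSpU
import Cfsg.Agent.Lib.Lin.CFormMisc

set_option autoImplicit false
open Cfsg

namespace Cfsg.Agent.S0777

theorem card_cent (m : ℕ) : Nat.card (Subgroup.centralizer
    {(Equiv.sumComm (Fin m) (Fin m) : Equiv.Perm (Fin m ⊕ Fin m))}) = 2 ^ m * m.factorial := by
  set τ : Equiv.Perm (Fin m ⊕ Fin m) := Equiv.sumComm (Fin m) (Fin m)
  have h1 := Multiset.eq_replicate_card.2 (Equiv.Perm.pow_prime_eq_one_iff.1
    (show τ ^ 2 = 1 from Equiv.ext fun i => by cases i <;> rfl))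
  have h2 : τ.cycleType.sum = 2 * m := by
    rw [Equiv.Perm.sum_cycleType, show τ.support = Finset.univ from
      Finset.eq_univ_of_forall fun i => by cases i <;> simp [τ]]
    simp [two_mul]
  have h3 : τ.cycleType = Multiset.replicate m 2 := by
    rw [h1, Multiset.sum_replicate, smul_eq_mul] at h2
    rw [h1, show τ.cycleType.card = m by omega]
  rw [Equiv.Perm.nat_card_centralizer, h2, h3]
  rcases m with _ | m
  · simp
  · simp [Multiset.toFinset_replicate, two_mul, -Multiset.replicate_succ]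

open CA.CForm CA.CForm.Form Module Matrix in
/-- Weyl group of type C_m: for q ≥ 4 the diagonal matrices of Sp_2m(q) form a torus T ≅ (C_(q−1))^m (the elements stabilising every coordinate axis), and the normaliser of T in Sp_2m(q) has order 2^m · m! · (q − 1)^m. -/
theorem result {F : Type*} [Field F] [Fintype F] {q : ℕ} (hF : Fintype.card F = q) (hq : 4 ≤ q) (m : ℕ) : Nat.card ↥(Subgroup.normalizer (⨅ i : Fin m ⊕ Fin m, Cfsg.stabilizing (Cfsg.spToMat m F) ((Submodule.span F {(Pi.single i (1 : F) : Fin m ⊕ Fin m → F)} : Submodule F (Fin m ⊕ Fin m → F)) : Set (Fin m ⊕ Fin m → F)) : Set (Matrix.symplecticGroup (Fin m) F))) = 2 ^ m * Nat.factorial m * (q - 1) ^ m := by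
  set T := ⨅ i : Fin m ⊕ Fin m, stabilizing (spToMat m F)
    ((Submodule.span F {(Pi.single i (1 : F) : Fin m ⊕ Fin m → F)} : Submodule F _) : Set _)
  set f := sympStd F m
  set τ : Equiv.Perm (Fin m ⊕ Fin m) := Equiv.sumComm (Fin m) (Fin m)
  let b := Pi.basisFun F (Fin m ⊕ Fin m)
  let ρ := spEquiv F m
  let s : Fin m ⊕ Fin m → Fˣ := Sum.elim (fun _ => -1) fun _ => 1
  have hs : ∀ i, (s i : F) * s i = 1 := by rintro (i | i) <;> simp [s]
  have hs' : ∀ i, (s (τ i) : F) = -s i := by rintro (i | i) <;> simp [s, τ]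
  have hB : ∀ i j, f.B (b i) (b j) = if j = τ i then (s i : F) else 0 := by
    rintro (i | i) (j | j) <;> simp [f, b, τ, s, sympStd_B, sympForm_eq, Pi.single_apply, eq_comm]
    split_ifs <;> simp
  have hb : ∀ {i j} {c d : F}, c ≠ 0 → c • b i = d • b j → i = j ∧ c = d := fun {i j c d} hc h => by
    have := congrFun h i
    by_cases e : i = j <;> simp_all [b]
  have h0 : ∀ {g : symplecticGroup (Fin m) F} {i j} {c : F}, (ρ g).1 (b i) = c • b j → c ≠ 0 := by
    rintro g i j c h rfl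
    exact b.ne_zero i (by simpa using h)
  have mT : ∀ t, t ∈ T ↔ ∀ i, ∃ c : F, (ρ t).1 (b i) = c • b i := fun t => by
    refine Subgroup.mem_iInf.trans (forall_congr' fun i => ⟨fun h => ?_, fun ⟨c, h⟩ v => ?_⟩)
    · obtain ⟨c, hc⟩ := Submodule.mem_span_singleton.1 ((h _).1 (Submodule.mem_span_singleton_self _))
      exact ⟨c, by rw [Pi.basisFun_apply]; exact hc.symm⟩
    · rw [← Pi.basisFun_apply F]
      simp only [SetLike.mem_coe, Submodule.mem_span_singleton]
      change _ ↔ ∃ a : F, a • b i = (ρ t).1 v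
      refine ⟨?_, fun ⟨a, ha⟩ => ⟨a / c, (ρ t).1.injective ?_⟩⟩
      · rintro ⟨a, rfl⟩
        exact ⟨a * c, by rw [map_smul, h, smul_smul]⟩
      · rw [map_smul, h, smul_smul, div_mul_cancel₀ _ (h0 h), ha]
  let d : Equiv.Perm (Fin m ⊕ Fin m) → (Fin m → Fˣ) → Fin m ⊕ Fin m → Fˣ := fun σ c =>
    Sum.elim c fun i => (c i)⁻¹ * s (σ (Sum.inr i))
  have key : ∀ σ ∈ Subgroup.centralizer {τ}, ∀ c, ∃ g, ∀ i,
      (ρ g).1 (b i) = (d σ c i : F) • b (σ i) := fun σ hσ c => by
    have h1 : ∀ i, τ (σ i) = σ (τ i) := fun i => congrArg (· i) (hσ τ rfl)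
    let b' := (b.reindex σ.symm).unitsSMul (d σ c)
    have h2 : ∀ i, b' i = (d σ c i : F) • b (σ i) := fun i => by
      simp [b', Basis.unitsSMul_apply, Units.smul_def]
    refine ⟨ρ.symm ⟨_, mem_Isom_iff_pres.2 (pres_basis_equiv b b' (fun i j => ?_) fun _ => rfl)⟩,
      fun i => by simp [h2]⟩
    rw [h2, h2, B_smul_left, map_smul, hB, hB, h1]
    simp only [σ.apply_eq_iff_eq]
    split_ifs with h
    · rcases i with i | i
      · have := hs' (σ (Sum.inl i))
        rw [h1] at this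
        have e : (s (σ (Sum.inr i)) : F) = -s (σ (Sum.inl i)) := this
        simp [h, d, τ, e, mul_assoc, hs, show s (Sum.inl i) = -1 from rfl]
      · simp [h, d, τ, mul_left_comm, mul_assoc, hs, show s (Sum.inr i) = 1 from rfl]
    · simp
  choose Φ hΦ using key
  have hN : ∀ g (σ : Equiv.Perm (Fin m ⊕ Fin m)), (∀ i, ∃ c : F, (ρ g).1 (b i) = c • b (σ i)) →
      ∀ t ∈ T, g * t * g⁻¹ ∈ T ∧ g⁻¹ * t * g ∈ T := fun g σ h t ht => by
    have h' : ∀ i, ∃ c : F, c ≠ 0 ∧ (ρ g⁻¹).1 (b (σ i)) = c • b i ∧ (ρ g).1 (b i) = c⁻¹ • b (σ i) :=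
      fun i => by
        obtain ⟨c, hc⟩ := h i
        refine ⟨c⁻¹, inv_ne_zero (h0 hc), (ρ g).1.injective ?_, by rw [inv_inv, hc]⟩
        rw [map_inv, isom_apply_inv_apply, map_smul, hc, smul_smul, inv_mul_cancel₀ (h0 hc), one_smul]
    refine ⟨(mT _).2 fun i => ?_, (mT _).2 fun i => ?_⟩
    · obtain ⟨i, rfl⟩ := σ.surjective i
      obtain ⟨c, -, h1, h2⟩ := h' i
      obtain ⟨a, ha⟩ := (mT t).1 ht i
      exact ⟨_, by simp only [map_mul, isom_mul_apply, h1, map_smul, ha, h2, smul_smul]; rfl⟩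
    · obtain ⟨c, -, h1, h2⟩ := h' i
      obtain ⟨a, ha⟩ := (mT t).1 ht (σ i)
      exact ⟨_, by simp only [map_mul, isom_mul_apply, h1, map_smul, ha, h2, smul_smul]; rfl⟩
  let Ψ : Subgroup.centralizer {τ} × (Fin m → Fˣ) → Subgroup.normalizer (T : Set _) := fun x =>
    ⟨Φ x.1 x.1.2 x.2, Subgroup.mem_normalizer_iff.2 fun t => ⟨fun h =>
      (hN _ _ (fun i => ⟨_, hΦ _ _ _ i⟩) t h).1, fun h => by
        simpa [mul_assoc] using (hN _ _ (fun i => ⟨_, hΦ x.1 x.1.2 x.2 i⟩) _ h).2⟩⟩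
  rw [Set.iInf_eq_iInter, ← Subgroup.coe_iInf]
  change Nat.card (Subgroup.normalizer (T : Set (symplecticGroup (Fin m) F))) = _
  suffices H : Function.Bijective Ψ by
    rw [← Nat.card_congr (Equiv.ofBijective Ψ H), Nat.card_prod,
      card_cent, Nat.card_fun, Nat.card_units, Nat.card_eq_fintype_card, hF, Nat.card_fin]
  refine ⟨fun x y h => ?_, fun ⟨g, hg⟩ => ?_⟩
  · have h' : Φ x.1 x.1.2 x.2 = Φ y.1 y.1.2 y.2 := congrArg Subtype.val h
    have h1 := fun i => hb (Units.ne_zero _) ((hΦ x.1 x.1.2 x.2 i).symm.trans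
      (h' ▸ hΦ y.1 y.1.2 y.2 i))
    exact Prod.ext (Subtype.ext (Equiv.ext fun i => (h1 i).1))
      (funext fun i => Units.ext (h1 (Sum.inl i)).2)
  obtain ⟨a, a0, ha⟩ := exists_sq_ne_one (F := F) (hF ▸ hq)
  have h1 : ∀ i, ∃ j, ∃ c : F, (ρ g).1 (b i) = c • b j := fun i => by
    obtain ⟨j, hj⟩ := Function.ne_iff.1 (show (ρ g).1 (b i) ≠ 0 by simpa using b.ne_zero i)
    refine ⟨j, (ρ g).1 (b i) j, funext fun l => ?_⟩
    by_cases e : l = j
    · simp [e, b]
    rw [show ((ρ g).1 (b i) j • b j) l = 0 by simp [b, e]]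
    by_contra hl
    let c : Fin m → Fˣ := Function.update 1 (Sum.elim id id j) (Units.mk0 a a0)
    have h2 := hΦ 1 (one_mem _) c
    obtain ⟨z, hz⟩ := (mT _).1 ((Subgroup.mem_normalizer_iff''.1 hg _).1
      ((mT _).2 fun i => ⟨_, h2 i⟩)) i
    have h3 : (ρ (Φ 1 (one_mem _) c)).1 ((ρ g).1 (b i)) = z • (ρ g).1 (b i) := by
      rw [← map_smul, ← hz, map_mul, map_mul, map_inv, isom_mul_apply, isom_mul_apply,
        isom_apply_inv_apply]
    have h4 : ∀ v l, (ρ (Φ 1 (one_mem _) c)).1 v l = d 1 c l * v l := fun v l => by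
      conv_lhs => rw [← b.sum_repr v]
      simp only [map_sum, map_smul, h2]
      simp [b, Pi.single_apply, mul_comm]
    have h5 := congrFun h3 j
    have h6 := congrFun h3 l
    rw [h4, Pi.smul_apply, smul_eq_mul] at h5 h6
    have h7 := (mul_right_cancel₀ hj h5).trans (mul_right_cancel₀ hl h6).symm
    have a1 : a ≠ 1 := by rintro rfl; simp at ha
    have a2 : a ≠ a⁻¹ := fun h => ha (by nth_rw 2 [h]; exact mul_inv_cancel₀ a0)
    rcases j with j | j <;> rcases l with l | l <;> by_cases e' : l = j <;>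
      simp [d, c, s, e', a1, a2, a2.symm] at h7 e
  choose σ c h1 using h1
  have h2 : Function.Injective σ := fun i j h => by
    have := (ρ g).1.injective (a₁ := c j • b i) (a₂ := c i • b j) (by
      rw [map_smul, map_smul, h1, h1, h, smul_comm])
    exact (hb (h0 (h1 j)) this).1
  let σ' := Equiv.ofBijective σ (Finite.injective_iff_bijective.1 h2)
  have h3 : ∀ i, σ (τ i) = τ (σ i) ∧ c i * c (τ i) * s (σ i) = s i := fun i => by
    have := B_map (ρ g).2 (b i) (b (τ i))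
    rw [h1, h1, B_smul_left, map_smul, hB, hB, if_pos rfl] at this
    split_ifs at this with h
    · exact ⟨h, by rw [← this, mul_assoc]; rfl⟩
    · exact absurd (by simpa using this.symm) (s i).ne_zero
  have h4 : σ' ∈ Subgroup.centralizer {τ} := by
    rintro _ rfl
    exact Equiv.ext fun i => (h3 i).1.symm
  refine ⟨(⟨σ', h4⟩, fun i => Units.mk0 _ (h0 (h1 (Sum.inl i)))), Subtype.ext (ρ.injective
    (Subtype.ext (b.ext' fun i => (hΦ _ _ _ i).trans ?_)))⟩
  rw [h1]
  rcases i with i | i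
  · rfl
  · have h5 : c (Sum.inr i) * c (Sum.inl i) * s (σ (Sum.inr i)) = 1 := (h3 (Sum.inr i)).2
    congr 1
    simp only [d, Sum.elim_inr, Units.val_mul, Units.val_inv_eq_inv_val, Units.val_mk0]
    rw [inv_mul_eq_iff_eq_mul₀ (h0 (h1 _))]
    change (s (σ _) : F) = _
    linear_combination (c (Sum.inr i) * c (Sum.inl i)) * hs (σ (Sum.inr i)) - s (σ (Sum.inr i)) * h5

end Cfsg.Agent.S0777
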