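import Cfsg.Statements.S0778
import Cfsg.Agent.Lib.Lin.H22Embed

set_option autoImplicit false
open Cfsg

namespace Cfsg.Agent.S0778

open Matrix in
/-- The elements of Sp_2m(F) stabilising both W = ⟨e_1..e_m⟩ and U = ⟨f_1..f_m⟩ form a subgroup isomorphic to GL_m(F) (block-diagonal matrices diag(X, X^(−ᵀ)) up to the sign convention of J), for m ≥ 1 or m = 0 alike. -/
theorem result {F : Type*} [Field F] (m : ℕ) : Nonempty (↥(Cfsg.stabilizing (Cfsg.spToMat m F) {v : Fin m ⊕ Fin m → F | ∀ i : Fin m, v (Sum.inr i) = 0} ⊓ Cfsg.stabilizing (Cfsg.spToMat m F) {v : Fin m ⊕ Fin m → F | ∀ i : Fin m, v (Sum.inl i) = 0}) ≃* Matrix.GeneralLinearGroup (Fin m) F) := by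
  refine ⟨(MulEquiv.ofBijective ((CA.H22Embed.leviSp (Fin m) F).codRestrict _ fun g => ?_) ⟨?_, ?_⟩).symm⟩
  · have h : ∀ v, Cfsg.spToMat m F (CA.H22Embed.leviSp (Fin m) F g) *ᵥ v =
        Sum.elim ((g : Matrix (Fin m) (Fin m) F) *ᵥ (v ∘ Sum.inl))
          (((g⁻¹ : GL (Fin m) F) : Matrix (Fin m) (Fin m) F)ᵀ *ᵥ (v ∘ Sum.inr)) := fun v => by
      change fromBlocks _ _ _ _ *ᵥ v = _
      rw [fromBlocks_mulVec]; simp
    have h1 : ∀ (A : Matrix (Fin m) (Fin m) F), A.det ≠ 0 → ∀ v, (∀ i, v i = 0) ↔ ∀ i, (A *ᵥ v) i = 0 :=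
      fun A hA v => ⟨fun h i => by rw [show v = 0 from funext h]; simp,
        fun h => congrFun (eq_zero_of_mulVec_eq_zero hA (funext h))⟩
    refine ⟨fun v => ?_, fun v => ?_⟩
    · rw [h]
      exact h1 _ (by rw [det_transpose]; exact (g⁻¹).det_ne_zero) (v ∘ Sum.inr)
    · rw [h]
      exact h1 _ g.det_ne_zero (v ∘ Sum.inl)
  · exact fun a b h => CA.H22Embed.leviSp_injective _ (congrArg Subtype.val h)
  · rintro ⟨⟨A, hA⟩, h1, h2⟩
    have hc : A.toBlocks₂₁ = 0 := by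
      ext i j
      simpa [Cfsg.spToMat, toBlocks₂₁] using (h1 (Pi.single (Sum.inl j) 1)).1 (fun i => by simp) i
    have hb : A.toBlocks₁₂ = 0 := by
      ext i j
      simpa [Cfsg.spToMat, toBlocks₁₂] using (h2 (Pi.single (Sum.inr j) 1)).1 (fun i => by simp) i
    have h3 := SymplecticGroup.mem_iff.1 hA
    rw [← fromBlocks_toBlocks A, hb, hc, fromBlocks_transpose, J, fromBlocks_multiply,
      fromBlocks_multiply, fromBlocks_inj] at h3
    have h4 : A.toBlocks₁₁ * A.toBlocks₂₂ᵀ = 1 := by simpa using h3.2.1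
    refine ⟨⟨_, _, h4, mul_eq_one_comm.1 h4⟩, Subtype.ext (Subtype.ext ?_)⟩
    change fromBlocks _ _ _ _ = A
    conv_rhs => rw [← fromBlocks_toBlocks A, hb, hc]
    rfl

end Cfsg.Agent.S0778
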