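import Cfsg.Statements.S0779
import Cfsg.Agent.Lib.Lin.CFormEich

set_option autoImplicit false
open Cfsg

namespace Cfsg.Agent.S0779

/-- Unitary transvections: let |F| = q², h the standard Hermitian form Σ x_i y_i^q and v ≠ 0 with h(v, v) = 0. The linear map x ↦ x + c h(x, v) v is an isometry of h if and only if c = 0 or c^(q−1) = −1. -/
theorem result {F : Type*} [Field F] [Fintype F] {q : ℕ} (hF : Fintype.card F = q ^ 2) (n : ℕ) (v : Fin n → F) (hv : v ≠ 0) (hv0 : Cfsg.hermForm n F q v v = 0) (c : F) : (∀ x y : Fin n → F, Cfsg.hermForm n F q ((Cfsg.unitaryTransvection n q v c).mulVec x) ((Cfsg.unitaryTransvection n q v c).mulVec y) = Cfsg.hermForm n F q x y) ↔ (c = 0 ∨ c ^ (q - 1) = -1) := by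
  have hq := CA.CForm.two_le_of_card_sq hF
  have e : (c = 0 ∨ c ^ (q - 1) = -1) ↔ c + c ^ q = 0 := by
    obtain ⟨r, rfl⟩ : ∃ r, q = r + 1 := ⟨q - 1, by omega⟩
    rw [Nat.add_sub_cancel, pow_succ, ← mul_eq_zero.trans (or_congr_right add_eq_zero_iff_eq_neg)]
    constructor <;> intro h <;> linear_combination h
  rw [e]
  open CA.CForm CA.CForm.Form in
  simp only [unitaryTransvection_mulVec hF, ← hermStd_B hF]
  constructor
  · intro h
    obtain ⟨y, hy⟩ := (CA.CForm.hermStd_nondeg hF n).exists_isHyp hv0 hv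
    have := h y y
    simpa [hy.B_xy, hy.B_yx, hy.B_xx, CA.CForm.conj_apply, add_assoc] using this
  · intro h x y
    have hc : (CA.CForm.hermStd hF n).QreflCond v c := by
      rw [CA.CForm.Form.qreflCond_iff_of_Q _ hv0]
      simpa [CA.CForm.conj_apply] using h
    have := (CA.CForm.hermStd hF n).B_coe_map ((CA.CForm.hermStd hF n).qrefl v c hc) y x
    rwa [CA.CForm.Form.qrefl_apply, CA.CForm.Form.qrefl_apply] at this

end Cfsg.Agent.S0779
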