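import Cfsg.Statements.S0780
import Cfsg.Agent.Lib.Lin.CFormSpU

set_option autoImplicit false
open Cfsg

namespace Cfsg.Agent.S0780

/-- Generation of SU_n(q), n ≥ 3, (n, q) ≠ (3, 2), by unitary transvections: the subgroup generated by the elements whose matrix is x ↦ x + c h(x, v) v with v isotropic is all of SU_n(q). -/
theorem result {F : Type*} [Field F] [Fintype F] {q : ℕ} (hF : Fintype.card F = q ^ 2) (n : ℕ) (hn : 3 ≤ n) (h32 : ¬ (n = 3 ∧ q = 2)) : Subgroup.closure {A : ↥(Cfsg.SU n F q) | ∃ (v : Fin n → F) (c : F), Cfsg.hermForm n F q v v = 0 ∧ ((A : Matrix.SpecialLinearGroup (Fin n) F) : Matrix (Fin n) (Fin n) F) = Cfsg.unitaryTransvection n q v c} = ⊤ := by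
  rw [eq_top_iff]
  intro A _
  open CA.CForm CA.CForm.Form in
  have := herm_SIsom_le_of_Tgrp hF (hermStd_nondeg hF n) (by simpa using hn) (by simpa using h32)
    (G := (Subgroup.closure {A : ↥(SU n F q) | ∃ (v : Fin n → F) (c : F),
      hermForm n F q v v = 0 ∧ ((A : Matrix.SpecialLinearGroup (Fin n) F) :
      Matrix (Fin n) (Fin n) F) = unitaryTransvection n q v c}).map
      ((hermStd hF n).SIsom.subtype.comp (suEquiv hF n).toMonoidHom))
    (fun x c h => ⟨(suEquiv hF n).symm ⟨_, eichler_mem_SIsom _ x 0 c h⟩,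
      Subgroup.subset_closure ⟨x, -c, h.Q_p, matrix_eq_iff_mulVec.2 fun v => by
        rw [suEquiv_symm_mulVec, unitaryTransvection_mulVec hF, eichler_zero_apply]
        simp [sub_eq_add_neg]⟩, by simp⟩) (suEquiv hF n A).2
  obtain ⟨A', hA', e⟩ := this
  rwa [← (CA.CForm.suEquiv hF n).injective (Subtype.ext e)]

end Cfsg.Agent.S0780
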