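import Cfsg.Statements.S0781
import Cfsg.Agent.Lib.Lin.CFormSpU

set_option autoImplicit false
open Cfsg

namespace Cfsg.Agent.S0781

/-- In SU_n(q) with n ≥ 4, or n = 3 and q > 2, every element whose matrix is a unitary transvection x ↦ x + c h(x, v) v (v isotropic) is a commutator ⁅B, C⁆ of two elements of SU_n(q). -/
theorem result {F : Type*} [Field F] [Fintype F] {q : ℕ} (hF : Fintype.card F = q ^ 2) (n : ℕ) (hn : 4 ≤ n ∨ (n = 3 ∧ 3 ≤ q)) (A : ↥(Cfsg.SU n F q)) (v : Fin n → F) (c : F) (hv0 : Cfsg.hermForm n F q v v = 0) (hA : ((A : Matrix.SpecialLinearGroup (Fin n) F) : Matrix (Fin n) (Fin n) F) = Cfsg.unitaryTransvection n q v c) : A ∈ commutatorSet ↥(Cfsg.SU n F q) := by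
  by_cases hv : v = 0
  · have : A = 1 := by
      apply Subtype.ext; apply Subtype.ext
      rw [hA, hv]; simp [unitaryTransvection]
    rw [this]; exact one_mem_commutatorSet _
  have hf := CA.CForm.hermStd_nondeg hF n
  have hA' : ∀ x, ((CA.CForm.suEquiv hF n A : (CA.CForm.hermStd hF n).Isom) :
      (Fin n → F) ≃ₗ[F] (Fin n → F)) x = x + (c * (CA.CForm.hermStd hF n).B v x) • v := by
    intro x
    rw [CA.CForm.suEquiv_apply, hA, CA.CForm.unitaryTransvection_mulVec hF]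
  obtain ⟨y, hy⟩ := hf.exists_isHyp hv0 hv
  have hc : (CA.CForm.hermStd hF n).EichlerCond v 0 (-c) := by
    apply CA.CForm.Form.eichlerCond_zero _ hv0
    have := (CA.CForm.hermStd hF n).Q_coe_map (CA.CForm.suEquiv hF n A) y
    rw [hA', CA.CForm.Form.Q_add_smul_of_Q _ hy.Q_x, hy.B_xy, hy.B_yx] at this
    rw [map_neg, neg_eq_zero]
    simpa using this
  obtain ⟨b, hb⟩ := CA.CForm.Form.herm_exists_sub_eq (CA.CForm.conj_conj hF)
    (CA.CForm.conj_ne_id hF) _ hc.π_eq_zero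
  obtain ⟨e, he, e', he', h⟩ := hf.exists_commutator_eq (by simp; omega) hc hb
  have hle := ((CA.CForm.hermStd hF n).Qgrp_le_Eich v).trans (CA.CForm.hermStd hF n).Eich_le_SIsom
  refine ⟨(CA.CForm.suEquiv hF n).symm ⟨e, hle he⟩, (CA.CForm.suEquiv hF n).symm ⟨e', hle he'⟩, ?_⟩
  rw [← map_commutatorElement, MulEquiv.symm_apply_eq]
  apply Subtype.ext
  refine h.trans (CA.CForm.Form.isom_ext _ fun x => ?_)
  rw [hA', CA.CForm.Form.eichler_zero_apply]
  simp

end Cfsg.Agent.S0781
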