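import Cfsg.Statements.S0782
import Cfsg.Agent.Lib.Lin.CFormMisc

set_option autoImplicit false
open Cfsg

namespace Cfsg.Agent.S0782

open CA.CForm CA.CForm.Form in
/-- Maximal parabolics of SU_n(q): if W is a k-dimensional subspace of F^n (n ≥ 1, |F| = q²) on which the Hermitian form vanishes, then (q + 1) times the order of its stabiliser in SU_n(q) equals q^(k(2n−3k)) · |GL_k(q²)| · |GU_(n−2k)(q)|, where |GU_m(q)| = q^(m(m−1)/2) Π_(i=1..m) (q^i − (−1)^i). -/
theorem result {F : Type*} [Field F] [Fintype F] {q : ℕ} (hF : Fintype.card F = q ^ 2) (n k : ℕ) (hn : 1 ≤ n) (hk : 2 * k ≤ n) (W : Submodule F (Fin n → F)) (hWk : Module.finrank F W = k) (hW : ∀ u ∈ W, ∀ v ∈ W, Cfsg.hermForm n F q u v = 0) : (q + 1) * Nat.card ↥((Cfsg.stabilizing (Cfsg.slToMat n F) (W : Set (Fin n → F))).subgroupOf (Cfsg.SU n F q)) = q ^ (k * (2 * n - 3 * k)) * (∏ i : Fin k, ((q ^ 2) ^ k - (q ^ 2) ^ (i : ℕ))) * (q ^ ((n - 2 * k) * ((n - 2 * k) - 1) / 2) *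 ∏ i ∈ Finset.range (n - 2 * k), (if Even i then q ^ (i + 1) + 1 else q ^ (i + 1) - 1)) := by
  have hf := hermStd_nondeg hF n
  have hn' : Module.finrank F (Fin n → F) ≠ 0 := by simp; omega
  have hW' : (hermStd hF n).TS W := herm_ts_iff.2 fun u hu v hv => (hermStd_B hF n u v).trans (hW v hv u hu)
  obtain ⟨N, -, hN, -, h1, h2⟩ := hf.card_fix_ts hW' hWk (r := n - 2 * k) (by simp; omega)
  rw [Nat.card_congr (suStabEquiv hF n W).toEquiv, herm_card_subgroupOf_SIsom hF hf hn'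
    (herm_exists_stab_det hF hf hn' hW'), hf.card_stab_ts hW' hWk, h2,
    herm_card_isom hF _ (hf.restrict_perp hN) h1, card_ker_π_hermKind, Nat.card_eq_fintype_card, hF,
    ← pow_mul q 2 (_ + _), ← pow_add, ← mul_assoc, mul_comm (∏ _, _)]
  congr 3
  obtain ⟨r, rfl⟩ := Nat.exists_eq_add_of_le hk
  have := Nat.choose_two_right k
  have h3 : 2 * (k * (k - 1) / 2) = k * (k - 1) := Nat.mul_div_cancel' (Nat.even_mul_pred_self k).two_dvd
  rw [Nat.add_sub_cancel_left, show 2 * (2 * k + r) - 3 * k = k + 2 * r by omega, mul_add, this, h3]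
  rcases k with _ | k
  · simp
  · simp only [Nat.add_sub_cancel]; ring

end Cfsg.Agent.S0782
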