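import Cfsg.Statements.S0783
import Cfsg.Agent.Lib.Lin.CFormMisc2

set_option autoImplicit false
open Cfsg

namespace Cfsg.Agent.S0783

open CA.CForm CA.CForm.Form in
/-- PGU_n(q)/PSU_n(q) is cyclic of order (n, q+1): for n ≥ 2 and |F| = q² there is a surjective homomorphism from GU_n(q) onto the cyclic group of order gcd(n, q + 1) whose kernel is generated by the determinant-one elements together with the centre. -/
theorem result {F : Type*} [Field F] [Fintype F] {q : ℕ} (hF : Fintype.card F = q ^ 2) (n : ℕ) (hn : 2 ≤ n) : ∃ φ : ↥(Cfsg.GU n F q) →* Multiplicative (ZMod (Nat.gcd n (q + 1))), Function.Surjective φ ∧ φ.ker = (Matrix.GeneralLinearGroup.det : Matrix.GeneralLinearGroup (Fin n) F →* Fˣ).ker.subgroupOf (Cfsg.GU n F q) ⊔ Subgroup.center ↥(Cfsg.GU n F q) := by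
  have hf := hermStd_nondeg hF n
  have hn' : Module.finrank F (Fin n → F) ≠ 0 := by simp; omega
  set f := hermStd hF n
  let δ := f.detHom.rangeRestrict
  have hc : Nat.card f.detHom.range = q + 1 := by
    rw [← herm_index_SIsom hF hf hn', SIsom, Subgroup.index_ker]
  let P := (powMonoidHom n : f.detHom.range →* f.detHom.range).range
  have hP : Nat.card (f.detHom.range ⧸ P) = Nat.gcd n (q + 1) := by
    rw [← Subgroup.index_eq_card, IsCyclic.index_powMonoidHom_range, hc, Nat.gcd_comm]
  have : IsCyclic (f.detHom.range ⧸ P) := isCyclic_of_surjective _ (QuotientGroup.mk'_surjective P)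
  let e : Multiplicative (ZMod (Nat.gcd n (q + 1))) ≃* f.detHom.range ⧸ P := hP ▸ zmodCyclicMulEquiv this
  refine ⟨e.symm.toMonoidHom.comp ((QuotientGroup.mk' P).comp (δ.comp (guEquiv hF n).toMonoidHom)),
    e.symm.surjective.comp ((QuotientGroup.mk'_surjective P).comp
      (f.detHom.rangeRestrict_surjective.comp (guEquiv hF n).surjective)), ?_⟩
  have hz : ∀ g, g ∈ Subgroup.center (Cfsg.GU n F q) ↔ guEquiv hF n g ∈ f.scalars := by
    intro g
    rw [← herm_center_isom hF hf (by simpa using hn), Subgroup.mem_center_iff, Subgroup.mem_center_iff]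
    refine ⟨fun h x => ?_, fun h x => (guEquiv hF n).injective (by rw [map_mul, map_mul, h])⟩
    obtain ⟨x, rfl⟩ := (guEquiv hF n).surjective x
    rw [← map_mul, h, map_mul]
  have hs : ∀ g : Cfsg.GU n F q, g ∈ (Matrix.GeneralLinearGroup.det : Matrix.GeneralLinearGroup (Fin n) F →* Fˣ).ker.subgroupOf
      (Cfsg.GU n F q) ↔ f.detHom (guEquiv hF n g) = 1 := fun g => by rw [detHom_guEquiv]; rfl
  ext g
  rw [MonoidHom.mem_ker]
  simp only [MonoidHom.comp_apply, MulEquiv.coe_toMonoidHom, map_eq_one_iff _ e.symm.injective,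
    QuotientGroup.mk'_apply, QuotientGroup.eq_one_iff]
  rw [Subgroup.mem_sup_of_normal_left]
  constructor
  · rintro ⟨a, ha⟩
    have h1 := (herm_mem_range_detHom hF hf hn' a.1).1 a.2
    have h2 : (a.1 : F) * (hermKind hF).σ a.1 = 1 := by rw [← h1, pow_succ']; rfl
    have h3 : f.detHom (f.scalarIsom _ h2) = f.detHom (guEquiv hF n g) := by
      have : a.1 ^ n = f.detHom (guEquiv hF n g) := congrArg Subtype.val ha
      rw [← this]
      ext
      rw [f.detHom_of_smul (f.scalarIsom_apply _ h2)]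
      simp
    refine ⟨g * ((guEquiv hF n).symm (f.scalarIsom _ h2))⁻¹, (hs _).2 ?_, (guEquiv hF n).symm (f.scalarIsom _ h2),
      (hz _).2 ?_, by simp⟩
    · simp [h3]
    · simpa using f.scalarIsom_mem _ h2
  · rintro ⟨s, h1, z, h2, rfl⟩
    obtain ⟨a, ha⟩ := (hz z).1 h2
    have h3 : a * (hermKind hF).σ a = 1 := by
      have : Nontrivial (Fin n → F) := Module.finrank_pos_iff.1 (Nat.pos_of_ne_zero hn')
      exact hf.mul_σ_eq_one ha
    have h4 : a ≠ 0 := left_ne_zero_of_mul_eq_one h3
    refine ⟨⟨Units.mk0 a h4, (herm_mem_range_detHom hF hf hn' _).2 (by rw [← h3, pow_succ']; rfl)⟩, ?_⟩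
    ext
    change a ^ n = f.detHom (guEquiv hF n (s * z))
    rw [map_mul, map_mul, (hs s).1 h1, one_mul, f.detHom_of_smul ha]
    simp

end Cfsg.Agent.S0783
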