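import Cfsg.Statements.S0784
import Cfsg.Agent.Lib.Lin.CFormOBr

set_option autoImplicit false
open Cfsg

namespace Cfsg.Agent.S0784

open CA.CForm CA.CForm.Form in
/-- Reflections: if Q(v) ≠ 0 then the matrix R = 1 − Q(v)⁻¹ · v f(v, ·)ᵀ preserves Q, maps v to −v, fixes each x with f(v, x) = 0, and has determinant −1 (in characteristic two, −1 = 1 and R is the orthogonal transvection of v). -/
theorem result {F : Type*} [Field F] {n : ℕ} (Q : QuadraticForm F (Fin n → F)) (v : Fin n → F) (hv : Q v ≠ 0) : (∀ x, Q ((Cfsg.reflectionMatrix ⇑Q v).mulVec x) = Q x) ∧ (Cfsg.reflectionMatrix ⇑Q v).mulVec v = -v ∧ (∀ x, QuadraticMap.polar ⇑Q v x = 0 → (Cfsg.reflectionMatrix ⇑Q v).mulVec x = x) ∧ (Cfsg.reflectionMatrix ⇑Q v).det = -1 := by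
  obtain ⟨f, hfQ⟩ : ∃ f : Form (Kind.orth F) (Fin n → F), ⇑Q = f.Q := ⟨ofQuad Q, rfl⟩
  generalize ⇑Q = q at *
  subst hfQ
  refine ⟨fun x => ?_, ?_, fun x hx => ?_, ?_⟩
  · rw [reflectionMatrix_mulVec', Q_coe_map]
  · rw [reflectionMatrix_mulVec', refl_apply_self _ hv]
  · rw [reflectionMatrix_mulVec', refl_apply_of_B _ (by rwa [polar_eq] at hx)]
  · have h1 := detHom_orthEquiv f ((orthEquiv f).symm (f.refl v))
    rw [MulEquiv.apply_symm_apply, detHom_refl _ hv] at h1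
    have h2 := (coe_eq_reflectionMatrix_iff f _ v).2 ((orthEquiv f).apply_symm_apply _)
    have h3 := congrArg Units.val h1
    rw [Matrix.GeneralLinearGroup.val_det_apply, h2] at h3
    exact h3.symm

end Cfsg.Agent.S0784
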