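import Cfsg.Statements.S0785
import Cfsg.Agent.Lib.Lin.CFormOBr

set_option autoImplicit false
open Cfsg

namespace Cfsg.Agent.S0785

open CA.CForm CA.CForm.Form in
/-- det(I) = {±1}: for a quadratic form on F^n whose polar form is non-degenerate, every element of the isometry group has determinant 1 or −1, and as soon as Q takes a non-zero value some isometry has determinant −1. -/
theorem result {F : Type*} [Field F] {n : ℕ} (Q : QuadraticForm F (Fin n → F)) (hQ : (QuadraticMap.polarBilin Q).Nondegenerate) : (∀ g : ↥(Cfsg.isometryGroup F ⇑Q), ((g : Matrix.GeneralLinearGroup (Fin n) F) : Matrix (Fin n) (Fin n) F).det = 1 ∨ ((g : Matrix.GeneralLinearGroup (Fin n) F) : Matrix (Fin n) (Fin n) F).det = -1) ∧ ((∃ v, Q v ≠ 0) → ∃ g : ↥(Cfsg.isometryGroup F ⇑Q), ((g : Matrix.GeneralLinearGroup (Fin n) F) : Matrix (Fin n) (Fin n) F).det = -1) := by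
  obtain ⟨f, hfQ, hf⟩ : ∃ f : Form (Kind.orth F) (Fin n → F), ⇑Q = f.Q ∧ f.Nondeg :=
    ⟨ofQuad Q, rfl, ofQuad_nondeg hQ⟩
  clear hQ
  generalize ⇑Q = q at *
  subst hfQ
  refine ⟨fun g => ?_, fun ⟨v, hv⟩ => ⟨(orthEquiv f).symm (f.refl v), ?_⟩⟩
  · have := hf.detHom_eq_or (orthEquiv f g)
    rw [detHom_orthEquiv] at this
    exact this.imp (congrArg Units.val) (congrArg Units.val)
  · have h1 := detHom_orthEquiv f ((orthEquiv f).symm (f.refl v))
    rw [MulEquiv.apply_symm_apply, detHom_refl _ hv] at h1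
    exact (congrArg Units.val h1).symm

end Cfsg.Agent.S0785
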