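import Cfsg.Statements.S0786
import Cfsg.Agent.Lib.Lin.CFormOBr

set_option autoImplicit false
open Cfsg

namespace Cfsg.Agent.S0786

open CA.CForm CA.CForm.Form in
/-- Generation by reflections: if F is finite, Q is a quadratic form on F^n with non-degenerate polar form, and (|F|, n) ≠ (2, 4), then the isometry group of Q is generated by the reflections r_v, Q(v) ≠ 0. -/
theorem result {F : Type*} [Field F] [Fintype F] {n : ℕ} (Q : QuadraticForm F (Fin n → F)) (hQ : (QuadraticMap.polarBilin Q).Nondegenerate) (h : Fintype.card F ≠ 2 ∨ n ≠ 4) : Subgroup.closure {g : ↥(Cfsg.isometryGroup F ⇑Q) | ∃ v : Fin n → F, Q v ≠ 0 ∧ ((g : Matrix.GeneralLinearGroup (Fin n) F) : Matrix (Fin n) (Fin n) F) = Cfsg.reflectionMatrix ⇑Q v} = ⊤ := by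
  obtain ⟨f, hfQ, hf⟩ : ∃ f : Form (Kind.orth F) (Fin n → F), ⇑Q = f.Q ∧ f.Nondeg :=
    ⟨ofQuad Q, rfl, ofQuad_nondeg hQ⟩
  clear hQ
  generalize ⇑Q = q at *
  subst hfQ
  rw [closure_eq_comap (orthEquiv f) _ {g | ∃ v, f.Q v ≠ 0 ∧ g = f.refl v} ?_,
    hf.eq_top_of_refl (good_of_card _ (by simpa using h)) (G := Subgroup.closure {g | ∃ v, f.Q v ≠ 0 ∧ g = f.refl v})
      fun v hv => Subgroup.subset_closure ⟨v, hv, rfl⟩, Subgroup.comap_top]
  exact fun g => exists_congr fun v => and_congr_right fun _ => coe_eq_reflectionMatrix_iff f g v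

end Cfsg.Agent.S0786
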