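import Cfsg.Statements.S0787
import Cfsg.Agent.Lib.Lin.CFormOSub

set_option autoImplicit false
open Cfsg

namespace Cfsg.Agent.S0787

open CA.CForm CA.CForm.Form in
/-- Existence and uniqueness of Ω: if F is finite, n ≥ 2, Q is a quadratic form on F^n with non-degenerate polar form and (|F|, n) ≠ (2, 4), then the group of isometries of determinant one has a unique subgroup of index 2. -/
theorem result {F : Type*} [Field F] [Fintype F] {n : ℕ} (hn : 2 ≤ n) (Q : QuadraticForm F (Fin n → F)) (hQ : (QuadraticMap.polarBilin Q).Nondegenerate) (h : Fintype.card F ≠ 2 ∨ n ≠ 4) : ∃! H : Subgroup ↥(Cfsg.specialIsometryGroup F ⇑Q), H.index = 2 := by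
  obtain ⟨f, hfQ, hf⟩ : ∃ f : Form (Kind.orth F) (Fin n → F), ⇑Q = f.Q ∧ f.Nondeg :=
    ⟨ofQuad Q, rfl, ofQuad_nondeg hQ⟩
  clear hQ
  generalize ⇑Q = q at *
  subst hfQ
  have hg : f.Good := good_of_card _ (by simpa using h)
  have h2 : 2 ≤ Module.finrank F (Fin n → F) := by simpa using hn
  let e : Cfsg.specialIsometryGroup F f.Q ≃* f.SIsom :=
    { toFun := fun g => ⟨orthEquiv f g, (mem_specialIsometryGroup_iff f _).1 g.2⟩
      invFun := fun g => ⟨(orthEquiv f).symm g, (mem_specialIsometryGroup_iff f _).2 (by simp)⟩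
      left_inv := fun g => by simp
      right_inv := fun g => by simp
      map_mul' := fun g h => by simp }
  refine ⟨((commutator f.Isom).subgroupOf f.SIsom).comap e.toMonoidHom, ?_, fun H hH => ?_⟩
  · change Subgroup.index _ = 2
    rw [Subgroup.index_comap_of_surjective _ e.surjective, hf.index_commutator_subgroupOf hg h2]
  · rw [← hf.eq_of_index_two_SIsom hg h2 (H := H.map e.toMonoidHom)
      ((Subgroup.index_map_equiv H e).trans hH), Subgroup.comap_map_eq_self_of_injective e.injective]

end Cfsg.Agent.S0787
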