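import Cfsg.Statements.S0792
import Cfsg.Agent.Lib.Lin.CFormOBr

set_option autoImplicit false
open Cfsg

namespace Cfsg.Agent.S0792

open CA.CForm CA.CForm.Form in
/-- For q odd and Q with non-degenerate polar form on F^n, the determinant-one isometries form the subgroup generated by all products r_u r_v of two reflections (Q(u), Q(v) ≠ 0). -/
theorem result {F : Type*} [Field F] [Fintype F] (h2 : (2 : F) ≠ 0) {n : ℕ} (Q : QuadraticForm F (Fin n → F)) (hQ : (QuadraticMap.polarBilin Q).Nondegenerate) : Cfsg.specialIsometryGroup F ⇑Q = Subgroup.closure {g : ↥(Cfsg.isometryGroup F ⇑Q) | ∃ u v : Fin n → F, Q u ≠ 0 ∧ Q v ≠ 0 ∧ ((g : Matrix.GeneralLinearGroup (Fin n) F) : Matrix (Fin n) (Fin n) F) = Cfsg.reflectionMatrix ⇑Q u * Cfsg.reflectionMatrix ⇑Q v} := by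
  obtain ⟨f, hfQ, hf⟩ : ∃ f : Form (Kind.orth F) (Fin n → F), ⇑Q = f.Q ∧ f.Nondeg :=
    ⟨ofQuad Q, rfl, ofQuad_nondeg hQ⟩
  clear hQ
  generalize ⇑Q = q at *
  subst hfQ
  have hg := f.good_of_two_ne_zero h2
  rw [closure_eq_comap (orthEquiv f) _
    {g | ∃ u v, f.Q u ≠ 0 ∧ f.Q v ≠ 0 ∧ g = f.refl u * f.refl v} ?_]
  swap
  · exact fun g => exists_congr fun u => exists_congr fun v => and_congr_right fun _ =>
      and_congr_right fun _ => coe_eq_reflectionMatrix_mul_iff f g u v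
  ext g
  rw [mem_specialIsometryGroup_iff, Subgroup.mem_comap]
  refine ⟨fun h => hf.ker_dick_le hg (fun u v hu hv => Subgroup.subset_closure (by exact ⟨u, v, hu, hv, rfl⟩))
    (hf.ker_dick_eq_SIsom hg h2 ▸ h), fun h => (Subgroup.closure_le _).2 ?_ h⟩
  rintro _ ⟨u, v, hu, hv, rfl⟩
  rw [SetLike.mem_coe, mem_SIsom, map_mul, detHom_refl _ hu, detHom_refl _ hv]
  simp

end Cfsg.Agent.S0792
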