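import Cfsg.Statements.S0793
import Cfsg.Agent.Lib.Lin.CFormOBr

set_option autoImplicit false
open Cfsg

namespace Cfsg.Agent.S0793

open CA.CForm CA.CForm.Form in
/-- Root elements: if Q(u) = Q(v) = 0 and f(u, v) = 0 (f the polar form), then for every c the Siegel matrix T_(u,v)(c) preserves Q, fixes u and v, and T(c) T(d) = T(c + d). -/
theorem result {F : Type*} [Field F] {n : ℕ} (Q : QuadraticForm F (Fin n → F)) (u v : Fin n → F) (hu : Q u = 0) (hv : Q v = 0) (huv : QuadraticMap.polar ⇑Q u v = 0) : (∀ c x, Q ((Cfsg.siegelMatrix ⇑Q u v c).mulVec x) = Q x) ∧ (∀ c, (Cfsg.siegelMatrix ⇑Q u v c).mulVec u = u ∧ (Cfsg.siegelMatrix ⇑Q u v c).mulVec v = v) ∧ ∀ c d, Cfsg.siegelMatrix ⇑Q u v c * Cfsg.siegelMatrix ⇑Q u v d = Cfsg.siegelMatrix ⇑Q u v (c + d) := by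
  have hc : ∀ c : F, (ofQuad Q).EichlerCond u (c • v) 0 := fun c =>
    ⟨hu, by rw [map_smul, ofQuad_B, huv, smul_zero], ((ofQuad Q).Q_smul_of_Q hv c).symm⟩
  have key : ∀ c x, (siegelMatrix Q u v c).mulVec x =
      ((ofQuad Q).eichler u _ 0 (hc c) : _ ≃ₗ[F] _) x := fun c x =>
    siegelMatrix_mulVec (ofQuad Q) u v c x
  have hvv := (ofQuad Q).B_self_of_Q hv
  refine ⟨fun c x => ?_, fun c => ⟨?_, ?_⟩, fun c d => matrix_eq_iff_mulVec.2 fun x => ?_⟩
  · rw [key]; exact (ofQuad Q).Q_coe_map _ x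
  · rw [key, eichler_apply_self]
  · rw [key, eichler_apply_of_B _ _ _ _ _ huv, B_smul_left, hvv]; simp
  · rw [← Matrix.mulVec_mulVec, key, key, key, ← isom_mul_apply, eichler_mul,
      eichler_congr _ _ (hc (c + d)) rfl (add_smul _ _ _).symm (by simp [hvv, -ofQuad_B])]

end Cfsg.Agent.S0793
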