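import Cfsg.Statements.S0794
import Cfsg.Agent.Lib.Lin.CFormOSub

set_option autoImplicit false
open Cfsg

namespace Cfsg.Agent.S0794

open CA.CForm CA.CForm.Form in
/-- For q odd, n ≥ 5 and Q with non-degenerate polar form: an isometry whose matrix is a Siegel transformation T_(u,v)(c) (u, v singular and orthogonal) is a commutator in the isometry group, so lies in Ω. -/
theorem result {F : Type*} [Field F] [Fintype F] (h2 : (2 : F) ≠ 0) {n : ℕ} (hn : 5 ≤ n) (Q : QuadraticForm F (Fin n → F)) (hQ : (QuadraticMap.polarBilin Q).Nondegenerate) (u v : Fin n → F) (hu : Q u = 0) (hv : Q v = 0) (huv : QuadraticMap.polar ⇑Q u v = 0) (c : F) (g : ↥(Cfsg.isometryGroup F ⇑Q)) (hg : ((g : Matrix.GeneralLinearGroup (Fin n) F) : Matrix (Fin n) (Fin n) F) = Cfsg.siegelMatrix ⇑Q u v c) : g ∈ commutatorSet ↥(Cfsg.isometryGroup F ⇑Q) ∧ g ∈ Cfsg.Omega F ⇑Q := by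
  obtain ⟨f, hfQ, hf⟩ : ∃ f : Form (Kind.orth F) (Fin n → F), ⇑Q = f.Q ∧ f.Nondeg :=
    ⟨ofQuad Q, rfl, ofQuad_nondeg hQ⟩
  clear hQ
  generalize ⇑Q = q at *
  subst hfQ
  rw [polar_eq] at huv
  have hc1 : f.EichlerCond u (c • v) 0 := ⟨hu, by simp [huv], (f.Q_smul_of_Q hv c).symm⟩
  have h1 : orthEquiv f g = f.eichler u _ 0 hc1 :=
    (orthEquiv_eq_iff f g _ _ (siegelMatrix_mulVec f u v c)).1 hg
  obtain ⟨a, b, h⟩ := hf.exists_commutator_eq_eichler (a := -1) (by simp)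
    (fun h => h2 (by linear_combination -h)) hc1
  have h3 : g ∈ commutatorSet _ := by
    refine ⟨(orthEquiv f).symm a, (orthEquiv f).symm b, ?_⟩
    rw [← map_commutatorElement, MulEquiv.symm_apply_eq, h1]
    exact h
  refine ⟨h3, ?_⟩
  change g ∈ commutator _
  rw [commutator_eq_closure]
  exact Subgroup.subset_closure h3

end Cfsg.Agent.S0794
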