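import Cfsg.Statements.S0795
import Cfsg.Agent.Lib.Lin.CFormOBr

set_option autoImplicit false
open Cfsg

namespace Cfsg.Agent.S0795

open CA.CForm CA.CForm.Form in
/-- Generation of Ω by root elements: for q odd, n ≥ 5 and Q with non-degenerate polar form on F^n, the commutator subgroup of the isometry group equals the subgroup generated by the isometries whose matrices are Siegel transformations T_(u,v)(c) with u, v singular and orthogonal. -/
theorem result {F : Type*} [Field F] [Fintype F] (h2 : (2 : F) ≠ 0) {n : ℕ} (hn : 5 ≤ n) (Q : QuadraticForm F (Fin n → F)) (hQ : (QuadraticMap.polarBilin Q).Nondegenerate) : Cfsg.Omega F ⇑Q = Subgroup.closure {g : ↥(Cfsg.isometryGroup F ⇑Q) | ∃ (u v : Fin n → F) (c : F), Q u = 0 ∧ Q v = 0 ∧ QuadraticMap.polar ⇑Q u v = 0 ∧ ((g : Matrix.GeneralLinearGroup (Fin n) F) : Matrix (Fin n) (Fin n) F) = Cfsg.siegelMatrix ⇑Q u v c} := by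
  obtain ⟨f, hfQ, hf⟩ : ∃ f : Form (Kind.orth F) (Fin n → F), ⇑Q = f.Q ∧ f.Nondeg :=
    ⟨ofQuad Q, rfl, ofQuad_nondeg hQ⟩
  clear hQ
  generalize ⇑Q = q at *
  subst hfQ
  have h5 : 5 ≤ Module.finrank F (Fin n → F) := by simpa using hn
  rw [closure_eq_comap (orthEquiv f) _ {g | ∃ u v h, f.Q v = 0 ∧ g = f.eichler u v 0 h} ?_]
  swap
  · simp only [polar_eq]
    exact fun g => ⟨fun ⟨u, v, c, hu, hv, huv, hg⟩ => ⟨u, c • v,
      ⟨hu, by rw [map_smul, huv, smul_zero], (f.Q_smul_of_Q hv c).symm⟩, f.Q_smul_of_Q hv c,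
      (orthEquiv_eq_iff f g _ _ (siegelMatrix_mulVec f u v c)).1 hg⟩,
      fun ⟨u, v, h, hv, hg⟩ => ⟨u, v, 1, h.Q_p, hv, h.B_pw,
        (orthEquiv_eq_iff f g _ _ fun x => by rw [siegelMatrix_mulVec, one_smul]; rfl).2 hg⟩⟩
  rw [omega_eq_comap, hf.commutator_eq_Eich (good_of_five_le h5) (by omega)]
  congr 1
  refine le_antisymm (hf.Eich_le_of_singular h5 fun x w h hw =>
    Subgroup.subset_closure ⟨x, w, h, hw, rfl⟩) ((Subgroup.closure_le _).2 ?_)
  rintro _ ⟨u, v, h, -, rfl⟩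
  exact eichler_mem_Eich _ _ _ _ _

end Cfsg.Agent.S0795
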