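import Cfsg.Statements.S0796
import Cfsg.Agent.Lib.Lin.CFormPt

set_option autoImplicit false
open Cfsg

namespace Cfsg.Agent.S0796

/-- If G is finite and acts faithfully and primitively on X, H is the stabiliser of a point, A is a normal subgroup of H whose normal closure in G is G, then for every non-trivial normal subgroup K of G the quotient G ⧸ K is isomorphic to A ⧸ B for some normal subgroup B of A. -/
theorem result {G X : Type*} [Group G] [Finite G] [MulAction G X] [FaithfulSMul G X] (hprim : MulAction.IsPreprimitive G X) (x : X) (A : Subgroup G) (hA : A ≤ MulAction.stabilizer G x) (hAn : (A.subgroupOf (MulAction.stabilizer G x)).Normal) (hgen : Subgroup.normalClosure (A : Set G) = ⊤) (K : Subgroup G) [K.Normal] (hK : K ≠ ⊥) : ∃ (B : Subgroup A) (_ : B.Normal), Nonempty (G ⧸ K ≃* A ⧸ B) := by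
  have ht : MulAction.IsPretransitive K X := by
    refine hprim.isQuasiPreprimitive.isPretransitive_of_normal fun h => hK ?_
    rw [eq_bot_iff]
    intro g hg
    refine Subgroup.mem_bot.2 (eq_of_smul_eq_smul (α := X) fun y => ?_)
    rw [one_smul]
    have : y ∈ MulAction.fixedPoints K X := h ▸ trivial
    exact this ⟨g, hg⟩
  have h1 : (A ⊔ K).Normal := by
    constructor
    intro a ha g
    obtain ⟨k, hk⟩ := ht.exists_smul_eq x (g • x)
    have hs : (k : G)⁻¹ * g ∈ MulAction.stabilizer G x := by
      rw [MulAction.mem_stabilizer_iff, mul_smul, inv_smul_eq_iff]; exact hk.symm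
    have h2 : (A ⊔ K).map (MulAut.conj g).toMonoidHom ≤ A ⊔ K := by
      rw [Subgroup.map_sup]
      refine sup_le ?_ ?_
      · rintro _ ⟨b, hb, rfl⟩
        have h3 := hAn.conj_mem ⟨b, hA hb⟩ hb ⟨_, hs⟩
        have h4 : (MulAut.conj g).toMonoidHom b =
            k * ((k : G)⁻¹ * g * b * ((k : G)⁻¹ * g)⁻¹) * (k : G)⁻¹ := by
          simp [mul_assoc]
        rw [h4]
        exact mul_mem (mul_mem (Subgroup.mem_sup_right k.2) (Subgroup.mem_sup_left h3))
          (Subgroup.mem_sup_right (inv_mem k.2))
      · rintro _ ⟨b, hb, rfl⟩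
        exact Subgroup.mem_sup_right (‹K.Normal›.conj_mem b hb g)
    exact h2 ⟨a, ha, rfl⟩
  have h2 : A ⊔ K = ⊤ := by
    rw [eq_top_iff, ← hgen]
    exact Subgroup.normalClosure_le_normal fun a ha => Subgroup.mem_sup_left ha
  let φ : A →* G ⧸ K := (QuotientGroup.mk' K).comp A.subtype
  have hφ : Function.Surjective φ := by
    rw [← MonoidHom.range_eq_top, MonoidHom.range_comp, Subgroup.range_subtype]
    have := congrArg (Subgroup.map (QuotientGroup.mk' K)) h2
    rwa [Subgroup.map_sup, Subgroup.map_top_of_surjective _ (QuotientGroup.mk'_surjective K),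
      (Subgroup.map_eq_bot_iff K).2 (by simp), sup_bot_eq] at this
  exact ⟨φ.ker, inferInstance, ⟨(QuotientGroup.quotientKerEquivOfSurjective φ hφ).symm⟩⟩

end Cfsg.Agent.S0796
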