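import Cfsg.Statements.S0798
import Cfsg.Agent.Lib.Lin.CFormOSub

set_option autoImplicit false
open Cfsg

namespace Cfsg.Agent.S0798

open CA.CForm CA.CForm.Form in
/-- For q odd, n ≥ 2 even, Q with non-degenerate polar form (n, |F|) ≠ (4, 3), and a fixed c ≠ 0: the subgroup of the isometry group generated by the reflections r_v with Q(v) ∈ c·(F^×)² has index 2. -/
theorem result {F : Type*} [Field F] [Fintype F] (h2 : (2 : F) ≠ 0) {n : ℕ} (hn : 2 ≤ n) (heven : Even n) (Q : QuadraticForm F (Fin n → F)) (hQ : (QuadraticMap.polarBilin Q).Nondegenerate) (h43 : ¬ (n = 4 ∧ Fintype.card F = 3)) (c : F) (hc : c ≠ 0) : (Subgroup.closure {g : ↥(Cfsg.isometryGroup F ⇑Q) | ∃ (v : Fin n → F) (t : F), t ≠ 0 ∧ Q v = c * t ^ 2 ∧ ((g : Matrix.GeneralLinearGroup (Fin n) F) : Matrix (Fin n) (Fin n) F) = Cfsg.reflectionMatrix ⇑Q v}).index = 2 := by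
  obtain ⟨f, hfQ, hf⟩ : ∃ f : Form (Kind.orth F) (Fin n → F), ⇑Q = f.Q ∧ f.Nondeg :=
    ⟨ofQuad Q, rfl, ofQuad_nondeg hQ⟩
  clear hQ
  generalize ⇑Q = q at *
  subst hfQ
  rw [closure_eq_comap (orthEquiv f) _
    {g | ∃ (v : Fin n → F) (t : F), t ≠ 0 ∧ f.Q v = c * t ^ 2 ∧ g = f.refl v} ?_,
    Subgroup.index_comap_of_surjective _ (orthEquiv f).surjective]
  · apply hf.index_closure_class h2 hc
    have h1 := two_ne_zero_iff_odd.1 h2
    have h3 : 1 < Fintype.card F := Fintype.one_lt_card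
    rw [Nat.odd_iff] at h1
    rw [Nat.even_iff] at heven
    simp only [Module.finrank_fintype_fun_eq_card, Fintype.card_fin, Nat.card_eq_fintype_card]
    omega
  · exact fun g => exists₂_congr fun v t => and_congr_right fun _ => and_congr_right fun _ =>
      coe_eq_reflectionMatrix_iff f g v

end Cfsg.Agent.S0798
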