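import Cfsg.Statements.S0800
import Cfsg.Agent.Lib.Lin.SL2Torus

set_option autoImplicit false
open Cfsg

namespace Cfsg.Agent.S0800

/-- Tori of SL_2(q): if g ∈ SL_2(q) has order coprime to the characteristic p, then the order of g divides q − 1 or q + 1. -/
theorem result {F : Type*} [Field F] [Fintype F] {q : ℕ} (hF : Fintype.card F = q) (p : ℕ) [Fact p.Prime] [CharP F p] (g : Matrix.SpecialLinearGroup (Fin 2) F) (hg : Nat.Coprime (orderOf g) p) : orderOf g ∣ q - 1 ∨ orderOf g ∣ q + 1 := by
  open CA.SL2Torus CA.Mat2 in
  subst hF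
  rw [← Nat.card_eq_fintype_card]
  by_cases hs : SS g
  · have := orderOf_dvd_card_C g
    rcases hs.card_C with h | h <;> rw [h] at this
    · exact Or.inl this
    · exact Or.inr this
  · by_cases hn : NS g.1
    · exfalso
      have := cast_eq_zero_of_pow_SL hs hn (n := orderOf g) (Or.inl (pow_orderOf_eq_one g))
      rw [CharP.cast_eq_zero_iff F p] at this
      exact (Fact.out : p.Prime).one_lt.ne' (Nat.Coprime.eq_one_of_dvd hg.symm this)
    · rcases (not_NS_iff_eq g).1 hn with rfl | rfl
      · simp
      · by_cases h2 : (2 : F) = 0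
        · have : (-1 : Matrix.SpecialLinearGroup (Fin 2) F) = 1 := by
            apply sl_ext
            apply CA.SL2Basic.ext4 <;> simp <;> linear_combination -h2
          simp [this]
        · rw [CA.SL2Basic.orderOf_neg_one h2]
          right
          exact (CA.SL2Basic.odd_card_of_two_ne_zero h2).add_one.two_dvd

end Cfsg.Agent.S0800
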