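import Cfsg.Statements.S0802
import Cfsg.Agent.Lib.Lin.PSL2Sub

set_option autoImplicit false
open Cfsg

namespace Cfsg.Agent.S0802

/-- PSL_2(p^n) has a subgroup isomorphic to A_4 if and only if it is not the case that p = 2 and n is odd. -/
theorem result {F : Type*} [Field F] [Fintype F] (p n : ℕ) [Fact p.Prime] [CharP F p] (hF : Fintype.card F = p ^ n) : (∃ H : Subgroup (Matrix.ProjectiveSpecialLinearGroup (Fin 2) F), Nonempty (H ≃* alternatingGroup (Fin 4))) ↔ ¬ (p = 2 ∧ Odd n) := by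
  open CA.PSL2Sub CA.PSL2Struct CA.SL2Basic CA.SL2Torus in
  rw [exists_sub_iff]
  rw [← Nat.card_eq_fintype_card] at hF
  have : Fact (Nat.Prime 3) := ⟨Nat.prime_three⟩
  have key : 3 ∣ 2 ^ n - 1 ↔ ¬ Odd n := by
    rw [Nat.not_odd_iff_even]
    have h1 : 1 ≤ 2 ^ n := Nat.one_le_two_pow
    rcases Nat.even_or_odd' n with ⟨k, rfl | rfl⟩
    · have : 2 ^ (2 * k) % 3 = 1 := by rw [pow_mul, Nat.pow_mod]; simp
      simp only [even_two, Even.mul_right, iff_true]; omega
    · have : 2 ^ (2 * k + 1) % 3 = 2 := by rw [pow_succ, pow_mul, Nat.mul_mod, Nat.pow_mod]; simp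
      simp only [Nat.not_even_iff_odd.2 (odd_two_mul_add_one k), iff_false]; omega
  constructor
  · rintro ⟨φ, hφ⟩ ⟨rfl, hn⟩
    have h2 : (2 : F) = 0 := by exact_mod_cast CharP.cast_eq_zero F 2
    have ho : orderOf (φ CA.TriPres.a4) = 2 := by
      rw [orderOf_injective φ hφ]; exact orderOf_eq_prime (by decide) (by decide)
    have ho3 : orderOf (φ CA.TriPres.b4) = 3 := by
      rw [orderOf_injective φ hφ]; exact orderOf_eq_prime (by decide) (by decide)
    obtain ⟨y, b, hb, hy⟩ := exists_conj_u_of_cast (x := φ CA.TriPres.a4)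
      (by intro h; simp [h] at ho) (by rw [ho]; exact_mod_cast h2)
    have hB : y * φ CA.TriPres.b4 * y⁻¹ ∈ Bb F := mem_Bb_of_conj hb (Ub_le_Bb (by
      rw [← C_pr_u hb, ← hy, mem_C_iff]
      have h3 : CA.TriPres.b4 * CA.TriPres.a4 * CA.TriPres.b4⁻¹ * CA.TriPres.a4 =
        CA.TriPres.a4 * (CA.TriPres.b4 * CA.TriPres.a4 * CA.TriPres.b4⁻¹) := by decide
      have h4 := congrArg φ h3
      simp only [map_mul, map_inv] at h4
      calc _ = y * (φ CA.TriPres.b4 * φ CA.TriPres.a4 * (φ CA.TriPres.b4)⁻¹ * φ CA.TriPres.a4) * y⁻¹ := by group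
        _ = _ := by rw [h4]; group))
    have h5 := Subgroup.orderOf_dvd_natCard _ hB
    have h6 := card_Bb (F := F)
    rw [dd_even h2, one_mul] at h6
    rw [orderOf_conj, ho3, h6, hF, Nat.prime_three.dvd_mul, key] at h5
    rcases h5 with h5 | h5
    · exact absurd (Nat.prime_three.dvd_of_dvd_pow h5) (by norm_num)
    · exact h5 hn
  · intro h
    refine exists_A4 fun h2 => ?_
    have hp : p = 2 := by
      by_contra hp
      exact two_ne_zero_of_char p hp h2
    subst hp
    have h3 : 3 ∣ Nat.card Fˣ := by rw [Nat.card_units, hF, key]; tauto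
    obtain ⟨s, hs⟩ := exists_prime_orderOf_dvd_card' 3 h3
    have h4 : (s : F) ^ 3 = 1 := by
      rw [← Units.val_pow_eq_pow_val, ← hs, pow_orderOf_eq_one]; rfl
    have h5 : (s : F) ≠ 1 := by
      intro h; rw [Units.val_eq_one.1 h] at hs; simp at hs
    exact ⟨s, mul_left_cancel₀ (sub_ne_zero.2 h5) (by linear_combination h4)⟩

end Cfsg.Agent.S0802
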