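import Cfsg.Statements.S0803
import Cfsg.Agent.Lib.Lin.PSL2Sub

set_option autoImplicit false
open Cfsg

namespace Cfsg.Agent.S0803

/-- PSL_2(q) has a subgroup isomorphic to S_4 iff q² ≡ 1 (mod 16). -/
theorem result {F : Type*} [Field F] [Fintype F] {q : ℕ} (hF : Fintype.card F = q) : (∃ H : Subgroup (Matrix.ProjectiveSpecialLinearGroup (Fin 2) F), Nonempty (H ≃* Equiv.Perm (Fin 4))) ↔ q ^ 2 % 16 = 1 := by
  open CA.PSL2Sub CA.PSL2Struct CA.SL2Basic in
  subst hF
  rw [exists_sub_iff]
  have key : ∀ q : ℕ, q ^ 2 % 16 = 1 ↔ q % 8 = 1 ∨ q % 8 = 7 := by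
    intro q
    rw [Nat.pow_mod]
    have : q % 8 = q % 16 % 8 := (Nat.mod_mod_of_dvd q (by norm_num)).symm
    rw [this]
    have : q % 16 < 16 := Nat.mod_lt _ (by norm_num)
    generalize q % 16 = r at *
    interval_cases r <;> simp
  rw [key]
  constructor
  · rintro ⟨φ, hφ⟩
    have ho : orderOf (φ (CA.TriPres.s4 * CA.TriPres.t4)) = 4 := by
      rw [orderOf_injective φ hφ]
      exact orderOf_eq_prime_pow (p := 2) (n := 1) (by decide) (by decide)
    by_cases h2 : (2 : F) = 0
    · have : CharP F 2 := CharP.ringChar_of_prime_eq_zero Nat.prime_two (by exact_mod_cast h2) ▸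
        ringChar.charP F
      have := orderOf_eq_char 2 (x := φ (CA.TriPres.s4 * CA.TriPres.t4)) (by
        rw [ho]; push_cast; linear_combination 2 * h2)
      omega
    · have := orderOf_dvd_of_cast (x := φ (CA.TriPres.s4 * CA.TriPres.t4)) (by
        rw [ho]; push_cast; intro h; exact mul_ne_zero h2 h2 (by linear_combination h))
      obtain ⟨k, hk⟩ := odd_card_of_two_ne_zero h2
      rw [ho, dd_odd h2] at this
      rw [← Nat.card_eq_fintype_card]
      omega
  · intro h
    refine exists_S4 (two_ne_zero_of_odd (Nat.odd_iff.2 (by rw [Nat.card_eq_fintype_card]; omega))) ?_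
    rw [FiniteField.isSquare_two_iff]
    omega

end Cfsg.Agent.S0803
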