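import Cfsg.Statements.S0805
import Cfsg.Agent.Lib.Lin.PSL2Sub

set_option autoImplicit false
open Cfsg

namespace Cfsg.Agent.S0805

open CA.PSL2Sub CA.PSL2Struct CA.SL2Basic CA.SL2Torus Matrix
open scoped MatrixGroups

theorem mem_range_of_isSquare {F : Type*} [Field F] (g : GL (Fin 2) F) (h : IsSquare g.1.det) :
    ProjGenLinGroup.mk g ∈ (ProjectiveSpecialLinearGroup.toPGL : PSL(2, F) →* _).range := by
  obtain ⟨r, hr⟩ := h
  have hr0 : r ≠ 0 := by rintro rfl; exact g.det_ne_zero (by simpa using hr)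
  let s : SL(2, F) := ⟨r⁻¹ • g.1, by rw [det_smul, hr]; simp; field_simp⟩
  refine ⟨s, ?_⟩
  have : g = GeneralLinearGroup.scalar (Fin 2) (Units.mk0 r hr0) * SpecialLinearGroup.toGL s := by
    apply Units.ext
    show g.1 = scalar (Fin 2) r * (r⁻¹ • g.1)
    rw [scalar_apply, ← smul_eq_diagonal_mul, smul_smul, mul_inv_cancel₀ hr0, one_smul]
  rw [this, map_mul, ProjGenLinGroup.mk_scalar, one_mul]
  rfl

theorem geom (r m : ℕ) (hr : 1 ≤ r) : r ^ m - 1 = (r - 1) * ∑ i ∈ Finset.range m, r ^ i := by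
  obtain ⟨s, rfl⟩ := Nat.exists_eq_add_of_le' hr
  have := geom_sum_mul_add s m
  rw [← this]; simp [mul_comm]

theorem sum_mod (r m : ℕ) (hr : Odd r) : (∑ i ∈ Finset.range m, r ^ i) % 2 = m % 2 := by
  induction m with
  | zero => simp
  | succ m ih =>
    rw [Finset.sum_range_succ]
    have := Nat.odd_iff.1 (hr.pow (n := m))
    omega

/-- Subfield subgroups: let F be a finite field of odd order q and K a finite field with |K|^m = q, m ≥ 1. Then PSL_2(F) has a subgroup isomorphic to PSL_2(K), and has a subgroup isomorphic to PGL_2(K) if and only if m is even. -/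
theorem result {F K : Type*} [Field F] [Fintype F] [Field K] [Fintype K] {q : ℕ} (hF : Fintype.card F = q) (hodd : Odd q) (m : ℕ) (hm : 1 ≤ m) (hK : Fintype.card K ^ m = q) : (∃ H : Subgroup (Matrix.ProjectiveSpecialLinearGroup (Fin 2) F), Nonempty (H ≃* Matrix.ProjectiveSpecialLinearGroup (Fin 2) K)) ∧ ((∃ H : Subgroup (Matrix.ProjectiveSpecialLinearGroup (Fin 2) F), Nonempty (H ≃* Matrix.ProjGenLinGroup (Fin 2) K)) ↔ Even m) := by
  subst hF
  rw [← Nat.card_eq_fintype_card, ← Nat.card_eq_fintype_card] at hK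
  rw [← Nat.card_eq_fintype_card] at hodd
  obtain ⟨f⟩ := CA.FieldIso.nonempty_hom_of_pow hK
  have h2 := two_ne_zero_of_odd hodd
  have hr : Odd (Nat.card K) := by
    rw [← hK] at hodd
    exact (Nat.odd_pow_iff (by omega)).1 hodd
  have hr1 : 1 ≤ Nat.card K := Nat.card_pos
  refine ⟨exists_sub_iff.2 ⟨pslMap f, pslMap_injective f⟩, ?_⟩
  rw [exists_sub_iff]
  constructor
  · rintro ⟨φ, hφ⟩
    by_contra hm'
    have h1 := Subgroup.card_dvd_of_injective φ hφ
    have h3 := CA.SLnCard.card_PSL2_odd hodd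
    rw [CA.SLnCard.card_PGL2] at h1
    obtain ⟨c, hc⟩ := h1
    rw [hc, ← hK, ← pow_mul, mul_comm m 2, pow_mul, geom (Nat.card K ^ 2) m (Nat.one_le_pow _ _ hr1)] at h3
    have h4 := sum_mod (Nat.card K ^ 2) m hr.pow
    have h5 : 0 < Nat.card K ^ 2 - 1 := by
      have := CA.SLnCard.two_le_card K
      have : 2 ^ 2 ≤ Nat.card K ^ 2 := Nat.pow_le_pow_left this 2
      omega
    have h6 : 2 * (Nat.card K * c) = Nat.card K ^ m * ∑ i ∈ Finset.range m, (Nat.card K ^ 2) ^ i :=
      Nat.eq_of_mul_eq_mul_left h5 (by linarith)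
    have h7 : Odd (Nat.card K ^ m * ∑ i ∈ Finset.range m, (Nat.card K ^ 2) ^ i) :=
      hr.pow.mul (Nat.odd_iff.2 (by rw [h4]; exact Nat.odd_iff.1 (Nat.not_even_iff_odd.1 hm')))
    rw [← h6, Nat.odd_iff] at h7
    omega
  · intro he
    have hsq : ∀ a : K, a ≠ 0 → IsSquare (f a) := by
      intro a ha
      rw [FiniteField.isSquare_iff (CA.CForm.ringChar_ne_two_iff.2 h2) (by simpa using ha),
        ← map_pow, ← Nat.card_eq_fintype_card]
      have h4 := sum_mod (Nat.card K) m hr
      have h5 := geom (Nat.card K) m hr1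
      rw [Nat.even_iff.1 he] at h4
      obtain ⟨c, hc⟩ := Nat.dvd_of_mod_eq_zero h4
      rw [hK, hc] at h5
      have : Nat.card F / 2 = (Nat.card K - 1) * c := by
        obtain ⟨k, hk⟩ := hodd
        have : 2 * k = 2 * ((Nat.card K - 1) * c) := by rw [← mul_left_comm, ← h5]; omega
        omega
      rw [this, pow_mul, Nat.card_eq_fintype_card, FiniteField.pow_card_sub_one_eq_one a ha]
      simp
    have hle : ∀ x : PGL(2, K), ProjGenLinGroup.map f x ∈
        (ProjectiveSpecialLinearGroup.toPGL : PSL(2, F) →* _).range := by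
      intro x
      induction x using ProjGenLinGroup.induction_on with | mk g =>
      rw [ProjGenLinGroup.map_mk]
      apply mem_range_of_isSquare
      have := hsq _ g.det_ne_zero
      rwa [RingHom.map_det] at this
    refine ⟨(MonoidHom.ofInjective ProjectiveSpecialLinearGroup.toPGL_injective).symm.toMonoidHom.comp
      ((ProjGenLinGroup.map f).codRestrict _ hle), ?_⟩
    intro x y h
    have := (MonoidHom.ofInjective ProjectiveSpecialLinearGroup.toPGL_injective).symm.injective h
    exact CA.PGL2Act.map_injective f (congrArg Subtype.val this)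

end Cfsg.Agent.S0805
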