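import Cfsg.Statements.S0806
import Cfsg.Agent.Lib.Lin.PSL2Sub

set_option autoImplicit false
open Cfsg

namespace Cfsg.Agent.S0806

/-- Minimal index (Galois): if q ∉ {2, 3, 5, 7, 9, 11} then every proper subgroup of PSL_2(q) has index ≥ q + 1, and some subgroup has index exactly q + 1. -/
theorem result {F : Type*} [Field F] [Fintype F] {q : ℕ} (hF : Fintype.card F = q) (hq : q ∉ ({2, 3, 5, 7, 9, 11} : Finset ℕ)) : (∀ H : Subgroup (Matrix.ProjectiveSpecialLinearGroup (Fin 2) F), H ≠ ⊤ → q + 1 ≤ H.index) ∧ ∃ H : Subgroup (Matrix.ProjectiveSpecialLinearGroup (Fin 2) F), H.index = q + 1 := by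
  open CA.PSL2Sub CA.PSL2Struct CA.SL2Basic CA.SL2Torus in
  subst hF
  rw [← Nat.card_eq_fintype_card] at hq ⊢
  refine ⟨fun H hH => ?_, Bb F, index_Bb⟩
  simp only [Finset.mem_insert, Finset.mem_singleton, not_or] at hq
  have h2 := CA.SLnCard.two_le_card F
  have hG := card_PSL (F := F)
  have hd : dd F = 1 ∨ dd F = 2 := (em ((2 : F) = 0)).imp dd_even dd_odd
  have hq0 : ((Nat.card F : ℕ) : F) = 0 := by
    rw [Nat.card_eq_fintype_card]; exact FiniteField.cast_card_eq_zero F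
  have key : dd F * Nat.card H ≤ Nat.card F * (Nat.card F - 1) → Nat.card F + 1 ≤ H.index := by
    intro h
    rw [← H.index_mul_card, CA.SLnCard.sq_sub_one] at hG
    by_contra hlt
    have h3 : H.index ≤ Nat.card F := by omega
    have h4 : 0 < Nat.card F * (Nat.card F - 1) := Nat.mul_pos (by omega) (by omega)
    have := Nat.mul_le_mul h3 h
    nlinarith
  have hDb : ∀ g, SS g → H ≤ Db g → Nat.card F + 1 ≤ H.index := by
    intro g hg hle
    apply key
    have h1 := Subgroup.card_le_of_le hle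
    have h3 := card_Tb g
    rw [card_Db hg] at h1
    have h4 : Nat.card (C g) ≤ Nat.card F + 1 := by rcases hg.card_C with h | h <;> omega
    obtain ⟨s, hs⟩ := Nat.exists_eq_add_of_le (show 4 ≤ Nat.card F by omega)
    have h5 : dd F * Nat.card H ≤ 2 * (Nat.card F + 1) := by nlinarith
    rw [hs] at h5 ⊢
    rw [show 4 + s - 1 = 3 + s by omega]
    nlinarith
  have hbig : ∀ n : ℕ, n ≤ 60 → 12 ∣ n → Nat.card H = n → ((n : F) ≠ 0 ∨ ((3 : ℕ) : F) = 0) →
      Nat.card F + 1 ≤ H.index := by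
    intro n hn h12 hH h
    apply key
    obtain ⟨p, hp⟩ := CharP.exists F
    have : Fact p.Prime := ⟨CharP.char_is_prime F p⟩
    obtain ⟨k, hk0, hk⟩ := CA.SL2Unip.exists_card_eq_pow (F := F) p
    have h13 : 13 ≤ Nat.card F := by
      by_contra hlt
      have hp2 : p ≠ 2 := by
        rintro rfl
        rcases h with h | h
        · exact h ((CharP.cast_eq_zero_iff F 2 n).2 (by omega))
        · exact absurd ((CharP.cast_eq_zero_iff F 2 3).1 h) (by norm_num)
      have : Odd (Nat.card F) := hk ▸ ((Fact.out : p.Prime).odd_of_ne_two hp2).pow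
      rw [Nat.odd_iff] at this
      omega
    have : 13 * 12 ≤ Nat.card F * (Nat.card F - 1) := Nat.mul_le_mul h13 (by omega)
    rcases hd with h | h <;> rw [h] <;> omega
  rcases dickson_PSL H with ⟨h1, h2⟩ | ⟨-, y, hy⟩ | ⟨n, h2, hn, ⟨e⟩⟩ | ⟨hn, ⟨e⟩⟩ | ⟨hn, ⟨e⟩⟩ |
    ⟨hn, ⟨e⟩⟩ | ⟨K, _, _, m, hm1, h3, hm, h⟩
  · obtain ⟨g, hg, hle⟩ := le_Tb_of_cyclic h1 h2
    exact hDb g hg (hle.trans (Tb_le_Db g))
  · apply key
    rw [← card_Bb]
    exact Nat.mul_le_mul_left _ (Nat.le_of_dvd Nat.card_pos (card_dvd_of_conj_le hy))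
  · obtain ⟨g, hg, -, -, hle⟩ := le_Db_of_dihedral h2 hn e
    exact hDb g hg hle
  · exact hbig 12 (by norm_num) (by norm_num) (by rw [Nat.card_congr e.toEquiv, card_A4]) (Or.inl hn)
  · exact hbig 24 (by norm_num) (by norm_num) (by rw [Nat.card_congr e.toEquiv, card_S4]) (Or.inl hn)
  · exact hbig 60 (by norm_num) (by norm_num) (by rw [Nat.card_congr e.toEquiv, card_A5]) hn
  · rcases Nat.eq_or_lt_of_le hm1 with rfl | hm2
    · exfalso
      apply hH
      rw [pow_one] at hm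
      apply Subgroup.eq_top_of_le_card
      rcases h with ⟨⟨e⟩⟩ | ⟨ho, ⟨e⟩⟩
      · rw [Nat.card_congr e.toEquiv, CA.SLnCard.card_PGL2, hm]
        exact Nat.le_of_dvd (by rw [← hG]; exact Nat.mul_pos dd_pos Nat.card_pos) card_PSL_dvd
      · have := card_PSL (F := K)
        rw [dd, hm, ← hG] at this
        rw [Nat.card_congr e.toEquiv, Nat.eq_of_mul_eq_mul_left dd_pos this]
    · apply key
      have h4 : Nat.card H ≤ Nat.card K * (Nat.card K ^ 2 - 1) := by
        rcases h with ⟨⟨e⟩⟩ | ⟨ho, ⟨e⟩⟩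
        · rw [Nat.card_congr e.toEquiv, CA.SLnCard.card_PGL2]
        · rw [Nat.card_congr e.toEquiv]
          exact Nat.le_of_dvd (by rw [← card_PSL]; exact Nat.mul_pos dd_pos Nat.card_pos) card_PSL_dvd
      have h5 : Nat.card K ^ 2 ≤ Nat.card F := hm ▸ Nat.pow_le_pow_right (by omega) hm2
      calc dd F * Nat.card H ≤ 2 * (Nat.card K * (Nat.card K ^ 2 - 1)) :=
            Nat.mul_le_mul (by omega) h4
        _ = (2 * Nat.card K) * (Nat.card K ^ 2 - 1) := by ring
        _ ≤ Nat.card F * (Nat.card F - 1) := Nat.mul_le_mul (by nlinarith) (by omega)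

end Cfsg.Agent.S0806
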