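import Cfsg.Statements.S0808
import Cfsg.Agent.Lib.Lin.PSL2Four

set_option autoImplicit false
open Cfsg

namespace Cfsg.Agent.S0808

/-- Conjugacy classes of four-groups in PSL_2(q), q odd: if q ≡ 3 or 5 (mod 8) all Klein four-subgroups are conjugate; if q ≡ 1 or 7 (mod 8) there are two Klein four-subgroups which are not conjugate, and every Klein four-subgroup is conjugate to one of them. -/
theorem result {F : Type*} [Field F] [Fintype F] {q : ℕ} (hF : Fintype.card F = q) (hodd : Odd q) : ((q % 8 = 3 ∨ q % 8 = 5) → ∀ V W : Subgroup (Matrix.ProjectiveSpecialLinearGroup (Fin 2) F), IsKleinFour V → IsKleinFour W → ∃ g : Matrix.ProjectiveSpecialLinearGroup (Fin 2) F, W = V.map (MulAut.conj g).toMonoidHom) ∧ ((q % 8 = 1 ∨ q % 8 = 7) → ∃ V₁ V₂ : Subgroup (Matrix.ProjectiveSpecialLinearGroup (Fin 2) F), IsKleinFour V₁ ∧ IsKleinFour V₂ ∧ (¬ ∃ g : Matrix.ProjectiveSpecialLinearGroup (Fin 2) F, V₂ = V₁.map (MulAut.conj g).toMonoidHom) ∧ ∀ W : Subgroup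 (Matrix.ProjectiveSpecialLinearGroup (Fin 2) F), IsKleinFour W → (∃ g : Matrix.ProjectiveSpecialLinearGroup (Fin 2) F, W = V₁.map (MulAut.conj g).toMonoidHom) ∨ (∃ g : Matrix.ProjectiveSpecialLinearGroup (Fin 2) F, W = V₂.map (MulAut.conj g).toMonoidHom)) := by
  open CA.PSL2Four CA.PSL2Struct CA.SL2Basic CA.SL2Torus CA.SL2Unip in
  subst hF
  rw [← Nat.card_eq_fintype_card] at hodd ⊢
  have h2 := two_ne_zero_of_odd hodd
  refine ⟨fun h V W hV hW => conj_four h V W, fun h => ?_⟩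
  have ht := trace_w0 (F := F)
  have hs := SS_of_trace_zero h2 ht
  obtain ⟨w, hw, hw'⟩ := exists_mem_Db hs
  obtain ⟨x, hx⟩ := exists_gen_Tb hs
  have hxT : x ∈ Tb (w0 : Matrix.SpecialLinearGroup (Fin 2) F) := hx ▸ Subgroup.mem_zpowers x
  have p1 := (isPair_iff hs ht).2 ⟨hw, hw'⟩
  have p2 := (isPair_iff hs ht).2 ⟨(Db _).mul_mem (Tb_le_Db _ hxT) hw,
    fun h => hw' (by simpa using (Tb _).mul_mem ((Tb _).inv_mem hxT) h)⟩
  have key : ∀ W : Subgroup (Matrix.ProjectiveSpecialLinearGroup (Fin 2) F), IsKleinFour W →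
      (∃ g, W = (four p1).map (MulAut.conj g).toMonoidHom) ∨
      (∃ g, W = (four p2).map (MulAut.conj g).toMonoidHom) := by
    intro W hW
    obtain ⟨a, ha, b, hb, hp⟩ := exists_pair W
    obtain ⟨y, hy⟩ := isConj_iff.1 (isConj_involution hp.a1 hp.aa p1.a1 p1.aa)
    have hp' := hp.conj y
    rw [hy, isPair_iff hs ht] at hp'
    have h3 := mul_mem_Tb hs hp'.1 hp'.2 ((Db _).inv_mem hw) (by simpa using hw')
    rw [← hx] at h3
    obtain ⟨n, hn⟩ := Subgroup.mem_zpowers_iff.1 h3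
    have hc : ∀ k : ℤ, x ^ k * pr F w0 * (x ^ k)⁻¹ = pr F w0 := fun k => by
      rw [Tb_comm hs.ns ((Tb _).zpow_mem hxT k) (self_mem_Tb _)]; group
    have hi : ∀ k : ℤ, w * (x ^ k)⁻¹ = x ^ k * w := fun k => by
      have := conj_of_mem_Db hs.ns hw hw' ((Tb _).inv_mem ((Tb _).zpow_mem hxT k))
      rw [inv_inv] at this
      exact mul_inv_eq_iff_eq_mul.1 this
    have ha' : ∀ k : ℤ, y⁻¹ * x ^ k * pr F w0 * (y⁻¹ * x ^ k)⁻¹ ∈ W := fun k => by
      have : y⁻¹ * x ^ k * pr F w0 * (y⁻¹ * x ^ k)⁻¹ = a := by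
        calc _ = y⁻¹ * (x ^ k * pr F w0 * (x ^ k)⁻¹) * y := by group
          _ = a := by rw [hc, ← hy]; group
      rwa [this]
    rcases Int.even_or_odd' n with ⟨k, rfl | rfl⟩
    · refine Or.inl ⟨y⁻¹ * x ^ k, eq_map_four p1 (ha' k) ?_⟩
      have : y⁻¹ * x ^ k * w * (y⁻¹ * x ^ k)⁻¹ = b := by
        calc _ = y⁻¹ * x ^ k * (w * (x ^ k)⁻¹) * y := by group
          _ = y⁻¹ * x ^ (2 * k) * w * y := by rw [hi]; group
          _ = b := by rw [hn]; group
      rwa [this]
    · refine Or.inr ⟨y⁻¹ * x ^ k, eq_map_four p2 (ha' k) ?_⟩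
      have : y⁻¹ * x ^ k * (x * w) * (y⁻¹ * x ^ k)⁻¹ = b := by
        calc _ = y⁻¹ * x ^ k * x * (w * (x ^ k)⁻¹) * y := by group
          _ = y⁻¹ * x ^ (2 * k + 1) * w * y := by rw [hi]; group
          _ = b := by rw [hn]; group
      rwa [this]
  refine ⟨four p1, four p2, isKleinFour_four p1, isKleinFour_four p2, ?_, key⟩
  rintro ⟨g, hg⟩
  have := isKleinFour_four p1
  have hN := card_normalizer_of_conj h2 (four p1) fun W hW => by
    rcases key W hW with h | ⟨g', h⟩
    · exact h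
    · exact ⟨g' * g, by rw [h, hg, Subgroup.map_map]; congr 1; ext; simp [mul_assoc]⟩
  obtain ⟨y, hy, ho⟩ := exists_orderOf_of_dvd hs (n := 4) (by
    have := card_Tb_w0 (F := F)
    rcases h with h | h
    · have := this.1 (by omega); omega
    · have := this.2 (by omega); omega)
  have hy2 : y * y ≠ 1 := fun h => by
    have := Nat.le_of_dvd two_pos (orderOf_dvd_of_pow_eq_one (sq y ▸ h))
    omega
  have hyy : y * y = pr F w0 := eq_of_sq_eq_one (isCyclic_Tb hs) ((Tb _).mul_mem hy hy)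
    (self_mem_Tb _) hy2 p1.a1 (by
      have := pow_orderOf_eq_one y
      rw [ho] at this
      rw [← this]; simp [pow_succ, mul_assoc]) p1.aa
  have hyN : y ∈ Subgroup.normalizer (four p1 : Set (Matrix.ProjectiveSpecialLinearGroup (Fin 2) F)) := by
    rw [← Subgroup.conjAct_pointwise_smul_iff]
    show (four p1).map (MulAut.conj y).toMonoidHom = _
    refine (eq_map_four p1 ?_ ?_).symm
    · rw [Tb_comm hs.ns hy (self_mem_Tb _)]; simp [mem_four]
    · have := conj_of_mem_Db hs.ns hw hw' ((Tb _).inv_mem hy)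
      rw [inv_inv] at this
      have e : y * w * y⁻¹ = y * y * w := by nth_rewrite 4 [← this]; group
      rw [e, hyy]; simp [mem_four]
  have h3 := Subgroup.pow_index_mem ((four p1).subgroupOf (Subgroup.normalizer
    (four p1 : Set (Matrix.ProjectiveSpecialLinearGroup (Fin 2) F)))) ⟨y, hyN⟩
  have h4 := ((four p1).subgroupOf (Subgroup.normalizer
    (four p1 : Set (Matrix.ProjectiveSpecialLinearGroup (Fin 2) F)))).card_mul_index
  rw [hN, Nat.card_congr (Subgroup.subgroupOfEquivOfLe Subgroup.le_normalizer).toEquiv,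
    card_four] at h4
  rw [show ((four p1).subgroupOf (Subgroup.normalizer
    (four p1 : Set (Matrix.ProjectiveSpecialLinearGroup (Fin 2) F)))).index = 3 by omega,
    Subgroup.mem_subgroupOf] at h3
  have h5 : y ∈ four p1 := by
    have h6 : y * y ∈ four p1 := by rw [hyy]; simp [mem_four]
    have h7 : y ^ 3 ∈ four p1 := h3
    have := (four p1).mul_mem ((four p1).inv_mem h6) h7
    simpa [pow_succ, mul_assoc] using this
  exact hy2 (congrArg Subtype.val (IsKleinFour.mul_self (⟨y, h5⟩ : four p1)))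

end Cfsg.Agent.S0808
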