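import Cfsg.Statements.S0809
import Cfsg.Agent.Lib.Lin.PSL2Struct

set_option autoImplicit false
open Cfsg

namespace Cfsg.Agent.S0809

open CA.PSL2Struct CA.SL2Torus CA.SL2Basic CA.SL2Unip CA.Mat2 CA.SL2Class
open scoped MatrixGroups

theorem aux {F : Type*} [Field F] [Finite F] (h0 : (2 : F) ≠ 0) (A : Subgroup SL(2, F))
    (hA : Nat.card A = 4) : ∃ g : SL(2, F), g.1.trace = 0 ∧ A = Subgroup.zpowers g := by
  have : ∃ g ∈ A, g ∉ Subgroup.center SL(2, F) := by
    by_contra h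
    push Not at h
    have := Subgroup.card_le_of_le (show A ≤ Subgroup.center SL(2, F) from h)
    rw [card_center_odd h0] at this
    omega
  obtain ⟨g, hg, hc⟩ := this
  have hn := (NS_iff_not_center g).2 hc
  have h4 : g ^ 4 = 1 := by
    have := pow_card_eq_one' (x := (⟨g, hg⟩ : A))
    rw [hA] at this
    exact congrArg Subtype.val this
  have h2 : g * g ≠ 1 := fun h => ((NS_iff_ne g).1 hn).2
    (eq_neg_one_of_mul_self h0 g ((NS_iff_ne g).1 hn).1 h)
  have h3 : g * g = -1 := eq_neg_one_of_mul_self h0 _ h2 (by rw [← h4]; simp [pow_succ, mul_assoc])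
  refine ⟨g, (mul_self_eq_neg_one_iff g hn).1 h3, ?_⟩
  symm
  apply Subgroup.eq_of_le_of_card_ge (Subgroup.zpowers_le.2 hg)
  rw [hA, Nat.card_zpowers, orderOf_eq_four h0 h3]

/-- In SL_2(q), q odd: any two subgroups of order 4 are conjugate, and the normaliser of a subgroup of order 4 has order 2(q − 1) if q ≡ 1 (mod 4) and 2(q + 1) if q ≡ 3 (mod 4); consequently all involutions of PSL_2(q) are conjugate. -/
theorem result {F : Type*} [Field F] [Fintype F] {q : ℕ} (hF : Fintype.card F = q) (hodd : Odd q) (A : Subgroup (Matrix.SpecialLinearGroup (Fin 2) F)) (hA : Nat.card A = 4) : (∀ B : Subgroup (Matrix.SpecialLinearGroup (Fin 2) F), Nat.card B = 4 → ∃ g : Matrix.SpecialLinearGroup (Fin 2) F, B = A.map (MulAut.conj g).toMonoidHom) ∧ (q % 4 = 1 → Nat.card ↥(Subgroup.normalizer (A : Set (Matrix.SpecialLinearGroup (Fin 2) F))) = 2 * (q - 1)) ∧ (q % 4 = 3 → Nat.card ↥(Subgroup.normalizer (A : Set (Matrix.SpecialLinearGroup (Fin 2) F))) = 2 * (q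 + 1)) ∧ (∀ x y : Matrix.ProjectiveSpecialLinearGroup (Fin 2) F, orderOf x = 2 → orderOf y = 2 → IsConj x y) := by
  subst hF
  rw [← Nat.card_eq_fintype_card] at hodd ⊢
  have h0 : (2 : F) ≠ 0 := two_ne_zero_of_odd hodd
  obtain ⟨g, hg, rfl⟩ := aux h0 A hA
  have hs := SS_of_trace_zero h0 hg
  have hN := hs.normalizer_eq (Subgroup.zpowers_le.2 (self_mem_C g)) (Subgroup.mem_zpowers g) hs.ns
  refine ⟨fun B hB => ?_, fun h => ?_, fun h => ?_, fun x y hx hy => ?_⟩
  · obtain ⟨h, hh, rfl⟩ := aux h0 B hB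
    obtain ⟨x, rfl⟩ := isConj_iff.1 (hs.isConj (hg.trans hh.symm))
    exact ⟨x, by rw [MonoidHom.map_zpowers]; rfl⟩
  · rw [hN, hs.card_D, (card_C_of_trace_zero hg).1 h]
  · rw [hN, hs.card_D, (card_C_of_trace_zero hg).2 h]
  · refine isConj_involution ?_ ?_ ?_ ?_
    · rintro rfl; simp at hx
    · simpa [hx, sq] using pow_orderOf_eq_one x
    · rintro rfl; simp at hy
    · simpa [hy, sq] using pow_orderOf_eq_one y

end Cfsg.Agent.S0809
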