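import Cfsg.Statements.S0810
import Cfsg.Agent.Lib.Lin.PSL2Max
import Cfsg.Agent.Lib.Char.CharBurn

set_option autoImplicit false
open Cfsg

namespace Cfsg.Agent.S0810

open CA.PSL2Sub CA.PSL2Struct CA.SL2Basic CA.SL2Torus CA.PSL2Max Matrix
open scoped MatrixGroups

theorem solv_of_dvd {G : Type*} [Group G] [Finite G] (h : Nat.card G ∣ 24) : Group.IsSolvable G := by
  refine CChar.CharBurn.isSolvable_of_primes (p := 2) (q := 3) fun r hr hd => ?_
  have := (Nat.Prime.dvd_mul hr).1 (show r ∣ 2 ^ 3 * 3 from hd.trans h)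
  exact this.imp (fun h => (Nat.prime_dvd_prime_iff_eq hr Nat.prime_two).1 (hr.dvd_of_dvd_pow h))
    fun h => (Nat.prime_dvd_prime_iff_eq hr Nat.prime_three).1 h

theorem not_solv {G : Type*} [Group G] [IsSimpleGroup G] (h : ¬ IsMulCommutative G) :
    ¬ Group.IsSolvable G := fun hs =>
  h ⟨⟨IsSimpleGroup.comm_iff_isSolvable.2 hs⟩⟩

theorem not_comm_PSL (F : Type*) [Field F] : ¬ IsMulCommutative PSL(2, F) := by
  intro h
  have := h.is_comm.comm (pr F CA.SL2Unip.w0) (pr F (CA.SL2Unip.u 1))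
  have h2 : pr F CA.SL2Unip.w0 ∈ Bb F := mem_Bb_of_conj (b := 1) one_ne_zero (by
    rw [this, mul_inv_cancel_right]; exact Ub_le_Bb (mem_Ub.2 ⟨1, rfl⟩))
  exact CA.SL2Unip.w0_not_mem_B (mem_Bb.1 h2)

theorem not_min_of_inj {G Γ : Type*} [Group G] [Group Γ] [Finite G] (φ : Γ →* G)
    (hφ : Function.Injective φ) (hs : ¬ Group.IsSolvable Γ) (hc : Nat.card Γ < Nat.card G) :
    ¬ IsMinimalSimple G := by
  rintro ⟨-, -, h⟩
  have e := MonoidHom.ofInjective hφ
  have := h φ.range (fun h => by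
    have := Nat.card_congr e.toEquiv
    rw [h, Subgroup.card_top] at this
    omega)
  exact hs (Group.isSolvable_of_isSolvable_injective (f := e.toMonoidHom) e.injective)

theorem not_min_of_sub {F : Type*} [Field F] [Finite F] (p a m : ℕ) [Fact p.Prime] (ha : 4 ≤ p ^ a)
    (hm : 2 ≤ m) (h : Nat.card F = p ^ (a * m)) : ¬ IsMinimalSimple PSL(2, F) := by
  have ha0 : a ≠ 0 := by rintro rfl; simp at ha
  have hK : Nat.card (GaloisField p a) = p ^ a := GaloisField.card p a ha0
  obtain ⟨f⟩ := CA.FieldIso.nonempty_hom_of_pow (K := GaloisField p a) (F := F) (m := m)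
    (by rw [hK, h, pow_mul])
  have := ProjectiveSpecialLinearGroup.rank_two_simple (F := GaloisField p a) (by omega)
  refine not_min_of_inj (pslMap f) (pslMap_injective f) (not_solv (not_comm_PSL _)) ?_
  have h1 : Nat.card PSL(2, GaloisField p a) ≤ p ^ a * ((p ^ a) ^ 2 - 1) :=
    hK ▸ Nat.le_of_dvd card_PSL_pos card_PSL_dvd
  have hG := card_PSL (F := F)
  have hd : dd F ≤ 2 := Nat.gcd_le_left _ two_pos
  have h5 : (p ^ a) ^ 2 ≤ Nat.card F := by
    rw [h, pow_mul]; exact Nat.pow_le_pow_right (by omega) hm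
  generalize p ^ a = r at *
  have h6 : r ^ 2 ≤ Nat.card F ^ 2 - 1 := by
    have h9 : 2 ≤ Nat.card F := CA.SLnCard.two_le_card F
    have : Nat.card F + 1 ≤ Nat.card F ^ 2 := by nlinarith
    omega
  have h7 : (2 * r) * r ^ 2 ≤ Nat.card F * (Nat.card F ^ 2 - 1) := Nat.mul_le_mul (by nlinarith) h6
  have h8 : r * (r ^ 2 - 1) < r * r ^ 2 := Nat.mul_lt_mul_of_pos_left (by
    have : 0 < r ^ 2 := by positivity
    omega) (by omega)
  nlinarith

theorem not_min_of_five {F : Type*} [Field F] [Finite F] (h6 : 6 ≤ Nat.card F)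
    (h : 5 ∣ Nat.card F * (Nat.card F ^ 2 - 1)) : ¬ IsMinimalSimple PSL(2, F) := by
  obtain ⟨φ, hφ⟩ := exists_A5 h
  refine not_min_of_inj φ hφ (not_solv fun h => ?_) ?_
  · exact absurd (h.is_comm.comm CA.TriPres.a5 CA.TriPres.b5) (by decide)
  · have hG := card_PSL (F := F)
    have hd : dd F ≤ 2 := Nat.gcd_le_left _ two_pos
    have : 6 ^ 2 ≤ Nat.card F ^ 2 := Nat.pow_le_pow_left h6 2
    have : 6 * 35 ≤ Nat.card F * (Nat.card F ^ 2 - 1) := Nat.mul_le_mul h6 (by omega)
    rw [card_A5]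
    nlinarith

theorem min_of {F : Type*} [Field F] [Finite F] (h4 : 4 ≤ Nat.card F)
    (h5 : (((60 : ℕ) : F) ≠ 0 ∨ ((3 : ℕ) : F) = 0) → ¬ 5 ∣ Nat.card F * (Nat.card F ^ 2 - 1))
    (hr : ∀ r m, 4 ≤ r → r ^ m = Nat.card F → m = 1) : IsMinimalSimple PSL(2, F) := by
  refine ⟨ProjectiveSpecialLinearGroup.rank_two_simple h4, not_comm_PSL F, fun H hH => ?_⟩
  rcases dickson_PSL H with ⟨h1, -⟩ | ⟨-, y, hy⟩ | ⟨n, h2, hn, ⟨e⟩⟩ | ⟨hn, ⟨e⟩⟩ | ⟨hn, ⟨e⟩⟩ |
    ⟨hn, ⟨e⟩⟩ | ⟨K, _, _, m, hm1, h3, hm, h⟩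
  · exact Group.isSolvable_of_comm h1.isMulCommutative.is_comm.comm
  · have := isSolvable_Bb (F := F)
    exact isSolvable_of_conj_le hy
  · obtain ⟨g, hg, -, -, hle⟩ := le_Db_of_dihedral h2 hn e
    have := isSolvable_Db hg
    exact isSolvable_of_conj_le (y := 1) (K := Db g) (fun x hx => by simpa using hle hx)
  · exact solv_of_dvd (by rw [Nat.card_congr e.toEquiv, card_A4]; norm_num)
  · exact solv_of_dvd (by rw [Nat.card_congr e.toEquiv, card_S4])
  · exfalso
    have := H.card_subgroup_dvd_card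
    rw [Nat.card_congr e.toEquiv, card_A5] at this
    exact h5 hn (((by norm_num : 5 ∣ 60).trans this).trans card_PSL_dvd)
  · have h' := h.imp_right And.right
    rcases Nat.eq_or_lt_of_le h3 with h3 | h3
    · apply solv_of_dvd
      rcases h' with ⟨⟨e⟩⟩ | ⟨⟨e⟩⟩ <;> rw [Nat.card_congr e.toEquiv]
      · rw [CA.SLnCard.card_PGL2, ← h3]; norm_num
      · have := card_PSL_dvd (F := K)
        rwa [← h3] at this
    · obtain rfl := hr _ m h3 hm
      exact (hH (eq_top_of_sub (by simpa using hm) h')).elim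

theorem eq_one_of_pow {p k r m : ℕ} (hp : p.Prime) (hk : k.Prime) (hr : p < r) (h : r ^ m = p ^ k) :
    m = 1 := by
  have hm : m ≠ 0 := by
    rintro rfl
    exact (Nat.one_lt_pow hk.ne_zero hp.one_lt).ne (by simpa using h)
  obtain ⟨j, -, rfl⟩ := (Nat.dvd_prime_pow hp).1 (h ▸ dvd_pow_self r hm)
  rw [← pow_mul] at h
  have := Nat.pow_right_injective hp.two_le h
  rcases (Nat.dvd_prime hk).1 (Dvd.intro_left _ this) with h1 | h1
  · exact h1
  · have : j = 1 := Nat.eq_of_mul_eq_mul_right hk.pos (by rw [one_mul]; nth_rewrite 1 [← h1]; exact this)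
    simp [this] at hr

/-- PSL_2(q) is minimal simple iff q is 2^r (r prime), 3^r (r an odd prime), a prime greater than 5 congruent to 2 or 3 mod 5, or 5. -/
theorem result {F : Type*} [Field F] [Fintype F] {q : ℕ} (hF : Fintype.card F = q) : Cfsg.IsMinimalSimple (Matrix.ProjectiveSpecialLinearGroup (Fin 2) F) ↔ ((∃ r : ℕ, r.Prime ∧ q = 2 ^ r) ∨ (∃ r : ℕ, r.Prime ∧ r ≠ 2 ∧ q = 3 ^ r) ∨ (q.Prime ∧ 5 < q ∧ (q % 5 = 2 ∨ q % 5 = 3)) ∨ q = 5) := by
  subst hF
  rw [← Nat.card_eq_fintype_card]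
  obtain ⟨p, hp⟩ := CharP.exists F
  have hpp : Fact p.Prime := ⟨CharP.char_is_prime F p⟩
  obtain ⟨n, hn0, hn⟩ := CA.SL2Unip.exists_card_eq_pow (F := F) p
  constructor
  · intro h
    have h4 : 4 ≤ Nat.card F := by
      by_contra h4
      have := h.1
      apply not_solv h.2.1
      apply solv_of_dvd
      have h2 := CA.SLnCard.two_le_card F
      have := card_PSL_dvd (F := F)
      have h3 : Nat.card F = 2 ∨ Nat.card F = 3 := by omega
      rcases h3 with h3 | h3 <;> rw [h3] at this <;> exact this.trans (by norm_num)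
    by_cases h1 : n = 1
    · subst h1
      rw [pow_one] at hn
      rw [hn] at h4 ⊢
      by_cases h5 : p = 5
      · simp [h5]
      have h6 : p ≠ 4 := by rintro rfl; exact absurd hpp.out (by norm_num)
      refine Or.inr (Or.inr (Or.inl ⟨hpp.out, by omega, ?_⟩))
      by_contra h7
      apply not_min_of_five (by omega) _ h
      rw [hn, CA.SLnCard.sq_sub_one]
      have : p % 5 = 0 ∨ p % 5 = 1 ∨ p % 5 = 4 := by omega
      rcases this with h | h | h
      · exact Dvd.dvd.mul_right (by omega) _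
      · exact Dvd.dvd.mul_left (Dvd.dvd.mul_left (by omega) _) _
      · exact Dvd.dvd.mul_left (Dvd.dvd.mul_right (by omega) _) _
    · have hnp : n.Prime := by
        by_contra hnp
        obtain ⟨m, hm⟩ := n.minFac_dvd
        have h2 := (Nat.minFac_prime h1).two_le
        refine not_min_of_sub p n.minFac m ?_ ?_ (by rw [← hm, hn]) h
        · calc 4 = 2 ^ 2 := rfl
            _ ≤ p ^ 2 := Nat.pow_le_pow_left hpp.out.two_le 2
            _ ≤ _ := Nat.pow_le_pow_right hpp.out.pos h2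
        · by_contra h3
          have : m = 0 ∨ m = 1 := by omega
          rcases this with rfl | rfl
          · omega
          · exact hnp (by rw [hm, mul_one]; exact Nat.minFac_prime h1)
      by_cases h2 : p = 2
      · exact Or.inl ⟨n, hnp, h2 ▸ hn⟩
      by_cases h3 : p = 3
      · refine Or.inr (Or.inl ⟨n, hnp, ?_, h3 ▸ hn⟩)
        rintro rfl
        subst h3
        exact not_min_of_five (by omega) (by rw [hn]; norm_num) h
      · have := hpp.out.two_le
        exact (not_min_of_sub p 1 n (by rw [pow_one]; omega) hnp.two_le (by rw [one_mul, hn]) h).elim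
  · rintro (⟨r, hr, h⟩ | ⟨r, hr, hr2, h⟩ | ⟨hq, h5, h⟩ | h)
    · have h2 : (2 : F) = 0 := two_eq_zero_of_even (by
        rw [h]; exact (Nat.even_pow.2 ⟨even_two, hr.ne_zero⟩))
      refine min_of ?_ (fun h => (two_ne_of_cast (by norm_num) h h2).elim) fun s m hs hm =>
        eq_one_of_pow Nat.prime_two hr (by omega) (hm.trans h)
      rw [h]; exact Nat.pow_le_pow_right two_pos hr.two_le
    · refine min_of ?_ (fun _ => ?_) fun s m hs hm =>
        eq_one_of_pow Nat.prime_three hr (by omega) (hm.trans h)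
      · have : 3 ^ 2 ≤ 3 ^ r := Nat.pow_le_pow_right (by norm_num) hr.two_le
        omega
      · obtain ⟨k, rfl⟩ := hr.odd_of_ne_two hr2
        have : (3 ^ (2 * k + 1)) ^ 2 % 5 = 4 := by
          rw [← pow_mul, show (2 * k + 1) * 2 = 4 * k + 2 by ring, pow_add, pow_mul, Nat.mul_mod,
            Nat.pow_mod]
          simp
        rw [h, Nat.prime_five.dvd_mul]
        rintro (h5 | h5)
        · exact absurd (Nat.prime_five.dvd_of_dvd_pow h5) (by norm_num)
        · omega
    · refine min_of (by omega) (fun _ => ?_) fun s m hs hm => (hm ▸ hq).eq_one_of_pow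
      rw [CA.SLnCard.sq_sub_one, Nat.prime_five.dvd_mul, Nat.prime_five.dvd_mul]
      omega
    · have h5 : ((5 : ℕ) : F) = 0 := h ▸ cast_card_eq_zero
      refine min_of (by omega) (fun hh => ?_) fun s m hs hm => ?_
      · exfalso
        rcases hh with hh | hh
        · exact hh (by push_cast at h5 ⊢; linear_combination 12 * h5)
        · exact one_ne_zero (by push_cast at h5 hh; linear_combination 2 * hh - h5 : (1 : F) = 0)
      · exact Nat.Prime.eq_one_of_pow (x := s) (by rw [hm, h]; exact Nat.prime_five)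

end Cfsg.Agent.S0810
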