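import Cfsg.Statements.S0811
import Cfsg.Agent.Lib.Lin.PSL2Max

set_option autoImplicit false
open Cfsg

namespace Cfsg.Agent.S0811

/-- For q ∉ {2, 7, 9}, PSL_2(q) has a maximal subgroup isomorphic to the dihedral group of order 2(q + 1)/d, d = gcd(2, q − 1). -/
theorem result {F : Type*} [Field F] [Fintype F] {q : ℕ} (hF : Fintype.card F = q) (hq : q ∉ ({2, 7, 9} : Finset ℕ)) : ∃ H : Subgroup (Matrix.ProjectiveSpecialLinearGroup (Fin 2) F), IsCoatom H ∧ Nonempty (H ≃* DihedralGroup ((q + 1) / Nat.gcd 2 (q - 1))) := by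
  open CA.PSL2Sub CA.PSL2Struct CA.SL2Basic CA.SL2Torus CA.PSL2Max in
  subst hF
  rw [← Nat.card_eq_fintype_card] at hq ⊢
  simp only [Finset.mem_insert, Finset.mem_singleton, not_or] at hq
  have h2 := CA.SLnCard.two_le_card F
  obtain ⟨g, hg⟩ := exists_aniso_SL F
  have hs := SS.of_aniso hg
  have hT := card_Tb_aniso hg
  have hd : dd F = 1 ∨ dd F = 2 := (em ((2 : F) = 0)).imp dd_even dd_odd
  have hr : ∀ r m, 3 ≤ r → 2 ≤ m → r ^ m = Nat.card F → r + 1 < Nat.card (Tb g) := by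
    intro r m h3 hm hr
    have h5 : r ^ 2 ≤ Nat.card F := hr ▸ Nat.pow_le_pow_right (by omega) hm
    have h6 : 2 * r + 3 ≤ Nat.card F := by nlinarith
    rw [hT]
    rcases hd with h | h <;> rw [h] <;> omega
  refine ⟨Db g, ?_, hT ▸ dihedral_Db hs⟩
  have hG := card_PSL (F := F)
  by_cases h3 : Nat.card F = 3
  · have h0 : (2 : F) ≠ 0 := two_ne_zero_of_odd (by rw [h3]; decide)
    have h4 := (Db g).index_mul_card
    rw [dd_odd h0, h3] at hG hT
    rw [card_Db hs, hT] at h4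
    have h5 : (Db g).index = 3 := by omega
    refine ⟨Db_ne_top hs (by omega), fun H hH => ?_⟩
    have h6 := Subgroup.relIndex_mul_index hH.le
    rw [h5] at h6
    rcases (Nat.dvd_prime Nat.prime_three).1 (Dvd.intro_left _ h6) with h | h
    · exact Subgroup.index_eq_one.1 h
    · rw [h] at h6
      exact (hH.not_ge (Subgroup.relIndex_eq_one.1 (by omega))).elim
  by_cases h5 : Nat.card F = 5
  · have h0 : (2 : F) ≠ 0 := two_ne_zero_of_odd (by rw [h5]; decide)
    rw [dd_odd h0, h5] at hG hT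
    refine ⟨Db_ne_top hs (by omega), fun H hH => ?_⟩
    rcases overgroup_Db hs (by omega) hH.le with h | h | ⟨hn, ⟨e⟩⟩ | ⟨hn, ⟨e⟩⟩ | ⟨hn, ⟨e⟩⟩ |
      ⟨r, m, h1, h2, h4, h5⟩
    · exact (hH.ne' h).elim
    · exact h
    · exfalso
      obtain ⟨t, ht, ho⟩ := exists_orderOf_of_dvd hs dvd_rfl
      obtain ⟨w, hw, hw'⟩ := exists_mem_Db hs
      have h4 := conj_of_mem_Db hs.ns hw hw' ht
      have key : ∀ x y : alternatingGroup (Fin 4), y * x * y⁻¹ = x⁻¹ → x ^ 2 = 1 := by decide +kernel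
      have h6 := key (e ⟨t, hH.le (Tb_le_Db g ht)⟩) (e ⟨w, hH.le hw⟩) (by
        rw [← map_inv, ← map_inv, ← map_mul, ← map_mul]; congr 1; exact Subtype.ext h4)
      rw [← map_pow, EmbeddingLike.map_eq_one_iff] at h6
      have := Nat.le_of_dvd two_pos (orderOf_dvd_of_pow_eq_one (x := t) (congrArg Subtype.val h6))
      omega
    · have := H.card_subgroup_dvd_card
      rw [Nat.card_congr e.toEquiv, card_S4] at this
      omega
    · apply Subgroup.eq_top_of_le_card
      rw [Nat.card_congr e.toEquiv, card_A5]; omega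
    · have := hr r m h1 h2 h4
      omega
  have hodd : (2 : F) ≠ 0 → 6 ≤ Nat.card (Tb g) := by
    intro h
    have := Nat.odd_iff.1 (odd_card_of_two_ne_zero h)
    rw [hT, dd_odd h]; omega
  refine isCoatom_Db hs ?_ (by omega) hodd hr
  by_cases h : (2 : F) = 0
  · rw [hT, dd_even h]; omega
  · have := hodd h; omega

end Cfsg.Agent.S0811
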