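import Cfsg.Statements.S0812
import Cfsg.Agent.Lib.Lin.PSL2Max

set_option autoImplicit false
open Cfsg

namespace Cfsg.Agent.S0812

/-- For q ∉ {2, 3, 5, 7, 9, 11}, PSL_2(q) has a maximal subgroup isomorphic to the dihedral group of order 2(q − 1)/d, d = gcd(2, q − 1). -/
theorem result {F : Type*} [Field F] [Fintype F] {q : ℕ} (hF : Fintype.card F = q) (hq : q ∉ ({2, 3, 5, 7, 9, 11} : Finset ℕ)) : ∃ H : Subgroup (Matrix.ProjectiveSpecialLinearGroup (Fin 2) F), IsCoatom H ∧ Nonempty (H ≃* DihedralGroup ((q - 1) / Nat.gcd 2 (q - 1))) := by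
  open CA.PSL2Sub CA.PSL2Struct CA.SL2Basic CA.SL2Torus CA.PSL2Max in
  subst hF
  rw [← Nat.card_eq_fintype_card] at hq ⊢
  simp only [Finset.mem_insert, Finset.mem_singleton, not_or] at hq
  have h2 := CA.SLnCard.two_le_card F
  obtain ⟨g, hg⟩ := exists_split_SL F (by omega)
  have hs := SS.of_split hg
  have hT := card_Tb_split hg
  have hodd : (2 : F) ≠ 0 → 6 ≤ Nat.card (Tb g) := by
    intro h
    have := Nat.odd_iff.1 (odd_card_of_two_ne_zero h)
    rw [hT, dd_odd h]; omega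
  refine ⟨Db g, isCoatom_Db hs ?_ (by omega) hodd fun r m h3 hm hr => ?_, hT ▸ dihedral_Db hs⟩
  · by_cases h : (2 : F) = 0
    · rw [hT, dd_even h]; omega
    · have := hodd h; omega
  · have hd : dd F = 1 ∨ dd F = 2 := (em ((2 : F) = 0)).imp dd_even dd_odd
    have h5 : r ^ 2 ≤ Nat.card F := hr ▸ Nat.pow_le_pow_right (by omega) hm
    have h6 : 2 * r + 5 ≤ Nat.card F := by
      rcases Nat.eq_or_lt_of_le h3 with rfl | h4
      · rcases Nat.eq_or_lt_of_le hm with rfl | h4
        · omega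
        · have : 3 ^ 3 ≤ Nat.card F := hr ▸ Nat.pow_le_pow_right (by omega) h4
          omega
      · nlinarith
    rw [hT]
    rcases hd with h | h <;> rw [h] <;> omega

end Cfsg.Agent.S0812
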