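import Cfsg.Statements.S0814
import Cfsg.Agent.Lib.Lin.AutSp4

set_option autoImplicit false
open Cfsg

namespace Cfsg.Agent.S0814

open CA.AutForm CA.CForm CA.AutGam CA.AutFld CA.AutOut CA.AutLang CA.AutPhi SemidirectProduct

/-- |Aut(PSp_2m(q))| = gcd(2, q−1) · f · |PSp_2m(q)| for q = p^f, m ≥ 2, (m, q) ≠ (2, 2), with an extra factor 2 exactly when m = 2 and p = 2. -/
theorem result {F : Type*} [Field F] [Fintype F] (p f : ℕ) [Fact p.Prime] (hf : 1 ≤ f) (hF : Fintype.card F = p ^ f) (m : ℕ) (hm : 2 ≤ m) (h22 : m = 2 → 3 ≤ p ^ f) : Nat.card (MulAut (Cfsg.PSp m F)) = (if m = 2 ∧ p = 2 then 2 else 1) * Nat.gcd 2 (p ^ f - 1) * f * Nat.card (Cfsg.PSp m F) := by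
  have E := embSp (F := F) hm
  have h1 := two_eq_zero_iff hf hF
  split_ifs with h
  · obtain ⟨rfl, rfl⟩ := h
    have h2 : Nat.gcd 2 (2 ^ f - 1) = 1 := Nat.coprime_two_left.mpr
      (Nat.Even.sub_odd Nat.one_le_two_pow (Nat.even_pow.mpr ⟨even_two, by omega⟩) odd_one)
    rw [h2, mul_one, ← card_ringAut hF, ← (out_Sp4 (h1.mpr rfl)).2]
    exact E.card_aut_eq
  · have := E.card_aut (E.Ph_surjective (genSp (by
      by_cases h3 : m = 2
      · exact Or.inr (mt h1.mp fun H => h ⟨h3, H⟩)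
      · exact Or.inl (by omega)))) fun σ => ⟨1, inr_mem_Sp σ⟩
    rw [relIndex_Sp hm, card_ringAut hF, Nat.card_eq_fintype_card (α := F), hF] at this
    rw [one_mul]; exact this

end Cfsg.Agent.S0814
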