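import Cfsg.Statements.S0818
import Cfsg.Agent.Lib.Lin.AutOrth5

set_option autoImplicit false
open Cfsg

namespace Cfsg.Agent.S0818

open CA.AutForm CA.CForm CA.AutGam CA.AutFld CA.AutOut CA.AutLang CA.AutPhi SemidirectProduct

/-- |Aut(PΩ⁻_2m(q))| for q = p^f, m ≥ 4 (form quadFormMinus (m−1) with anisotropic binary part): |PΩ⁻_2m(q)| times f, times 2 if p = 2, and times 4 or 8 if p is odd according as m(q−1)/2 is even or odd. -/
theorem result {F : Type*} [Field F] [Fintype F] (p f : ℕ) [Fact p.Prime] (hf : 1 ≤ f) (hF : Fintype.card F = p ^ f) (m : ℕ) (hm : 4 ≤ m) (a b : F) (hab : ∀ z₁ z₂ : F, z₁ ^ 2 + a * z₁ * z₂ + b * z₂ ^ 2 = 0 → z₁ = 0 ∧ z₂ = 0) : Nat.card (MulAut (Cfsg.POmega F (Cfsg.quadFormMinus (m - 1) F a b))) = (if p = 2 then 2 else (if Even (m * (p ^ f - 1) / 2) then 4 else 8)) * f * Nat.card (Cfsg.POmega F (Cfsg.quadFormMinus (m - 1) F a b)) := by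
  have hm' : 2 ≤ m - 1 := by omega
  have E := embMinus hab hm'
  have hb := bigE_minus hm' hab
  have := E.card_aut (E.Ph_surjective (genMinus hab)) (exists_mem_minus hab)
  rw [card_ringAut hF, hb.range_eq E, hb.relIndex_N] at this
  refine this.trans ?_
  congr 2
  by_cases h2 : p = 2
  · rw [if_pos h2, if_pos ((two_eq_zero_iff hf hF).mpr h2)]
  have h3 := mt (two_eq_zero_iff hf hF).mp h2
  have h4 := spin_negI_minus h3 hm' hab
  have h5 := even_mul_half_iff (m := m) (((Fact.out : p.Prime).odd_of_ne_two h2).pow (n := f))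
  rw [hF, Nat.even_sub (by omega), iff_false_right Nat.not_even_one, Nat.not_even_iff_odd] at h4
  rw [if_neg h2, if_neg h3]
  by_cases h6 : Odd m ∧ p ^ f % 4 = 3
  · rw [if_pos (h4.mpr h6), if_neg fun h => h5.mp h h6]
  · rw [if_neg (mt h4.mp h6), if_pos (h5.mpr h6)]

end Cfsg.Agent.S0818
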