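import Cfsg.Statements.S2362
import Cfsg.Agent.Lib.Lin.SpecE
import Cfsg.Agent.Lib.Grp.Zsig

set_option autoImplicit false
open Cfsg

namespace Cfsg.Agent.S2362

open CA.CForm CA.CForm.Form CA.Rcf Module Polynomial in
/-- Let F be a finite field of odd order and n ≥ 3. The simple orthogonal group PΩ(2n+1, F) (type B_n) and the projective symplectic group PSp(2n, F) (type C_n), which have the same order, do not have the same set of element orders. -/
theorem result {F : Type*} [Field F] [Fintype F] (hodd : Odd (Fintype.card F)) (n : ℕ) (hn : 3 ≤ n) :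
    Set.range (orderOf : Cfsg.POmega F (Cfsg.quadFormOdd n F) → ℕ) ≠ Set.range (orderOf : Cfsg.PSp n F → ℕ) := by
  obtain ⟨p, hp⟩ := CharP.exists F
  have hp := CharP.char_is_prime F p
  have := Fact.mk hp
  rw [← Nat.card_eq_fintype_card] at hodd
  obtain ⟨n, rfl⟩ := Nat.exists_eq_add_of_le' (show 1 ≤ n by omega)
  have hq := Finite.one_lt_card (α := F)
  intro h
  have h0 : SpD (Nat.card F) p (n + 1) (fun k => k = 0 ∧ Odd (Nat.card F)) ((Nat.card F ^ n + 1) * p) :=
    ⟨1, Nat.card F ^ n + 1, {(n, true)}, by simp; omega, by simp [cst]; omega, by simp,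
      tl_singleton ▸ dvd_rfl, by simp⟩
  rw [← psp_spec p (by omega), ← h, omega_spec p (fun H => not_odd_card H hodd) hn] at h0
  obtain ⟨k, N, S, h1, h2, h3, h4, h5⟩ := h0
  have h6 := (coprime_tl (F := F) p (S := {(n, true)}) (by simp; omega)).pow_right k
  rw [tl_singleton] at h6
  have h7 := Nat.Coprime.dvd_of_dvd_mul_right h6 ((dvd_mul_right _ _).trans h3)
  obtain ⟨r, k1, k2, k3⟩ := CA.Zsig.zsigmondy (Nat.card F) (2 * n) hq (by omega)
    (fun H => absurd (H.1 ▸ hodd) (by decide)) (by omega)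
  have k4 := (k1.dvd_mul.1 (sq_sub_one_eq _ _ ▸ k2)).resolve_left (k3 n (by omega) (by omega))
  obtain ⟨t, ht, k5⟩ := exists_dvd_tor k1 (k4.trans (h7.trans h4))
  have k6 : n ≤ t.1 := by_contra fun H => k3 _ (by have := h1 t ht; omega) (by omega) (k5.trans (tor_dvd t))
  rcases k with _ | j
  · exact hp.ne_one ((coprime_tl p h1).symm.eq_one_of_dvd
      ((dvd_mul_left _ _).trans (h3.trans ((mul_one N).symm ▸ h4))))
  obtain ⟨S, rfl⟩ := Multiset.exists_cons_of_mem ht
  have := Nat.pow_pos (n := j) hp.pos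
  simp only [wt_cons, cst] at h2 h5
  obtain rfl : S = 0 := Multiset.eq_zero_of_forall_notMem fun t ht => by
    have := h1 t (Multiset.mem_cons_of_mem ht); have := le_wt ht; omega
  have k7 := Nat.le_of_dvd (tor_ne_zero hq (h1 t ht)).bot_lt
    ((mul_dvd_mul_left 2 h7).trans (h5 t rfl trivial (by omega)))
  obtain ⟨a, b⟩ := t
  obtain rfl : a = n := by omega
  cases b <;> simp at k7 <;> omega

end Cfsg.Agent.S2362
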