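import Cfsg.Statements.S0821
import Cfsg.Agent.S2362

set_option autoImplicit false
open Cfsg

namespace Cfsg.Agent.S0821

open CA.Rcf in
/-- PSp_2m(q) ≇ PΩ_(2m+1)(q) for q odd and m ≥ 3 (they have the same order). -/
theorem result {F : Type*} [Field F] [Fintype F] (hodd : Odd (Fintype.card F)) (m : ℕ) (hm : 3 ≤ m) : IsEmpty (Cfsg.PSp m F ≃* Cfsg.POmega F (Cfsg.quadFormOdd m F)) := by
  exact ⟨fun e => Cfsg.Agent.S2362.result hodd m hm (range_orderOf_congr e).symm⟩

end Cfsg.Agent.S0821
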