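import Cfsg.Statements.S0823
import Cfsg.Agent.Lib.Lin.LowIso

set_option autoImplicit false
open Cfsg

namespace Cfsg.Agent.S0823

open CA.CForm CA.CForm.Form Matrix Module

abbrev I := Unit ⊕ (Fin 1 ⊕ Fin 1)

def P : I → Fin 4 → ZMod 3 := Sum.elim (fun _ => ![0, 1, -1, 0]) (Sum.elim (fun _ => ![1, 1, 1, 0]) fun _ => ![0, -1, -1, -1])

def co (v : Fin 4 → ZMod 3) : I → ZMod 3 := Sum.elim (fun _ => v 1 - v 0 - v 3) (Sum.elim (fun _ => v 0) fun _ => -v 3)

def m (σ : Equiv.Perm (Fin 4)) : Matrix I I (ZMod 3) :=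
  Matrix.of fun i j => ((Equiv.Perm.sign σ : ℤ) : ZMod 3) * co (P j ∘ σ.symm) i

def e3 : Fin 3 ≃ I := ⟨![.inl (), .inr (.inl 0), .inr (.inr 0)], Sum.elim (fun _ => 0) (Sum.elim (fun _ => 1) fun _ => 2),
  by decide, by decide⟩

theorem m_mul : ∀ σ τ, m (σ * τ) = m σ * m τ := by decide +kernel
theorem m_inj : ∀ σ, m σ = 1 → σ = 1 := by decide +kernel
theorem m_Q : ∀ σ v, quadFormOdd 1 _ (m σ *ᵥ v) = quadFormOdd 1 _ v := by decide +kernel
theorem m_det : ∀ σ, (m σ).det = 1 := by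
  simp only [← det_submatrix_equiv_self e3, det_fin_three]; decide +kernel

noncomputable def φ : Equiv.Perm (Fin 4) →* specialIsometryGroup (ZMod 3) (quadFormOdd 1 (ZMod 3)) :=
  ((MonoidHom.toHomUnits (⟨⟨m, by decide +kernel⟩, m_mul⟩ : Equiv.Perm (Fin 4) →* Matrix I I (ZMod 3))).codRestrict _
    fun σ => mem_isometryGroup.2 (m_Q σ)).codRestrict _ fun σ => Units.ext (m_det σ)

/-- SO_3(3) ≅ S_4: the determinant-one isometries of the form x_0² + x_1y_1 over the field with 3 elements form a group isomorphic to the symmetric group on 4 letters. -/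
theorem result {F : Type*} [Field F] [Fintype F] (hF : Fintype.card F = 3) : Nonempty (↥(Cfsg.specialIsometryGroup F (Cfsg.quadFormOdd 1 F)) ≃* Equiv.Perm (Fin 4)) := by
  obtain ⟨i⟩ := CA.FieldIso.nonempty_zmod (F := F) 3 (by simpa)
  have h2 : (2 : ZMod 3) ≠ 0 := by decide
  have hf := oddForm_nondeg h2 1
  have h1 : specialIsometryGroup (ZMod 3) (oddForm (ZMod 3) 1).Q =
      (oddForm (ZMod 3) 1).SIsom.comap (orthEquiv _).toMonoidHom :=
    Subgroup.ext (mem_specialIsometryGroup_iff _)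
  have h3 := (specialIsometryGroup (ZMod 3) (oddForm (ZMod 3) 1).Q).index_mul_card
  rw [Nat.card_congr (orthEquiv _).toEquiv, hf.card_isom_odd (finrank_odd 1), Nat.card_zmod] at h3
  conv_lhs at h3 => enter [1]; rw [h1, Subgroup.index_comap_of_surjective _ (orthEquiv _).surjective,
    ← hf.ker_dick_eq_SIsom (good_of_two_ne_zero _ h2) h2, hf.index_ker_dick]
  refine ⟨(CA.FieldIso.soEquiv i _ _ (CA.FieldIso.quadFormOdd_map i 1)).trans (MulEquiv.ofBijective φ
    ((Nat.bijective_iff_injective_and_card _).2 ⟨(injective_iff_map_eq_one _).2 fun σ h =>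
      m_inj σ (congrArg (·.1.1.1) h), ?_⟩)).symm⟩
  rw [Nat.card_perm, Nat.card_fin]
  exact Nat.eq_of_mul_eq_mul_left two_pos (h3.trans (by decide)).symm

end Cfsg.Agent.S0823
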