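import Cfsg.Statements.S0825
import Cfsg.Agent.Lib.Lin.FieldIso
import Cfsg.Agent.Lib.Lin.SnOrth
import Cfsg.Agent.S0287

set_option autoImplicit false
open Cfsg

namespace Cfsg.Agent.S0825

/-- O⁺_6(2) ≅ S_8: the isometry group of the hyperbolic form x_1y_1 + x_2y_2 + x_3y_3 over the field with 2 elements is isomorphic to the symmetric group on 8 letters. -/
theorem result {F : Type*} [Field F] [Fintype F] (hF : Fintype.card F = 2) : Nonempty (↥(Cfsg.isometryGroup F (Cfsg.quadFormPlus 3 F)) ≃* Equiv.Perm (Fin 8)) := by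
  obtain ⟨e⟩ := CA.FieldIso.nonempty_zmod (F := F) 2 (by rw [Nat.card_eq_fintype_card, hF])
  obtain ⟨f, hf⟩ := CA.SnOrth.exists_inj (α := Fin 8) (by simp) (by rfl) (CA.CForm.plusForm (ZMod 2) 3) 7
    ![Sum.elim ![0, 0, 1] ![0, 0, 1], Sum.elim ![0, 1, 0] ![0, 1, 1], Sum.elim ![0, 1, 1] ![1, 1, 0],
      Sum.elim ![1, 0, 0] ![1, 1, 1], Sum.elim ![1, 0, 1] ![1, 0, 0], Sum.elim ![1, 1, 0] ![1, 0, 1],
      Sum.elim ![1, 1, 1] ![0, 1, 0], 0]
    (by simp only [CA.CForm.plusForm_Q_apply]; decide +kernel)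
    (by simp only [CA.CForm.plusForm_B]; decide +kernel)
  obtain ⟨g⟩ := CA.SnPres.nonempty_equiv_of_injective f hf (by
    rw [CA.CForm.plusForm_Q, Cfsg.Agent.S0287.result (ZMod.card 2) 3 (by norm_num), Nat.card_perm,
      Nat.card_fin]; decide)
  exact ⟨(CA.FieldIso.isomEquiv e _ _ (CA.FieldIso.quadFormPlus_map e 3)).trans g.symm⟩

end Cfsg.Agent.S0825
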