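import Cfsg.Statements.S0828
import Cfsg.Agent.Lib.Lin.CFormMisc2

set_option autoImplicit false
open Cfsg

namespace Cfsg.Agent.S0828

open CA.CForm CA.CForm.Form in
/-- The symplectic generalised quadrangle over a field with q elements: the number of 2-dimensional subspaces of F^4 on which the symplectic form vanishes is (q + 1)(q² + 1), and every non-zero vector lies in exactly q + 1 of them. -/
theorem result {F : Type*} [Field F] [Fintype F] {q : ℕ} (hF : Fintype.card F = q) : Nat.card {W : Submodule F (Fin 2 ⊕ Fin 2 → F) // Module.finrank F W = 2 ∧ ∀ u ∈ W, ∀ v ∈ W, Cfsg.sympForm 2 F u v = 0} = (q + 1) * (q ^ 2 + 1) ∧ ∀ v : Fin 2 ⊕ Fin 2 → F, v ≠ 0 → Nat.card {W : Submodule F (Fin 2 ⊕ Fin 2 → F) // Module.finrank F W = 2 ∧ v ∈ W ∧ ∀ u ∈ W, ∀ w ∈ W, Cfsg.sympForm 2 F u w = 0} = q + 1 := by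
  have hf := sympStd_nondeg F 2
  have hq : 2 ≤ q := hF ▸ Fintype.one_lt_card
  have h4 : 1 ≤ q ^ 2 := Nat.one_le_pow _ _ (by omega)
  have h5 : 1 ≤ q ^ 4 := Nat.one_le_pow _ _ (by omega)
  have h7 : q ≤ q ^ 2 := Nat.le_self_pow (by omega) _
  have h6 : q ≤ q ^ 3 := Nat.le_self_pow (by omega) _
  have h8 : (q : ℤ) ^ 2 - 1 ≠ 0 := by nlinarith
  have h9 : (q : ℤ) ≠ 0 := by omega
  have h10 : (q : ℤ) - 1 ≠ 0 := by omega
  refine ⟨?_, fun v hv => ?_⟩
  · obtain ⟨W, hW, dW⟩ := hf.symp_isIndex.exists_ts (j := 2) (by simp)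
    obtain ⟨N, -, hN, -, h1, h2⟩ := hf.card_fix_ts hW dW (r := 2 * 0) (by simp)
    have h3 := hf.card_ts_mul_card_stab hW dW
    rw [hf.card_stab_ts hW dW, h2, (hf.restrict_perp hN).card_isom_symp _ h1, hf.card_isom_symp 2 (by simp),
      card_ker_π_symp, Nat.card_eq_fintype_card (α := F), hF] at h3
    rw [Nat.card_congr (Equiv.subtypeEquivRight (q := fun X : Submodule F _ => Module.finrank F X = 2 ∧ (sympStd F 2).TS X)
      fun X => and_congr_right fun _ => by rw [symp_ts_iff]; simp only [sympStd_B])]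
    simp [Finset.prod_range_succ, Fin.prod_univ_two] at h3
    zify [h4, h5, h7] at h3 ⊢
    apply mul_right_cancel₀ (b := (q : ℤ) ^ 4 * (q ^ 2 - 1) * (q - 1)) (by positivity)
    linear_combination h3
  · set f := sympStd F 2
    have hc : ∀ X : Submodule F (Fin 2 ⊕ Fin 2 → F), v ∈ X →
        Nat.card {w // w ∈ X ∧ w ∉ F ∙ v} = q ^ Module.finrank F X - q := by
      intro X hX
      have h1 := Set.ncard_sdiff (s := ((F ∙ v : Submodule F _) : Set (Fin 2 ⊕ Fin 2 → F))) (t := X)
        ((Submodule.span_singleton_le_iff_mem _ _).2 hX)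
      rw [← Nat.card_coe_set_eq, ← Nat.card_coe_set_eq, ← Nat.card_coe_set_eq] at h1
      refine h1.trans ?_
      erw [Module.natCard_eq_pow_finrank (K := F) (V := X), Module.natCard_eq_pow_finrank (K := F) (V := F ∙ v)]
      rw [finrank_span_singleton hv, Nat.card_eq_fintype_card, hF, pow_one]
    have hd : ∀ w, w ∉ F ∙ v → Module.finrank F (Submodule.span F {v, w}) = 2 := fun w hw => by
      have := finrank_span_eq_card ((LinearIndependent.pair_iff' hv).2 fun a h =>
        hw (Submodule.mem_span_singleton.2 ⟨a, h⟩))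
      rwa [Matrix.range_cons_cons_empty] at this
    have h1 := natCard_eq_mul_of_fiber (α := {w // w ∈ f.perp (F ∙ v) ∧ w ∉ F ∙ v})
      (β := {W : Submodule F (Fin 2 ⊕ Fin 2 → F) // Module.finrank F W = 2 ∧ v ∈ W ∧
        ∀ u ∈ W, ∀ w ∈ W, Cfsg.sympForm 2 F u w = 0})
      (fun w => ⟨Submodule.span F {v, w.1}, hd _ w.2.2, Submodule.subset_span (by simp), by
        have := (f.ts_span_singleton (f.symp_Q v)).sup_singleton (f.symp_Q w.1) w.2.1
        rw [← Submodule.span_insert, symp_ts_iff] at this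
        simpa only [f, sympStd_B] using this⟩) (q ^ 2 - q) fun W => by
        refine Eq.trans ?_ ((hc W W.2.2.1).trans (by rw [W.2.1]))
        refine Nat.card_congr ⟨fun w => ⟨w.1.1, ?_, w.1.2.2⟩, fun w => ⟨⟨w.1, ?_, w.2.2⟩, ?_⟩,
          fun _ => rfl, fun _ => rfl⟩
        · exact (congrArg Subtype.val w.2).le (Submodule.subset_span (by simp))
        · exact f.mem_perp_span_singleton.2 ((sympStd_B F 2 _ _).trans (W.2.2.2 _ W.2.2.1 _ w.2.1))
        · refine Subtype.ext (Submodule.eq_of_le_of_finrank_eq (Submodule.span_le.2 ?_) ?_)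
          · rintro _ (rfl | rfl)
            exacts [W.2.2.1, w.2.1]
          · rw [hd _ w.2.2, W.2.1]
    have h2 := hf.finrank_perp (F ∙ v)
    rw [finrank_span_singleton hv, finrank_plus] at h2
    rw [hc _ (f.mem_perp_span_singleton.2 (f.symp_B_self v)),
      show Module.finrank F (f.perp (F ∙ v)) = 3 by omega] at h1
    zify [h6, h7] at h1 ⊢
    apply mul_right_cancel₀ (b := (q : ℤ) * (q - 1)) (by positivity)
    linear_combination -h1

end Cfsg.Agent.S0828
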