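import Cfsg.Statements.S0830
import Cfsg.Agent.Lib.Lin.CFormMisc2

set_option autoImplicit false
open Cfsg

namespace Cfsg.Agent.S0830

open CA.CForm CA.CForm.Form in
/-- The unitary quadrangle of PSU_5(q): with |F| = q², the number of 2-dimensional subspaces of F^5 on which the Hermitian form vanishes is (q³ + 1)(q⁵ + 1). -/
theorem result {F : Type*} [Field F] [Fintype F] {q : ℕ} (hF : Fintype.card F = q ^ 2) : Nat.card {W : Submodule F (Fin 5 → F) // Module.finrank F W = 2 ∧ ∀ u ∈ W, ∀ v ∈ W, Cfsg.hermForm 5 F q u v = 0} = (q ^ 3 + 1) * (q ^ 5 + 1) := by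
  have hf := hermStd_nondeg hF 5
  have hq := two_le_of_card_sq hF
  obtain ⟨W, hW, dW⟩ := (hf.herm_isIndex (conj_ne_id hF)).exists_ts (j := 2) (by simp)
  obtain ⟨N, -, hN, -, h1, h2⟩ := hf.card_fix_ts hW dW (r := 1) (by simp)
  have h3 := hf.card_ts_mul_card_stab hW dW
  rw [hf.card_stab_ts hW dW, h2, herm_card_isom hF _ (hf.restrict_perp hN) h1, herm_card_isom hF 5 hf (by simp),
    card_ker_π_hermKind, Nat.card_eq_fintype_card (α := F), hF] at h3
  rw [Nat.card_congr (Equiv.subtypeEquivRight (q := fun X : Submodule F _ => Module.finrank F X = 2 ∧ (hermStd hF 5).TS X)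
    fun X => and_congr_right fun _ => by
      rw [herm_ts_iff]; simp only [hermStd_B]; exact ⟨fun h u hu v hv => h v hv u hu, fun h u hu v hv => h v hv u hu⟩)]
  simp [Finset.prod_range_succ, Fin.prod_univ_two, show ¬ Even 3 by decide, show Even 2 by decide,
    show Even 4 by decide] at h3
  have h4 : 1 ≤ q ^ 2 := Nat.one_le_pow _ _ (by omega)
  have h5 : 1 ≤ q ^ 4 := Nat.one_le_pow _ _ (by omega)
  have h6 : 1 ≤ (q ^ 2) ^ 2 := Nat.one_le_pow _ _ (by omega)
  have h7 : q ^ 2 ≤ (q ^ 2) ^ 2 := Nat.le_self_pow (by omega) _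
  have h8 : (q : ℤ) ^ 2 - 1 ≠ 0 := by nlinarith
  have h9 : (q : ℤ) ≠ 0 := by omega
  have h10 : (q : ℤ) ^ 2 + 1 ≠ 0 := by positivity
  zify [h4, h5, h6, h7] at h3 ⊢
  apply mul_right_cancel₀ (b := (q : ℤ) ^ 10 * (q ^ 2 - 1) ^ 2 * (q ^ 2 + 1) * (q + 1)) (by positivity)
  linear_combination h3

end Cfsg.Agent.S0830
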