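import Cfsg.Statements.S0831
import Cfsg.Agent.Lib.Lin.CFormOSub

set_option autoImplicit false
open Cfsg

namespace Cfsg.Agent.S0831

open CA.CForm CA.CForm.Form in
/-- The two families of maximal totally singular subspaces of the hyperbolic quadric: for the form Σ x_i y_i on F^(2m), m ≥ 1, and m-dimensional subspaces U, W, X on which it vanishes, the parities of m − dim(U ∩ W), m − dim(W ∩ X) and m − dim(U ∩ X) sum to an even number (so 'even codimension of the intersection' is an equivalence relation), and there exist two such subspaces meeting in codimension 1 (so there are exactly two classes). -/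
theorem result {F : Type*} [Field F] (m : ℕ) (hm : 1 ≤ m) : (∀ U W X : Submodule F (Fin m ⊕ Fin m → F), (Module.finrank F U = m ∧ ∀ w ∈ U, Cfsg.quadFormPlus m F w = 0) → (Module.finrank F W = m ∧ ∀ w ∈ W, Cfsg.quadFormPlus m F w = 0) → (Module.finrank F X = m ∧ ∀ w ∈ X, Cfsg.quadFormPlus m F w = 0) → Even ((m - Module.finrank F ↥(U ⊓ W)) + (m - Module.finrank F ↥(W ⊓ X)) + (m - Module.finrank F ↥(U ⊓ X)))) ∧ ∃ U W : Submodule F (Fin m ⊕ Fin m → F), (Module.finrank F U = m ∧ ∀ w ∈ U, Cfsg.quadFormPlus m F w = 0) ∧ (Module.finrank F W = m ∧ ∀ w ∈ W, Cfsg.quadFormPlus m F w = 0) ∧ Module.finrank F ↥(U ⊓ W) + 1 = m := by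
  have hf := plusForm_nondeg F m
  refine ⟨fun U W X hU hW hX => ?_, ?_⟩
  · have h1 := (Submodule.finrank_mono (inf_le_right : W ⊓ X ≤ X)).trans hX.1.le
    have h2 := (Submodule.finrank_mono (inf_le_right : U ⊓ X ≤ X)).trans hX.1.le
    have h3 := (Submodule.finrank_mono (inf_le_right : U ⊓ W ≤ W)).trans hW.1.le
    have := hf.even_finrank_inf (finrank_plus m) (orth_ts_iff.2 hU.2) (orth_ts_iff.2 hW.2) hU.1 hW.1
      _ X (orth_ts_iff.2 hX.2) hX.1 (Nat.add_sub_cancel' h1)
    rw [Nat.even_iff] at this ⊢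
    omega
  · obtain ⟨⟨U, hU, dU⟩, -⟩ := plusForm_isIndex F m
    have hv := ((plusForm_hypSys F m).isHyp ⟨0, hm⟩).Q_add_smul 1
    exact ⟨U, (plusForm F m).act ((plusForm F m).refl _) U, ⟨dU, orth_ts_iff.1 hU⟩,
      ⟨by rw [finrank_act, dU], orth_ts_iff.1 (hU.act _)⟩,
      hf.finrank_inf_act_refl (finrank_plus m) hU dU (hv.trans_ne one_ne_zero)⟩

end Cfsg.Agent.S0831
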