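import Cfsg.Statements.S0832
import Cfsg.Agent.Lib.Lin.CFormMisc

set_option autoImplicit false
open Cfsg

namespace Cfsg.Agent.S0832

open CA.CForm CA.CForm.Form in
/-- For the form Σ x_i y_i on F^(2m) over a finite field, m ≥ 1: an (m−1)-dimensional subspace on which the form vanishes is contained in exactly two m-dimensional subspaces on which it vanishes. -/
theorem result {F : Type*} [Field F] [Finite F] (m : ℕ) (hm : 1 ≤ m) (U : Submodule F (Fin m ⊕ Fin m → F)) (hU : Module.finrank F U + 1 = m ∧ ∀ u ∈ U, Cfsg.quadFormPlus m F u = 0) : Nat.card {W : Submodule F (Fin m ⊕ Fin m → F) // Module.finrank F W = m ∧ (∀ w ∈ W, Cfsg.quadFormPlus m F w = 0) ∧ U ≤ W} = 2 := by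
  have hf := plusForm_nondeg F m
  have hi := plusForm_isIndex F m
  have hU' : (plusForm F m).TS U := orth_ts_iff.2 hU.2
  obtain ⟨W, hUW, hW, hmax⟩ := (plusForm F m).exists_maximal_ts hU'
  have dW : Module.finrank F W = m := by
    obtain ⟨X, hX, dX⟩ := hi.1
    exact le_antisymm (hi.2 W hW) (dX.symm.le.trans (hf.finrank_le_of_maximal hW hmax hX))
  obtain ⟨v, hv, hv0⟩ : ∃ v ∈ (plusForm F m).perp U, (plusForm F m).Q v ≠ 0 := by
    by_contra! h
    have h1 := hi.2 _ (orth_ts_iff.2 h)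
    have h2 := hf.finrank_perp U
    rw [finrank_plus] at h2
    omega
  have h1 := hf.finrank_inf_act_refl (finrank_plus m) hW dW hv0
  set W' := (plusForm F m).act ((plusForm F m).refl v) W with hW'
  have hUW' : U ≤ W' := fun u hu => ⟨u, hUW hu, refl_mem_fix hv u hu⟩
  have dW' : Module.finrank F W' = m := by rw [finrank_act, dW]
  have hne : W ≠ W' := fun h => by rw [← h, inf_idem] at h1; omega
  have key : ∀ X Y : Submodule F (Fin m ⊕ Fin m → F), U ≤ X → U ≤ Y → Module.finrank F X = m →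
      Module.finrank F Y = m → X ≠ Y → Module.finrank F (X ⊓ Y : Submodule F _) + 1 = m := by
    intro X Y h1 h2 h3 h4 h5
    have h6 := Submodule.finrank_mono (le_inf h1 h2)
    have h7 : X ⊓ Y < X := inf_lt_left.2 fun h => h5 (Submodule.eq_of_le_of_finrank_eq h (by omega))
    have := Submodule.finrank_lt_finrank_of_lt h7
    omega
  rw [Nat.card_eq_two_iff]
  refine ⟨⟨W, dW, hW.Q_eq, hUW⟩, ⟨W', dW', (hW.act _).Q_eq, hUW'⟩, fun h => hne (congrArg Subtype.val h),
    Set.eq_univ_of_forall fun X => ?_⟩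
  by_contra h
  simp only [Set.mem_insert_iff, Set.mem_singleton_iff, Subtype.ext_iff, not_or] at h
  have h2 := key W X hUW X.2.2.2 dW X.2.1 (Ne.symm h.1)
  have h3 := key W' X hUW' X.2.2.2 dW' X.2.1 (Ne.symm h.2)
  have := hf.even_finrank_inf (finrank_plus m) hW (hW.act _) dW dW' 1 X (orth_ts_iff.2 X.2.2.1) X.2.1 h3
  rw [Nat.even_iff, ← hW'] at this
  omega

end Cfsg.Agent.S0832
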