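import Cfsg.Statements.S0833
import Cfsg.Agent.Lib.Lin.CFormMisc2

set_option autoImplicit false
open Cfsg

namespace Cfsg.Agent.S0833

open CA.CForm CA.CForm.Form in
/-- If B₁, B₂ are non-degenerate alternating forms on U (dim 2k) and W (dim 2l), then B₁ ⊗ B₂ on U ⊗ W is symmetric, non-degenerate, and vanishes identically on some subspace of dimension 2kl (half of dim U ⊗ W). -/
theorem result {F U W : Type*} [Field F] [Fintype F] [AddCommGroup U] [Module F U] [FiniteDimensional F U] [AddCommGroup W] [Module F W] [FiniteDimensional F W] (B₁ : LinearMap.BilinForm F U) (B₂ : LinearMap.BilinForm F W) (h₁ : B₁.Nondegenerate) (h₂ : B₂.Nondegenerate) (hA₁ : B₁.IsAlt) (hA₂ : B₂.IsAlt) (k l : ℕ) (hU : Module.finrank F U = 2 * k) (hW : Module.finrank F W = 2 * l) : (B₁.tmul B₂).IsSymm ∧ (B₁.tmul B₂).Nondegenerate ∧ (∃ X : Submodule F (TensorProduct F U W), Module.finrank F X = 2 * k * l ∧ ∀ x ∈ X, ∀ y ∈ X, (B₁.tmul B₂) x y = 0) := by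
  refine ⟨⟨fun x y => ?_⟩, nondegenerate_tmul h₁ h₂, ?_⟩
  · induction x with
    | zero => simp
    | add x x' hx hx' => simp only [map_add, LinearMap.add_apply, hx, hx']
    | tmul u w =>
      induction y with
      | zero => simp
      | add y y' hy hy' => simp only [map_add, LinearMap.add_apply, hy, hy']
      | tmul u' w' =>
        simp only [LinearMap.BilinForm.tmul, LinearMap.BilinForm.tensorDistrib_tmul, smul_eq_mul, RingHom.id_apply]
        rw [← hA₁.neg_eq u, ← hA₂.neg_eq w]; ring
  · obtain ⟨L, hL, dL⟩ := (ofAlt_nondeg hA₁ h₁).symp_isIndex.exists_ts (j := k) (by omega)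
    have hi : Function.Injective (L.subtype.rTensor W) :=
      Module.Flat.rTensor_preserves_injective_linearMap _ L.injective_subtype
    refine ⟨LinearMap.range (L.subtype.rTensor W), ?_, ?_⟩
    · rw [LinearMap.finrank_range_of_inj hi, Module.finrank_tensorProduct, dL, hW]; ring
    · rintro _ ⟨x, rfl⟩ _ ⟨y, rfl⟩
      induction x with
      | zero => simp
      | add x x' hx hx' => simp only [map_add, LinearMap.add_apply, hx, hx', add_zero]
      | tmul u w =>
        induction y with
        | zero => simp
        | add y y' hy hy' => simp only [map_add, hy, hy', add_zero]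
        | tmul u' w' =>
          have : B₁ u u' = 0 := hL.B_eq _ u.2 _ u'.2
          simp [LinearMap.BilinForm.tmul, this]

end Cfsg.Agent.S0833
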