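import Cfsg.Statements.S0835
import Cfsg.Agent.Lib.Lin.CFormMisc2

set_option autoImplicit false
open Cfsg

namespace Cfsg.Agent.S0835

open CA.CForm CA.CForm.Form in
/-- Over a finite field with 2 ≠ 0: if B₁ on U (dim 2k, k ≥ 1) is non-degenerate symmetric of minus type (no totally isotropic k-subspace) and B₂ on W (dim 2l + 1) is non-degenerate symmetric, then B₁ ⊗ B₂ (dimension 2k(2l+1)) admits no totally isotropic subspace of dimension k(2l+1) (minus type). -/
theorem result {F U W : Type*} [Field F] [Fintype F] [AddCommGroup U] [Module F U] [FiniteDimensional F U] [AddCommGroup W] [Module F W] [FiniteDimensional F W] (h2 : (2 : F) ≠ 0) (B₁ : LinearMap.BilinForm F U) (B₂ : LinearMap.BilinForm F W) (h₁ : B₁.Nondegenerate) (h₂ : B₂.Nondegenerate) (hS₁ : B₁.IsSymm) (hS₂ : B₂.IsSymm) (k l : ℕ) (hk : 1 ≤ k) (hU : Module.finrank F U = 2 * k) (hW : Module.finrank F W = 2 * l + 1) (hm₁ : ¬ (∃ X : Submodule F (U), Module.finrank F X = k ∧ ∀ x ∈ X, ∀ y ∈ X,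 (B₁) x y = 0)) : ¬ (∃ X : Submodule F (TensorProduct F U W), Module.finrank F X = k * (2 * l + 1) ∧ ∀ x ∈ X, ∀ y ∈ X, (B₁.tmul B₂) x y = 0) := by
  rw [exists_ts_iff_isSquare h2 h₁ hS₁ hU (Module.finBasis F U)] at hm₁
  rw [exists_ts_iff_isSquare h2 (nondegenerate_tmul h₁ h₂) (LinearMap.BilinForm.isSymm_iff.2
    ((LinearMap.BilinForm.isSymm_iff.1 hS₁).tmul (LinearMap.BilinForm.isSymm_iff.1 hS₂)))
    (by rw [Module.finrank_tensorProduct, hU, hW]; ring)
    ((Module.finBasis F U).tensorProduct (Module.finBasis F W)), det_tmul]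
  have h3 := (LinearMap.BilinForm.nondegenerate_iff_det_ne_zero (Module.finBasis F U)).1 h₁
  have h4 := (LinearMap.BilinForm.nondegenerate_iff_det_ne_zero (Module.finBasis F W)).1 h₂
  simp only [Fintype.card_fin, hU, hW]
  generalize (LinearMap.BilinForm.toMatrix (Module.finBasis F U) B₁).det = a at *
  generalize (LinearMap.BilinForm.toMatrix (Module.finBasis F W) B₂).det = b at *
  rwa [show (-1) ^ (k * (2 * l + 1)) * (a ^ (2 * l + 1) * b ^ (2 * k)) =
    ((-1) ^ (k * l) * a ^ l * b ^ k) ^ 2 * ((-1) ^ k * a) by ring,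
    isSquare_mul_left_iff ⟨_, sq _⟩ (by simp [h3, h4])]

end Cfsg.Agent.S0835
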