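import Cfsg.Statements.S0836
import Cfsg.Agent.Lib.Lin.CFormMisc2

set_option autoImplicit false
open Cfsg

namespace Cfsg.Agent.S0836

open Matrix in
/-- For i ≠ j and any scalar c, the elementary transvection 1 + c E_ij is a commutator ⁅g, h⁆ of two elements of SL_n(F) provided n ≥ 3, or n = 2 and F contains x ≠ 0 with x² ≠ 1. -/
theorem result {F : Type*} [Field F] (n : ℕ) (hn : 3 ≤ n ∨ (n = 2 ∧ ∃ x : F, x ≠ 0 ∧ x ^ 2 ≠ 1)) (i j : Fin n) (hij : i ≠ j) (c : F) (t : Matrix.SpecialLinearGroup (Fin n) F) (ht : (t : Matrix (Fin n) (Fin n) F) = Matrix.transvection i j c) : t ∈ commutatorSet (Matrix.SpecialLinearGroup (Fin n) F) := by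
  have ht' : t = SpecialLinearGroup.transvection hij c := Subtype.ext ht
  subst ht'
  rcases hn with hn | ⟨rfl, x, hx0, hx⟩
  · obtain ⟨k, hk⟩ : ∃ k : Fin n, k ∉ ({i, j} : Finset (Fin n)) := by
      refine Finset.exists_mem_notMem_of_card_lt_card (s := {i, j}) (t := Finset.univ) ?_ |>.imp fun k h => h.2
      have := Finset.card_le_two (a := i) (b := j)
      simp; omega
    simp only [Finset.mem_insert, Finset.mem_singleton, not_or] at hk
    refine ⟨SpecialLinearGroup.transvection (Ne.symm hk.1) c, SpecialLinearGroup.transvection hk.2 1, ?_⟩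
    rw [commutatorElement_def, SpecialLinearGroup.transvection_inv, SpecialLinearGroup.transvection_inv]
    ext1
    simp [SpecialLinearGroup.transvection_coe, mul_add, add_mul, single_mul_single_of_ne, hk.1, hk.2,
      Ne.symm hk.1, Ne.symm hk.2, hij.symm, ← single_neg]
    abel
  · have h1 := sub_ne_zero.2 hx
    have hd : (diagonal fun k => if k = i then x else x⁻¹).det = 1 := by fin_cases i <;> simp [hx0]
    obtain ⟨d, hd'⟩ : ∃ d : SpecialLinearGroup (Fin 2) F, d.1 = diagonal fun k => if k = i then x else x⁻¹ :=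
      ⟨⟨_, hd⟩, rfl⟩
    refine ⟨d, SpecialLinearGroup.transvection hij (c / (x ^ 2 - 1)), ?_⟩
    rw [commutatorElement_def, mul_inv_eq_iff_eq_mul, mul_inv_eq_iff_eq_mul,
      ← SpecialLinearGroup.transvection_add]
    ext a b
    simp only [Matrix.SpecialLinearGroup.coe_mul, hd']
    rw [diagonal_mul, mul_diagonal]
    fin_cases i <;> fin_cases j <;> fin_cases a <;> fin_cases b <;>
      simp [SpecialLinearGroup.transvection_coe] at hij ⊢ <;> field_simp <;> ring

end Cfsg.Agent.S0836
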