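import Cfsg.Statements.S0837
import Cfsg.Agent.Lib.Lin.CFormMisc

set_option autoImplicit false
open Cfsg

namespace Cfsg.Agent.S0837

open CA.CForm CA.CForm.Form in
/-- If W ≤ F^n (|F| = q²) is a k-dimensional subspace on which the Hermitian form Σ x_i y_i^q is non-degenerate, then the stabiliser of W in GU_n(q) is isomorphic to GU_k(q) × GU_(n−k)(q). -/
theorem result {F : Type*} [Field F] [Fintype F] {q : ℕ} (hF : Fintype.card F = q ^ 2) (n k : ℕ) (hk : k ≤ n) (W : Submodule F (Fin n → F)) (hWk : Module.finrank F W = k) (hW : ∀ u ∈ W, (∀ v ∈ W, Cfsg.hermForm n F q u v = 0) → u = 0) : Nonempty (↥((Cfsg.stabilizing (Cfsg.glToMat (Fin n) F) (W : Set (Fin n → F))).subgroupOf (Cfsg.GU n F q)) ≃* ↥(Cfsg.GU k F q) × ↥(Cfsg.GU (n - k) F q)) := by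
  have hf := hermStd_nondeg hF n
  have hW' : Disjoint W ((hermStd hF n).perp W) := Submodule.disjoint_def.2 fun u hu h =>
    hW u hu fun v hv => (hermStd_B hF n v u).symm.trans (h v hv)
  have h1 := hf.finrank_perp W
  rw [hWk, Module.finrank_fin_fun] at h1
  obtain ⟨e₁⟩ := ((((hermStd hF n).nondeg_restrict_iff W).2 hW').herm_equivalent (conj_ne_id hF)
    (hermStd_nondeg hF k) (by rw [hWk, Module.finrank_fin_fun])).nonempty_mulEquiv
  obtain ⟨e₂⟩ := ((hf.restrict_perp hW').herm_equivalent (conj_ne_id hF) (hermStd_nondeg hF (n - k))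
    (by rw [Module.finrank_fin_fun]; omega)).nonempty_mulEquiv
  exact ⟨(guStabEquiv hF n W).trans (((hermStd hF n).stabEquiv (hf.isCompl_perp hW')).symm.trans
    ((e₁.trans (guEquiv hF k).symm).prodCongr (e₂.trans (guEquiv hF (n - k)).symm)))⟩

end Cfsg.Agent.S0837
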