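import Cfsg.Statements.S0838
import Cfsg.Agent.Lib.Lin.CFormOSub

set_option autoImplicit false
open Cfsg

namespace Cfsg.Agent.S0838

open CA.CForm CA.CForm.Form in
/-- Over a finite field with 2 ≠ 0 and n odd: two quadratic forms Q₁, Q₂ on F^n with non-degenerate polar forms are similar — there are an invertible linear map g and a scalar c ≠ 0 with Q₂ (g v) = c · Q₁ v for all v. -/
theorem result {F : Type*} [Field F] [Fintype F] (h2 : (2 : F) ≠ 0) {n : ℕ} (hn : Odd n) (Q₁ Q₂ : QuadraticForm F (Fin n → F)) (h₁ : (QuadraticMap.polarBilin Q₁).Nondegenerate) (h₂ : (QuadraticMap.polarBilin Q₂).Nondegenerate) : ∃ (g : (Fin n → F) ≃ₗ[F] (Fin n → F)) (c : F), c ≠ 0 ∧ ∀ v, Q₂ (g v) = c * Q₁ v := by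
  obtain ⟨m, rfl⟩ := hn
  obtain ⟨c₁, hc₁, e₁, he₁⟩ := (ofQuad_nondeg h₁).equivalent_smul_odd (m := m) (by simp)
  obtain ⟨c₂, hc₂, e₂, he₂⟩ := (ofQuad_nondeg h₂).equivalent_smul_odd (m := m) (by simp)
  refine ⟨e₁.trans e₂.symm, c₂ / c₁, div_ne_zero hc₂ hc₁, fun v => ?_⟩
  have h3 : c₁ * (oddForm F m).Q (e₁ v) = Q₁ v := he₁.Q_eq v
  have h4 : Q₂ (e₂.symm (e₁ v)) = c₂ * (oddForm F m).Q (e₁ v) := he₂.symm.Q_eq _
  rw [LinearEquiv.trans_apply, h4, ← h3]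
  field_simp

end Cfsg.Agent.S0838
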