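import Cfsg.Statements.S0841
import Cfsg.Agent.Lib.Grp.PGClassTwo

set_option autoImplicit false
open Cfsg

namespace Cfsg.Agent.S0841

open scoped commutatorElement

/-- If the commutator subgroup of G lies in the centre, then for all x, y in G and every natural number n one has (x * y) ^ n = x ^ n * y ^ n * c ^ (n * (n - 1) / 2) with c = y⁻¹ * x⁻¹ * y * x. -/
theorem result {G : Type*} [Group G] (hG : commutator G ≤ Subgroup.center G) (x y : G) (n : ℕ) : (x * y) ^ n = x ^ n * y ^ n * (y⁻¹ * x⁻¹ * y * x) ^ (n * (n - 1) / 2) := by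
  have hz : ⁅y, x⁆ ∈ Subgroup.center G :=
    hG (Subgroup.commutator_mem_commutator (Subgroup.mem_top y) (Subgroup.mem_top x))
  have hc : ∀ g : G, Commute g ⁅y, x⁆ := fun g => Subgroup.mem_center_iff.1 hz g
  have e : y⁻¹ * x⁻¹ * y * x = ⁅y, x⁆ := by
    have h1 := (hc (x * y)).eq
    rw [commutatorElement_def] at h1 ⊢
    calc y⁻¹ * x⁻¹ * y * x = (x * y)⁻¹ * ((y * x * y⁻¹ * x⁻¹) * (x * y)) := by group
      _ = (x * y)⁻¹ * ((x * y) * (y * x * y⁻¹ * x⁻¹)) := by rw [h1]
      _ = _ := by group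
  rw [e, ← Nat.choose_two_right]
  exact CA.PGClassTwo.mul_pow_eq (hc x) (hc y) n

end Cfsg.Agent.S0841
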