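import Cfsg.Statements.S0842
import Cfsg.Agent.Lib.Grp.MC3

set_option autoImplicit false
open Cfsg

namespace Cfsg.Agent.S0842

open Subgroup CA.SylIn CA.PRes CA.Two CA.MC2 CA.MC3 CA.PGBasic

theorem aux {G : Type*} [Group G] [Finite G] (S : Sylow 2 G) (n : ℕ)
    (e : (S : Subgroup G) ≃* QuaternionGroup (2 ^ (n + 2))) :
    ∃ a y : G, MC (n + 2) 0 1 a y ∧ zpowers a ⊔ zpowers y = S ∧
      ⁅(S : Subgroup G), (S : Subgroup G)⁆ = zpowers (a ^ (2 : ℤ)) ∧
      (S : Subgroup G) ≤ normalizer (zpowers (a ^ (2 : ℤ)) : Set G) ∧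
      (S : Subgroup G) ⊓ centralizer (zpowers (a ^ (2 : ℤ)) : Set G) = zpowers a ∧
      IsSylowIn 2 (zpowers a) (centralizer (zpowers (a ^ (2 : ℤ)) : Set G)) := by
  obtain ⟨a, y, h, e⟩ := exists_of_quaternion e
  have h1 : (S : Subgroup G) ≤ normalizer (zpowers (a ^ (2 : ℤ)) : Set G) :=
    e ▸ h.le_normalizer_pow 2
  have h2 : (S : Subgroup G) ⊓ centralizer (zpowers (a ^ (2 : ℤ)) : Set G) = zpowers a := by
    refine le_antisymm (fun g hg => h.mem_of_commute (zpow_mem_zpowers a 2) (fun h4 => ?_)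
      (e.ge hg.1) (mem_centralizer_iff.1 hg.2 _ (mem_zpowers _)).symm)
      (le_inf (e ▸ le_sup_left) (CA.Coprime2.le_centralizer_of_comm inferInstance
        (zpowers_pow_le a 2)))
    rw [← zpow_natCast, ← zpow_mul, h.zpow_one] at h4
    have := Int.le_of_dvd (by norm_num) ((pow_dvd_pow 2 (by omega : 3 ≤ n + 2 + 1)).trans h4)
    omega
  refine ⟨a, y, h, e, by rw [← e, h.commutator_eq], h1, h2, ?_⟩
  rw [← h2]
  exact (isSylowIn_of_le S h1).inf_of_normal (centralizer_le_normalizer _)
    (normalizer_le_normalizer_centralizer _)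

/-- Suppose a Sylow 2-subgroup S of the finite group G is generalized quaternion of order at least 16, and let D be the commutator subgroup of S, C its centralizer and N its normalizer in G. Then there is a subgroup K of odd order, contained in C and normalized by N, with K ⊔ S = N and K ⊔ (S ⊓ C) = C, and C has index 2 in N. -/
theorem result {G : Type*} [Group G] [Finite G] (S : Sylow 2 G) (n : ℕ) (e : (S : Subgroup G) ≃* QuaternionGroup (2 ^ (n + 2))) (D : Subgroup G) (hD : D = ⁅(S : Subgroup G), (S : Subgroup G)⁆) : ∃ K : Subgroup G, Odd (Nat.card K) ∧ K ≤ Subgroup.centralizer (D : Set G) ∧ Subgroup.normalizer (D : Set G) ≤ Subgroup.normalizer (K : Set G) ∧ K ⊔ (S : Subgroup G) = Subgroup.normalizer (D : Set G) ∧ K ⊔ ((S : Subgroup G) ⊓ Subgroup.centralizer (D : Set G)) = Subgroup.centralizer (D : Set G) ∧ ((Subgroup.centralizer (D : Set G)).subgroupOf (Subgroup.normalizer (D : Set G))).index = 2 := by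
  obtain ⟨a, y, h, e, h0, h1, h2, h3⟩ := aux S n e
  rw [h0] at hD
  subst hD
  set C := centralizer (zpowers (a ^ (2 : ℤ)) : Set G) with hC
  set N := normalizer (zpowers (a ^ (2 : ℤ)) : Set G) with hN
  have hCN : C ≤ N := centralizer_le_normalizer _
  have hodd : ∀ g ∈ N, (orderOf g).Coprime 2 → g ∈ (pResidual 2 C).map C.subtype := fun g hg ho =>
    mem_map_pResidual_of_coprime (mem_centralizer_of_isCyclic inferInstance
      (S.isPGroup'.to_le (h0 ▸ CA.Coprime.commutator_le_left le_normalizer)) hg ho) ho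
  have hK : (pResidual 2 C).map C.subtype ⊔ (S : Subgroup G) = N :=
    le_antisymm (sup_le ((map_subtype_le _).trans hCN) h1) (CA.Alperin.le_of_coprime_of_isSylowIn
      (isSylowIn_of_le S h1) le_sup_right fun g hg ho => mem_sup_left (hodd g hg ho))
  refine ⟨(pResidual 2 C).map C.subtype, ?_, map_subtype_le _,
    (normalizer_le_normalizer_centralizer _).trans (normalizer_le_normalizer_map_pResidual C), hK,
    ?_, ?_⟩
  · rw [CA.Coprime.card_map_subtype, ← Nat.not_even_iff_odd, even_iff_two_dvd]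
    exact hasNPC_iff_not_dvd.1 (hasNPC_of_isCyclic_in h3 inferInstance)
  · rw [h2]
    exact le_antisymm (sup_le (map_subtype_le _) h3.le) (CA.Alperin.le_of_coprime_of_isSylowIn
      h3 le_sup_right fun g hg ho => mem_sup_left (hodd g (hCN hg) ho))
  · have hCS : N = C ⊔ (S : Subgroup G) :=
      le_antisymm (hK ▸ sup_le_sup_right (map_subtype_le _) _) (sup_le hCN h1)
    have hy : y ∉ C := fun hy => h.notMem (h2.le ⟨e.le (mem_sup_right (mem_zpowers y)), hy⟩)
    have := relIndex_sup_zpowers Nat.prime_two (normalizer_le_normalizer_centralizer _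
      (h1 (e.le (mem_sup_right (mem_zpowers y))))) hy (h3.le h.sq_mem)
    change C.relIndex N = 2
    rw [hCS, ← e, ← sup_assoc, sup_eq_left.2 h3.le, this]

end Cfsg.Agent.S0842
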