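import Cfsg.Statements.S0843
import Cfsg.Agent.S0842

set_option autoImplicit false
open Cfsg

namespace Cfsg.Agent.S0843

open Subgroup CA.SylIn CA.PRes CA.Two CA.MC2 CA.MC3 CA.PGBasic

/-- Suppose a Sylow 2-subgroup S of the finite group G is generalized quaternion of order at least 16; let D be the commutator subgroup of S and X the set of elements of the centralizer of D whose order is divisible by the order of D. Then D is contained in the cyclic subgroup generated by any element of X; an element of G conjugating some element of X into the centralizer of D normalizes D; and the normalizer of D maps X to itself under conjugation. -/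
theorem result {G : Type*} [Group G] [Finite G] (S : Sylow 2 G) (n : ℕ) (e : (S : Subgroup G) ≃* QuaternionGroup (2 ^ (n + 2))) (D : Subgroup G) (hD : D = ⁅(S : Subgroup G), (S : Subgroup G)⁆) : (∀ y : G, y ∈ Subgroup.centralizer (D : Set G) → Nat.card D ∣ orderOf y → D ≤ Subgroup.zpowers y) ∧ (∀ g y : G, y ∈ Subgroup.centralizer (D : Set G) → Nat.card D ∣ orderOf y → g * y * g⁻¹ ∈ Subgroup.centralizer (D : Set G) → g ∈ Subgroup.normalizer (D : Set G)) ∧ (∀ g y : G, g ∈ Subgroup.normalizer (D : Set G) → y ∈ Subgroup.centralizer (D : Set G) → Nat.card D ∣ orderOf y → g * y * g⁻¹ ∈ Subgroup.centralizer (D : Set G) ∧ Nat.card D ∣ orderOf (g * y * g⁻¹)) := by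
  obtain ⟨a, y, h, e, h0, h1, h2, h3⟩ := Cfsg.Agent.S0842.aux S n e
  rw [h0] at hD
  have hc : Nat.card D = 2 ^ (n + 2) := by
    rw [hD, Nat.card_zpowers]
    simpa using h.ord_pow (k := 1) (j := n + 2) (by omega)
  rw [← hD] at h3
  have key : ∀ x : G, x ∈ centralizer (D : Set G) → Nat.card D ∣ orderOf x → D ≤ zpowers x := by
    intro x hx hd
    have ho := orderOf_pow_orderOf_div (orderOf_pos x).ne' hd
    obtain ⟨c, hc', hle⟩ := h3.exists_conj_le (Q := zpowers (x ^ (orderOf x / Nat.card D)))
      (IsPGroup.of_card (by rw [Nat.card_zpowers, ho, hc])) (zpowers_le.2 (pow_mem hx _))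
    have := CA.NPC2.eq_of_card_eq_of_isCyclic inferInstance hle (hD ▸ zpowers_pow_le a 2 : D ≤ _)
      (by rw [card_conj, Nat.card_zpowers, ho])
    rw [conj_eq_iff_eq_inv_conj,
      conj_eq_of_mem_normalizer (inv_mem (centralizer_le_normalizer _ hc'))] at this
    exact this ▸ zpowers_le.2 (pow_mem (mem_zpowers x) _)
  refine ⟨key, fun g x hx hd hgx => mem_normalizer_iff_conj_eq.2 ?_, fun g x hg hx hd =>
    ⟨conj_mem_of_mem_normalizer (normalizer_le_normalizer_centralizer _ hg) hx,
      by rwa [CA.H13Inv.orderOf_conj]⟩⟩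
  exact CA.NPC2.eq_of_card_eq_of_isCyclic inferInstance
    (conj_zpowers g x ▸ conj_mono g (key x hx hd))
    (key _ hgx (by rwa [CA.H13Inv.orderOf_conj])) (card_conj _ _)

end Cfsg.Agent.S0843
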