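import Cfsg.Statements.S0844
import Cfsg.Agent.Lib.Block.H13Zstar

set_option autoImplicit false
open Cfsg

namespace Cfsg.Agent.S0844

open Subgroup CChar.CharFun CChar.CharOrth CChar.CharGen CChar.CharKer CA CA.Ind CA.H12PPart
open CA.PRes CA.SylIn CA.H13ZRed CA.H13Lift CA.H13Inv CA.H13QBig CA.H13BS
open scoped ComplexConjugate

/-- the conclusion -/
def Concl (G : Type*) [Group G] : Prop :=
  ∃ χ₁ χ₂ : G → ℂ, Cfsg.IsIrrCharacter G χ₁ ∧ Cfsg.IsIrrCharacter G χ₂ ∧ χ₁ ≠ (fun _ => 1) ∧ χ₂ ≠ (fun _ => 1) ∧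
    χ₁ 1 = χ₂ 1 + 1 ∧ ∀ g : G, ¬ 4 ∣ orderOf g → χ₁ g - χ₂ g = 1

section
variable {G : Type*} [Group G] [Finite G]

theorem big_case' (hU : Uniq G) {a b : G} {m : ℕ} (ha : orderOf a = 8 * m)
    (hb : b * a * b⁻¹ = a⁻¹)
    (hS : IsSylowIn 2 (zpowers a) (centralizer ({a ^ (2 * m)} : Set G))) :
    Concl G := by
  classical
  have := Fintype.ofFinite G
  have hm : 0 < m := by
    have := orderOf_pos a
    omega
  set y := a ^ (2 * m) with hy
  set u := a ^ (4 * m) with hu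
  have hy4 : orderOf y = 4 := by
    rw [hy, orderOf_pow, ha, Nat.gcd_eq_right ⟨4, by ring⟩,
      show 8 * m = 4 * (2 * m) by ring, Nat.mul_div_cancel _ (by omega)]
  have hu2 : orderOf u = 2 := by
    rw [hu, orderOf_pow, ha, Nat.gcd_eq_right ⟨2, by ring⟩,
      show 8 * m = 2 * (4 * m) by ring, Nat.mul_div_cancel _ (by omega)]
  have hby : b * y * b⁻¹ = y⁻¹ := by rw [hy, ← conj_pow, hb, inv_pow]
  have h4 := four_of_sylow hy4 (npow_mem_zpowers a _) hS
  set C := centralizer ({y} : Set G) with hC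
  have := Fintype.ofFinite C
  have haC : a ∈ C := hS.le (mem_zpowers a)
  have hS' : IsSylowIn 2 (zpowers (⟨a, haC⟩ : C)) ⊤ := by
    have := isSylowIn_top hS.toSylow
    rw [hS.coe_toSylow] at this
    convert this using 1
    apply map_injective C.subtype_injective
    rw [MonoidHom.map_zpowers, subgroupOf_map_subtype, inf_eq_left.2 hS.le]
    rfl
  have hN : HasNormalPComplement 2 C := hasNPC_two_of_isCyclic hS' inferInstance
  let ζ : ℂˣ := Units.mk0 Complex.I Complex.I_ne_zero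
  have hζ : ζ ^ 4 = 1 := Units.ext (by simp [ζ])
  obtain ⟨lam, hlam, hlam'⟩ := exists_linear hN hS' (ζ := ζ)
    ((orderOf_dvd_of_pow_eq_one hζ).trans (by rw [orderOf_mk, ha]; exact ⟨2 * m, by ring⟩))
  have hbN : ∀ c : G, c ∈ C → b * c * b⁻¹ ∈ C := by
    intro c hc
    rw [hC, mem_centralizer_singleton_iff] at hc ⊢
    have h5 : y = b * y⁻¹ * b⁻¹ := by rw [← conj_inv, hby, inv_inv]
    have h6 : c * y⁻¹ = y⁻¹ * c := (Commute.inv_right hc).eq
    calc b * c * b⁻¹ * y = b * c * b⁻¹ * (b * y⁻¹ * b⁻¹) := by rw [← h5]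
      _ = b * (c * y⁻¹) * b⁻¹ := by group
      _ = (b * y⁻¹ * b⁻¹) * (b * c * b⁻¹) := by rw [h6]; group
      _ = y * (b * c * b⁻¹) := by rw [← h5]
  let σ : C →* C := ((MulAut.conj b).toMonoidHom.comp C.subtype).codRestrict C fun c => hbN c c.2
  have hσ : lam.comp σ = lam⁻¹ := by
    refine hom_ext_of_sylow hS' ?_ fun k hk => ?_
    · have : σ ⟨a, haC⟩ = (⟨a, haC⟩ : C)⁻¹ := Subtype.ext hb
      rw [MonoidHom.comp_apply, this, map_inv]; rfl
    · rw [MonoidHom.comp_apply, hlam' _ fun h => hk (h.trans (orderOf_map_dvd σ k)),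
        MonoidHom.inv_apply, hlam' k hk, inv_one]
  have huC : u ∈ C := C.pow_mem haC _
  have hlu : lam ⟨u, huC⟩ = 1 := by
    have : (⟨u, huC⟩ : C) = (⟨a, haC⟩ : C) ^ (4 * m) := rfl
    rw [this, map_pow, hlam, pow_mul, hζ, one_pow]
  have hone : ∀ c : C, ¬ 4 ∣ orderOf (c : G) → lam c = 1 := by
    intro c hc
    have h5 : Commute u c := by
      have : u = y ^ 2 := by rw [hu, hy, ← pow_mul]; congr 1; ring
      rw [this]
      exact Commute.pow_left (mem_centralizer_singleton_iff.1 c.2).symm 2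
    rw [← pPart_mul_pReg 2 c, map_mul, hlam' _ (not_dvd_orderOf_pReg Nat.prime_two c), mul_one]
    rcases pPart_of_not_four hU hu2 h5 hc with h | h
    · rw [← coe_pPart Nat.prime_two] at h
      rw [show pPart 2 c = 1 from Subtype.ext h, map_one]
    · rw [← coe_pPart Nat.prime_two] at h
      rw [show pPart 2 c = ⟨u, huC⟩ from Subtype.ext h, hlu]
  let L : C → ℂ := fun c => (lam c : ℂ)
  let L' : C → ℂ := fun c => (lam⁻¹ c : ℂ)
  have hL : IsIrrCharacter C L := irr_of_unitsHom lam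
  have hL' : IsIrrCharacter C L' := irr_of_unitsHom lam⁻¹
  have hLa : L ⟨a, haC⟩ = Complex.I := by simp [L, hlam, ζ]
  have hLa' : L' ⟨a, haC⟩ = -Complex.I := by simp [L', hlam, ζ]
  have n1 : L ≠ fun _ => 1 := fun h => by
    have := congrArg Complex.im (congrFun h ⟨a, haC⟩)
    simp [hLa] at this
  have n2 : (fun _ => 1) ≠ L' := fun h => by
    have := congrArg Complex.im (congrFun h ⟨a, haC⟩)
    simp [hLa'] at this
  have n3 : L ≠ L' := fun h => by
    have := congrArg Complex.im (congrFun h ⟨a, haC⟩)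
    rw [hLa, hLa'] at this
    norm_num at this
  set φ : C → ℂ := (fun _ => 1) - L with hφ
  have hφg : IsGeneralizedCharacter C φ := gen_sub gen_one (gen_of_irr hL)
  have hzero : ∀ g : G, ¬ 4 ∣ orderOf g → indFun C φ g = 0 := fun g hg =>
    indFun_eq_zero fun x hx => by
      simp only [hφ, Pi.sub_apply, L]
      rw [hone ⟨_, hx⟩ (by rwa [orderOf_conj])]; simp
  have hres : (fun c : C => indFun C φ c) = φ + ((fun _ => 1) - L') := by
    funext c
    by_cases hc : 4 ∣ orderOf (c : G)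
    · rw [indFun_centralizer hy4 hby hC h4 (gen_classFun hφg) c (σ c) hc rfl]
      have : lam (σ c) = lam⁻¹ c := by rw [← hσ]; rfl
      simp only [hφ, Pi.sub_apply, Pi.add_apply, L, L', this]
    · rw [hzero c hc]
      simp [hφ, L, L', hone c hc]
  have hΘ1 : classInner (indFun C φ) (fun _ => 1) = 1 := by
    rw [inner_ind_left C φ (CChar.CharFun.classFun_const 1), hφ, ci_sub_left, inner_one_one,
      inner_irr_of_ne hL irr_one n1, sub_zero]
  obtain ⟨A, B, hA, hB, hA1, hAB⟩ := exists_three (MatRep.isGenChar_indFun C hφg) hΘ1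
    (by
      rw [inner_ind_left C φ (indFun_classFun C φ), hres, hφ]
      simp only [ci_sub_left, ci_sub_right, ci_add_right, inner_one_one,
        inner_irr_of_ne hL irr_one n1, inner_irr_of_ne irr_one hL n1.symm,
        inner_irr_of_ne irr_one hL' n2, inner_irr_of_ne hL hL' n3, inner_irr_self hL]
      norm_num)
  have hB1 : classInner B (fun _ => 1) = 0 := by
    rw [show indFun C φ = (fun _ => 1) + A + B from funext hAB, CChar.CharFun.inner_add_left,
      CChar.CharFun.inner_add_left, inner_one_one, hA1] at hΘ1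
    linear_combination hΘ1
  have key : ∀ {ε : ℂ} {χ : G → ℂ}, (ε = 1 ∨ ε = -1) → classInner (ε • χ) (fun _ => 1) = 0 → χ ≠ fun _ => 1 := by
    rintro ε χ hε h rfl
    rw [CChar.CharFun.inner_smul_left, inner_one_one] at h
    rcases hε with rfl | rfl <;> norm_num at h
  obtain ⟨ε, hε, χ, hχ, rfl⟩ := hA
  obtain ⟨δ, hδ, ψ, hψ, rfl⟩ := hB
  have k1 := key hε hA1
  have k2 := key hδ hB1
  have h0 : ∀ g, ¬ 4 ∣ orderOf g → 1 + ε * χ g + δ * ψ g = 0 := fun g hg => (hAB g).symm.trans (hzero g hg)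
  have h1 := h0 1 (by simp)
  obtain ⟨x, x0, hx⟩ := irr_apply_one hχ
  obtain ⟨z, z0, hz⟩ := irr_apply_one hψ
  rcases hε with rfl | rfl <;> rcases hδ with rfl | rfl
  · rw [hx, hz] at h1
    have : 1 + x + z = 0 := by exact_mod_cast (by linear_combination h1 : (1 : ℂ) + x + z = 0)
    omega
  · exact ⟨ψ, χ, hψ, hχ, k2, k1, by linear_combination -h1, fun g hg => by linear_combination -h0 g hg⟩
  · exact ⟨χ, ψ, hχ, hψ, k1, k2, by linear_combination -h1, fun g hg => by linear_combination -h0 g hg⟩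
  · rw [hx, hz] at h1
    have : x + z = 1 := by exact_mod_cast (by linear_combination -h1 : (x : ℂ) + z = 1)
    omega

end

/-- Suppose a Sylow 2-subgroup S of the finite group G is generalized quaternion of order at least 16. Then G has two non-principal irreducible characters χ₁ and χ₂ with χ₁ 1 = χ₂ 1 + 1 such that χ₁ g - χ₂ g = 1 for every element g whose order is not divisible by 4. -/
theorem result {G : Type*} [Group G] [Fintype G] (S : Sylow 2 G) (n : ℕ) (e : (S : Subgroup G) ≃* QuaternionGroup (2 ^ (n + 2))) : ∃ χ₁ χ₂ : G → ℂ, Cfsg.IsIrrCharacter G χ₁ ∧ Cfsg.IsIrrCharacter G χ₂ ∧ χ₁ ≠ (fun _ => 1) ∧ χ₂ ≠ (fun _ => 1) ∧ χ₁ 1 = χ₂ 1 + 1 ∧ ∀ g : G, ¬ 4 ∣ orderOf g → χ₁ g - χ₂ g = 1 := by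
  obtain ⟨a, x, ha, hx, hx2, hxa, hgen⟩ := CA.PGDihedral.exists_gens_of_quaternion e
  have ha' : orderOf (a : G) = 8 * 2 ^ n := by rw [orderOf_coe, ha]; ring
  have hxa' : (x : G) * a * (x : G)⁻¹ = (a : G)⁻¹ := congrArg Subtype.val hxa
  have hy4 : orderOf ((a : G) ^ (2 * 2 ^ n)) = 4 := by
    rw [orderOf_pow' _ (by positivity), ha', show 8 * 2 ^ n = 4 * (2 * 2 ^ n) by ring,
      Nat.gcd_mul_left_left, Nat.mul_div_cancel _ (by positivity)]
  have hxy : (x : G) * a ^ (2 * 2 ^ n) * (x : G)⁻¹ = ((a : G) ^ (2 * 2 ^ n))⁻¹ := by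
    rw [← conj_pow, hxa', inv_pow]
  have hcase : ∀ g : (S : Subgroup G), g ∉ zpowers a →
      (g : G) * a ^ (2 * 2 ^ n) * (g : G)⁻¹ = ((a : G) ^ (2 * 2 ^ n))⁻¹ := by
    intro g hg
    obtain ⟨i, rfl⟩ := CA.PGNormalCyclic.eq_zpow_mul_of_notMem (a := a) (y := x) (g := g)
      (mem_normalizer_of_forall (by
        rintro _ ⟨k, rfl⟩
        rw [CA.PGDihedral.conj_zpow_of_inv hxa]; exact zpow_mem_zpowers _ _))
      (by rw [hx2]; exact npow_mem_zpowers _ _) (by rw [hgen]; trivial) hg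
    have hc : Commute ((a : G) ^ i) ((a : G) ^ (2 * 2 ^ n))⁻¹ :=
      ((Commute.refl (a : G)).zpow_left i).pow_right _ |>.inv_right
    calc _ = (a : G) ^ i * ((x : G) * a ^ (2 * 2 ^ n) * (x : G)⁻¹) * ((a : G) ^ i)⁻¹ := by
          push_cast; group
      _ = _ := by rw [hxy, hc.eq, mul_inv_cancel_right]
  have hin : ∀ g : (S : Subgroup G), g ∈ zpowers a → Commute (g : G) ((a : G) ^ (2 * 2 ^ n)) := by
    rintro _ ⟨k, rfl⟩
    exact ((Commute.refl (a : G)).zpow_left k).pow_right _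
  have hS := sylow_centralizer (isSylowIn_top S) (y := (a : G) ^ (2 * 2 ^ n)) (by
    intro g hg
    refine mem_normalizer_of_forall ?_
    rintro _ ⟨k, rfl⟩
    simp only [← conj_zpow]
    refine zpow_mem ?_ _
    by_cases h : (⟨g, hg⟩ : (S : Subgroup G)) ∈ zpowers a
    · rw [(hin _ h).eq, mul_inv_cancel_right]; exact mem_zpowers _
    · rw [hcase _ h]; exact inv_mem (mem_zpowers _))
  have hE : (S : Subgroup G) ⊓ centralizer ({(a : G) ^ (2 * 2 ^ n)} : Set G) = zpowers (a : G) := by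
    refine le_antisymm (fun g hg => ?_) (le_inf (zpowers_le.2 a.2) (zpowers_le.2
      (mem_centralizer_singleton_iff.2 (hin a (mem_zpowers _)).eq)))
    by_cases h : (⟨g, hg.1⟩ : (S : Subgroup G)) ∈ zpowers a
    · obtain ⟨k, hk⟩ := h
      exact ⟨k, congrArg Subtype.val hk⟩
    · have h1 := hcase _ h
      rw [mem_centralizer_singleton_iff.1 hg.2, mul_inv_cancel_right] at h1
      exact absurd h1 (ne_inv_four hy4)
  rw [hE] at hS
  exact big_case' (CA.H13Zstar.uniq_of_quaternion S e) ha' hxa' hS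

end Cfsg.Agent.S0844
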