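import Cfsg.Statements.S0845
import Cfsg.Agent.Lib.Grp.MC3
import Cfsg.Agent.Lib.Block.H13Zstar

set_option autoImplicit false
open Cfsg

namespace Cfsg.Agent.S0845

open Subgroup CA.SylIn CA.PRes CA.Two CA.MC2 CA.MC3 CA.PGBasic

theorem normal_sup {G : Type*} [Group G] {z : G} (h : InZStar 2 z) :
    (pPrimeCore 2 G ⊔ zpowers z).Normal :=
  normal_sup_zpowers fun g => by
    have := inv_mem (h g)
    rwa [show (g * z * g⁻¹ * z⁻¹)⁻¹ = z * g * z⁻¹ * g⁻¹ by group] at this

theorem eq_of_mem {G : Type*} [Group G] [Finite G] {z : G} (hz : z ^ 2 = 1) {Q : Subgroup G}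
    (hQ : IsPGroup 2 Q) {x y : G} (hx : x ∈ Q) (hy : y ∈ Q) (hx' : x ∈ pPrimeCore 2 G ⊔ zpowers z)
    (hy' : y ∈ pPrimeCore 2 G ⊔ zpowers z) (hx1 : x ≠ 1) (hy1 : y ≠ 1) : x = y := by
  have key : ∀ x ∈ Q, x ∈ pPrimeCore 2 G → x = 1 := fun x hx hx' =>
    eq_one_of_coprime_of_mem hQ hx ((CA.H13ZRed.coprime_two_iff.2
      CA.H13ZRed.odd_card_core).coprime_dvd_left (orderOf_dvd_natCard _ hx'))
  rw [mem_sup_two (le_normalizer_of_normal (mem_top z)) (hz ▸ one_mem _)] at hx' hy'
  have := mul_mem (hx'.resolve_left fun h => hx1 (key x hx h))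
    (inv_mem (hy'.resolve_left fun h => hy1 (key y hy h)))
  rw [show x * z⁻¹ * (y * z⁻¹)⁻¹ = x * y⁻¹ by group] at this
  exact mul_inv_eq_one.1 (key _ (mul_mem hx (inv_mem hy)) this)

/-- Suppose a Sylow 2-subgroup S of the finite group G is generalized quaternion of order at least 16. Then G has a normal subgroup M of even order such that G / M is non-abelian, that is, M does not contain the commutator subgroup of G. -/
theorem result {G : Type*} [Group G] [Finite G] (S : Sylow 2 G) (n : ℕ) (e : (S : Subgroup G) ≃* QuaternionGroup (2 ^ (n + 2))) : ∃ M : Subgroup G, M.Normal ∧ Even (Nat.card M) ∧ ¬ commutator G ≤ M := by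
  have hZ := fun u hu => CA.H13Zstar.bs_of_quaternion S e (u := u) hu
  obtain ⟨a, y, h, e⟩ := exists_of_quaternion e
  refine ⟨_, normal_sup (hZ _ h.ord_z), CA.H13Inv.even_card_of_involution
    (mem_sup_right (mem_zpowers _)) h.ord_z, fun hle => ?_⟩
  have h2 : a ^ (2 : ℤ) ∈ commutator G :=
    commutator_mono le_top le_top (h.commutator_eq.ge (mem_zpowers _))
  have ho : orderOf (a ^ (2 : ℤ)) = 2 ^ (n + 2) := by
    simpa using h.ord_pow (k := 1) (j := n + 2) (by omega)
  have := eq_of_mem h.z_sq h.isPGroup (zpow_mem_left a y 2) (zpow_mem_left a y _) (hle h2)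
    (mem_sup_right (mem_zpowers _)) (fun e => by
      rw [e, orderOf_one] at ho
      exact absurd ho.symm (by simp)) h.z_ne
  rw [this, h.ord_z] at ho
  have := Nat.pow_right_injective le_rfl (show 2 ^ 1 = 2 ^ (n + 2) from ho)
  omega

end Cfsg.Agent.S0845
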