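import Cfsg.Statements.S0846
import Cfsg.Agent.S0845

set_option autoImplicit false
open Cfsg

namespace Cfsg.Agent.S0846

open Subgroup CA.SylIn CA.PRes CA.Two CA.MC2 CA.MC3 CA.PGBasic

/-- Suppose a Sylow 2-subgroup S of the finite group G is generalized quaternion of order at least 16. Then every Sylow 2-subgroup of the subgroup generated by the involutions of G is cyclic. -/
theorem result {G : Type*} [Group G] [Finite G] (S : Sylow 2 G) (n : ℕ) (e : (S : Subgroup G) ≃* QuaternionGroup (2 ^ (n + 2))) (Q : Sylow 2 ↥(Subgroup.closure {g : G | orderOf g = 2})) : IsCyclic Q := by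
  have hZ := fun u hu => CA.H13Zstar.bs_of_quaternion S e (u := u) hu
  obtain ⟨a, y, h, e⟩ := exists_of_quaternion e
  haveI := Cfsg.Agent.S0845.normal_sup (hZ _ h.ord_z)
  have hle : closure {g : G | orderOf g = 2} ≤ pPrimeCore 2 G ⊔ zpowers (a ^ (2 ^ (n + 2) : ℤ)) :=
    (closure_le _).2 fun t ht => by
      rcases involution_cases h S e ht with e | e | e
      · by_contra ht'
        exact not_isConj_of_normal (mem_sup_right (mem_zpowers _)) ht' e.symm
      · exact absurd e.2 (by decide)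
      · exact absurd e.2 (by decide)
  have key : ∀ x y : Q, x ≠ 1 → y ≠ 1 → x = y := fun x y hx hy =>
    Subtype.ext (Subtype.ext (Cfsg.Agent.S0845.eq_of_mem h.z_sq (Q.isPGroup'.map (Subgroup.subtype _))
      ⟨x, x.2, rfl⟩ ⟨y, y.2, rfl⟩ (hle x.1.2) (hle y.1.2)
      (fun e => hx (Subtype.ext (Subtype.ext e))) (fun e => hy (Subtype.ext (Subtype.ext e)))))
  by_cases h1 : ∃ x : Q, x ≠ 1
  · obtain ⟨x, hx⟩ := h1
    refine ⟨⟨x, fun y => ?_⟩⟩
    by_cases hy : y = 1
    · exact ⟨0, by simp [hy]⟩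
    · exact ⟨1, by simp [key x y hx hy]⟩
  · push Not at h1
    exact ⟨⟨1, fun y => ⟨0, by simp [h1 y]⟩⟩⟩

end Cfsg.Agent.S0846
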