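import Cfsg.Statements.S0849
import Cfsg.Agent.Lib.Char.Ind

set_option autoImplicit false
open Cfsg

namespace Cfsg.Agent.S0849

open CA.Ind

/-- Let H be a subgroup of a finite group G and S a subset of H that is mapped to itself under conjugation by H, is disjoint from its conjugate by any element outside H, and is closed under inverses. Let φ be a class function of H vanishing on H away from S, and let u, v be involutions of G. Then the sum of the induced function of φ over all products a * b with a conjugate to u and b conjugate to v equals the index of H times the sum of φ (a * b) over such pairs with a and b in H. -/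
theorem result {G : Type*} [Group G] [Fintype G] (H : Subgroup G) (S : Set G) (hSH : S ⊆ H) (hHS : ∀ h ∈ H, ∀ s ∈ S, h * s * h⁻¹ ∈ S) (hTI : ∀ g : G, g ∉ H → ∀ s ∈ S, g * s * g⁻¹ ∉ S) (hinv : ∀ s ∈ S, s⁻¹ ∈ S) (φ : H → ℂ) (hφ : Cfsg.IsClassFunction H φ) (hφS : ∀ x : H, (x : G) ∉ S → φ x = 0) (u v : G) (hu : orderOf u = 2) (hv : orderOf v = 2) : ∑ᶠ p ∈ {p : G × G | IsConj u p.1 ∧ IsConj v p.2}, Cfsg.indFun H φ (p.1 * p.2) = (H.index : ℂ) * ∑ᶠ p ∈ {p : H × H | IsConj u (p.1 : G) ∧ IsConj v (p.2 : G)}, φ (p.1 * p.2) := by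
  classical
  have e : ∀ {α : Type _} [Fintype α] (s : Set α) (f : α → ℂ), ∑ᶠ p ∈ s, f p = ∑ p with p ∈ s, f p :=
    fun s f => by rw [← finsum_mem_coe_finset]; simp
  rw [e, e]
  simp only [indFun_def', ← Finset.mul_sum]
  rw [Finset.sum_comm, Finset.sum_congr rfl (g := fun _ =>
    ∑ p with p ∈ {p : H × H | IsConj u (p.1 : G) ∧ IsConj v (p.2 : G)}, φ (p.1 * p.2)) fun x _ => ?_]
  · rw [Finset.sum_const, Finset.card_univ, ← Nat.card_eq_fintype_card, ← H.card_mul_index, nsmul_eq_mul]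
    push_cast
    field_simp [card_ne_zero H]
    congr!
  have sq : ∀ {u a : G}, orderOf u = 2 → IsConj u a → a * a = 1 := fun hu ha => by
    obtain ⟨c, rfl⟩ := isConj_iff.1 ha
    rw [conj_mul, ← sq, ← hu, pow_orderOf_eq_one]; simp
  symm
  refine Finset.sum_bij_ne_zero (fun p _ _ => (x⁻¹ * p.1 * x, x⁻¹ * p.2 * x)) (fun p hp _ => ?_)
    (fun p _ _ q _ _ h => ?_) (fun p hp h => ?_) fun p _ _ => ?_
  · simp only [Finset.mem_filter, Finset.mem_univ, true_and, Set.mem_ofPred_eq] at hp ⊢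
    exact ⟨hp.1.trans (isConj_iff.2 ⟨x⁻¹, by simp⟩), hp.2.trans (isConj_iff.2 ⟨x⁻¹, by simp⟩)⟩
  · simpa [Prod.ext_iff] using h
  · simp only [Finset.mem_filter, Finset.mem_univ, true_and, Set.mem_ofPred_eq] at hp ⊢
    have c1 := hp.1.trans (isConj_iff.2 ⟨x, rfl⟩)
    have c2 := hp.2.trans (isConj_iff.2 ⟨x, rfl⟩)
    rw [← conj_mul] at h
    obtain ⟨m, h'⟩ := ext_ne_zero h
    have s : x * p.1 * x⁻¹ * (x * p.2 * x⁻¹) ∈ S := by_contra fun q => h' (hφS _ q)
    have m1 : x * p.1 * x⁻¹ ∈ H := by_contra fun q => hTI _ q _ s (by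
      convert hinv _ s using 1
      rw [← mul_assoc, sq hu c1, one_mul, mul_inv_rev _ (x * p.2 * x⁻¹), inv_eq_of_mul_eq_one_right (sq hv c2)])
    exact ⟨(⟨_, m1⟩, ⟨_, (H.mul_mem_cancel_left m1).1 m⟩), ⟨c1, c2⟩, h', by simp [mul_assoc]⟩
  · rw [← ext_coe H φ]
    congr 1
    simp [mul_assoc]

end Cfsg.Agent.S0849
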