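import Cfsg.Statements.S0850
import Cfsg.Agent.Lib.Gold.LYb
import Cfsg.Agent.Lib.Char.Ind

set_option autoImplicit false
open Cfsg

namespace Cfsg.Agent.S0850

open CA.BG CA.Ind

theorem aux {G : Type*} [Group G] {K : Subgroup G} {x : G} (hx : x ∉ K) (n : ℕ) (h0 : n ≠ 0) (h : x ^ n ∈ K) :
    ∃ m p : ℕ, p.Prime ∧ p ∣ n ∧ x ^ m ∉ K ∧ (x ^ m) ^ p ∈ K := by
  induction n using Nat.strong_induction_on with
  | _ n ih =>
    obtain ⟨r, hr, k, rfl⟩ := Nat.exists_prime_and_dvd (n := n) (by rintro rfl; exact hx (by simpa using h))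
    by_cases hk : x ^ k ∈ K
    · have k0 := right_ne_zero_of_mul h0
      obtain ⟨m, p, h1, h2, h3⟩ := ih k (lt_mul_left (Nat.pos_of_ne_zero k0) hr.one_lt) k0 hk
      exact ⟨m, p, h1, h2.mul_left r, h3⟩
    · exact ⟨k, r, hr, dvd_mul_right r k, hk, by rwa [← pow_mul, mul_comm]⟩

/-- Let K be a subgroup of the finite group G that meets each conjugate by an element outside its normalizer N trivially, is properly contained in N, and contains the centralizer of each of its non-identity elements (a T.I. subgroup with Frobenius normalizer). Then no element of N outside K is conjugate in G to an element of K, and for every class function ϑ of N that vanishes on N away from K and at the identity, the function induced from ϑ to G agrees with ϑ on all of N. -/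
theorem result {G : Type*} [Group G] [Fintype G] (K : Subgroup G) (hTI : ∀ g : G, g ∉ Subgroup.normalizer (K : Set G) → ∀ k ∈ K, g * k * g⁻¹ ∈ K → k = 1) (hlt : K < Subgroup.normalizer (K : Set G)) (hC : ∀ k ∈ K, k ≠ 1 → Subgroup.centralizer ({k} : Set G) ≤ K) : (∀ x ∈ Subgroup.normalizer (K : Set G), x ∉ K → ∀ g : G, g * x * g⁻¹ ∉ K) ∧ ∀ (ϑ : Subgroup.normalizer (K : Set G) → ℂ), Cfsg.IsClassFunction (Subgroup.normalizer (K : Set G)) ϑ → (∀ x : Subgroup.normalizer (K : Set G), (x : G) ∉ K → ϑ x = 0) → ϑ 1 = 0 → ∀ x : Subgroup.normalizer (K : Set G), Cfsg.indFun (Subgroup.normalizer (K : Set G)) ϑ x = ϑ x := by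
  have h1 : ∀ x ∈ Subgroup.normalizer (K : Set G), x ∉ K → ∀ g : G, g * x * g⁻¹ ∉ K := by
    intro x hx hxK g hg
    have o : orderOf x ∣ ♯K := (MulAut.conj g).orderOf_eq x ▸ orderOf_dvd_card_of_mem hg
    obtain ⟨m, p, hp, d, e1, e2⟩ := aux hxK _ (orderOf_pos x).ne' (by rw [pow_orderOf_eq_one]; exact K.one_mem)
    have e3 : (x ^ m) ^ p = 1 := by
      by_contra q
      exact e1 (hC _ e2 q (mem_cent1.2 ((Commute.refl _).pow_right p)))
    have := CA.GoldLy.fix_mod (X := K) (g := x ^ m) hp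
      (fun y hy => conj_mem_of_mem_norm (pow_mem hx m) hy) fun y _ => by rw [e3]; simp
    rw [← Subgroup.coe_inf, ← Nat.card_coe_set_eq, ← Nat.card_coe_set_eq] at this
    have d' : p ∣ ♯(K ⊓ 𝓒₁(x ^ m) : Subgroup G) := (this.dvd_iff dvd_rfl).1 (d.trans o)
    obtain ⟨k, hk, e⟩ := exists_orderOf_eq hp d'
    exact e1 (hC k hk.1 (by rintro rfl; exact hp.one_lt.ne (by simpa using e)) (mem_cent1_symm.1 hk.2))
  refine ⟨h1, fun θ hθ h2 h3 x => ?_⟩
  rcases eq_or_ne x 1 with rfl | x1
  · rw [OneMemClass.coe_one, indFun_one, h3, mul_zero]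
  refine indFun_eq_self hθ x fun g hg h => ?_
  by_contra q
  have k : g * x * g⁻¹ ∈ K := by_contra fun q => h (h2 _ q)
  exact x1 (Subtype.ext (hTI g q x (by_contra fun q => h1 x x.2 q g k) k))

end Cfsg.Agent.S0850
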