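import Cfsg.Statements.S0851
import Cfsg.Agent.Lib.Char.H12Misc
import Cfsg.Agent.Lib.Char.BPerm
import Cfsg.Agent.Lib.Char.Gall

set_option autoImplicit false
open Cfsg

namespace Cfsg.Agent.S0851

open CChar.CharRep CChar.CharFun CChar.CharOrth CChar.CharKer CChar.CharInt CChar.CharGen
  CChar.CharMisc CChar.CharProd CA.H12Misc Subgroup
open scoped ComplexConjugate commutatorElement

/-- Let K be a subgroup of the finite group G that meets each conjugate by an element outside its normalizer N trivially, is properly contained in N, and contains the centralizer of each of its non-identity elements (a T.I. subgroup with Frobenius normalizer). Suppose K is abelian, let e be the index of K in N, and call an irreducible character of N relevant when it takes at some element of K a value different from its degree. Then either there is exactly one relevant character and K is an elementary abelian p-group of order e + 1 for some prime p, or there are a sign ε and an injective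 map f from the relevant characters to the irreducible characters of G such that inducing χ - ξ to G gives ε (f χ - f ξ) for all relevant χ and ξ. -/
theorem result {G : Type*} [Group G] [Fintype G] (K : Subgroup G) (hTI : ∀ g : G, g ∉ Subgroup.normalizer (K : Set G) → ∀ k ∈ K, g * k * g⁻¹ ∈ K → k = 1) (hlt : K < Subgroup.normalizer (K : Set G)) (hC : ∀ k ∈ K, k ≠ 1 → Subgroup.centralizer ({k} : Set G) ≤ K) (hab : ∀ a ∈ K, ∀ b ∈ K, a * b = b * a) : (Nat.card {χ : Cfsg.IrrCharacter (Subgroup.normalizer (K : Set G)) // ∃ k : Subgroup.normalizer (K : Set G), (k : G) ∈ K ∧ (χ : ↥(Subgroup.normalizer (K : Set G)) → ℂ) k ≠ (χ : ↥(Subgroup.normalizer (K : Set G)) → ℂ) 1} = 1 ∧ ∃ p : ℕ, p.Prime ∧ Cfsg.IsElementaryAbelian p K ∧ Nat.card K = (K.subgroupOf (Subgroup.normalizer (K : Set G))).index + 1) ∨ ∃ (ε : ℂ) (f : {χ : Cfsg.IrrCharacter (Subgroup.normalizer (K : Set G)) // ∃ k : Subgroup.normalizer (K : Set G), (k : G) ∈ K ∧ (χ : ↥(Subgroup.normalizer (K : Set G)) → ℂ)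 k ≠ (χ : ↥(Subgroup.normalizer (K : Set G)) → ℂ) 1} → Cfsg.IrrCharacter G), (ε = 1 ∨ ε = -1) ∧ Function.Injective f ∧ ∀ χ ξ, Cfsg.indFun (Subgroup.normalizer (K : Set G)) ((χ.1 : ↥(Subgroup.normalizer (K : Set G)) → ℂ) - (ξ.1 : ↥(Subgroup.normalizer (K : Set G)) → ℂ)) = ε • ((f χ : G → ℂ) - (f ξ : G → ℂ)) := by
  classical
  set N := normalizer (K : Set G)
  have : (K.subgroupOf N).Normal := normal_subgroupOf_of_le_normalizer le_rfl
  have h1 : ∀ χ : IrrCharacter N, (∃ k : N, (k : G) ∈ K ∧ χ.1 k ≠ χ.1 1) →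
      χ.1 1 = (K.subgroupOf N).index ∧ ∀ x : N, (x : G) ∉ K → χ.1 x = 0 := fun χ ⟨k, h1, h2⟩ => by
    obtain ⟨θ, h3, h4⟩ := CA.Cons.exists_irr_under (K.subgroupOf N) χ.2
    have h5 := CA.BPerm.irr_indFun_of_centralizer_le (N := K.subgroupOf N) (fun n hn h5 x hx =>
      hC n hn (fun e => h5 (Subtype.ext e)) (mem_centralizer_singleton_iff.2
        (congrArg Subtype.val (mem_centralizer_singleton_iff.1 hx)))) h3 fun e => h2
      ((CA.Gall.inner_ind_one_ne_zero_iff (N := K.subgroupOf N) χ.2).1 (by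
        rwa [CA.Ind.inner_ind_left _ _ (irr_classFun χ.2), Ne, inner_eq_zero_comm, ← e]) k h1)
    rw [← irr_eq_of_inner_ne_zero h5 χ.2 (by
      rwa [CA.Ind.inner_ind_left _ _ (irr_classFun χ.2), Ne, inner_eq_zero_comm])]
    exact ⟨by rw [CA.Ind.indFun_one, irr_apply_one_of_comm (fun a b => Subtype.ext (Subtype.ext
      (hab _ a.2 _ b.2))) h3, mul_one], fun x hx => CA.Ind.indFun_normal_of_not_mem _ _ hx⟩
  right
  rcases isEmpty_or_nonempty {χ : IrrCharacter N // ∃ k : N, (k : G) ∈ K ∧ χ.1 k ≠ χ.1 1}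
    with h | ⟨⟨i₀⟩⟩
  · exact ⟨1, isEmptyElim, Or.inl rfl, isEmptyElim, isEmptyElim⟩
  obtain ⟨ε, h2, μ, h3, h4, h5⟩ := CA.Ind2.isometry_sub i₀ (fun i => i.1.1) (fun i => i.1.2)
    (fun _ _ e => Subtype.ext (Subtype.ext e)) (fun i => indFun N (i.1.1 - i₀.1.1))
    (by rw [sub_self, CA.Ind.indFun_zero])
    (fun i => CA.MatRep.isGenChar_indFun _ (gen_sub (gen_of_irr i.1.2) (gen_of_irr i₀.1.2)))
    (fun i => by rw [CA.Ind.indFun_one, Pi.sub_apply, (h1 _ i.2).1, (h1 _ i₀.2).1, sub_self, mul_zero])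
    fun i j => CA.Ind.inner_ind_ind_TI K (fun g hg t ht h => hTI g hg t ht h)
      (classFun_sub (irr_classFun j.1.2) (irr_classFun i₀.1.2))
      (fun x hx => by rw [Pi.sub_apply, (h1 _ i.2).2 x hx, (h1 _ i₀.2).2 x hx, sub_self])
      (fun x hx => by rw [Pi.sub_apply, (h1 _ j.2).2 x hx, (h1 _ i₀.2).2 x hx, sub_self])
      (by rw [Pi.sub_apply, (h1 _ i.2).1, (h1 _ i₀.2).1, sub_self])
  exact ⟨ε, fun i => ⟨μ i, h3 i⟩, h2, fun _ _ e => h4 (congrArg Subtype.val e), fun i j => by
    rw [← sub_sub_sub_cancel_right _ _ i₀.1.1, CA.Ind.indFun_sub, h5, h5, ← smul_sub,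
      sub_sub_sub_cancel_right]⟩

end Cfsg.Agent.S0851
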