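import Cfsg.Statements.S0852
import Mathlib
import Cfsg.Agent.Lib.Perm.TIFN

set_option autoImplicit false
open Cfsg

namespace Cfsg.Agent.S0852

open CA.TIFN CA.PF

/-- Let K be a subgroup of the finite group G that meets each conjugate by an element outside its normalizer N trivially, is properly contained in N, and contains the centralizer of each of its non-identity elements (a T.I. subgroup with Frobenius normalizer). Let S be the set of irreducible characters of N taking at some element of K a value different from their degree, suppose S has at least two members, and let star be a linear isometry on the integer span of S into the generalized characters of G that agrees with induction on the members vanishing at the identity (so S is coherent, with star as the extending isometry). Then an irreducible character ψ of G is of the form star χ or -star χ for some χ in S if and only if ψ is not constant on the non-identity elements of K. -/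
theorem result {G : Type*} [Group G] [Fintype G] (K : Subgroup G) (hTI : ∀ g : G, g ∉ Subgroup.normalizer (K : Set G) → ∀ k ∈ K, g * k * g⁻¹ ∈ K → k = 1) (hlt : K < Subgroup.normalizer (K : Set G)) (hC : ∀ k ∈ K, k ≠ 1 → Subgroup.centralizer ({k} : Set G) ≤ K) [Fintype ↥(Subgroup.normalizer (K : Set G))] (S : Set (↥(Subgroup.normalizer (K : Set G)) → ℂ)) (hS : S = {χ : ↥(Subgroup.normalizer (K : Set G)) → ℂ | Cfsg.IsIrrCharacter ↥(Subgroup.normalizer (K : Set G)) χ ∧ ∃ k : ↥(Subgroup.normalizer (K : Set G)), (k : G) ∈ K ∧ χ k ≠ χ 1}) (htwo : ∃ χ ∈ S, ∃ ξ ∈ S, χ ≠ ξ) (star : (↥(Subgroup.normalizer (K : Set G)) → ℂ) → (G → ℂ)) (hstar : Cfsg.IsLinearIsometryOn (Cfsg.zspan S) star) (hext : ∀ α ∈ Cfsg.zspanOn S ({1}ᶜ : Set ↥(Subgroup.normalizer (K : Set G))), star α = Cfsg.indFun (Subgroup.normalizer (K : Set G)) α) (ψ : G → ℂ) (hψ : Cfsg.IsIrrCharacter G ψ) : (∃ χ ∈ S, ψ = star χ ∨ ψ = -star χ) ↔ ∃ a ∈ K, ∃ b ∈ K, a ≠ 1 ∧ b ≠ 1 ∧ ψ a ≠ ψ b := by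
  obtain ⟨χ, hχ, ξ, hξ, hne⟩ := htwo
  have h0 : K ≠ ⊥ := by
    rintro rfl
    obtain ⟨-, k, hk, e⟩ := hS ▸ hχ
    exact e (congrArg χ (Subtype.ext hk))
  obtain ⟨h1, ν, h, h2⟩ := tc_of (frobK_norm h0 hlt hC) ((nti_nz_iff h0).2 ⟨hTI, rfl⟩) hS hstar hext
  have h3 := mem_irr_top.2 hψ
  constructor
  · rintro ⟨ζ, hζ, h4⟩
    obtain ⟨η, hη, h5⟩ : ∃ η ∈ S, η ≠ ζ := by
      by_cases e : χ = ζ
      exacts [⟨ξ, hξ, e ▸ hne.symm⟩, ⟨χ, hχ, e⟩]
    by_contra h6
    push Not at h6
    obtain ⟨x, hx⟩ := h.ti.ne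
    refine h.not_const ((h1 _).1 hζ) ((h1 _).1 hη) (fun e => h5 (ext_injective _ e)) (star ζ x)
      fun u hu => ?_
    have := h6 u hu.1 x hx.1 hu.2 hx.2
    rw [h2 ζ hζ]
    rcases h4 with rfl | rfl
    · exact this
    · exact neg_injective this
  · rintro ⟨x, hx, y, hy, hx1, hy1, h4⟩
    by_contra h5
    obtain ⟨c, hc⟩ := h.const_of_dot (irr_CInv h3) fun ζ hζ => by
      have e := ext_res_of_on (irr_on (h.irrS hζ))
      have h6 := (h1 fun k => ζ k).2 (e.symm ▸ hζ)
      have h7 := h2 _ h6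
      rw [e] at h7
      rcases (irr_Dirr h3).eq_or (h.dirr hζ) with e' | e' | e'
      exacts [absurd ⟨_, h6, Or.inl (e'.trans h7)⟩ h5, absurd ⟨_, h6, Or.inr (h7 ▸ e')⟩ h5, e']
    exact h4 ((hc x ⟨hx, hx1⟩).trans (hc y ⟨hy, hy1⟩).symm)

end Cfsg.Agent.S0852
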