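import Cfsg.Statements.S0853
import Mathlib
import Cfsg.Agent.Lib.Perm.TIFN

set_option autoImplicit false
open Cfsg

namespace Cfsg.Agent.S0853

open CA.TIFN CA.PF

/-- Let K be a subgroup of the finite group G that meets each conjugate by an element outside its normalizer N trivially, is properly contained in N, and contains the centralizer of each of its non-identity elements (a T.I. subgroup with Frobenius normalizer). Let S be the set of irreducible characters of N taking at some element of K a value different from their degree, suppose S has at least two members, and let star be a linear isometry on the integer span of S into the generalized characters of G that agrees with induction on the members vanishing at the identity (so S is coherent, with star as the extending isometry). Then there is a single integer m such that star χ k - χ k = m * χ 1 / e for every χ in S and every non-identity element k of K, where e is the index of K in N. -/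
theorem result {G : Type*} [Group G] [Fintype G] (K : Subgroup G) (hTI : ∀ g : G, g ∉ Subgroup.normalizer (K : Set G) → ∀ k ∈ K, g * k * g⁻¹ ∈ K → k = 1) (hlt : K < Subgroup.normalizer (K : Set G)) (hC : ∀ k ∈ K, k ≠ 1 → Subgroup.centralizer ({k} : Set G) ≤ K) [Fintype ↥(Subgroup.normalizer (K : Set G))] (S : Set (↥(Subgroup.normalizer (K : Set G)) → ℂ)) (hS : S = {χ : ↥(Subgroup.normalizer (K : Set G)) → ℂ | Cfsg.IsIrrCharacter ↥(Subgroup.normalizer (K : Set G)) χ ∧ ∃ k : ↥(Subgroup.normalizer (K : Set G)), (k : G) ∈ K ∧ χ k ≠ χ 1}) (htwo : ∃ χ ∈ S, ∃ ξ ∈ S, χ ≠ ξ) (star : (↥(Subgroup.normalizer (K : Set G)) → ℂ) → (G → ℂ)) (hstar : Cfsg.IsLinearIsometryOn (Cfsg.zspan S) star) (hext : ∀ α ∈ Cfsg.zspanOn S ({1}ᶜ : Set ↥(Subgroup.normalizer (K : Set G))), star α = Cfsg.indFun (Subgroup.normalizer (K : Set G)) α) : ∃ m : ℤ, ∀ χ ∈ S, ∀ k : ↥(Subgroup.normalizer (K : Set G)), (k : G) ∈ K → k ≠ 1 → star χ k - χ k = (m : ℂ) * χ 1 / ((K.subgroupOf (Subgroup.normalizer (K : Set G))).index : ℂ) := by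
  obtain ⟨χ, hχ, -⟩ := htwo
  have h0 : K ≠ ⊥ := by
    rintro rfl
    obtain ⟨-, k, hk, e⟩ := hS ▸ hχ
    exact e (congrArg χ (Subtype.ext hk))
  obtain ⟨h1, ν, h, h2⟩ := tc_of (frobK_norm h0 hlt hC) ((nti_nz_iff h0).2 ⟨hTI, rfl⟩) hS hstar hext
  obtain ⟨m, hm⟩ := h.exists_m
  refine ⟨m, fun ζ hζ k hk hk1 => ?_⟩
  have := hm _ ((h1 _).1 hζ) k ⟨hk, fun e => hk1 (Subtype.ext e)⟩
  rw [h2 ζ hζ, CA.Ind.ext_of_mem _ ζ k.2, CA.Ind.ext_of_mem _ ζ (one_mem _)] at this
  exact sub_eq_of_eq_add' this

end Cfsg.Agent.S0853
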