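import Cfsg.Statements.S0855
import Cfsg.Agent.Lib.Char.H12Deg
import Cfsg.Agent.Lib.Grp.H12PSolv

set_option autoImplicit false
open Cfsg

namespace Cfsg.Agent.S0855

open CA.PF CA.OQuo CA.H12Gl CA.H12Gl2 CA.H12Mon CA.H12Deg Subgroup
open CA.BG hiding cj cj_one cj_mul cj_inv_cj cj_cj_inv mem_cent1

/-- For a finite group G and a prime p: every irreducible character of G has degree a power of p if and only if G has an abelian normal subgroup whose order is prime to p and whose index is a power of p. -/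
theorem result {G : Type*} [Group G] [Finite G] (p : ℕ) (hp : p.Prime) : (∀ χ : Cfsg.IrrCharacter G, ∃ k : ℕ, (χ : G → ℂ) 1 = (p : ℂ) ^ k) ↔ ∃ A : Subgroup G, A.Normal ∧ (∀ a ∈ A, ∀ b ∈ A, a * b = b * a) ∧ Nat.Coprime (Nat.card A) p ∧ ∃ k : ℕ, A.index = p ^ k := by
  have := Fintype.ofFinite G
  have := Fact.mk hp
  refine ⟨fun h => ?_, fun ⟨A, h1, h2, _, k, hk⟩ χ => ?_⟩
  · have h1 : ∀ χ ∈ irr (⊤ : Subgroup G), ∃ k, charDegree χ = p ^ k := fun χ hχ =>
      (h ⟨χ, mem_irr_top.1 hχ⟩).imp fun k hk => deg_eq (hk.trans (Nat.cast_pow p k).symm)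
    have h2 := ((Nat.Prime.coprime_iff_not_dvd hp).2 (thompson fun χ hχ h2 => by
      obtain ⟨k, hk⟩ := h1 χ hχ
      exact hk ▸ dvd_pow_self p fun e => h2 (by rw [hk, e, pow_zero]))).symm
    have h3 : IsMulCommutative (pResidual p G) := comm_of_lin fun θ hθ => by
      obtain ⟨χ, h3, h4⟩ := exists_deg_dvd (nrm_top _) hθ
      obtain ⟨k, hk⟩ := h1 χ h3
      exact Nat.eq_one_of_dvd_coprimes (h2.pow_right k) (deg_dvd_card hθ) (hk ▸ h4)
    exact ⟨pResidual p G, inferInstance, fun a ha b hb => congrArg Subtype.val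
      (h3.1.1 ⟨a, ha⟩ ⟨b, hb⟩), h2, CA.PRes.exists_index_eq_of_pResidual_le le_rfl⟩
  · have h3 := ito (nrm_top A) ⟨⟨fun a b => Subtype.ext (h2 _ a.2 _ b.2)⟩⟩ (mem_irr_top.2 χ.2)
    rw [relIndex_top_right, hk, Nat.dvd_prime_pow hp] at h3
    obtain ⟨j, -, hj⟩ := h3
    exact ⟨j, by rw [irr_deg (mem_irr_top.2 χ.2), hj, Nat.cast_pow]⟩

end Cfsg.Agent.S0855
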