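import Cfsg.Statements.S0857
import Cfsg.Agent.Lib.Char.H12Mon

set_option autoImplicit false
open Cfsg

namespace Cfsg.Agent.S0857

open CA.PF CA.OQuo CA.H12Gl CA.H12Gl2 CA.H12Gl3 CA.H12Tri CA.H12Mon Subgroup
open CA.BG hiding cj cj_one cj_mul cj_inv_cj cj_cj_inv mem_cent1

/-- Let L < K be normal subgroups of the finite group G with no normal subgroup of G strictly between them and with K / L abelian (the commutator subgroup of K lies in L). Let ϑ be an irreducible character of K invariant under conjugation by G. Then the restriction of ϑ to L is irreducible; or it equals e times an irreducible character of L with e ^ 2 equal to the index of L in K; or it is the sum of a family of pairwise distinct irreducible characters of L indexed by a set whose size is the index of L in K. -/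
theorem result {G : Type*} [Group G] [Fintype G] (K L : Subgroup G) [hK : K.Normal] [L.Normal] (hLK : L < K) (hchief : ∀ M : Subgroup G, M.Normal → L ≤ M → M ≤ K → M = L ∨ M = K) (hab : ⁅K, K⁆ ≤ L) (ϑ : K → ℂ) (hϑ : Cfsg.IsIrrCharacter K ϑ) (hinv : ∀ (g : G) (n : K), ϑ ⟨g * n * g⁻¹, hK.conj_mem (n : G) n.2 g⟩ = ϑ n) : Cfsg.IsIrrCharacter L (fun x : L => ϑ ⟨(x : G), hLK.le x.2⟩) ∨ (∃ (φ : L → ℂ) (e : ℕ), Cfsg.IsIrrCharacter L φ ∧ (fun x : L => ϑ ⟨(x : G), hLK.le x.2⟩) = (e : ℂ) • φ ∧ e ^ 2 = L.relIndex K) ∨ (∃ F : Finset (L → ℂ), (∀ φ ∈ F, Cfsg.IsIrrCharacter L φ) ∧ F.card = L.relIndex K ∧ (fun x : L => ϑ ⟨(x : G), hLK.le x.2⟩) = ∑ φ ∈ F, φ) := by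
  have h0 := ext_mem_irr.2 hϑ
  have hr : (fun x : L => ϑ ⟨(x : G), hLK.le x.2⟩) =
      fun x : L => Res (L : Set G) (extendByZero K ϑ) x := funext fun x => by
    rw [Res_of_mem _ x.2, CA.Ind.ext_of_mem _ _ (hLK.le x.2)]
  obtain ⟨φ, h1, h2⟩ := exists_irr_under hLK.le h0
  rw [hr]
  rcases going_down (G := ⊤) ⟨hLK, le_top, (nrm_top K).le_normalizer, (nrm_top L).le_normalizer,
    fun M h1 h2 h3 => hchief M (nrm_of_le_normalizer le_top h3).normal_of_top h1 h2⟩ hab h0
    ((le_stab_ext_iff (nrm_top K).le_normalizer ϑ).2 fun x _ g g' e => by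
      rw [← hinv x g]; exact congrArg _ (Subtype.ext e)) h1 h2 with h | ⟨e, h, h3, -⟩ | h
  · exact Or.inl (h ▸ (mem_irr.1 h1).2)
  · exact Or.inr (Or.inl ⟨_, e, (mem_irr.1 h1).2, by rw [h]; rfl, h3⟩)
  · classical
    have hn := (nrm_top L).mono hLK.le le_top
    obtain ⟨-, h3, h4⟩ := Res_of_inertia hn h0 h1 h2 h
    have hi : Set.InjOn (fun (ψ : G → ℂ) (x : L) => ψ x) (cfclass K φ) := fun a ha b hb e =>
      CF_ext (irr_on (cfclass_irr hn h1 ha)) (irr_on (cfclass_irr hn h1 hb))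
        fun x hx => congrFun e ⟨x, hx⟩
    refine Or.inr (Or.inr ⟨(cfclass K φ).image fun ψ (x : L) => ψ x, fun ψ hψ => ?_,
      (Finset.card_image_of_injOn hi).trans h4, ?_⟩)
    · obtain ⟨a, ha, rfl⟩ := Finset.mem_image.1 hψ
      exact (mem_irr.1 (cfclass_irr hn h1 ha)).2
    · rw [Finset.sum_image hi, h3]
      exact funext fun x => by simp only [Finset.sum_apply]

end Cfsg.Agent.S0857
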