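import Cfsg.Statements.S0858
import Cfsg.Agent.Lib.Char.H12Mon

set_option autoImplicit false
open Cfsg

namespace Cfsg.Agent.S0858

open CA.PF CA.OQuo CA.H12Gl CA.H12Gl2 CA.H12Gl3 CA.H12Tri CA.H12Mon Subgroup
open CA.BG hiding cj cj_one cj_mul cj_inv_cj cj_cj_inv mem_cent1

/-- Let N be a normal subgroup of the finite group G with G / N solvable, and suppose that for every subgroup H containing N and all subgroups L < K between N and H that are normal in H with no subgroup normal in H strictly between them, the index of L in K is not a perfect square. Then every irreducible character χ of G is induced from an irreducible character ψ of some subgroup H containing N such that the restriction of ψ to N is irreducible. -/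
theorem result {G : Type*} [Group G] [Fintype G] (N : Subgroup G) [N.Normal] (hsolv : Group.IsSolvable (G ⧸ N)) (hchief : ∀ (H K L : Subgroup G), N ≤ L → L < K → K ≤ H → (∀ h ∈ H, ∀ k ∈ K, h * k * h⁻¹ ∈ K) → (∀ h ∈ H, ∀ l ∈ L, h * l * h⁻¹ ∈ L) → (∀ M : Subgroup G, L ≤ M → M ≤ K → (∀ h ∈ H, ∀ m ∈ M, h * m * h⁻¹ ∈ M) → M = L ∨ M = K) → ¬ IsSquare (L.relIndex K)) (χ : G → ℂ) (hχ : Cfsg.IsIrrCharacter G χ) : ∃ (H : Subgroup G) (hNH : N ≤ H) (ψ : H → ℂ), Cfsg.IsIrrCharacter H ψ ∧ Cfsg.indFun H ψ = χ ∧ Cfsg.IsIrrCharacter N (fun n : N => ψ ⟨(n : G), hNH n.2⟩) := by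
  obtain ⟨U, h1, -, θ, h2, h3, h4⟩ := rel_mon (nrm_top N) (solOver_of_quot hsolv)
    (fun U L K _ h1 h => hchief U K L h1 h.1 h.2.1
      (fun _ hx _ => conj_mem_of_norm h.2.2.1 hx) (fun _ hx _ => conj_mem_of_norm h.2.2.2.1 hx)
      fun M h2 h3 h4 => h.2.2.2.2 M h2 h3 (norm_of_conj h4)) (mem_irr_top.2 hχ)
  refine ⟨U, h1, fun u => θ u, (mem_irr.1 h2).2, ?_, ?_⟩
  · rw [← Ind_top, ext_res_of_on (irr_on h2), h3]
  · exact res_Res N θ ▸ (mem_irr.1 h4).2

end Cfsg.Agent.S0858
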