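import Cfsg.Statements.S0859
import Cfsg.Agent.Lib.Char.H12Mon

set_option autoImplicit false
open Cfsg

namespace Cfsg.Agent.S0859

open CA.PF CA.OQuo CA.H12Gl CA.H12Gl2 CA.H12Gl3 CA.H12Tri CA.H12Mon Subgroup
open CA.BG hiding cj cj_one cj_mul cj_inv_cj cj_cj_inv mem_cent1

/-- Let G be a finite solvable group and N a normal subgroup such that for every prime p every Sylow p-subgroup of N is abelian. Suppose every irreducible character of G is induced from an irreducible character of some subgroup containing N whose restriction to N is irreducible. Then every irreducible character of G is induced from a character of degree 1 of some subgroup. -/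
theorem result {G : Type*} [Group G] [Fintype G] [Group.IsSolvable G] (N : Subgroup G) [N.Normal] (hab : ∀ (p : ℕ) [Fact p.Prime] (P : Sylow p N), ∀ a ∈ P, ∀ b ∈ P, a * b = b * a) (hrel : ∀ χ : G → ℂ, Cfsg.IsIrrCharacter G χ → ∃ (H : Subgroup G) (hNH : N ≤ H) (ψ : H → ℂ), Cfsg.IsIrrCharacter H ψ ∧ Cfsg.indFun H ψ = χ ∧ Cfsg.IsIrrCharacter N (fun n : N => ψ ⟨(n : G), hNH n.2⟩)) (χ : G → ℂ) (hχ : Cfsg.IsIrrCharacter G χ) : ∃ (U : Subgroup G) (lam : U → ℂ), Cfsg.IsCharacter U lam ∧ lam 1 = 1 ∧ Cfsg.indFun U lam = χ := by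
  obtain ⟨H, h1, ψ, h2, h3, h4⟩ := hrel χ hχ
  obtain ⟨U, h5, i, h6⟩ := mon_of_ab_syl (N := N) inferInstance ((nrm_top N).mono h1 le_top)
    (fun p hp P h5 h6 => by
      have := Fact.mk hp
      obtain ⟨Q, h7, h8⟩ := syl_superset hp h6 h5
      obtain ⟨S, rfl⟩ := h7.exists_sylow hp
      refine comm_of_le (comm_iff_le_cent.2 ?_) h8
      rintro _ ⟨a, ha, rfl⟩ _ ⟨b, hb, rfl⟩
      exact congrArg Subtype.val (hab p S b hb a ha)) (ext_mem_irr.2 h2)
    (by
      rw [← ext_res, ext_mem_irr]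
      convert h4 using 2 with n
      exact CA.Ind.ext_of_mem H _ (h1 n.2))
  refine ⟨U, fun u => lin i u, (irr_char (lin_irr i)).2, lin_apply_one i, ?_⟩
  rw [← Ind_top, ext_res_of_on (lin_on i), ← Ind_Ind (le_top : H ≤ ⊤), h6, Ind_top, h3]

end Cfsg.Agent.S0859
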