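import Cfsg.Statements.S0860
import Cfsg.Agent.Lib.Char.BPerm

set_option autoImplicit false
open Cfsg

namespace Cfsg.Agent.S0860

/-- Let a group A act on the set of irreducible characters and on the set of conjugacy classes of a finite group G in such a way that (a • χ) evaluated on the class a • C equals χ evaluated on C, for all a, χ and C. Then every element of A fixes exactly as many irreducible characters as it fixes conjugacy classes. -/
theorem result {G : Type*} [Group G] [Finite G] {A : Type*} [Group A] [MulAction A (Cfsg.IrrCharacter G)] [MulAction A (ConjClasses G)] (hcompat : ∀ (a : A) (χ : Cfsg.IrrCharacter G) (g g' : G), ConjClasses.mk g' = a • ConjClasses.mk g → ((a • χ : Cfsg.IrrCharacter G) : G → ℂ) g' = (χ : G → ℂ) g) (a : A) : Nat.card {χ : Cfsg.IrrCharacter G // a • χ = χ} = Nat.card {C : ConjClasses G // a • C = C} := by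
  have h1 : ∀ g : G, ConjClasses.mk (a⁻¹ • ConjClasses.mk g).out = a⁻¹ • ConjClasses.mk g :=
    fun g => Quotient.out_eq _
  refine CA.BPerm.card_fixed_eq (fun χ => a • χ) (fun g => (a⁻¹ • ConjClasses.mk g).out)
    (fun χ g => hcompat a χ _ g (by rw [h1, smul_inv_smul])) (fun C => a • C = C) fun g => ?_
  rw [← ConjClasses.mk_eq_mk_iff_isConj, h1, inv_smul_eq_iff, eq_comm]

end Cfsg.Agent.S0860
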