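import Cfsg.Statements.S0861
import Cfsg.Agent.Lib.Char.H12Misc
import Cfsg.Agent.Lib.Char.H12Deg
import Cfsg.Agent.Lib.Block.BlkVal

set_option autoImplicit false
open Cfsg

namespace Cfsg.Agent.S0861

open CChar.CharRep CChar.CharFun CChar.CharOrth CChar.CharKer CChar.CharInt CChar.CharGen
  CChar.CharMisc CChar.CharProd CA.H12Misc CA.BlkVal Subgroup
open scoped ComplexConjugate commutatorElement

/-- Let P be a normal abelian Sylow p-subgroup of the finite group G and suppose some element g of P has centralizer exactly P. Then the number of irreducible characters of G is at most the order of P, and if equality holds then G / P is abelian (the commutator subgroup lies in P). -/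
theorem result {G : Type*} [Group G] [Finite G] (p : ℕ) [Fact p.Prime] (P : Sylow p G) [(P : Subgroup G).Normal] (hab : ∀ a ∈ P, ∀ b ∈ P, a * b = b * a) (g : G) (hg : g ∈ P) (hC : Subgroup.centralizer ({g} : Set G) = P) : Nat.card (Cfsg.IrrCharacter G) ≤ Nat.card P ∧ (Nat.card (Cfsg.IrrCharacter G) = Nat.card P → commutator G ≤ P) := by
  classical
  have := Fintype.ofFinite G
  have hp : p.Prime := Fact.out
  obtain ⟨n, hn⟩ := P.isPGroup'.exists_card_eq
  have : NeZero (p ^ n) := ⟨pow_ne_zero _ hp.ne_zero⟩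
  have h0 : g ^ p ^ n = 1 := congrArg Subtype.val (hn ▸ pow_card_eq_one' (x := (⟨g, hg⟩ : P.1)))
  obtain ⟨M, hM⟩ := exists_isPModular hp
  have h1 : ∀ χ : IrrCharacter G, χ.1 g ≠ 0 := fun χ e => by
    obtain ⟨ω, h1, h2⟩ := char_exists_pow_eq_sum (char_of_irr χ.2) (irr_apply_one_eq χ.2) g
    obtain ⟨c, hc⟩ := orderOf_dvd_of_pow_eq_one h0
    have h3 := congrArg (res M) (h2 1)
    simp only [pow_one, e] at h3
    rw [res_zero, res_sum _ _ fun i _ => isIntegral_mem (isIntegral_of_pow_eq_one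
      (orderOf_pos g).ne' (h1 i)), Finset.sum_congr rfl fun i _ => res_eq_one_of_pow_p_pow hM
        (n := n) (by rw [hc, pow_mul, h1, one_pow]), Finset.sum_const, Finset.card_fin, nsmul_one,
      eq_comm, natCast_k_eq_zero_iff hM] at h3
    exact P.not_dvd_index (h3.trans (relIndex_top_right P.1 ▸ CA.H12Deg.ito (CA.PF.nrm_top _)
      ⟨⟨fun a b => Subtype.ext (hab _ a.2 _ b.2)⟩⟩ (CA.PF.mem_irr_top.2 χ.2)))
  have h2 := fun χ : IrrCharacter G => card_units_le_sum_norm_sq (char_of_irr χ.2) h0 (h1 χ)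
  have h3 : ∑ χ : IrrCharacter G, ∑ k : (ZMod (p ^ n))ˣ, ‖χ.1 (g ^ (k : ZMod (p ^ n)).val)‖ ^ 2 =
      Nat.card P * (Fintype.card (ZMod (p ^ n))ˣ : ℝ) := by
    rw [Finset.sum_comm, Finset.sum_congr rfl (g := fun _ => (Nat.card P : ℝ)) fun k _ => ?_,
      Finset.sum_const, Finset.card_univ, nsmul_eq_mul, mul_comm]
    rw [sum_irr_norm_sq, show centralizer {g ^ (k : ZMod (p ^ n)).val} = P from le_antisymm
      (fun x hx => ?_) fun x hx => mem_centralizer_singleton_iff.2 (hab _ hx _ (pow_mem hg _))]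
    obtain ⟨j, hj⟩ := mem_zpowers_pow_iff.2
      ((ZMod.val_coe_unit_coprime k).coprime_dvd_right (orderOf_dvd_of_pow_eq_one h0))
    rw [← hC, mem_centralizer_singleton_iff, ← hj]
    exact Commute.zpow_right (mem_centralizer_singleton_iff.1 hx) j
  have h4 : (0 : ℝ) < Fintype.card (ZMod (p ^ n))ˣ := by exact_mod_cast Fintype.card_pos
  have h5 := Finset.sum_le_sum fun χ (_ : χ ∈ Finset.univ) => h2 χ
  refine ⟨?_, fun h x hx => mem_of_forall_irr fun χ hχ h6 => ?_⟩
  · rw [h3, Finset.sum_const, Finset.card_univ, nsmul_eq_mul, ← Nat.card_eq_fintype_card] at h5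
    exact_mod_cast le_of_mul_le_mul_right h5 h4
  have h7 := (Finset.sum_eq_sum_iff_of_le fun χ _ => h2 χ).1 (by
    rw [h3, Finset.sum_const, Finset.card_univ, nsmul_eq_mul, ← Nat.card_eq_fintype_card, h])
    ⟨χ, hχ⟩ (Finset.mem_univ _)
  simp only [fun k => apply_of_mem_charKer (h6 (pow_mem hg k)), Finset.sum_const, Finset.card_univ,
    nsmul_eq_mul, irr_apply_one_eq hχ, Complex.norm_natCast, left_eq_mul₀ h4.ne',
    ← Nat.cast_pow, Nat.cast_eq_one, Nat.pow_eq_one, or_false, two_ne_zero] at h7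
  exact apply_of_mem_charKer ((irr_apply_one_iff hχ).1 (by rw [irr_apply_one_eq hχ, h7]; simp) hx)

end Cfsg.Agent.S0861
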