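import Cfsg.Statements.S0864
import Cfsg.Agent.Lib.Char.Ext

set_option autoImplicit false
open Cfsg

namespace Cfsg.Agent.S0864

/-- Let N be a normal subgroup of the finite group G and λ a character of N of degree 1 invariant under conjugation by G. Suppose that for every prime p dividing the order of λ (in the group of functions under pointwise multiplication) there is a subgroup H containing N, of index prime to p and with the index of N in H a power of p, together with a character of H of degree 1 restricting to λ. Then λ is the restriction of a character of G of degree 1. -/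
theorem result {G : Type*} [Group G] [Finite G] (N : Subgroup G) [hN : N.Normal] (lam : N → ℂ) (hlam : Cfsg.IsCharacter N lam ∧ lam 1 = 1) (hinv : ∀ (g : G) (n : N), lam ⟨g * n * g⁻¹, hN.conj_mem (n : G) n.2 g⟩ = lam n) (hsyl : ∀ p : ℕ, p.Prime → p ∣ orderOf lam → ∃ (H : Subgroup G) (hNH : N ≤ H) (ν : H → ℂ), Nat.Coprime H.index p ∧ (∃ k : ℕ, N.relIndex H = p ^ k) ∧ Cfsg.IsCharacter H ν ∧ ν 1 = 1 ∧ ∀ n : N, ν ⟨(n : G), hNH n.2⟩ = lam n) : ∃ μ : G → ℂ, Cfsg.IsCharacter G μ ∧ μ 1 = 1 ∧ ∀ n : N, μ n = lam n := by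
  have hirr := CChar.CharFun.irr_of_char_of_apply_one hlam.1 hlam.2
  obtain ⟨χ, hχ, h1⟩ := CA.Ext.exists_ext_of_det_pow hirr (CA.Clif.inertia_eq_top_iff'.2 hinv)
    (d := 1) (k := orderOf lam) (by simpa using hlam.2) 1 (fun n => by
      rw [CA.Ext.detChar_of_apply_one hlam.1 hlam.2]
      exact (congrFun (pow_orderOf_eq_one lam) n).symm) fun p hp _ h => by
      obtain ⟨H, hNH, ν, h1, -, h2, -, h3⟩ := hsyl p hp (by simpa using h)
      exact ⟨H, hNH, ν, (hp.coprime_iff_not_dvd).1 h1.symm, h2, h3⟩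
  exact ⟨χ, CChar.CharFun.char_of_irr hχ, (h1 1).trans hlam.2, h1⟩

end Cfsg.Agent.S0864
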