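import Cfsg.Statements.S0865
import Cfsg.Agent.Lib.Char.Ext

set_option autoImplicit false
open Cfsg

namespace Cfsg.Agent.S0865

/-- Let N be a normal subgroup of the finite group G and λ a character of N of degree 1, invariant under conjugation by G, whose order (under pointwise multiplication) is coprime to the index of N. Then there is a character μ of G of degree 1 restricting to λ with the same order as λ, and μ is the only degree-1 character of G restricting to λ whose order is coprime to the index of N. -/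
theorem result {G : Type*} [Group G] [Finite G] (N : Subgroup G) [hN : N.Normal] (lam : N → ℂ) (hlam : Cfsg.IsCharacter N lam ∧ lam 1 = 1) (hinv : ∀ (g : G) (n : N), lam ⟨g * n * g⁻¹, hN.conj_mem (n : G) n.2 g⟩ = lam n) (hcop : Nat.Coprime N.index (orderOf lam)) : ∃ μ : G → ℂ, (Cfsg.IsCharacter G μ ∧ μ 1 = 1 ∧ (∀ n : N, μ n = lam n) ∧ orderOf μ = orderOf lam) ∧ ∀ μ' : G → ℂ, Cfsg.IsCharacter G μ' ∧ μ' 1 = 1 → (∀ n : N, μ' n = lam n) → Nat.Coprime N.index (orderOf μ') → μ' = μ := by
  have hirr := CChar.CharFun.irr_of_char_of_apply_one hlam.1 hlam.2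
  have hdet : ∀ {K : Type _} [Group K] [Finite K] {μ : K → ℂ}, IsCharacter K μ → μ 1 = 1 →
      detOrder μ = orderOf μ := fun h1 h2 => congrArg orderOf (CA.Ext.detChar_of_apply_one h1 h2)
  obtain ⟨χ, ⟨hχ, h1, h2⟩, h3⟩ := CA.Ext.exists_canonical_ext hirr
    (CA.Clif.inertia_eq_top_iff'.2 hinv) (d := 1) (by simpa using hlam.2)
    (by rwa [mul_one, hdet hlam.1 hlam.2])
  have h4 : χ 1 = 1 := (h1 1).trans hlam.2
  refine ⟨χ, ⟨CChar.CharFun.char_of_irr hχ, h4, h1, ?_⟩, fun μ' h5 h6 h7 =>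
    h3 μ' (CChar.CharFun.irr_of_char_of_apply_one h5.1 h5.2) h6 (by rwa [hdet h5.1 h5.2])⟩
  rw [← hdet (CChar.CharFun.char_of_irr hχ) h4, h2, hdet hlam.1 hlam.2]

end Cfsg.Agent.S0865
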