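import Cfsg.Statements.S0866
import Cfsg.Agent.Lib.Char.Ext

set_option autoImplicit false
open Cfsg

namespace Cfsg.Agent.S0866

/-- Let N be a normal subgroup of the finite group G and ϑ an irreducible character of N, invariant under conjugation by G, of degree d coprime to the index of N. Then ϑ is the restriction of an irreducible character of G if and only if the determinantal character of ϑ is the restriction of a character of G of degree 1. -/
theorem result {G : Type*} [Group G] [Finite G] (N : Subgroup G) [hN : N.Normal] (ϑ : N → ℂ) (hϑ : Cfsg.IsIrrCharacter N ϑ) (hinv : ∀ (g : G) (n : N), ϑ ⟨g * n * g⁻¹, hN.conj_mem (n : G) n.2 g⟩ = ϑ n) (d : ℕ) (hd : ϑ 1 = d) (hcop : Nat.Coprime N.index d) : (∃ χ : G → ℂ, Cfsg.IsIrrCharacter G χ ∧ (∀ n : N, χ n = ϑ n)) ↔ ∃ μ : G → ℂ, Cfsg.IsCharacter G μ ∧ μ 1 = 1 ∧ ∀ n : N, μ n = Cfsg.detChar ϑ n := by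
  constructor
  · rintro ⟨χ, hχ, h⟩
    exact ⟨detChar χ, (CA.Ext.char_detChar χ).1, (CA.Ext.char_detChar χ).2,
      CA.Ext.detChar_ext (CChar.CharFun.char_of_irr hχ) hϑ h⟩
  · rintro ⟨μ, h1, h2, h3⟩
    obtain ⟨lam, rfl⟩ := CChar.CharFun.char_exists_unitsHom_of_apply_one h1 h2
    exact CA.Ext.exists_ext_of_det hϑ (CA.Clif.inertia_eq_top_iff'.2 hinv) hd hcop lam h3

end Cfsg.Agent.S0866
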