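import Cfsg.Statements.S0868
import Cfsg.Agent.Lib.Char.Ind2

set_option autoImplicit false
open scoped ComplexConjugate
open Cfsg

namespace Cfsg.Agent.S0868

/-- Let N be a normal subgroup of the finite group G, χ an irreducible character of G whose restriction ϑ to N is irreducible, and ψ an irreducible character of G. Define η on G by η g = (1 / order of N) * Σ over n in N of ψ (n * g) * conj (χ (n * g)). Then: if the restriction of ψ to N has nonzero inner product with ϑ, η is an irreducible character of G; if that inner product is zero, η vanishes identically; and if ψ = χ then η is identically 1. -/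
theorem result {G : Type*} [Group G] [Fintype G] (N : Subgroup G) [N.Normal] [Fintype N] (χ : G → ℂ) (hχ : Cfsg.IsIrrCharacter G χ) (hχN : Cfsg.IsIrrCharacter N (fun n : N => χ n)) (ψ : G → ℂ) (hψ : Cfsg.IsIrrCharacter G ψ) (η : G → ℂ) (hη : η = fun g => (Nat.card N : ℂ)⁻¹ * ∑ n : N, ψ ((n : G) * g) * conj (χ ((n : G) * g))) : (Cfsg.classInner (fun n : N => ψ n) (fun n : N => χ n) ≠ 0 → Cfsg.IsIrrCharacter G η) ∧ (Cfsg.classInner (fun n : N => ψ n) (fun n : N => χ n) = 0 → η = 0) ∧ (ψ = χ → η = fun _ => 1) := by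
  have hη' : η = CA.Ind2.avg N (fun g => ψ g * conj (χ g)) := hη
  have hc := CChar.CharFun.char_of_irr hχ
  refine ⟨fun h => ?_, fun h => ?_, fun h => ?_⟩
  · obtain ⟨β, h1, h2, rfl⟩ := CA.Gall.exists_eq_mul hc hχN hψ h
    rw [hη', CA.Ind2.avg_mul_conj_of_eq_mul hc hχN h1 h2]; exact h1
  · rw [hη', CA.Ind2.avg_mul_conj_eq_zero hc hχN hψ h]
  · have := CA.Ind2.avg_mul_conj_of_eq_mul hc hχN CChar.CharFun.irr_one (fun _ _ => rfl)
    rw [hη', h, ← this]
    congr 1
    funext g; simp

end Cfsg.Agent.S0868
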