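import Cfsg.Statements.S0869
import Mathlib.GroupTheory.Archimedean
import Mathlib.Algebra.BigOperators.Pi
import Mathlib.Tactic.Ring
import Mathlib.Data.Fintype.EquivFin
import Mathlib.Data.Nat.Prime.Int
import Mathlib.Algebra.Group.Subgroup.ZPowers.Lemmas
import Mathlib.Algebra.BigOperators.Ring.Finset

set_option autoImplicit false
open Cfsg

namespace Cfsg.Agent.S0869

/-- Let S be a nonempty finite type and R an additive subgroup of the integer-valued functions on S that is closed under pointwise multiplication. If the constant function 1 is not in R, then there exist a point x of S and a prime p such that p divides f x for every f in R. -/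
theorem result {S : Type*} [Finite S] [Nonempty S] (R : AddSubgroup (S → ℤ)) (hmul : ∀ f ∈ R, ∀ g ∈ R, f * g ∈ R) (h1 : (1 : S → ℤ) ∉ R) : ∃ (x : S) (p : ℕ), p.Prime ∧ ∀ f ∈ R, (p : ℤ) ∣ f x := by
  classical
  have := Fintype.ofFinite S
  by_contra hcon
  push Not at hcon
  have key : ∀ x : S, ∃ f ∈ R, f x = 1 := by
    intro x
    obtain ⟨a, ha⟩ := Int.subgroup_cyclic (R.map (Pi.evalAddMonoidHom (fun _ : S => ℤ) x))
    have hdvd : ∀ f ∈ R, a ∣ f x := by
      intro f hf
      have : f x ∈ R.map (Pi.evalAddMonoidHom (fun _ : S => ℤ) x) := ⟨f, hf, rfl⟩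
      rw [ha, AddSubgroup.mem_closure_singleton] at this
      obtain ⟨n, hn⟩ := this
      exact ⟨n, by rw [← hn, smul_eq_mul, mul_comm]⟩
    have ha1 : a.natAbs = 1 := by
      by_contra hne
      obtain ⟨p, hp, hpa⟩ := Nat.exists_prime_and_dvd hne
      obtain ⟨f, hf, hf'⟩ := hcon x p hp
      exact hf' ((Int.natCast_dvd.2 hpa).trans (hdvd f hf))
    have hmem : a ∈ R.map (Pi.evalAddMonoidHom (fun _ : S => ℤ) x) := by
      rw [ha]
      exact AddSubgroup.mem_closure_singleton_self a
    obtain ⟨f, hf, hfa⟩ := hmem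
    have hfa' : f x = a := hfa
    rcases Int.natAbs_eq_iff.1 ha1 with h | h
    · exact ⟨f, hf, by rw [hfa', h]; rfl⟩
    · exact ⟨-f, R.neg_mem hf, by rw [Pi.neg_apply, hfa', h]; rfl⟩
  choose f hfR hfx using key
  have h2 : ∀ s : Finset S, 1 - ∏ x ∈ s, (1 - f x) ∈ R := by
    intro s
    induction s using Finset.induction_on with
    | empty => simp
    | insert x s hx ih =>
      rw [Finset.prod_insert hx]
      have : 1 - (1 - f x) * ∏ x ∈ s, (1 - f x)
          = (1 - ∏ x ∈ s, (1 - f x)) + f x - f x * (1 - ∏ x ∈ s, (1 - f x)) := by ring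
      rw [this]
      exact R.sub_mem (R.add_mem ih (hfR x)) (hmul _ (hfR x) _ ih)
  have h3 : ∏ x : S, (1 - f x) = 0 := by
    funext y
    rw [Finset.prod_apply]
    exact Finset.prod_eq_zero (Finset.mem_univ y) (by simp [hfx])
  have := h2 Finset.univ
  rw [h3, sub_zero] at this
  exact h1 this

end Cfsg.Agent.S0869
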