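import Cfsg.Statements.S0870
import Cfsg.Agent.Lib.Char.Mackey

set_option autoImplicit false
open Cfsg

namespace Cfsg.Agent.S0870

/-- For subgroups H and K of a finite group G, the pointwise product of the functions induced from the constant function 1 on H and on K is a sum, over subgroups U of H with natural-number coefficients, of the functions induced from the constant function 1 on U. -/
theorem result {G : Type*} [Group G] [Fintype G] (H K : Subgroup G) : ∃ a : Subgroup G → ℕ, (∀ U, a U ≠ 0 → U ≤ H) ∧ Cfsg.indFun H (fun _ => 1) * Cfsg.indFun K (fun _ => 1) = ∑ U : Subgroup G, (a U : ℂ) • Cfsg.indFun U (fun _ => 1) := by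
  classical
  have := Fintype.ofFinite H
  have := Fintype.ofFinite (DoubleCoset.Quotient (H : Set G) K)
  let U : DoubleCoset.Quotient (H : Set G) K → Subgroup G :=
    fun q => (CA.Mackey.sub K H q.out).map H.subtype
  refine ⟨fun V => (Finset.univ.filter (fun q => U q = V)).card, ?_, ?_⟩
  · intro V hV
    obtain ⟨q, hq⟩ := Finset.card_ne_zero.1 hV
    rw [← (Finset.mem_filter.1 hq).2]
    exact Subgroup.map_subtype_le _
  · rw [← CA.Ind.indFun_res H (CA.Ind.indFun_classFun K _)]
    have h1 : (fun h : H => indFun K (fun _ => (1 : ℂ)) h) =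
        ∑ q : DoubleCoset.Quotient (H : Set G) K,
          indFun (CA.Mackey.sub K H q.out) (fun _ => (1 : ℂ)) := by
      funext h
      rw [CA.Mackey.indFun_res K H (CA.Ind.classFun_const 1), Finset.sum_apply]
      rfl
    rw [h1, CA.Ind.indFun_sum]
    simp only [CA.Ind.indFun_trans_map]
    rw [← Finset.sum_fiberwise_of_maps_to (s := Finset.univ) (t := Finset.univ) (g := U)
      (fun _ _ => Finset.mem_univ _)]
    refine Finset.sum_congr rfl fun V _ => ?_
    rw [Finset.sum_congr rfl (g := fun _ => indFun V (fun _ => (1 : ℂ))), Finset.sum_const,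
      Nat.cast_smul_eq_nsmul]
    intro q hq
    rw [← (Finset.mem_filter.1 hq).2]

end Cfsg.Agent.S0870
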