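import Cfsg.Statements.S0871
import Cfsg.Agent.Lib.Char.H12Ch8

set_option autoImplicit false
open Cfsg

namespace Cfsg.Agent.S0871

open CA.PF CA.OQuo CA.H12Gl CA.H12Gl2 CA.H12Mon CA.H12Ch8 Subgroup
open CA.BG hiding cj cj_one cj_mul cj_inv_cj cj_cj_inv mem_cent1

/-- Let x be an element of the finite group G and p a prime. Then there is a subgroup H having a cyclic normal subgroup C of order prime to p and p-power index in H, such that the value at x of the function induced from the constant function 1 on H is a natural number not divisible by p. -/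
theorem result {G : Type*} [Group G] [Fintype G] (x : G) (p : ℕ) (hp : p.Prime) : ∃ H : Subgroup G, (∃ C : Subgroup G, C ≤ H ∧ H ≤ Subgroup.normalizer (C : Set G) ∧ IsCyclic C ∧ Nat.Coprime (Nat.card C) p ∧ ∃ k : ℕ, C.relIndex H = p ^ k) ∧ ∃ n : ℕ, Cfsg.indFun H (fun _ => 1) x = (n : ℂ) ∧ ¬ p ∣ n := by
  obtain ⟨H, h1, n, h2, h3⟩ := exists_qe hp x
  rw [← ext_one, Ind_top] at h3
  have h4 := h3.symm.trans (CA.Ind.indFun_one_eq_card_fixedBy H x)
  refine ⟨H, h1, _, CA.Ind.indFun_one_eq_card_fixedBy H x, fun h => h2 ?_⟩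
  rw [show n = _ by exact_mod_cast h4]
  exact_mod_cast h

end Cfsg.Agent.S0871
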