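import Cfsg.Statements.S0872
import Cfsg.Agent.Lib.Char.H12Ch8
import Cfsg.Agent.S0870

set_option autoImplicit false
open Cfsg

namespace Cfsg.Agent.S0872

open CA.PF CA.OQuo CA.H12Gl CA.H12Gl2 CA.H12Mon CA.H12Ch8 Subgroup
open CA.BG hiding cj cj_one cj_mul cj_inv_cj cj_cj_inv mem_cent1

/-- For a finite group G and a prime p there are an integer m not divisible by p and a ℤ-linear combination of functions induced from the constant function 1 on subgroups H, each having a cyclic normal subgroup of order prime to p and p-power index in H, that equals the constant function m. -/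
theorem result {G : Type*} [Group G] [Fintype G] (p : ℕ) (hp : p.Prime) : ∃ (m : ℤ) (a : Subgroup G → ℤ), ¬ (p : ℤ) ∣ m ∧ (∀ H, a H ≠ 0 → (∃ C : Subgroup G, C ≤ H ∧ H ≤ Subgroup.normalizer (C : Set G) ∧ IsCyclic C ∧ Nat.Coprime (Nat.card C) p ∧ ∃ k : ℕ, C.relIndex H = p ^ k)) ∧ (fun _ : G => (m : ℂ)) = ∑ H : Subgroup G, (a H : ℂ) • Cfsg.indFun H (fun _ => 1) := by
  classical
  let S : Submodule ℤ (G → ℂ) := Submodule.span ℤ {f | ∃ H, QE p H ∧ f = indFun H fun _ => 1}
  obtain ⟨m, h1, h2⟩ := exists_const_mem (S := S) (span_mul_mem (by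
    rintro _ ⟨H, h, rfl⟩ _ ⟨K, -, rfl⟩
    obtain ⟨a, h1, h2⟩ := Cfsg.Agent.S0870.result H K
    rw [h2]
    refine Submodule.sum_mem _ fun U _ => ?_
    by_cases h3 : a U = 0
    · simp [h3]
    · rw [Nat.cast_smul_eq_nsmul]
      exact nsmul_mem (Submodule.subset_span (by exact ⟨U, h.of_le hp (h1 U h3), rfl⟩)) _)) hp fun x => by
    obtain ⟨H, h1, h2⟩ := exists_qe hp x
    exact ⟨_, Submodule.subset_span ⟨H, h1, by rw [← ext_one, Ind_top]⟩, h2⟩
  suffices h : ∀ f ∈ S, ∃ a : Subgroup G → ℤ, (∀ H, a H ≠ 0 → QE p H) ∧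
      f = ∑ H : Subgroup G, (a H : ℂ) • indFun H (fun _ => 1) by
    obtain ⟨a, h3, h4⟩ := h _ h2
    exact ⟨m, a, h1, h3, h4⟩
  intro f hf
  induction hf using Submodule.span_induction with
  | zero => exact ⟨0, by simp, by simp⟩
  | mem f hf =>
    obtain ⟨H, h, rfl⟩ := hf
    exact ⟨Pi.single H 1, fun K hK => by_contra fun e => hK (Pi.single_eq_of_ne
      (by rintro rfl; exact e h) _), by simp [Pi.single_apply]⟩
  | add f g _ _ hf hg =>
    obtain ⟨a, h3, rfl⟩ := hf
    obtain ⟨b, h4, rfl⟩ := hg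
    exact ⟨a + b, fun H h => by_contra fun e => h (by
      rw [Pi.add_apply, not_not.1 (mt (h3 H) e), not_not.1 (mt (h4 H) e), add_zero]),
      by simp [add_smul, Finset.sum_add_distrib]⟩
  | smul c f _ hf =>
    obtain ⟨a, h3, rfl⟩ := hf
    exact ⟨c • a, fun H h => h3 H (right_ne_zero_of_mul h), by
      simp [Finset.smul_sum, mul_smul, Int.cast_smul_eq_zsmul]⟩

end Cfsg.Agent.S0872
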