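import Cfsg.Statements.S0873
import Cfsg.Agent.Lib.Char.H12Ch8b

set_option autoImplicit false
open Cfsg

namespace Cfsg.Agent.S0873

open CA.PF CA.OQuo CA.H12Gl CA.H12Gl2 CA.H12Mon CA.H12Ch8 CA.H12Ch8b CA.BlkVal Subgroup
open CA.BG hiding cj cj_one cj_mul cj_inv_cj cj_cj_inv mem_cent1

/-- Let C be a normal subgroup of the finite group G of order prime to p and P a p-subgroup with C ⊔ P = G. Let λ be a character of C of degree 1 invariant under conjugation by G and equal to 1 at every element of C centralized by P. Then λ is identically 1. -/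
theorem result {G : Type*} [Group G] [Finite G] (p : ℕ) [Fact p.Prime] (C P : Subgroup G) [hC : C.Normal] (hP : IsPGroup p P) (hcop : Nat.Coprime (Nat.card C) p) (hCP : C ⊔ P = ⊤) (lam : C → ℂ) (hlam : Cfsg.IsCharacter C lam ∧ lam 1 = 1) (hinv : ∀ (g : G) (c : C), lam ⟨g * c * g⁻¹, hC.conj_mem (c : G) c.2 g⟩ = lam c) (hker : ∀ c : C, (c : G) ∈ Subgroup.centralizer (P : Set G) → lam c = 1) : lam = fun _ => 1 := by
  have := Fintype.ofFinite G
  have hp : p.Prime := Fact.out
  have h0 : extendByZero C lam 1 = 1 := (CA.Ind.ext_of_mem _ _ (one_mem _)).trans hlam.2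
  have h1 := ext_isChar.2 hlam.1
  obtain ⟨i, hi⟩ := h1.exists_lin h0
  have hn : P ≤ 𝓝(C) := le_top.trans (nrm_top C).le_normalizer
  have h2 := (le_stab_ext_iff (nrm_top C).le_normalizer lam).2 fun x _ g g' e => by
    rw [← hinv x g]; exact congrArg _ (Subtype.ext e)
  have h3 : C ≤ cfker (extendByZero C lam) := by
    conv_lhs => rw [← coprime_cent_prod hn (((isPi_compl_iff_coprime hp).2 hcop).coprime'
      (isPi_of_isPGroup hp hP)) (Or.inl ((isPi_of_isPGroup hp hP).isSolvable hp))]
    refine sup_le (commutator_le.2 fun c hc g hg => ?_) fun c hc => (h1.mem_cfker hc.1).2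
      (by rw [h0, CA.Ind.ext_of_mem _ _ hc.1, hker ⟨c, hc.1⟩ hc.2])
    have h3 := congrFun (mem_stab.1 (h2 (mem_top g))) c⁻¹
    rw [cj_apply] at h3
    rw [h1.mem_cfker (comm_le_left hn (commutator_mem_commutator hc hg)), commutatorElement_def,
      mul_assoc, mul_assoc, ← mul_assoc g, hi, lin_apply_mul i hc, ← hi, h3, hi,
      ← lin_apply_mul i hc, mul_inv_cancel]
  funext c
  rw [← CA.Ind.ext_of_mem C lam c.2, cfker_apply (h3 c.2), h0]

end Cfsg.Agent.S0873
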