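import Cfsg.Statements.S0874
import Cfsg.Agent.Lib.Char.H12Ch8

set_option autoImplicit false
open Cfsg

namespace Cfsg.Agent.S0874

open CA.PF CA.OQuo CA.H12Gl CA.H12Gl2 CA.H12Mon CA.H12Ch8 Subgroup
open CA.BG hiding cj cj_one cj_mul cj_inv_cj cj_cj_inv mem_cent1

/-- For a finite group G and a prime p there are an integer m not divisible by p and a list of triples (E, φ, c), with E a p-elementary subgroup, φ a character of E and c an integer, such that the constant function m on G equals the sum of the c • (function induced from φ). -/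
theorem result {G : Type*} [Group G] [Fintype G] (p : ℕ) (hp : p.Prime) : ∃ (m : ℤ) (l : List ((E : Subgroup G) × ((E → ℂ) × ℤ))), ¬ (p : ℤ) ∣ m ∧ (∀ t ∈ l, Cfsg.IsElementary p t.1 ∧ Cfsg.IsCharacter t.1 t.2.1) ∧ (fun _ : G => (m : ℂ)) = (l.map fun t => (t.2.2 : ℂ) • Cfsg.indFun t.1 t.2.1).sum := by
  obtain ⟨m, h1, h2⟩ := local_brauer (Γ := G) hp
  obtain ⟨l, h⟩ : _ ∈ lists (fun t : (E : Subgroup G) × ((E → ℂ) × ℤ) =>
      (t.2.2 : ℂ) • indFun t.1 t.2.1) (fun t => IsElementary p t.1 ∧ IsCharacter t.1 t.2.1)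
      fun t h => ⟨⟨t.1, t.2.1, -t.2.2⟩, h, by simp⟩ := Submodule.span_le.2 (by
    rintro _ ⟨E, ψ, h3, h4, rfl⟩
    exact mem_lists ⟨E, fun e => ψ e, 1⟩ ⟨h3, h4.2⟩ (by simp [← Ind_top, ext_res_of_on h4.1])) h2
  exact ⟨m, l, h1, h⟩

end Cfsg.Agent.S0874
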