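import Cfsg.Statements.S0875
import Cfsg.Agent.Lib.Char.H12Ch8b

set_option autoImplicit false
open Cfsg

namespace Cfsg.Agent.S0875

open CA.PF CA.OQuo CA.H12Gl CA.H12Gl2 CA.H12Mon CA.H12Ch8 CA.H12Ch8b CA.BlkVal Subgroup
open CA.BG hiding cj cj_one cj_mul cj_inv_cj cj_cj_inv mem_cent1

/-- Let G be a finite group of order m * n with m and n coprime, and g an element whose order is coprime to m. Every x in G factors uniquely as x = u * v with u, v commuting, the order of u coprime to n and the order of v coprime to m; let ϑ be the function on G equal to n at those x whose factor v is conjugate to g and equal to 0 elsewhere. Then ϑ is a linear combination of the irreducible characters of G with algebraic-integer coefficients. -/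
theorem result {G : Type*} [Group G] [Fintype G] (m n : ℕ) (hmn : Nat.card G = m * n) (hcop : Nat.Coprime m n) (g : G) (hg : Nat.Coprime (orderOf g) m) (ϑ : G → ℂ) (hϑ1 : ∀ x : G, (∃ v : G, IsConj v g ∧ (∃ u : G, x = u * v ∧ Commute u v ∧ Nat.Coprime (orderOf u) n ∧ Nat.Coprime (orderOf v) m)) → ϑ x = n) (hϑ0 : ∀ x : G, (¬ ∃ v : G, IsConj v g ∧ (∃ u : G, x = u * v ∧ Commute u v ∧ Nat.Coprime (orderOf u) n ∧ Nat.Coprime (orderOf v) m)) → ϑ x = 0) : ∃ c : Cfsg.IrrCharacter G → ℂ, (∀ χ, c χ ∈ Cfsg.AlgInt) ∧ ϑ = ∑ᶠ χ : Cfsg.IrrCharacter G, c χ • (χ : G → ℂ) := by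
  classical
  obtain ⟨e, h⟩ := exists_pe hmn hcop
  have h1 : ϑ = fun x => if IsConj (x ^ e) g then (n : ℂ) else 0 := funext fun x => by
    split_ifs with h1
    · exact hϑ1 x ⟨_, h1, x * (x ^ e)⁻¹, by simp, by
        exact (((Commute.refl x).pow_right e).mul_left (Commute.refl _).inv_left),
        hcop.coprime_dvd_left (h.orderOf_rest x), hcop.symm.coprime_dvd_left (h.orderOf_pow x)⟩
    · exact hϑ0 x fun ⟨v, h2, u, h3, h4, h5, h6⟩ => h1 (by rwa [h3, h.pow_mul h4 h5 h6])
  refine ⟨fun χ => classInner ϑ χ.1, fun χ => ?_, ?_⟩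
  · simp only [← dot_top, h1]
    exact h.dot_ind g (irr_VC (mem_irr_top.2 χ.2))
  · rw [finsum_eq_sum_of_fintype]
    refine CChar.CharOrth.classFun_eq_sum (h1 ▸ fun x k => ?_)
    exact if_congr (conj_pow (a := k) ▸ ⟨fun h => (isConj_iff.2 ⟨k, rfl⟩).trans h,
      fun h => (isConj_iff.2 ⟨k, rfl⟩).symm.trans h⟩) rfl rfl

end Cfsg.Agent.S0875
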