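import Cfsg.Statements.S0876
import Cfsg.Agent.Lib.Char.H12Ch8b

set_option autoImplicit false
open Cfsg

namespace Cfsg.Agent.S0876

open CA.PF CA.OQuo CA.H12Gl CA.H12Gl2 CA.H12Mon CA.H12Ch8 CA.H12Ch8b CA.BlkVal Subgroup
open CA.BG hiding cj cj_one cj_mul cj_inv_cj cj_cj_inv mem_cent1

/-- Let G be a finite group, p a prime and M a maximal ideal of the ring of algebraic integers containing p. Let x, y be elements with p-parts a and b (so a⁻¹ * x and b⁻¹ * y are their p-regular parts). Then a⁻¹ * x and b⁻¹ * y are conjugate in G if and only if, for every irreducible character χ, the difference χ x - χ y lies in the local ideal at M. -/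
theorem result {G : Type*} [Group G] [Finite G] (p : ℕ) (M : Ideal Cfsg.AlgInt) (hM : Cfsg.IsPModular p M) (x y a b : G) (ha : Cfsg.IsPPart p x a) (hb : Cfsg.IsPPart p y b) : IsConj (a⁻¹ * x) (b⁻¹ * y) ↔ ∀ χ : Cfsg.IrrCharacter G, Cfsg.MemLocalIdeal M ((χ : G → ℂ) x - (χ : G → ℂ) y) := by
  classical
  have := Fintype.ofFinite G
  have hp := hM.1
  rw [← (CA.H12PPart.isPPart_iff hp).1 ha, ← (CA.H12PPart.isPPart_iff hp).1 hb,
    ← CA.H12PPart.pReg_def, ← CA.H12PPart.pReg_def]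
  have hi := fun (χ : IrrCharacter G) g => (irr_char (mem_irr_top.2 χ.2)).isIntegral g
  simp only [fun χ => memLocalIdeal_sub_iff hM (isAlgebraic_of_isIntegral (hi χ x))
    (isAlgebraic_of_isIntegral (hi χ y)) (isIntegral_mem (hi χ x)) (isIntegral_mem (hi χ y))]
  refine ⟨fun h χ => ?_, fun h => by_contra fun hn => ?_⟩
  · obtain ⟨c, hc⟩ := isConj_iff.1 h
    rw [← res_pReg hM (irr_char (mem_irr_top.2 χ.2)) x,
      ← res_pReg hM (irr_char (mem_irr_top.2 χ.2)) y, ← hc,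
      CChar.CharFun.irr_classFun χ.2]
  have h0 : Nat.card G ≠ 0 := Nat.card_pos.ne'
  obtain ⟨e, he⟩ := exists_pe (Γ := G) (Nat.ordProj_mul_ordCompl_eq_self _ p).symm
    ((Nat.coprime_ordCompl hp h0).pow_left _)
  have h1 : ∀ g : G, g ^ e = CA.H12PPart.pReg p g := fun g => by
    obtain ⟨k, hk⟩ := CA.H12PPart.orderOf_pPart hp g
    conv_lhs => rw [← CA.H12PPart.pPart_mul_pReg p g]
    exact he.pow_mul (CA.H12PPart.commute_pPart_pReg hp g)
      (hk ▸ (Nat.coprime_ordCompl hp h0).pow_left _)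
      (((Nat.Prime.coprime_iff_not_dvd hp).2 (CA.H12PPart.not_dvd_orderOf_pReg hp g)).symm.pow_right _)
  have h2 := fun (χ : G → ℂ) (h : χ ∈ irr (⊤ : Subgroup G)) => he.dot_ind (y ^ e) (irr_VC h)
  have h3 := CF_expand_apply (mem_CF (K := ⊤) (fun _ h => (h trivial).elim) (he.pow_CInv
    (F := fun x => if IsConj x (y ^ e) then ((ordCompl[p] (Nat.card G) : ℕ) : ℂ) else 0)
    fun k _ x => if_congr ⟨fun h => (isConj_iff.2 ⟨k, rfl⟩).trans h,
      fun h => (isConj_iff.2 ⟨k, rfl⟩).symm.trans h⟩ rfl rfl))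
  have h4 := fun g => (congrArg (res M) (h3 g)).trans ((res_sum _ _ fun χ hχ => mul_mem
    (isIntegral_mem (h2 χ hχ)) (isIntegral_mem ((irr_char hχ).isIntegral g))).trans
    (Finset.sum_congr rfl fun χ hχ => res_mul (isIntegral_mem (h2 χ hχ))
      (isIntegral_mem ((irr_char hχ).isIntegral g))))
  have h5 := (h4 x).trans ((Finset.sum_congr rfl fun χ hχ =>
    congrArg _ (h ⟨χ, mem_irr_top.1 hχ⟩)).trans (h4 y).symm)
  rw [if_pos (IsConj.refl _), if_neg (by rwa [h1, h1]), res_zero, res_natCast] at h5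
  exact Nat.not_dvd_ordCompl hp h0 ((natCast_k_eq_zero_iff hM _).1 h5.symm)

end Cfsg.Agent.S0876
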