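import Cfsg.Statements.S0878
import Mathlib
import Cfsg.Agent.Lib.Perm.ZassMain

set_option autoImplicit false
open Cfsg

namespace Cfsg.Agent.S0878

open CA.Zass

/-- Let G be a Zassenhaus group on the finite set Ω, a a point, and let H be the subgroup of the stabilizer of a consisting of the identity and the elements fixing no point other than a (given here as a subgroup of the stabilizer of order one less than the number of points whose non-identity elements fix only a; it is the Frobenius kernel of the stabilizer). Then an element outside the stabilizer of a conjugates no non-identity element of H into H, and the normalizer of H is exactly the stabilizer of a. -/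
theorem result {G Ω : Type*} [Group G] [Finite G] [MulAction G Ω] [Fintype Ω] (hZ : Cfsg.IsZassenhausGroup G Ω) (a : Ω) (H : Subgroup G) (hHa : H ≤ MulAction.stabilizer G a) (hHcard : Nat.card H + 1 = Fintype.card Ω) (hHfix : ∀ u ∈ H, u ≠ 1 → ∀ c : Ω, u • c = c → c = a) : (∀ g : G, g ∉ MulAction.stabilizer G a → ∀ u ∈ H, g * u * g⁻¹ ∈ H → u = 1) ∧ Subgroup.normalizer (H : Set G) = MulAction.stabilizer G a := by
  have h := zt_of hZ
  obtain ⟨-, -, c, d, hcd, -⟩ := hZ.2.2.2.1
  have : Nontrivial Ω := ⟨c, d, hcd⟩
  obtain ⟨b, hb⟩ := exists_ne a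
  obtain ⟨U, hU⟩ := h.exists_split hb
  have h1 := hU.card_Ω hb
  have h2 : H = U := Subgroup.eq_of_le_of_card_ge (fun u hu => (h.mem_iff hU hb).2
    ⟨hHa hu, or_iff_not_imp_left.2 (hHfix u hu)⟩) (by rw [← Nat.card_eq_fintype_card] at hHcard; omega)
  subst h2
  exact ⟨fun g hg u hu h3 => by_contra fun h4 => hg (hU.fix_of_conj_mem hu h4 h3),
    hU.normalizer_eq (h.U_ne_bot hU hb (St_ne_bot hZ hb.symm))⟩

end Cfsg.Agent.S0878
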