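import Cfsg.Statements.S0889
import Cfsg.Agent.Lib.Char.H12Berger2

set_option autoImplicit false
open Cfsg

namespace Cfsg.Agent.S0889

open CA.PF CA.OQuo CA.H12Gl CA.H12Gl2 CA.H12Gl3 CA.H12Tri CA.H12Mon CA.H12Berger Subgroup
open CA.BG hiding cj cj_one cj_mul cj_inv_cj cj_cj_inv mem_cent1

/-- Let G be a finite solvable group and χ an irreducible character of G such that for every normal subgroup N the restriction of χ to N is a natural-number multiple of one irreducible character of N. Then χ is not induced from a character of any proper subgroup. -/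
theorem result {G : Type*} [Group G] [Fintype G] [Group.IsSolvable G] (χ : G → ℂ) (hχ : Cfsg.IsIrrCharacter G χ) (hqp : ∀ (N : Subgroup G), N.Normal → ∃ (ϑ : N → ℂ) (e : ℕ), Cfsg.IsIrrCharacter N ϑ ∧ (fun n : N => χ n) = (e : ℂ) • ϑ) (K : Subgroup G) (hK : K ≠ ⊤) (ψ : K → ℂ) (hψ : Cfsg.IsCharacter K ψ) : Cfsg.indFun K ψ ≠ χ := by
  obtain ⟨n, hn⟩ := Group.IsSolvable.solvable (G := G)
  rw [← Ind_top]
  refine CA.H12Berger2.berger (mem_irr_top.2 hχ) (nrm_bot ⊤) hn.le (fun M h _ => ?_) bot_le hK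
    (ext_isChar.2 hψ)
  obtain ⟨φ, e, h4, h5⟩ := hqp M h.normal_of_top
  refine ⟨_, ext_mem_irr.2 h4, e, ?_⟩
  rw [← ext_res, h5]
  exact CF_ext (ext_on _ _) (Submodule.smul_mem _ _ (ext_on _ _)) fun x hx => by
    rw [Pi.smul_apply, CA.Ind.ext_of_mem _ _ hx, CA.Ind.ext_of_mem _ _ hx, Pi.smul_apply]

end Cfsg.Agent.S0889
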