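import Cfsg.Statements.S0890
import Cfsg.Agent.Lib.Char.H12Berger

set_option autoImplicit false
open Cfsg

namespace Cfsg.Agent.S0890

open CA.PF CA.OQuo CA.H12Gl CA.H12Gl2 CA.H12Gl3 CA.H12Tri CA.H12Mon CA.H12Berger Subgroup
open CA.BG hiding cj cj_one cj_mul cj_inv_cj cj_cj_inv mem_cent1

/-- Let L ≤ H < G with L normal in G, H a maximal subgroup and G / L solvable. Let ϑ be an irreducible character of H whose restriction to L is irreducible and whose induction χ to G is irreducible. Then there is a normal subgroup M of G containing L such that the restriction of χ to M is not a natural-number multiple of a single irreducible character of M. -/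
theorem result {G : Type*} [Group G] [Fintype G] (L H : Subgroup G) [L.Normal] (hLH : L ≤ H) (hmax : IsCoatom H) (hsolv : Group.IsSolvable (G ⧸ L)) (ϑ : H → ℂ) (hϑ : Cfsg.IsIrrCharacter H ϑ) (hϑL : Cfsg.IsIrrCharacter L (fun x : L => ϑ ⟨(x : G), hLH x.2⟩)) (hind : Cfsg.IsIrrCharacter G (Cfsg.indFun H ϑ)) : ∃ M : Subgroup G, M.Normal ∧ L ≤ M ∧ ¬ ∃ (φ : M → ℂ) (e : ℕ), Cfsg.IsIrrCharacter M φ ∧ (fun m : M => Cfsg.indFun H ϑ m) = (e : ℂ) • φ := by
  obtain ⟨M, h1, h2, h3⟩ := exists_not_hmg hmax (nrm_top L) hLH (solOver_of_quot hsolv)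
    (ext_mem_irr.2 hϑ) (by
      rw [← ext_res, ext_mem_irr]
      convert hϑL using 2 with n
      exact CA.Ind.ext_of_mem H _ (hLH n.2)) (Ind_top H ϑ ▸ mem_irr_top.2 hind)
  refine ⟨M, h1.normal_of_top, h2, fun ⟨φ, e, h4, h5⟩ => h3 ⟨_, ext_mem_irr.2 h4, e, ?_⟩⟩
  rw [Ind_top, ← ext_res, h5]
  exact CF_ext (ext_on _ _) (Submodule.smul_mem _ _ (ext_on _ _)) fun x hx => by
    rw [Pi.smul_apply, CA.Ind.ext_of_mem _ _ hx, CA.Ind.ext_of_mem _ _ hx, Pi.smul_apply]

end Cfsg.Agent.S0890
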