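import Cfsg.Statements.S0891
import Cfsg.Agent.Lib.Grp.SchurAlt

set_option autoImplicit false
open Cfsg

namespace Cfsg.Agent.S0891

/-- For every n ≥ 4 there are a finite group Γ and a central element z of Γ of order 2 lying in the commutator subgroup of Γ such that the quotient of Γ by the (normal) subgroup generated by z is isomorphic to the alternating group on n letters. -/
theorem result (n : ℕ) (hn : 4 ≤ n) : ∃ (Γ : Type) (_ : Group Γ) (_ : Finite Γ) (z : Γ) (hz : z ∈ Subgroup.center Γ), orderOf z = 2 ∧ z ∈ commutator Γ ∧ ∃ _ : (Subgroup.zpowers z).Normal, Nonempty (Γ ⧸ Subgroup.zpowers z ≃* alternatingGroup (Fin n)) := by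
  obtain ⟨H, _, Δ, _, h1, h2⟩ := CA.SchurAlt.exists_double (α := Fin n) (by simpa using hn)
  set τ := (MonoidHom.fst _ _).comp Δ.subtype
  haveI : Fact (Nat.Prime 2) := ⟨Nat.prime_two⟩
  obtain ⟨z, hz⟩ := exists_prime_orderOf_dvd_card' (G := τ.ker) 2 h2.symm.dvd
  rw [← Subgroup.orderOf_coe] at hz
  have h3 : Subgroup.zpowers z.1 = τ.ker :=
    Subgroup.eq_of_le_of_card_ge (Subgroup.zpowers_le.mpr z.2) (by rw [h2, Nat.card_zpowers, hz])
  haveI : (Subgroup.zpowers z.1).Normal := by rw [h3]; infer_instance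
  exact ⟨Δ, _, inferInstance, z, h1.2.1 z.2, hz, h1.2.2 z.2, inferInstance,
    ⟨(QuotientGroup.quotientMulEquivOfEq h3).trans (QuotientGroup.quotientKerEquivOfSurjective τ h1.1)⟩⟩

end Cfsg.Agent.S0891
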