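import Cfsg.Statements.S0893
import Cfsg.Agent.Lib.Char.H12Misc

set_option autoImplicit false
open Cfsg

namespace Cfsg.Agent.S0893

open CChar.CharRep CChar.CharFun CChar.CharOrth CChar.CharKer CChar.CharInt CChar.CharGen
  CChar.CharMisc CChar.CharProd CA.H12Misc Subgroup
open scoped ComplexConjugate commutatorElement

/-- Let P be an extraspecial p-group of order p ^ (2 * n + 1), A an abelian subgroup of order p ^ (n + 1), and λ a character of A of degree 1 that is not identically 1 on the elements of A lying in the centre of P. Then the function induced from λ to P is an irreducible character of P and vanishes at every element outside the centre. -/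
theorem result {P : Type*} [Group P] [Fintype P] (p n : ℕ) [Fact p.Prime] (hP : Cfsg.IsExtraspecial p P) (hcard : Nat.card P = p ^ (2 * n + 1)) (A : Subgroup P) (hab : ∀ a ∈ A, ∀ b ∈ A, a * b = b * a) (hA : Nat.card A = p ^ (n + 1)) (lam : A → ℂ) (hlam : Cfsg.IsCharacter A lam ∧ lam 1 = 1) (hZ : ∃ a : A, (a : P) ∈ Subgroup.center P ∧ lam a ≠ 1) : Cfsg.IsIrrCharacter P (Cfsg.indFun A lam) ∧ ∀ x : P, x ∉ Subgroup.center P → Cfsg.indFun A lam x = 0 := by
  have := Fintype.ofFinite A
  obtain ⟨a, h1, h2⟩ := hZ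
  have h3 := CA.MatRep.isCharacter_indFun A hlam.1
  have h4 := irr_of_char_of_apply_one hlam.1 hlam.2
  obtain ⟨χ, h5, h6⟩ := CA.Cons.exists_irr_over A h4
  obtain ⟨h7, h8⟩ := extra_nonlin hP hcard h5 fun h => h2 (hlam.2 ▸ apply_of_mem_charKer
    (charKer_le_of_inner_ne_zero (char_restrict (char_of_irr h5) A) h4 h6
      (charKer_comp_le χ A.subtype (h h1))))
  have h9 := A.card_mul_index
  rw [hA, hcard, show 2 * n + 1 = n + 1 + n by ring, pow_add p (n + 1),
    Nat.mul_right_inj (pow_ne_zero _ (Fact.out : p.Prime).ne_zero)] at h9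
  rw [eq_of_inner_ne_zero_of_apply_one h3 h5 (by
    rwa [CA.Ind.inner_ind_left _ _ (irr_classFun h5), Ne, inner_eq_zero_comm]) (by
      rw [CA.Ind.indFun_one, hlam.2, irr_apply_one_eq h5, h7, h9, mul_one])]
  exact ⟨h5, h8⟩

end Cfsg.Agent.S0893
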