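import Cfsg.Statements.S0894
import Cfsg.Agent.Lib.Char.H12Misc

set_option autoImplicit false
open Cfsg

namespace Cfsg.Agent.S0894

open CChar.CharRep CChar.CharFun CChar.CharOrth CChar.CharKer CChar.CharInt CChar.CharGen
  CChar.CharMisc CChar.CharProd CA.H12Misc Subgroup
open scoped ComplexConjugate commutatorElement

/-- Let P be an extraspecial p-group of order p ^ (2 * n + 1). Then every irreducible character of P has degree 1 or p ^ n, and exactly p - 1 of them have degree p ^ n. -/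
theorem result {P : Type*} [Group P] [Finite P] (p n : ℕ) [Fact p.Prime] (hP : Cfsg.IsExtraspecial p P) (hcard : Nat.card P = p ^ (2 * n + 1)) : (∀ χ : Cfsg.IrrCharacter P, (χ : P → ℂ) 1 = 1 ∨ (χ : P → ℂ) 1 = (p : ℂ) ^ n) ∧ Nat.card {χ : Cfsg.IrrCharacter P // (χ : P → ℂ) 1 = (p : ℂ) ^ n} = p - 1 := by
  classical
  have hp : p.Prime := Fact.out
  have h1 : ∀ χ : IrrCharacter P, ¬ center P ≤ charKer χ.1 → χ.1 1 = (p : ℂ) ^ n := fun χ h => by
    rw [irr_apply_one_eq χ.2, (extra_nonlin hP hcard χ.2 h).1, Nat.cast_pow]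
  have h2 : ∀ χ : IrrCharacter P, center P ≤ charKer χ.1 → χ.1 1 = 1 := fun χ h =>
    (irr_apply_one_iff χ.2).2 (hP.1.2.2.le.trans h)
  refine ⟨fun χ => (em _).imp (h2 χ) (h1 χ), ?_⟩
  have h3 := sum_degree_sq (G := P)
  rw [← Finset.sum_filter_add_sum_filter_not _ fun χ => center P ≤ charKer χ.1,
    sum_degree_sq_quotient, Finset.sum_congr rfl fun χ h => by rw [h1 χ (Finset.mem_filter.1 h).2],
    Finset.sum_const, nsmul_eq_mul, hcard, Finset.filter_congr
    (p := fun χ : IrrCharacter P => ¬ center P ≤ charKer χ.1) (q := fun χ => χ.1 1 = (p : ℂ) ^ n)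
      fun χ _ => ⟨h1 χ, fun h h' => (Nat.one_lt_pow (extra_pos hP hcard) hp.one_lt).ne (by
        exact_mod_cast (h2 χ h').symm.trans h)⟩] at h3
  have h4 := (center P).card_mul_index
  rw [hP.2, hcard, pow_succ', Nat.mul_right_inj hp.ne_zero] at h4
  rw [h4, ← pow_mul, mul_comm n] at h3
  rw [Nat.card_eq_fintype_card, Fintype.card_subtype]
  refine Nat.eq_sub_of_add_eq (Nat.eq_of_mul_eq_mul_right (pow_pos hp.pos (2 * n)) ?_)
  rw [← pow_succ', add_mul, one_mul, add_comm]
  exact_mod_cast h3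

end Cfsg.Agent.S0894
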