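import Cfsg.Statements.S0895
import Cfsg.Agent.Lib.Char.CharProd

set_option autoImplicit false
open Cfsg

namespace Cfsg.Agent.S0895

open Matrix

/-- Let χ be a real-valued irreducible character of a finite group G whose degree is an odd natural number. Then the average over s in G of χ (s * s) equals 1. -/
theorem result {G : Type*} [Group G] [Fintype G] (χ : G → ℂ) (hχ : Cfsg.IsIrrCharacter G χ) (hreal : ∀ g : G, (χ g).im = 0) (d : ℕ) (hd : χ 1 = d) (hodd : Odd d) : (Nat.card G : ℂ)⁻¹ * ∑ s : G, χ (s * s) = 1 := by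
  classical
  obtain ⟨n, ρ, hirr, rfl, hn, -⟩ := CChar.CharFun.irr_exists_rep hχ
  obtain rfl : n = d := by exact_mod_cast hn.symm.trans hd
  let R : G → Matrix (Fin n) (Fin n) ℂ := fun g => LinearMap.toMatrix' (ρ g)
  have hR : ∀ g h, R (g * h) = R g * R h := fun g h => by
    simp only [R, map_mul, LinearMap.toMatrix'_mul]
  have htr : ∀ g, ρ.character g = (R g).trace := fun g => by
    exact LinearMap.trace_eq_matrix_trace ℂ (Pi.basisFun ℂ (Fin n)) (ρ g)
  have key : ∀ M : Matrix (Fin n) (Fin n) ℂ, (∀ g, (R g)ᵀ * M * R g = M) → Mᵀ = -M → M = 0 := by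
    intro M h1 h2
    have h3 : M.det = 0 := by
      have := congrArg Matrix.det h2
      rw [det_transpose, det_neg, Fintype.card_fin, hodd.neg_one_pow] at this
      linear_combination this / 2
    obtain ⟨v, hv, hv0⟩ := exists_mulVec_eq_zero_iff.2 h3
    let U : Subrepresentation ρ := ⟨LinearMap.ker (Matrix.toLin' M), fun g w hw => by
      have h4 : M * R g = (R g⁻¹)ᵀ * M := by
        conv_rhs => rw [← h1 g]
        rw [← Matrix.mul_assoc, ← Matrix.mul_assoc, ← transpose_mul, ← hR, mul_inv_cancel]
        simp [R]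
      rw [LinearMap.mem_ker, toLin'_apply] at hw ⊢
      rw [← LinearMap.toMatrix'_mulVec, mulVec_mulVec]
      change (M * R g) *ᵥ w = 0
      rw [h4, ← mulVec_mulVec, hw, mulVec_zero]⟩
    rcases eq_bot_or_eq_top U with h | h
    · have : v ∈ U.toSubmodule := hv0
      rw [h] at this
      exact absurd this hv
    · have : LinearMap.ker (Matrix.toLin' M) = ⊤ := congrArg Subrepresentation.toSubmodule h
      exact (LinearEquiv.map_eq_zero_iff Matrix.toLin').1 (LinearMap.ker_eq_top.1 this)
  have sym : ∀ i j, ∑ g, R g i j * R g j i = ∑ g, R g i i * R g j j := by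
    intro i j
    have h1 := key (∑ g, (R g)ᵀ * (single i j 1 - single j i 1) * R g) (fun h => by
      rw [Matrix.mul_sum, Matrix.sum_mul]
      refine Fintype.sum_equiv (Equiv.mulRight h) _ _ fun g => ?_
      simp only [Equiv.coe_mulRight, hR, transpose_mul, Matrix.mul_assoc]) (by
      rw [transpose_sum, ← Finset.sum_neg_distrib]
      refine Finset.sum_congr rfl fun g _ => ?_
      simp only [transpose_mul, transpose_transpose, transpose_sub, transpose_single, Matrix.mul_assoc,
        Matrix.mul_sub, Matrix.sub_mul, neg_sub])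
    have h2 := congrFun (congrFun h1 j) i
    have h3 : ∀ (A : Matrix (Fin n) (Fin n) ℂ) a b c d, (Aᵀ * single a b (1 : ℂ) * A : Matrix (Fin n) (Fin n) ℂ) c d = A a c * A b d := by
      intro A a b c d
      simp [Matrix.mul_apply, single, ite_and]
    simp only [Matrix.sum_apply, Matrix.mul_sub, Matrix.sub_mul, Matrix.sub_apply, h3, Finset.sum_sub_distrib,
      Matrix.zero_apply, sub_eq_zero] at h2
    rw [h2]
    exact Finset.sum_congr rfl fun g _ => mul_comm _ _
  rw [← CChar.CharFun.inner_irr_self hχ, classInner]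
  congr 1
  have h5 : ∀ g, (starRingEnd ℂ) (ρ.character g) = ρ.character g := fun g =>
    Complex.conj_eq_iff_im.2 (hreal g)
  simp only [h5]
  simp only [htr, hR, Matrix.trace, diag_apply, Matrix.mul_apply, Finset.sum_mul_sum]
  rw [Finset.sum_comm, Finset.sum_comm (s := Finset.univ (α := G))]
  refine Finset.sum_congr rfl fun i _ => ?_
  rw [Finset.sum_comm, Finset.sum_comm (s := Finset.univ (α := G))]
  exact Finset.sum_congr rfl fun j _ => sym i j

end Cfsg.Agent.S0895
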