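import Cfsg.Statements.S0896
import Cfsg.Agent.Lib.Char.H12Ch8b

set_option autoImplicit false
open scoped ComplexConjugate
open Cfsg

namespace Cfsg.Agent.S0896

open CA.PF CA.OQuo CA.H12Gl CA.H12Gl2 CA.H12Mon CA.H12Ch8 CA.H12Ch8b CA.BlkVal Subgroup
open CA.BG hiding cj cj_one cj_mul cj_inv_cj cj_cj_inv mem_cent1

/-- Let N be a normal subgroup of the finite group G with the index of N a power of the prime p, and ϑ an irreducible character of N invariant under conjugation by G. Then there are a p-elementary subgroup E of G with E ⊔ N = ⊤ and an irreducible character φ of the subgroup E ⊓ N, invariant under conjugation by E, such that the inner product of the restriction of ϑ to E ⊓ N with φ is an integer not divisible by p. -/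
theorem result {G : Type*} [Group G] [Fintype G] (p : ℕ) (hp : p.Prime) (N : Subgroup G) [hN : N.Normal] (hind : ∃ k : ℕ, N.index = p ^ k) (ϑ : N → ℂ) (hϑ : Cfsg.IsIrrCharacter N ϑ) (hinv : ∀ (g : G) (n : N), ϑ ⟨g * n * g⁻¹, hN.conj_mem (n : G) n.2 g⟩ = ϑ n) : ∃ (E : Subgroup G) (φ : ↥(E ⊓ N) → ℂ), Cfsg.IsElementary p E ∧ E ⊔ N = ⊤ ∧ Cfsg.IsIrrCharacter ↥(E ⊓ N) φ ∧ (∀ (g : G) (hg : g ∈ E) (x : ↥(E ⊓ N)), φ ⟨g * x * g⁻¹, ⟨(E.mul_mem (E.mul_mem hg x.2.1) (E.inv_mem hg)), hN.conj_mem (x : G) x.2.2 g⟩⟩ = φ x) ∧ ∃ m : ℕ, ¬ p ∣ m ∧ (Nat.card ↥(E ⊓ N) : ℂ)⁻¹ * ∑ᶠ x : ↥(E ⊓ N), ϑ ⟨(x : G), x.2.2⟩ * conj (φ x) = (m : ℂ) := by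
  obtain ⟨k, hk⟩ := hind
  obtain ⟨E, h1, h2, φ, h3, h4, m, h5, h6⟩ := exists_elem hp (nrm_top N) (hk ▸ piNat_pow hp k)
    (ext_mem_irr.2 hϑ) ((le_stab_ext_iff (nrm_top N).le_normalizer ϑ).2 fun x _ g g' e => by
      rw [← hinv x g]; exact congrArg _ (Subtype.ext e))
  have := Fintype.ofFinite ↥(E ⊓ N)
  refine ⟨E, fun x => φ x, h1, h2, (mem_irr.1 h3).2, fun g hg x =>
    congrFun (mem_stab.1 (h4 hg)) x, m, h6, ?_⟩
  rw [← h5, dot_eq_sum_right _ _ (irr_on h3), ← sum_subgroup_fs, finsum_eq_sum_of_fintype]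
  simp only [fun x : ↥(E ⊓ N) => CA.Ind.ext_of_mem N ϑ x.2.2]

end Cfsg.Agent.S0896
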