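import Cfsg.Statements.S0897
import Cfsg.Agent.Lib.Char.H12Ch8b

set_option autoImplicit false
open Cfsg

namespace Cfsg.Agent.S0897

open CA.PF CA.OQuo CA.H12Gl CA.H12Gl2 CA.H12Mon CA.H12Ch8 CA.H12Ch8b CA.BlkVal Subgroup
open CA.BG hiding cj cj_one cj_mul cj_inv_cj cj_cj_inv mem_cent1

/-- Let N be a normal subgroup of the finite group G with the index of N a power of the prime p, and P a Sylow p-subgroup of G such that P ⊓ N lies in the centre of P and every character of degree 1 of P ⊓ N is the restriction of a character of degree 1 of P. Then every irreducible character of N invariant under conjugation by G is the restriction of an irreducible character of G. -/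
theorem result {G : Type*} [Group G] [Fintype G] (p : ℕ) [Fact p.Prime] (N : Subgroup G) [hN : N.Normal] (hind : ∃ k : ℕ, N.index = p ^ k) (P : Sylow p G) (hcent : ∀ x ∈ (P : Subgroup G) ⊓ N, ∀ y ∈ (P : Subgroup G), x * y = y * x) (hlin : ∀ lam : ↥((P : Subgroup G) ⊓ N) → ℂ, Cfsg.IsCharacter ↥((P : Subgroup G) ⊓ N) lam → lam 1 = 1 → ∃ μ : ↥(P : Subgroup G) → ℂ, Cfsg.IsCharacter ↥(P : Subgroup G) μ ∧ μ 1 = 1 ∧ ∀ x : ↥((P : Subgroup G) ⊓ N), μ ⟨(x : G), x.2.1⟩ = lam x) (ϑ : N → ℂ) (hϑ : Cfsg.IsIrrCharacter N ϑ) (hinv : ∀ (g : G) (n : N), ϑ ⟨g * n * g⁻¹, hN.conj_mem (n : G) n.2 g⟩ = ϑ n) : ∃ χ : G → ℂ, Cfsg.IsIrrCharacter G χ ∧ ∀ n : N, χ n = ϑ n := by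
  obtain ⟨k, hk⟩ := hind
  have hp : p.Prime := Fact.out
  obtain ⟨χ, h1, h2⟩ := dade_ext hp (nrm_top N) (hk ▸ piNat_pow hp k) (syl_top hp P)
    (eq_bot_iff.2 fun x hx => by_contra fun h => by
      have h1 : x ∈ (P : Subgroup G) ⊓ N := ⟨der_le _ hx.1, hx.2⟩
      obtain ⟨φ, h2, -, h3⟩ := exists_irr_not_mem_cfker (nrm_bot _) h1 h
      have h4 := (irr_one_eq_one_iff h2).2 ((comm_eq_bot_iff.2 fun a (ha : a ∈ (P : Subgroup G) ⊓ N) =>
        mem_cent.2 fun b hb => hcent b hb a ha.1).le.trans bot_le)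
      obtain ⟨μ, h5, h6, h7⟩ := hlin _ (irr_char h2).2 h4
      have h8 := (ext_isChar.2 h5).irr_of_one ((CA.Ind.ext_of_mem _ _ (one_mem _)).trans h6)
      have h9 := cfker_apply ((irr_one_eq_one_iff h8).1
        ((CA.Ind.ext_of_mem _ _ (one_mem _)).trans h6) hx.1)
      rw [CA.Ind.ext_of_mem _ _ h1.1, CA.Ind.ext_of_mem _ _ (one_mem _)] at h9
      exact h3 ((irr_mem_cfker h2).2 ((h7 ⟨x, h1⟩).symm.trans (h9.trans (h6.trans h4.symm)))))
    (ext_mem_irr.2 hϑ) ((le_stab_ext_iff (nrm_top N).le_normalizer ϑ).2 fun x _ g g' e => by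
      rw [← hinv x g]; exact congrArg _ (Subtype.ext e))
  exact ⟨χ, mem_irr_top.1 h1, fun n => (Res_of_mem χ n.2).symm.trans
    ((congrFun h2 n).trans (CA.Ind.ext_of_mem N ϑ n.2))⟩

end Cfsg.Agent.S0897
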