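import Cfsg.Statements.S0898
import Cfsg.Agent.Lib.Char.Clif
import Cfsg.Agent.Lib.Char.CharKer

set_option autoImplicit false
open Cfsg

namespace Cfsg.Agent.S0898

open CChar.CharFun CChar.CharOrth CChar.CharKer Finset
open scoped ComplexConjugate

theorem split {K : Type*} [Group K] [Fintype K] (M : Subgroup K) [M.Normal] [Fintype M]
    {φ : K → ℂ} (hφ : IsCharacter K φ) : ∃ α β, IsCharacter K α ∧ IsCharacter K β ∧ φ = α + β ∧
      (∀ m ∈ M, ∀ g, α (m * g) = α g) ∧ ∀ g, ∑ m : M, β (m * g) = 0 := by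
  classical
  refine char_induction (P := fun φ => ∃ α β, IsCharacter K α ∧ IsCharacter K β ∧ φ = α + β ∧
      (∀ m ∈ M, ∀ g, α (m * g) = α g) ∧ ∀ g, ∑ m : M, β (m * g) = 0) ?_ ?_ ?_ hφ
  · exact ⟨0, 0, char_zero, char_zero, by simp, by simp, by simp⟩
  · intro θ hθ
    by_cases h : M ≤ charKer θ
    · exact ⟨θ, 0, char_of_irr hθ, char_zero, by simp,
        fun m hm g => apply_mul_of_mem_charKer (h hm) g, by simp⟩
    refine ⟨0, θ, char_zero, char_of_irr hθ, by simp, by simp, fun g => ?_⟩
    have h0 : ∑ m : M, θ m = 0 := by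
      by_contra h0
      have h1 : classInner (fun n : M => θ n) (fun _ => 1) ≠ 0 := by
        rw [inner_one_right]
        exact mul_ne_zero (inv_ne_zero (by exact_mod_cast Nat.card_pos.ne')) h0
      have h2 := CA.Clif.clifford_invariant hθ irr_one
        (CA.Clif.inertia_eq_top_iff.2 fun g => CA.Clif.cj_const g 1) h1
      refine h ((le_charKer_iff (char_of_irr hθ)).2 fun m hm => ?_)
      have a := congrFun h2 ⟨m, hm⟩
      have b := congrFun h2 1
      simp only [Pi.smul_apply, smul_eq_mul, mul_one, OneMemClass.coe_one] at a b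
      rw [a, b]
    have hf : IsClassFunction K (fun g => if g ∈ M then (1 : ℂ) else 0) := by
      rw [classFun_iff]
      rintro a b hab
      obtain ⟨c, rfl⟩ := isConj_iff.1 hab
      have : c * a * c⁻¹ ∈ M ↔ a ∈ M :=
        ⟨fun h => by simpa [mul_assoc] using (‹M.Normal›).conj_mem _ h c⁻¹,
          fun h => (‹M.Normal›).conj_mem _ h c⟩
      simp only [this]
    have key : ∀ F : K → ℂ, ∑ x, (if x ∈ M then (1 : ℂ) else 0) * F x = ∑ m : M, F m := by
      intro F
      simp only [ite_mul, one_mul, zero_mul]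
      rw [← sum_filter]
      exact sum_subtype _ (by simp) F
    have := sum_classFun_mul_irr_mul hθ hf g
    rw [key (fun x => θ (x * g)), key, h0] at this
    simpa using this
  · rintro _ _ - - ⟨α, β, h1, h2, rfl, h3, h4⟩ ⟨α', β', h1', h2', rfl, h3', h4'⟩
    refine ⟨α + α', β + β', char_add h1 h1', char_add h2 h2', by abel, fun m hm g => ?_, fun g => ?_⟩
    · simp [h3 m hm, h3' m hm]
    · simp [sum_add_distrib, h4, h4']

theorem key {K : Type*} [Group K] [Fintype K] (M : Subgroup K) [M.Normal] [Fintype M]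
    {φ : K → ℂ} (hφ : IsCharacter K φ) (h : ∃ m ∈ M, φ m ≠ φ 1) :
    ∑ g, ‖(Nat.card M : ℂ)⁻¹ * ∑ m : M, φ (m * g)‖ ^ 2 + Nat.card K ≤ ∑ g, ‖φ g‖ ^ 2 := by
  obtain ⟨α, β, h1, h2, rfl, h3, h4⟩ := split M hφ
  have M0 : (Nat.card M : ℂ) ≠ 0 := by exact_mod_cast Nat.card_pos.ne'
  have K0 : (0 : ℝ) < Nat.card K := by exact_mod_cast Nat.card_pos
  have e1 : ∀ g, (Nat.card M : ℂ)⁻¹ * ∑ m : M, (α + β) (m * g) = α g := by
    intro g
    simp only [Pi.add_apply, sum_add_distrib, h4, add_zero]
    rw [sum_congr rfl (fun (m : M) _ => h3 m m.2 g), sum_const, card_univ, ← Nat.card_eq_fintype_card,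
      nsmul_eq_mul, ← mul_assoc, inv_mul_cancel₀ M0, one_mul]
  simp only [e1]
  have b0 : β ≠ 0 := by
    rintro rfl
    obtain ⟨m, hm, hm'⟩ := h
    have := h3 m hm 1
    rw [mul_one] at this
    exact hm' (by simp [this])
  have e2 : classInner α β = 0 := by
    have : (Nat.card M : ℂ) * ∑ g, α g * conj (β g) = 0 := by
      calc (Nat.card M : ℂ) * ∑ g, α g * conj (β g)
          = ∑ m : M, ∑ g, α (m * g) * conj (β (m * g)) := by
            have : ∀ m : M, ∑ g, α (m * g) * conj (β (m * g)) = ∑ g, α g * conj (β g) := fun m =>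
              Equiv.sum_comp (Equiv.mulLeft (m : K)) (fun g => α g * conj (β g))
            simp only [this]
            rw [sum_const, card_univ, ← Nat.card_eq_fintype_card, nsmul_eq_mul]
        _ = ∑ g, α g * conj (∑ m : M, β (m * g)) := by
            rw [sum_comm]
            refine sum_congr rfl fun g _ => ?_
            rw [map_sum, mul_sum]
            exact sum_congr rfl fun m _ => by rw [h3 m m.2]
        _ = 0 := by simp [h4]
    rw [inner_def, (mul_eq_zero.1 this).resolve_left M0, mul_zero]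
  have e3 : classInner (α + β) (α + β) = classInner α α + classInner β β := by
    rw [CChar.CharFun.inner_add_left, CChar.CharFun.inner_add_right, CChar.CharFun.inner_add_right, e2, inner_eq_zero_comm.1 e2]; ring
  have e4 : 1 ≤ (classInner β β).re := by
    obtain ⟨n, hn⟩ := inner_char_char h2 h2
    have := inner_self_re_pos b0
    rw [hn] at this ⊢
    simp only [Complex.natCast_re] at this ⊢
    exact_mod_cast this
  have e5 := congrArg Complex.re e3
  rw [Complex.add_re, inner_self_re, inner_self_re α] at e5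
  have e6 : ∑ g, ‖(α + β) g‖ ^ 2 = ∑ g, ‖α g‖ ^ 2 + Nat.card K * (classInner β β).re := by
    field_simp at e5
    linarith
  rw [e6]
  nlinarith

theorem part1 {G : Type*} [Group G] [Fintype G] (H : Subgroup G) [Fintype H] (hab : ∀ a ∈ H, ∀ b ∈ H, a * b = b * a) (hZ : H ⊓ Subgroup.center G = ⊥) (hone : ∀ g : G, g ∉ Subgroup.center G → ∀ a b : G, Subgroup.centralizer ({g} : Set G) ⊓ H.map (MulAut.conj a).toMonoidHom ≠ ⊥ → Subgroup.centralizer ({g} : Set G) ⊓ H.map (MulAut.conj b).toMonoidHom ≠ ⊥ → H.map (MulAut.conj a).toMonoidHom = H.map (MulAut.conj b).toMonoidHom) (χ : G → ℂ) (hχ : Cfsg.IsIrrCharacter G χ) (hker : ∃ h ∈ H, χ h ≠ χ 1) : (χ 1).re ^ 2 > (Nat.card H : ℝ) * (Cfsg.classInner (fun h : H => χ h) (fun _ => 1)).re ^ 2 := by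
  classical
  set N := Subgroup.normalizer (H : Set G) with hN
  set Z := Subgroup.center G with hZd
  have hc := char_of_irr hχ
  have hnz : ∀ x ∈ H, x ≠ 1 → x ∉ Z := fun x hx x1 h =>
    x1 (Subgroup.mem_bot.1 (hZ ▸ Subgroup.mem_inf.2 ⟨hx, h⟩))
  have hti : ∀ g ∉ Z, ∀ a, ∀ x ∈ H, ∀ y ∈ H, x ≠ 1 → y ≠ 1 → x * g = g * x →
      a * y * a⁻¹ * g = g * (a * y * a⁻¹) → a ∈ N := by
    intro g hg a x hx y hy x1 y1 e1 e2
    have h := hone g hg 1 a (fun h => x1 (Subgroup.mem_bot.1 (h ▸ Subgroup.mem_inf.2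
      ⟨Subgroup.mem_centralizer_singleton_iff.2 e1, ⟨x, hx, by simp⟩⟩)))
      (fun h => y1 (by
        have : a * y * a⁻¹ = 1 := Subgroup.mem_bot.1 (h ▸ Subgroup.mem_inf.2
          ⟨Subgroup.mem_centralizer_singleton_iff.2 e2, ⟨y, hy, by simp⟩⟩)
        simpa using this))
    have h' : H.map (MulAut.conj a).toMonoidHom = H := by
      rw [← h]; ext z; simp
    rw [hN, Subgroup.mem_normalizer_iff]
    intro n
    constructor
    · intro hn; rw [← h']; exact ⟨n, hn, by simp⟩
    · intro hn
      rw [← h'] at hn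
      obtain ⟨k, hk, e⟩ := hn
      have : k = n := by simpa using e
      exact this ▸ hk
  set D := univ.filter fun g => g ∉ Z ∧ ∃ x ∈ H, x ≠ 1 ∧ x * g = g * x with hD
  have memD : ∀ {g}, g ∈ D ↔ g ∉ Z ∧ ∃ x ∈ H, x ≠ 1 ∧ x * g = g * x := by simp [hD]
  have DN : ∀ g ∈ D, g ∈ N := by
    intro g hg
    obtain ⟨-, x, hx, x1, e⟩ := memD.1 hg
    refine hti x (hnz x hx x1) g x hx x hx x1 x1 rfl ?_
    rw [← e]; group
  have DTI : ∀ g ∈ D, ∀ a, a⁻¹ * g * a ∈ D → a ∈ N := by
    intro g hg a ha
    obtain ⟨g1, x, hx, x1, e⟩ := memD.1 hg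
    obtain ⟨-, y, hy, y1, e'⟩ := memD.1 ha
    refine hti g g1 a x hx y hy x1 y1 e ?_
    calc a * y * a⁻¹ * g = a * (y * (a⁻¹ * g * a)) * a⁻¹ := by group
      _ = _ := by rw [e']; group
  set f : G → ℝ := fun g => ‖χ g‖ ^ 2 with hf
  have f0 : ∀ g, 0 ≤ f g := fun g => sq_nonneg _
  have G0 : (0 : ℝ) < Nat.card G := by exact_mod_cast Nat.card_pos
  have N0 : (0 : ℝ) < Nat.card N := by exact_mod_cast Nat.card_pos
  have fsum : ∑ g, f g = Nat.card G := by
    have := inner_self_re χ
    rw [inner_irr_self hχ, Complex.one_re] at this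
    field_simp at this
    exact this.symm
  obtain ⟨n, n0, hn⟩ := irr_apply_one hχ
  have f1 : f 1 = n ^ 2 := by simp [hf, hn]
  have s1 : ∑ g ∈ D, f g < Nat.card N := by
    have e1 : (Nat.card G : ℝ) * ∑ g ∈ D, f g =
        ∑ g, ((univ.filter fun a => a⁻¹ * g * a ∈ D).card : ℝ) * f g := by
      have : ∀ a : G, ∑ g ∈ D, f g = ∑ g, if a⁻¹ * g * a ∈ D then f g else 0 := by
        intro a
        rw [← (MulAut.conj a).toEquiv.sum_comp]
        simp only [MulEquiv.toEquiv_eq_coe, EquivLike.coe_coe, MulAut.conj_apply]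
        have : ∀ g, a⁻¹ * (a * g * a⁻¹) * a = g := fun g => by group
        simp only [this, hf, classFun_apply (char_classFun hc)]
        rw [← sum_filter]; congr 1; ext; simp
      rw [Nat.card_eq_fintype_card, ← card_univ, ← nsmul_eq_mul, ← sum_const,
        sum_congr rfl (fun a _ => this a), sum_comm]
      refine sum_congr rfl fun g _ => ?_
      rw [← sum_filter, sum_const, nsmul_eq_mul]
    have e2 : ∀ g, ((univ.filter fun a => a⁻¹ * g * a ∈ D).card : ℝ) ≤ Nat.card N := by
      intro g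
      rcases (univ.filter fun a => a⁻¹ * g * a ∈ D).eq_empty_or_nonempty with h | ⟨b, hb⟩
      · rw [h]; simp
      rw [Nat.card_eq_fintype_card, Fintype.card_subtype]
      norm_cast
      refine card_le_card_of_injOn (fun a => b⁻¹ * a) (fun a ha => ?_)
        (fun a _ c _ h => by simpa using h)
      simp only [mem_filter, mem_univ, true_and, coe_filter, Set.mem_setOf_eq] at hb ha ⊢
      refine DTI _ hb _ ?_
      convert ha using 1; group
    have e3 : ((univ.filter fun a : G => a⁻¹ * 1 * a ∈ D).card : ℝ) = 0 := by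
      norm_cast
      rw [card_eq_zero, filter_eq_empty_iff]
      intro a _ h
      exact (memD.1 h).1 (by simp)
    have : (Nat.card G : ℝ) * ∑ g ∈ D, f g < Nat.card G * Nat.card N := by
      rw [e1, ← fsum, sum_mul]
      refine sum_lt_sum (fun g _ => ?_) ⟨1, mem_univ _, ?_⟩
      · rw [mul_comm]; exact mul_le_mul_of_nonneg_left (e2 g) (f0 g)
      · rw [e3, zero_mul, f1]; positivity
    exact lt_of_mul_lt_mul_left this G0.le
  set α : G → ℂ := fun g => (Nat.card H : ℂ)⁻¹ * ∑ m : H, χ (m * g) with hα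
  have H0 : (Nat.card H : ℂ) ≠ 0 := by exact_mod_cast Nat.card_pos.ne'
  have HN : H ≤ N := Subgroup.le_normalizer
  set SN := univ.filter fun g => g ∈ N with hSN
  have s2 : ∑ g ∈ SN, ‖α g‖ ^ 2 + Nat.card N ≤ ∑ g ∈ SN, f g := by
    have := Subgroup.normal_in_normalizer (H := H)
    obtain ⟨h, hh, hh'⟩ := hker
    have k := key (H.subgroupOf N) (char_restrict hc N) ⟨⟨h, HN hh⟩, hh, hh'⟩
    rw [sum_subtype SN (p := fun g => g ∈ N) (by simp [hSN]),
      sum_subtype SN (p := fun g => g ∈ N) (by simp [hSN])]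
    convert k using 3 with g
    rw [Nat.card_congr (Subgroup.subgroupOfEquivOfLe HN).toEquiv]
    simp only [hα]
    congr 3
    exact ((Subgroup.subgroupOfEquivOfLe HN).toEquiv.sum_comp (fun m : H => χ (m * g))).symm
  set SZ := univ.filter fun g => g ∈ Z with hSZ
  have hdisj : Disjoint D SZ := by
    rw [disjoint_left]; intro g hg hg'
    exact (memD.1 hg).1 (by simpa [hSZ] using hg')
  have hsub : D ∪ SZ ⊆ SN := by
    intro g hg
    simp only [hSN, mem_filter, mem_univ, true_and]
    rcases mem_union.1 hg with h | h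
    · exact DN g h
    · exact Subgroup.center_le_normalizer _ (by simpa [hSZ] using h)
  have s3 : ∀ g ∈ SN \ (D ∪ SZ), ‖α g‖ ^ 2 = f g := by
    intro g hg
    simp only [mem_sdiff, mem_union, not_or, hSN, hSZ, mem_filter, mem_univ, true_and] at hg
    obtain ⟨gN, gD, gZ⟩ := hg
    have hm : ∀ k : H, (k : G) * (g * (k : G)⁻¹ * g⁻¹) ∈ H := fun k =>
      mul_mem k.2 ((Subgroup.mem_normalizer_iff.1 gN _).1 (inv_mem k.2))
    have inj : Function.Injective fun k : H => (⟨_, hm k⟩ : H) := by
      intro k l e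
      have e : (k : G) * (g * (k : G)⁻¹ * g⁻¹) = l * (g * (l : G)⁻¹ * g⁻¹) := congrArg Subtype.val e
      by_contra hne
      refine gD (memD.2 ⟨gZ, (l : G)⁻¹ * k, mul_mem (inv_mem l.2) k.2, fun h => hne ?_, ?_⟩)
      · exact Subtype.ext (inv_mul_eq_one.1 h).symm
      · calc (l : G)⁻¹ * k * g = (l : G)⁻¹ * (k * (g * (k : G)⁻¹ * g⁻¹)) * g * k := by group
          _ = _ := by rw [e]; group
    have : α g = χ g := by
      simp only [hα]
      rw [← (Equiv.ofBijective _ (Finite.injective_iff_bijective.1 inj)).sum_comp]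
      simp only [Equiv.ofBijective_apply]
      have : ∀ k : H, χ ((k : G) * (g * (k : G)⁻¹ * g⁻¹) * g) = χ g := fun k => by
        rw [show (k : G) * (g * (k : G)⁻¹ * g⁻¹) * g = k * g * (k : G)⁻¹ by group,
          classFun_apply (char_classFun hc)]
      simp only [this, sum_const, card_univ, ← Nat.card_eq_fintype_card, nsmul_eq_mul]
      rw [← mul_assoc, inv_mul_cancel₀ H0, one_mul]
    rw [this]
  have s4 : ∑ g ∈ SZ, f g = Nat.card Z * n ^ 2 := by
    rw [Nat.card_eq_fintype_card, Fintype.card_subtype, ← nsmul_eq_mul, ← sum_const]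
    refine sum_congr rfl fun z hz => ?_
    have := (mem_charCenter hc).1 (center_le_charCenter hχ (by simpa [hSZ] using hz : z ∈ Z))
    simp [hf, this, hn]
  obtain ⟨c, hc'⟩ := inner_char_char (char_restrict hc H) char_one
  have a1 : α 1 = c := by rw [← hc', inner_one_right]; simp [hα]
  have s5 : (Nat.card H : ℝ) * Nat.card Z * c ^ 2 ≤ ∑ g ∈ D ∪ SZ, ‖α g‖ ^ 2 := by
    have inj : Function.Injective fun x : H × Z => (x.1 : G) * x.2 := by
      rintro ⟨a, y⟩ ⟨b, z⟩ e
      simp only at e
      have h1 : (b : G)⁻¹ * a = z * (y : G)⁻¹ := by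
        rw [inv_mul_eq_iff_eq_mul, ← mul_assoc, ← e]; group
      have h2 : (b : G)⁻¹ * a = 1 := Subgroup.mem_bot.1 (hZ ▸ Subgroup.mem_inf.2
        ⟨mul_mem (inv_mem b.2) a.2, h1 ▸ mul_mem z.2 (inv_mem y.2)⟩)
      have h3 : a = b := Subtype.ext (inv_mul_eq_one.1 h2).symm
      subst h3
      rw [Subtype.ext (mul_left_cancel e : (y : G) = z)]
    have e1 : ∀ x : H × Z, ‖α ((x.1 : G) * x.2)‖ ^ 2 = c ^ 2 := by
      rintro ⟨a, z⟩
      have hz := center_le_charCenter hχ z.2
      have e2 : χ 1 * α (a * z) = χ z * α 1 := by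
        simp only [hα]
        rw [mul_left_comm, mul_left_comm (χ z)]
        congr 1
        rw [mul_sum, mul_sum, ← Equiv.sum_comp (Equiv.mulRight a) (fun m : H => χ z * χ (m * 1))]
        refine sum_congr rfl fun m _ => ?_
        rw [← apply_mul_of_mem_charCenter hz, ← mul_assoc, Subgroup.mem_center_iff.1 z.2]
        simp
      have e3 := congrArg norm e2
      rw [norm_mul (χ 1), norm_mul (χ z), (mem_charCenter hc).1 hz, a1] at e3
      have := mul_left_cancel₀ (norm_ne_zero_iff.2 (irr_apply_one_ne_zero hχ)) e3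
      simp only
      rw [this]; simp
    calc (Nat.card H : ℝ) * Nat.card Z * c ^ 2
        = ∑ x : H × Z, ‖α ((x.1 : G) * x.2)‖ ^ 2 := by
          simp only [e1, sum_const, card_univ, Fintype.card_prod, nsmul_eq_mul,
            Nat.card_eq_fintype_card]
          push_cast; ring
      _ = ∑ g ∈ univ.image (fun x : H × Z => (x.1 : G) * x.2), ‖α g‖ ^ 2 :=
          (sum_image (f := fun g => ‖α g‖ ^ 2) inj.injOn).symm
      _ ≤ _ := by
          refine sum_le_sum_of_subset_of_nonneg (fun g hg => ?_) fun _ _ _ => sq_nonneg _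
          obtain ⟨⟨a, z⟩, -, rfl⟩ := mem_image.1 hg
          by_cases h : (a : G) * z ∈ Z
          · exact mem_union_right _ (by simpa [hSZ] using h)
          · refine mem_union_left _ (memD.2 ⟨h, a, a.2, fun h' => h (by simp [h']), ?_⟩)
            rw [mul_assoc, ← Subgroup.mem_center_iff.1 z.2]
  rw [← sum_sdiff hsub, ← sum_sdiff hsub (f := f), sum_congr rfl s3, sum_union hdisj (f := f)] at s2
  have Z0 : (0 : ℝ) < Nat.card Z := by exact_mod_cast Nat.card_pos
  have : (Nat.card Z : ℝ) * (Nat.card H * c ^ 2) < Nat.card Z * n ^ 2 := by linarith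
  rw [hn, hc']
  simpa using lt_of_mul_lt_mul_left this Z0.le

theorem deg_le {H : Type*} [Group H] [Fintype H] (hab : ∀ a b : H, a * b = b * a) {φ : H → ℂ}
    (hφ : IsCharacter H φ) : (φ 1).re ≤ (classInner φ φ).re := by
  refine char_induction (P := fun φ => (φ 1).re ≤ (classInner φ φ).re) ?_ ?_ ?_ hφ
  · simp [CChar.CharFun.inner_zero_left]
  · intro θ hθ
    rw [irr_apply_one_of_comm hab hθ, inner_irr_self hθ]
  · intro α β hα hβ h1 h2
    obtain ⟨a, ha⟩ := inner_char_char hα hβ
    obtain ⟨b, hb⟩ := inner_char_char hβ hα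
    rw [CChar.CharFun.inner_add_left, CChar.CharFun.inner_add_right, CChar.CharFun.inner_add_right, ha, hb]
    simp only [Pi.add_apply, Complex.add_re, Complex.natCast_re]
    have : (0 : ℝ) ≤ a := Nat.cast_nonneg _
    have : (0 : ℝ) ≤ b := Nat.cast_nonneg _
    linarith

/-- Let H be an abelian subgroup of the finite group G meeting the centre of G trivially, such that for every non-central g the centralizer of g has nontrivial intersection with at most one conjugate of H. Let χ be an irreducible character of G with χ h ≠ χ 1 for some h in H, and let c be the inner product of the restriction of χ to H with the principal character. Then χ(1)² > (order of H)·c²; and if in addition χ 1 ≠ 1 and no proper normal subgroup of G contains H, then (1 + χ 1)² > order of H (both sides read as real numbers). -/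
theorem result {G : Type*} [Group G] [Fintype G] (H : Subgroup G) [Fintype H] (hab : ∀ a ∈ H, ∀ b ∈ H, a * b = b * a) (hZ : H ⊓ Subgroup.center G = ⊥) (hone : ∀ g : G, g ∉ Subgroup.center G → ∀ a b : G, Subgroup.centralizer ({g} : Set G) ⊓ H.map (MulAut.conj a).toMonoidHom ≠ ⊥ → Subgroup.centralizer ({g} : Set G) ⊓ H.map (MulAut.conj b).toMonoidHom ≠ ⊥ → H.map (MulAut.conj a).toMonoidHom = H.map (MulAut.conj b).toMonoidHom) (χ : G → ℂ) (hχ : Cfsg.IsIrrCharacter G χ) (hker : ∃ h ∈ H, χ h ≠ χ 1) : (χ 1).re ^ 2 > (Nat.card H : ℝ) * (Cfsg.classInner (fun h : H => χ h) (fun _ => 1)).re ^ 2 ∧ (χ 1 ≠ 1 → (∀ M : Subgroup G, M.Normal → H ≤ M → M = ⊤) → (1 + (χ 1).re) ^ 2 > (Nat.card H : ℝ)) := by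
  refine ⟨part1 H hab hZ hone χ hχ hker, fun h1 hM => ?_⟩
  set s := Real.sqrt (Nat.card H) with hs
  have s2 : s ^ 2 = Nat.card H := Real.sq_sqrt (Nat.cast_nonneg _)
  have s0 : 0 ≤ s := Real.sqrt_nonneg _
  have key : ∀ {φ : G → ℂ}, IsCharacter G φ →
      (s * ((classInner (fun h : H => φ h) (fun _ => 1)).re - (classInner φ (fun _ => 1)).re) <
        (φ 1).re - (classInner φ (fun _ => 1)).re ∨
      ((φ 1).re = (classInner φ (fun _ => 1)).re ∧
        (classInner (fun h : H => φ h) (fun _ => 1)).re = (classInner φ (fun _ => 1)).re)) := by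
    intro φ hφ
    refine char_induction (G := G) (P := fun φ : G → ℂ =>
      (s * ((classInner (fun h : H => φ h) (fun _ => 1)).re - (classInner φ (fun _ => 1)).re) <
        (φ 1).re - (classInner φ (fun _ => 1)).re ∨
      ((φ 1).re = (classInner φ (fun _ => 1)).re ∧
        (classInner (fun h : H => φ h) (fun _ => 1)).re = (classInner φ (fun _ => 1)).re)))
      ?_ ?_ ?_ hφ
    · right
      simp [inner_def]
    · intro ψ hψ
      by_cases h : ψ = fun _ => 1
      · subst h
        right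
        simp [inner_one_one]
      left
      rw [inner_irr_of_ne hψ irr_one h]
      have h2 : ∃ h ∈ H, ψ h ≠ ψ 1 := by
        by_contra hc
        push Not at hc
        exact h ((charKer_eq_top_iff hψ).1 (hM _ inferInstance
          ((le_charKer_iff (char_of_irr hψ)).2 hc)))
      have h3 := part1 H hab hZ hone ψ hψ h2
      obtain ⟨n, -, hn⟩ := irr_apply_one hψ
      rw [← s2, ← mul_pow] at h3
      simp only [Complex.zero_re, sub_zero]
      refine lt_of_pow_lt_pow_left₀ 2 ?_ h3
      rw [hn]; simp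
    · intro α β _ _ h1 h2
      have : (fun h : H => (α + β) h) = (fun h : H => α h) + fun h : H => β h := rfl
      rw [this, CChar.CharFun.inner_add_left, CChar.CharFun.inner_add_left]
      simp only [Pi.add_apply, Complex.add_re]
      rcases h1 with h1 | ⟨h1, h1'⟩ <;> rcases h2 with h2 | ⟨h2, h2'⟩
      · left; linarith
      · left; rw [h2, h2']; linarith
      · left; rw [h1, h1']; linarith
      · right; constructor <;> linarith
  have hc := char_of_irr hχ
  have k := key (char_mul hc (char_conj hc))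
  have e1 : classInner (χ * fun g => conj (χ g)) (fun _ => 1) = 1 := by
    refine Eq.trans ?_ (inner_irr_self hχ); simp [inner_def]
  have e2 : classInner (fun h : H => (χ * fun g => conj (χ g)) h) (fun _ => 1) =
      classInner (fun h : H => χ h) (fun h : H => χ h) := by simp [inner_def]
  have e3 := deg_le (fun a b : H => Subtype.ext (hab a a.2 b b.2)) (char_restrict hc H)
  obtain ⟨n, n0, hn⟩ := irr_apply_one hχ
  rw [e1, e2] at k
  have n2 : (2 : ℝ) ≤ n := by
    have : n ≠ 1 := by rintro rfl; exact h1 (by simpa using hn)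
    exact_mod_cast (by omega : 2 ≤ n)
  simp only [Pi.mul_apply, OneMemClass.coe_one, hn, Complex.conj_natCast, Complex.mul_re,
    Complex.natCast_re, Complex.natCast_im, Complex.one_re, mul_zero, sub_zero] at k e3 ⊢
  rw [← s2]
  rcases k with k | ⟨k, -⟩
  · have : s * (n - 1) < (n + 1) * (n - 1) := by nlinarith
    have := lt_of_mul_lt_mul_right this (by linarith)
    nlinarith
  · nlinarith

end Cfsg.Agent.S0898
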