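import Cfsg.Statements.S4468
import Cfsg.Agent.Lib.Char.H10Sch
import Cfsg.Agent.Lib.Grp.Coprime2

set_option autoImplicit false
open Cfsg

namespace Cfsg.Agent.S4468
open Cfsg CA.H10Sch CChar.CharFun CChar.CharOrth CChar.CharKer CChar.CharInt Subgroup

theorem small {G : Type*} [Group G] [Finite G] {p n : ℕ} (hp : p.Prime) (hs : IsPSolvable p G)
    {χ : G → ℂ} (hχ : IsCharacter G χ) (hf : ∀ g, χ g = χ 1 → g = 1) (hn : χ 1 = n)
    (h : n + 1 < p) : ¬ p ∣ (pCore p G).index := by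
  have h1 := psolv_bound hp hs hχ hf hn
  rw [Finset.sum_eq_zero fun i _ => Nat.div_eq_of_lt (lt_of_lt_of_le (by omega : n < p - 1)
    (Nat.le_mul_of_pos_right _ (pow_pos hp.pos i)))] at h1
  rw [hp.dvd_iff_one_le_factorization index_ne_zero_of_finite]
  omega

theorem small' {G : Type*} [Group G] [Finite G] {p n : ℕ} (hp : p.Prime) (hs : IsPSolvable p G)
    {χ : G → ℂ} (hχ : IsCharacter G χ) (hn : χ 1 = n) (h : n + 1 < p) :
    ∃ O : Subgroup G, O.Normal ∧ ¬ p ∣ O.index ∧ ∀ x ∈ O, ∃ k, x ^ p ^ k ∈ charKer χ := by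
  haveI : Fact p.Prime := ⟨hp⟩
  have h1 := char_deflate hχ le_rfl
  have h2 := small hp (CA.H12PSolv.psolv_quotient hs (charKer χ)) h1 (fun g hg => by
    have := (mem_charKer h1).2 hg
    rwa [charKer_deflate_self hχ, mem_bot] at this) ((deflate_mk le_rfl 1).trans hn) h
  refine ⟨(pCore p _).comap (QuotientGroup.mk' (charKer χ)), inferInstance,
    by rwa [index_comap_of_surjective _ (QuotientGroup.mk'_surjective _)], fun x hx => ?_⟩
  obtain ⟨k, hk⟩ := CA.Core.isPGroup_pCore (p := p) ⟨_, hx⟩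
  exact ⟨k, (QuotientGroup.eq_one_iff _).1 (congrArg Subtype.val hk)⟩

theorem irr {G : Type*} [Group G] [Finite G] {p n : ℕ} (hp : p.Prime) (hs : IsPSolvable p G)
    {χ : G → ℂ} (hχ : IsCharacter G χ) (hf : ∀ g, χ g = χ 1 → g = 1) (hn : χ 1 = n)
    (h : n + 1 = p) (hd : p ∣ (pCore p G).index) : IsIrrCharacter G χ := by
  haveI := Fintype.ofFinite G
  have h0 : χ ≠ 0 := fun e => by
    rw [e, Pi.zero_apply, eq_comm, Nat.cast_eq_zero] at hn
    have := hp.two_le
    omega
  obtain ⟨φ, h1, h2⟩ := char_exists_irr_constituent hχ h0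
  have h3 := char_sub_irr hχ h1 h2
  obtain ⟨b, hb⟩ := char_apply_one h3
  by_cases hb0 : b = 0
  · have : χ - φ = 0 := char_eq_zero_of_apply_one h3 (by rw [hb, hb0, Nat.cast_zero])
    rwa [sub_eq_zero.1 this]
  have ha := irr_apply_one_eq h1
  have ha0 := charDegree_pos h1
  have e : n = charDegree φ + b := by
    rw [Pi.sub_apply, hn, ha, sub_eq_iff_eq_add'] at hb
    exact_mod_cast hb
  obtain ⟨O1, _, g1, g2⟩ := small' hp hs (char_of_irr h1) ha (by omega)
  obtain ⟨O2, _, g3, g4⟩ := small' hp hs h3 hb (by omega)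
  have g5 : O1 ⊓ O2 ≤ pCore p G := CA.Core.le_pCore fun ⟨x, hx⟩ => by
    obtain ⟨k, hk⟩ := g2 x hx.1
    obtain ⟨l, hl⟩ := g4 x hx.2
    refine ⟨k + l, Subtype.ext (hf _ (apply_of_mem_charKer ?_))⟩
    rw [← add_sub_cancel φ χ, charKer_add (char_of_irr h1) h3]
    change x ^ p ^ (k + l) ∈ _
    exact ⟨by rw [pow_add, pow_mul]; exact pow_mem hk _,
      by rw [add_comm, pow_add, pow_mul]; exact pow_mem hl _⟩
  have g6 := hd.trans (index_dvd_of_le g5)
  rw [← relIndex_mul_index (inf_le_right : O1 ⊓ O2 ≤ O2), inf_relIndex_right] at g6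
  exact ((hp.dvd_mul.1 g6).elim (fun h => g1 (h.trans (relIndex_dvd_index_of_normal _ _))) g3).elim

/-- Let the finite p-solvable group G have a faithful character χ of degree n ≤ p − 1 and suppose that a Sylow p-subgroup of G is not normal. Then n = p − 1, n is a power of 2, and χ is irreducible. -/
theorem result {G : Type*} [Group G] [Finite G] (χ : G → ℂ) (hχ : Cfsg.IsCharacter G χ) (hfaith : ∀ g : G, χ g = χ 1 → g = 1) (n : ℕ) (hn : Cfsg.charDegree χ = n) (p : ℕ) (hp : p.Prime) (hsolv : Cfsg.IsPSolvable p G) (hnp : n + 1 ≤ p) (P : Sylow p G) (hP : ¬ (P : Subgroup G).Normal) : n + 1 = p ∧ (∃ k : ℕ, n = 2 ^ k) ∧ Cfsg.IsIrrCharacter G χ := by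
  haveI : Fact p.Prime := ⟨hp⟩
  have h1 : χ 1 = n := hn ▸ char_apply_one_eq hχ
  have hd : p ∣ (pCore p G).index := by
    by_contra h
    have h3 : ((CA.Core.isPGroup_pCore (p := p) (G := G)).toSylow h : Subgroup G).Normal :=
      show (pCore p G).Normal from inferInstance
    haveI := Sylow.unique_of_normal _ h3
    exact hP (Subsingleton.elim ((CA.Core.isPGroup_pCore (p := p) (G := G)).toSylow h) P ▸ h3)
  have h2 : n + 1 = p := by
    by_contra h
    exact small hp hsolv hχ hfaith h1 (lt_of_le_of_ne hnp h) hd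
  refine ⟨h2, ?_, irr hp hsolv hχ hfaith h1 h2 hd⟩
  obtain ⟨N, R, g1, g2, g3, g4⟩ := exists_pair hp hsolv
  have g5 : ¬ N ≤ centralizer (R : Set G) := fun h => by
    rw [relIndex_eq_one.2 (le_centralizer_iff.1 h), Nat.factorization_one, Finsupp.zero_apply] at g4
    have := (hp.dvd_iff_one_le_factorization index_ne_zero_of_finite).1 hd
    omega
  obtain ⟨a, ha⟩ := IsPGroup.iff_card.1 g2
  haveI := g2.isNilpotent
  have hc : (Nat.card R).Coprime (Nat.card N) := ha ▸ (hp.coprime_iff_not_dvd.2 g1).pow_left a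
  obtain ⟨q, hq, T, g6, g7, g8, g9⟩ : ∃ (q : ℕ) (_ : Fact q.Prime) (T : Subgroup G), q ∣ Nat.card N ∧
      CA.SylIn.IsSylowIn q T N ∧ R ≤ normalizer (T : Set G) ∧ ¬ T ≤ centralizer (R : Set G) := by
    by_contra h
    push Not at h
    exact g5 (CA.Coprime2.le_of_forall_invariant_sylow g3 hc (Or.inl inferInstance) h)
  obtain ⟨b, hb⟩ := IsPGroup.iff_card.1 g7.isPGroup
  set J := T ⊔ R with hJ
  haveI : (T.subgroupOf J).Normal := normal_subgroupOf_of_le_normalizer (sup_le le_normalizer g8)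
  have hpq : (p ^ a).Coprime (q ^ b) := by
    rw [← ha, ← hb]; exact hc.of_dvd_right (card_dvd_of_le g7.le)
  have hdJ : p ∣ (pCore p J).index := by
    by_contra h
    have e1 : R.subgroupOf J ≤ pCore p J := by
      obtain ⟨S, hS⟩ := (CA.SylIn.isPGroup_subgroupOf g2 J).exists_le_sylow
      have h3 : ((CA.Core.isPGroup_pCore (p := p) (G := J)).toSylow h : Subgroup J).Normal :=
        show (pCore p J).Normal from inferInstance
      haveI := Sylow.unique_of_normal _ h3
      rwa [Subsingleton.elim S ((CA.Core.isPGroup_pCore (p := p) (G := J)).toSylow h)] at hS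
    refine g9 fun t ht r hr => ?_
    let t' : J := ⟨t, mem_sup_left ht⟩
    let r' : J := ⟨r, mem_sup_right hr⟩
    have e2 : Disjoint (pCore p J) (T.subgroupOf J) :=
      IsPGroup.disjoint_of_ne p q (fun e => g1 (e ▸ g6)) _ _ CA.Core.isPGroup_pCore
        (CA.SylIn.isPGroup_subgroupOf g7.isPGroup J)
    exact congrArg Subtype.val (commute_of_normal_of_disjoint _ _ inferInstance inferInstance e2
      r' t' (e1 hr) ht)
  have hirr := irr hp (CA.H12PSolv.psolv_subgroup hsolv J) (char_comp hχ J.subtype)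
    (fun g hg => Subtype.ext (hfaith _ hg)) h1 h2 hdJ
  have e3 : n ∣ q ^ b * p ^ a := by
    refine (degree_dvd_card hirr h1).trans ?_
    rw [← ha, ← hb, ← (T.subgroupOf J).card_mul_index,
      Nat.card_congr (subgroupOfEquivOfLe (le_sup_left : T ≤ J)).toEquiv]
    refine Nat.mul_dvd_mul_left _ ?_
    have e : T.subgroupOf J ⊔ R.subgroupOf J = ⊤ := by
      rw [← subgroupOf_sup le_sup_left le_sup_right, subgroupOf_self]
    rw [← relIndex_top_right, ← e, relIndex_sup_left,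
      ← Nat.card_congr (subgroupOfEquivOfLe (le_sup_right : R ≤ J)).toEquiv]
    exact relIndex_dvd_card _ _
  have e4 : n.Coprime (p ^ a) := by
    rw [← h2]; exact (by simp : n.Coprime (n + 1)).pow_right a
  obtain ⟨k, -, hk⟩ := (Nat.dvd_prime_pow hq.out).1 (e4.dvd_of_dvd_mul_right e3)
  rcases hp.eq_two_or_odd' with e | e
  · exact ⟨0, by omega⟩
  · have : 2 ∣ q ^ k := by
      rw [← hk]
      obtain ⟨c, hc⟩ := e
      exact ⟨c, by omega⟩
    rw [← (Nat.prime_dvd_prime_iff_eq Nat.prime_two hq.out).1 (Nat.prime_two.dvd_of_dvd_pow this)] at hk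
    exact ⟨k, hk⟩

end Cfsg.Agent.S4468
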