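import Cfsg.Statements.S0899
import Cfsg.Agent.Lib.Grp.H12PSolv
import Cfsg.Agent.Lib.Char.CharMisc
import Cfsg.Agent.S0898
import Cfsg.Agent.S4468

set_option autoImplicit false
open Cfsg

namespace Cfsg.Agent.S0899

open CChar.CharFun CChar.CharOrth CChar.CharKer CA.H12PSolv
open scoped Pointwise

theorem ns_equiv {A B : Type*} [Group A] [Group B] [Finite B] {p : ℕ} [Fact p.Prime] (e : A ≃* B)
    (h : ∀ Q : Sylow p B, (Q : Subgroup B).Normal) (Q : Sylow p A) : (Q : Subgroup A).Normal := by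
  obtain ⟨S, hS⟩ := (Q.isPGroup'.map e.toMonoidHom).exists_le_sylow
  have h1 : IsPGroup p ((S : Subgroup B).comap e.toMonoidHom) :=
    S.isPGroup'.comap_of_injective _ e.injective
  have h2 : (S : Subgroup B).comap e.toMonoidHom = Q :=
    Q.is_maximal' h1 (Subgroup.map_le_iff_le_comap.1 hS)
  rw [← h2]
  exact (h S).comap _

theorem exQ {G : Type*} [Group G] [Finite G] {p : ℕ} [Fact p.Prime] {K : Subgroup G}
    (h : ∀ Q : Sylow p K, (Q : Subgroup K).Normal) : ∃ Q : Subgroup G, IsPGroup p Q ∧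
      ∀ R : Subgroup G, IsPGroup p R → R ≤ K → R ≤ Q := by
  obtain ⟨S⟩ := (inferInstance : Nonempty (Sylow p K))
  have := h S
  have := Sylow.unique_of_normal S this
  refine ⟨(S : Subgroup K).map K.subtype, S.isPGroup'.map _, fun R hR hK => ?_⟩
  obtain ⟨T, hT⟩ := (hR.comap_of_injective K.subtype K.subtype_injective).exists_le_sylow
  rw [Subsingleton.elim T S] at hT
  intro x hx
  exact ⟨⟨x, hK hx⟩, hT hx, rfl⟩

theorem step {G : Type*} [Group G] [Finite G] {n : ℕ} {χ : G → ℂ} (hχ : IsCharacter G χ)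
    (hf : ∀ g, χ g = χ 1 → g = 1) (hn : χ 1 = n) (p : ℕ) [hp : Fact p.Prime] (h1 : n + 1 < p)
    (h : (n + 1) ^ 2 ≤ p ∨ p ^ 2 ∣ Nat.card G)
    (ih : ∀ K : Subgroup G, K ≠ ⊤ → ∀ Q : Sylow p K, (Q : Subgroup K).Normal) (P : Sylow p G) :
    (P : Subgroup G).Normal := by
  classical
  have := Fintype.ofFinite G
  by_contra hP
  have hcomm : ∀ R : Subgroup G, IsPGroup p R → ∀ a ∈ R, ∀ b ∈ R, a * b = b * a := by
    intro R hR a ha b hb
    have h2 := CChar.CharMisc.commutator_le_charKer_of_lt (char_restrict hχ R) (n := n) hn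
      (fun q hq hd => by
        obtain ⟨k, hk⟩ := IsPGroup.iff_card.1 hR
        rw [hk] at hd
        rw [(Nat.prime_dvd_prime_iff_eq hq hp.out).1 (hq.dvd_of_dvd_pow hd)]; omega)
    have h3 : commutator R ≤ ⊥ := fun x hx => by
      have := apply_of_mem_charKer (h2 hx)
      exact Subgroup.mem_bot.2 (Subtype.ext (hf _ this))
    exact congrArg Subtype.val (CChar.CharMisc.comm_of_commutator_eq_bot h3 ⟨a, ha⟩ ⟨b, hb⟩)
  have hns : ¬ IsPSolvable p G := fun hs => by
    have := (Cfsg.Agent.S4468.result χ hχ hf n (by simp [charDegree, hn]) p hp.out hs h1.le P hP).1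
    omega
  have hsyl : ∀ K : Subgroup G, K ≠ ⊤ → ∀ S : Sylow p G, (S : Subgroup G) ≤ K →
      ∀ R : Subgroup G, IsPGroup p R → R ≤ K → R ≤ S := by
    intro K hK S hS R hR hRK
    obtain ⟨Q, hQ, hQ'⟩ := exQ (ih K hK)
    rw [← S.is_maximal' hQ (hQ' _ S.isPGroup' hS)]
    exact hQ' R hR hRK
  have hM : ∀ M : Subgroup G, M.Normal → (P : Subgroup G) ≤ M → M = ⊤ := by
    intro M hM hle
    by_contra hne
    refine hP ⟨fun x hx g => ?_⟩
    refine hsyl M hne P hle _ (g • P).isPGroup' ?_ (Subgroup.smul_mem_pointwise_smul x (MulAut.conj g) _ hx)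
    rintro _ ⟨y, hy, rfl⟩
    exact hM.conj_mem y (hle hy) g
  have hZ : (P : Subgroup G) ⊓ Subgroup.center G = ⊥ := by
    rw [eq_bot_iff]
    rintro z ⟨hz, hz'⟩
    letI : CommGroup P := { (inferInstance : Group P) with
      mul_comm := fun a b => Subtype.ext (hcomm _ P.isPGroup' a a.2 b b.2) }
    let V := MonoidHom.transfer (MonoidHom.id P)
    have hV : V.ker = ⊤ := by
      by_contra hne
      refine hns (psolv_ext V.ker ?_ (psolv_of_isPGroup ?_))
      · obtain ⟨S⟩ := (inferInstance : Nonempty (Sylow p V.ker))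
        have := ih _ hne S
        exact psolv_ext (S : Subgroup V.ker) (psolv_of_isPGroup S.isPGroup')
          (psolv_of_coprime ((hp.out.coprime_iff_not_dvd.2 S.not_dvd_index).symm))
      · exact (P.isPGroup'.to_subgroup V.range).of_equiv (QuotientGroup.quotientKerEquivRange V).symm
    have hk : ∀ (k : ℕ) (g₀ : G), g₀⁻¹ * z ^ k * g₀ ∈ (P : Subgroup G) → g₀⁻¹ * z ^ k * g₀ = z ^ k := by
      intro k g _
      rw [mul_assoc, ← Subgroup.mem_center_iff.1 (pow_mem hz' k) g]; group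
    have e1 := MonoidHom.transfer_eq_pow (MonoidHom.id P) z hk
    have e2 : V z = 1 := by rw [← MonoidHom.mem_ker, hV]; trivial
    have e3 : z ^ (P : Subgroup G).index = 1 := congrArg Subtype.val (e1.symm.trans e2)
    obtain ⟨k, hk⟩ := P.isPGroup' ⟨z, hz⟩
    have e4 : z ^ p ^ k = 1 := congrArg Subtype.val hk
    have := Nat.dvd_gcd (orderOf_dvd_of_pow_eq_one e4) (orderOf_dvd_of_pow_eq_one e3)
    rw [Nat.Coprime.pow_left k (hp.out.coprime_iff_not_dvd.2 P.not_dvd_index), Nat.dvd_one,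
      orderOf_eq_one_iff] at this
    exact Subgroup.mem_bot.2 this
  have hC : ∀ g ∉ Subgroup.center G, Subgroup.centralizer ({g} : Set G) ≠ ⊤ := by
    intro g hg h
    refine hg (Subgroup.mem_center_iff.2 fun x => ?_)
    exact Subgroup.mem_centralizer_singleton_iff.1 (h ▸ Subgroup.mem_top x)
  have hnz : ∀ (a : G), ∀ x ∈ ((a • P : Sylow p G) : Subgroup G), x ≠ 1 → x ∉ Subgroup.center G := by
    rintro a _ ⟨y, hy, rfl⟩ x1 hc
    have e : y ∈ Subgroup.center G := by
      have := (inferInstance : (Subgroup.center G).Normal).conj_mem _ hc a⁻¹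
      simpa [mul_assoc] using this
    have : y = 1 := Subgroup.mem_bot.1 (hZ ▸ Subgroup.mem_inf.2 ⟨hy, e⟩)
    exact x1 (by simp [this])
  have hle : ∀ (S : Sylow p G), ∀ x ∈ (S : Subgroup G), (S : Subgroup G) ≤
      Subgroup.centralizer ({x} : Set G) := fun S x hx y hy =>
    Subgroup.mem_centralizer_singleton_iff.2 (hcomm _ S.isPGroup' y hy x hx)
  have hzp : ∀ (S : Sylow p G), ∀ x ∈ (S : Subgroup G), IsPGroup p (Subgroup.zpowers x) :=
    fun S x hx => S.isPGroup'.to_le (Subgroup.zpowers_le.2 hx)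
  have hone : ∀ g : G, g ∉ Subgroup.center G → ∀ a b : G, Subgroup.centralizer ({g} : Set G) ⊓
      (P : Subgroup G).map (MulAut.conj a).toMonoidHom ≠ ⊥ → Subgroup.centralizer ({g} : Set G) ⊓
      (P : Subgroup G).map (MulAut.conj b).toMonoidHom ≠ ⊥ →
      (P : Subgroup G).map (MulAut.conj a).toMonoidHom =
        (P : Subgroup G).map (MulAut.conj b).toMonoidHom := by
    intro g hg a b ha hb
    change _ ⊓ ((a • P : Sylow p G) : Subgroup G) ≠ ⊥ at ha
    change _ ⊓ ((b • P : Sylow p G) : Subgroup G) ≠ ⊥ at hb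
    change ((a • P : Sylow p G) : Subgroup G) = ((b • P : Sylow p G) : Subgroup G)
    obtain ⟨⟨x, hx, hx'⟩, x1⟩ := Subgroup.ne_bot_iff_exists_ne_one.1 ha
    obtain ⟨⟨y, hy, hy'⟩, y1⟩ := Subgroup.ne_bot_iff_exists_ne_one.1 hb
    have x1 : x ≠ 1 := fun h => x1 (Subtype.ext h)
    have y1 : y ≠ 1 := fun h => y1 (Subtype.ext h)
    obtain ⟨Q, hQ, hQ'⟩ := exQ (ih _ (hC g hg))
    have e := hcomm Q hQ y (hQ' _ (hzp _ y hy') (Subgroup.zpowers_le.2 hy) (Subgroup.mem_zpowers y))
      x (hQ' _ (hzp _ x hx') (Subgroup.zpowers_le.2 hx) (Subgroup.mem_zpowers x))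
    have y2 := hsyl _ (hC x (hnz a x hx' x1)) _ (hle _ x hx') _ (hzp _ y hy')
      (Subgroup.zpowers_le.2 (Subgroup.mem_centralizer_singleton_iff.2 e)) (Subgroup.mem_zpowers y)
    have hy0 := hC y (hnz b y hy' y1)
    exact le_antisymm (hsyl _ hy0 _ (hle _ y hy') _ (a • P).isPGroup' (hle _ y y2))
      (hsyl _ hy0 _ (hle _ y y2) _ (b • P).isPGroup' (hle _ y hy'))
  obtain ⟨ψ, hψ, h2, h3⟩ : ∃ ψ, IsIrrCharacter G ψ ∧ classInner χ ψ ≠ 0 ∧ ψ 1 ≠ 1 := by
    by_contra hc
    push Not at hc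
    have : commutator G ≤ ⊥ := fun x hx => Subgroup.mem_bot.2 (hf x (apply_of_mem_charKer
      (mem_charKer_of_forall (char_classFun hχ) fun ψ hψ h =>
        (irr_apply_one_iff hψ).1 (hc ψ hψ h) hx)))
    refine hP ⟨fun x hx g => ?_⟩
    rwa [CChar.CharMisc.comm_of_commutator_eq_bot this g x, mul_inv_cancel_right]
  have h4 : ∃ h ∈ (P : Subgroup G), ψ h ≠ ψ 1 := by
    by_contra hc
    push Not at hc
    have := (charKer_eq_top_iff hψ).1 (hM _ inferInstance ((le_charKer_iff (char_of_irr hψ)).2 hc))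
    exact h3 (by rw [this])
  have h5 := (Cfsg.Agent.S0898.result (P : Subgroup G) (hcomm _ P.isPGroup') hZ hone ψ hψ h4).2 h3 hM
  obtain ⟨m, -, hm⟩ := irr_apply_one hψ
  have h6 := degree_le_of_inner_ne_zero hχ hψ h2 hm hn
  rw [hm, Complex.natCast_re] at h5
  have h7 : Nat.card (P : Subgroup G) < (1 + m) ^ 2 := by exact_mod_cast h5
  have h8 : (1 + m) ^ 2 ≤ (n + 1) ^ 2 := Nat.pow_le_pow_left (by omega) _
  rcases h with h | h
  · obtain ⟨k, hk⟩ := IsPGroup.iff_card.1 P.isPGroup'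
    have k0 : k ≠ 0 := by
      rintro rfl
      rw [pow_zero, Subgroup.card_eq_one] at hk
      exact hP (hk ▸ inferInstance)
    have := Nat.le_self_pow k0 p
    omega
  · have h9 := Nat.le_of_dvd Nat.card_pos (P.pow_dvd_card_of_pow_dvd_card h)
    have : (n + 1) ^ 2 < p ^ 2 := Nat.pow_lt_pow_left h1 (by omega)
    omega

/-- Let G be a finite group with a faithful complex representation of degree n (on Fin n → ℂ) and p a prime. Suppose either that (n + 1) ^ 2 ≤ p, or that n + 1 < p and every subgroup of G whose order is not divisible by p ^ 2 has a normal Sylow p-subgroup. Then every Sylow p-subgroup of G is normal. -/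
theorem result {G : Type*} [Group G] [Finite G] (n : ℕ) (ρ : Representation ℂ G (Fin n → ℂ)) (hρ : Function.Injective ρ) (p : ℕ) [Fact p.Prime] (h : (n + 1) ^ 2 ≤ p ∨ (n + 1 < p ∧ ∀ K : Subgroup G, ¬ p ^ 2 ∣ Nat.card K → ∀ Q : Sylow p K, (Q : Subgroup K).Normal)) (P : Sylow p G) : (P : Subgroup G).Normal := by
  have hχ : IsCharacter G ρ.character := ⟨n, ρ, rfl⟩
  have hn : ρ.character 1 = n := by simp
  have hf : ∀ g, ρ.character g = ρ.character 1 → g = 1 := by
    intro g hg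
    have := (mem_charKer hχ).2 hg
    rw [charKer_character, (MonoidHom.ker_eq_bot_iff _).2 hρ] at this
    exact Subgroup.mem_bot.1 this
  have h1 : n + 1 < p := by
    rcases h with h | h
    · have := (Fact.out : p.Prime).two_le
      nlinarith
    · exact h.1
  have key : ∀ (m : ℕ) (K : Subgroup G), Nat.card K = m → ∀ Q : Sylow p K, (Q : Subgroup K).Normal := by
    intro m
    induction m using Nat.strong_induction_on with
    | _ m ih =>
    intro K hK Q
    by_cases h2 : (n + 1) ^ 2 ≤ p ∨ p ^ 2 ∣ Nat.card K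
    · refine step (char_restrict hχ K) (fun g hg => Subtype.ext (hf g hg)) hn p h1 h2 ?_ Q
      intro L hL
      refine ns_equiv (L.equivMapOfInjective K.subtype K.subtype_injective) (ih _ ?_ _ rfl)
      rw [Subgroup.card_map_of_injective K.subtype_injective, ← hK]
      exact lt_of_le_of_ne (Subgroup.card_le_card_group L) fun e => hL (Subgroup.eq_top_of_card_eq L e)
    · push Not at h2
      exact (h.resolve_left h2.1.not_ge).2 K h2.2 Q
  exact ns_equiv Subgroup.topEquiv.symm (key _ ⊤ rfl) P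

end Cfsg.Agent.S0899
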