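import Cfsg.Statements.S0900
import Cfsg.Agent.Lib.Char.Ind2

set_option autoImplicit false
open Cfsg

namespace Cfsg.Agent.S0900

/-- Let N be a normal subgroup of the finite group G, χ an irreducible character of G and ϑ an irreducible character of N having nonzero inner product with the restriction of χ. Consider: (a) the restriction of χ to N is e • ϑ for a natural number e with e ^ 2 equal to the index of N; (b) χ vanishes outside N and ϑ is invariant under conjugation by G; (c) ϑ is invariant and every irreducible character of G having nonzero inner product with the function induced from ϑ equals χ. Then (a) ↔ (b) and (a) ↔ (c). -/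
theorem result {G : Type*} [Group G] [Fintype G] (N : Subgroup G) [hN : N.Normal] [Fintype N] (χ : G → ℂ) (hχ : Cfsg.IsIrrCharacter G χ) (ϑ : N → ℂ) (hϑ : Cfsg.IsIrrCharacter N ϑ) (hcon : Cfsg.classInner (fun n : N => χ n) ϑ ≠ 0) : ((∃ e : ℕ, (fun n : N => χ n) = (e : ℂ) • ϑ ∧ e ^ 2 = N.index) ↔ ((∀ g : G, g ∉ N → χ g = 0) ∧ ∀ (g : G) (n : N), ϑ ⟨g * n * g⁻¹, hN.conj_mem (n : G) n.2 g⟩ = ϑ n)) ∧ ((∃ e : ℕ, (fun n : N => χ n) = (e : ℂ) • ϑ ∧ e ^ 2 = N.index) ↔ (∀ (g : G) (n : N), ϑ ⟨g * n * g⁻¹, hN.conj_mem (n : G) n.2 g⟩ = ϑ n ∧ ∀ ψ : G → ℂ, Cfsg.IsIrrCharacter G ψ → Cfsg.classInner (Cfsg.indFun N ϑ) ψ ≠ 0 → ψ = χ)) := by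
  have key : ∀ e : ℕ, (fun n : N => χ n) = (e : ℂ) • ϑ → e ^ 2 = N.index →
      (e : ℂ) ≠ 0 ∧ CA.Clif.inertia ϑ = ⊤ ∧ Cfsg.indFun N ϑ = (e : ℂ) • χ := by
    intro e h he
    have h0 : (e : ℂ) ≠ 0 := by
      intro h0
      have : e = 0 := by exact_mod_cast h0
      subst this
      exact Subgroup.index_ne_zero_of_finite (H := N) (by simpa using he.symm)
    exact ⟨h0, CA.Ind2.inertia_eq_top_of_res_eq_smul (CChar.CharFun.irr_classFun hχ) h0 h,
      CA.Ind2.ind_eq_smul_of_ramified hχ hϑ h he⟩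
  refine ⟨⟨?_, ?_⟩, ⟨?_, ?_⟩⟩
  · rintro ⟨e, h, he⟩
    obtain ⟨h0, h1, h2⟩ := key e h he
    refine ⟨fun g hg => ?_, CA.Clif.inertia_eq_top_iff'.1 h1⟩
    have := congrFun h2 g
    rw [CA.Ind.indFun_normal_of_not_mem N ϑ hg, Pi.smul_apply, smul_eq_mul, eq_comm,
      mul_eq_zero] at this
    exact this.resolve_left h0
  · rintro ⟨h1, h2⟩
    exact CA.Ind2.ramified_of_vanish hχ hϑ hcon (CA.Clif.inertia_eq_top_iff'.2 h2) h1
  · rintro ⟨e, h, he⟩ g n
    obtain ⟨h0, h1, h2⟩ := key e h he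
    refine ⟨CA.Clif.inertia_eq_top_iff'.1 h1 g n, fun ψ hψ h3 => ?_⟩
    rw [h2, CA.Cons.ci_smul_left] at h3
    exact (CChar.CharFun.irr_eq_of_inner_ne_zero hχ hψ (right_ne_zero_of_mul h3)).symm
  · intro h
    exact CA.Ind2.ramified_of_unique hχ hϑ hcon
      (CA.Clif.inertia_eq_top_iff'.2 fun g n => (h g n).1) (h 1 1).2

end Cfsg.Agent.S0900
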