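import Cfsg.Statements.S0901
import Cfsg.Agent.Lib.Block.BlkGal

set_option autoImplicit false
open Cfsg

namespace Cfsg.Agent.S0901
open Cfsg MonoidAlgebra CA.BlkAlg CA.BlkVal CA.BlkOmega CA.BlkRed CA.BlkCore CA.BlkDefect CA.BlkInd CA.BlkHeight CA.SylIn CA.H12PPart CChar.CharFun CChar.CharOrth Subgroup CA.BlkKer CChar.CharKer CA.BlkZero CChar.CharInt CA.BlkReg CA.BlkGal Polynomial

theorem exists_pow_eq_one {p : ℕ} [Fact p.Prime] {K : Type*} [Field K] [Algebra (ZMod p) K] {x : K}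
    (hx : IsIntegral (ZMod p) x) (h0 : x ≠ 0) : ∃ m : ℕ, ¬ p ∣ m ∧ x ^ m = 1 := by
  let F := IntermediateField.adjoin (ZMod p) {x}
  haveI : FiniteDimensional (ZMod p) F := IntermediateField.adjoin.finiteDimensional hx
  haveI : Finite F := Module.finite_of_finite (ZMod p)
  haveI := Fintype.ofFinite F
  haveI : CharP F p := charP_of_injective_algebraMap (algebraMap (ZMod p) F).injective p
  let y : F := ⟨x, IntermediateField.mem_adjoin_simple_self _ x⟩
  have hy : y ≠ 0 := fun h => h0 (congrArg Subtype.val h)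
  refine ⟨Fintype.card F - 1, fun hd => ?_, by
    simpa using congrArg Subtype.val (FiniteField.pow_card_sub_one_eq_one y hy)⟩
  obtain ⟨n, hp, hn⟩ := FiniteField.card F p
  have h1 : p ∣ Fintype.card F := hn ▸ dvd_pow_self p n.ne_zero
  have h2 : p ∣ Fintype.card F - (Fintype.card F - 1) := Nat.dvd_sub h1 hd
  rw [Nat.sub_sub_self Fintype.card_pos] at h2
  exact hp.not_dvd_one h2

/-- Let M be a maximal ideal of the ring of algebraic integers containing the prime p, and let U be the set of complex roots of unity of order prime to p. Then reduction modulo M is injective on U, and every algebraic integer not in M is congruent modulo M to an element of U (so U maps bijectively onto the nonzero residues). -/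
theorem result (p : ℕ) [Fact p.Prime] (M : Ideal Cfsg.AlgInt) (hM : Cfsg.IsPModular p M) : (∀ ε₁ ε₂ : Cfsg.AlgInt, (∃ m : ℕ, ¬ p ∣ m ∧ (ε₁ : ℂ) ^ m = 1) → (∃ m : ℕ, ¬ p ∣ m ∧ (ε₂ : ℂ) ^ m = 1) → ε₁ - ε₂ ∈ M → ε₁ = ε₂) ∧ (∀ a : Cfsg.AlgInt, a ∉ M → ∃ ε : Cfsg.AlgInt, (∃ m : ℕ, ¬ p ∣ m ∧ (ε : ℂ) ^ m = 1) ∧ a - ε ∈ M) := by
  have hp : p.Prime := Fact.out
  refine ⟨fun ε₁ ε₂ ⟨m, hm, h1⟩ ⟨n, hn, h2⟩ h => Subtype.ext ?_, fun a ha => ?_⟩
  · refine eq_of_res_eq_of_pow_eq_one hM hm hn h1 h2 ?_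
    exact (res_eq_res_iff (algInt_mem _) (algInt_mem _)).mpr
      ((v_algInt_lt_one_iff hM.2.1 (ε₁ - ε₂)).mpr h)
  haveI := charP_k hM
  letI : Algebra (ZMod p) (k M) := ZMod.algebra _ p
  have h0 : res M a ≠ 0 := (res_ne_zero_iff (algInt_mem a)).mpr (v_algInt_eq_one hM.2.1 ha)
  have hint : IsIntegral (ZMod p) (res M a) := by
    have h1 : IsIntegral ℤ (⟨a, algInt_mem a⟩ : O M) :=
      (isIntegral_algHom_iff ((O M).subtype.toIntAlgHom) Subtype.val_injective).mp a.2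
    rw [res_of_mem (algInt_mem a)]
    obtain ⟨f, hf, hf0⟩ := h1
    refine ⟨f.map (Int.castRingHom _), hf.map _, ?_⟩
    rw [eval₂_map]
    have := congrArg (IsLocalRing.residue (O M)) hf0
    rw [hom_eval₂, map_zero] at this
    rw [RingHom.ext_int ((algebraMap (ZMod p) (k M)).comp (Int.castRingHom (ZMod p)))
      ((IsLocalRing.residue (O M)).comp (algebraMap ℤ (O M)))]
    exact this
  obtain ⟨m, hm, hpow⟩ := exists_pow_eq_one hint h0
  have hm0 : m ≠ 0 := fun h => hm (h ▸ dvd_zero p)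
  obtain ⟨ζ, hζ⟩ : ∃ ζ : ℂ, IsPrimitiveRoot ζ m := ⟨_, Complex.isPrimitiveRoot_exp m hm0⟩
  have hζO : ζ ∈ O M := isIntegral_mem (isIntegral_of_pow_eq_one hm0 hζ.pow_eq_one)
  have hζ' : IsPrimitiveRoot (res M ζ) m := by
    refine IsPrimitiveRoot.mk_of_lt _ (Nat.pos_of_ne_zero hm0) ?_ fun l hl hlm h => ?_
    · rw [← res_pow hζO, hζ.pow_eq_one, res_one]
    · rw [← res_pow hζO] at h
      refine hζ.pow_ne_one_of_pos_of_lt hl.ne' hlm (eq_one_of_res_eq_one hM hm ?_ h)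
      rw [← pow_mul, mul_comm, pow_mul, hζ.pow_eq_one, one_pow]
  haveI : NeZero m := ⟨hm0⟩
  obtain ⟨i, -, hi⟩ := hζ'.eq_pow_of_pow_eq_one hpow
  have hζi : (ζ ^ i) ^ m = 1 := by rw [← pow_mul, mul_comm, pow_mul, hζ.pow_eq_one, one_pow]
  refine ⟨⟨ζ ^ i, isIntegral_of_pow_eq_one hm0 hζi⟩, ⟨m, hm, hζi⟩, ?_⟩
  rw [← v_algInt_lt_one_iff hM.2.1]
  exact (res_eq_res_iff (algInt_mem a) (pow_mem hζO i)).mp (by rw [res_pow hζO, hi])

end Cfsg.Agent.S0901
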