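import Cfsg.Statements.S0902
import Cfsg.Agent.Lib.Block.BlkGal

set_option autoImplicit false
open Cfsg

namespace Cfsg.Agent.S0902
open Cfsg MonoidAlgebra CA.BlkAlg CA.BlkVal CA.BlkOmega CA.BlkRed CA.BlkCore CA.BlkDefect CA.BlkInd CA.BlkHeight CA.SylIn CA.H12PPart CChar.CharFun CChar.CharOrth Subgroup CA.BlkKer CChar.CharKer CA.BlkZero CChar.CharInt CA.BlkReg CA.BlkGal

/-- If two irreducible characters of a finite group lie in the same block relative to one maximal ideal M of the algebraic integers containing the prime p, then at every element the difference of their central characters is an algebraic integer lying in every maximal ideal containing p; in particular they lie in the same block relative to any such ideal. -/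
theorem result {G : Type*} [Group G] [Finite G] (p : ℕ) [Fact p.Prime] (M : Ideal Cfsg.AlgInt) (hM : Cfsg.IsPModular p M) (χ ψ : Cfsg.IrrCharacter G) (h : Cfsg.SameBlock M (χ : G → ℂ) (ψ : G → ℂ)) (M' : Ideal Cfsg.AlgInt) (hM' : Cfsg.IsPModular p M') (g : G) : ∃ r : Cfsg.AlgInt, r ∈ M' ∧ (r : ℂ) = Cfsg.centralChar (χ : G → ℂ) g - Cfsg.centralChar (ψ : G → ℂ) g := by
  have h' := (sameBlock_iff_res hM' χ ψ).mp ((sameBlock_congr hM hM').mp h) g
  refine ⟨⟨_, (CA.BlkRed.isIntegral_centralChar χ g).sub (CA.BlkRed.isIntegral_centralChar ψ g)⟩, ?_, rfl⟩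
  rw [← v_algInt_lt_one_iff hM'.2.1]
  exact (res_eq_res_iff (centralChar_mem_O χ g) (centralChar_mem_O ψ g)).mp h'

end Cfsg.Agent.S0902
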