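import Cfsg.Statements.S0903
import Cfsg.Agent.Lib.Block.BlkAlg

set_option autoImplicit false
open Cfsg

namespace Cfsg.Agent.S0903
open CA.BlkAlg

theorem coeff_mul_classSum {R : Type*} [CommRing R] {G : Type*} [Group G] [Finite G]
    (S T : Set G) (c : G) : (setSum R S * setSum R T).coeff c =
      (Nat.card {xy : G × G // xy.1 ∈ S ∧ xy.2 ∈ T ∧ xy.1 * xy.2 = c} : R) := by
  classical
  have := Fintype.ofFinite G
  have e : {xy : G × G // xy.1 ∈ S ∧ xy.2 ∈ T ∧ xy.1 * xy.2 = c} ≃
      {x : G // x ∈ S ∧ x⁻¹ * c ∈ T} :=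
    { toFun := fun xy => ⟨xy.1.1, xy.2.1, by
        rw [inv_mul_eq_iff_eq_mul.mpr xy.2.2.2.symm]; exact xy.2.2.1⟩
      invFun := fun x => ⟨(x.1, x.1⁻¹ * c), x.2.1, x.2.2, mul_inv_cancel_left _ _⟩
      left_inv := fun xy => Subtype.ext (Prod.ext rfl (inv_mul_eq_iff_eq_mul.mpr xy.2.2.2.symm))
      right_inv := fun x => rfl }
  rw [Nat.card_congr e, coeff_mul_sum, Nat.card_eq_fintype_card, Fintype.card_subtype,
    Finset.card_filter]
  push_cast
  refine Finset.sum_congr rfl fun x _ => ?_
  rw [coeff_setSum, coeff_setSum]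
  by_cases h1 : x ∈ S <;> by_cases h2 : x⁻¹ * c ∈ T <;> simp [h1, h2]

/-- Let P be a p-subgroup of the finite group G, let c centralize P and let g, h ∈ G. The number of pairs (x, y) with x conjugate to g, y conjugate to h and x * y = c is congruent modulo p to the number of such pairs in which x and y both centralize P. (This is why the Brauer map on class sums is multiplicative.) -/
theorem result {G : Type*} [Group G] [Finite G] (p : ℕ) [Fact p.Prime] (P : Subgroup G) (hP : IsPGroup p P) (c : G) (hc : c ∈ Subgroup.centralizer (P : Set G)) (g h : G) : Nat.card {xy : G × G // IsConj g xy.1 ∧ IsConj h xy.2 ∧ xy.1 * xy.2 = c} ≡ Nat.card {xy : G × G // IsConj g xy.1 ∧ IsConj h xy.2 ∧ xy.1 * xy.2 = c ∧ xy.1 ∈ Subgroup.centralizer (P : Set G) ∧ xy.2 ∈ Subgroup.centralizer (P : Set G)} [MOD p] := by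
  classical
  rw [← ZMod.natCast_eq_natCast_iff]
  have h1 := cut_mul_of_fixed (R := ZMod p) (ZMod.natCast_self p) hP
    (mem_fixed_of_mem_Z (classSum_mem_Z g) P) (mem_fixed_of_mem_Z (classSum_mem_Z h) P)
  have h2 := congrArg (fun a => a.coeff c) h1
  have h3 : ∀ g : G, cut (Subgroup.centralizer (P : Set G)) (classSum (ZMod p) g) =
      setSum (ZMod p) {x | IsConj g x ∧ x ∈ Subgroup.centralizer (P : Set G)} := by
    intro g
    refine ext_coeff fun x => ?_
    rw [coeff_cut, coeff_classSum, coeff_setSum]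
    by_cases h1 : IsConj g x <;> by_cases h2 : x ∈ Subgroup.centralizer (P : Set G) <;>
      simp [h1, h2]
  simp only [h3] at h2
  rw [coeff_cut_of_mem _ hc, classSum, classSum, coeff_mul_classSum, coeff_mul_classSum] at h2
  refine h2.trans (congrArg _ (Nat.card_congr (Equiv.subtypeEquivRight fun xy => ?_)))
  simp only [Set.mem_ofPred_eq]
  tauto

end Cfsg.Agent.S0903
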