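import Cfsg.Statements.S0905
import Cfsg.Agent.Lib.Block.BlkInd
import Cfsg.Agent.Lib.Grp.Core

set_option autoImplicit false
open Cfsg

namespace Cfsg.Agent.S0905
open Cfsg MonoidAlgebra CA.BlkAlg CA.BlkVal CA.BlkOmega CA.BlkRed CA.BlkCore CA.BlkDefect CA.BlkInd CA.SylIn CChar.CharFun CChar.CharOrth Subgroup

/-- Let F be a field of characteristic p and let g be an element of the finite group G no conjugate of which centralizes O_p(G). Then the class sum of g is a nilpotent element of the group algebra F[G]. -/
theorem result {G : Type*} [Group G] [Finite G] (p : ℕ) [Fact p.Prime] (F : Type*) [Field F] [CharP F p] (g : G) (hg : ∀ x : G, IsConj g x → x ∉ Subgroup.centralizer (Cfsg.pCore p G : Set G)) : IsNilpotent (∑ᶠ x ∈ ConjClasses.carrier (ConjClasses.mk g), MonoidAlgebra.single x (1 : F) : MonoidAlgebra F G) := by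
  classical
  have := Fintype.ofFinite G
  have e : (∑ᶠ x ∈ ConjClasses.carrier (ConjClasses.mk g), MonoidAlgebra.single x (1 : F) :
      MonoidAlgebra F G) = classSum F g := by
    rw [CA.H12Orth.finsum_mem_set]
    refine ext_coeff fun y => ?_
    rw [coeff_sum', coeff_classSum]
    simp only [coeff_single', Finset.sum_ite_eq', Finset.mem_filter, Finset.mem_univ, true_and,
      ConjClasses.mem_carrier_iff_mk_eq, ConjClasses.mk_eq_mk_iff_isConj]
    exact if_congr isConj_comm rfl rfl
  rw [e]
  exact isNilpotent_of_br_eq_zero (CharP.cast_eq_zero F p) (CA.Core.isPGroup_pCore (p := p))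
    (classSum_mem_Z g) fun c hc => coeff_classSum_of_not_isConj fun h => hg c h hc

end Cfsg.Agent.S0905
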