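import Cfsg.Statements.S0916
import Cfsg.Agent.Lib.Block.BlkFirst

set_option autoImplicit false
open Cfsg

namespace Cfsg.Agent.S0916
open Cfsg MonoidAlgebra CA.BlkAlg CA.BlkVal CA.BlkOmega CA.BlkRed CA.BlkCore CA.BlkDefect CA.BlkInd CA.BlkHeight CA.SylIn CA.H12PPart CChar.CharFun CChar.CharOrth Subgroup CA.BlkKer CChar.CharKer CA.BlkFirst

/-- Let P be a p-subgroup of the finite group G, C its centralizer and N its normalizer. Say that a conjugacy class (of G, or of N) has defect group P when P is a Sylow p-subgroup of the centralizer (in G, respectively in N) of some element of the class. Then: (i) if the class of g in G has defect group P, the elements of that class lying in C form a single N-class, again with defect group P; (ii) every N-class with defect group P arises this way from exactly one G-class with defect group P. -/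
theorem result {G : Type*} [Group G] [Finite G] (p : ℕ) [Fact p.Prime] (P : Subgroup G) (hP : IsPGroup p P) : (∀ g : G, (∃ S : Sylow p (Subgroup.centralizer ({g} : Set G)), (S : Subgroup (Subgroup.centralizer ({g} : Set G))).map (Subgroup.centralizer ({g} : Set G)).subtype = P) → (∃ c : G, IsConj g c ∧ c ∈ Subgroup.centralizer (P : Set G)) ∧ (∀ c₁ c₂ : G, IsConj g c₁ → IsConj g c₂ → c₁ ∈ Subgroup.centralizer (P : Set G) → c₂ ∈ Subgroup.centralizer (P : Set G) → ∃ n ∈ Subgroup.normalizer (P : Set G), n * c₁ * n⁻¹ = c₂)) ∧ (∀ c : G, c ∈ Subgroup.centralizer (P : Set G) → (∃ S : Sylow p (Subgroup.centralizer ({c} : Set G) ⊓ Subgroup.normalizer (P : Set G) : Subgroup G), (S : Subgroup ↥(Subgroup.centralizer ({c} : Set G) ⊓ Subgroup.normalizer (P : Set G))).map (Subgroup.centralizer ({c} : Set G) ⊓ Subgroup.normalizer (P : Set G)).subtype = P) → ∃ S : Sylow p (Subgroup.centralizer ({c} : Set G)), (S : Subgroup (Subgroup.centralizer ({c} : Set G))).map (Subgroup.centralizer ({c} : Set G)).subtype = P) := by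
  simp only [exists_sylow_map_eq_iff']
  constructor
  · intro g hg
    have hgc := le_centralizer_singleton_iff.mp hg.le
    have key : ∀ c, IsConj g c → c ∈ centralizer (P : Set G) →
        CA.H11Def.Cj (normalizer (P : Set G)) g c := fun c h hc => by
      have := CA.H11Def.cj_norm_of_sylow (H := ⊤) (CA.H11Def.cj_top.mpr h)
        (by rwa [top_inf_eq]) hc
      rwa [top_inf_eq] at this
    exact ⟨⟨g, IsConj.refl g, hgc⟩, fun c₁ c₂ h1 h2 h3 h4 =>
      (key c₁ h1 h3).symm.trans (key c₂ h2 h4)⟩
  · intro c _ h
    have := CA.H11Def.sylow_of_norm (H := ⊤) (x := c) (by rwa [top_inf_eq, inf_comm])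
    rwa [top_inf_eq] at this

end Cfsg.Agent.S0916
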