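import Cfsg.Statements.S0918
import Cfsg.Agent.Lib.Block.BlkInd

set_option autoImplicit false
open Cfsg

namespace Cfsg.Agent.S0918
open Cfsg MonoidAlgebra CA.BlkAlg CA.BlkVal CA.BlkOmega CA.BlkRed CA.BlkCore CA.BlkDefect CA.BlkInd CA.SylIn CChar.CharFun CChar.CharOrth Subgroup

/-- Let P be a p-subgroup of the finite group G and H a subgroup with P·C_G(P) ≤ H ≤ N_G(P); let b be a block of H and B a block of G relative to a maximal ideal M of the algebraic integers containing p. Then b induces B if and only if, for every g ∈ G, every ξ ∈ b and every χ ∈ B, the central character of χ at g is congruent modulo the local ideal at M to the sum of ξ h / ξ 1 over the elements h of H conjugate in G to g and centralizing P. -/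
theorem result {G : Type*} [Group G] [Finite G] (p : ℕ) [Fact p.Prime] (M : Ideal Cfsg.AlgInt) (hM : Cfsg.IsPModular p M) (P H : Subgroup G) (hP : IsPGroup p P) (hPH : P ≤ H) (hCH : Subgroup.centralizer (P : Set G) ≤ H) (hHN : H ≤ Subgroup.normalizer (P : Set G)) (b : Set (Cfsg.IrrCharacter H)) (hb : Cfsg.IsPBlock M b) (B : Set (Cfsg.IrrCharacter G)) (hB : Cfsg.IsPBlock M B) : Cfsg.IsInducedBlock M H b B ↔ ∀ ξ ∈ b, ∀ χ ∈ B, ∀ g : G, Cfsg.MemLocalIdeal M (Cfsg.brauerCentralChar P H (ξ : H → ℂ) g - Cfsg.centralChar (χ : G → ℂ) g) := by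
  have key : ∀ (ξ : IrrCharacter H) (χ : IrrCharacter G) (g : G),
      MemLocalIdeal M (brauerCentralChar P H (ξ : H → ℂ) g - centralChar (χ : G → ℂ) g) ↔
        lam M ξ.1 (trunc H (classSum (k M) g)) = lam M χ.1 (classSum (k M) g) := by
    intro ξ χ g
    have e : ∀ (R : Type) [CommRing R],
        trunc H (cut (centralizer (P : Set G) : Set G) (classSum R g)) =
          setSum R {h : H | IsConj g (h : G) ∧ (h : G) ∈ centralizer (P : Set G)} := by
      intro R _
      classical
      refine ext_coeff fun x => ?_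
      rw [coeff_trunc, coeff_cut, coeff_classSum, coeff_setSum]
      by_cases h1 : (x : G) ∈ centralizer (P : Set G) <;> by_cases h2 : IsConj g (x : G) <;>
        simp [h1, h2]
    rw [brauerCentralChar, ← omega_setSum_finsum, memLocalIdeal_omega_setSum_sub_iff hM ξ
      (e ℂ ▸ trunc_cut_mem_Z hHN (mem_fixed_of_mem_Z (classSum_mem_Z g) H)), ← e,
      lam_trunc_cut hM hP hPH hHN ξ (mem_fixed_of_mem_Z (classSum_mem_Z g) H)]
  simp only [key, isInducedBlock_iff hM, ind_iff_classSum, hb, hB, true_and, trunc_eq_pull]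

end Cfsg.Agent.S0918
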