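import Cfsg.Statements.S0920
import Cfsg.Agent.Lib.Block.BlkFirst

set_option autoImplicit false
open Cfsg

namespace Cfsg.Agent.S0920
open Cfsg MonoidAlgebra CA.BlkAlg CA.BlkVal CA.BlkOmega CA.BlkRed CA.BlkCore CA.BlkDefect CA.BlkInd CA.BlkHeight CA.SylIn CA.H12PPart CChar.CharFun CChar.CharOrth Subgroup CA.BlkKer CChar.CharKer CA.BlkFirst

/-- Brauer's First Main Theorem. Let D be a p-subgroup of the finite group G with normalizer N, and fix a maximal ideal M of the algebraic integers containing p. Then (i) every block b of N having D as a defect group induces some block B of G having D as a defect group; (ii) every block of G with defect group D is induced by exactly one block of N with defect group D. -/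
theorem result {G : Type*} [Group G] [Finite G] (p : ℕ) [Fact p.Prime] (M : Ideal Cfsg.AlgInt) (hM : Cfsg.IsPModular p M) (D : Subgroup G) (hD : IsPGroup p D) : (∀ b : Set (Cfsg.IrrCharacter (Subgroup.normalizer (D : Set G))), Cfsg.IsPBlock M b → Cfsg.IsDefectGroup p M b (D.subgroupOf (Subgroup.normalizer (D : Set G))) → ∃ B : Set (Cfsg.IrrCharacter G), Cfsg.IsPBlock M B ∧ Cfsg.IsDefectGroup p M B D ∧ Cfsg.IsInducedBlock M (Subgroup.normalizer (D : Set G)) b B) ∧ (∀ B : Set (Cfsg.IrrCharacter G), Cfsg.IsPBlock M B → Cfsg.IsDefectGroup p M B D → ∃! b : Set (Cfsg.IrrCharacter (Subgroup.normalizer (D : Set G))), Cfsg.IsPBlock M b ∧ Cfsg.IsDefectGroup p M b (D.subgroupOf (Subgroup.normalizer (D : Set G))) ∧ Cfsg.IsInducedBlock M (Subgroup.normalizer (D : Set G)) b B) := by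
  constructor
  · intro b hb hD'
    obtain ⟨B, hB⟩ := inducedBlockDefined_of_normalizer hM hD le_normalizer
      (centralizer_le_normalizer _) le_rfl hb
    exact ⟨B, hB.2.1, (isDefectGroup_of_induced_normalizer hM hD' hB).1, hB⟩
  · intro B hB hD'
    obtain ⟨b, hb, hd⟩ := exists_brauerCorrespondent hM hB hD'
    exact ⟨b, ⟨hb.1, hd, hb⟩, fun b' hb' => eq_of_induced_normalizer hM hD' hb'.2.2 hb⟩

end Cfsg.Agent.S0920
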