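import Cfsg.Statements.S0921
import Cfsg.Agent.Lib.Block.H12Cover
import Cfsg.Agent.Lib.Grp.Core

set_option autoImplicit false
open Cfsg

namespace Cfsg.Agent.S0921

open CA.H12Cover CA.BlkCore CA.BlkAlg CA.BlkOmega CA.BlkRed CA.BlkVal CChar.CharFun

/-- Let N = O_p'(G) be the largest normal subgroup of the finite group G of order prime to p, and fix a maximal ideal M of the algebraic integers containing p. If two irreducible characters χ, ψ of G lie in the same block relative to M, then an irreducible character of N occurs in the restriction of χ exactly when it occurs in the restriction of ψ. -/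
theorem result {G : Type*} [Group G] [Finite G] (p : ℕ) [Fact p.Prime] (M : Ideal Cfsg.AlgInt) (hM : Cfsg.IsPModular p M) [Fintype G] (χ ψ : Cfsg.IrrCharacter G) (h : Cfsg.SameBlock M (χ : G → ℂ) (ψ : G → ℂ)) (θ : Cfsg.IrrCharacter (Cfsg.pPrimeCore p G)) [Fintype (Cfsg.pPrimeCore p G)] : Cfsg.classInner (fun n : Cfsg.pPrimeCore p G => (χ : G → ℂ) n) (θ : Cfsg.pPrimeCore p G → ℂ) ≠ 0 ↔ Cfsg.classInner (fun n : Cfsg.pPrimeCore p G => (ψ : G → ℂ) n) (θ : Cfsg.pPrimeCore p G → ℂ) ≠ 0 := by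
  have hN : ¬ p ∣ Nat.card (Cfsg.pPrimeCore p G) :=
    (Nat.Prime.coprime_iff_not_dvd hM.1).1 CA.Core.coprime_pPrimeCore.symm
  have key : ∀ χ ψ : Cfsg.IrrCharacter G, Cfsg.SameBlock M χ.1 ψ.1 →
      Over _ χ.1 θ.1 → Over _ ψ.1 θ.1 := fun χ ψ h h1 => by
    obtain ⟨θ', rfl, h2⟩ := exists_mem_over_of_cov hM (isSat_of_not_dvd hM hN {θ})
      (isPBlock_blockOf χ) ⟨χ, self_mem_blockOf hM χ, θ, rfl, h1⟩ (χ := ψ) h
    exact h2
  rw [← over_iff, ← over_iff]
  exact ⟨key χ ψ h, key ψ χ (sameBlock_symm hM h)⟩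

end Cfsg.Agent.S0921
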