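import Cfsg.Statements.S0928
import Cfsg.Agent.Lib.Block.H12Sub

set_option autoImplicit false
open Cfsg

namespace Cfsg.Agent.S0928

/-- Let χ be an irreducible character of the finite group G and p a prime. If χ g = 0 for every element g of order p, then the exponent of p in the degree χ(1) equals the exponent of p in the order of G (χ has p-defect zero). -/
theorem result {G : Type*} [Group G] [Finite G] (p : ℕ) [Fact p.Prime] (χ : Cfsg.IrrCharacter G) (hvan : ∀ g : G, orderOf g = p → (χ : G → ℂ) g = 0) : (Cfsg.charDegree (χ : G → ℂ)).factorization p = (Nat.card G).factorization p := by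
  classical
  have hp : p.Prime := Fact.out
  have := Fintype.ofFinite G
  obtain ⟨M, hM⟩ := CA.BlkVal.exists_isPModular hp
  have hB := CA.BlkCore.isPBlock_blockOf (M := M) χ
  have hχ := CA.BlkCore.self_mem_blockOf hM χ
  obtain ⟨D, hD⟩ := CA.BlkDefect.exists_isDefectGroup hM hB
  by_cases h0 : D = ⊥
  · exact CA.H12Sub.factorization_eq_of_defect_bot hM hB hχ (h0 ▸ hD)
  exfalso
  have hS : ∀ u g : G, u * g * u⁻¹ ∈ {g : G | g ^ p = 1} ↔ g ∈ {g : G | g ^ p = 1} := fun u g => by
    simp
  have h1 := CA.H12Sub.lam_setSum hM hB hχ hD hS fun g hg => by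
    rcases (Nat.dvd_prime hp).1 (orderOf_dvd_of_pow_eq_one hg) with h | h
    · exact ⟨0, by simpa using h⟩
    · exact ⟨1, by simpa using h⟩
  rw [← CA.BlkRed.red_setSum, CA.BlkCore.lam_red χ (CA.H12Sub.setSum_mem_Z hS)
    (CA.BlkRed.setSum_mem_OG _), CA.BlkOmega.omega_apply, CA.BlkOmega.chiL_setSum,
    Finset.sum_eq_single 1 (fun g hg hg1 => hvan g (orderOf_eq_prime (by simpa using hg) hg1))
      (by simp), div_self (CChar.CharFun.irr_apply_one_ne_zero χ.2), CA.BlkVal.res_one] at h1
  let Ω : Subgroup G :=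
    { carrier := {g | g ∈ {g : G | g ^ p = 1} ∧ g ∈ D ∧ g ∈ Subgroup.centralizer (D : Set G)}
      one_mem' := ⟨by simp, D.one_mem, one_mem _⟩
      mul_mem' := fun {a b} ha hb => ⟨by
        have : Commute a b := hb.2.2 a ha.2.1
        change (a * b) ^ p = 1
        rw [this.mul_pow, ha.1, hb.1, one_mul], mul_mem ha.2.1 hb.2.1, mul_mem ha.2.2 hb.2.2⟩
      inv_mem' := fun {a} ha => ⟨by
        change a⁻¹ ^ p = 1
        rw [inv_pow, ha.1, inv_one], inv_mem ha.2.1, inv_mem ha.2.2⟩ }
  have hDp := CA.BlkDefect.isPGroup_of_isDefectGroup hD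
  have hΩ : IsPGroup p Ω := hDp.to_le fun g hg => hg.2.1
  have : Nontrivial D := (Subgroup.nontrivial_iff_ne_bot D).2 h0
  have := hDp.center_nontrivial
  obtain ⟨z, hz⟩ := exists_prime_orderOf_dvd_card' (G := Subgroup.center D) p
    (((hDp.to_subgroup _).card_eq_or_dvd).resolve_left Finite.one_lt_card.ne')
  have : Nontrivial Ω := (Subgroup.nontrivial_iff_exists_ne_one Ω).2 ⟨z.1.1, ⟨by
      change (z.1.1 : G) ^ p = 1
      rw [← hz]
      exact congrArg (fun x : Subgroup.center D => (x.1.1 : G)) (pow_orderOf_eq_one z), z.1.2,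
      fun u hu => congrArg Subtype.val (Subgroup.mem_center_iff.1 z.2 ⟨u, hu⟩)⟩, fun h => by
    rw [show z = 1 from Subtype.ext (Subtype.ext h), orderOf_one] at hz
    exact hp.one_lt.ne hz⟩
  have h2 := (CA.BlkVal.natCast_k_eq_zero_iff hM _).2
    (hΩ.card_eq_or_dvd.resolve_left Finite.one_lt_card.ne')
  exact one_ne_zero (h1.trans h2)

end Cfsg.Agent.S0928
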