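import Cfsg.Statements.S0929
import Cfsg.Agent.Lib.Block.BlkHeight
import Cfsg.Agent.Lib.Block.H12Sub

set_option autoImplicit false
open Cfsg

namespace Cfsg.Agent.S0929
open Cfsg MonoidAlgebra CA.BlkAlg CA.BlkVal CA.BlkOmega CA.BlkRed CA.BlkCore CA.BlkDefect CA.BlkInd CA.BlkHeight CA.SylIn CA.H12PPart CChar.CharFun CChar.CharOrth Subgroup

/-- Let B be a block of the finite group G with defect group P (relative to a maximal ideal M of the algebraic integers containing p), and let g be an element at which the central character of some member of B is not in the local ideal at M. Then some conjugate x of g centralizes P and has its p-part in the centre of P. -/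
theorem result {G : Type*} [Group G] [Finite G] (p : ℕ) [Fact p.Prime] (M : Ideal Cfsg.AlgInt) (hM : Cfsg.IsPModular p M) (B : Set (Cfsg.IrrCharacter G)) (hB : Cfsg.IsPBlock M B) (P : Subgroup G) (hP : Cfsg.IsDefectGroup p M B P) (g : G) (hg : ∃ χ ∈ B, ¬ Cfsg.MemLocalIdeal M (Cfsg.centralChar (χ : G → ℂ) g)) : ∃ x : G, IsConj g x ∧ x ∈ Subgroup.centralizer (P : Set G) ∧ ∀ z : G, Cfsg.IsPPart p x z → z ∈ P ∧ ∀ w ∈ P, z * w = w * z := by
  obtain ⟨χ, hχ, hg⟩ := hg
  rw [memLocalIdeal_centralChar_iff hM] at hg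
  obtain ⟨ξ, hξ⟩ := CA.H12Sub.exists_root hM hB hχ (isPGroup_of_isDefectGroup hP)
    (br_eB_ne_zero hM hB hP)
  rw [← hξ _ (classSum_mem_Z g)] at hg
  obtain ⟨c, hc, hl⟩ := exists_coeff_ne_zero_of_lam_ne_zero ξ
    (trunc_mem_Z_of_Z _ (classSum_mem_Z g)) hg
  have h1 := CA.H12Sub.pPart_mem_of_root hM hB hP (ξ := ξ)
    (by rw [hξ _ (eB_mem_Z B), lam_eB_of_mem (isSat_of_isPBlock hM hB) hχ])
    (apply_ne_zero_of_lam_ne_zero hl)
  refine ⟨c, ?_, c.2, fun z hz => ?_⟩
  · by_contra h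
    exact hc (coeff_classSum_of_not_isConj h)
  · rw [← (isPPart_iff hM.1).mp hz]
    exact ⟨h1, fun w hw => (mem_centralizer_iff.mp (pPart_mem hM.1 c.2) w hw).symm⟩

end Cfsg.Agent.S0929
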