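import Cfsg.Statements.S0931
import Cfsg.Agent.Lib.Block.BlkKer

set_option autoImplicit false
open Cfsg

namespace Cfsg.Agent.S0931
open Cfsg MonoidAlgebra CA.BlkAlg CA.BlkVal CA.BlkOmega CA.BlkRed CA.BlkCore CA.BlkDefect CA.BlkInd CA.BlkHeight CA.SylIn CA.H12PPart CChar.CharFun CChar.CharOrth Subgroup CA.BlkKer CChar.CharKer

/-- Let H be a subgroup of the finite group G and fix a maximal ideal M of the algebraic integers containing the prime p. If the block b of H induces the block B of G, then b has defect 0 if and only if B has defect 0. -/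
theorem result {G : Type*} [Group G] [Finite G] (p : ℕ) [Fact p.Prime] (M : Ideal Cfsg.AlgInt) (hM : Cfsg.IsPModular p M) (H : Subgroup G) (b : Set (Cfsg.IrrCharacter H)) (B : Set (Cfsg.IrrCharacter G)) (hind : Cfsg.IsInducedBlock M H b B) : Cfsg.blockDefect p b = 0 ↔ Cfsg.blockDefect p B = 0 := by
  obtain ⟨ξ, hξ⟩ := block_nonempty hM hind.1
  obtain ⟨χ, hχ⟩ := block_nonempty hM hind.2.1
  have h := ind_of_isInducedBlock hM hind hξ hχ
  refine ⟨blockDefect_eq_zero_of_ind hM hind.1 hind.2.1 hξ hχ h, fun h0 => ?_⟩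
  have := blockDefect_le_of_ind hM H.subtype_injective hind.1 hind.2.1 hξ hχ h
  omega

end Cfsg.Agent.S0931
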