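import Cfsg.Statements.S0935
import Cfsg.Agent.Lib.Block.BlkReg

set_option autoImplicit false
open Cfsg

namespace Cfsg.Agent.S0935
open Cfsg MonoidAlgebra CA.BlkAlg CA.BlkVal CA.BlkOmega CA.BlkRed CA.BlkCore CA.BlkDefect CA.BlkInd CA.BlkHeight CA.SylIn CA.H12PPart CChar.CharFun CChar.CharOrth Subgroup CA.BlkKer CChar.CharKer CA.BlkReg

/-- Let H be a subgroup of the finite group G and χ an irreducible character of G whose restriction to H is irreducible; fix a maximal ideal M of the algebraic integers containing the prime p and suppose χ and its restriction have height zero in their blocks B and b. If e is a block of H whose induced block is defined, then e induces B if and only if e = b. -/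
theorem result {G : Type*} [Group G] [Finite G] (p : ℕ) [Fact p.Prime] (M : Ideal Cfsg.AlgInt) (hM : Cfsg.IsPModular p M) (H : Subgroup G) (χ : Cfsg.IrrCharacter G) (hres : Cfsg.IsIrrCharacter H (fun h : H => (χ : G → ℂ) h)) (hχ0 : Cfsg.blockHeight p (Cfsg.blockOf M (χ : G → ℂ)) (χ : G → ℂ) = 0) (hψ0 : Cfsg.blockHeight p (Cfsg.blockOf M (fun h : H => (χ : G → ℂ) h)) (fun h : H => (χ : G → ℂ) h) = 0) (e : Set (Cfsg.IrrCharacter H)) (he : Cfsg.InducedBlockDefined M H e) : Cfsg.IsInducedBlock M H e (Cfsg.blockOf M (χ : G → ℂ)) ↔ e = Cfsg.blockOf M (fun h : H => (χ : G → ℂ) h) := by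
  obtain ⟨B', hB'⟩ := he
  obtain ⟨ξ, hξ⟩ := block_nonempty hM hB'.1
  obtain ⟨η, hη⟩ := block_nonempty hM hB'.2.1
  let ψ : IrrCharacter H := ⟨_, hres⟩
  have key : lam M ξ.1 (sK p M ψ.1) = lam M η.1 (sK p M χ.1) := by
    rw [← ind_of_isInducedBlock hM hB' hξ hη _ (sK_mem_Z (irr_classFun χ.2)),
      pull_sK H.subtype_injective]
    rfl
  constructor
  · intro h
    obtain rfl := induced_unique hM h hB'
    exact eq_blockOf_of_mem hM h.1 (χ := ψ) (mem_of_lam_sK_ne_zero hM (isSat_of_isPBlock hM h.1) hξ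
      (key ▸ lam_sK_ne_zero_of_height_zero hM h.2.1 (self_mem_blockOf hM χ) hχ0 hη))
  · rintro rfl
    have := mem_of_lam_sK_ne_zero hM (isSat_of_isPBlock hM hB'.2.1) hη
      (key ▸ lam_sK_ne_zero_of_height_zero hM hB'.1 (self_mem_blockOf hM ψ) hψ0 hξ)
    rwa [← eq_blockOf_of_mem hM hB'.2.1 this]

end Cfsg.Agent.S0935
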