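import Cfsg.Statements.S0940
import Cfsg.Agent.Lib.Block.BlkReg

set_option autoImplicit false
open Cfsg

namespace Cfsg.Agent.S0940
open Cfsg MonoidAlgebra CA.BlkAlg CA.BlkVal CA.BlkOmega CA.BlkRed CA.BlkCore CA.BlkDefect CA.BlkInd CA.BlkHeight CA.SylIn CA.H12PPart CChar.CharFun CChar.CharOrth Subgroup CA.BlkKer CChar.CharKer CA.BlkReg

theorem coeff_mul_setSum {R G : Type*} [CommRing R] [Group G] [Finite G] (S T : Set G) (c : G) :
    (setSum R S * setSum R T).coeff c =
      (Nat.card {xy : G × G // xy.1 ∈ S ∧ xy.2 ∈ T ∧ xy.1 * xy.2 = c} : R) := by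
  classical
  have := Fintype.ofFinite G
  have e : {xy : G × G // xy.1 ∈ S ∧ xy.2 ∈ T ∧ xy.1 * xy.2 = c} ≃
      {x : G // x ∈ S ∧ x⁻¹ * c ∈ T} :=
    { toFun := fun xy => ⟨xy.1.1, xy.2.1, by
        rw [inv_mul_eq_iff_eq_mul.mpr xy.2.2.2.symm]; exact xy.2.2.1⟩
      invFun := fun x => ⟨(x.1, x.1⁻¹ * c), x.2.1, x.2.2, mul_inv_cancel_left _ _⟩
      left_inv := fun xy => Subtype.ext (Prod.ext rfl (inv_mul_eq_iff_eq_mul.mpr xy.2.2.2.symm))
      right_inv := fun x => rfl }
  rw [Nat.card_congr e, coeff_mul_sum, Nat.card_eq_fintype_card, Fintype.card_subtype,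
    Finset.card_filter]
  push_cast
  refine Finset.sum_congr rfl fun x _ => ?_
  rw [coeff_setSum, coeff_setSum]
  by_cases h1 : x ∈ S <;> by_cases h2 : x⁻¹ * c ∈ T <;> simp [h1, h2]

/-- Let G be a finite group and M a maximal ideal of the algebraic integers containing the prime p. For every p-regular g, the idempotent coefficient of the principal block at g (the inverse of the group order times the sum over χ in the principal block of χ 1 * conj (χ g)) is congruent modulo the local ideal at M to N / R, where N is the number of pairs (x, y) with x of p-power order, y of order prime to p and x * y = g, and R is the number of elements of G of order prime to p. -/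
theorem result {G : Type*} [Group G] [Finite G] (p : ℕ) [Fact p.Prime] (M : Ideal Cfsg.AlgInt) (hM : Cfsg.IsPModular p M) (g : G) (hg : ¬ p ∣ orderOf g) : Cfsg.MemLocalIdeal M (Cfsg.blockCoeff (Cfsg.principalBlock M G) g - (Nat.card {xy : G × G // (∃ k : ℕ, orderOf xy.1 = p ^ k) ∧ ¬ p ∣ orderOf xy.2 ∧ xy.1 * xy.2 = g} : ℂ) / (Nat.card {y : G // ¬ p ∣ orderOf y} : ℂ)) := by
  have hB := isPBlock_principalBlock (M := M) (G := G)
  have hr : ¬ p ∣ Nat.card {y : G // ¬ p ∣ orderOf y} := CA.H13Prin.not_dvd_card_reg hM.1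
  have hv := (v_natCast_eq_one_iff hM _).mpr hr
  rw [memLocalIdeal_sub_iff hM (isAlgebraic_blockCoeff _ g)
    (isAlgebraic_div (isAlgebraic_nat _) (isAlgebraic_nat _)) (blockCoeff_mem_O hM hB g)
    (by rw [div_eq_mul_inv]; exact mul_mem (natCast_mem_O _) (inv_natCast_mem hM hr)),
    res_div (natCast_mem_O _) hv, res_natCast, res_natCast, ← coeff_eB,
    eq_div_iff fun h => hr ((natCast_k_eq_zero_iff hM _).mp h)]
  have h1 := pel_mul_mul_eB hM hB (irrOne_mem_principalBlock hM)
    (red_mem_Z (M := M) (CA.H13Prin.sReg_mem_Z (p := p) (G := G)))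
  rw [eB, ← red_mul CA.H13Prin.sReg_mem_OG (fB_mem_OG hM hB), CA.H13Prin.sReg_mul_fB hM,
    lam_red _ CA.H13Prin.sReg_mem_Z CA.H13Prin.sReg_mem_OG, CA.H13Prin.omega_one_sReg, res_natCast,
    CA.H13Prin.sReg, red_setSum, ← eB] at h1
  have h2 := congrArg (fun a => a.coeff g) h1
  simp only [coeff_smul', coeff_mul_setSum,
    coeff_pel_mul_eB hM (isSat_of_isPBlock hM hB) hg] at h2
  rw [mul_comm]
  exact h2.symm

end Cfsg.Agent.S0940
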