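import Cfsg.Statements.S0944
import Cfsg.Agent.Lib.Char.CharInt

set_option autoImplicit false
open Cfsg

namespace Cfsg.Agent.S0944

/-- Let χ be an irreducible character of the finite group G and u an involution. Then χ u is a rational integer n with n ≡ χ 1 (mod 2). -/
theorem result {G : Type*} [Group G] [Finite G] (χ : Cfsg.IrrCharacter G) (u : G) (hu : orderOf u = 2) : ∃ n : ℤ, (χ : G → ℂ) u = (n : ℂ) ∧ (2 : ℤ) ∣ (Cfsg.charDegree (χ : G → ℂ) : ℤ) - n := by
  obtain ⟨ω, hω, h⟩ := CChar.CharFun.char_exists_pow_eq_sum (CChar.CharFun.char_of_irr χ.2)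
    (CChar.CharInt.irr_apply_one_eq χ.2) u
  have h1 := h 1
  simp only [pow_one] at h1
  have h2 : ∀ i, ∃ n : ℤ, ω i = n ∧ (2 : ℤ) ∣ 1 - n := fun i => by
    have := hω i
    rw [hu, sq_eq_one_iff] at this
    rcases this with h | h
    · exact ⟨1, by simp [h], by simp⟩
    · exact ⟨-1, by simp [h], by norm_num⟩
  choose n hn hn' using h2
  refine ⟨∑ i, n i, by rw [h1]; simp [hn], ?_⟩
  have : (Cfsg.charDegree (χ : G → ℂ) : ℤ) - ∑ i, n i = ∑ i, (1 - n i) := by simp
  rw [this]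
  exact Finset.dvd_sum fun i _ => hn' i

end Cfsg.Agent.S0944
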