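import Cfsg.Statements.S0947
import Cfsg.Agent.Lib.Block.H12Sub
import Cfsg.Agent.S0936
import Cfsg.Agent.S0939
import Cfsg.Agent.Lib.Char.CharKer
import Cfsg.Agent.Lib.Grp.Core

set_option autoImplicit false
open Cfsg

namespace Cfsg.Agent.S0947

/-- Let z ≠ 1 be a p-element of the finite group G with centralizer H, and fix a maximal ideal M of the algebraic integers containing p. (i) For every y ∈ H of order prime to p, the sum over ζ in the principal block of G of |ζ (z * y)|² equals the sum over χ in the principal block of H of |χ y|². (ii) If moreover H has a normal p-complement (its largest normal subgroup of order prime to p has p-power index), that common value is the largest power of p dividing the order of H. -/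
theorem result {G : Type*} [Group G] [Finite G] (p : ℕ) [Fact p.Prime] (M : Ideal Cfsg.AlgInt) (hM : Cfsg.IsPModular p M) (z : G) (hz : ∃ k : ℕ, orderOf z = p ^ k) (hz1 : z ≠ 1) (y : Subgroup.centralizer ({z} : Set G)) (hy : ¬ p ∣ orderOf y) : (∑ᶠ ζ ∈ Cfsg.principalBlock M G, ‖(ζ : G → ℂ) (z * (y : G))‖ ^ 2 = ∑ᶠ χ ∈ Cfsg.principalBlock M (Subgroup.centralizer ({z} : Set G)), ‖(χ : Subgroup.centralizer ({z} : Set G) → ℂ) y‖ ^ 2) ∧ ((∃ k : ℕ, (Cfsg.pPrimeCore p (Subgroup.centralizer ({z} : Set G))).index = p ^ k) → ∑ᶠ ζ ∈ Cfsg.principalBlock M G, ‖(ζ : G → ℂ) (z * (y : G))‖ ^ 2 = ((p ^ (Nat.card (Subgroup.centralizer ({z} : Set G))).factorization p : ℕ) : ℝ)) := by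
  classical
  have h1 : ∑ᶠ ζ ∈ Cfsg.principalBlock M G, ‖(ζ : G → ℂ) (z * (y : G))‖ ^ 2 =
      ∑ᶠ χ ∈ Cfsg.principalBlock M (Subgroup.centralizer ({z} : Set G)),
        ‖(χ : Subgroup.centralizer ({z} : Set G) → ℂ) y‖ ^ 2 := by
    have hind := (Cfsg.Agent.S0936.result p M hM _ _ (CA.H12Second.defined_centralizer hM hz
      CA.BlkCore.isPBlock_principalBlock)).2 rfl
    have h2 := CA.H12Sub.sum_sub_orth_block hM hz hind hy hy
    rw [CA.H12Orth.finsum_mem_irr, CA.H12Orth.finsum_mem_irr]
    apply Complex.ofReal_injective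
    push_cast
    simp only [← Complex.mul_conj']
    rw [← h2]
    refine Finset.sum_congr rfl fun ζ hζ => ?_
    congr 1
    rw [CA.H12Second.apply_eq_sum_blocks hM ζ.1 (Subgroup.centralizer ({z} : Set G))]
    refine Finset.sum_eq_single_of_mem _
      (CA.BlkCore.mem_blocks.2 CA.BlkCore.isPBlock_principalBlock) fun b hb hne => ?_
    rw [CA.BlkCore.mem_blocks] at hb
    exact CA.H12Second.second_main hM hz CA.BlkCore.isPBlock_principalBlock (by simpa using hζ) hb
      (fun h => hne ((Cfsg.Agent.S0936.result p M hM _ _ ⟨_, h⟩).1 h)) y.2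
      (by rwa [Subgroup.orderOf_coe])
  refine ⟨h1, fun hk => ?_⟩
  rw [h1, Cfsg.Agent.S0939.result p M hM hk, CA.H12Orth.finsum_mem_irr]
  obtain ⟨k, hk⟩ := hk
  set N := Cfsg.pPrimeCore p (Subgroup.centralizer ({z} : Set G)) with hN
  have hyN : y ∈ N := by
    rw [← QuotientGroup.eq_one_iff, ← orderOf_eq_one_iff]
    have h3 : orderOf (y : _ ⧸ N) ∣ p ^ k := hk ▸ orderOf_dvd_natCard _
    have h4 : orderOf (y : _ ⧸ N) ∣ orderOf y := orderOf_map_dvd (QuotientGroup.mk' N) y
    exact Nat.eq_one_of_dvd_coprimes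
      (((Nat.Prime.coprime_iff_not_dvd hM.1).2 hy).pow_left k) h3 h4
  have h5 := CChar.CharKer.sum_degree_sq_quotient N
  have h6 : (Nat.card (Subgroup.centralizer ({z} : Set G))).factorization p = k := by
    rw [← N.card_mul_index, Nat.factorization_mul Nat.card_pos.ne' N.index_ne_zero_of_finite,
      Finsupp.add_apply, hk, hM.1.factorization_pow, Finsupp.single_eq_same,
      Nat.factorization_eq_zero_of_not_dvd
        ((Nat.Prime.coprime_iff_not_dvd hM.1).1 CA.Core.coprime_pPrimeCore.symm), zero_add]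
  rw [h6, ← hk]
  apply Complex.ofReal_injective
  push_cast
  rw [← h5]
  refine Finset.sum_congr ?_ fun χ hχ => ?_
  · ext χ
    simp [CChar.CharKer.le_charKer_iff (CChar.CharFun.char_of_irr χ.2)]
  · rw [CChar.CharKer.apply_of_mem_charKer ((Finset.mem_filter.1 hχ).2 hyN),
      ← Complex.mul_conj', CA.H12Orth.conj_irr_one χ.2, sq]

end Cfsg.Agent.S0947
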