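import Cfsg.Statements.S0948
import Cfsg.Agent.Lib.GW.GWChAx

set_option autoImplicit false
open Cfsg

namespace Cfsg.Agent.S0948

open CA.GWChAx CA.H11Dih3 CA.H13Inv CA.Two CChar.CharOrth CChar.CharInt

/-- Let the finite group G have a Sylow 2-subgroup P that is a Klein four-group, suppose all involutions of G are conjugate, and fix a maximal ideal M of the algebraic integers containing 2. Then the principal block consists of exactly four irreducible characters, the principal character and ζ₂, ζ₃, ζ₄, and there is a sign ε such that for every involution z: ζ₂ z = 1, ζ₃ z = ε, ζ₄ z = -1; moreover ζ₂ 1 ≡ 1, ζ₃ 1 ≡ ε, ζ₄ 1 ≡ -1 (mod 4), and 1 + ζ₂ y + ε ζ₃ y - ζ₄ y = 0 for every y of odd order. -/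
theorem result {G : Type*} [Group G] [Finite G] (M : Ideal Cfsg.AlgInt) (hM : Cfsg.IsPModular 2 M) (P : Sylow 2 G) (hP : IsKleinFour (P : Subgroup G)) (hone : ∀ s t : G, orderOf s = 2 → orderOf t = 2 → IsConj s t) : ∃ ζ₂ ζ₃ ζ₄ : Cfsg.IrrCharacter G, ∃ ε : ℤ, (ε = 1 ∨ ε = -1) ∧ (ζ₂ : G → ℂ) ≠ (fun _ => 1) ∧ (ζ₃ : G → ℂ) ≠ (fun _ => 1) ∧ ζ₂ ≠ ζ₃ ∧ ζ₂ ≠ ζ₄ ∧ ζ₃ ≠ ζ₄ ∧ Cfsg.principalBlock M G = {χ : Cfsg.IrrCharacter G | (χ : G → ℂ) = (fun _ => 1) ∨ χ = ζ₂ ∨ χ = ζ₃ ∨ χ = ζ₄} ∧ (∀ z : G, orderOf z = 2 → (ζ₂ : G → ℂ) z = 1 ∧ (ζ₃ : G → ℂ) z = (ε : ℂ) ∧ (ζ₄ : G → ℂ) z = -1) ∧ (4 : ℤ) ∣ (Cfsg.charDegree (ζ₂ : G → ℂ) : ℤ) - 1 ∧ (4 : ℤ) ∣ (Cfsg.charDegree (ζ₃ : G → ℂ) : ℤ) - ε ∧ (4 : ℤ) ∣ (Cfsg.charDegree (ζ₄ : G → ℂ) : ℤ) + 1 ∧ ∀ y : G, Odd (orderOf y) → 1 + (ζ₂ : G → ℂ) y + (ε : ℂ) * (ζ₃ : G → ℂ) y - (ζ₄ : G → ℂ) y = 0 := by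
    haveI := Fintype.ofFinite G
    obtain ⟨J, hJ, hJ2⟩ := exists_involution_of_even (H := (P : Subgroup G)) (by
      rw [hP.card_four]; decide)
    obtain ⟨y, D, -⟩ := exists_dih P hP.card_four (fun x hx => klein_sq hP hx) hJ hJ2
    obtain ⟨χ, ε, h1, h2, h3, h4, h5, h6, h7, -⟩ := four' D hM fun t => hone J t hJ2
    have h8 := h6 1 (by simp)
    simp only [Fin.sum_univ_three, fun i => irr_apply_one_eq (χ i).2] at h8
    have h9 : 1 + (ε 0 * charDegree (χ 0).1 + ε 1 * charDegree (χ 1).1 + ε 2 * charDegree (χ 2).1) = 0 := by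
      exact_mod_cast h8
    obtain ⟨i, j, k, hi, hk, ij, ik, jk, hs⟩ : ∃ i j k, ε i = 1 ∧ ε k = -1 ∧ i ≠ j ∧ i ≠ k ∧ j ≠ k ∧
        (Finset.univ : Finset (Fin 3)) = {i, j, k} := by
      have p0 := h7 0
      have p1 := h7 1
      have p2 := h7 2
      rcases h4 0 with a | a <;> rcases h4 1 with b | b <;> rcases h4 2 with c | c <;>
        simp only [a, b, c] at h9 p0 p1 p2
      · omega
      · exact ⟨0, 1, 2, a, c, by decide⟩
      · exact ⟨0, 2, 1, a, b, by decide⟩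
      · exact ⟨0, 1, 2, a, c, by decide⟩
      · exact ⟨1, 2, 0, b, a, by decide⟩
      · exact ⟨1, 0, 2, b, c, by decide⟩
      · exact ⟨2, 1, 0, c, a, by decide⟩
      · omega
    refine ⟨χ i, χ j, χ k, ε j, h4 j, fun e => h2 i (Subtype.ext e), fun e => h2 j (Subtype.ext e),
      h1.ne ij, h1.ne ik, h1.ne jk, Set.ext fun ψ => (h3 ψ).trans (or_congr Subtype.ext_iff
        ⟨fun ⟨l, hl⟩ => ?_, by rintro (h | h | h) <;> exact ⟨_, h⟩⟩),
      fun z hz => ⟨by simp [h5 i z hz.symm.dvd, hi], h5 j z hz.symm.dvd, by simp [h5 k z hz.symm.dvd, hk]⟩,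
      hi ▸ h7 i, h7 j, by simpa [hk] using h7 k, fun g hg => ?_⟩
    · have := hs ▸ Finset.mem_univ l
      simp only [Finset.mem_insert, Finset.mem_singleton] at this
      rcases this with rfl | rfl | rfl <;> simp [hl]
    · have := h6 g hg.not_two_dvd_nat
      rw [hs, Finset.sum_insert (by simp [ij, ik]), Finset.sum_pair jk, hi, hk] at this
      push_cast at this
      linear_combination this

end Cfsg.Agent.S0948
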