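import Cfsg.Statements.S0950
import Cfsg.Agent.Lib.Grp.H13Q8

set_option autoImplicit false
open Cfsg

namespace Cfsg.Agent.S0950

/-- Let S be a Sylow 2-subgroup of the finite group G that is isomorphic to the quaternion group of order 8, and suppose S has no normal complement in G. Then any two subgroups of order 4 of S are conjugate by an element of the normalizer of S. -/
theorem result {G : Type*} [Group G] [Finite G] (S : Sylow 2 G) (e : (S : Subgroup G) ≃* QuaternionGroup 2) (hnc : ∀ N : Subgroup G, N.Normal → ¬ Subgroup.IsComplement' N (S : Subgroup G)) (A B : Subgroup G) (hA : A ≤ S) (hB : B ≤ S) (hA4 : Nat.card A = 4) (hB4 : Nat.card B = 4) : ∃ n ∈ Subgroup.normalizer ((S : Subgroup G) : Set G), B = A.map (MulAut.conj n).toMonoidHom := by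
  open Subgroup CA.H13Q8 CA.PRes in
  obtain ⟨u, h⟩ := isQ8_of_equiv e
  have hN : ¬ HasNormalPComplement 2 G := fun hN => by
    obtain ⟨N, hNn, hN'⟩ := (hasNPC_iff_sylow S).1 hN
    exact hnc N hNn hN'
  have key : ∀ A : Subgroup G, A ≤ S → Nat.card A = 4 → ∃ w ∈ (S : Subgroup G), w ^ 2 = u ∧
      A = zpowers w := by
    intro A hA hA4
    by_contra hne
    push Not at hne
    have h1 : (A : Set G) ⊆ {1, u} := by
      intro x hx
      rcases h.tri x (hA hx) with h1 | h1 | h1
      · exact Or.inl h1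
      · exact Or.inr h1
      · exact absurd (Subgroup.eq_of_le_of_card_ge (zpowers_le.2 hx)
          (by rw [Nat.card_zpowers, h.ord_of_sq h1, hA4])).symm (hne x (hA hx) h1)
    have h2 := Set.ncard_le_ncard h1
    have h3 := Set.ncard_pair (CA.H13Inv.ne_one h.ord_u).symm
    rw [← Nat.card_coe_set_eq] at h2
    change Nat.card A ≤ _ at h2
    omega
  obtain ⟨a, ha, ha2, rfl⟩ := key A hA hA4
  obtain ⟨b, hb, hb2, rfl⟩ := key B hB hB4
  obtain ⟨n, hn, hn'⟩ := conj_of_not_hasNPC S h hN ha ha2 hb hb2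
  exact ⟨n, hn, by rw [MonoidHom.map_zpowers, ← hn']; rfl⟩

end Cfsg.Agent.S0950
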