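import Cfsg.Statements.S0951
import Cfsg.Agent.Lib.Block.H13Zstar

set_option autoImplicit false
open Cfsg

namespace Cfsg.Agent.S0951

open Cfsg Subgroup CChar.CharFun CChar.CharOrth CChar.CharGen CA.H12PPart CA.PRes CA.SylIn
  CA.H13ZRed CA.H13Lift CA.H13Span CA.H13Q8 CA.H13Q8H CA.H13BS CA.H13Inv

theorem exists_QH' {G : Type*} [Group G] [Finite G] (P : Sylow 2 G) {u : G}
    (h : IsQ8 (P : Subgroup G) u) (hN : ¬ HasNormalPComplement 2 G) (hc : ∀ g, g * u = u * g) :
    ∃ y, QH u y (P : Subgroup G) := by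
  obtain ⟨y, hy, hy2⟩ := h.ex
  have hS := isSylowIn_top P
  refine ⟨y, hc, h.ord_of_sq hy2, hy2, fun g => ?_, ?_, hS, h.card, h.comm⟩
  · obtain ⟨c, -, hc'⟩ := hS.exists_conj_le (isPGroup_zpowers (orderOf_pPart Nat.prime_two g))
      le_top
    have h1 := conj_le_iff.1 hc' _ (mem_zpowers _)
    rcases h.tri _ h1 with h2 | h2 | h2
    · left; simpa using h2
    · right; left
      rw [mul_inv_eq_iff_eq_mul, ← hc] at h2
      exact mul_left_cancel h2
    · right; right
      obtain ⟨n, hn, hn'⟩ := conj_of_not_hasNPC P h hN hy hy2 h1 h2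
      exact (isConj_iff.2 ⟨n, hn'⟩).trans (isConj_iff.2 ⟨c, rfl⟩).symm
  · rw [← h.inf_centralizer hy hy2]
    exact sylow_centralizer hS (CA.PGBasic.le_normalizer_of_relIndex h.isPGroup
      (zpowers_le.2 hy) (h.relIndex hy hy2))

theorem comb {κ ι : Type*} [DecidableEq κ] [Fintype ι] [DecidableEq ι] (J : Finset κ) (F : Finset ι)
    (x : κ → ι → ℤ)
    (hxx : ∀ i ∈ J, ∀ j ∈ J, ∑ c ∈ F, x i c * x j c = if j = i then 1 else 0)
    (hF : ∀ c ∈ F, ∃ i ∈ J, x i c ≠ 0) : F.card = J.card := by
  have key : ∀ i ∈ J, ∃ a ∈ F, x i a ≠ 0 ∧ ∀ c ∈ F, c ≠ a → x i c = 0 := by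
    intro i hi
    have h1 := hxx i hi i hi
    rw [if_pos rfl] at h1
    obtain ⟨a, ha, ha1, ha2⟩ := CA.H13Q8G.exists_ne_zero_of_sum h1 one_pos (by norm_num)
    refine ⟨a, ha, by rcases ha1 with h | h <;> simp [h], fun c hc hca => ?_⟩
    rw [sub_self, Finset.sum_eq_zero_iff_of_nonneg fun _ _ => mul_self_nonneg _] at ha2
    exact mul_self_eq_zero.1 (ha2 c (Finset.mem_erase.2 ⟨hca, hc⟩))
  choose f hf hf0 hf1 using key
  symm
  refine Finset.card_bij f hf (fun i hi j hj hij => ?_) (fun c hc => ?_)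
  · by_contra hne
    have h1 := hxx i hi j hj
    rw [if_neg (Ne.symm hne), Finset.sum_eq_single_of_mem (f i hi) (hf i hi)
      fun c hc hca => by rw [hf1 i hi c hc hca, zero_mul]] at h1
    rcases mul_eq_zero.1 h1 with h | h
    · exact hf0 i hi h
    · exact hf0 j hj (hij ▸ h)
  · obtain ⟨i, hi, h⟩ := hF c hc
    exact ⟨i, hi, by by_contra hne; exact h (hf1 i hi c hc (Ne.symm hne))⟩

theorem main {G : Type*} [Group G] [Fintype G] {M : Ideal AlgInt} (hM : IsPModular 2 M) {u y : G}
    {S : Subgroup G} (h : QH u y S) : Nat.card (principalBlock M G) = 7 := by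
  classical
  set F : Finset (IrrCharacter G) :=
    Finset.univ.filter fun χ => χ ∈ principalBlock M G ∧ χ.1 u ≠ χ.1 1 with hFdef
  have p1 : pPart 2 (1 : G) = 1 := (pPart_eq_one_iff Nat.prime_two).2 (by simp)
  have hX : ∀ ψ : IrrCharacter G, ∃ m : IrrCharacter G → ℤ, ψ ∈ J M u →
      ∀ χ : IrrCharacter G, classInner (theta u y ψ) χ.1 = m χ := by
    intro ψ
    by_cases hψ : ψ ∈ J M u
    · obtain ⟨m, hm, -⟩ := gen_exists_int_coeffs (h.theta_gen hM hψ)
      exact ⟨m, fun _ => hm⟩
    · exact ⟨0, fun h' => absurd h' hψ⟩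
  choose X hX using hX
  have h1B : irrOne G ∈ principalBlock M G := CA.BlkCore.irrOne_mem_principalBlock hM
  have hdisj : Disjoint (J M u) F := Finset.disjoint_left.2 fun χ h1 h2 =>
    (Finset.mem_filter.1 h2).2.2 (mem_J.1 h1).2.2
  have h1n : irrOne G ∉ J M u ∪ F := by
    intro h1
    rcases Finset.mem_union.1 h1 with h1 | h1
    · exact (mem_J.1 h1).1 rfl
    · exact (Finset.mem_filter.1 h1).2.2 rfl
  have hB : ∀ χ, χ ∈ principalBlock M G ↔ χ ∈ insert (irrOne G) (J M u ∪ F) := by
    intro χ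
    simp only [Finset.mem_insert, Finset.mem_union, mem_J, hFdef, Finset.mem_filter,
      Finset.mem_univ, true_and]
    constructor
    · intro hχ
      by_cases h1 : χ = irrOne G
      · exact Or.inl h1
      · by_cases h2 : χ.1 u = χ.1 1
        · exact Or.inr (Or.inl ⟨h1, hχ, h2⟩)
        · exact Or.inr (Or.inr ⟨hχ, h2⟩)
    · rintro (rfl | h1 | h1)
      · exact h1B
      · exact h1.2.1
      · exact h1.1
  have hX' : ∀ ψ ∈ J M u, ∀ χ : IrrCharacter G, classInner χ.1 (theta u y ψ) = X ψ χ :=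
    fun ψ hψ χ => by rw [inner_gen_comm (gen_of_irr χ.2) (h.theta_gen hM hψ), hX ψ hψ]
  have hF : F.card = (J M u).card := by
    refine comb (J M u) F X (fun i hi j hj => ?_) (fun c hc => ?_)
    · have h1 := inner_eq_sum_int (gen_classFun (h.theta_gen hM hi)) (hX i hi) (hX j hj)
      rw [h.inner_theta_theta hM hj hi, ← Finset.sum_subset (Finset.subset_univ
        (insert (irrOne G) (J M u ∪ F))) (fun χ _ hχ => by
          have := (h.theta_inSpan hM hi).2 χ (fun h' => hχ ((hB χ).1 h'))
          rw [hX i hi] at this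
          rw [Int.cast_eq_zero.1 this, zero_mul]),
        Finset.sum_insert h1n, Finset.sum_union hdisj] at h1
      have e1 : ∀ k ∈ J M u, X k (irrOne G) = 1 := fun k hk => by
        have := hX k hk (irrOne G)
        exact_mod_cast this.symm.trans (h.inner_one_theta hM hk)
      have e2 : ((∑ c ∈ J M u, X i c * X j c : ℤ) : ℂ) = if j = i then 1 else 0 := by
        push_cast
        rw [Finset.sum_eq_single_of_mem i hi fun c hc hci => by
          rw [← hX' i hi, h.inner_irr_theta hM hi hc, if_neg (Ne.symm hci), zero_mul]]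
        rw [← hX' i hi, ← hX' j hj, h.inner_irr_theta hM hi hi, h.inner_irr_theta hM hj hi,
          if_pos rfl]
        split_ifs with hij
        · subst hij; exact h.mul_self_y hM hi
        · simp
      rw [e1 i hi, e1 j hj, Int.cast_add, Int.cast_add, e2] at h1
      have : ((∑ c ∈ F, X i c * X j c : ℤ) : ℂ) = ((if j = i then 1 else 0 : ℤ) : ℂ) := by
        split_ifs at h1 ⊢ <;> push_cast at h1 ⊢ <;> linear_combination -h1
      exact_mod_cast this
    · by_contra hne
      push Not at hne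
      obtain ⟨-, hcB, hcu⟩ := Finset.mem_filter.1 hc
      have h1 := h.apply_u_mul hM (inSpan_irr hcB) p1
      rw [Finset.sum_eq_zero fun ψ hψ => by rw [hX' ψ hψ, hne ψ hψ]; simp, mul_one] at h1
      obtain ⟨ε, hε, hε'⟩ := exists_sign h.cent h.uu c.2
      have h2 := hε' 1
      rw [mul_one] at h2
      rcases hε with rfl | rfl
      · exact hcu (by rw [h2, one_mul])
      · have h3 := hε' y
        have h4 : c.1 (u * y) = c.1 y := by
          rw [h.u_mul_of_four h.hy]
          exact (classFun_of_isConj (irr_classFun c.2)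
            (h.isConj_of_four (by rw [orderOf_inv, h.hy]))).symm
        have h5 : c.1 y = 0 := by linear_combination (h3 - h4) / 2
        exact irr_apply_one_ne_zero c.2 (by linear_combination h2 - h1 + h5)
  have : principalBlock M G = ↑(insert (irrOne G) (J M u ∪ F)) := Set.ext hB
  rw [this, Nat.card_coe_set_eq, Set.ncard_coe_finset, Finset.card_insert_of_notMem h1n,
    Finset.card_union_of_disjoint hdisj, hF, (h.sq_and_card hM).2]

/-- Let S be a Sylow 2-subgroup of the finite group G isomorphic to the quaternion group of order 8. Suppose G has no nontrivial normal subgroup of odd order and G ≠ S. Then, relative to any maximal ideal M of the algebraic integers containing 2, the principal block of G consists of exactly 7 irreducible characters. -/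
theorem result {G : Type*} [Group G] [Finite G] (M : Ideal Cfsg.AlgInt) (hM : Cfsg.IsPModular 2 M) (S : Sylow 2 G) (e : (S : Subgroup G) ≃* QuaternionGroup 2) (hO : ∀ N : Subgroup G, N.Normal → Odd (Nat.card N) → N = ⊥) (hG : (S : Subgroup G) ≠ ⊤) : Nat.card (Cfsg.principalBlock M G) = 7 := by
  obtain ⟨u, h⟩ := isQ8_of_equiv e
  have hN : ¬ HasNormalPComplement 2 G := by
    intro hN
    obtain ⟨N, hNn, hN'⟩ := (hasNPC_iff_sylow S).1 hN
    have := hO N hNn (not_two_dvd_iff.1 ((inf_sylow_eq_bot_iff S N).1 hN'.disjoint.eq_bot))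
    subst this
    exact hG (isComplement'_bot_left.1 hN')
  obtain ⟨y, hy⟩ := exists_QH' S h hN (central_of_inZStar
    (CA.H13Zstar.bs_of_quaternion S e h.ord_u) (CA.H13Zstar.core_eq_bot hO))
  haveI := Fintype.ofFinite G
  exact main hM hy

end Cfsg.Agent.S0951
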