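import Cfsg.Statements.S0952
import Cfsg.Agent.S0913
import Cfsg.Agent.Lib.Block.H12Orth

set_option autoImplicit false
open scoped ComplexConjugate
open Cfsg

namespace Cfsg.Agent.S0952

/-- Let χ and ψ be irreducible characters of the finite group G lying in different blocks relative to a maximal ideal M of the algebraic integers containing the prime p. Then the sum of χ x * conj (ψ x) over the elements x of order prime to p is zero. -/
theorem result {G : Type*} [Group G] [Finite G] (p : ℕ) [Fact p.Prime] (M : Ideal Cfsg.AlgInt) (hM : Cfsg.IsPModular p M) (χ ψ : Cfsg.IrrCharacter G) (h : ¬ Cfsg.SameBlock M (χ : G → ℂ) (ψ : G → ℂ)) : ∑ᶠ x ∈ {x : G | ¬ p ∣ orderOf x}, (χ : G → ℂ) x * conj ((ψ : G → ℂ) x) = 0 := by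
  classical
  have := Fintype.ofFinite G
  have hint : ∀ g, Cfsg.blockCoeff (Cfsg.blockOf M (χ : G → ℂ)) g ∈ CA.BlkVal.O M := fun g =>
    CA.BlkVal.mem_O_of_memLocalRing hM (Cfsg.Agent.S0913.result p M hM _ ⟨χ, rfl⟩ g)
  rw [CA.H12Orth.finsum_mem_set]
  refine CA.H12Orth.sum_section_eq_zero hM hint (fun g => ⟨0, 1, M.zero_mem,
    fun h1 => hM.2.1.ne_top ((Ideal.eq_top_iff_one M).2 h1), by simp⟩) h _ fun u g hc hu => ?_
  simp only [Set.mem_setOf_eq, ← CA.H12PPart.pPart_eq_one_iff hM.1] at hu ⊢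
  rwa [hu, isConj_one_right] at hc

end Cfsg.Agent.S0952
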