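import Cfsg.Statements.S0953
import Cfsg.Agent.Lib.Block.BlkRob
import Cfsg.Agent.Lib.Block.BlkKer

set_option autoImplicit false
open Cfsg

namespace Cfsg.Agent.S0953
open Cfsg MonoidAlgebra CA.BlkAlg CA.BlkVal CA.BlkOmega CA.BlkRed CA.BlkCore CA.BlkDefect CA.BlkInd CA.BlkHeight CA.SylIn CA.H12PPart CChar.CharFun CChar.CharOrth Subgroup CA.BlkKer CChar.CharKer CA.BlkZero CChar.CharInt CA.BlkReg CA.BlkRob

theorem cast_cnt_eq {G : Type*} [Group G] [Finite G] {p : ℕ} [Fact p.Prime] {R : Type*} [CommRing R]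
    (hp : (p : R) = 0) {P : Subgroup G} (hP : IsPGroup p P) {x x' : G} (hx : ¬ p ∣ orderOf x)
    (hx' : ¬ p ∣ orderOf x') [Decidable (IsConj x x')] :
    (cnt P x x' : R) = if IsConj x x' then ((centralizer ({x} : Set G)).index : R) else 0 := by
  classical
  haveI := Fintype.ofFinite G
  have hcj : ∀ a u y : G, IsConj a (u * y * u⁻¹) ↔ IsConj a y := fun a u y =>
    ⟨fun h => h.trans (isConj_iff.mpr ⟨u, rfl⟩).symm, fun h => h.trans (isConj_iff.mpr ⟨u, rfl⟩)⟩
  have hm : ∀ u ∈ P, ∀ g : G, u * g * u⁻¹ ∈ P ↔ g ∈ P := fun u hu g => by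
    rw [mul_mem_cancel_right (inv_mem hu), mul_mem_cancel_left hu]
  rw [cnt, Nat.card_eq_fintype_card, Fintype.card_subtype, Finset.card_filter,
    Fintype.sum_prod_type]
  push_cast
  rw [sum_eq_sum_centralizer hp hP]
  · have h1 : ∀ y ∈ Finset.univ.filter (· ∈ centralizer (P : Set G)),
        (∑ z, if IsConj x y ∧ IsConj x' z ∧ z * y⁻¹ ∈ (P : Set G) then (1 : R) else 0) =
          if IsConj x y ∧ IsConj x' y then 1 else 0 := by
      intro y hy
      have hy' := mem_centralizer_iff.mp (Finset.mem_filter.mp hy).2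
      rw [Finset.sum_eq_single y (fun z _ hz => if_neg ?_) (by simp)]
      · simp
      · rintro ⟨h1, h2, h3⟩
        obtain ⟨n, hn⟩ := IsPGroup.iff_orderOf.mp hP ⟨_, h3⟩
        have h4 := isPPart_mul (p := p) (hy' _ h3) ⟨n, by rw [← hn, ← orderOf_coe]⟩
          (by obtain ⟨c, rfl⟩ := isConj_iff.mp h1; rwa [← MulAut.conj_apply, MulEquiv.orderOf_eq])
        rw [inv_mul_cancel_right] at h4
        exact hz (mul_inv_eq_one.mp (isPPart_unique Fact.out h4 (isPPart_one_iff.mpr (by
          obtain ⟨c, rfl⟩ := isConj_iff.mp h2; rwa [← MulAut.conj_apply, MulEquiv.orderOf_eq]))))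
    rw [Finset.sum_congr rfl h1, ← sum_eq_sum_centralizer hp hP _ fun u _ y => by simp only [hcj]]
    split_ifs with h
    · rw [← card_class_eq_index, Finset.card_filter]
      push_cast
      exact Finset.sum_congr rfl fun y _ => if_congr ⟨fun h' => h'.1, fun h' => ⟨h', h.symm.trans h'⟩⟩ rfl rfl
    · exact Finset.sum_eq_zero fun y _ => if_neg fun h' => h (h'.1.trans h'.2.symm)
  · intro u hu y
    rw [← Equiv.sum_comp (MulAut.conj u).toEquiv]
    refine Finset.sum_congr rfl fun z _ => if_congr ?_ rfl rfl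
    simp only [MulEquiv.toEquiv_eq_coe, EquivLike.coe_coe, MulAut.conj_apply, hcj, SetLike.mem_coe]
    rw [← hm u hu (z * y⁻¹)]
    have : u * z * u⁻¹ * (u * y * u⁻¹)⁻¹ = u * (z * y⁻¹) * u⁻¹ := by group
    rw [this]

/-- Let P be a Sylow p-subgroup of the finite group G with normalizer N, and fix a maximal ideal M of the algebraic integers containing p. The number of blocks of G having P as a defect group equals the number of conjugacy classes of N consisting of elements of order prime to p that centralize P. -/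
theorem result {G : Type*} [Group G] [Finite G] (p : ℕ) [Fact p.Prime] (M : Ideal Cfsg.AlgInt) (hM : Cfsg.IsPModular p M) (P : Sylow p G) : Nat.card {B : Set (Cfsg.IrrCharacter G) // Cfsg.IsPBlock M B ∧ Cfsg.IsDefectGroup p M B (P : Subgroup G)} = Nat.card {C : ConjClasses (Subgroup.normalizer ((P : Subgroup G) : Set G)) // ∀ n : Subgroup.normalizer ((P : Subgroup G) : Set G), ConjClasses.mk n = C → ¬ p ∣ orderOf n ∧ (n : G) ∈ Subgroup.centralizer ((P : Subgroup G) : Set G)} := by
  classical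
  set N := normalizer ((P : Subgroup G) : Set G)
  set ι := {C : ConjClasses N // ∀ n : N, ConjClasses.mk n = C →
    ¬ p ∣ orderOf n ∧ (n : G) ∈ centralizer ((P : Subgroup G) : Set G)}
  haveI := Fintype.ofFinite ι
  let x : ι → G := fun C => (C.1.out : N)
  have hx : ∀ C, ¬ p ∣ orderOf (x C) ∧ x C ∈ centralizer ((P : Subgroup G) : Set G) := fun C => by
    have := C.2 _ (Quotient.out_eq C.1)
    rwa [← orderOf_coe] at this
  have hs : ∀ c ∈ centralizer ((P : Subgroup G) : Set G),
      IsSylowIn p P (centralizer ({c} : Set G)) := fun c hc =>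
    isSylowIn_of_le P (le_centralizer_singleton_iff.mpr hc)
  have hinj : ∀ i j, IsConj (x i) (x j) → i = j := fun i j h => by
    obtain ⟨n, hn, h1⟩ := CA.H11Def.cj_norm_of_sylow (H := ⊤) (CA.H11Def.cj_top.mpr h)
      (by rw [top_inf_eq]; exact hs _ (hx i).2) (hx j).2
    exact Subtype.ext (((isConj_out_iff _ _).mp (isConj_iff.mpr ⟨⟨n, hn.2⟩, Subtype.ext h1⟩)).trans
      (Quotient.out_eq _))
  rw [card_blocks_eq_rank hM (isSylowIn_top P) hinj fun g => ⟨?_, ?_⟩]
  · rw [Nat.card_eq_fintype_card (α := ι)]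
    refine Matrix.rank_of_det_ne_zero ?_
    have h1 : (Nat.card G).factorization p - (Nat.card (P : Subgroup G)).factorization p = 0 := by
      rw [P.card_eq_multiplicity, Nat.Prime.factorization_pow Fact.out]
      simp
    have h2 : (Matrix.of fun i j => ((cnt (P : Subgroup G) (x i) (x j) /
        p ^ ((Nat.card G).factorization p - (Nat.card (P : Subgroup G)).factorization p) : ℕ) : k M)) =
        Matrix.diagonal fun i => ((centralizer ({x i} : Set G)).index : k M) := by
      ext i j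
      rw [Matrix.of_apply, h1, pow_zero, Nat.div_one, cast_cnt_eq (p_eq_zero hM) P.isPGroup'
        (hx i).1 (hx j).1, Matrix.diagonal_apply]
      exact if_congr ⟨hinj i j, fun h => h ▸ IsConj.refl _⟩ rfl rfl
    rw [h2, Matrix.det_diagonal]
    refine Finset.prod_ne_zero_iff.mpr fun i _ => ?_
    rw [Ne, natCast_k_eq_zero_iff hM]
    exact fun h => P.not_dvd_index (h.trans (index_dvd_of_le (hs _ (hx i).2).le))
  · rintro ⟨i, hi⟩
    exact ⟨x i, hi.symm, (hx i).1, hs _ (hx i).2⟩
  · rintro ⟨c, h1, h2, h3⟩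
    have h4 := le_centralizer_singleton_iff.mp h3.le
    let n : N := ⟨c, centralizer_le_normalizer _ h4⟩
    refine ⟨⟨ConjClasses.mk n, fun m hm => ?_⟩, ?_⟩
    · obtain ⟨u, rfl⟩ := isConj_iff.mp (ConjClasses.mk_eq_mk_iff_isConj.mp hm).symm
      refine ⟨by rwa [← MulAut.conj_apply, MulEquiv.orderOf_eq, ← orderOf_coe], ?_⟩
      exact conj_mem_of_mem_normalizer (normalizer_le_normalizer_centralizer _ u.2) h4
    · exact (N.subtype.map_isConj (isConj_out n)).trans h1.symm

end Cfsg.Agent.S0953
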