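import Cfsg.Statements.S0966
import Cfsg.Agent.Lib.Block.H12Cover

set_option autoImplicit false
open Cfsg

namespace Cfsg.Agent.S0966

open CA.H12Cover CA.BlkCore CA.BlkAlg CA.BlkOmega CA.BlkRed CA.BlkVal CChar.CharFun

/-- Let N be a normal subgroup of p-power index in the finite group G and b a block of N relative to a maximal ideal M of the algebraic integers containing p. Then there is exactly one block B of G containing a character whose restriction to N has a constituent in b. -/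
theorem result {G : Type*} [Group G] [Fintype G] (p : ℕ) [Fact p.Prime] (M : Ideal Cfsg.AlgInt) (hM : Cfsg.IsPModular p M) (N : Subgroup G) [N.Normal] [Fintype N] (hidx : ∃ k : ℕ, N.index = p ^ k) (b : Set (Cfsg.IrrCharacter N)) (hb : Cfsg.IsPBlock M b) : ∃! B : Set (Cfsg.IrrCharacter G), Cfsg.IsPBlock M B ∧ ∃ χ ∈ B, ∃ θ ∈ b, Cfsg.classInner (fun n : N => (χ : G → ℂ) n) (θ : N → ℂ) ≠ 0 := by
  simp only [← cov_iff]
  obtain ⟨B, hB, h⟩ := exists_cov hM hb
  refine ⟨B, ⟨hB, h⟩, fun B' h' => eq_of_cov_of_supp hM h'.1 hB hb h'.2 h fun g hg => ?_⟩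
  refine CA.BlkInd.coeff_eB_eq_zero_of_dvd hM (isSat_of_isPBlock hM h'.1) ?_
  obtain ⟨k, hk⟩ := hidx
  obtain ⟨j, -, hj⟩ := (Nat.dvd_prime_pow hM.1).1 ((orderOf_dvd_natCard (g : G ⧸ N)).trans (dvd_of_eq hk))
  refine dvd_trans ?_ (orderOf_map_dvd (QuotientGroup.mk' N) g)
  change p ∣ orderOf (g : G ⧸ N)
  rw [hj]
  refine dvd_pow_self p fun h0 => hg ?_
  rwa [h0, pow_zero, orderOf_eq_one_iff, QuotientGroup.eq_one_iff] at hj

end Cfsg.Agent.S0966
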