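import Cfsg.Statements.S0954
import Cfsg.Agent.Lib.Block.H12Cover
import Cfsg.Agent.S0966

set_option autoImplicit false
open Cfsg

namespace Cfsg.Agent.S0954

open CA.H12Cover CA.BlkCore CA.BlkAlg CA.BlkOmega CA.BlkRed CA.BlkVal CChar.CharFun

/-- Let N be a normal subgroup of the finite group G of order prime to p and of p-power index (a normal p-complement), and fix a maximal ideal M of the algebraic integers containing p. Then two irreducible characters χ, ψ of G lie in the same block if and only if some irreducible character of N has nonzero inner product with both the restriction of χ and the restriction of ψ. -/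
theorem result {G : Type*} [Group G] [Fintype G] (p : ℕ) [Fact p.Prime] (M : Ideal Cfsg.AlgInt) (hM : Cfsg.IsPModular p M) (N : Subgroup G) [N.Normal] [Fintype N] (hN : ¬ p ∣ Nat.card N) (hidx : ∃ k : ℕ, N.index = p ^ k) (χ ψ : Cfsg.IrrCharacter G) : Cfsg.SameBlock M (χ : G → ℂ) (ψ : G → ℂ) ↔ ∃ θ : Cfsg.IrrCharacter N, Cfsg.classInner (fun n : N => (χ : G → ℂ) n) (θ : N → ℂ) ≠ 0 ∧ Cfsg.classInner (fun n : N => (ψ : G → ℂ) n) (θ : N → ℂ) ≠ 0 := by
  simp only [← over_iff]
  constructor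
  · intro h
    obtain ⟨θ, h1⟩ := exists_under N χ
    obtain ⟨θ', rfl, h2⟩ := exists_mem_over_of_cov hM (isSat_of_not_dvd hM hN {θ})
      (isPBlock_blockOf χ) ⟨χ, self_mem_blockOf hM χ, θ, rfl, h1⟩ (χ := ψ) h
    exact ⟨θ', h1, h2⟩
  · rintro ⟨θ, h1, h2⟩
    obtain ⟨B, -, hB⟩ := Cfsg.Agent.S0966.result p M hM N hidx _ (isPBlock_blockOf θ)
    rw [← blockOf_eq_iff hM, hB _ ⟨isPBlock_blockOf χ, χ, self_mem_blockOf hM χ, θ,
      self_mem_blockOf hM θ, over_iff.1 h1⟩, hB _ ⟨isPBlock_blockOf ψ, ψ, self_mem_blockOf hM ψ, θ,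
      self_mem_blockOf hM θ, over_iff.1 h2⟩]

end Cfsg.Agent.S0954
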