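import Cfsg.Statements.S0955
import Cfsg.Agent.Lib.Block.BlkInd
import Cfsg.Agent.Lib.Grp.Core

set_option autoImplicit false
open Cfsg

namespace Cfsg.Agent.S0955
open Cfsg MonoidAlgebra CA.BlkAlg CA.BlkVal CA.BlkOmega CA.BlkRed CA.BlkCore CA.BlkDefect CA.BlkInd CA.SylIn CChar.CharFun CChar.CharOrth Subgroup

/-- Let D be a defect group of a block of the finite group G relative to a maximal ideal M of the algebraic integers containing the prime p. Then D is the largest normal p-subgroup of its own normalizer: O_p(N_G(D)) = D. -/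
theorem result {G : Type*} [Group G] [Finite G] (p : ℕ) [Fact p.Prime] (M : Ideal Cfsg.AlgInt) (hM : Cfsg.IsPModular p M) (B : Set (Cfsg.IrrCharacter G)) (hB : Cfsg.IsPBlock M B) (D : Subgroup G) (hD : Cfsg.IsDefectGroup p M B D) : (Cfsg.pCore p (Subgroup.normalizer (D : Set G))).map (Subgroup.normalizer (D : Set G)).subtype = D := by
  exact eq_defectGroup_of_normalizes hM hB hD (CA.Core.isPGroup_map_pCore _)
    (CA.Core.le_map_pCore le_normalizer le_rfl (isPGroup_of_isDefectGroup hD)) (map_subtype_le _)
    ((centralizer_le_normalizer _).trans (CA.Core.le_normalizer_map_pCore _))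

end Cfsg.Agent.S0955
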