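import Cfsg.Statements.S0956
import Cfsg.Agent.Lib.Block.BlkReg
import Cfsg.Agent.Lib.Block.BlkFirst

set_option autoImplicit false
open Cfsg

namespace Cfsg.Agent.S0956
open Cfsg MonoidAlgebra CA.BlkAlg CA.BlkVal CA.BlkOmega CA.BlkRed CA.BlkCore CA.BlkDefect CA.BlkInd CA.BlkHeight CA.SylIn CA.H12PPart CChar.CharFun CChar.CharOrth Subgroup CA.BlkKer CChar.CharKer CA.BlkReg CA.BlkFirst

/-- Let D be a defect group of a block of the finite group G (relative to a maximal ideal M of the algebraic integers containing the prime p) and P a Sylow p-subgroup containing D. Then there is an element x of order prime to p such that D is a Sylow p-subgroup of the centralizer of x and D = P ∩ x P x⁻¹. -/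
theorem result {G : Type*} [Group G] [Finite G] (p : ℕ) [Fact p.Prime] (M : Ideal Cfsg.AlgInt) (hM : Cfsg.IsPModular p M) (B : Set (Cfsg.IrrCharacter G)) (hB : Cfsg.IsPBlock M B) (D : Subgroup G) (hD : Cfsg.IsDefectGroup p M B D) (P : Sylow p G) (hDP : D ≤ P) : ∃ x : G, ¬ p ∣ orderOf x ∧ (∃ S : Sylow p (Subgroup.centralizer ({x} : Set G)), (S : Subgroup (Subgroup.centralizer ({x} : Set G))).map (Subgroup.centralizer ({x} : Set G)).subtype = D) ∧ (P : Subgroup G) ⊓ (P : Subgroup G).map (MulAut.conj x).toMonoidHom = D := by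
  obtain ⟨b, hb, hbD⟩ := exists_brauerCorrespondent hM hB hD
  obtain ⟨P₀, hP₀, hle⟩ := exists_isSylowIn_ge (H := (⊤ : Subgroup (normalizer (D : Set G))))
    (isPGroup_subgroupOf P.isPGroup' (normalizer (D : Set G))) le_top
  obtain ⟨y, hy⟩ := exists_isDefectClass hM hb.1
  obtain ⟨w, hw, hs⟩ := exists_green hM hb.1 hP₀ hy
  have hw' := isDefectClass_of_isConj hy hw
  obtain ⟨x, hx⟩ := exists_conj_eq_of_isDefectGroup hM hb.1 hbD
    (isDefectGroup_iff.mpr ⟨w, hw', hs⟩)
  rw [conj_eq_of_normal] at hx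
  have hreg := isPRegular_of_isDefectClass hM hb.1 hw'
  have hp := isPGroup_of_isDefectGroup hD
  refine ⟨w, by rwa [orderOf_coe], exists_sylow_map_eq_iff'.mpr ?_, ?_⟩
  · have := CA.H11Def.sylow_of_norm (p := p) (H := ⊤) (D := D) (x := w) ?_
    · rwa [top_inf_eq] at this
    · rw [← hx] at hs
      have hDw : D ≤ centralizer ({(w : G)} : Set G) := fun u hu =>
        mem_centralizer_singleton_iff.mpr (congrArg Subtype.val
          (mem_centralizer_singleton_iff.mp (hs.le (show (⟨u, le_normalizer hu⟩ :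
            normalizer (D : Set G)) ∈ D.subgroupOf _ from hu))))
      refine isSylowIn_of_maximal hp (le_inf (le_inf le_top le_normalizer) hDw)
        fun Q hQ h1 h2 => ?_
      have hQN : Q ≤ normalizer (D : Set G) := h2.trans (inf_le_left.trans inf_le_right)
      have := hs.eq_of_le (isPGroup_subgroupOf hQ _) (comap_mono h1) fun u hu =>
        mem_centralizer_singleton_iff.mpr (Subtype.ext (mem_centralizer_singleton_iff.mp (h2 hu).2))
      rw [← map_subgroupOf_eq_of_le hQN, this, map_subgroupOf_eq_of_le le_normalizer]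
  · have h1 : D ≤ (P : Subgroup G) ⊓ (w : G) •ᶜ (P : Subgroup G) :=
      le_inf hDP ((conj_eq_of_mem_normalizer w.2).ge.trans (conj_mono _ hDP))
    by_contra hne
    refine (lt_inf_normalizer (P.isPGroup'.to_le inf_le_left)
      (lt_of_le_of_ne h1 (Ne.symm hne))).not_ge fun u hu => ?_
    have : (⟨u, hu.2⟩ : normalizer (D : Set G)) ∈ P₀ ⊓ w •ᶜ P₀ :=
      ⟨hle hu.1.1, mem_conj.mpr (hle (mem_subgroupOf.mpr (mem_conj (G := G) |>.mp hu.1.2)))⟩
    rwa [← hx] at this

end Cfsg.Agent.S0956
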