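import Cfsg.Statements.S0957
import Cfsg.Agent.Lib.Block.BlkReg

set_option autoImplicit false
open Cfsg

namespace Cfsg.Agent.S0957
open Cfsg MonoidAlgebra CA.BlkAlg CA.BlkVal CA.BlkOmega CA.BlkRed CA.BlkCore CA.BlkDefect CA.BlkInd CA.BlkHeight CA.SylIn CA.H12PPart CChar.CharFun CChar.CharOrth Subgroup CA.BlkKer CChar.CharKer CA.BlkReg

/-- Let P be a Sylow p-subgroup of the finite group G, let g, h ∈ G and let p ^ d be the order of a Sylow p-subgroup of the centralizer of g. Then the number of pairs (y, z) with y conjugate to g, z conjugate to h and z * y⁻¹ ∈ P is divisible by the order of P divided by p ^ d. -/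
theorem result {G : Type*} [Group G] [Finite G] (p : ℕ) [Fact p.Prime] (P : Sylow p G) (g h : G) (S : Sylow p (Subgroup.centralizer ({g} : Set G))) : Nat.card P / Nat.card S ∣ Nat.card {yz : G × G // IsConj g yz.1 ∧ IsConj h yz.2 ∧ yz.2 * yz.1⁻¹ ∈ (P : Subgroup G)} := by
  classical
  have := Fintype.ofFinite G
  let X := {yz : G × G // IsConj g yz.1 ∧ IsConj h yz.2 ∧ yz.2 * yz.1⁻¹ ∈ (P : Subgroup G)}
  let : MulAction (P : Subgroup G) X :=
    { smul := fun u x => ⟨((u : G) * x.1.1 * (u : G)⁻¹, (u : G) * x.1.2 * (u : G)⁻¹),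
        x.2.1.trans (isConj_iff.mpr ⟨u, rfl⟩), x.2.2.1.trans (isConj_iff.mpr ⟨u, rfl⟩), by
          have := mul_mem (mul_mem u.2 x.2.2.2) (inv_mem u.2)
          convert this using 1
          group⟩
      one_smul := fun x => Subtype.ext (Prod.ext (show ((1 : (P : Subgroup G)) : G) * _ * _ = _ by simp)
        (show ((1 : (P : Subgroup G)) : G) * _ * _ = _ by simp))
      mul_smul := fun u w x => Subtype.ext (Prod.ext
        (show ((u * w : (P : Subgroup G)) : G) * _ * _ = (u : G) * ((w : G) * _ * _) * _ by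
          simp [mul_assoc])
        (show ((u * w : (P : Subgroup G)) : G) * _ * _ = (u : G) * ((w : G) * _ * _) * _ by
          simp [mul_assoc])) }
  have := Fintype.ofFinite (MulAction.orbitRel.Quotient (P : Subgroup G) X)
  have h1 := sum_eq_sum_orbits (P := (P : Subgroup G)) (X := X) (fun _ => (1 : ℕ)) fun _ _ => rfl
  simp only [Finset.sum_const, Finset.card_univ, smul_eq_mul, mul_one, Nat.cast_id] at h1
  change _ ∣ Nat.card X
  rw [Nat.card_eq_fintype_card (α := X), h1]
  refine Finset.dvd_sum fun ω _ => ?_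
  obtain ⟨x, hx⟩ := isConj_iff.mp ω.out.2.1
  let T := (MulAction.stabilizer (P : Subgroup G) ω.out).map (P : Subgroup G).subtype
  have hT : Nat.card T ∣ Nat.card S := by
    have h2 := (isSylowIn_map S).conj x
    rw [conj_centralizer_singleton, hx] at h2
    have h3 := h2.card_dvd (P.isPGroup'.to_le (map_subtype_le _ : T ≤ P)) (by
      rintro _ ⟨u, hu, rfl⟩
      have := congrArg (fun z : X => z.1.1) (MulAction.mem_stabilizer_iff.mp hu)
      exact mem_centralizer_singleton_iff.mpr (mul_inv_eq_iff_eq_mul.mp this))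
    rwa [card_conj, card_map_of_injective (centralizer ({g} : Set G)).subtype_injective] at h3
  rw [card_map_of_injective (subtype_injective _)] at hT
  obtain ⟨c, hc⟩ := hT
  have h4 := (MulAction.stabilizer (P : Subgroup G) ω.out).index_mul_card
  change Nat.card (P : Subgroup G) / Nat.card S ∣ _
  rw [hc, ← h4, ← Nat.div_div_eq_div_mul, Nat.mul_div_cancel _ Nat.card_pos]
  have h5 : c ∣ (MulAction.stabilizer (P : Subgroup G) ω.out).index := by
    have h6 : Nat.card S ∣ Nat.card (P : Subgroup G) := by
      have := (isSylowIn_top P).card_dvd (isSylowIn_map S).isPGroup le_top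
      rwa [card_map_of_injective (subtype_injective _)] at this
    rw [hc, ← h4, mul_comm _ c] at h6
    exact Nat.dvd_of_mul_dvd_mul_right Nat.card_pos h6
  exact Nat.div_dvd_of_dvd h5

end Cfsg.Agent.S0957
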