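import Cfsg.Statements.S0960
import Cfsg.Agent.Lib.Block.H28Prin
-- import your own Cfsg.Agent.* helpers here

set_option autoImplicit false
open Cfsg

namespace Cfsg.Agent.S0960

/-- Let p be an odd prime and G a finite group whose Sylow p-subgroup P has order p; let e be the index of C_G(P) in N_G(P) (a divisor of p − 1) and fix a maximal ideal M of the algebraic integers containing p. Then the principal block of G consists of exactly e + (p - 1) / e irreducible characters, and the degree d of each of them satisfies d ≡ 1, d ≡ -1, d ≡ e or d ≡ -e modulo p. -/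
theorem result {G : Type*} [Group G] [Finite G] (p : ℕ) [Fact p.Prime] (M : Ideal Cfsg.AlgInt) (hM : Cfsg.IsPModular p M) (hodd : p ≠ 2) (P : Sylow p G) (hP : Nat.card P = p) (e : ℕ) (he : (Subgroup.centralizer ((P : Subgroup G) : Set G)).relIndex (Subgroup.normalizer ((P : Subgroup G) : Set G)) = e) : Nat.card (Cfsg.principalBlock M G) = e + (p - 1) / e ∧ ∀ χ ∈ Cfsg.principalBlock M G, ((Cfsg.charDegree (χ : G → ℂ) : ℤ) ≡ 1 [ZMOD p] ∨ (Cfsg.charDegree (χ : G → ℂ) : ℤ) ≡ -1 [ZMOD p] ∨ (Cfsg.charDegree (χ : G → ℂ) : ℤ) ≡ (e : ℤ) [ZMOD p] ∨ (Cfsg.charDegree (χ : G → ℂ) : ℤ) ≡ -(e : ℤ) [ZMOD p]) := by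
  classical
  obtain ⟨x, h, hx⟩ := CA.H28Syl.exists_isSylGen_of_sylow P hP
  have hC : Subgroup.centralizer ((P : Subgroup G) : Set G) = CA.H28Syl.CC x := by
    rw [hx, CA.H28Syl.centralizer_zpowers]
  have he' : e = CA.H28Syl.ee x := by rw [← he, hC, hx]
  obtain ⟨d⟩ := CA.H28Prin.exists_P1 h
  refine ⟨?_, fun χ hχ => ?_⟩
  · rw [d.block hM h, ← Finset.coe_union, he', ← d.card_Y, ← d.card_X,
      ← Finset.card_union_of_disjoint d.disj]
    exact Nat.card_eq_finsetCard _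
  · rcases (d.mem_block hM h).1 hχ with h1 | h1
    · obtain ⟨s, hs⟩ := d.degX χ h1
      rcases d.hε χ h1 with h2 | h2 <;> rw [hs, h2]
      · exact Or.inl (Int.modEq_iff_dvd.2 ⟨-s, by ring⟩)
      · exact Or.inr (Or.inl (Int.modEq_iff_dvd.2 ⟨-s, by ring⟩))
    · obtain ⟨s, hs⟩ := d.degY χ h1
      rcases d.hδ with h2 | h2 <;> rw [hs, h2, he']
      · exact Or.inr (Or.inr (Or.inl (Int.modEq_iff_dvd.2 ⟨-s, by ring⟩)))
      · exact Or.inr (Or.inr (Or.inr (Int.modEq_iff_dvd.2 ⟨-s, by ring⟩)))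

end Cfsg.Agent.S0960
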