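import Cfsg.Statements.S0962
import Cfsg.Agent.Lib.Block.BlkRob
import Cfsg.Agent.Lib.Block.BlkKer

set_option autoImplicit false
open Cfsg

namespace Cfsg.Agent.S0962
open Cfsg MonoidAlgebra CA.BlkAlg CA.BlkVal CA.BlkOmega CA.BlkRed CA.BlkCore CA.BlkDefect CA.BlkInd CA.BlkHeight CA.SylIn CA.H12PPart CChar.CharFun CChar.CharOrth Subgroup CA.BlkKer CChar.CharKer CA.BlkZero CChar.CharInt CA.BlkReg CA.BlkRob

/-- Fix a maximal ideal M of the algebraic integers containing the prime p and a natural number d. The number of blocks of the finite group G of defect at least d is at most the number of conjugacy classes of p-regular elements of G of defect at least d, where the defect of a class is the exponent of p in the order of the centralizer of any of its elements. -/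
theorem result {G : Type*} [Group G] [Finite G] (p : ℕ) [Fact p.Prime] (M : Ideal Cfsg.AlgInt) (hM : Cfsg.IsPModular p M) (d : ℕ) : Nat.card {B : Set (Cfsg.IrrCharacter G) // Cfsg.IsPBlock M B ∧ d ≤ Cfsg.blockDefect p B} ≤ Nat.card {C : ConjClasses G // ∃ g : G, ConjClasses.mk g = C ∧ Cfsg.IsPRegular p g ∧ d ≤ (Nat.card (Subgroup.centralizer ({g} : Set G))).factorization p} := by
  classical
  set X := {B : Set (IrrCharacter G) // IsPBlock M B ∧ d ≤ blockDefect p B}
  set Y := {C : ConjClasses G // ∃ g : G, ConjClasses.mk g = C ∧ IsPRegular p g ∧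
    d ≤ (Nat.card (Subgroup.centralizer ({g} : Set G))).factorization p}
  haveI := Fintype.ofFinite X
  haveI := Fintype.ofFinite Y
  rw [Nat.card_eq_fintype_card, Nat.card_eq_fintype_card]
  refine card_le_of_mul_eq_one (lamM_mul_coeM hM (B := fun B : X => B.1) (x := fun C : Y => C.1.out)
    (fun B => B.2.1) Subtype.val_injective (fun C C' h => Subtype.ext ?_) fun B B' g h h' => ?_)
  · rw [(isConj_out_iff _ _).mp h]
    exact Quotient.out_eq _
  · exact ⟨⟨ConjClasses.mk g, g, rfl, isPRegular_of_coeff_eB_ne_zero hM (isSat_of_isPBlock hM B'.2.1) h',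
      B.2.2.trans (CA.H11Contrib.le_factorization_of_lam hM B.2.1 (rep_mem hM B.2.1) h)⟩,
      isConj_out g⟩

end Cfsg.Agent.S0962
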