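import Cfsg.Statements.S0963
import Cfsg.Agent.Lib.Block.H12Cover

set_option autoImplicit false
open Cfsg

namespace Cfsg.Agent.S0963

open CA.H12Cover CA.BlkCore CA.BlkAlg CA.BlkOmega CA.BlkRed CA.BlkVal CChar.CharFun

/-- Let N be a normal subgroup of the finite group G, χ an irreducible character of G and θ an irreducible character of N. Then θ occurs in the restriction of χ to N if and only if, for every n ∈ N, the central character of χ at n (class size in G times χ n over χ 1) equals the sum of θ m / θ 1 over the elements m of N conjugate in G to n. -/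
theorem result {G : Type*} [Group G] [Fintype G] (N : Subgroup G) [N.Normal] [Fintype N] (χ : Cfsg.IrrCharacter G) (θ : Cfsg.IrrCharacter N) : Cfsg.classInner (fun n : N => (χ : G → ℂ) n) (θ : N → ℂ) ≠ 0 ↔ ∀ n : N, Cfsg.centralChar (χ : G → ℂ) (n : G) = Cfsg.inducedCentralChar N (θ : N → ℂ) (n : G) := by
  classical
  have hN : N.Normal := inferInstance
  have hs : ∀ n ∈ N, emb N (trunc N (classSum ℂ n)) = classSum ℂ n := fun n hn => by
    rw [emb_trunc, cut_eq_self_iff]
    intro x hx
    refine coeff_classSum_of_not_isConj fun h => hx ?_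
    obtain ⟨c, rfl⟩ := isConj_iff.1 h
    exact hN.conj_mem n hn c
  rw [← over_iff]
  simp only [CA.H12Second.inducedCentralChar_eq, ← omega_classSum (irr_classFun χ.2)]
  constructor
  · intro h n
    rw [← omega_emb_of_over h ((hs n n.2).symm ▸ classSum_mem_Z _), hs n n.2]
  · intro h
    have := Fintype.ofFinite (ConjClasses G)
    have hZ : emb N (fB (orb {θ})) ∈ Z ℂ G := emb_fB_mem_Z fun g => cjS_orb g _
    have h1 : omega χ.1 (emb N (fB (orb {θ}))) = omega θ.1 (trunc N (emb N (fB (orb {θ})))) := by
      rw [eq_sum_classSum hZ]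
      simp only [map_sum, map_smul]
      refine Finset.sum_congr rfl fun C _ => ?_
      by_cases hC : C.out ∈ N
      · rw [h ⟨_, hC⟩]
      · rw [coeff_emb_of_not_mem N _ hC, zero_smul, zero_smul]
    rw [trunc_emb, omega_fB_of_mem (subset_orb {θ} (Set.mem_singleton θ))] at h1
    obtain ⟨φ, hφ⟩ := exists_under N χ
    rw [omega_emb_of_over hφ hZ, omega_fB] at h1
    obtain ⟨g, hg⟩ : φ ∈ orb {θ} := by
      by_contra h0
      rw [if_neg h0] at h1
      exact zero_ne_one h1
    rw [← show cjI g φ = θ from hg]
    exact (over_cj (irr_classFun χ.2) g).2 hφ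

end Cfsg.Agent.S0963
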