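import Cfsg.Statements.S0965
import Cfsg.Agent.Lib.Block.H12Cover

set_option autoImplicit false
open Cfsg

namespace Cfsg.Agent.S0965

open CA.H12Cover CA.BlkCore CA.BlkAlg CA.BlkOmega CA.BlkRed CA.BlkVal CChar.CharFun

/-- Let N be a normal subgroup of the finite group G and let B, b be blocks of G and of N relative to a maximal ideal M of the algebraic integers containing the prime p. Then some χ ∈ B has a constituent in b on restriction to N if and only if, for all χ ∈ B, θ ∈ b and n ∈ N, the central character of χ at n is congruent modulo the local ideal at M to the sum of θ m / θ 1 over the elements m ∈ N conjugate in G to n. -/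
theorem result {G : Type*} [Group G] [Fintype G] (p : ℕ) [Fact p.Prime] (M : Ideal Cfsg.AlgInt) (hM : Cfsg.IsPModular p M) (N : Subgroup G) [N.Normal] [Fintype N] (B : Set (Cfsg.IrrCharacter G)) (hB : Cfsg.IsPBlock M B) (b : Set (Cfsg.IrrCharacter N)) (hb : Cfsg.IsPBlock M b) : (∃ χ ∈ B, ∃ θ ∈ b, Cfsg.classInner (fun n : N => (χ : G → ℂ) n) (θ : N → ℂ) ≠ 0) ↔ ∀ χ ∈ B, ∀ θ ∈ b, ∀ n : N, Cfsg.MemLocalIdeal M (Cfsg.centralChar (χ : G → ℂ) (n : G) - Cfsg.inducedCentralChar N (θ : N → ℂ) (n : G)) := by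
  have hN : N.Normal := inferInstance
  have key : ∀ (χ : Cfsg.IrrCharacter G) (θ : Cfsg.IrrCharacter N) (n : G),
      Cfsg.MemLocalIdeal M (Cfsg.centralChar χ.1 n - Cfsg.inducedCentralChar N θ.1 n) ↔
        lam M χ.1 (classSum (k M) n) = lam M θ.1 (trunc N (classSum (k M) n)) := fun χ θ n => by
    rw [CA.H12Second.lam_trunc_classSum, lam_classSum_irr]
    exact memLocalIdeal_sub_iff hM (isAlgebraic_centralChar χ n)
      (isAlgebraic_of_isIntegral (CA.H12Second.isIntegral_inducedCentralChar N θ n))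
      (centralChar_mem_O χ n) (isIntegral_mem (CA.H12Second.isIntegral_inducedCentralChar N θ n))
  simp only [key]
  rw [← cov_iff]
  constructor
  · intro h χ hχ θ hθ n
    refine lam_eq_of_cov hM hB hb h hχ hθ (classSum_mem_Z _) fun x hx => ?_
    refine coeff_classSum_of_not_isConj fun h => hx ?_
    obtain ⟨c, rfl⟩ := isConj_iff.1 h
    exact hN.conj_mem n n.2 c
  · intro h
    obtain ⟨χ, hχ⟩ := block_nonempty hM hB
    obtain ⟨θ, hθ⟩ := block_nonempty hM hb
    exact cov_of_lam hM hb hχ hθ fun n hn => h χ hχ θ hθ ⟨n, hn⟩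

end Cfsg.Agent.S0965
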