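import Cfsg.Statements.S0967
import Cfsg.Agent.Lib.Block.H12Cover
import Cfsg.Agent.Lib.Char.BPerm
import Cfsg.Agent.Lib.Char.CharKer

set_option autoImplicit false
open Cfsg

namespace Cfsg.Agent.S0967

open CA.H12Cover CA.BlkCore CA.BlkAlg CA.BlkOmega CA.BlkRed CA.BlkVal CChar.CharFun

/-- Let N be a normal subgroup of the finite group G of order prime to p and fix a maximal ideal M of the algebraic integers containing p. If χ is an irreducible character of G ⧸ N and ψ lies in the block of its inflation χ ∘ (quotient map), then ψ is itself inflated from an irreducible character ψ' of G ⧸ N lying in the block of χ. (Over a normal p'-subgroup, blocks of the quotient are whole blocks of G.) -/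
theorem result {G : Type*} [Group G] [Finite G] (p : ℕ) [Fact p.Prime] (M : Ideal Cfsg.AlgInt) (hM : Cfsg.IsPModular p M) (N : Subgroup G) [N.Normal] (hN : ¬ p ∣ Nat.card N) (χ : Cfsg.IrrCharacter (G ⧸ N)) (ψ : Cfsg.IrrCharacter G) (hψ : ψ ∈ Cfsg.blockOf M ((χ : G ⧸ N → ℂ) ∘ QuotientGroup.mk)) : ∃ ψ' : Cfsg.IrrCharacter (G ⧸ N), (ψ : G → ℂ) = (ψ' : G ⧸ N → ℂ) ∘ QuotientGroup.mk ∧ Cfsg.SameBlock M (χ : G ⧸ N → ℂ) (ψ' : G ⧸ N → ℂ) := by
  classical
  have := Fintype.ofFinite G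
  have := Fintype.ofFinite N
  have := Fintype.ofFinite (G ⧸ N)
  let χ' : Cfsg.IrrCharacter G := ⟨fun g => χ.1 (g : G ⧸ N), CChar.CharKer.irr_inflate χ.2⟩
  have h1 : Over N χ'.1 (CChar.CharOrth.irrOne N).1 := by
    rw [over_iff]
    have : (fun n : N => χ'.1 n) = χ.1 1 • fun _ => (1 : ℂ) := by
      funext n
      simp [χ', (QuotientGroup.eq_one_iff (n : G)).2 n.2]
    rw [this, CChar.CharFun.inner_smul_left]
    exact mul_ne_zero (irr_apply_one_ne_zero χ.2) (by
      change Cfsg.classInner (fun _ : N => (1 : ℂ)) (fun _ => 1) ≠ 0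
      rw [inner_one_one]; exact one_ne_zero)
  obtain ⟨θ', rfl, h2⟩ := exists_mem_over_of_cov hM (isSat_of_not_dvd hM hN {_})
      (isPBlock_blockOf χ') ⟨χ', self_mem_blockOf hM χ', _, rfl, h1⟩ (χ := ψ) hψ
  obtain ⟨ψ', hψ', he⟩ := CChar.CharKer.irr_exists_quotient ψ.2 N fun g hg =>
    CA.BPerm.apply_eq_of_inner_one_ne_zero ψ.2 (over_iff.1 h2) hg
  refine ⟨⟨ψ', hψ'⟩, funext fun g => (he g).symm, ?_⟩
  have key : ∀ (φ : G ⧸ N → ℂ) (z : MonoidAlgebra ℂ (G ⧸ N)),
      omega (fun g : G => φ g) (CA.BlkInd.pull (QuotientGroup.mk' N) z) =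
        Nat.card N * omega φ z := fun φ z => by
    rw [omega_apply, omega_apply, chiL_apply, chiL_apply, CA.Ind.sum_eq_card_mul_sum_quotient N _
      fun x h hh => by simp [(QuotientGroup.eq_one_iff h).2 hh]]
    simp [mul_div_assoc]
  rw [sameBlock_iff_lam_Z hM χ ⟨ψ', hψ'⟩]
  intro z hz
  have hl := congrArg (fun f => f (red M (CA.BlkInd.pull (QuotientGroup.mk' N) (liftG M z))))
    ((mem_blockOf_iff_lam hM (χ := χ')).1 hψ)
  have hZ := CA.BlkInd.pull_mem_Z (QuotientGroup.mk' N) (liftG_mem_Z hz)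
  have hO := CA.BlkInd.pull_mem_OG (QuotientGroup.mk' N) (liftG_mem_OG z)
  simp only [lam_red _ hZ hO] at hl
  rw [show ψ.1 = fun g : G => ψ' g from funext fun g => (he g).symm, key, key,
    res_mul (natCast_mem_O _) (omega_mem_O χ (liftG_mem_Z hz) (liftG_mem_OG z)),
    res_mul (natCast_mem_O _) (omega_mem_O ⟨ψ', hψ'⟩ (liftG_mem_Z hz) (liftG_mem_OG z)),
    res_natCast] at hl
  rw [lam_eq_res_omega_liftG _ hz, lam_eq_res_omega_liftG _ hz]
  exact mul_left_cancel₀ ((natCast_k_eq_zero_iff hM _).not.2 hN) hl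

end Cfsg.Agent.S0967
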