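import Cfsg.Statements.S0968
import Cfsg.Agent.Lib.Block.H12DC2

set_option autoImplicit false
open Cfsg

namespace Cfsg.Agent.S0968

open CA.BlkVal CA.BlkCore CA.BlkDefect CA.BlkHeight CA.H12PPart CA.H12Cover CA.H12DC CA.H12DC2
  CChar.CharFun CChar.CharOrth CChar.CharInt CChar.CharKer Subgroup

/-- Let P be a p-subgroup of the finite group G with P ⊔ C_G(P) = G, and let B be a block with defect group P relative to a maximal ideal M of the algebraic integers containing p. Then there is exactly one θ ∈ B with θ x = θ 1 for all x ∈ P; for this θ the exponent of p in θ(1) equals the exponent of p in the index of P; and the number of members of B equals the number of conjugacy classes of P. -/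
theorem result {G : Type*} [Group G] [Finite G] (p : ℕ) [Fact p.Prime] (M : Ideal Cfsg.AlgInt) (hM : Cfsg.IsPModular p M) (P : Subgroup G) (hP : IsPGroup p P) (hG : P ⊔ Subgroup.centralizer (P : Set G) = ⊤) (B : Set (Cfsg.IrrCharacter G)) (hB : Cfsg.IsPBlock M B) (hD : Cfsg.IsDefectGroup p M B P) : (∃! θ : Cfsg.IrrCharacter G, θ ∈ B ∧ ∀ x ∈ P, (θ : G → ℂ) x = (θ : G → ℂ) 1) ∧ (∀ θ ∈ B, (∀ x ∈ P, (θ : G → ℂ) x = (θ : G → ℂ) 1) → (Cfsg.charDegree (θ : G → ℂ)).factorization p = P.index.factorization p) ∧ Nat.card B = Nat.card (ConjClasses P) := by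
  have := Fintype.ofFinite G
  have := normal_of_sup hG
  obtain ⟨χ, hχ, h⟩ := exists_ker hM hB hP
  refine ⟨⟨χ, ⟨hχ, h⟩, fun ψ h' => ker_unique hM hB hD hG hχ h h'.1 h'.2⟩,
    fun θ h1 h2 => fact_of_ker hM hB hD h1 h2, ?_⟩
  rw [card_eq hM hB hD hG, card_irr]

end Cfsg.Agent.S0968
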