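import Cfsg.Statements.S0970
import Cfsg.Agent.Lib.Block.H12Brg

set_option autoImplicit false
open Cfsg

namespace Cfsg.Agent.S0970

open CA.BlkAlg CA.BlkVal CA.BlkCore CA.BlkDefect CA.SylIn CA.BlkInd CA.BlkHeight CA.BlkFirst
  CA.H11Amb CA.H11Def CA.H11Pair CA.H11Brg CA.H12Cover CA.H12Fong CA.H12FR CA.H12Brg Subgroup

/-- Let N be a normal subgroup of the finite group G and fix a maximal ideal M of the algebraic integers containing the prime p. Let b be a block of N that is invariant under conjugation by G, and B a block of G covering b (some χ ∈ B has a constituent in b) whose defect is at least that of every block covering b. If P is a defect group of B, then p does not divide the index of P ⊔ N, the subgroup P ∩ N of N is a defect group of b, and the defect of B equals the defect of b plus the exponent of p in the index of N. -/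
theorem result {G : Type*} [Group G] [Fintype G] (p : ℕ) [Fact p.Prime] (M : Ideal Cfsg.AlgInt) (hM : Cfsg.IsPModular p M) (N : Subgroup G) [hN : N.Normal] [Fintype N] (b : Set (Cfsg.IrrCharacter N)) (hb : Cfsg.IsPBlock M b) (hinv : ∀ g : G, ∀ θ ∈ b, ∀ θ' : Cfsg.IrrCharacter N, (∀ n : N, (θ' : N → ℂ) n = (θ : N → ℂ) ⟨g * n * g⁻¹, hN.conj_mem n n.2 g⟩) → θ' ∈ b) (B : Set (Cfsg.IrrCharacter G)) (hB : Cfsg.IsPBlock M B) (hcov : ∃ χ ∈ B, ∃ θ ∈ b, Cfsg.classInner (fun n : N => (χ : G → ℂ) n) (θ : N → ℂ) ≠ 0) (hmax : ∀ B' : Set (Cfsg.IrrCharacter G), Cfsg.IsPBlock M B' → (∃ χ ∈ B', ∃ θ ∈ b, Cfsg.classInner (fun n : N => (χ : G → ℂ) n) (θ : N → ℂ) ≠ 0) → Cfsg.blockDefect p B' ≤ Cfsg.blockDefect p B) (P : Subgroup G) (hP : Cfsg.IsDefectGroup p M B P) : ¬ p ∣ (P ⊔ N).index ∧ Cfsg.IsDefectGroup p M b ((P ⊓ N).subgroupOf N) ∧ Cfsg.blockDefect p B = Cfsg.blockDefect p b + N.index.factorization p := by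
  have hp := p_eq_zero hM
  have hNN := NN_top_of_normal N
  have he := blk_ab hM hb
  have hfix : ab M N b ∈ Fixed (k M) ⊤ := fun g _ => (stab_iff hM hb g).1 (hinv g)
  have hc := (cov_iff_ab hM hB hb).1 hcov
  have hP' := (isDefectGroup_iff_top hM hB).1 hP
  have hQ := isDef_inf_of_fixed hp le_top hNN he hfix (blk_eB hM hB) hc hP'
  have hQ' := (isDefectGroup_iff_subgroupOf hM hb inf_le_right).2 hQ
  obtain ⟨E, P', hE, h1, hP'', h2⟩ := exists_cov_fong hp le_top hNN he hfix
  obtain ⟨B', hB', rfl⟩ := exists_eB hM hE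
  have e1 := fact_isDef_le hp le_top hNN he (blk_eB hM hB) hc hQ hP'
  have e2 := fact_isDef_le hp le_top hNN he hE h1 hQ hP''
  have e3 := hmax B' hB' ((cov_iff_ab hM hB' hb).2 h1)
  have e4 := factorization_card_defectGroup hM hb hQ'
  rw [Nat.card_congr (subgroupOfEquivOfLe inf_le_right).toEquiv] at e4
  rw [factorization_card_defectGroup hM hB hP, relIndex_top_right, relIndex_top_right] at e1
  rw [factorization_card_defectGroup hM hB' ((isDefectGroup_iff_top hM hB').2 hP''),
    Nat.factorization_eq_zero_of_not_dvd h2, relIndex_top_right] at e2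
  refine ⟨?_, hQ', by omega⟩
  rw [(Fact.out : p.Prime).dvd_iff_one_le_factorization index_ne_zero_of_finite]
  omega

end Cfsg.Agent.S0970
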