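import Cfsg.Statements.S0971
import Cfsg.Agent.Lib.Block.H12Cover

set_option autoImplicit false
open Cfsg

namespace Cfsg.Agent.S0971

open CA.H12Cover CA.BlkCore CA.BlkAlg CA.BlkOmega CA.BlkRed CA.BlkVal CChar.CharFun

/-- Let Q be a normal p-subgroup of the finite group G, let N = Q ⊔ C_G(Q) (a normal subgroup) and let b be a block of N relative to a maximal ideal M of the algebraic integers containing p. Then b induces some block of G, and every block B of G containing a character whose restriction to N has a constituent in b is induced by b. -/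
theorem result {G : Type*} [Group G] [Fintype G] (p : ℕ) [Fact p.Prime] (M : Ideal Cfsg.AlgInt) (hM : Cfsg.IsPModular p M) (Q : Subgroup G) [Q.Normal] (hQ : IsPGroup p Q) [Fintype ↥(Q ⊔ Subgroup.centralizer (Q : Set G))] (b : Set (Cfsg.IrrCharacter ↥(Q ⊔ Subgroup.centralizer (Q : Set G)))) (hb : Cfsg.IsPBlock M b) : Cfsg.InducedBlockDefined M (Q ⊔ Subgroup.centralizer (Q : Set G)) b ∧ ∀ B : Set (Cfsg.IrrCharacter G), Cfsg.IsPBlock M B → (∃ χ ∈ B, ∃ θ ∈ b, Cfsg.classInner (fun n : ↥(Q ⊔ Subgroup.centralizer (Q : Set G)) => (χ : G → ℂ) n) (θ : ↥(Q ⊔ Subgroup.centralizer (Q : Set G)) → ℂ) ≠ 0) → Cfsg.IsInducedBlock M (Q ⊔ Subgroup.centralizer (Q : Set G)) b B := by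
  have hd := CA.BlkInd.inducedBlockDefined_of_normalizer hM hQ le_sup_left le_sup_right
    (by rw [Subgroup.normalizer_eq_top]; exact le_top) hb
  refine ⟨hd, fun B hB h => ?_⟩
  obtain ⟨χ, hχ, θ, hθ, h⟩ := cov_iff.2 h
  rw [CA.BlkInd.isInducedBlock_iff_lam_eB hM hd hB hθ, ← lam_eq_of_over h (eB_mem_Z B) fun g hg =>
    CA.BlkInd.coeff_eB_eq_zero_of_normal hM (isSat_of_isPBlock hM hB) hQ
      fun h => hg (Subgroup.mem_sup_right h), lam_eB_of_mem (isSat_of_isPBlock hM hB) hχ]

end Cfsg.Agent.S0971
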