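import Cfsg.Statements.S0973
import Cfsg.Agent.Lib.Block.H12Brg

set_option autoImplicit false
open Cfsg

namespace Cfsg.Agent.S0973

open CA.BlkAlg CA.BlkVal CA.BlkCore CA.BlkDefect CA.SylIn CA.BlkInd CA.BlkHeight CA.BlkFirst
  CA.H11Amb CA.H11Def CA.H11Pair CA.H11Brg CA.H12Cover CA.H12Fong CA.H12FR CA.H12Brg Subgroup

/-- Let B be a block of the finite group G with defect group P (relative to a maximal ideal M of the algebraic integers containing p), and let L = P ⊔ C_G(P). Then (i) some block b of L with defect group P (viewed in L) induces B, and (ii) if b and b' are blocks of L both inducing B, there is n ∈ N_G(P) carrying b to b': for every θ ∈ b there is θ' ∈ b' with θ' x = θ (n x n⁻¹) for all x ∈ L. -/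
theorem result {G : Type*} [Group G] [Finite G] (p : ℕ) [Fact p.Prime] (M : Ideal Cfsg.AlgInt) (hM : Cfsg.IsPModular p M) (B : Set (Cfsg.IrrCharacter G)) (hB : Cfsg.IsPBlock M B) (P : Subgroup G) (hP : Cfsg.IsDefectGroup p M B P) : (∃ b : Set (Cfsg.IrrCharacter ↥(P ⊔ Subgroup.centralizer (P : Set G))), Cfsg.IsDefectGroup p M b (P.subgroupOf (P ⊔ Subgroup.centralizer (P : Set G))) ∧ Cfsg.IsInducedBlock M (P ⊔ Subgroup.centralizer (P : Set G)) b B) ∧ ∀ b b' : Set (Cfsg.IrrCharacter ↥(P ⊔ Subgroup.centralizer (P : Set G))), Cfsg.IsInducedBlock M (P ⊔ Subgroup.centralizer (P : Set G)) b B → Cfsg.IsInducedBlock M (P ⊔ Subgroup.centralizer (P : Set G)) b' B → ∃ n ∈ Subgroup.normalizer (P : Set G), ∀ θ ∈ b, ∃ θ' ∈ b', ∀ x : ↥(P ⊔ Subgroup.centralizer (P : Set G)), ∀ hx : n * (x : G) * n⁻¹ ∈ P ⊔ Subgroup.centralizer (P : Set G), (θ' : ↥(P ⊔ Subgroup.centralizer (P : Set G)) → ℂ) x = (θ : ↥(P ⊔ Subgroup.centralizer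 (P : Set G)) → ℂ) ⟨n * (x : G) * n⁻¹, hx⟩ := by
  have hp := p_eq_zero hM
  have hPp := isPGroup_of_isDefectGroup hP
  set H := P ⊔ Subgroup.centralizer (P : Set G) with hH
  have hPH : P ≤ H := le_sup_left
  have hCH : CC P ≤ H := le_sup_right
  have hHN : H ≤ NN P := sup_le le_normalizer (CC_le_NN P)
  have hNH : NN P ≤ NN H := (le_inf le_rfl (normalizer_le_normalizer_centralizer P)).trans
    (inf_normalizer_le_normalizer_sup _ _)
  refine ⟨?_, fun b b' hb hb' => ?_⟩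
  · obtain ⟨b, hb⟩ := exists_isInducedBlock_of_br hM hPp hPH hCH hHN hB (br_eB_ne_zero hM hB hP)
    exact ⟨b, isDefectGroup_of_induced_of_normal hM hPH hHN hP hb, hb⟩
  have hpr : ∀ b, IsPBlock M b → Pr p ⊤ P (ab M H b) := fun b hb => ⟨le_top, hPp, by
    rw [top_inf_eq]
    exact Blk.of_sup_CC hCH (sup_comm _ _).le le_rfl (blk_ab hM hb)
      (br_eq_self_iff.1 ((blk_ab hM hb).br_eq_self hp hPp hPH hHN))⟩
  obtain ⟨n, hn, h⟩ := exists_conj_of_isDef hp (hpr b' hb'.1) (hpr b hb.1) (blk_eB hM hB)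
    ((isInducedBlock_iff_ab hM hPp hPH hCH hHN hb'.1 hB).1 hb')
    ((isInducedBlock_iff_ab hM hPp hPH hCH hHN hb.1 hB).1 hb) ((isDefectGroup_iff_top hM hB).1 hP)
  obtain ⟨h1, h2⟩ := cB_spec hM (conj_eq_of_mem_normalizer (hNH hn.2)) hb'.1
  obtain rfl := ab_inj hM hb.1 h1 (h.trans h2.symm)
  refine ⟨n, hn.2, fun θ ⟨θ', hθ', h3⟩ => ⟨θ', hθ', fun x hx => (h3 x ⟨_, hx⟩ rfl).symm⟩⟩

end Cfsg.Agent.S0973
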