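import Cfsg.Statements.S0986
import Cfsg.Agent.Lib.Grp.H28Aut
-- import your own Cfsg.Agent.* helpers here

set_option autoImplicit false
open Cfsg

namespace Cfsg.Agent.S0986

/-- Let P and Q be distinct Sylow p-subgroups of a finite group G chosen so that the order of P ∩ Q is as large as possible among intersections of two distinct Sylow p-subgroups, and let N be the normalizer of P ∩ Q. Then N has more than one Sylow p-subgroup, any two distinct Sylow p-subgroups of N intersect exactly in P ∩ Q, and each Sylow p-subgroup of N lies in exactly one Sylow p-subgroup of G. -/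
theorem result {G : Type*} [Group G] [Finite G] (p : ℕ) [Fact p.Prime] (P Q : Sylow p G) (hPQ : P ≠ Q) (hmax : ∀ P' Q' : Sylow p G, P' ≠ Q' → Nat.card ↥((P' : Subgroup G) ⊓ (Q' : Subgroup G)) ≤ Nat.card ↥((P : Subgroup G) ⊓ (Q : Subgroup G))) : 1 < Nat.card (Sylow p ↥(Subgroup.normalizer (((P : Subgroup G) ⊓ (Q : Subgroup G) : Subgroup G) : Set G))) ∧ (∀ S T : Sylow p ↥(Subgroup.normalizer (((P : Subgroup G) ⊓ (Q : Subgroup G) : Subgroup G) : Set G)), S ≠ T → (S : Subgroup _) ⊓ (T : Subgroup _) = ((P : Subgroup G) ⊓ (Q : Subgroup G)).subgroupOf (Subgroup.normalizer (((P : Subgroup G) ⊓ (Q : Subgroup G) : Subgroup G) : Set G))) ∧ ∀ S : Sylow p ↥(Subgroup.normalizer (((P : Subgroup G) ⊓ (Q : Subgroup G) : Subgroup G) : Set G)), ∃! T : Sylow p G, (S : Subgroup _).map (Subgroup.normalizer (((P : Subgroup G) ⊓ (Q : Subgroup G) : Subgroup G) : Set G)).subtype ≤ (T : Subgroup G) := by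
  set D := (P : Subgroup G) ⊓ (Q : Subgroup G) with hD
  set N := Subgroup.normalizer (D : Set G)
  have h0 : ∀ (S : Sylow p N), ∃ T : Sylow p G, (S : Subgroup N).map N.subtype ≤ T := fun S =>
    (S.isPGroup'.map _).exists_le_sylow
  have h1 : ∀ R : Sylow p G, D < R → Nat.card D < Nat.card ((R : Subgroup G).subgroupOf N) := by
    intro R hR
    haveI := R.isPGroup'.isNilpotent
    have h1 := Group.normalizerCondition_of_isNilpotent (D.subgroupOf R)
      (lt_top_iff_ne_top.2 fun e => hR.not_ge (Subgroup.subgroupOf_eq_top.1 e))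
    rw [← Subgroup.subgroupOf_normalizer_eq hR.le] at h1
    rw [← Nat.card_congr (Subgroup.subgroupOfEquivOfLe hR.le).toEquiv,
      ← Subgroup.inf_subgroupOf_right (R : Subgroup G) N,
      Nat.card_congr (Subgroup.subgroupOfEquivOfLe (H := R ⊓ N) inf_le_right).toEquiv,
      ← Nat.card_congr (Subgroup.subgroupOfEquivOfLe (H := R ⊓ N) inf_le_left).toEquiv,
      Subgroup.inf_subgroupOf_left]
    exact lt_of_le_of_ne (Subgroup.card_le_of_le h1.le) fun e =>
      h1.ne (Subgroup.eq_of_le_of_card_ge h1.le e.ge)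
  have hP : D < P := inf_lt_left.2 fun h => hPQ (Sylow.ext (P.is_maximal' Q.isPGroup' h).symm)
  have hQ : D < Q := inf_lt_right.2 fun h => hPQ (Sylow.ext (Q.is_maximal' P.isPGroup' h))
  have h2 : ∀ (A : Subgroup N) (R R' : Sylow p G), Nat.card D < Nat.card A →
      A.map N.subtype ≤ R → A.map N.subtype ≤ R' → R = R' := fun A R R' h2 h3 h4 => by
    by_contra h5
    have h6 := (Subgroup.card_le_of_le (le_inf h3 h4)).trans (hmax R R' h5)
    rw [Subgroup.card_map_of_injective N.subtype_injective] at h6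
    omega
  obtain ⟨S, hS⟩ := (P.isPGroup'.comap_subtype (K := N)).exists_le_sylow
  obtain ⟨T, hT⟩ := (Q.isPGroup'.comap_subtype (K := N)).exists_le_sylow
  refine ⟨Finite.one_lt_card_iff_nontrivial.2 ⟨S, T, fun e => hPQ ?_⟩, fun A B hAB => ?_,
    fun A => ?_⟩
  · subst e
    obtain ⟨R, hR⟩ := h0 S
    exact (h2 _ P R (h1 P hP) (Subgroup.map_comap_le _ _) ((Subgroup.map_mono hS).trans hR)).trans
      (h2 _ Q R (h1 Q hQ) (Subgroup.map_comap_le _ _) ((Subgroup.map_mono hT).trans hR)).symm
  · have h3 : IsPGroup p (D.subgroupOf N) := (P.isPGroup'.to_le hP.le).comap_subtype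
    obtain ⟨R, hR⟩ := h0 A
    obtain ⟨R', hR'⟩ := h0 B
    have h4 : R ≠ R' := by
      rintro rfl
      exact hAB (Sylow.ext ((A.is_maximal' R.isPGroup'.comap_subtype
        (Subgroup.map_le_iff_le_comap.1 hR)).symm.trans (B.is_maximal' R.isPGroup'.comap_subtype
        (Subgroup.map_le_iff_le_comap.1 hR'))))
    refine (Subgroup.eq_of_le_of_card_ge (le_inf (h3.le_sylow_of_normal A)
      (h3.le_sylow_of_normal B)) ?_).symm
    rw [Nat.card_congr (Subgroup.subgroupOfEquivOfLe D.le_normalizer).toEquiv,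
      ← Subgroup.card_map_of_injective N.subtype_injective]
    exact (Subgroup.card_le_of_le (le_inf ((Subgroup.map_mono inf_le_left).trans hR)
      ((Subgroup.map_mono inf_le_right).trans hR'))).trans (hmax R R' h4)
  · obtain ⟨R, hR⟩ := h0 A
    refine ⟨R, hR, fun R' hR' => h2 A R' R ?_ hR' hR⟩
    rw [A.card_eq_multiplicity, ← S.card_eq_multiplicity]
    exact (h1 P hP).trans_le (Subgroup.card_le_of_le hS)

end Cfsg.Agent.S0986
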