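import Cfsg.Statements.S0987
import Cfsg.Agent.Lib.Grp.H28Aut
-- import your own Cfsg.Agent.* helpers here

set_option autoImplicit false
open Cfsg

namespace Cfsg.Agent.S0987

/-- If a finite group has order pqr for primes p < q < r, then its Sylow r-subgroups are normal. -/
theorem result {G : Type*} [Group G] [Finite G] (p q r : ℕ) (hp : p.Prime) (hq : q.Prime) [Fact r.Prime] (hpq : p < q) (hqr : q < r) (hG : Nat.card G = p * q * r) (R : Sylow r G) : (R : Subgroup G).Normal := by
  have hr : r.Prime := Fact.out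
  haveI := Fact.mk hp
  have h1 : (Nat.card G).minFac = p := by
    have h1 : Nat.card G ≠ 1 := fun h => hr.ne_one (Nat.eq_one_of_mul_eq_one_left (hG ▸ h))
    have h2 := Nat.minFac_prime h1
    have h3 := Nat.minFac_le_of_dvd hp.two_le (hG ▸ (dvd_mul_right p q).mul_right r)
    have h4 := Nat.minFac_dvd (Nat.card G)
    generalize (Nat.card G).minFac = s at *
    rw [hG, h2.dvd_mul, h2.dvd_mul, Nat.prime_dvd_prime_iff_eq h2 hp,
      Nat.prime_dvd_prime_iff_eq h2 hq, Nat.prime_dvd_prime_iff_eq h2 hr] at h4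
    omega
  obtain ⟨P⟩ : Nonempty (Sylow p G) := inferInstance
  have h2 : ¬ p ∣ q * r := by
    rw [hp.dvd_mul, Nat.prime_dvd_prime_iff_eq hp hq, Nat.prime_dvd_prime_iff_eq hp hr]
    omega
  have h3 := CA.H28Simp.card_sylow_of (a := 1) (by rw [hG, pow_one, mul_assoc]) h2 P
  rw [pow_one] at h3
  have h4 := (isCyclic_of_prime_card h3).isComplement' h1
  set K := (MonoidHom.transferSylow P _).ker
  have h5 : K.index = p := by rw [h4.symm.index_eq_card, h3]
  have h6 : Nat.card K = r ^ 1 * q := Nat.eq_of_mul_eq_mul_right hp.pos (by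
    rw [← h5, K.card_mul_index, h5, hG]; ring)
  have key : ∀ S : Sylow r G, (S : Subgroup G) ≤ K := fun S =>
    CA.H28Aut.le_of_not_dvd_index S.isPGroup' (h5 ▸ Nat.not_dvd_of_pos_of_lt hp.pos (by omega))
  have h7 := CA.H28Simp.card_sylow_dvd h6 (Nat.not_dvd_of_pos_of_lt hq.pos hqr)
  have h8 := card_sylow_modEq_one r K
  refine CA.H28Aut.normal_of_forall_eq fun S => CA.H28Aut.sylow_eq_of_card ?_ (key S) (key R)
  exact Nat.ModEq.eq_of_lt_of_lt h8 ((Nat.le_of_dvd hq.pos h7).trans_lt hqr) hr.one_lt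

end Cfsg.Agent.S0987
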