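import Cfsg.Statements.S0988
import Cfsg.Agent.S0998
import Cfsg.Agent.S0144
import Cfsg.Agent.Lib.Lin.SLnCard
-- import your own Cfsg.Agent.* helpers here

set_option autoImplicit false
open Cfsg

namespace Cfsg.Agent.S0988

/-- If a finite simple group has order p^2 * q * r with p, q and r prime, then its order is 60. -/
theorem result {G : Type*} [Group G] [Finite G] [IsSimpleGroup G] (p q r : ℕ) (hp : p.Prime) (hq : q.Prime) (hr : r.Prime) (hG : Nat.card G = p ^ 2 * q * r) : Nat.card G = 60 := by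
  have h1 : ¬ IsMulCommutative G := CA.H28Simp.not_comm_of_card (by
    rw [hG, pow_two, mul_assoc, mul_assoc]
    exact Nat.not_prime_mul hp.ne_one fun h => hp.ne_one (Nat.eq_one_of_mul_eq_one_right h))
  have h2 : ∀ s t a b : ℕ, s.Prime → t.Prime → Nat.card G ≠ s ^ a * t ^ b := fun s t a b hs ht h =>
    h1 (IsSimpleGroup.comm_iff_isSolvable.2 (Cfsg.Agent.S0144.result s t a b hs ht h) |>
      fun h => ⟨⟨h⟩⟩)
  have h3 : p ≠ q := by rintro rfl; exact h2 p r 3 1 hp hr (by rw [hG]; ring)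
  have h4 : p ≠ r := by rintro rfl; exact h2 p q 3 1 hp hq (by rw [hG]; ring)
  have h5 : q ≠ r := by rintro rfl; exact h2 p q 2 2 hp hq (by rw [hG]; ring)
  obtain ⟨F, _, _, h6, ⟨e⟩⟩ | ⟨F, _, _, h6, ⟨e⟩⟩ := Cfsg.Agent.S0998.result (G := G)
    (fun h => h1 h.isMulCommutative) q p r 2 hq hp hr h3.symm h5 h4 (by rw [hG]; ring)
  all_goals
    rw [← Nat.card_eq_fintype_card] at h6
    have h7 := CA.SLnCard.card_PSL2_odd (F := F) (by rw [h6]; decide)
    rw [← Nat.card_congr e.toEquiv, h6] at h7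
  · omega
  · have h8 : p ^ 2 * q * r = 168 := by omega
    have h9 : p ^ 2 ∣ 168 := h8 ▸ (dvd_mul_right _ _).mul_right _
    have h10 : p ≤ 13 := by nlinarith [Nat.le_of_dvd (by norm_num) h9]
    have := hp.two_le
    obtain rfl : p = 2 := by interval_cases p <;> omega
    have h11 : 2 ∣ q * r := by rw [mul_assoc] at h8; omega
    rw [Nat.prime_two.dvd_mul, Nat.prime_dvd_prime_iff_eq Nat.prime_two hq,
      Nat.prime_dvd_prime_iff_eq Nat.prime_two hr] at h11
    omega

end Cfsg.Agent.S0988
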