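import Cfsg.Statements.S0995
import Cfsg.Agent.Lib.Grp.H28SC
-- import your own Cfsg.Agent.* helpers here

set_option autoImplicit false
open Cfsg

namespace Cfsg.Agent.S0995

/-- Let G be a finite perfect group containing an element z of prime order p whose centralizer is the cyclic group it generates. Let t be the number of conjugacy classes of elements of order p. Then t divides p - 1, the number of Sylow p-subgroups has the form 1 + n * p, and |G| * t = (p - 1) * p * (1 + n * p). -/
theorem result {G : Type*} [Group G] [Finite G] (hperf : commutator G = ⊤) (p : ℕ) [Fact p.Prime] (z : G) (hz : orderOf z = p) (hC : Subgroup.centralizer ({z} : Set G) = Subgroup.zpowers z) : ∃ n t : ℕ, t = Nat.card {c : ConjClasses G // ∃ g : G, ConjClasses.mk g = c ∧ orderOf g = p} ∧ t ∣ p - 1 ∧ Nat.card (Sylow p G) = 1 + n * p ∧ Nat.card G * t = (p - 1) * p * (1 + n * p) := by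
  have hp : p.Prime := Fact.out
  have h : CA.H28SC.SC p z := ⟨hz, hC⟩
  have h1 := card_sylow_modEq_one p G
  refine ⟨Nat.card (Sylow p G) / p, _, rfl, ?_, ?_, ?_⟩
  · rw [CA.H28SC.card_classes h.isSylGen]
    exact Nat.div_dvd_of_dvd (CA.H28Syl.ee_dvd hz)
  · have := Nat.mod_add_div' (Nat.card (Sylow p G)) p
    rw [h1, Nat.mod_eq_of_lt hp.one_lt] at this
    exact this.symm
  · have := Nat.mod_add_div' (Nat.card (Sylow p G)) p
    rw [h1, Nat.mod_eq_of_lt hp.one_lt] at this
    rw [this, CA.H28SC.card_classes h.isSylGen, h.card_eq]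
    conv_rhs => rw [← CA.H28SC.mul_ee hz]
    ring

end Cfsg.Agent.S0995
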