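import Cfsg.Statements.S0996
import Cfsg.Agent.Lib.Block.H28Br5
-- import your own Cfsg.Agent.* helpers here

set_option autoImplicit false
open Cfsg

namespace Cfsg.Agent.S0996

/-- Let G be a finite perfect group containing an element z of prime order p whose centralizer is the cyclic group it generates, and suppose the number 1 + n * p of Sylow p-subgroups satisfies n < (p + 3) / 2. Then p > 3 and G is isomorphic to the projective special linear group of dimension 2 over the field with p elements, or p - 1 is a power of 2 and G is isomorphic to that group over the field with p - 1 elements. -/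
theorem result {G : Type*} [Group G] [Finite G] (hperf : commutator G = ⊤) (p : ℕ) [Fact p.Prime] (z : G) (hz : orderOf z = p) (hC : Subgroup.centralizer ({z} : Set G) = Subgroup.zpowers z) (hn : 2 * Nat.card (Sylow p G) < (p + 1) * (p + 2)) : (∃ (F : Type) (_ : Field F) (_ : Fintype F), Fintype.card F = p ∧ 3 < p ∧ Nonempty (G ≃* Matrix.ProjectiveSpecialLinearGroup (Fin 2) F)) ∨ (∃ (m : ℕ) (F : Type) (_ : Field F) (_ : Fintype F), Fintype.card F = 2 ^ m ∧ p = 2 ^ m + 1 ∧ 3 < p ∧ Nonempty (G ≃* Matrix.ProjectiveSpecialLinearGroup (Fin 2) F)) := by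
  have hp : p.Prime := Fact.out
  have h : CA.H28SC.SC p z := ⟨hz, hC⟩
  obtain ⟨n, hn'⟩ := CA.H28Br5.exists_n p G
  have hK : ¬ p ∣ Nat.card (pPrimeCore p G) :=
    hp.coprime_iff_not_dvd.1 CA.Core.coprime_pPrimeCore.symm
  have hO : pPrimeCore p G = ⊥ := by
    by_contra hO
    have h1 := h.card_mul_index _ hK
    have h2 := h.card_mod _ hK
    have h3 : Nat.card (pPrimeCore p G) ≠ 1 := fun h3 => hO (Subgroup.card_eq_one.1 h3)
    have h4 : (CA.H28Syl.NN z ⊔ pPrimeCore p G).index ≠ 1 := fun h4 => by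
      have := CA.H28SC.normal_sup_zpowers _ z (Subgroup.index_eq_one.1 h4)
      have h5 := h.commutator_le (pPrimeCore p G ⊔ Subgroup.zpowers z)
        (Subgroup.mem_sup_right (Subgroup.mem_zpowers z))
      have h6 := (Subgroup.commutator_mono h5 h5).trans (CA.H28SC.commutator_sup_zpowers_le _ z)
      rw [hperf, ← commutator_def, hperf] at h6
      exact hK (CA.H28SC.dvd_card_of_mem hz (h6 (Subgroup.mem_top z)))
    have h5 : (CA.H28Syl.NN z ⊔ pPrimeCore p G).index % p = 1 := by
      have := congrArg (· % p) h1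
      simp only [hn', Nat.mul_mod, h2, one_mul, Nat.mod_mod, Nat.add_mul_mod_self_right] at this
      rw [this, Nat.mod_eq_of_lt hp.one_lt]
    have key : ∀ a : ℕ, a % p = 1 → a ≠ 1 → p + 1 ≤ a := fun a h1 h2 => by
      have h3 := Nat.mod_add_div a p
      rw [h1] at h3
      rcases h4 : a / p with _ | k
      · rw [h4] at h3; omega
      · rw [h4, mul_add] at h3; omega
    have h6 := Nat.mul_le_mul (key _ h2 h3) (key _ h5 h4)
    rw [h1] at h6
    nlinarith
  have hs : ¬ CA.H28Br2.Star p n := CA.H28Br5.not_star_of_lt hp.pos (by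
    rw [hn'] at hn
    have : 2 * n * p < (p + 3) * p := by nlinarith
    exact Nat.lt_of_mul_lt_mul_right this)
  obtain ⟨h1, -, h6, ⟨-, -, h7⟩ | ⟨m, F, _, _, h7, h8, -, ⟨e⟩⟩⟩ :=
    CA.H28Br5.brauer h.isSylGen hperf hO hn' hs
  · exact Or.inl ⟨ZMod p, inferInstance, inferInstance, ZMod.card p, h6, h7⟩
  · refine Or.inr ⟨m, F, inferInstance, inferInstance, h7, h8, h6,
      CA.H28Br5.psl_of_sl (fun hc => ?_) e⟩
    apply CA.H28SC.ee_ne_one_of_perfect h.isSylGen hperf
    rw [Subgroup.relIndex_eq_one]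
    intro g _
    exact CA.H28Syl.mem_CC.2 (hc.is_comm.comm _ _)

end Cfsg.Agent.S0996
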