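import Cfsg.Statements.S0997
import Cfsg.Agent.Lib.Block.H28BT
import Cfsg.Agent.Lib.Block.H28Br5
-- import your own Cfsg.Agent.* helpers here

set_option autoImplicit false
open Cfsg

namespace Cfsg.Agent.S0997

theorem arith {p q b g : ℕ} (hp : p.Prime) (hq : q.Prime) (h3 : 3 < p)
    (h : 2 * (p * q ^ b * g) = p * (p ^ 2 - 1)) (hg : g < p - 1) :
    ∃ m, p = 2 ^ m + 1 ∨ p = 2 ^ m - 1 := by
  obtain ⟨f, rfl⟩ := hp.odd_of_ne_two (by omega)
  have h1 : q ^ b * g = 2 * f * (f + 1) := by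
    have : (2 * f + 1) ^ 2 - 1 = 2 * (2 * f * (f + 1)) := by
      rw [Nat.sub_eq_iff_eq_add (Nat.one_le_pow _ _ (by omega))]; ring
    rw [this] at h
    exact Nat.eq_of_mul_eq_mul_left (show 0 < 2 * (2 * f + 1) by omega) (by linarith)
  have h2 : f + 1 < q ^ b := by
    by_contra h2
    have h4 : q ^ b * g ≤ (f + 1) * g := Nat.mul_le_mul_right _ (by omega)
    have h5 : (f + 1) * g < (f + 1) * (2 * f) := Nat.mul_lt_mul_of_pos_left (by omega) (by omega)
    nlinarith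
  have h4 : q ^ b ∣ 2 * f * (f + 1) := ⟨g, h1.symm⟩
  have key : ∀ n, 0 < n → n ≤ f + 1 → q ^ b ∣ 2 * n → q ^ b = 2 * n := fun n h0 h5 ⟨k, hk⟩ => by
    have : k ≠ 0 := by rintro rfl; omega
    by_contra h6
    have : k ≠ 1 := by rintro rfl; omega
    have : q ^ b * 2 ≤ q ^ b * k := Nat.mul_le_mul_left _ (by omega)
    omega
  have h5 : ∀ n, q ^ b = 2 * n → q = 2 := fun n h5 => ((Nat.prime_dvd_prime_iff_eq Nat.prime_two hq).1
    (Nat.prime_two.dvd_of_dvd_pow (h5 ▸ dvd_mul_right 2 n))).symm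
  by_cases h6 : q ∣ f
  · have h7 : (q ^ b).Coprime (f + 1) := Nat.Coprime.pow_left _ (hq.coprime_iff_not_dvd.2 fun h8 =>
      hq.one_lt.ne' (Nat.dvd_one.1 ((Nat.dvd_add_right h6).1 h8)))
    have h8 := key f (by omega) (by omega) (h7.dvd_of_dvd_mul_right h4)
    exact ⟨b, Or.inl (by rw [← h5 f h8, h8, h5 f h8])⟩
  · have h7 : (q ^ b).Coprime f := Nat.Coprime.pow_left _ (hq.coprime_iff_not_dvd.2 h6)
    have h8 := key (f + 1) (by omega) le_rfl (h7.dvd_of_dvd_mul_left (by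
      rwa [mul_comm 2 f, mul_assoc] at h4))
    exact ⟨b, Or.inr (by rw [← h5 _ h8, h8, h5 _ h8]; omega)⟩

/-- Let G be a non-cyclic finite simple group of order p * q^b * g₀, where p and q are distinct primes and g₀ < p - 1. Then either p has the form 2^m + 1 or 2^m - 1 and G is isomorphic to the projective special linear group of dimension 2 over the field with p elements, or p = 2^m + 1 > 3 and G is isomorphic to that group over the field with 2^m elements. -/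
theorem result {G : Type*} [Group G] [Finite G] [IsSimpleGroup G] (hG : ¬ IsCyclic G) (p q b g₀ : ℕ) (hp : p.Prime) (hq : q.Prime) (hpq : p ≠ q) (hG' : Nat.card G = p * q ^ b * g₀) (hg : g₀ < p - 1) : (∃ (m : ℕ) (F : Type) (_ : Field F) (_ : Fintype F), Fintype.card F = p ∧ (p = 2 ^ m + 1 ∨ p = 2 ^ m - 1) ∧ Nonempty (G ≃* Matrix.ProjectiveSpecialLinearGroup (Fin 2) F)) ∨ (∃ (m : ℕ) (F : Type) (_ : Field F) (_ : Fintype F), Fintype.card F = 2 ^ m ∧ p = 2 ^ m + 1 ∧ 3 < p ∧ Nonempty (G ≃* Matrix.ProjectiveSpecialLinearGroup (Fin 2) F)) := by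
  haveI := Fact.mk hp
  haveI := Fact.mk hq
  have h1 := CA.H28Simp.not_comm_of_not_cyclic hG
  obtain ⟨h3, ⟨h4, h5⟩ | ⟨m, F, i1, i2, h4, h5, -, h6⟩⟩ := CA.H28Br5.simple_of_lt (p := p) h1
    (hG' ▸ (dvd_mul_right _ _).mul_right _) (CA.H28BT.card_lt h1 hpq hG' hg)
  · obtain ⟨m, hm⟩ := arith hp hq h3 (hG' ▸ h4) hg
    exact Or.inl ⟨m, ZMod p, inferInstance, inferInstance, ZMod.card p, hm, h5⟩
  · exact Or.inr ⟨m, F, i1, i2, h4, h5, h3, h6⟩

end Cfsg.Agent.S0997
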