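import Cfsg.Statements.S1002
import Cfsg.Agent.S0205
import Cfsg.Agent.Lib.Grp.H28Simp
-- import your own Cfsg.Agent.* helpers here

set_option autoImplicit false
open Cfsg

namespace Cfsg.Agent.S1002

/-- No finite simple group has order 1004913 = 3^3 * 7 * 13 * 409. -/
theorem result {G : Type*} [Group G] [Finite G] [IsSimpleGroup G] : Nat.card G ≠ 1004913 := by
  intro h
  have := Cfsg.Agent.S0205.result (G := G) (by rw [h]; decide)
  exact CA.H28Simp.not_comm_of_card (G := G) (by rw [h]; norm_num)
    ⟨⟨IsSimpleGroup.comm_iff_isSolvable.2 this⟩⟩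

end Cfsg.Agent.S1002
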