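import Cfsg.Statements.S1006
import Cfsg.Agent.Lib.Grp.H28G168
-- import your own Cfsg.Agent.* helpers here

set_option autoImplicit false
open Cfsg

namespace Cfsg.Agent.S1006

/-- In a simple group of order 168 there are 56 elements of order 3, all conjugate; 42 elements of order 4, all conjugate; and 48 elements of order 7 falling into two conjugacy classes of size 24, an element of order 7 not being conjugate to its inverse. -/
theorem result {G : Type*} [Group G] [Finite G] [IsSimpleGroup G] (h : Nat.card G = 168) : Nat.card {g : G // orderOf g = 3} = 56 ∧ (∀ s t : G, orderOf s = 3 → orderOf t = 3 → IsConj s t) ∧ Nat.card {g : G // orderOf g = 4} = 42 ∧ (∀ s t : G, orderOf s = 4 → orderOf t = 4 → IsConj s t) ∧ Nat.card {g : G // orderOf g = 7} = 48 ∧ ∀ x : G, orderOf x = 7 → Nat.card {g : G // IsConj x g} = 24 ∧ ¬ IsConj x x⁻¹ := by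
  obtain ⟨z, y, a, x, T, h1, h2, h3, h4, h5⟩ := CA.H28G168.exists_reps h
  have h6 : orderOf x⁻¹ = 7 := by rw [orderOf_inv, h5]
  refine ⟨?_, fun s t hs ht => CA.H28G168.conj_of_ord h (by omega) (by omega), ?_,
    fun s t hs ht => CA.H28G168.conj_of_ord h (by omega) (by omega), ?_,
    fun x hx => ⟨CA.H28G168.class7 h hx, CA.H28G168.not_isConj_inv h hx⟩⟩
  · rw [← h3, CA.H28G168.card_ord h (by omega), CA.H28G168.class3 h h3]
  · rw [← h4, CA.H28G168.card_ord h (by omega), CA.H28G168.class4 h h4]
  · have h7 : {g : G | orderOf g = 7} = {g | IsConj x g} ∪ {g | IsConj x⁻¹ g} := by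
      refine Set.ext fun g => ⟨fun (e : orderOf g = 7) => ?_, ?_⟩
      · rcases CA.H28G168.classes h h1 h2 h3 h4 h5 g with rfl | e' | e' | e' | e'
        · simp at e
        iterate 3 have := CA.H28G168.ord_conj e'; omega
        exact e'
      · rintro (e | e)
        exacts [(CA.H28G168.ord_conj e).trans h5, (CA.H28G168.ord_conj e).trans h6]
    have h8 := congrArg Set.ncard h7
    rw [Set.ncard_union_eq (Set.disjoint_left.2 fun g h8 h9 =>
      CA.H28G168.not_isConj_inv h h5 (h8.trans h9.symm))] at h8
    simpa only [← Nat.card_coe_set_eq, Set.coe_ofPred, CA.H28G168.class7 h h5,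
      CA.H28G168.class7 h h6] using h8

end Cfsg.Agent.S1006
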