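import Cfsg.Statements.S1008
import Cfsg.Agent.Lib.Grp.H28G168
-- import your own Cfsg.Agent.* helpers here

set_option autoImplicit false
open Cfsg

namespace Cfsg.Agent.S1008

open Subgroup CA.H28G168 CA.H28Syl CA.SylIn CA.Two

/-- In a simple group of order 168 every maximal subgroup is either isomorphic to the symmetric group of degree 4 or non-abelian of order 21; the maximal subgroups of order 21 form one conjugacy class and those isomorphic to the symmetric group of degree 4 form exactly two conjugacy classes. -/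
theorem result {G : Type*} [Group G] [Finite G] [IsSimpleGroup G] (h : Nat.card G = 168) : (∀ M : Subgroup G, IsCoatom M → Nonempty (↥M ≃* Equiv.Perm (Fin 4)) ∨ (Nat.card ↥M = 21 ∧ ¬ IsMulCommutative ↥M)) ∧ (∀ M M' : Subgroup G, IsCoatom M → IsCoatom M' → Nat.card ↥M = 21 → Nat.card ↥M' = 21 → ∃ g : G, M' = M.map (MulAut.conj g).toMonoidHom) ∧ ∃ M₁ M₂ : Subgroup G, IsCoatom M₁ ∧ IsCoatom M₂ ∧ Nonempty (↥M₁ ≃* Equiv.Perm (Fin 4)) ∧ Nonempty (↥M₂ ≃* Equiv.Perm (Fin 4)) ∧ (∀ g : G, M₂ ≠ M₁.map (MulAut.conj g).toMonoidHom) ∧ ∀ M : Subgroup G, IsCoatom M → Nonempty (↥M ≃* Equiv.Perm (Fin 4)) → ∃ g : G, M = M₁.map (MulAut.conj g).toMonoidHom ∨ M = M₂.map (MulAut.conj g).toMonoidHom := by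
  refine ⟨fun M hM => ?_, fun M M' hM hM' h1 h2 => ?_, ?_⟩
  · rcases coatom h hM with ⟨x, hx, rfl⟩ | ⟨U, hU, rfl⟩
    · refine Or.inr ⟨card_N7 h hx, fun hc => ?_⟩
      have h1 := card_le_of_le (show NN x ≤ CC x from fun g hg => mem_CC.2 (congrArg Subtype.val
        (hc.is_comm.comm ⟨g, hg⟩ ⟨x, le_normalizer (mem_zpowers x)⟩)))
      rw [card_N7 h hx, (sc7 h hx).1.cent, Nat.card_zpowers, hx] at h1
      omega
    · exact Or.inl (N_klein h hU)
  · rcases coatom h hM with ⟨x, hx, rfl⟩ | ⟨U, hU, rfl⟩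
    · rcases coatom h hM' with ⟨y, hy, rfl⟩ | ⟨U, hU, rfl⟩
      · obtain ⟨g, hg⟩ := MulAction.exists_smul_eq G (sc7 h hx).1.isSylGen.sylow
          (sc7 h hy).1.isSylGen.sylow
        exact ⟨g, by
          rw [conj_normalizer, show g •ᶜ zpowers x = zpowers y from congrArg Sylow.toSubgroup hg]⟩
      · rw [card_N_klein h hU] at h2; omega
    · rw [card_N_klein h hU] at h1; omega
  · obtain ⟨T⟩ : Nonempty (Sylow 2 G) := inferInstance
    obtain ⟨U, W, h1, h2, h3, h4, h5, h6⟩ := exists_klein h T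
    refine ⟨_, _, coatom_N_klein h h3, coatom_N_klein h h4, N_klein h h3, N_klein h h4,
      fun g e => not_conj_klein h T h1 h2 h3 h4 h5 g (eq_of_N_klein h (klein_conj h3 g) h4 ?_),
      fun M hM ⟨e⟩ => ?_⟩
    · rw [e, conj_normalizer]
    · rcases coatom h hM with ⟨x, hx, rfl⟩ | ⟨V, hV, rfl⟩
      · have := Nat.card_congr e.toEquiv
        rw [card_N7 h hx, Nat.card_perm] at this
        simp [Nat.factorial] at this
      · obtain ⟨g, hg⟩ := exists_conj_le_sylow T (klein_isPGroup hV)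
        refine ⟨g⁻¹, ?_⟩
        rw [conj_normalizer, conj_normalizer]
        exact (h6 _ hg (klein_conj hV g)).imp (fun e => by rw [← e, inv_conj_conj])
          fun e => by rw [← e, inv_conj_conj]

end Cfsg.Agent.S1008
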