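import Cfsg.Statements.S1009
import Cfsg.Agent.Lib.Grp.H28Aut
-- import your own Cfsg.Agent.* helpers here

set_option autoImplicit false
open Cfsg

namespace Cfsg.Agent.S1009

/-- Brodkey's Theorem: if a finite group has abelian Sylow p-subgroups, then there are two Sylow p-subgroups whose intersection equals the intersection of all Sylow p-subgroups. -/
theorem result {G : Type*} [Group G] [Finite G] (p : ℕ) [Fact p.Prime] (hab : ∀ P : Sylow p G, IsMulCommutative ↥(P : Subgroup G)) : ∃ P Q : Sylow p G, (P : Subgroup G) ⊓ (Q : Subgroup G) = ⨅ R : Sylow p G, (R : Subgroup G) := by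
  have key : ∀ {H : Type _} [Group H] (x : H) (S : Sylow p H) (g : H),
      g ∈ (x • S : Sylow p H) ↔ x⁻¹ * g * x ∈ S := fun x S g =>
    (Subgroup.mem_pointwise_smul_iff_inv_smul_mem (a := MulAut.conj x)
      (S := (S : Subgroup _)) (x := g)).trans (by simp; rfl)
  obtain ⟨⟨S, T⟩, h⟩ := Finite.exists_min fun q : Sylow p G × Sylow p G =>
    Nat.card ↥((q.1 : Subgroup G) ⊓ q.2)
  refine ⟨S, T, le_antisymm (le_iInf fun P => ?_) (le_inf (iInf_le _ S) (iInf_le _ T))⟩
  set N := Subgroup.centralizer (((S : Subgroup G) ⊓ T : Subgroup G) : Set G)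
  have h1 : ∀ R : Sylow p G, (S : Subgroup G) ⊓ T ≤ R → (R : Subgroup G) ≤ N := fun R hR a ha b hb =>
    congrArg Subtype.val ((hab R).is_comm.comm ⟨b, hR hb⟩ ⟨a, ha⟩)
  obtain ⟨U, hU⟩ := (P.isPGroup'.comap_subtype (K := N)).exists_le_sylow
  obtain ⟨x, rfl⟩ := MulAction.exists_smul_eq N (S.subtype (h1 S inf_le_left)) U
  have h2 : (((x : G)⁻¹ • P : Sylow p G) : Subgroup G) ⊓ T ≤ (S : Subgroup G) ⊓ T := fun g hg => by
    have h2 := (key _ _ _).1 (hU (x := x * ⟨g, h1 T inf_le_right hg.2⟩ * x⁻¹)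
      (by have := (key _ _ _).1 hg.1; rwa [inv_inv] at this))
    rw [← mul_assoc, ← mul_assoc, inv_mul_cancel, one_mul, inv_mul_cancel_right] at h2
    exact ⟨h2, hg.2⟩
  intro g hg
  have h3 := (key _ _ _).1 ((Subgroup.eq_of_le_of_card_ge h2 (h (_, T))).ge hg).1
  rwa [inv_inv, ← x.2 g hg, mul_inv_cancel_right] at h3

end Cfsg.Agent.S1009
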