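import Cfsg.Statements.S1013
import Cfsg.Agent.Lib.Grp.H28Aut
import Cfsg.Agent.Lib.Perm.PrimeDeg
-- import your own Cfsg.Agent.* helpers here

set_option autoImplicit false
open Cfsg

namespace Cfsg.Agent.S1013

/-- Let G be a transitive permutation group of prime degree p having more than one Sylow p-subgroup, and suppose a Sylow p-subgroup P has prime index in its normalizer. Then G is simple. -/
theorem result {α : Type*} [Fintype α] [DecidableEq α] {p : ℕ} [Fact p.Prime] (hα : Fintype.card α = p) (G : Subgroup (Equiv.Perm α)) [MulAction.IsPretransitive ↥G α] (P : Sylow p ↥G) (hn : 1 < Nat.card (Sylow p ↥G)) (ht : (((P : Subgroup ↥G).subgroupOf (Subgroup.normalizer ((P : Subgroup ↥G) : Set ↥G))).index).Prime) : IsSimpleGroup ↥G := by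
  have h1 : Nat.card α = p := Nat.card_eq_fintype_card.trans hα
  haveI : Nontrivial G := by
    by_contra h
    rw [not_nontrivial_iff_subsingleton] at h
    rw [CA.H28Aut.card_sylow_eq_one (P := P) ⟨fun a ha b => Subsingleton.elim a (b * a * b⁻¹) ▸ ha⟩] at hn
    omega
  refine ⟨fun M hM => or_iff_not_imp_left.2 fun h2 => ?_⟩
  have h3 := CA.PrimeDeg.sylow_le_of_normal h1 P M h2
  have h4 := Subgroup.relIndex_mul_relIndex (P : Subgroup G) _ _
    (le_inf (P : Subgroup G).le_normalizer h3) inf_le_left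
  rcases ht.eq_one_or_self_of_dvd _ (Dvd.intro _ h4) with h5 | h5
  · have h6 := CA.PrimeDeg.eq_sylow_of_normal h1 P M h2 (Subgroup.relIndex_eq_one.1 h5)
    rw [CA.H28Aut.card_sylow_eq_one (h6 ▸ hM)] at hn
    omega
  · rw [h5] at h4
    have h6 := Subgroup.relIndex_eq_one.1 ((Nat.mul_eq_left ht.ne_zero).1 h4)
    rw [← P.normalizer_sup_eq_top' h3]
    exact (sup_eq_right.2 (h6.trans inf_le_right)).symm

end Cfsg.Agent.S1013
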