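import Cfsg.Statements.S1014
import Cfsg.Agent.Lib.Block.H28Sv
-- import your own Cfsg.Agent.* helpers here

set_option autoImplicit false
open Cfsg

namespace Cfsg.Agent.S1014

/-- No finite simple group has order 1104 = 2^4 * 3 * 23. -/
theorem result {G : Type*} [Group G] [Finite G] [IsSimpleGroup G] : Nat.card G ≠ 1104 := by
  intro h
  exact CA.H28Sv.check_false (p := 23) (q := 0) (B := 80)
    (CA.H28Simp.not_comm_of_card (by rw [h]; norm_num)) h (by decide +kernel)

end Cfsg.Agent.S1014
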