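import Cfsg.Statements.S1018
import Cfsg.Agent.Lib.Grp.H28Aut
-- import your own Cfsg.Agent.* helpers here

set_option autoImplicit false
open Cfsg

namespace Cfsg.Agent.S1018

/-- Let P be a Sylow p-subgroup of order p of a finite group G, and consider the action of G on the left cosets of the normalizer N of P. Then every element of order p fixes exactly one coset, and an element of N that does not centralize P fixes at most as many cosets as there are orbits of P. -/
theorem result {G : Type*} [Group G] [Finite G] (p : ℕ) [Fact p.Prime] (P : Sylow p G) (hP : Nat.card ↥(P : Subgroup G) = p) : (∀ y : G, orderOf y = p → Nat.card (MulAction.fixedBy (G ⧸ Subgroup.normalizer ((P : Subgroup G) : Set G)) y) = 1) ∧ ∀ x : G, x ∈ Subgroup.normalizer ((P : Subgroup G) : Set G) → x ∉ Subgroup.centralizer ((P : Subgroup G) : Set G) → Nat.card (MulAction.fixedBy (G ⧸ Subgroup.normalizer ((P : Subgroup G) : Set G)) x) ≤ Nat.card (MulAction.orbitRel.Quotient ↥(P : Subgroup G) (G ⧸ Subgroup.normalizer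 ((P : Subgroup G) : Set G))) := by
  have h0 : ∀ u ∈ (P : Subgroup G), u ≠ 1 → Subgroup.zpowers u = P := fun u hu h1 =>
    le_antisymm (Subgroup.zpowers_le_of_mem hu) fun v hv => by
      obtain ⟨k, hk⟩ := mem_zpowers_of_prime_card hP (g := ⟨u, hu⟩) (g' := ⟨v, hv⟩)
        fun e => h1 (congrArg Subtype.val e)
      exact ⟨k, congrArg Subtype.val hk⟩
  refine ⟨fun y hy => ?_, fun x hx hx' => ?_⟩
  · have h1 : IsPGroup p (Subgroup.zpowers y) := IsPGroup.of_card (n := 1) (by simp [hy])
    have h2 : y ≠ 1 := by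
      rintro rfl
      exact (Fact.out : p.Prime).one_lt.ne (orderOf_one.symm.trans hy)
    have key : ∀ g : G, (g : G ⧸ Subgroup.normalizer ((P : Subgroup G) : Set G)) ∈
        MulAction.fixedBy _ y ↔ y ∈ g • P := fun g => by
      rw [MulAction.mem_fixedBy, MulAction.Quotient.smul_mk, eq_comm, QuotientGroup.eq]
      refine Sylow.smul_eq_iff_mem_normalizer.symm.trans ?_
      rw [smul_eq_mul, mul_smul, inv_smul_eq_iff, mul_smul, Sylow.smul_eq_iff_mem_normalizer]
      exact ⟨fun h => (Subgroup.mem_inf.1 (h1.inf_normalizer_sylow (g • P) ▸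
        Subgroup.mem_inf.2 ⟨Subgroup.mem_zpowers y, h⟩)).2, fun h => Subgroup.le_normalizer h⟩
    obtain ⟨R, hR⟩ := h1.exists_le_sylow
    obtain ⟨g, rfl⟩ := MulAction.exists_smul_eq G P R
    refine Nat.card_eq_one_iff_exists.2 ⟨⟨g, (key g).2 (hR (Subgroup.mem_zpowers y))⟩,
      fun ⟨q, hq⟩ => Subtype.ext ?_⟩
    obtain ⟨k, rfl⟩ := QuotientGroup.mk_surjective q
    have h3 : ∀ S : Sylow p G, y ∈ S → Subgroup.zpowers y = S := fun S hS =>
      Subgroup.eq_of_le_of_card_ge (Subgroup.zpowers_le_of_mem hS) (by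
        rw [Nat.card_zpowers, hy, S.card_eq_multiplicity, ← P.card_eq_multiplicity, hP])
    refine QuotientGroup.eq.2 (Sylow.smul_eq_iff_mem_normalizer.1 ?_)
    rw [mul_smul, inv_smul_eq_iff]
    exact Sylow.ext ((h3 _ (hR (Subgroup.mem_zpowers y))).symm.trans (h3 _ ((key k).1 hq)))
  · refine Nat.card_le_card_of_injective (fun q => Quotient.mk'' q.1) fun ⟨q, hq⟩ ⟨r, hr⟩ e => ?_
    obtain ⟨⟨u, hu⟩, rfl⟩ := MulAction.orbitRel_apply.1 (Quotient.exact e)
    refine Subtype.ext (by_contra fun h1 => hx' ?_)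
    have h2 : u⁻¹ * (x * u * x⁻¹) ∈ MulAction.stabilizer G r := by
      rw [MulAction.mem_stabilizer_iff, mul_smul, inv_smul_eq_iff, mul_smul, mul_smul,
        inv_smul_eq_iff.2 (Eq.symm hr)]
      exact hq
    have h3 : u⁻¹ * (x * u * x⁻¹) = 1 := by_contra fun h3 => h1 (Subgroup.zpowers_le_of_mem h2
      ((h0 _ (mul_mem (inv_mem hu) ((Subgroup.mem_normalizer_iff.1 hx u).1 hu)) h3).ge hu))
    rw [← h0 u hu (by rintro rfl; exact h1 (one_smul _ _))]
    rintro _ ⟨k, rfl⟩
    exact (Commute.zpow_left (mul_inv_eq_iff_eq_mul.1 (inv_mul_eq_one.1 h3).symm).symm k).eq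

end Cfsg.Agent.S1018
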