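import Cfsg.Statements.S1022
import Cfsg.Agent.Lib.Block.H28Sol

set_option autoImplicit false
open Cfsg

namespace Cfsg.Agent.S1022

open Finset Subgroup CA.H28Syl CA.H28Prin CA.H28Sol CA.H28BT CA.BlkVal CA.H28Br2
open CChar.CharRep CChar.CharFun CChar.CharOrth CChar.CharInt CA.H28Simp CA.BlkCore

instance fact19 : Fact (Nat.Prime 19) := ⟨by norm_num⟩
instance fact7 : Fact (Nat.Prime 7) := ⟨by norm_num⟩

theorem blk19 {G : Type*} [Group G] [Finite G] [IsSimpleGroup G] (h : Nat.card G = 459648) {x : G}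
    (hx : IsSylGen 19 x) (d : P1 19 x) :
    ∃ l, Has d (1008, 6, -108, [96, 96, -56, -56, -189]) l := by
  simpa using has_of_check (not_comm_of_card (by rw [h]; norm_num)) hx d
    (S := [(1008, 6, -108, [96, 96, -56, -56, -189])])
    (al := fun _ => true) (B := 680) h (fun _ _ => rfl) (by decide +kernel)

/-- No finite simple group has order 459648 = 2^7 * 3^3 * 7 * 19. -/
theorem result {G : Type*} [Group G] [Finite G] [IsSimpleGroup G] : Nat.card G ≠ 459648 := by
  classical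
  intro h
  obtain ⟨x, hx⟩ := exists_isSylGen (G := G) (p := 19) (by rw [h]; decide) (by rw [h]; decide)
  obtain ⟨y, hy⟩ := exists_isSylGen (G := G) (p := 7) (by rw [h]; decide) (by rw [h]; decide)
  obtain ⟨d⟩ := exists_P1 hx
  obtain ⟨d'⟩ := exists_P1 hy
  obtain ⟨l, H⟩ := blk19 h hx d
  have h1 := H.deg
  simp only [List.map_eq_cons_iff, List.map_eq_nil_iff] at h1
  obtain ⟨a, _, rfl, ha, b, _, rfl, hb, c, _, rfl, hc, c', _, rfl, hc', f, _, rfl, hf, rfl⟩ := h1
  obtain ⟨a1, a2⟩ := H.pos (z := 96) (by simp) ha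
  obtain ⟨b1, b2⟩ := H.pos (z := 96) (by simp) hb
  obtain ⟨c1, c2⟩ := H.neg (z := 56) (by simp) hc
  obtain ⟨c1', c2'⟩ := H.neg (z := 56) (by simp) hc'
  obtain ⟨f1, f2⟩ := H.neg (z := 189) (by simp) hf
  obtain ⟨y1, y2⟩ := H.negY (z := 108) rfl
  have hV : Nat.card (VV 19 x) = 4 := by
    have := H.card_VV hx
    rw [h] at this
    simp only at this
    omega
  obtain ⟨M, hM⟩ := exists_isPModular (p := 7) (by norm_num)
  obtain ⟨ψ, hψ⟩ := d.Y_nonempty
  have hno : ∀ g : G, 7 ∣ orderOf g → ¬ 19 ∣ orderOf g :=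
    CA.H28Sv.no_of_not_dvd hx (by norm_num) (by norm_num) (by rw [hV]; norm_num)
  have hA : IsPBlock M (principalBlock M G) := by
    rw [principalBlock_eq]; exact isPBlock_blockOf _
  have key := bt d hno hM hA hψ (Q := zpowers y) hy.sylow.isPGroup'
  rw [card_zpowers' hy.ord, Finset.sum_filter, H.sum] at key
  have n7 : ∀ χ : IrrCharacter G, 7 ∣ charDegree χ.1 → χ ∉ principalBlock M G := fun χ h7 hχ =>
    d'.not_dvd hy ((d'.mem_block hM hy).1 hχ) h7
  have m1 : irrOne G ∈ principalBlock M G := (d'.mem_block hM hy).2 (Or.inl d'.one_mem)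
  have nX : ∀ χ : IrrCharacter G, (charDegree χ.1 = 96 ∨ charDegree χ.1 = 108) →
      χ ∈ principalBlock M G → χ ∈ d'.Y := fun χ hd hχ => by
    refine ((d'.mem_block hM hy).1 hχ).resolve_left fun hX => ?_
    obtain ⟨s, hs⟩ := d'.degX χ hX
    rcases d'.hε χ hX with e | e <;> rcases hd with hd | hd <;> rw [e, hd] at hs <;> omega
  simp only [List.map_cons, List.map_nil, List.sum_cons, List.sum_nil, if_pos m1,
    if_neg (n7 c (by rw [c2]; norm_num)), if_neg (n7 c' (by rw [c2']; norm_num)),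
    if_neg (n7 f (by rw [f2]; norm_num)), a1, a2, b1, b2, y1, y2 ψ hψ, d.ε_one, degree_one] at key
  by_cases e1 : ψ ∈ principalBlock M G
  · by_cases e2 : a ∈ principalBlock M G
    · have := d'.deg_Y_eq (nX a (Or.inl a2) e2) (nX ψ (Or.inr (y2 ψ hψ)) e1)
      rw [a2, y2 ψ hψ] at this
      omega
    · rw [if_pos e1, if_neg e2] at key
      split_ifs at key <;> omega
  · rw [if_neg e1] at key
    split_ifs at key <;> omega

end Cfsg.Agent.S1022
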