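import Cfsg.Statements.S1023
import Cfsg.Agent.Lib.Lie.ChevComm
import Cfsg.Agent.Lib.Lie.ChevAll
-- import your own Cfsg.Agent.* helpers here

set_option autoImplicit false
open Cfsg

namespace Cfsg.Agent.S1023

open CA.Chev

/-- Additivity of root elements: for every type G₂, B₂, D₄, F₄, E₆, E₇, E₈ and every root `r`, `x_r(t₁) x_r(t₂) = x_r(t₁ + t₂)` as matrices. -/
theorem result {F : Type*} [Field F] (D : Cfsg.Lie.ChevalleyDatum) (hD : D ∈ [Cfsg.Lie.chevG2, Cfsg.Lie.chevB2, Cfsg.Lie.chevD4, Cfsg.Lie.chevF4, Cfsg.Lie.chevE6, Cfsg.Lie.chevE7, Cfsg.Lie.chevE8]) (r : ℕ) (hr : r < D.nroots) (t₁ t₂ : F) :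
    D.x F r t₁ * D.x F r t₂ = D.x F r (t₁ + t₂) := by
  have := good_of_mem hD
  obtain ⟨r, rfl⟩ : ∃ s : Rt D, s.val = r := ⟨⟨r, hr⟩, rfl⟩
  rw [x_eq, x_eq, x_eq, xR_add]

end Cfsg.Agent.S1023
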