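import Cfsg.Statements.S1026
import Cfsg.Agent.Lib.Lie.ChevAdj
-- import your own Cfsg.Agent.* helpers here

set_option autoImplicit false
open Cfsg

namespace Cfsg.Agent.S1026

open CA.Chev

/-- Every element of `U` has a unique expression `∏_{r ∈ Φ⁺} x_r(t_r)`, the product over the positive roots in increasing index order (the coefficient family `t`, supported on the positive roots, exists and is unique); and conversely every such ordered product is the matrix of an element of `U`. -/
theorem result {F : Type*} [Field F] (D : Cfsg.Lie.ChevalleyDatum) (hD : D ∈ [Cfsg.Lie.chevG2, Cfsg.Lie.chevB2, Cfsg.Lie.chevD4, Cfsg.Lie.chevF4, Cfsg.Lie.chevE6, Cfsg.Lie.chevE7, Cfsg.Lie.chevE8]) :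
    (∀ g : GL D.Idx F, g ∈ D.posUnipotent F →
      ∃! t : ℕ → F, (∀ r, ¬ D.IsPosRoot r → t r = 0) ∧
        (g : Matrix D.Idx D.Idx F) = D.wordMat F (D.posRoots.map fun r => (r, t r))) ∧
    (∀ t : ℕ → F, ∃ g : GL D.Idx F, g ∈ D.posUnipotent F ∧
      (g : Matrix D.Idx D.Idx F) = D.wordMat F (D.posRoots.map fun r => (r, t r))) := by
  have := good_of_mem hD
  classical
  let L : List (Rt D) := (List.finRange D.nroots).filter fun r => Pos r
  have hL : L.Nodup := (List.nodup_finRange _).filter _
  have hm : ∀ r, r ∈ L ↔ r ∈ {r : Rt D | Pos r} := fun r => by simp [L]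
  have e : D.posRoots = L.map Fin.val := by
    rw [Lie.ChevalleyDatum.posRoots, ← List.map_coe_finRange_eq_range, List.filter_map]
    congr 2
    funext r
    simp [isPosRoot_iff]
  have hw : ∀ t : ℕ → F, D.wordMat F (D.posRoots.map fun r => (r, t r)) =
      ((adj D F).P L (fun r => t r) : GL D.Idx F) := by
    intro t
    rw [e, Lie.ChevalleyDatum.wordMat, Sys0.P, List.map_map, List.map_map, ← Units.coeHom_apply, map_list_prod,
      List.map_map]
    congr 1
    exact List.map_congr_left fun r _ => x_eq r _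
  simp only [hw, Units.val_inj, posUnipotent_eq]
  refine ⟨fun g hg => ?_, fun t => ⟨_, (adj D F).P_mem fun r hr hn => absurd ((hm r).1 hr) hn, rfl⟩⟩
  obtain ⟨t, rfl⟩ := (adj D F).exists_P nil_pos hL hm hg
  refine ⟨fun r => if h : D.IsPosRoot r then t ⟨r, h.1⟩ else 0, ⟨fun r hr => dif_neg hr, ?_⟩, ?_⟩
  · exact (adj D F).P_congr fun r hr => by
      simp only [dif_pos ((isPosRoot_iff r).2 ((hm r).1 hr))]
  · rintro t' ⟨h1, h2⟩
    funext r
    split_ifs with h
    · exact ((adj D F).P_unique nil_pos hL (fun r hr => (hm r).1 hr) h2 ⟨r, h.1⟩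
        ((hm _).2 ((isPosRoot_iff ⟨r, h.1⟩).1 h))).symm
    · exact h1 r h

end Cfsg.Agent.S1026
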