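import Cfsg.Statements.S1045
import Cfsg.Agent.Lib.Lie.ChevAdj
-- import your own Cfsg.Agent.* helpers here

set_option autoImplicit false
open Cfsg

namespace Cfsg.Agent.S1045

open CA.Chev

/-- For a fundamental root `p`, the subgroup `U_p` generated by the `X_s`, `s` positive and `s ≠ p`, is normalised by `X_p` and `X_{-p}`, and `U = U_p ⊔ X_p`. -/
theorem result {F : Type*} [Field F] (D : Cfsg.Lie.ChevalleyDatum) (hD : D ∈ [Cfsg.Lie.chevG2, Cfsg.Lie.chevB2, Cfsg.Lie.chevD4, Cfsg.Lie.chevF4, Cfsg.Lie.chevE6, Cfsg.Lie.chevE7, Cfsg.Lie.chevE8]) (i : ℕ) (hi : i < D.rank) :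
    D.rootSubgroup F (D.simple i) ⊔ D.rootSubgroup F (D.neg (D.simple i)) ≤
        Subgroup.normalizer (Subgroup.closure {g : GL D.Idx F | ∃ (s : ℕ) (t : F), D.IsPosRoot s ∧ s ≠ D.simple i ∧
          (g : Matrix D.Idx D.Idx F) = D.x F s t} : Set (GL D.Idx F)) ∧
      Subgroup.closure {g : GL D.Idx F | ∃ (s : ℕ) (t : F), D.IsPosRoot s ∧ s ≠ D.simple i ∧
          (g : Matrix D.Idx D.Idx F) = D.x F s t} ⊔ D.rootSubgroup F (D.simple i) = D.posUnipotent F := by
  have := good_of_mem hD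
  obtain ⟨i, rfl⟩ : ∃ j : Nd D, j.val = i := ⟨⟨i, hi⟩, rfl⟩
  have e := closure_x_eq (D := D) (K := F) (fun r => D.IsPosRoot r ∧ r ≠ D.simple i) fun r h => h.1.1
  simp only [and_assoc, isPosRoot_iff] at e
  have e2 : {r : Rt D | Pos r ∧ r.val ≠ D.simple i} = {r | Pos r ∧ r ≠ sim i} := by
    ext r; simp [Fin.ext_iff]
  rw [e, e2, ← sim_val, ← ng_val, rootSubgroup_eq, rootSubgroup_eq, ← Sys0.X_union, ← Sys0.X_union, posUnipotent_eq]
  refine ⟨(adj D F).X_le_normalizer fun r hr => nil_Up i r ?_, ?_⟩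
  · rcases hr with rfl | rfl
    · exact Or.inl (pos_sim i)
    · exact Or.inr rfl
  · rw [Sys0.U]; congr 1; ext r
    simp only [Set.mem_union, Set.mem_ofPred_eq, Set.mem_singleton_iff]
    exact ⟨fun h => h.elim (·.1) fun h => h ▸ pos_sim i, fun h => by tauto⟩

end Cfsg.Agent.S1045
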