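import Cfsg.Statements.S1073
import Cfsg.Agent.Lib.Lie.ChevRee
import Cfsg.Agent.Lib.Lie.ReeBasic
-- import your own Cfsg.Agent.* helpers here

set_option autoImplicit false
open Cfsg

namespace Cfsg.Agent.S1073

open CA.Chev
open scoped IsMulCommutative

/-- ²G₂(3^(2m+1)) is simple for `m ≥ 1`. -/
theorem result {K : Type*} [Field K] [Fintype K] {m : ℕ} (hm : 1 ≤ m) (hK : Fintype.card K = 3 ^ (2 * m + 1)) :
    IsSimpleGroup ↥(Cfsg.Lie.twistedG2 K (3 ^ m)) ∧ ¬ IsMulCommutative ↥(Cfsg.Lie.twistedG2 K (3 ^ m)) := by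
  obtain ⟨R, h, hU, hH, hB⟩ := exists_ree hK
  have hq := CA.Ree.three_lt hm h
  have := R.simple hq
  refine ⟨this, fun hc => R.J_ne ?_⟩
  have := ((commutator_eq_bot_iff_center_eq_top _).2 CommGroup.center_eq_top).symm.trans (R.perfect hq)
  exact Subgroup.mem_bot.1 (this.ge trivial)

end Cfsg.Agent.S1073
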