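import Cfsg.Statements.S1078
import Cfsg.Agent.Lib.Lie.ChevSt
import Cfsg.Agent.Lib.Lie.ChevOrdCert
-- import your own Cfsg.Agent.* helpers here

set_option autoImplicit false
open Cfsg

namespace Cfsg.Agent.S1078

open CA.Chev

/-- For G₂, F₄, E₈ the presented group has trivial centre (the universal and adjoint groups coincide). -/
theorem result {K : Type*} [Field K] (D : Cfsg.Lie.ChevalleyDatum) (hD : D ∈ [Cfsg.Lie.chevG2, Cfsg.Lie.chevF4, Cfsg.Lie.chevE8]) :
    Subgroup.center (D.SteinbergGroup K) = ⊥ := by
  have key : ∀ (D : Lie.ChevalleyDatum) [Good D], Function.Injective (tor (D := D) (K := K)) →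
      Subgroup.center (D.SteinbergGroup K) = ⊥ := fun D _ h => by
    rw [(stG D K).center_eq stG_G, stG_R3.ker_eq stG_G, (MonoidHom.ker_eq_bot_iff _).2 h, Subgroup.map_bot]
  simp only [List.mem_cons, List.not_mem_nil, or_false] at hD
  rcases hD with rfl | rfl | rfl
  · exact key _ (tor_injective_of_smith tab_G2 smith_G2 (by decide +kernel))
  · exact key _ (tor_injective_of_smith tab_F4 smith_F4 (by decide +kernel))
  · exact key _ (tor_injective_of_smith tab_E8 smith_E8 (by decide +kernel))

end Cfsg.Agent.S1078
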