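import Cfsg.Statements.S1084
import Cfsg.Agent.Lib.Lie.E6F3

set_option autoImplicit false
open Cfsg

namespace Cfsg.Agent.S1084

/-- E₆ via the 27-dimensional cubic form: for a finite field with at least three elements, (isometries of the cubic form) / centre ≅ the Chevalley group E₆(F). -/
theorem result {F : Type*} [Field F] [Fintype F] (hF : 3 ≤ Fintype.card F) : Nonempty (Cfsg.Lie.E6 F ≃* ↥(Cfsg.Lie.chevE6.group F)) := by
  obtain ⟨a, b, c, h1, h2, h3⟩ := Fintype.two_lt_card_iff.1 hF
  refine (CA.Cub27.equiv ?_).map MulEquiv.symm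
  by_contra! h
  have e (x : F) : x = 0 ∨ x = 1 := or_iff_not_imp_left.2 (h x)
  have := e a; have := e b; have := e c
  grind

end Cfsg.Agent.S1084
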