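import Cfsg.Statements.S1086
import Cfsg.Agent.Lib.Lie.ChevTwE6
-- import your own Cfsg.Agent.* helpers here

set_option autoImplicit false
open Cfsg

namespace Cfsg.Agent.S1086

open CA.Chev

/-- |U¹| = |G¹ ∩ U| = q ^ 36 for ²E₆(q). -/
theorem result {K : Type*} [Field K] [Fintype K] {q : ℕ} (hq : IsPrimePow q) (hK : Fintype.card K = q ^ 2) :
    Nat.card ↥(Cfsg.Lie.chevE6.posUnipotent K ⊓ Cfsg.Lie.twistedE6 K q) = q ^ 36 := by
  obtain ⟨α, h1, hα, h2, h3⟩ := exists_tE6 hq hK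
  have R := TE6.real h1 hα
  rw [R.card_U, TE6.card_U h1 hα h2 h3]

end Cfsg.Agent.S1086
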