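import Cfsg.Statements.S1095
import Cfsg.Agent.Lib.Lie.ChevComm
import Cfsg.Agent.Lib.Lie.ChevAll
-- import your own Cfsg.Agent.* helpers here

set_option autoImplicit false
open Cfsg

namespace Cfsg.Agent.S1095

open CA.Chev

/-- `n_p` (p = p_{i+1} fundamental) is the signed monomial matrix `h_{p_j} ↦ h_{p_j} - A_{p_j,p} h_p`, `e_s ↦ η_s e_{w_p(s)}`, with `η_s = ±1`, `η_p = η_{-p} = -1`, `η_s η_{w_p(s)} = (-1)^{A_{p,s}}`, `η_s η_{-s} = 1`. -/
theorem result {F : Type*} [Field F] (D : Cfsg.Lie.ChevalleyDatum) (hD : D ∈ [Cfsg.Lie.chevG2, Cfsg.Lie.chevB2, Cfsg.Lie.chevD4, Cfsg.Lie.chevF4, Cfsg.Lie.chevE6, Cfsg.Lie.chevE7, Cfsg.Lie.chevE8]) (i : ℕ) (hi : i < D.rank) :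
    ∃ η : ℕ → ℤ, (∀ s < D.nroots, η s = 1 ∨ η s = -1) ∧ η (D.simple i) = -1 ∧ η (D.neg (D.simple i)) = -1 ∧
      (∀ s < D.nroots, η s * η (D.reflectRoot i s) = (-1) ^ (D.cartan i s).natAbs ∧ η s * η (D.neg s) = 1) ∧
      D.nMat F (D.simple i) 1 = Matrix.of (fun (row col : D.Idx) =>
        Sum.elim
          (fun j' : Fin D.rank => Sum.elim
            (fun j : Fin D.rank => (if j' = j then (1 : F) else 0) - (if (j' : ℕ) = i then ((D.cartan j (D.simple i) : ℤ) : F) else 0))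
            (fun _ => (0 : F)) col)
          (fun s' : Fin D.nroots => Sum.elim
            (fun _ => (0 : F))
            (fun s : Fin D.nroots => if (s' : ℕ) = D.reflectRoot i s then ((η s : ℤ) : F) else 0) col)
          row) := by
  have := good_of_mem hD
  obtain ⟨i, rfl⟩ : ∃ j : Nd D, j.val = i := ⟨⟨i, hi⟩, rfl⟩
  let η : ℕ → ℤ := fun s => if h : s < D.nroots then et (sim i) ⟨s, h⟩ else 1
  have hη : ∀ s : Rt D, η s = et (sim i) s := fun s => dif_pos s.2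
  refine ⟨η, fun s hs => ?_, ?_, ?_, fun s hs => ⟨?_, ?_⟩, ?_⟩
  · rw [hη ⟨s, hs⟩]; exact et_pm _ _
  · rw [← sim_val, hη, et_self]
  · rw [← sim_val, ← ng_val, hη, et_ng, et_self]
  · obtain ⟨s, rfl⟩ : ∃ r : Rt D, r.val = s := ⟨⟨s, hs⟩, rfl⟩
    rw [← sR_val, hη, hη, ← refl_sim, et_mul_refl, pr_sim_left]; rfl
  · obtain ⟨s, rfl⟩ : ∃ r : Rt D, r.val = s := ⟨⟨s, hs⟩, rfl⟩
    rw [← ng_val, hη, hη, et_ng, et_sq]
  · have h := nn_val (K := F) (sim i) 1
    rw [Units.val_one, sim_val] at h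
    rw [← h, nn_one_val]
    ext a b
    rw [cz_apply]
    rcases b with j | s
    · rw [apply_hv (nZc _ _), (mono_nZc _).hv_eq, ← cor_sim, clin_cor (refl_mem_RA _), cor_refl, cor_sim, cor_sim,
        pr_sim_left]
      rcases a with j' | s'
      · simp only [hv_inl, Pi.sub_apply, Pi.smul_apply, Pi.single_apply, smul_eq_mul, Matrix.of_apply, Sum.elim_inl,
          Fin.val_inj, wt, sim_val]
        split_ifs <;> simp
      · simp
    · rw [apply_eR (nZc _ _), (mono_nZc _).eR_eq]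
      rcases a with j' | s'
      · simp
      · simp only [Pi.smul_apply, eR_inr, smul_eq_mul, Matrix.of_apply, Sum.elim_inr, ← sR_val, Fin.val_inj, hη,
          ← refl_sim, et]
        split_ifs <;> simp

end Cfsg.Agent.S1095
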