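import Cfsg.Statements.S1096
import Cfsg.Agent.Lib.Lie.ChevComm
import Cfsg.Agent.Lib.Lie.ChevAll
-- import your own Cfsg.Agent.* helpers here

set_option autoImplicit false
open Cfsg

namespace Cfsg.Agent.S1096

open CA.Chev

/-- `n_p h_{p_j}(t) n_p⁻¹ = h_{w_p(p_j)}(t)` for fundamental `p`, `p_j` and `t ≠ 0`, stated as `n_p h_{p_j}(t) = h_{w_p(p_j)}(t) n_p`. -/
theorem result {F : Type*} [Field F] (D : Cfsg.Lie.ChevalleyDatum) (hD : D ∈ [Cfsg.Lie.chevG2, Cfsg.Lie.chevB2, Cfsg.Lie.chevD4, Cfsg.Lie.chevF4, Cfsg.Lie.chevE6, Cfsg.Lie.chevE7, Cfsg.Lie.chevE8]) (i j : ℕ) (hi : i < D.rank) (hj : j < D.rank) (t : F) (ht : t ≠ 0) :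
    D.nMat F (D.simple i) 1 * D.hMat F (D.simple j) t = D.hMat F (D.reflectRoot i (D.simple j)) t * D.nMat F (D.simple i) 1 := by
  have := good_of_mem hD
  obtain ⟨i, rfl⟩ : ∃ j : Nd D, j.val = i := ⟨⟨i, hi⟩, rfl⟩
  obtain ⟨j, rfl⟩ : ∃ i : Nd D, i.val = j := ⟨⟨j, hj⟩, rfl⟩
  have a := hh_val (sim j) (Units.mk0 t ht)
  have b := hh_val (sR i (sim j)) (Units.mk0 t ht)
  have c := nn_val (K := F) (sim i) 1
  rw [Units.val_mk0] at a b
  rw [Units.val_one] at c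
  change _ = D.hMat F (D.simple j) t at a
  change _ = D.hMat F (D.reflectRoot i (D.simple j)) t at b
  change _ = D.nMat F (D.simple i) 1 at c
  rw [← a, ← b, ← c, ← Units.val_mul, ← Units.val_mul, hh_eq, hh_eq, mul_inv_eq_iff_eq_mul.1 (nn_one_dg _ _)]
  congr 3
  ext v
  rw [chc_apply, zp_apply, zp_apply, ← refl_sim, ← prL_lin (refl_mem_RA (sim i)) (refl (sim i) (sim j)), refl_refl]

end Cfsg.Agent.S1096
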