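import Cfsg.Statements.S1099
import Cfsg.Agent.Lib.Lie.ChevTwCert
import Cfsg.Agent.S1081
-- import your own Cfsg.Agent.* helpers here

set_option autoImplicit false
open Cfsg

namespace Cfsg.Agent.S1099

open CA.Chev

/-- Graph automorphism of G₂ in characteristic 3 (K perfect): `x_a(t) ↦ x_b(t³)`, `x_b(t) ↦ x_a(t)`, `x_{-a}(t) ↦ x_{-b}(t³)`, `x_{-b}(t) ↦ x_{-a}(t)` extend to an automorphism of the group. -/
theorem result {K : Type*} [Field K] [CharP K 3] (hperf : ∀ x : K, ∃ y : K, y ^ 3 = x) :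
    ∃ α : ↥(Cfsg.Lie.chevG2.group K) ≃* ↥(Cfsg.Lie.chevG2.group K), ∀ (g : ↥(Cfsg.Lie.chevG2.group K)) (t : K),
      (((g : GL Cfsg.Lie.chevG2.Idx K) : Matrix _ _ K) = Cfsg.Lie.chevG2.x K Cfsg.Lie.g2a t →
        ((α g : GL Cfsg.Lie.chevG2.Idx K) : Matrix _ _ K) = Cfsg.Lie.chevG2.x K Cfsg.Lie.g2b (t ^ 3)) ∧
      (((g : GL Cfsg.Lie.chevG2.Idx K) : Matrix _ _ K) = Cfsg.Lie.chevG2.x K Cfsg.Lie.g2b t →
        ((α g : GL Cfsg.Lie.chevG2.Idx K) : Matrix _ _ K) = Cfsg.Lie.chevG2.x K Cfsg.Lie.g2a t) ∧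
      (((g : GL Cfsg.Lie.chevG2.Idx K) : Matrix _ _ K) = Cfsg.Lie.chevG2.x K Cfsg.Lie.g2ma t →
        ((α g : GL Cfsg.Lie.chevG2.Idx K) : Matrix _ _ K) = Cfsg.Lie.chevG2.x K Cfsg.Lie.g2mb (t ^ 3)) ∧
      (((g : GL Cfsg.Lie.chevG2.Idx K) : Matrix _ _ K) = Cfsg.Lie.chevG2.x K Cfsg.Lie.g2mb t →
        ((α g : GL Cfsg.Lie.chevG2.Idx K) : Matrix _ _ K) = Cfsg.Lie.chevG2.x K Cfsg.Lie.g2ma t) := by
  have e1 : ∀ i : Nd Cfsg.Lie.chevG2, (ιG2 i).val = [1, 0].getD i 0 := by decide +kernel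
  have e2 : ∀ i : Nd Cfsg.Lie.chevG2, eG2 (sim (D := Cfsg.Lie.chevG2) i) = [3, 1].getD i 0 := by decide +kernel
  obtain ⟨α, h⟩ := Cfsg.Agent.S1081.key (twG2 K) twG2_pos (fun _ => frobExp_surjective hperf _) (fun i => [1, 0].getD i 0)
    (fun i t => t ^ [3, 1].getD i 0) (fun i => by rw [twG2_sim, sim_val, e1]) (fun i t => by rw [twG2_f, e2])
    fun i t => Cfsg.Agent.S1081.f_ng _ _ _ (fun t => by rw [twG2_f, e2]) t
  refine ⟨α, fun g t => ⟨(h g 0 t (by decide)).1, fun hg => ?_, (h g 0 t (by decide)).2, fun hg => ?_⟩⟩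
  · exact ((h g 1 t (by decide)).1 hg).trans (congrArg _ (pow_one t))
  · exact ((h g 1 t (by decide)).2 hg).trans (congrArg _ (pow_one t))

end Cfsg.Agent.S1099
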