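import Cfsg.Statements.S1100
import Cfsg.Agent.Lib.Lie.ChevAdj
-- import your own Cfsg.Agent.* helpers here

set_option autoImplicit false
open Cfsg

namespace Cfsg.Agent.S1100

open CA.Chev

/-- Canonical form `g = b n_w u` (`b ∈ B`, `u ∈ U_w⁻ = ⟨X_r : r > 0, n_w X_r n_w⁻¹ ≤ V⟩`): such a decomposition exists for every element of the group; the coset `n_w H` is determined by `g`; and for a fixed representative `n_w` the factors `b`, `u` are unique. -/
theorem result {F : Type*} [Field F] (D : Cfsg.Lie.ChevalleyDatum) (hD : D ∈ [Cfsg.Lie.chevG2, Cfsg.Lie.chevB2, Cfsg.Lie.chevD4, Cfsg.Lie.chevF4, Cfsg.Lie.chevE6, Cfsg.Lie.chevE7, Cfsg.Lie.chevE8]) :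
    (∀ g ∈ D.group F, ∃ b ∈ D.borelSubgroup F, ∃ n ∈ D.monomialSubgroup F,
      ∃ u ∈ Subgroup.closure {x : GL D.Idx F | ∃ (r : ℕ) (t : F), D.IsPosRoot r ∧
            (D.rootSubgroup F r).map (MulAut.conj n).toMonoidHom ≤ D.negUnipotent F ∧ (x : Matrix D.Idx D.Idx F) = D.x F r t},
        g = b * n * u) ∧
    (∀ (b b' n n' u u' : GL D.Idx F), b ∈ D.borelSubgroup F → b' ∈ D.borelSubgroup F →
      n ∈ D.monomialSubgroup F → n' ∈ D.monomialSubgroup F →
      u ∈ Subgroup.closure {x : GL D.Idx F | ∃ (r : ℕ) (t : F), D.IsPosRoot r ∧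
            (D.rootSubgroup F r).map (MulAut.conj n).toMonoidHom ≤ D.negUnipotent F ∧ (x : Matrix D.Idx D.Idx F) = D.x F r t} →
      u' ∈ Subgroup.closure {x : GL D.Idx F | ∃ (r : ℕ) (t : F), D.IsPosRoot r ∧
            (D.rootSubgroup F r).map (MulAut.conj n').toMonoidHom ≤ D.negUnipotent F ∧ (x : Matrix D.Idx D.Idx F) = D.x F r t} →
      b * n * u = b' * n' * u' → n⁻¹ * n' ∈ D.diagonalSubgroup F ∧ (n = n' → b = b' ∧ u = u')) := by
  have := good_of_mem hD
  have key : ∀ (n : GL D.Idx F) (w : Equiv.Perm (Rt D)), (adj D F).Act n w →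
      Subgroup.closure {x : GL D.Idx F | ∃ (r : ℕ) (t : F), D.IsPosRoot r ∧
        (D.rootSubgroup F r).map (MulAut.conj n).toMonoidHom ≤ D.negUnipotent F ∧
          (x : Matrix D.Idx D.Idx F) = D.x F r t} = (adj D F).X (invs w) := by
    intro n w hw
    have e := closure_x_eq (D := D) (K := F) (fun r => D.IsPosRoot r ∧
      (D.rootSubgroup F r).map (MulAut.conj n).toMonoidHom ≤ D.negUnipotent F) fun r h => h.1.1
    simp only [and_assoc] at e
    rw [e]
    congr 1
    ext r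
    simp only [Set.mem_ofPred_eq, isPosRoot_iff, rootSubgroup_eq, hw.map_X, negUnipotent_eq, Finset.mem_coe, mem_invs,
      Set.image_singleton, Sys0.X_le, Set.mem_singleton_iff, forall_eq]
    exact and_congr_right fun _ => ⟨fun h => (adj D F).not_pos_of_mem_V one_ne_zero (h 1),
      fun h t => (adj D F).x_mem h t⟩
  rw [group_eq, borelSubgroup_eq, monomialSubgroup_eq, diagonalSubgroup_eq]
  refine ⟨fun g hg => ?_, fun b b' n n' u u' hb hb' hn hn' hu hu' e => ?_⟩
  · obtain ⟨b, hb, m, hm, w, hw, u, hu, e⟩ := (adj D F).bruhat_canon hg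
    exact ⟨b, hb, m, hm, u, by rwa [key m w hw], e⟩
  · obtain ⟨w, hw⟩ := (adj D F).exists_act hn
    obtain ⟨w', hw'⟩ := (adj D F).exists_act hn'
    rw [key n w hw] at hu
    rw [key n' w' hw'] at hu'
    have hU : ∀ w : Equiv.Perm (Rt D), (adj D F).X (invs w) ≤ (adj D F).B := fun w =>
      ((adj D F).X_mono fun r hr => (mem_invs.1 hr).1).trans (adj D F).U_le_B
    obtain rfl : w = w' := (adj D F).bruhat_unique (mul_mem (inv_mem hb') hb)
      (mul_mem (hU _ hu) (inv_mem (hU _ hu'))) hn hw hw' (by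
        calc n' = b'⁻¹ * (b' * n' * u') * u'⁻¹ := by group
          _ = _ := by rw [← e]; group)
    refine ⟨(adj D F).mem_H_of_act_eq hn hn' hw hw', ?_⟩
    rintro rfl
    exact (adj D F).canon_unique hb hb' hw hu hu' e

end Cfsg.Agent.S1100
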