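import Cfsg.Statements.S1101
import Cfsg.Agent.Lib.Lie.ChevRee
-- import your own Cfsg.Agent.* helpers here

set_option autoImplicit false
open Cfsg

namespace Cfsg.Agent.S1101

open CA.Chev

/-- For ²G₂ over `K` with `|K| = 3^(2m+1)`, `θ = 3^m`: `U¹ = G¹ ∩ U` consists exactly of the elements `x_a(t^θ) x_b(t) x_{a+b}(t^{θ+1}+u^θ) x_{2a+b}(t^{2θ+1}+v^θ) x_{3a+b}(u) x_{3a+2b}(v)`, `t, u, v ∈ K`, and it has `|K|³` elements. -/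
theorem result {K : Type*} [Field K] [Fintype K] {m : ℕ} (hK : Fintype.card K = 3 ^ (2 * m + 1)) :
    (∀ g : GL Cfsg.Lie.chevG2.Idx K, g ∈ Cfsg.Lie.chevG2.posUnipotent K ⊓ Cfsg.Lie.twistedG2 K (3 ^ m) ↔
      ∃ t u v : K, (g : Matrix Cfsg.Lie.chevG2.Idx Cfsg.Lie.chevG2.Idx K) = Cfsg.Lie.chevG2.wordMat K (Cfsg.Lie.reeWordU (3 ^ m) t u v)) ∧
    Nat.card ↥(Cfsg.Lie.chevG2.posUnipotent K ⊓ Cfsg.Lie.twistedG2 K (3 ^ m)) = (3 ^ (2 * m + 1)) ^ 3 := by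
  obtain ⟨R, h, hU, hH, hB⟩ := exists_ree hK
  refine ⟨fun g => ?_, by rw [← Nat.card_congr (Subgroup.subgroupOfEquivOfLe inf_le_right).toEquiv, ← hU, R.card_U, h]⟩
  obtain ⟨_, θ, h1, hθ, -⟩ := exists_theta 3 hK
  simp only [← (TG2.real hθ h1).map_inf, ← adjG_U, Twist.U_inf_G1, Subgroup.mem_map, TG2.mem_U hθ, wordMat_eq,
    (TG2.Y_eq _ h1 _ _ _).1, Units.val_inj]
  exact ⟨by rintro ⟨_, ⟨t, u, v, rfl⟩, rfl⟩; exact ⟨t, u, v, rfl⟩, fun ⟨t, u, v, e⟩ => ⟨_, ⟨t, u, v, rfl⟩, e.symm⟩⟩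

end Cfsg.Agent.S1101
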