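import Cfsg.Statements.S1104
import Cfsg.Agent.Lib.Lie.ChevTwE6
-- import your own Cfsg.Agent.* helpers here

set_option autoImplicit false
open Cfsg

namespace Cfsg.Agent.S1104

open CA.Chev

/-- ²E₆(q) equals its derived subgroup. -/
theorem result {K : Type*} [Field K] [Fintype K] {q : ℕ} (hq : IsPrimePow q) (hK : Fintype.card K = q ^ 2) : commutator ↥(Cfsg.Lie.twistedE6 K q) = ⊤ := by
  obtain ⟨α, h1, hα, h2, h3⟩ := exists_tE6 hq hK
  have R := TE6.real h1 hα
  exact R.perfect_of (TE6.le_commutator hα h2 h3)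

end Cfsg.Agent.S1104
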