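import Cfsg.Statements.S1120
import Cfsg.Agent.Lib.Lie.RankOne
import Cfsg.Agent.Lib.Grp.Coprime2
import Cfsg.Agent.Lib.Grp.Core

set_option autoImplicit false
open Cfsg

namespace Cfsg.Agent.S1120

/-- In the rank-one set-up (`G` finite and doubly transitive on `Ω`, `t` an involution moving `a`, `Q` normal in `G_a` with `G_a = Q D`, `Q ⊓ D = 1` for the two-point stabiliser `D = G_a ⊓ G_{t • a}`, `|Q|` even, `|D|` odd), if `G` has 2-rank at least 2 then `O_{2'}(G)` equals the normal core of `G_a`. -/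
theorem result {G Ω : Type*} [Group G] [Finite G] [MulAction G Ω] {a : Ω} {t : G} {Q : Subgroup G}
    (hS : Cfsg.IsRankOneSetup G Ω a t Q)
    (h2 : ∃ x y : G, x ≠ 1 ∧ y ≠ 1 ∧ x ≠ y ∧ x * x = 1 ∧ y * y = 1 ∧ x * y = y * x) :
    Cfsg.pPrimeCore 2 G = (MulAction.stabilizer G a).normalCore := by
  have h := CA.RankOne.split hS
  apply le_antisymm
  · rw [Subgroup.normal_le_normalCore]
    obtain ⟨x, y, hx1, hy1, hxy, hx, hy, hc⟩ := h2
    obtain ⟨g, hg⟩ := CA.RankOne.exists_conj_mem_Q hS (CA.H13Inv.isPGroup_closure_pair_of_commute hx hy hc)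
    have hxQ := hg x (Subgroup.subset_closure (by simp))
    have hyQ := hg y (Subgroup.subset_closure (by simp))
    have hx' : (g * x * g⁻¹) * (g * x * g⁻¹) = 1 := by simp [mul_assoc, CA.RankOne.sq_mul hx]
    have hy' : (g * y * g⁻¹) * (g * y * g⁻¹) = 1 := by simp [mul_assoc, CA.RankOne.sq_mul hy]
    have hc' : (g * x * g⁻¹) * (g * y * g⁻¹) = (g * y * g⁻¹) * (g * x * g⁻¹) := by
      calc _ = g * (x * y) * g⁻¹ := by group
        _ = _ := by rw [hc]; group
    have hx1' : g * x * g⁻¹ ≠ 1 := by simpa using hx1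
    have hy1' : g * y * g⁻¹ ≠ 1 := by simpa using hy1
    have hxy' : g * x * g⁻¹ ≠ g * y * g⁻¹ := by simpa using hxy
    generalize g * x * g⁻¹ = u at *
    generalize g * y * g⁻¹ = v at *
    have hA : Subgroup.closure ({u, v} : Set G) ≤ Q := by
      rw [Subgroup.closure_le]
      rintro _ (rfl | rfl)
      exacts [hxQ, hyQ]
    have hcomm : IsMulCommutative (Subgroup.closure ({u, v} : Set G)) := by
      refine Subgroup.isMulCommutative_closure ?_
      rintro _ (rfl | rfl) _ (rfl | rfl) <;> simp [hc']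
    refine CA.Coprime2.le_of_forall_centralizer_singleton hcomm ?_ ?_ ?_ ?_
    · intro hcyc
      exact hxy' (CA.H13Count.eq_of_isCyclic hcyc (Subgroup.subset_closure (by simp))
        (Subgroup.subset_closure (by simp)) (CA.H13Inv.orderOf_eq_two_iff.mpr ⟨hx', hx1'⟩)
        (CA.H13Inv.orderOf_eq_two_iff.mpr ⟨hy', hy1'⟩))
    · rw [Subgroup.normalizer_eq_top]; exact le_top
    · obtain ⟨k, hk⟩ := (CA.H13Inv.isPGroup_closure_pair_of_commute hx' hy' hc').exists_card_eq
      rw [hk]
      exact (CA.Core.coprime_pPrimeCore (p := 2) (G := G)).symm.pow_left k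
    · intro z hz hz1 w hw
      exact h.fix_of_comm (hA hz) hz1 (Subgroup.mem_centralizer_singleton_iff.mp hw.2)
  · apply CA.Core.le_pPrimeCore
    have hle : (MulAction.stabilizer G a).normalCore ≤
        MulAction.stabilizer G a ⊓ MulAction.stabilizer G (t • a) := by
      intro g hg
      refine ⟨Subgroup.normalCore_le _ hg, ?_⟩
      have h1 : (t⁻¹ * g * t⁻¹⁻¹) • a = a := hg t⁻¹
      show g • t • a = t • a
      rwa [inv_inv, mul_smul, mul_smul, inv_smul_eq_iff] at h1
    exact (Nat.coprime_two_right.mpr hS.odd_card).coprime_dvd_left (Subgroup.card_dvd_of_le hle)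

end Cfsg.Agent.S1120
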