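import Cfsg.Statements.S1124
import Cfsg.Agent.Lib.Lie.RankOne

set_option autoImplicit false
open scoped Pointwise
open Cfsg

namespace Cfsg.Agent.S1124

/-- Let `t` be an element of order 2 of a finite group normalising a subgroup `X` of odd order, `Y = C_X(t)` and `Z` the set of elements of `X` inverted by `t`. Then `(y, z) ↦ y z` is a bijection `Y × Z → X`, so `|X| = |Y| |Z|`, and the subgroup generated by `Z` is normal in `X`. -/
theorem result {M : Type*} [Group M] [Finite M]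
    (t : M) (ht : orderOf t = 2) (X : Subgroup M) (hodd : Odd (Nat.card X))
    (hnorm : ∀ x ∈ X, t * x * t⁻¹ ∈ X) :
    (∀ x ∈ X, ∃! p : M × M, p.1 ∈ X ⊓ Subgroup.centralizer {t} ∧ p.2 ∈ Cfsg.invertedBy X t ∧ x = p.1 * p.2) ∧
      Nat.card X = Nat.card ↥(X ⊓ Subgroup.centralizer {t}) * Nat.card (Cfsg.invertedBy X t) ∧
      ∀ x ∈ X, MulAut.conj x • Subgroup.closure (Cfsg.invertedBy X t) = Subgroup.closure (Cfsg.invertedBy X t) := by
  have ht2 := CA.H13Inv.mul_self ht
  have key : ∀ x ∈ X, ∀ y ∈ Subgroup.closure (Cfsg.invertedBy X t),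
      x * y * x⁻¹ ∈ Subgroup.closure (Cfsg.invertedBy X t) := by
    intro x hx y hy
    obtain ⟨c, hc, hct, k, hk, rfl⟩ := CA.RankOne.exists_cent_mul_inv ht2 hodd hnorm hx
    have h1 : k * y * k⁻¹ ∈ Subgroup.closure (Cfsg.invertedBy X t) :=
      Subgroup.mul_mem _ (Subgroup.mul_mem _ (Subgroup.subset_closure hk) hy)
        (Subgroup.inv_mem _ (Subgroup.subset_closure hk))
    have h2 : (Subgroup.closure (Cfsg.invertedBy X t)).map (MulAut.conj c).toMonoidHom ≤
        Subgroup.closure (Cfsg.invertedBy X t) := by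
      rw [MonoidHom.map_closure, Subgroup.closure_le]
      rintro _ ⟨z, hz, rfl⟩
      exact Subgroup.subset_closure (CA.RankOne.conj_mem_invertedBy hz hc hct)
    have h3 : c * (k * y * k⁻¹) * c⁻¹ ∈ Subgroup.closure (Cfsg.invertedBy X t) := h2 ⟨_, h1, rfl⟩
    simpa [mul_assoc] using h3
  refine ⟨fun x hx => ?_, CA.RankOne.card_eq_cent_mul_inv ht2 hodd hnorm, fun x hx => ?_⟩
  · obtain ⟨c, hc, hct, k, hk, rfl⟩ := CA.RankOne.exists_cent_mul_inv ht2 hodd hnorm hx
    refine ⟨(c, k), ⟨⟨hc, Subgroup.mem_centralizer_singleton_iff.mpr hct.symm⟩, hk, rfl⟩, ?_⟩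
    rintro ⟨c', k'⟩ ⟨h1, h2, h3⟩
    obtain ⟨h4, h5⟩ := CA.RankOne.cent_mul_inv_unique hodd
      (Subgroup.mem_centralizer_singleton_iff.mp h1.2).symm hct h2 hk h3.symm
    exact Prod.ext h4 h5
  · ext y
    rw [Subgroup.mem_pointwise_smul_iff_inv_smul_mem]
    constructor
    · intro h
      have := key x hx _ h
      simpa [mul_assoc] using this
    · intro h
      have := key x⁻¹ (X.inv_mem hx) _ h
      simpa [mul_assoc] using this

end Cfsg.Agent.S1124
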