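import Cfsg.Statements.S1125
import Cfsg.Agent.Lib.Lie.RankOne2

set_option autoImplicit false
open Cfsg

namespace Cfsg.Agent.S1125

/-- In the rank-one set-up (`G` finite and doubly transitive on `Ω`, `t` an involution moving `a`, `Q` normal in `G_a` with `G_a = Q D`, `Q ⊓ D = 1` for the two-point stabiliser `D = G_a ⊓ G_{t • a}`, `|Q|` even, `|D|` odd), let `X ⊆ D` fix at least three points of `Ω`. Then `C_G(X)` is doubly transitive on the fixed-point set of `X`, `|C_Q(X)|` is even, and `C_{G_a}(X) = C_Q(X) C_D(X)`. -/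
theorem result {G Ω : Type*} [Group G] [Finite G] [MulAction G Ω] {a : Ω} {t : G} {Q : Subgroup G}
    (hS : Cfsg.IsRankOneSetup G Ω a t Q)
    (X : Set G) (hX : X ⊆ ((MulAction.stabilizer G a ⊓ MulAction.stabilizer G (t • a)) : Set G))
    (h3 : ∃ b c d : Ω, b ≠ c ∧ b ≠ d ∧ c ≠ d ∧ ∀ x ∈ X, x • b = b ∧ x • c = c ∧ x • d = d) :
    (∀ b₁ b₂ c₁ c₂ : Ω, (∀ x ∈ X, x • b₁ = b₁ ∧ x • b₂ = b₂ ∧ x • c₁ = c₁ ∧ x • c₂ = c₂) →
        b₁ ≠ b₂ → c₁ ≠ c₂ → ∃ g ∈ Subgroup.centralizer X, g • b₁ = c₁ ∧ g • b₂ = c₂) ∧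
      Even (Nat.card ↥(Subgroup.centralizer X ⊓ Q)) ∧
      (Subgroup.centralizer X ⊓ Q) ⊔ (Subgroup.centralizer X ⊓ (MulAction.stabilizer G a ⊓ MulAction.stabilizer G (t • a))) = Subgroup.centralizer X ⊓ MulAction.stabilizer G a := by
  open CA.RankOne CA.RankOne2 in
  have hX' : ∀ x ∈ X, x • a = a ∧ x • t • a = t • a := fun x hx => hX hx
  refine ⟨fun b₁ b₂ c₁ c₂ h hb hc => cent_two_trans (split hS) h3 (fun x hx => (h x hx).1) (fun x hx => (h x hx).2.1)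
    (fun x hx => (h x hx).2.2.1) (fun x hx => (h x hx).2.2.2) hb hc, ?_, ?_⟩
  · obtain ⟨s, hs, hs1, hs2, hsa⟩ := exists_cent_inv hS hX' h3
    have h1 : orderOf (⟨s, hs, mem_Q_of_inv hS hsa hs2⟩ : ↥(Subgroup.centralizer X ⊓ Q)) = 2 := by
      have : Fact (Nat.Prime 2) := ⟨Nat.prime_two⟩
      apply orderOf_eq_prime
      · rw [pow_two]; exact Subtype.ext hs2
      · exact fun e => hs1 (congrArg Subtype.val e)
    rw [even_iff_two_dvd, ← h1]
    exact orderOf_dvd_natCard _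
  · apply le_antisymm
    · exact sup_le (inf_le_inf_left _ hS.le) (inf_le_inf_left _ inf_le_left)
    · rintro g ⟨hg, hga⟩
      obtain ⟨u, hu, huc, e⟩ := exists_cent_smul (split hS) (fun x hx => (hX' x hx).1) (fun x hx => (hX' x hx).2)
        (fix_smul hg (fun x hx => (hX' x hx).2)) (ta_ne hS) ((split hS).smul_ne hga (ta_ne hS))
      have : g = u * (u⁻¹ * g) := by group
      rw [this]
      refine Subgroup.mul_mem_sup ⟨huc, hu⟩ ⟨Subgroup.mul_mem _ (Subgroup.inv_mem _ huc) hg, Subgroup.mul_mem _ (Subgroup.inv_mem _ (hS.le hu)) hga, ?_⟩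
      show (u⁻¹ * g) • t • a = t • a
      rw [mul_smul, ← e, inv_smul_smul]

end Cfsg.Agent.S1125
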