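import Cfsg.Statements.S1132
import Cfsg.Agent.Lib.Lie.RankOne3
import Cfsg.Agent.S1129
import Cfsg.Agent.S0205

set_option autoImplicit false
open Cfsg

namespace Cfsg.Agent.S1132

/-- In the rank-one set-up (`G` finite and doubly transitive on `Ω`, `t` an involution moving `a`, `Q` normal in `G_a` with `G_a = Q D`, `Q ⊓ D = 1` for the two-point stabiliser `D = G_a ⊓ G_{t • a}`, `|Q|` even, `|D|` odd), with the action faithful and `G` containing two distinct commuting involutions: a Sylow 2-subgroup of `Q` is abelian or a Suzuki 2-group. -/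
theorem result {G Ω : Type*} [Group G] [Finite G] [MulAction G Ω] [FaithfulSMul G Ω] {a : Ω} {t : G} {Q : Subgroup G}
    (hS : Cfsg.IsRankOneSetup G Ω a t Q)
    (h2 : ∃ x y : G, x ≠ 1 ∧ y ≠ 1 ∧ x ≠ y ∧ x * x = 1 ∧ y * y = 1 ∧ x * y = y * x)
    (S : Sylow 2 ↥Q) : IsMulCommutative (S : Subgroup ↥Q) ∨ Cfsg.IsSuzukiTwoGroup ↥(S : Subgroup ↥Q) := by
  open CA.RankOne CA.RankOne2 in
  have hQ := Cfsg.Agent.S1129.result hS h2
  obtain ⟨k0, h⟩ := CA.RankOne3.exists_K_gen hS hQ (Cfsg.Agent.S0205.result hS.odd_card)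
  have hmem : ∀ k : G, k ∈ Subgroup.zpowers k0 ↔
      k ∈ invertedBy (MulAction.stabilizer G a ⊓ MulAction.stabilizer G (t • a)) t := fun k => by rw [← h]; rfl
  by_cases hc : IsMulCommutative (S : Subgroup ↥Q)
  · exact Or.inl hc
  right
  have : Fact (Nat.Prime 2) := ⟨Nat.prime_two⟩
  have hSn : (S : Subgroup Q).Normal := Sylow.normal_of_normalizerCondition Group.normalizerCondition_of_isNilpotent S
  have hSc : (S : Subgroup Q).Characteristic := Sylow.characteristic_of_normal S hSn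
  have hinv : ∀ s : Q, s * s = 1 → s ∈ (S : Subgroup Q) := fun s hs => by
    have h1 : IsPGroup 2 (Subgroup.zpowers s) := by
      obtain ⟨k, -, hk⟩ := (Nat.dvd_prime_pow Nat.prime_two).1
        (orderOf_dvd_of_pow_eq_one (x := s) (n := 2 ^ 1) (by rw [pow_one, pow_two, hs]))
      exact IsPGroup.of_card (by rw [Nat.card_zpowers, hk])
    have h2 := CA.Fitting.le_pCore_of_isNilpotent hQ h1
    rw [← CA.Fitting.sylow_eq_pCore_of_normal S] at h2
    exact h2 (Subgroup.mem_zpowers s)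
  have hk0 : k0 ∈ invertedBy (MulAction.stabilizer G a ⊓ MulAction.stabilizer G (t • a)) t :=
    (hmem k0).1 (Subgroup.mem_zpowers k0)
  let α : MulAut Q := Subgroup.normalizerMonoidHom Q ⟨k0, (split hS).stabilizer_le_normalizer hk0.1.1⟩
  let β : MulAut (S : Subgroup Q) := MulAut.characteristic (S : Subgroup Q) α
  have hβ : ∀ (n : ℤ) (x : (S : Subgroup Q)), (((β ^ n) x : Q) : G) = k0 ^ n * x * (k0 ^ n)⁻¹ := by
    intro n x
    simp only [β, α, ← map_zpow]
    rfl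
  have hI : ∀ x : (S : Subgroup Q), x ≠ 1 → x * x = 1 →
      ((x : Q) : G) ∈ involutionsIn (MulAction.stabilizer G a : Set G) := fun x h1 h2 =>
    ⟨hS.le (x : Q).2, fun e => h1 (Subtype.ext (Subtype.ext e)), congrArg (fun y : (S : Subgroup Q) => ((y : Q) : G)) h2⟩
  refine ⟨inferInstance, S.2, ?_, ?_, Subgroup.zpowers β, inferInstance, fun x y hx1 hx2 hy1 hy2 => ?_⟩
  · by_contra h1
    push Not at h1
    exact hc ⟨⟨h1⟩⟩
  · obtain ⟨s, hs, s', hs', hne⟩ := exists_two_inv hS h2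
    refine ⟨⟨⟨s, mem_Q_of_inv hS hs.1 hs.2.2⟩, hinv _ (Subtype.ext hs.2.2)⟩,
      ⟨⟨s', mem_Q_of_inv hS hs'.1 hs'.2.2⟩, hinv _ (Subtype.ext hs'.2.2)⟩, fun e => hne ?_, fun e => hs.2.1 ?_,
      Subtype.ext (Subtype.ext hs.2.2), fun e => hs'.2.1 ?_, Subtype.ext (Subtype.ext hs'.2.2)⟩ <;>
    exact congrArg (fun y : (S : Subgroup Q) => ((y : Q) : G)) e
  · obtain ⟨k, hk, e⟩ := exists_K_conj hS (hI x hx1 hx2) (hI y hy1 hy2)
    obtain ⟨n, hn⟩ := (hmem _).2 (inv_mem_invertedBy hk)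
    have hn' : k0 ^ n = k⁻¹ := hn
    refine ⟨⟨β ^ n, n, rfl⟩, Subtype.ext (Subtype.ext ?_), ?_⟩
    · rw [hβ, hn', inv_inv, e]
    · rintro ⟨_, m, rfl⟩ hm
      have h1 : (((β ^ m) x : Q) : G) = y := congrArg (fun y : (S : Subgroup Q) => ((y : Q) : G)) hm
      rw [hβ, ← e] at h1
      have h2 := K_injective hS (hI x hx1 hx2) (inv_mem_invertedBy ((hmem (k0 ^ m)).1 ⟨m, rfl⟩)) hk
        (by rw [inv_inv]; exact h1)
      apply Subtype.ext
      ext z
      show (((β ^ m) z : Q) : G) = (((β ^ n) z : Q) : G)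
      rw [hβ, hβ, hn', ← h2, inv_inv]

end Cfsg.Agent.S1132
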