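import Cfsg.Statements.S1133
import Cfsg.Agent.Lib.Lie.RankOne3
import Cfsg.Agent.S1129
import Cfsg.Agent.S0205

set_option autoImplicit false
open Cfsg

namespace Cfsg.Agent.S1133

/-- In the rank-one set-up (`G` finite and doubly transitive on `Ω`, `t` an involution moving `a`, `Q` normal in `G_a` with `G_a = Q D`, `Q ⊓ D = 1` for the two-point stabiliser `D = G_a ⊓ G_{t • a}`, `|Q|` even, `|D|` odd), with the action faithful and `G` containing two distinct commuting involutions, with `V = C_D(t)`, `K` the elements of `D` inverted by `t` and `W = C_V(K)`: `V/W` is cyclic, i.e. `V = W ⟨v⟩` for some `v ∈ V`. -/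
theorem result {G Ω : Type*} [Group G] [Finite G] [MulAction G Ω] [FaithfulSMul G Ω] {a : Ω} {t : G} {Q : Subgroup G}
    (hS : Cfsg.IsRankOneSetup G Ω a t Q)
    (h2 : ∃ x y : G, x ≠ 1 ∧ y ≠ 1 ∧ x ≠ y ∧ x * x = 1 ∧ y * y = 1 ∧ x * y = y * x) :
    ∃ v ∈ (MulAction.stabilizer G a ⊓ MulAction.stabilizer G (t • a)) ⊓ Subgroup.centralizer {t},
      ((MulAction.stabilizer G a ⊓ MulAction.stabilizer G (t • a)) ⊓ Subgroup.centralizer {t} ⊓ Subgroup.centralizer (Cfsg.invertedBy (MulAction.stabilizer G a ⊓ MulAction.stabilizer G (t • a)) t)) ⊔ Subgroup.closure {v} =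
        (MulAction.stabilizer G a ⊓ MulAction.stabilizer G (t • a)) ⊓ Subgroup.centralizer {t} := by
  have hQ := Cfsg.Agent.S1129.result hS h2
  obtain ⟨k0, h⟩ := CA.RankOne3.exists_K_gen hS hQ (Cfsg.Agent.S0205.result hS.odd_card)
  obtain ⟨v0, hv0, hvt, hgen⟩ := CA.RankOne3.exists_V_gen hS hQ h
  have h1 : v0 ∈ (MulAction.stabilizer G a ⊓ MulAction.stabilizer G (t • a)) ⊓ Subgroup.centralizer {t} :=
    ⟨hv0, fun x hx => by rw [hx]; exact hvt⟩
  refine ⟨v0, h1, le_antisymm (sup_le inf_le_left ?_) fun v hv => ?_⟩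
  · rw [Subgroup.closure_le, Set.singleton_subset_iff]; exact h1
  · obtain ⟨n, hn⟩ := hgen v hv.1 (hv.2 t rfl)
    have : v = v0 ^ n * ((v0 ^ n)⁻¹ * v) := by group
    rw [this, sup_comm]
    refine Subgroup.mul_mem_sup (Subgroup.zpow_mem _ (Subgroup.subset_closure (Set.mem_singleton v0)) n) ?_
    exact Subgroup.mem_inf.2 ⟨Subgroup.mul_mem _ (Subgroup.inv_mem _ (Subgroup.zpow_mem _ h1 n)) hv, hn⟩

end Cfsg.Agent.S1133
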