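import Cfsg.Statements.S1134
import Cfsg.Agent.Lib.Lie.RankOne2

set_option autoImplicit false
open Cfsg

namespace Cfsg.Agent.S1134

/-- In the rank-one set-up (`G` finite and doubly transitive on `Ω`, `t` an involution moving `a`, `Q` normal in `G_a` with `G_a = Q D`, `Q ⊓ D = 1` for the two-point stabiliser `D = G_a ⊓ G_{t • a}`, `|Q|` even, `|D|` odd), with the action faithful and `G` containing two distinct commuting involutions, with `V = C_D(t)`: subsets of `V` conjugate in `G` are conjugate in `V`. -/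
theorem result {G Ω : Type*} [Group G] [Finite G] [MulAction G Ω] [FaithfulSMul G Ω] {a : Ω} {t : G} {Q : Subgroup G}
    (hS : Cfsg.IsRankOneSetup G Ω a t Q)
    (h2 : ∃ x y : G, x ≠ 1 ∧ y ≠ 1 ∧ x ≠ y ∧ x * x = 1 ∧ y * y = 1 ∧ x * y = y * x)
    (X : Set G) (hX : X ⊆ (((MulAction.stabilizer G a ⊓ MulAction.stabilizer G (t • a)) ⊓ Subgroup.centralizer {t} : Subgroup G) : Set G)) (g : G)
    (hY : (fun x => g * x * g⁻¹) '' X ⊆ (((MulAction.stabilizer G a ⊓ MulAction.stabilizer G (t • a)) ⊓ Subgroup.centralizer {t} : Subgroup G) : Set G)) :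
    ∃ v ∈ (MulAction.stabilizer G a ⊓ MulAction.stabilizer G (t • a)) ⊓ Subgroup.centralizer {t}, (fun x => v * x * v⁻¹) '' X = (fun x => g * x * g⁻¹) '' X := by
  open CA.RankOne CA.RankOne2 in
  obtain ⟨c, hc1, hc2, hc⟩ := V_fix_three hS
  have hX1 : ∀ x ∈ X, x • a = a := fun x hx => (hX hx).1.1
  have hX2 : ∀ x ∈ X, x • t • a = t • a := fun x hx => (hX hx).1.2
  have hX3 : ∀ x ∈ X, t * x = x * t := fun x hx => (hX hx).2 t rfl
  have hY1 : ∀ x ∈ X, x • g⁻¹ • a = g⁻¹ • a := fun x hx => by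
    have : (g * x * g⁻¹) • a = a := (hY ⟨x, hx, rfl⟩).1.1
    rw [eq_inv_smul_iff, ← mul_smul, ← mul_smul, this]
  have hY2 : ∀ x ∈ X, x • g⁻¹ • t • a = g⁻¹ • t • a := fun x hx => by
    have : (g * x * g⁻¹) • t • a = t • a := (hY ⟨x, hx, rfl⟩).1.2
    rw [eq_inv_smul_iff, ← mul_smul, ← mul_smul, this]
  obtain ⟨z, hz, e1, e2⟩ := cent_two_trans (split hS) (X := X)
    ⟨a, t • a, c, (ta_ne hS).symm, hc1.symm, hc2.symm, fun x hx => ⟨hX1 x hx, hX2 x hx, hc x (hX hx).1 (hX3 x hx)⟩⟩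
    hX1 hX2 hY1 hY2 (ta_ne hS).symm (fun e => ta_ne hS (smul_left_cancel _ e).symm)
  have hd : g * z ∈ MulAction.stabilizer G a ⊓ MulAction.stabilizer G (t • a) := by
    constructor
    · show (g * z) • a = a
      rw [mul_smul, e1, smul_inv_smul]
    · show (g * z) • t • a = t • a
      rw [mul_smul, e2, smul_inv_smul]
  obtain ⟨v, hv, hvt, k, hk, e⟩ := exists_V_K hS hd
  refine ⟨v, ⟨hv, fun x hx => by rw [hx]; exact hvt⟩, Set.image_congr fun x hx => ?_⟩
  have h1 : g * x * g⁻¹ = v * (k * x * k⁻¹) * v⁻¹ := by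
    have := hz x hx
    calc g * x * g⁻¹ = g * (x * z) * (g * z)⁻¹ := by group
      _ = (g * z) * x * (g * z)⁻¹ := by rw [this]; group
      _ = _ := by rw [e]; group
  have h3 : t * (g * x * g⁻¹) = (g * x * g⁻¹) * t := (hY ⟨x, hx, rfl⟩).2 t rfl
  have h4 : Commute t (k * x * k⁻¹) := by
    have h5 : k * x * k⁻¹ = v⁻¹ * (g * x * g⁻¹) * v := by rw [h1]; group
    have h6 : Commute t v := hvt
    rw [h5]
    exact (h6.inv_right.mul_right h3).mul_right h6
  have h7 : t * k * t⁻¹ = k⁻¹ := hk.2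
  have h8 : k ^ 2 * x = x * k ^ 2 := by
    have h9 : k⁻¹ * x * k = k * x * k⁻¹ := by
      calc k⁻¹ * x * k = (t * k * t⁻¹) * x * (t * k * t⁻¹)⁻¹ := by rw [h7]; group
        _ = t * k * t⁻¹ * (x * t) * k⁻¹ * t⁻¹ := by group
        _ = t * (k * x * k⁻¹) * t⁻¹ := by rw [← hX3 x hx]; group
        _ = _ := by rw [h4.eq]; group
    calc k ^ 2 * x = k * (k * x * k⁻¹) * k := by rw [pow_two]; group
      _ = _ := by rw [← h9, pow_two]; group
  have h10 := comm_of_sq_comm (odd_of_mem_D hS hk.1) h8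
  rw [h1, h10]; group

end Cfsg.Agent.S1134
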