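import Cfsg.Statements.S1135
import Cfsg.Agent.Lib.Lie.RankOne2
import Cfsg.Agent.S1129

set_option autoImplicit false
open Cfsg

namespace Cfsg.Agent.S1135

/-- In the rank-one set-up (`G` finite and doubly transitive on `Ω`, `t` an involution moving `a`, `Q` normal in `G_a` with `G_a = Q D`, `Q ⊓ D = 1` for the two-point stabiliser `D = G_a ⊓ G_{t • a}`, `|Q|` even, `|D|` odd), with the action faithful and `G` containing two distinct commuting involutions: if `x = u v` with `u, v` involutions and `x² ≠ 1`, then `x` is conjugate to `u' t` for some involution `u'` of `G_a`, and `|C_G(x)|` is odd. -/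
theorem result {G Ω : Type*} [Group G] [Finite G] [MulAction G Ω] [FaithfulSMul G Ω] {a : Ω} {t : G} {Q : Subgroup G}
    (hS : Cfsg.IsRankOneSetup G Ω a t Q)
    (h2 : ∃ x y : G, x ≠ 1 ∧ y ≠ 1 ∧ x ≠ y ∧ x * x = 1 ∧ y * y = 1 ∧ x * y = y * x)
    (u v : G) (hu1 : u ≠ 1) (hu2 : u * u = 1) (hv1 : v ≠ 1) (hv2 : v * v = 1) (hx : (u * v) * (u * v) ≠ 1) :
    (∃ g : G, ∃ u' ∈ Cfsg.involutionsIn (MulAction.stabilizer G a : Set G), g * (u * v) * g⁻¹ = u' * t) ∧
      Odd (Nat.card ↥(Subgroup.centralizer {u * v})) := by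
  open CA.RankOne CA.RankOne2 in
  have hQ := Cfsg.Agent.S1129.result hS h2
  have hne : u * v ≠ v * u := by
    intro e
    apply hx
    calc u * v * (u * v) = u * (v * u) * v := by group
      _ = (u * u) * (v * v) := by rw [← e]; group
      _ = 1 := by rw [hu2, hv2, one_mul]
  constructor
  · obtain ⟨b, hb⟩ := exists_fix hS hu2
    obtain ⟨c, hc⟩ := exists_fix hS hv2
    obtain ⟨p, hp⟩ := exists_fix hS hS.mul_self
    have hbc : b ≠ c := by
      rintro rfl
      exact hne (comm_of_fix hS hQ hu2 hv2 hb hc)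
    have hap : a ≠ p := by
      rintro rfl
      exact ta_ne hS hp
    obtain ⟨g, e1, e2⟩ := (split hS).two' hbc hap
    have key : ∀ (z h : G), z ≠ 1 → h * z * h⁻¹ ≠ 1 := fun z h hz e => hz (by
      rw [mul_inv_eq_one, mul_eq_left] at e; exact e)
    have key2 : ∀ (z h : G), z * z = 1 → (h * z * h⁻¹) * (h * z * h⁻¹) = 1 := fun z h hz => by
      calc (h * z * h⁻¹) * (h * z * h⁻¹) = h * (z * z) * h⁻¹ := by group
        _ = 1 := by rw [hz]; group
    obtain ⟨h, f1, f2, f3⟩ := exists_conj_fix hS (key v g hv1) (key2 v g hv2) hS.ne_one hS.mul_self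
      (by rw [← e2, mul_smul, mul_smul, inv_smul_smul, hc]) hp hap
    refine ⟨h * g, (h * g) * u * (h * g)⁻¹, ⟨?_, key _ _ hu1, key2 _ _ hu2⟩, ?_⟩
    · show ((h * g) * u * (h * g)⁻¹) • a = a
      have : (h * g) • b = a := by rw [mul_smul, e1, f2]
      rw [← this, mul_smul, mul_smul, inv_smul_smul, hb]
    · rw [← f3]; group
  · rw [← Nat.not_even_iff_odd, even_iff_two_dvd]
    intro hd
    have : Fact (Nat.Prime 2) := ⟨Nat.prime_two⟩
    obtain ⟨z, hz⟩ := exists_prime_orderOf_dvd_card' 2 hd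
    have hz1 : (z : G) ≠ 1 := by
      intro e
      have : z = 1 := Subtype.ext e
      rw [this, orderOf_one] at hz
      exact absurd hz (by norm_num)
    have hz2 : (z : G) * z = 1 := by
      have := pow_orderOf_eq_one z
      rw [hz, pow_two] at this
      exact congrArg Subtype.val this
    have hz3 : (z : G) * (u * v) = (u * v) * z := (z.2 _ rfl).symm
    obtain ⟨p, hp⟩ := exists_fix hS hz2
    have h1 : u • p = p := by
      by_contra h
      apply hx
      refine sq_eq_one_of_cent_inv hS hz1 hz2 hu2 hp h hz3 ?_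
      rw [mul_inv_rev, inv_eq_of_sq hu2, inv_eq_of_sq hv2, sq_mul hu2]
    have h3 : v • p = p := by
      by_contra h
      apply hx
      refine sq_eq_one_of_cent_inv hS hz1 hz2 hv2 hp h hz3 ?_
      rw [mul_inv_rev, inv_eq_of_sq hu2, inv_eq_of_sq hv2]
      simp only [mul_assoc, hv2, mul_one]
    exact hne (comm_of_fix hS hQ hu2 hv2 h1 h3)

end Cfsg.Agent.S1135
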