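import Cfsg.Statements.S1139
import Cfsg.Agent.Lib.Lie.Higman3

set_option autoImplicit false
open Cfsg

namespace Cfsg.Agent.S1139

/-- A Suzuki 2-group `P` with `|P| = |Z(P)|²` is of type A: for some finite field `F` with `|F| = |Z(P)|` and some field automorphism `φ ≠ 1` of odd order, `P` is isomorphic to the group of lower unitriangular matrices with rows `(1,0,0)`, `(x,1,0)`, `(y, φ x, 1)`. -/
theorem result {P : Type*} [Group P] (hP : Cfsg.IsSuzukiTwoGroup P)
    (hcard : Nat.card P = Nat.card (Subgroup.center P) ^ 2) :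
    ∃ (F : Type) (_ : Field F) (_ : Fintype F) (φ : F ≃+* F), Fintype.card F = Nat.card (Subgroup.center P) ∧
      φ ≠ RingEquiv.refl F ∧ Odd (orderOf φ) ∧ Nonempty (P ≃* Cfsg.suzukiTypeA F (φ : F →+* F)) := by
  obtain ⟨ξ, h, hs⟩ := CA.Higman3.suzuki_spec hP
  obtain ⟨_, -, ⟨x, y, hxy⟩, -⟩ := hP
  obtain ⟨F, _, _, _, hF⟩ := CA.Higman3.exists_F h
  obtain ⟨e, φ, μ, he, hφ⟩ := CA.Higman3.exists_TA h hF ⟨x, trivial, y, trivial, hxy⟩ (by simpa using hcard)
  refine ⟨F, inferInstance, inferInstance, φ, hF, hφ, CA.Higman3.odd_order he.gen', ?_⟩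
  let M : F → F → GL (Fin 3) F := fun a b => Matrix.GeneralLinearGroup.mkOfDetNeZero !![1, 0, 0; a, 1, 0; b, φ a, 1]
    (by simp [Matrix.det_fin_three])
  have hM : ∀ a b c d, M a b * M c d = M (a + c) (b + d + φ a * c) := fun a b c d => by
    ext i j
    fin_cases i <;> fin_cases j <;> simp [M, Matrix.mul_apply, Fin.sum_univ_three] <;> ring
  have h0 : e 0 0 = 1 := by simpa using he.mul 0 0 0 0
  have hinj : ∀ a b c d, e a b = e c d → a = c ∧ b = d := fun a b c d h1 => by
    have h2 : e c d * e c (d + φ c * c) = 1 := by rw [he.mul, ← h0]; congr 1 <;> grind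
    rw [← h1, he.mul] at h2
    have := he.inj _ _ h2
    grind
  choose ca cb hc using fun x => he.surj x trivial
  have hca : ∀ a b, ca (e a b) = a ∧ cb (e a b) = b := fun a b => hinj _ _ _ _ (hc _).symm
  let ψ : P →* GL (Fin 3) F := MonoidHom.mk' (fun x => M (ca x) (cb x)) fun x y => by
    rw [hM, hc x, hc y, he.mul, (hca _ _).1, (hca _ _).2, (hca _ _).1, (hca _ _).2, (hca _ _).1, (hca _ _).2]
  have hψ : Function.Injective ψ := (injective_iff_map_eq_one ψ).2 fun x hx => by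
    have h1 := congrArg (fun g : GL (Fin 3) F => (g : Matrix (Fin 3) (Fin 3) F) 1 0) hx
    have h2 := congrArg (fun g : GL (Fin 3) F => (g : Matrix (Fin 3) (Fin 3) F) 2 0) hx
    simp [ψ, M] at h1 h2
    rw [hc x, h1, h2, h0]
  have hr : ψ.range = Cfsg.suzukiTypeA F (φ : F →+* F) := le_antisymm
    (by rintro _ ⟨x, rfl⟩; exact Subgroup.subset_closure ⟨ca x, cb x, rfl⟩)
    ((Subgroup.closure_le _).2 (by
      rintro g ⟨a, b, hg⟩
      exact ⟨e a b, Units.ext (by rw [hg]; simp [ψ, M, hca])⟩))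
  exact ⟨(MonoidHom.ofInjective hψ).trans (MulEquiv.subgroupCongr hr)⟩

end Cfsg.Agent.S1139
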