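import Cfsg.Statements.S1147
import Cfsg.Agent.Lib.Suz.Cor
import Cfsg.Agent.S0345

set_option autoImplicit false
open Cfsg

namespace Cfsg.Agent.S1147

/-- Let a finite simple Zassenhaus group `G` on `Ω` have a normal subgroup `U` of `G_a`, regular on `Ω` minus `a`, which is a non-abelian 2-group. Then `|Ω| = 2^(2n) + 1` with `n` odd, `n > 1`, a two-point stabiliser `G_a ⊓ G_b` is cyclic of order `2^n - 1`, and `U` is isomorphic to the type-A group over a field with `2^n` elements for some field automorphism `φ`. -/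
theorem result {G Ω : Type*} [Group G] [Finite G] [MulAction G Ω] [Finite Ω]
    (hZ : Cfsg.IsZassenhausGroup G Ω) [IsSimpleGroup G] {a b : Ω} (hab : a ≠ b)
    (U : Subgroup G) (hUle : U ≤ MulAction.stabilizer G a)
    (hUn : ∀ h ∈ MulAction.stabilizer G a, ∀ u ∈ U, h * u * h⁻¹ ∈ U)
    (hreg : ∀ c d : Ω, c ≠ a → d ≠ a → ∃! u : U, (u : G) • c = d)
    (hU2 : IsPGroup 2 U) (hUna : ∃ u ∈ U, ∃ v ∈ U, u * v ≠ v * u) :
    ∃ n : ℕ, Odd n ∧ 1 < n ∧ Nat.card Ω = 2 ^ (2 * n) + 1 ∧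
      IsCyclic ↥(MulAction.stabilizer G a ⊓ MulAction.stabilizer G b) ∧
      Nat.card ↥(MulAction.stabilizer G a ⊓ MulAction.stabilizer G b) = 2 ^ n - 1 ∧
      ∃ (F : Type) (_ : Field F) (_ : Fintype F) (φ : F ≃+* F), Fintype.card F = 2 ^ n ∧
        Nonempty (U ≃* Cfsg.suzukiTypeA F (φ : F →+* F)) := by
  have hU := CA.SplitOne2.split_of_existsUnique hZ.2.1 hUle hUn hreg
  obtain ⟨t, rfl, hS, hc, h1, h2⟩ := CA.SuzCor.zass (CA.Zass.zt_of hZ) hU hU2 hUna hab.symm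
  obtain ⟨Z, k0, s, r, hb⟩ := CA.SuzBase.exists_bs hS (CA.SuzCor.exists_four hc) hU2
  obtain ⟨F, _, _, _, hF⟩ := CA.Higman3.exists_F hb.hig
  rw [hb.qq_eq] at h1
  obtain ⟨e, φ, μ, he, -⟩ := CA.Higman3.exists_TA hb.hig hF hUna h1
  obtain ⟨m, hm, h3⟩ := CA.SuzCor.card_of_iso h2
  obtain ⟨n, hn⟩ := IsPGroup.iff_card.1 (hU2.to_le hb.hig.Z_le)
  rw [hU.card_G hab.symm, h1, hn] at h3
  have h4 : ∀ k, k ≠ 0 → Even (2 ^ k) := fun k hk => Nat.even_pow.2 ⟨even_two, hk⟩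
  have h5 : n ≠ 0 := by rintro rfl; have := hb.hig.two; omega
  have h6 : n = 2 * m + 1 := by
    have := CA.SuzCor.two_pow_eq (i := n * 2) (j := (2 * m + 1) * 2) (hS.odd_card.mul (h4 (n * 2) (by omega)).add_one)
      ((h4 ((2 * m + 1) * 2) (by omega)).add_one.mul (Nat.Even.sub_odd Nat.one_le_two_pow (h4 (2 * m + 1) (by omega)) odd_one))
      (by simp only [pow_mul _ _ 2, ← mul_assoc, h3])
    have := Nat.pow_right_injective le_rfl this
    omega
  refine ⟨n, ⟨m, h6⟩, by omega, by rw [hU.card_Ω hab.symm, h1, hn, ← pow_mul, mul_comm],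
    (Cfsg.Agent.S0345.result hZ hab).1, ?_, F, _, _, φ, hF.trans hn, CA.SuzCor.typeA he.mem he.surj he.inj he.mul⟩
  rw [← h6, mul_right_comm] at h3
  exact Nat.eq_of_mul_eq_mul_left (by positivity) h3

end Cfsg.Agent.S1147
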