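import Cfsg.Statements.S1151
import Cfsg.Agent.Lib.Lie.ChevRee
import Cfsg.Agent.Lib.Lie.ReeBasic
-- import your own Cfsg.Agent.* helpers here

set_option autoImplicit false
open Cfsg

namespace Cfsg.Agent.S1151

open CA.Chev

/-- In the small Ree group ²G₂(q), q = 3^(2m+1), realised as G¹ inside the Chevalley group G₂ over the field with q elements (θ the 3^m-th power map), with H¹ = G¹ ∩ H and U¹ = G¹ ∩ U the intersections with the ambient diagonal and positive unipotent subgroups: `H¹` has exactly `(q - 1)/2` elements of odd order, and each non-identity one centralises no non-identity element of `U¹`. -/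
theorem result {K : Type*} [Field K] [Fintype K] {m : ℕ} (hK : Fintype.card K = 3 ^ (2 * m + 1)) :
    2 * Nat.card {h : ↥(Cfsg.Lie.chevG2.diagonalSubgroup K ⊓ Cfsg.Lie.twistedG2 K (3 ^ m)) // Odd (orderOf h)} = 3 ^ (2 * m + 1) - 1 ∧
      ∀ h ∈ (Cfsg.Lie.chevG2.diagonalSubgroup K ⊓ Cfsg.Lie.twistedG2 K (3 ^ m)), h ≠ 1 → Odd (orderOf h) →
        (Cfsg.Lie.chevG2.posUnipotent K ⊓ Cfsg.Lie.twistedG2 K (3 ^ m)) ⊓ Subgroup.centralizer {h} = ⊥ := by
  obtain ⟨R, h, hU, hH, hB⟩ := exists_ree hK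
  have := R.finite
  constructor
  · have hc := R.isCyclic_H
    have h1 := R.card_H
    have h2 := R.card_mod
    rw [hH] at hc h1
    have := isCyclic_of_surjective _ (Subgroup.subgroupOfEquivOfLe inf_le_right).surjective (hH := hc)
    rw [Nat.card_congr (Subgroup.subgroupOfEquivOfLe inf_le_right).toEquiv] at h1
    rw [CA.Ree.card_odd (by omega), h1, h]
  · refine fun a ha h1 ho => eq_bot_iff.2 fun x ⟨hx, e⟩ => ?_
    exact congrArg Subtype.val (R.eq_one_of_odd (h := ⟨a, ha.2⟩) (x := ⟨x, hx.2⟩) (hH ▸ ha) (fun e => h1 (congrArg Subtype.val e))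
      (by rwa [← Subgroup.orderOf_coe]) (hU ▸ hx) (Subtype.ext (Subgroup.mem_centralizer_singleton_iff.1 e)))

end Cfsg.Agent.S1151
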