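import Cfsg.Statements.S1167
import Mathlib
import Cfsg.Agent.Lib.Perm.ZassClass

set_option autoImplicit false
open Cfsg

namespace Cfsg.Agent.S1167

open CA.Zass

/-- Let `G` be a finite simple Zassenhaus group on `Ω`, `U` a normal subgroup of `G_a` regular on `Ω` minus `a` which is an abelian 2-group, and `v` an involution with `v • a ≠ a`. Then there is a unique `u₀ ∈ U`, `u₀ ≠ 1`, with `v u₀ v = u₀ v u₀`. -/
theorem result {G Ω : Type*} [Group G] [Finite G] [MulAction G Ω] [Finite Ω]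
    (hZ : Cfsg.IsZassenhausGroup G Ω) [IsSimpleGroup G] {a : Ω}
    (U : Subgroup G) (hUle : U ≤ MulAction.stabilizer G a)
    (hUn : ∀ h ∈ MulAction.stabilizer G a, ∀ u ∈ U, h * u * h⁻¹ ∈ U)
    (hreg : ∀ c d : Ω, c ≠ a → d ≠ a → ∃! u : U, (u : G) • c = d)
    (hU2 : IsPGroup 2 U) (hUab : ∀ u ∈ U, ∀ u' ∈ U, u * u' = u' * u)
    (v : G) (hv1 : v ≠ 1) (hv2 : v * v = 1) (hva : v • a ≠ a) :
    ∃! u₀ : G, u₀ ∈ U ∧ u₀ ≠ 1 ∧ v * u₀ * v = u₀ * v * u₀ := by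
  have h := zt_of hZ
  have hU : CA.SplitOne.Split G Ω a U := ⟨h.two, hUle, hUn,
    fun c d hc hd => let ⟨u, hu, _⟩ := hreg c d hc hd; ⟨u, u.2, hu⟩,
    fun u hu c hc e => congrArg Subtype.val ((hreg c c hc hc).unique (y₁ := ⟨u, hu⟩) (y₂ := 1) e (one_smul _ _))⟩
  have h0 := St_ne_bot hZ hva.symm
  have h1 := (Subgroup.one_lt_card_iff_ne_bot _).2 (h.U_ne_bot hU hva h0)
  have := Fact.mk Nat.prime_two
  obtain ⟨k, hk⟩ := IsPGroup.iff_card.1 hU2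
  have h2 : Even (Nat.card U) := by
    rw [hk]; exact (Nat.even_pow.2 ⟨even_two, by rintro rfl; omega⟩)
  have hO := exists_oddZ hZ hva.symm (Nat.not_even_iff_odd.1 fun e =>
    Nat.not_even_iff_odd.2 (h.odd_of_even hU hva e) h2) hU
  obtain ⟨-, p, hp, h3⟩ := h.elem_of_large hU hva h0 ((large_or_two hZ hU hva).resolve_right
    fun e => e.2 ⟨⟨fun x y => Subtype.ext (hUab _ x.2 _ y.2)⟩⟩)
  have h4 : ∀ u ∈ U, u * u = 1 := fun u hu => by
    by_cases e : u = 1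
    · simp [e]
    have := Fact.mk hp
    have h5 := U.orderOf_dvd_natCard hu
    rw [orderOf_eq_prime (h3 u hu) e, hk] at h5
    rw [← pow_two, ← (Nat.prime_dvd_prime_iff_eq hp Nat.prime_two).1 (hp.dvd_of_dvd_pow h5), h3 u hu]
  have h5 := fx_modEq_two (Ω := Ω) hv2
  obtain ⟨c, hc⟩ : ∃ c : Ω, v • c = c := by
    by_contra h6
    have : IsEmpty (MulAction.fixedBy Ω v) := ⟨fun x => h6 ⟨x, x.2⟩⟩
    rw [hU.card_Ω hva, CA.Derange.fx, Nat.card_of_isEmpty (α := MulAction.fixedBy Ω v)] at h5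
    obtain ⟨m, hm⟩ := h2
    unfold Nat.ModEq at h5
    omega
  have hca : c ≠ a := fun e => hva (e ▸ hc)
  have hvv := smul_smul_of_sq (Ω := Ω) hv2
  have hcb : c ≠ v • a := fun e => hva (by rw [← e, ← hc, e, hvv])
  obtain ⟨u, hu, e⟩ := hU.trans (v • a) c hva hca
  have huu := smul_smul_of_sq (Ω := Ω) (h4 u hu)
  refine ⟨u, ⟨hu, fun e' => hcb (by rw [← e, e', one_smul]), h.eq_of_smul hva.symm hca hcb ?_ ?_ ?_⟩,
    fun w ⟨hw, _, e'⟩ => hU.unique hw hu hva (e ▸ by_contra fun h6 => hv1 (hO.eq_one_of_fix h6 hv2 ?_ hc))⟩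
  · simp only [mul_smul, e, hc, hU.fix hu]
  · simp only [mul_smul, e, hc, hU.fix hu, hvv]; rw [← e, huu]
  · simp only [mul_smul, hc]; rw [← e, huu, hvv, hU.fix hu]
  · rw [← mul_smul, ← mul_smul, e', mul_smul, hU.fix hw, mul_smul]

end Cfsg.Agent.S1167
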