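import Cfsg.Statements.S1168
import Cfsg.Agent.Lib.Lie.FieldAut

set_option autoImplicit false
open Cfsg

namespace Cfsg.Agent.S1168

/-- For a finite field `F` of characteristic 2: if `q : F → F` is quadratic over the prime field, i.e. `(x, y) ↦ q (x + y) + q x + q y` is additive in each variable, then `q x = Σ c_{σ,τ} σ(x) τ(x)` for some coefficients indexed by pairs of field automorphisms. -/
theorem result {F : Type*} [Field F] [Fintype F] [CharP F 2]
    (q : F → F)
    (hq : ∀ x y z : F, q (x + y + z) + q (x + y) + q (x + z) + q (y + z) + q x + q y + q z = 0) :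
    ∃ (s : Finset ((F ≃+* F) × (F ≃+* F))) (c : (F ≃+* F) × (F ≃+* F) → F),
      ∀ x : F, q x = ∑ p ∈ s, c p * (p.1 x * p.2 x) := by
  have h01 : ∀ a : ZMod 2, a = 0 ∨ a = 1 := by decide
  have := CA.FieldAut.finite_aut F
  let _ := Fintype.ofFinite (F ≃+* F)
  have : Fact (Nat.Prime 2) := ⟨Nat.prime_two⟩
  let _ := ZMod.algebra F 2
  have h0 : q 0 = 0 := by
    have := hq 0 0 0
    simp only [add_zero] at this
    grind
  let Q : QuadraticMap (ZMod 2) F F := QuadraticMap.ofPolar q
    (fun a x => by rcases h01 a with rfl | rfl <;> simp [h0])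
    (fun x x' y => by
      have := hq x x' y
      simp only [QuadraticMap.polar]
      grind)
    (fun a x y => by rcases h01 a with rfl | rfl <;> simp [h0, QuadraticMap.polar])
  obtain ⟨B, hB⟩ := LinearMap.BilinMap.toQuadraticMap_surjective Q
  obtain ⟨c, hc⟩ := CA.FieldAut.exists_sum₂ 2 (LinearMap.toAddMonoidHom'.comp B.toAddMonoidHom)
  refine ⟨Finset.univ, c, fun x => ?_⟩
  rw [← hc]
  exact (DFunLike.congr_fun hB x).symm

end Cfsg.Agent.S1168
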