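import Cfsg.Statements.S1176
import Cfsg.Agent.Lib.Grp.H13Inv
import Mathlib.GroupTheory.Commutator.Basic

set_option autoImplicit false
open Cfsg

namespace Cfsg.Agent.S1176

open Subgroup CA.H13Inv

/-- Let x₀ be an involution of the finite group G and D its conjugacy class. Assume (a) for each x ∈ D the subgroup W(x) generated by the members of D commuting with x is a 2-group of nilpotency class at most 2, and (b) the product of two distinct commuting members of D again lies in D. Then for all x, y ∈ D, if xy has even order greater than 2, its order is 4. -/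
theorem result {G : Type*} [Group G] [Finite G] (x₀ : G) (hx₀ : orderOf x₀ = 2) (ha : ∀ x : G, IsConj x₀ x → IsPGroup 2 ↥(Subgroup.closure {y : G | IsConj x₀ y ∧ Commute y x}) ∧ ⁅⁅Subgroup.closure {y : G | IsConj x₀ y ∧ Commute y x}, Subgroup.closure {y : G | IsConj x₀ y ∧ Commute y x}⁆, Subgroup.closure {y : G | IsConj x₀ y ∧ Commute y x}⁆ = ⊥) (hb : ∀ x y : G, IsConj x₀ x → IsConj x₀ y → x ≠ y → Commute x y → IsConj x₀ (x * y)) (x y : G) (hx : IsConj x₀ x) (hy : IsConj x₀ y) (heven : Even (orderOf (x * y))) (hgt : 2 < orderOf (x * y)) : orderOf (x * y) = 4 := by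
  have hx2 : orderOf x = 2 := (orderOf_eq_of_isConj hx).symm.trans hx₀
  have hy2 : orderOf y = 2 := (orderOf_eq_of_isConj hy).symm.trans hx₀
  have hxx := mul_self hx2
  have hyy := mul_self hy2
  set z := (x * y) ^ (orderOf (x * y) / 2) with hz
  have hz2 : orderOf z = 2 := orderOf_pow_half heven
  have hzx : Commute z x := commute_pow_half_left hxx hyy heven
  have hzy : Commute z y := commute_pow_half_right hxx hyy heven
  have hxz : IsConj x₀ (x * z) := by
    rcases conj_mul_half hxx hyy heven with ⟨-, k, hk⟩ | ⟨-, k, hk⟩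
    · exact hx.trans (isConj_iff.2 ⟨_, hk⟩)
    · exact hy.trans (isConj_iff.2 ⟨_, hk⟩)
  have hzD : IsConj x₀ z := by
    have := hb x (x * z) hx hxz (fun e => ne_one hz2 (by simpa using e))
      ((Commute.refl x).mul_right hzx.symm)
    rwa [← mul_assoc, hxx, one_mul] at this
  have h1 := (ha z hzD).2
  have hxW : x ∈ closure {y : G | IsConj x₀ y ∧ Commute y z} := subset_closure ⟨hx, hzx.symm⟩
  have hyW : y ∈ closure {y : G | IsConj x₀ y ∧ Commute y z} := subset_closure ⟨hy, hzy.symm⟩
  have h2 := commutator_mem_commutator (commutator_mem_commutator hxW hyW) hxW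
  rw [h1, mem_bot, commutatorElement_eq_one_iff_mul_comm, commutatorElement_def, inv_eq hx2,
    inv_eq hy2] at h2
  have h3 : (x * y) ^ 4 = 1 := by
    calc (x * y) ^ 4 = (x * y * x * y * x) * y * x * y := by simp [pow_succ, mul_assoc]
      _ = (x * x) * y * x * (y * y) * x * y := by rw [h2]; group
      _ = y * (x * x) * y := by rw [hyy, hxx, one_mul, mul_one, mul_one, mul_assoc y x x, hxx, mul_one]
      _ = 1 := by rw [hxx, mul_one, hyy]
  have h4 := orderOf_dvd_of_pow_eq_one h3
  have h5 := Nat.le_of_dvd (by norm_num) h4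
  interval_cases h : orderOf (x * y)
  · norm_num at h4
  · rfl

end Cfsg.Agent.S1176
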