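import Cfsg.Statements.S1177
import Cfsg.Agent.Lib.Grp.Fus2

set_option autoImplicit false
open Cfsg

namespace Cfsg.Agent.S1177

open Subgroup CA.SylIn

/-- Let A be a nontrivial elementary abelian 2-subgroup of a finite group G which is a T.I. set (each conjugate of A meets A trivially or equals A) and which does not commute elementwise with any conjugate of A other than A itself. Then for every a ∈ A, a ≠ 1, every conjugate of A contained in C_G(a) is equal to A (A is weakly closed in C_G(a)). -/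
theorem result {G : Type*} [Group G] [Finite G] (A : Subgroup G) (hA : Cfsg.IsElementaryAbelian 2 A) (hA1 : A ≠ ⊥) (hTI : ∀ g : G, A.map (MulAut.conj g).toMonoidHom ⊓ A = ⊥ ∨ A.map (MulAut.conj g).toMonoidHom = A) (hb : ∀ g : G, (∀ a ∈ A, ∀ b ∈ A.map (MulAut.conj g).toMonoidHom, a * b = b * a) → A.map (MulAut.conj g).toMonoidHom = A) (a : G) (ha : a ∈ A) (ha1 : a ≠ 1) (g : G) (hg : A.map (MulAut.conj g).toMonoidHom ≤ Subgroup.centralizer ({a} : Set G)) : A.map (MulAut.conj g).toMonoidHom = A := by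
  by_contra hne
  have hcomm := CA.PGBasic.isMulCommutative_iff.1 hA.1
  set B := g •ᶜ A with hB
  have hTI' : ∀ (x y : G), y ≠ 1 → y ∈ A → x * y * x⁻¹ ∈ A → x ∈ normalizer (A : Set G) := by
    intro x y hy1 hy hxy
    refine mem_normalizer_iff_conj_eq.2 ((hTI x).resolve_left fun h => hy1 ?_)
    have : x * y * x⁻¹ ∈ x •ᶜ A ⊓ A := ⟨conj_mem_conj.2 hy, hxy⟩
    rw [h, mem_bot] at this
    simpa using this
  have hBA : B ⊓ A = ⊥ := (hTI g).resolve_right hne
  have hBN : B ≤ normalizer (A : Set G) := fun b hb => hTI' b a ha1 ha (by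
    rw [mem_centralizer_singleton_iff.1 (hg hb)]; simpa using ha)
  -- elements of `A` commuting with a nontrivial element of `B` centralize `B`
  have hcen : ∀ x ∈ A, ∀ b ∈ B, b ≠ 1 → x * b = b * x → x ∈ centralizer (B : Set G) := by
    intro x hx b hb hb1 hxb
    have h1 : x ∈ normalizer (B : Set G) := by
      rw [hB, ← conj_normalizer, mem_conj]
      refine hTI' _ (g⁻¹ * b * g) (fun e => hb1 (by simpa [mul_assoc] using congrArg (fun y => g * y * g⁻¹) e)) (mem_conj.1 hb) ?_
      have e : g⁻¹ * x * g * (g⁻¹ * b * g) * (g⁻¹ * x * g)⁻¹ = g⁻¹ * (x * b) * x⁻¹ * g := by group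
      rw [e, hxb]
      simpa [mul_assoc] using mem_conj.1 hb
    refine mem_centralizer_iff.2 fun c hc => ?_
    have : x * c * x⁻¹ * c⁻¹ ∈ B ⊓ A := mem_inf.2
      ⟨mul_mem (conj_mem_of_mem_normalizer h1 hc) (inv_mem hc), by
        have := mul_mem hx (conj_mem_of_mem_normalizer (hBN hc) (inv_mem hx))
        simpa [mul_assoc] using this⟩
    rw [hBA, mem_bot] at this
    exact (commutatorElement_eq_one_iff_mul_comm.1 this).symm
  have hlt : A ⊓ centralizer (B : Set G) < A := lt_of_le_of_ne inf_le_left fun h =>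
    hne (hb g fun x hx b hb => (mem_centralizer_iff.1 (h.ge hx).2 b hb).symm)
  obtain ⟨x, hx, hx'⟩ := SetLike.exists_of_lt hlt
  have hmemA : ∀ b ∈ B, x * b * x⁻¹ * b⁻¹ ∈ A := fun b hb => by
    have := mul_mem hx (conj_mem_of_mem_normalizer (hBN hb) (inv_mem hx))
    simpa [mul_assoc] using this
  have hmem : ∀ b ∈ B, x * b * x⁻¹ * b⁻¹ ∈ A ⊓ centralizer (B : Set G) := fun b hb => by
    by_cases hb1 : b = 1
    · simp [hb1]
    refine ⟨hmemA b hb, hcen _ (hmemA b hb) b hb hb1 ?_⟩
    have hb2 : b * b = 1 := by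
      have := hA.2 _ (mem_conj.1 hb)
      have e : (g⁻¹ * b * g) ^ 2 = g⁻¹ * (b * b) * g := by rw [sq]; group
      rw [e] at this
      simpa [mul_assoc] using congrArg (fun y => g * y * g⁻¹) this
    have hx2 : x⁻¹ = x := by rw [inv_eq_iff_mul_eq_one, ← sq]; exact hA.2 x hx
    have hbi : b⁻¹ = b := inv_eq_iff_mul_eq_one.2 hb2
    have h1 := hcomm x hx _ (conj_mem_of_mem_normalizer (hBN hb) hx)
    rw [hbi] at h1
    rw [hx2, hbi]
    calc x * b * x * b * b = x * b * x * (b * b) := by group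
      _ = (b * b) * (x * b * x) := by rw [hb2]; group
      _ = b * (b * x * b * x) := by group
      _ = _ := by rw [← h1]; group
  have hinj : Function.Injective fun b : B => (⟨_, hmem b b.2⟩ : ↥(A ⊓ centralizer (B : Set G))) := by
    intro b c h
    have h1 : x * b * x⁻¹ * (b : G)⁻¹ = x * c * x⁻¹ * (c : G)⁻¹ := congrArg Subtype.val h
    by_contra hbc
    refine hx' ⟨hx, hcen x hx ((c : G)⁻¹ * b) (mul_mem (inv_mem c.2) b.2)
      (fun e => hbc (Subtype.ext (inv_mul_eq_one.1 e).symm)) ?_⟩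
    calc x * ((c : G)⁻¹ * b) = (c : G)⁻¹ * (x * c * x⁻¹ * (c : G)⁻¹)⁻¹ * x * b := by group
      _ = (c : G)⁻¹ * (x * b * x⁻¹ * (b : G)⁻¹)⁻¹ * x * b := by rw [h1]
      _ = _ := by group
  have := Nat.card_le_card_of_injective _ hinj
  rw [hB, card_conj] at this
  exact absurd (card_lt_of_lt hlt) (not_lt.2 this)

end Cfsg.Agent.S1177
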