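import Cfsg.Statements.S1178
import Cfsg.Agent.Lib.Grp.SylIn

set_option autoImplicit false
open Cfsg

namespace Cfsg.Agent.S1178

open Subgroup CA.SylIn

/-- Let A be a subgroup of a Sylow 2-subgroup S of the finite group G which is weakly closed in S. If a conjugate g A g⁻¹ commutes elementwise with A, then g A g⁻¹ = A. -/
theorem result {G : Type*} [Group G] [Finite G] (S : Sylow 2 G) (A : Subgroup G) (hW : Cfsg.IsWeaklyClosed A (S : Subgroup G)) (g : G) (hc : ∀ a ∈ A, ∀ b ∈ A.map (MulAut.conj g).toMonoidHom, a * b = b * a) : A.map (MulAut.conj g).toMonoidHom = A := by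
  have hA : IsPGroup 2 A := S.isPGroup'.to_le hW.1
  have h1 : IsPGroup 2 (A ⊔ g •ᶜ A : Subgroup G) :=
    hA.to_sup_of_normal_left' (isPGroup_conj hA g) fun b hb =>
      centralizer_le_normalizer _ (mem_centralizer_iff.2 fun a ha => hc a ha b hb)
  obtain ⟨h, hh⟩ := exists_conj_le_sylow S h1
  rw [conj_sup, sup_le_iff, conj_conj] at hh
  have h2 := hW.2 _ hh.1
  have h3 := hW.2 _ hh.2
  rw [← conj_conj] at h3
  exact conj_inj.1 (h3.trans h2.symm)

end Cfsg.Agent.S1178
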