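import Cfsg.Statements.S1181
import Cfsg.Agent.Lib.Grp.Iso2

set_option autoImplicit false
open Cfsg

namespace Cfsg.Agent.S1181

open Subgroup CA.Iso2 CA.H13Inv CA.H13ZRed

/-- Let z be an isolated involution of the finite group G and N a normal subgroup with z ∉ N. Then the centralizer of zN in G/N is the image of C_G(z), and zN is an isolated involution of G/N. -/
theorem result {G : Type*} [Group G] [Finite G] (z : G) (hz : Cfsg.IsIsolatedInvolution z) (N : Subgroup G) [N.Normal] (hzN : z ∉ N) : Subgroup.centralizer ({(QuotientGroup.mk z : G ⧸ N)} : Set (G ⧸ N)) = (Subgroup.centralizer ({z} : Set G)).map (QuotientGroup.mk' N) ∧ Cfsg.IsIsolatedInvolution (QuotientGroup.mk z : G ⧸ N) := by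
  have hzz := mul_self hz.1
  have h2 : (z : G ⧸ N) * (z : G ⧸ N) = 1 := by rw [← QuotientGroup.mk_mul, hzz]; rfl
  refine ⟨le_antisymm (fun q hq => ?_) ?_, orderOf_eq_two_iff.2 ⟨h2, ?_⟩,
    ((oddIso hz).map _ (QuotientGroup.mk'_surjective N)).isolated h2⟩
  · obtain ⟨g, rfl⟩ := QuotientGroup.mk_surjective q
    obtain ⟨k, hk, c, hc, rfl⟩ := exists_mul_centralizer (oddIso hz) hzz (H := N) (g := g) (by
      rw [← QuotientGroup.eq_one_iff]
      simp only [QuotientGroup.mk_mul, QuotientGroup.mk_inv]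
      rw [mem_centralizer_singleton_iff.1 hq, mul_inv_cancel_right, h2])
    exact ⟨c, hc, by simp [(QuotientGroup.eq_one_iff k).2 hk]⟩
  · rintro _ ⟨c, hc, rfl⟩
    exact mem_centralizer_singleton_iff.2
      (congrArg (QuotientGroup.mk' N) (mem_centralizer_singleton_iff.1 hc))
  · exact fun h => hzN ((QuotientGroup.eq_one_iff z).1 h)

end Cfsg.Agent.S1181
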