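import Cfsg.Statements.S1183
import Cfsg.Agent.Lib.Grp.Iso2

set_option autoImplicit false
open Cfsg

namespace Cfsg.Agent.S1183

open Subgroup CA.Iso2 CA.H13Inv CA.PRes CA.SylIn

/-- Let z be an isolated involution of the finite group G and C = C_G(z). Then the subgroup of G generated by its elements of odd order is all of G if and only if the subgroup of C generated by its elements of odd order is all of C. -/
theorem result {G : Type*} [Group G] [Finite G] (z : G) (hz : Cfsg.IsIsolatedInvolution z) : Cfsg.pResidual 2 G = ⊤ ↔ Cfsg.pResidual 2 ↥(Subgroup.centralizer ({z} : Set G)) = ⊤ := by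
  have hzz := mul_self hz.1
  obtain ⟨S, hzS, hS⟩ := exists_sylow_le_centralizer (oddIso hz) hzz
  have h := CA.Trf.pResidual_inf_eq_of_controls S hS fun x hx g hg => by
    obtain ⟨c, -, h1, h2⟩ := exists_centralizer_conj (oddIso hz) hzz (H := ⊤)
      (le_normalizer (mem_top z)) (A := {x}) (mem_top g)
      (by rintro _ rfl; exact mem_centralizer_singleton_iff.1 (hS hx))
      (by rintro _ rfl; exact mem_centralizer_singleton_iff.1 (hS hg))
    exact ⟨c, mem_centralizer_singleton_iff.2 h1, h2 x rfl⟩
  rw [pResidual_eq_top_iff_sylow_le S,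
    pResidual_eq_top_iff_sylow_le (isSylowIn_of_le S hS).toSylow, ← inf_eq_right, h, inf_eq_right]
  constructor
  · intro h1 x hx
    obtain ⟨y, hy, e⟩ := h1 hx
    rwa [← show y = x from Subtype.ext e]
  · intro h1 x hx
    exact ⟨⟨x, hS hx⟩, h1 hx, rfl⟩

end Cfsg.Agent.S1183
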