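import Cfsg.Statements.S1184
import Cfsg.Agent.Lib.Grp.Iso2

set_option autoImplicit false
open Cfsg

namespace Cfsg.Agent.S1184

open Subgroup CA.Iso2 CA.H13Inv CA.H13ZRed CA.SylIn

/-- Let z be an isolated involution of the finite group G. If s and t are distinct conjugates of z, then st does not commute with z. -/
theorem result {G : Type*} [Group G] [Finite G] (z : G) (hz : Cfsg.IsIsolatedInvolution z) (g h : G) (hne : g * z * g⁻¹ ≠ h * z * h⁻¹) : ¬ Commute (g * z * g⁻¹ * (h * z * h⁻¹)) z := by
  intro hc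
  have hzz := mul_self hz.1
  have hss := conj_mul_self hzz g
  have htt := conj_mul_self hzz h
  set w := g * z * g⁻¹ * (h * z * h⁻¹) with hw
  have hodd : Odd (orderOf w) := (oddIso hz).odd_mul (isConj_iff.2 ⟨g, rfl⟩) (isConj_iff.2 ⟨h, rfl⟩)
  have hinv := conj_prod hss htt
  rw [← hw] at hinv
  have hzN : z ∈ centralizer (zpowers w : Set G) := by
    rw [CA.Fitting.centralizer_zpowers]; exact mem_centralizer_singleton_iff.2 hc.eq.symm
  have hsN : g * z * g⁻¹ ∈ normalizer (zpowers w : Set G) := mem_normalizer_of_forall fun y hy => by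
    rw [inv_of_mem_zpowers hinv hy]; exact inv_mem hy
  obtain ⟨k, hk, e⟩ := exists_conj_mem (oddIso hz) hzz
    (mul_mem (centralizer_le_normalizer _ hzN) hsN)
  have h1 := conj_mem_of_mem_normalizer (normalizer_le_normalizer_centralizer _ hk) hzN
  rw [e] at h1
  rw [← mem_centralizer_iff.1 h1 w (mem_zpowers w), mul_inv_cancel_right] at hinv
  have h2 := eq_one_of_odd_of_sq hodd (mul_eq_one_iff_eq_inv.2 hinv)
  apply hne
  rw [hw, mul_eq_one_iff_eq_inv] at h2
  rw [h2, inv_eq_of_mul_eq_one_right htt]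

end Cfsg.Agent.S1184
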