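import Cfsg.Statements.S1220
import Cfsg.Agent.Lib.Bend.BendCor

set_option autoImplicit false
open Cfsg

namespace Cfsg.Agent.S1220

/-- Let H be a strongly embedded subgroup of the finite group G. Then either G acts doubly transitively on the cosets of H (H permutes transitively the cosets gH with g ∉ H), or every Sylow 2-subgroup of G is cyclic or generalized quaternion and G = O(G)H. -/
theorem result {G : Type*} [Group G] [Finite G] (H : Subgroup G) (hH : Cfsg.IsStronglyEmbedded H) : (∀ g₁ g₂ : G, g₁ ∉ H → g₂ ∉ H → ∃ h ∈ H, g₂⁻¹ * (h * g₁) ∈ H) ∨ ((∀ S : Sylow 2 G, IsCyclic S ∨ ∃ m : ℕ, 1 ≤ m ∧ Nonempty ((S : Subgroup G) ≃* QuaternionGroup (2 ^ m))) ∧ Cfsg.oddCore G ⊔ H = ⊤) := by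
  by_cases hr : CA.Bend.Rk2 (⊤ : Subgroup G)
  · exact .inl fun _ _ => CA.BendCor.two_trans hH hr
  · refine .inr ⟨fun S => ?_, CA.BendCor.sup_of_not_rk hH hr⟩
    refine (CA.H13BS.cyclic_or_quaternion (G := (S : Subgroup G)) (fun a b ha hb hc => Subtype.ext
      (CA.BendCor.uniq_of_not_rk hr a b ((Subgroup.orderOf_coe a).trans ha) ((Subgroup.orderOf_coe b).trans hb)
        (congrArg Subtype.val hc.eq))) S.isPGroup').imp id ?_
    rintro ⟨n, hn⟩
    exact ⟨n + 1, by omega, hn⟩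

end Cfsg.Agent.S1220
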