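import Cfsg.Statements.S1222
import Cfsg.Agent.Lib.Suz.Cor

set_option autoImplicit false
open Cfsg

namespace Cfsg.Agent.S1222

/-- Let G be a finite simple group with a strongly embedded subgroup H such that H permutes transitively the cosets gH with g ∉ H, and H has a normal subgroup Q acting regularly on those cosets (transitively, with only the identity fixing any of them). Then G is isomorphic to PSL(2,F) with F of characteristic 2 and at least 4 elements, or is simple with the order of a Suzuki group, or is isomorphic to PSU(3) over a field with q² elements, q ≥ 4 a power of 2. -/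
theorem result {G : Type*} [Group G] [Finite G] [IsSimpleGroup G] (H : Subgroup G) (hH : Cfsg.IsStronglyEmbedded H) (Q : Subgroup G) (hQH : Q ≤ H) (hQn : (Q.subgroupOf H).Normal) (htrans : ∀ g₁ g₂ : G, g₁ ∉ H → g₂ ∉ H → ∃ u ∈ Q, g₂⁻¹ * (u * g₁) ∈ H) (hreg : ∀ g : G, g ∉ H → ∀ u ∈ Q, g⁻¹ * (u * g) ∈ H → u = 1) : (∃ (F : Type) (_ : Field F) (_ : Fintype F), CharP F 2 ∧ 4 ≤ Fintype.card F ∧ Nonempty (G ≃* Matrix.ProjectiveSpecialLinearGroup (Fin 2) F)) ∨ Cfsg.IsSuzuki G ∨ (∃ (F : Type) (_ : Field F) (_ : Fintype F) (q : ℕ), Fintype.card F = q ^ 2 ∧ Even q ∧ 4 ≤ q ∧ Nonempty (G ≃* Cfsg.PSU 3 F q)) := by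
  open CA.SEmb MulAction in
  have hst : ∀ g : G, g ∈ stabilizer G ((1 : G) : G ⧸ H) ↔ g ∈ H := fun g => smul_one_iff
  have key : ∀ b c : G ⧸ H, b ≠ ((1 : G) : G ⧸ H) → c ≠ ((1 : G) : G ⧸ H) → ∃ u ∈ Q, u • b = c := fun b c hb hc => by
    obtain ⟨g, rfl⟩ := QuotientGroup.mk_surjective b
    obtain ⟨g', rfl⟩ := QuotientGroup.mk_surjective c
    obtain ⟨u, hu, e⟩ := htrans g g' (mt mk_eq_one_iff.2 hb) (mt mk_eq_one_iff.2 hc)
    exact ⟨u, hu, by rw [Quotient.smul_coe, eq_comm, QuotientGroup.eq]; exact e⟩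
  have hQ : CA.SplitOne.Split G (G ⧸ H) ((1 : G) : G ⧸ H) Q := by
    refine ⟨CA.SplitOne2.two_iff.2 fun {b c d e} h1 h2 => ?_, fun u hu => (hst u).2 (hQH hu),
      fun g hg u hu => hQn.conj_mem ⟨u, hQH hu⟩ hu ⟨g, (hst g).1 hg⟩, key, fun u hu b hb e => ?_⟩
    · obtain ⟨g, hg⟩ := exists_smul_eq G b ((1 : G) : G ⧸ H)
      obtain ⟨g', hg'⟩ := exists_smul_eq G d ((1 : G) : G ⧸ H)
      obtain ⟨u, hu, e'⟩ := key (g • c) (g' • e) (fun e => h1 (smul_left_cancel g (hg.trans e.symm)))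
        (fun e => h2 (smul_left_cancel g' (hg'.trans e.symm)))
      refine ⟨g'⁻¹ * u * g, ?_, ?_⟩ <;> rw [mul_smul, mul_smul, inv_smul_eq_iff]
      · rw [hg, hg']; exact (hst u).2 (hQH hu)
      · exact e'
    · obtain ⟨g, rfl⟩ := QuotientGroup.mk_surjective b
      exact hreg g (mt mk_eq_one_iff.2 hb) u hu (by rw [← mul_assoc]; exact (smul_mk_iff _ _).1 e)
  obtain ⟨b, hb⟩ := exists_ne hH ((1 : G) : G ⧸ H)
  obtain ⟨t, ht, rfl⟩ := exists_swap' hH hb.symm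
  have ht2 : t * t = 1 := by rw [← pow_two, ← ht, pow_orderOf_eq_one]
  have hD : CA.SuzBase.Dg ((1 : G) : G ⧸ H) t = H ⊓ H.map (MulAut.conj t).toMonoidHom := by
    ext d; rw [mem_D_iff, ← smul_one_eq t]; rfl
  have ho : Odd (Nat.card (CA.SuzBase.Dg ((1 : G) : G ⧸ H) t)) := hD ▸ hH.2.2 t (mt smul_one_iff.2 hb)
  have he : Even (Nat.card Q) := by
    have h1 := hH.2.1
    rw [← show stabilizer G ((1 : G) : G ⧸ H) = H from Subgroup.ext hst, hQ.card_stabilizer hb, Nat.even_mul] at h1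
    exact h1.resolve_right (Nat.not_even_iff_odd.2 ho)
  have : FaithfulSMul G (G ⧸ H) := ⟨fun {x y} h => by
    have h1 := (Subgroup.normalCore_normal H).eq_bot_or_eq_top.resolve_right fun e =>
      hH.1 (top_le_iff.1 (e ▸ H.normalCore_le))
    rw [Subgroup.normalCore_eq_ker, MonoidHom.ker_eq_bot_iff] at h1
    exact h1 (Equiv.ext h)⟩
  have hc : ¬ IsCyclic G := fun h => by
    have h1 := hH.2.1
    have : H.Normal := ⟨fun x hx g => by rwa [h.isMulCommutative.is_comm.comm g x, mul_inv_cancel_right]⟩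
    rw [this.eq_bot_or_eq_top.resolve_right hH.1, Subgroup.card_bot] at h1
    exact absurd h1 (by decide)
  have h4 : ∀ n, 2 ≤ n → 4 ≤ 2 ^ n := fun n hn => Nat.pow_le_pow_right two_pos hn
  rcases CA.SuzCor.simple_cases (CA.SuzCor.setup_of_split hQ ht2 hb he ho) hc with
    ⟨-, F, _, _, ⟨n, h1, h2⟩, e⟩ | h | ⟨-, F, _, _, n, h1, h2, -, e⟩
  · refine Or.inl ⟨F, _, _, CharTwo.of_one_ne_zero_of_two_eq_zero one_ne_zero (CA.Zass.two_eq_zero_iff.2 ?_),
      h2 ▸ h4 n h1, e⟩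
    rw [Nat.card_eq_fintype_card, h2]
    exact Nat.even_pow.2 ⟨even_two, by omega⟩
  · exact Or.inr (Or.inl (CA.SuzCor.isSuzuki h.2))
  · exact Or.inr (Or.inr ⟨F, _, _, _, h2, Nat.even_pow.2 ⟨even_two, by omega⟩, h4 n h1, e⟩)

end Cfsg.Agent.S1222
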