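import Cfsg.Statements.S1223
import Cfsg.Agent.Lib.Cit.Bc
import Cfsg.Agent.Lib.Grp.SEmb
import Cfsg.Agent.Lib.Loc.AmbSyl

set_option autoImplicit false
open Cfsg

namespace Cfsg.Agent.S1223

open Subgroup CA.Amb CA.AmbSyl CA.SEmb

theorem orderOf_dvd_natCard_of_mem' {G : Type*} [Group G] {K : Subgroup G} {x : G} (h : x ∈ K) :
    orderOf x ∣ Nat.card K := by
  have := orderOf_dvd_natCard (⟨x, h⟩ : K)
  rwa [orderOf_mk] at this

/-- Let H be a strongly embedded subgroup of the finite group G containing no nontrivial normal subgroup of G (so G acts faithfully on the cosets of H), u an involution of G outside H, and j ≠ 1 an element of H ∩ uHu⁻¹ with u j u⁻¹ = j⁻¹. Then C_G(j) has odd order. -/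
theorem result {G : Type*} [Group G] [Finite G] (H : Subgroup G) (hH : Cfsg.IsStronglyEmbedded H) (hcore : H.normalCore = ⊥) (u : G) (hu : orderOf u = 2) (huH : u ∉ H) (j : G) (hj : j ∈ (H ⊓ H.map (MulAut.conj u).toMonoidHom)) (hj1 : j ≠ 1) (hinv : u * j * u⁻¹ = j⁻¹) : Odd (Nat.card (Subgroup.centralizer ({j} : Set G))) := by
  haveI : Fact (Nat.Prime 2) := ⟨Nat.prime_two⟩
  by_contra hodd
  rw [Nat.not_odd_iff_even] at hodd
  have hu2 : u * u = 1 := by rw [← pow_two, ← hu, pow_orderOf_eq_one]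
  have hn : zpowers u ≤ normalizer ((centralizer ({j} : Set G) : Subgroup G) : Set G) := by
    rw [zpowers_le]
    refine mem_normalizer_of_cj_le ?_
    rw [cj_centralizer_singleton, hinv]
    intro x hx
    rw [mem_centralizer_singleton_iff] at hx ⊢
    exact (Commute.inv_right_iff.1 hx)
  obtain ⟨T, hT, huT⟩ := exists_sylIn_ge (p := 2) (L := centralizer ({j} : Set G) ⊔ zpowers u)
    (isPGroup_zpowers_of_orderOf (k := 1) (by simpa using hu)) le_sup_right
  have hn' : centralizer ({j} : Set G) ⊔ zpowers u ≤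
      normalizer ((centralizer ({j} : Set G) : Subgroup G) : Set G) := sup_le le_normalizer hn
  have h1 := (hT.inf_norm le_sup_left hn').ne_bot hodd.two_dvd
  have h2 := inf_centralizer_ne_bot hT.pg (hT.pg.to_le inf_le_left)
    (norm_inf le_normalizer (hT.le.trans hn')) h1
  obtain ⟨t, ⟨⟨-, htj⟩, htc⟩, ho⟩ := exists_orderOf_eq_of_ne_bot
    (hT.pg.to_le (inf_le_left.trans inf_le_left)) h2
  have hut : u * t = t * u := mem_centralizer_sub.1 htc u (huT (mem_zpowers u))
  have htj' : t * j = j * t := mem_centralizer_singleton_iff.1 htj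
  have ht2 : t * t = 1 := by rw [← pow_two, ← ho, pow_orderOf_eq_one]
  have ht1 : t ≠ 1 := by rintro rfl; simp at ho
  have hu1 : u ≠ 1 := by rintro rfl; simp at hu
  have hjo : Odd (orderOf j) := (hH.2.2 u huH).of_dvd_nat (orderOf_dvd_natCard_of_mem' hj)
  have hjj : j * j ≠ 1 := fun h => by
    have := orderOf_eq_prime (p := 2) (by rw [pow_two, h]) hj1
    rw [this] at hjo; exact absurd hjo (by decide)
  have hne : u ≠ t := by
    rintro rfl
    apply hjj
    rw [htj', mul_inv_cancel_right] at hinv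
    exact mul_eq_one_iff_eq_inv.2 hinv
  obtain ⟨z, hz⟩ := exists_fix hH ho
  have huz : u • z = z := fix_of_comm hH ho hz hut
  have hjz : j • z = z := fix_of_comm hH ho hz htj'.symm
  obtain ⟨-, hall, -, Q, hQ⟩ := CA.Bc.exists_bt hH
    ⟨u, mem_top _, t, mem_top _, hu1, ht1, hne, hu2, ht2, hut⟩ z
  have huj2 : u * j * (u * j) = 1 := by
    rw [show u * j * (u * j) = u * j * u⁻¹ * (u * u) * j by group, hu2, hinv]; group
  have huj1 : u * j ≠ 1 := fun h => hjj (by
    have : j = u := by rw [← inv_eq_of_mul_eq_one_right h, inv_eq_of_mul_eq_one_right hu2]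
    rw [this, hu2])
  have hjQ : j ∈ Q := by
    have h1 := hQ.inv u (mem_top _) ⟨hu1, hu2, huz⟩
    have h2 := hQ.inv (u * j) (mem_top _) ⟨huj1, huj2, by rw [mul_smul, hjz, huz]⟩
    simpa using Q.mul_mem (Q.inv_mem h1) h2
  have hx : ((1 : G) : G ⧸ H) ≠ z := by
    rintro rfl
    exact huH (smul_one_iff.1 huz)
  have hJ := hQ.reg j hjQ _ (hall _) hx (smul_one_iff.2 hj.1)
  apply hj1
  rw [← mem_bot, ← hcore]
  intro b
  have := (mem_iInf.1 hJ.2) ⟨(b⁻¹ : G), hall _⟩
  have := (smul_mk_iff j b⁻¹).1 this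
  simpa using this

end Cfsg.Agent.S1223
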