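import Cfsg.Statements.S1224
import Cfsg.Agent.Lib.Grp.SEmb

set_option autoImplicit false
open Cfsg

namespace Cfsg.Agent.S1224


open Subgroup CA.SEmb CA.SylIn MulAction

/-- Let H be a strongly embedded subgroup of the finite group G and x ≠ y two cosets in G/H. Then the number of involutions i of G with i • x = y equals the number of involutions lying in H. -/
theorem result {G : Type*} [Group G] [Finite G] (H : Subgroup G) (hH : Cfsg.IsStronglyEmbedded H) (x y : G ⧸ H) (hxy : x ≠ y) : Nat.card {i : G // orderOf i = 2 ∧ i • x = y} = Nat.card {t : G // orderOf t = 2 ∧ t ∈ H} := by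
  rw [card_eq hH x y (1 : G)]
  simp only [smul_one_iff]

end Cfsg.Agent.S1224
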