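import Cfsg.Statements.S1227
import Cfsg.Agent.Lib.Grp.SEmb

set_option autoImplicit false
open Cfsg

namespace Cfsg.Agent.S1227


open Subgroup CA.SEmb CA.SylIn MulAction

/-- Let G be a finite group with a Sylow 2-subgroup T that is neither cyclic nor normal, such that the centralizer of every involution is an elementary abelian 2-group; put H = N_G(T), let u be an involution outside H and D = H ∩ uHu⁻¹. Then u inverts every element of D, |H| = |T|·(|T| − 1), and D is a complement to T in H. -/
theorem result {G : Type*} [Group G] [Finite G] (T : Sylow 2 G) (hnc : ¬ IsCyclic (T : Subgroup G)) (hnn : ¬ (T : Subgroup G).Normal) (hC : ∀ t : G, orderOf t = 2 → IsMulCommutative (Subgroup.centralizer ({t} : Set G)) ∧ ∀ c ∈ Subgroup.centralizer ({t} : Set G), c ^ 2 = 1) (u : G) (hu : orderOf u = 2) (huH : u ∉ Subgroup.normalizer ((T : Subgroup G) : Set G)) : (∀ d ∈ Subgroup.normalizer ((T : Subgroup G) : Set G) ⊓ (Subgroup.normalizer ((T : Subgroup G) : Set G)).map (MulAut.conj u).toMonoidHom, u * d * u⁻¹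 = d⁻¹) ∧ Nat.card (Subgroup.normalizer ((T : Subgroup G) : Set G)) = Nat.card T * (Nat.card T - 1) ∧ Subgroup.IsComplement' ((Subgroup.normalizer ((T : Subgroup G) : Set G) ⊓ (Subgroup.normalizer ((T : Subgroup G) : Set G)).map (MulAut.conj u).toMonoidHom).subgroupOf (Subgroup.normalizer ((T : Subgroup G) : Set G))) ((T : Subgroup G).subgroupOf (Subgroup.normalizer ((T : Subgroup G) : Set G))) := by
  have h : EA T := ⟨hnc, hnn, hC⟩
  have H := h.hyp hu huH
  have hN : stabilizer G ((1 : G) : G ⧸ normalizer ((T : Subgroup G) : Set G)) =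
      normalizer ((T : Subgroup G) : Set G) := Subgroup.ext fun _ => smul_one_iff
  have hD : normalizer ((T : Subgroup G) : Set G) ⊓
      (normalizer ((T : Subgroup G) : Set G)).map (MulAut.conj u).toMonoidHom =
      stabilizer G ((1 : G) : G ⧸ normalizer ((T : Subgroup G) : Set G)) ⊓
        stabilizer G (u : G ⧸ normalizer ((T : Subgroup G) : Set G)) :=
    Subgroup.ext fun _ => mem_D_iff
  have h1 := H.split.card_stabilizer H.ne
  rw [← hD, hN] at h1
  have h2 : Nat.card ↥(normalizer ((T : Subgroup G) : Set G) ⊓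
      (normalizer ((T : Subgroup G) : Set G)).map (MulAut.conj u).toMonoidHom) = Nat.card T - 1 := by
    obtain ⟨s, hs, h1⟩ := H.nontriv
    have he : (⟨s, hs⟩ : (T : Subgroup G)) ≠ 1 := fun e => h1 (congrArg Subtype.val e)
    rw [hD, Nat.card_congr (Equiv.ofBijective (fun d => (⟨H.act d ⟨s, hs⟩, H.act_ne he d⟩ :
      {x : (T : Subgroup G) // x ≠ 1})) ⟨fun a b e => H.act_inj he (congrArg Subtype.val e), fun x => by
        obtain ⟨d, hd⟩ := (H.exists_act he x).resolve_left x.2
        exact ⟨d, Subtype.ext hd.symm⟩⟩)]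
    classical
    haveI := Fintype.ofFinite (T : Subgroup G)
    rw [Nat.card_eq_fintype_card, Fintype.card_subtype_compl, Fintype.card_subtype_eq,
      ← Nat.card_eq_fintype_card]
  refine ⟨fun d hd => H.inv d (mem_D_iff.1 hd).1 (mem_D_iff.1 hd).2, by rw [h1, h2],
    isComplement'_of_card_mul_and_disjoint ?_ (disjoint_def.2 fun {x} h3 h4 => Subtype.ext ?_)⟩
  · rw [Nat.card_congr (subgroupOfEquivOfLe inf_le_left).toEquiv,
      Nat.card_congr (subgroupOfEquivOfLe le_normalizer).toEquiv, h1, mul_comm]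
  · exact h.eq_one_of_mem h4 H.ne (mem_D_iff.1 h3).2

end Cfsg.Agent.S1227
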