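import Cfsg.Statements.S1228
import Cfsg.Agent.Lib.Grp.SEmb

set_option autoImplicit false
open Cfsg

namespace Cfsg.Agent.S1228


open Subgroup CA.SEmb CA.SylIn MulAction

/-- Let G be a finite group with a Sylow 2-subgroup T that is neither cyclic nor normal, such that the centralizer of every involution is an elementary abelian 2-group; put H = N_G(T), let u be an involution outside H and D = H ∩ uHu⁻¹. Then N_G(D) = D ⊔ ⟨u⟩, and a coset gH is fixed by every element of D exactly when gH = H or gH = uH. -/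
theorem result {G : Type*} [Group G] [Finite G] (T : Sylow 2 G) (hnc : ¬ IsCyclic (T : Subgroup G)) (hnn : ¬ (T : Subgroup G).Normal) (hC : ∀ t : G, orderOf t = 2 → IsMulCommutative (Subgroup.centralizer ({t} : Set G)) ∧ ∀ c ∈ Subgroup.centralizer ({t} : Set G), c ^ 2 = 1) (u : G) (hu : orderOf u = 2) (huH : u ∉ Subgroup.normalizer ((T : Subgroup G) : Set G)) : Subgroup.normalizer ((Subgroup.normalizer ((T : Subgroup G) : Set G) ⊓ (Subgroup.normalizer ((T : Subgroup G) : Set G)).map (MulAut.conj u).toMonoidHom : Subgroup G) : Set G) = (Subgroup.normalizer ((T : Subgroup G) : Set G) ⊓ (Subgroup.normalizer ((T : Subgroup G) : Set G)).map (MulAut.conj u).toMonoidHom) ⊔ Subgroup.zpowers u ∧ ∀ g : G, ((∀ d ∈ Subgroup.normalizer ((T : Subgroup G) : Set G) ⊓ (Subgroup.normalizer ((T : Subgroup G) : Set G)).map (MulAut.conj u).toMonoidHom, d • (QuotientGroup.mk g : G ⧸ Subgroup.normalizer ((T : Subgroup G) : Set G)) = QuotientGroup.mk g) ↔ (QuotientGroup.mk g : G ⧸ Subgroup.normalizer ((T : Subgroup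 G) : Set G)) = QuotientGroup.mk 1 ∨ (QuotientGroup.mk g : G ⧸ Subgroup.normalizer ((T : Subgroup G) : Set G)) = QuotientGroup.mk u) := by
  have h : EA T := ⟨hnc, hnn, hC⟩
  have H := h.hyp hu huH
  have key : ∀ x : G ⧸ normalizer ((T : Subgroup G) : Set G),
      (∀ d ∈ normalizer ((T : Subgroup G) : Set G) ⊓
        (normalizer ((T : Subgroup G) : Set G)).map (MulAut.conj u).toMonoidHom, d • x = x) ↔
      x = (1 : G) ∨ x = u := fun x => by
    refine ⟨fun hx => ?_, fun hx d hd => ?_⟩
    · by_contra! hc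
      obtain ⟨s, hs, t, ht, h1, h2, h3⟩ := h.exists_two
      obtain ⟨d, d1, d2, d3⟩ := h.exists_D hs ht h1 h2 H.ne
      obtain rfl := h.three hc.1 hc.2 H.ne.symm (hx d (mem_D_iff.2 ⟨d1, d2⟩)) d1 d2
      exact h3 (by simpa using d3)
    · rcases hx with rfl | rfl
      exacts [(mem_D_iff.1 hd).1, (mem_D_iff.1 hd).2]
  refine ⟨le_antisymm (fun n hn => ?_) (sup_le le_normalizer (zpowers_le.2
    (mem_normalizer_of_forall fun d hd => ?_))), fun g => key g⟩
  · have h1 : ∀ x : G ⧸ normalizer ((T : Subgroup G) : Set G), (x = (1 : G) ∨ x = u) →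
        n • x = (1 : G) ∨ n • x = u := fun x hx =>
      (key _).1 fun d hd => by
        have := conj_smul_fix (g := n) ((key x).2 hx _ (inv_conj_mem_of_mem_normalizer hn hd))
        simpa [mul_assoc] using this
    have h2 := smul_left_cancel n (x := ((1 : G) : G ⧸ normalizer ((T : Subgroup G) : Set G))) (y := u)
    rcases h1 _ (Or.inl rfl) with a | a <;> rcases h1 _ (Or.inr rfl) with b | b
    · exact absurd (h2 (a.trans b.symm)).symm H.ne
    · exact mem_sup_left (mem_D_iff.2 ⟨a, b⟩)
    · have : n * u⁻¹ ∈ normalizer ((T : Subgroup G) : Set G) ⊓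
          (normalizer ((T : Subgroup G) : Set G)).map (MulAut.conj u).toMonoidHom :=
        mem_D_iff.2 ⟨by rw [mul_smul, inv_smul_eq_iff.2 H.ub.symm, b],
          by rw [mul_smul, inv_smul_eq_iff.2 H.ua.symm, a]⟩
      simpa using mul_mem (mem_sup_left this) (mem_sup_right (mem_zpowers u))
    · exact absurd (h2 (a.trans b.symm)).symm H.ne
  · rw [H.inv d (mem_D_iff.1 hd).1 (mem_D_iff.1 hd).2]
    exact inv_mem hd

end Cfsg.Agent.S1228
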