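import Cfsg.Statements.S1229
import Cfsg.Agent.Lib.Grp.SEmb

set_option autoImplicit false
open Cfsg

namespace Cfsg.Agent.S1229


open Subgroup CA.SEmb CA.SylIn MulAction

/-- Let G be a finite group with a Sylow 2-subgroup T that is neither cyclic nor normal, such that the centralizer of every involution is an elementary abelian 2-group; put H = N_G(T) and X = G/H. Then G is triply transitive on X, an element fixing three distinct points of X is the identity, and T acts regularly on X minus the point H. -/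
theorem result {G : Type*} [Group G] [Finite G] (T : Sylow 2 G) (hnc : ¬ IsCyclic (T : Subgroup G)) (hnn : ¬ (T : Subgroup G).Normal) (hC : ∀ t : G, orderOf t = 2 → IsMulCommutative (Subgroup.centralizer ({t} : Set G)) ∧ ∀ c ∈ Subgroup.centralizer ({t} : Set G), c ^ 2 = 1) : (∀ x₁ x₂ x₃ y₁ y₂ y₃ : G ⧸ Subgroup.normalizer ((T : Subgroup G) : Set G), x₁ ≠ x₂ → x₁ ≠ x₃ → x₂ ≠ x₃ → y₁ ≠ y₂ → y₁ ≠ y₃ → y₂ ≠ y₃ → ∃ g : G, g • x₁ = y₁ ∧ g • x₂ = y₂ ∧ g • x₃ = y₃) ∧ (∀ g : G, ∀ x₁ x₂ x₃ : G ⧸ Subgroup.normalizer ((T : Subgroup G) : Set G), x₁ ≠ x₂ → x₁ ≠ x₃ → x₂ ≠ x₃ → g • x₁ = x₁ → g • x₂ = x₂ → g • x₃ = x₃ → g = 1) ∧ (∀ x y : G ⧸ Subgroup.normalizer ((T : Subgroup G) : Set G), x ≠ QuotientGroup.mk 1 → y ≠ QuotientGroup.mk 1 → ∃! t : G, t ∈ T ∧ t • x = y) := by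
  have h : EA T := ⟨hnc, hnn, hC⟩
  have H := h.split
  refine ⟨fun x₁ x₂ x₃ y₁ y₂ y₃ a1 a2 a3 b1 b2 b3 => ?_, fun g _ _ _ => h.three, fun x y hx hy => ?_⟩
  · obtain ⟨b, hb⟩ := exists_ne h.se (1 : G)
    obtain ⟨g, g1, g2⟩ := H.two' a1 hb.symm
    obtain ⟨k, k1, k2⟩ := H.two' b1 hb.symm
    obtain ⟨s, hs, e⟩ := h.trans hb (y := g • x₃) fun e => a2 (smul_left_cancel g (g1.trans e.symm))
    obtain ⟨t, ht, e'⟩ := h.trans hb (y := k • y₃) fun e => b2 (smul_left_cancel k (k1.trans e.symm))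
    obtain ⟨d, d1, d2, d3⟩ := h.exists_D hs ht
      (by rintro rfl; exact a3 (smul_left_cancel g (g2.trans ((one_smul _ _).symm.trans e))))
      (by rintro rfl; exact b3 (smul_left_cancel k (k2.trans ((one_smul _ _).symm.trans e')))) hb
    refine ⟨k⁻¹ * d * g, ?_, ?_, ?_⟩ <;> rw [mul_smul, mul_smul, inv_smul_eq_iff]
    · rw [g1, d1, k1]
    · rw [g2, d2, k2]
    · rw [← e, ← e', ← d3, mul_smul, mul_smul, inv_smul_eq_iff.2 d2.symm]
  · obtain ⟨s, hs, e⟩ := h.trans hx hy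
    exact ⟨s, ⟨hs, e⟩, fun t ht => H.unique ht.1 hs hx (ht.2.trans e.symm)⟩

end Cfsg.Agent.S1229
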