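import Cfsg.Statements.S1231
import Cfsg.Agent.Lib.Grp.Fus3

set_option autoImplicit false
open Cfsg

namespace Cfsg.Agent.S1231

open Subgroup CA.SylIn CA.Fus3

/-- Let H be a subgroup of the finite group G, p a prime, k ≥ 1, and P a Sylow p-subgroup of H whose p-rank is at least k. Then N_G(X) ≤ H for every subgroup X of P of p-rank at least k if and only if H ∩ gHg⁻¹ has p-rank less than k for every g ∉ H. -/
theorem result {G : Type*} [Group G] [Finite G] {p : ℕ} [Fact p.Prime] (k : ℕ) (hk : 1 ≤ k) (H : Subgroup G) (P : Sylow p ↥H) (hP : ¬ Cfsg.PRankLE p (k - 1) ↥(P : Subgroup ↥H)) : (∀ X : Subgroup G, X ≤ (P : Subgroup ↥H).map H.subtype → ¬ Cfsg.PRankLE p (k - 1) ↥X → Subgroup.normalizer (X : Set G) ≤ H) ↔ (∀ g : G, g ∉ H → Cfsg.PRankLE p (k - 1) ↥(H ⊓ H.map (MulAut.conj g).toMonoidHom)) := by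
  have hT := isSylowIn_map P
  set T := (P : Subgroup H).map H.subtype with hTdef
  have hP' : ¬ PRankLE p (k - 1) T := fun h => hP
    (prankLE_of_injective h (equivMapOfInjective (P : Subgroup H) H.subtype H.subtype_injective).toMonoidHom
      (equivMapOfInjective (P : Subgroup H) H.subtype H.subtype_injective).injective)
  constructor
  · intro h g hg
    obtain ⟨S, hS⟩ := exists_sylow_eq_of_normalizer_le hT (h T le_rfl hP')
    have key := CA.Alperin.alperin S (fun D g => ¬ PRankLE p (k - 1) D → g ∈ H)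
      (fun D E g hED _ _ hR hE => hR fun hD => hE (prankLE_of_le hD hED))
      (fun D g a _ _ _ h1 h2 hD => mul_mem (h2 (by rwa [prankLE_conj])) (h1 hD))
      (fun D hD _ _ n hn hD' => h D (hS ▸ hD) hD' hn)
    rw [prankLE_iff]
    intro A hA hE
    by_contra hc
    have hAp := CA.PGNormalCyclic.isPGroup_of_isElementaryAbelian hE
    have hA' : ¬ PRankLE p (k - 1) A := fun h => hc (prankLE_iff.1 h A le_rfl hE)
    obtain ⟨a, ha, h1⟩ := hT.exists_conj_le hAp (hA.trans inf_le_left)
    obtain ⟨b, hb, h2⟩ := hT.exists_conj_le (isPGroup_conj hAp g⁻¹)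
      (le_conj_iff_inv_conj_le.1 (hA.trans inf_le_right))
    rw [conj_conj] at h2
    have := key (a •ᶜ A) (b * g⁻¹ * a⁻¹) (hS ▸ h1)
      (by rw [conj_conj, inv_mul_cancel_right, hS]; exact h2) (by rwa [prankLE_conj])
    exact hg (by simpa [mul_assoc] using inv_mem (mul_mem (mul_mem (inv_mem hb) this) ha))
  · intro h X hX hX' n hn
    by_contra hc
    refine hX' (prankLE_of_le (h n hc) (le_inf (hX.trans hT.le) ?_))
    rw [← conj_eq_of_mem_normalizer hn]
    exact conj_mono n (hX.trans hT.le)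

end Cfsg.Agent.S1231
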