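import Cfsg.Statements.S1235
import Cfsg.Agent.Lib.Loc.H13Sr

set_option autoImplicit false
open Cfsg

namespace Cfsg.Agent.S1235

/-- Let G be a finite group, x an involution and T ≤ G a Sylow 2-subgroup of C_G(x) (T ≤ C_G(x) with |C_G(x) : T| odd) which is the internal direct product of a subgroup D that is dihedral (of order ≥ 4) or quasi-dihedral and a Klein four-subgroup B. Suppose that for every involution b ∈ B, T ≤ C_G(b) with |C_G(b) : T| odd. Then every section of G has 2-rank at most 4. -/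
theorem result {G : Type*} [Group G] [Finite G] (x : G) (hx : orderOf x = 2) (T D B : Subgroup G) (hT : IsPGroup 2 T) (hTx : T ≤ Subgroup.centralizer ({x} : Set G)) (hTxi : Odd (T.relIndex (Subgroup.centralizer ({x} : Set G)))) (hprod : Cfsg.IsInternalDirectProduct D B T) (hD : (∃ m : ℕ, 2 ≤ m ∧ Nonempty (D ≃* DihedralGroup m)) ∨ Cfsg.IsQuasiDihedral D) (hB : IsKleinFour B) (hTb : ∀ b ∈ B, orderOf b = 2 → T ≤ Subgroup.centralizer ({b} : Set G) ∧ Odd (T.relIndex (Subgroup.centralizer ({b} : Set G)))) : Cfsg.SectionalPRankLE 2 4 G := by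
  open Subgroup Cfsg CA CA.Amb CA.AmbSyl CA.AmbCore CA.AmbRes CA.H13Sr in
  (
    obtain ⟨S, hS, hTS⟩ := exists_sylIn_ge hT (le_top : T ≤ ⊤)
    obtain ⟨-, b1, hc, hi, hs⟩ := hprod
    obtain ⟨r, r2, r3⟩ : ∃ r : D, Nat.card D = orderOf r * 2 ∧ ((∀ d : D, d * r = r * d) → r * r = 1) := by
      rcases hD with ⟨m, -, ⟨e⟩⟩ | ⟨n, n3, c, x, y, o, -, e⟩
      · refine ⟨e.symm (.r 1), by rw [e.symm.orderOf_eq, DihedralGroup.orderOf_r_one, Nat.card_congr e.toEquiv,
          DihedralGroup.nat_card, mul_comm], fun h => e.injective ?_⟩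
        have := congrArg e (h (e.symm (.sr 0)))
        simp only [map_mul, e.apply_symm_apply, DihedralGroup.sr_mul_r, DihedralGroup.r_mul_sr,
          DihedralGroup.sr.injEq, zero_add, zero_sub] at this
        rw [map_mul, e.apply_symm_apply, DihedralGroup.r_mul_r, map_one, DihedralGroup.one_def,
          add_eq_zero_iff_eq_neg.2 this]
      · refine ⟨x, by rw [c, o, pow_succ], fun h => ?_⟩
        rw [h y, mul_inv_cancel_right] at e
        obtain ⟨k, rfl⟩ : ∃ k, n = k + 3 := ⟨n - 3, by omega⟩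
        have p : 0 < 2 ^ k := by positivity
        have p2 : 2 ^ (k + 2) = 4 * 2 ^ k := by ring
        have p3 : 2 ^ (k + 3) = 8 * 2 ^ k := by ring
        have h1 : x ^ (2 ^ (k + 2) - 2) = 1 := mul_right_cancel (b := x) (by
          rw [← pow_succ, one_mul, show 2 ^ (k + 2) - 2 + 1 = 2 ^ (k + 3 - 1) - 1 by
            rw [show k + 3 - 1 = k + 2 by omega]; omega, ← e])
        have := orderOf_le_of_pow_eq_one (by omega) h1
        omega
    have b2 : ∀ x ∈ B, x * x = 1 := fun x a => congrArg Subtype.val (IsKleinFour.mul_self (⟨x, a⟩ : B))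
    haveI : Fact (Nat.Prime 2) := ⟨Nat.prime_two⟩
    refine of_srin hS (main (r := r) hS.pg hTS hs (fun a h b k => (hc a h b k).symm) hi hB.card_four b2 r.2
      (by rw [r2, Nat.card_zpowers, orderOf_coe]) (fun h => congrArg Subtype.val (r3 fun d => Subtype.ext (h d d.2)))
      fun b a n g g1 g2 => ?_)
    obtain ⟨h1, h2⟩ := hTb b a (orderOf_eq_prime ((sq b).trans (b2 b a)) n)
    exact ((sylIn_of_not_dvd h1 hT h2.not_two_dvd_nat).max (hS.pg.to_le inf_le_left) (le_inf hTS h1)
      inf_le_right).le ⟨g1, mem_centralizer_singleton_iff.2 g2⟩)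

end Cfsg.Agent.S1235
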