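import Cfsg.Statements.S1236
import Cfsg.Agent.Lib.Grp.MC3

set_option autoImplicit false
open Cfsg

namespace Cfsg.Agent.S1236

open Subgroup in
theorem aux {Q : Type*} [Group Q] [Finite Q] (a y : Q) (hi : (zpowers a).index = 2) (hy : y ∉ zpowers a)
    (h : ∀ c ∈ zpowers a, y * c = c * y → c ^ 2 = 1) (B : Subgroup Q) (hB : Nat.card B = 4)
    (h2 : ∀ b ∈ B, b ^ 2 = 1) (hc : B ≤ centralizer (B : Set Q)) : centralizer (B : Set Q) ≤ B := by
  have key : ∀ K : Subgroup Q, K ≤ zpowers a → (∀ b ∈ K, b ^ 2 = 1) → Nat.card K ≤ 2 := by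
    intro K hK hK2
    haveI := Subgroup.isCyclic_of_le hK
    rw [← IsCyclic.exponent_eq_card]
    exact Nat.le_of_dvd two_pos (Monoid.exponent_dvd_of_forall_pow_eq_one fun g => Subtype.ext (hK2 _ g.2))
  obtain ⟨w, hw, hwa⟩ : ∃ w ∈ B, w ∉ zpowers a := by
    by_contra hn
    push Not at hn
    have := key B hn h2
    omega
  have h3 : Nat.card ↥(zpowers a ⊓ centralizer (B : Set Q)) ≤ 2 := by
    refine key _ inf_le_left ?_
    rintro c ⟨hc1, hc2⟩
    apply h c hc1
    have h4 : w * y⁻¹ ∈ zpowers a := by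
      rw [Subgroup.mul_mem_iff_of_index_two hi, inv_mem_iff]; tauto
    have h5 : w * c = c * w := (mem_centralizer_iff.1 hc2) w hw
    have h6 : (w * y⁻¹) * c = c * (w * y⁻¹) := by
      obtain ⟨i, hi⟩ := h4
      obtain ⟨j, hj⟩ := hc1
      simp only at hi hj
      rw [← hi, ← hj, ← zpow_add, ← zpow_add, add_comm]
    have h7 : y = (w * y⁻¹)⁻¹ * w := by group
    have : Commute y c := by
      rw [h7]
      exact Commute.mul_left (Commute.inv_left h6) h5
    exact this
  have h4 : (zpowers a).relIndex (centralizer (B : Set Q)) ≤ 2 := by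
    have := Subgroup.relIndex_le_of_le_right (H := zpowers a) (K := centralizer (B : Set Q)) (L := ⊤) le_top
      (by rw [Subgroup.relIndex_top_right, hi]; omega)
    rwa [Subgroup.relIndex_top_right, hi] at this
  have h5 := Subgroup.card_mul_index ((zpowers a).subgroupOf (centralizer (B : Set Q)))
  have h6 : Nat.card ↥((zpowers a).subgroupOf (centralizer (B : Set Q))) =
      Nat.card ↥(zpowers a ⊓ centralizer (B : Set Q)) := by
    rw [← Subgroup.inf_subgroupOf_right]
    exact Nat.card_congr (Subgroup.subgroupOfEquivOfLe inf_le_right).toEquiv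
  have h7 : Nat.card ↥(centralizer (B : Set Q)) ≤ Nat.card B := by
    rw [← h5, h6, hB]
    exact Nat.mul_le_mul h3 h4
  exact (Subgroup.eq_of_le_of_card_ge hc h7).ge

/-- Let R be a finite group, t a central involution of R such that R ⧸ ⟨t⟩ is dihedral (of order ≥ 4) or quasi-dihedral, and A ≤ R an elementary abelian subgroup of order 8 containing t. Then C_R(A) = A. -/
theorem result {R : Type*} [Group R] [Finite R] (t : R) (ht : orderOf t = 2) (htz : t ∈ Subgroup.center R) [(Subgroup.zpowers t).Normal] (hq : (∃ m : ℕ, 2 ≤ m ∧ Nonempty (R ⧸ Subgroup.zpowers t ≃* DihedralGroup m)) ∨ Cfsg.IsQuasiDihedral (R ⧸ Subgroup.zpowers t)) (A : Subgroup R) (hA : Cfsg.IsElementaryAbelian 2 A) (hA8 : Nat.card A = 8) (htA : t ∈ A) : Subgroup.centralizer (A : Set R) = A := by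
  haveI := hA.1
  have hAc : A ≤ Subgroup.centralizer (A : Set R) := Subgroup.le_centralizer A
  refine le_antisymm ?_ hAc
  set f := QuotientGroup.mk' (Subgroup.zpowers t) with hf
  have hker : f.ker ≤ A := by
    rw [hf, QuotientGroup.ker_mk']; exact (Subgroup.zpowers_le).2 htA
  have hB : Nat.card (A.map f) = 4 := by
    have h1 := Subgroup.card_mul_index ((f.ker).subgroupOf A)
    have h2 : Nat.card ↥((f.ker).subgroupOf A) = 2 := by
      rw [Nat.card_congr (Subgroup.subgroupOfEquivOfLe hker).toEquiv, hf, QuotientGroup.ker_mk',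
        Nat.card_zpowers, ht]
    have h3 : f.ker.relIndex A = Nat.card (A.map f) := Subgroup.relIndex_ker A f
    rw [h2, hA8] at h1
    rw [← h3]; unfold Subgroup.relIndex; omega
  have h2 : ∀ b ∈ A.map f, b ^ 2 = 1 := by
    rintro _ ⟨a, ha, rfl⟩
    rw [← map_pow, hA.2 a ha, map_one]
  have hc : (Subgroup.centralizer (A : Set R)).map f ≤ Subgroup.centralizer (A.map f : Set _) := by
    rintro _ ⟨g, hg, rfl⟩
    rw [Subgroup.mem_centralizer_iff]
    rintro _ ⟨a, ha, rfl⟩
    rw [← map_mul, ← map_mul, (Subgroup.mem_centralizer_iff.1 hg) a ha]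
  have main : Subgroup.centralizer (A.map f : Set _) ≤ A.map f := by
    rcases hq with ⟨m, hm, ⟨e⟩⟩ | hq
    · obtain ⟨a, x, h1, h3, h4, h5, h6⟩ := CA.PGDihedral.exists_gens_of_dihedral e
      refine aux a x ?_ h3 ?_ _ hB h2 ((Subgroup.map_mono hAc).trans hc)
      · have h7 := Subgroup.card_mul_index (Subgroup.zpowers a)
        rw [Nat.card_zpowers, h1, Nat.card_congr e.toEquiv, DihedralGroup.nat_card, mul_comm] at h7
        exact Nat.eq_of_mul_eq_mul_right (by omega) h7
      · rintro _ ⟨i, rfl⟩ hi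
        simp only at hi ⊢
        have h8 := CA.PGDihedral.conj_zpow_of_inv h5 i
        rw [hi, mul_inv_cancel_right, zpow_neg] at h8
        rw [pow_two]; nth_rewrite 1 [h8]; simp
    · obtain ⟨m, a, y, hm, h, hg⟩ := CA.MC3.exists_of_qd_top hq
      refine aux a y ?_ h.notMem ?_ _ hB h2 ((Subgroup.map_mono hAc).trans hc)
      · have := h.relIndex
        rwa [hg, Subgroup.relIndex_top_right] at this
      · rintro _ ⟨i, rfl⟩ hi
        simp only at hi ⊢
        obtain ⟨k, rfl⟩ := h.commute_iff.1 hi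
        rw [zpow_mul, ← zpow_natCast, ← zpow_mul, mul_comm k, zpow_mul, zpow_natCast, h.z_sq, one_zpow]
  intro g hg
  have := main (hc ⟨g, hg, rfl⟩)
  rwa [← Subgroup.mem_comap, Subgroup.comap_map_eq_self hker] at this

end Cfsg.Agent.S1236
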