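import Cfsg.Statements.S1237
import Cfsg.Agent.Lib.Grp.Rk3

set_option autoImplicit false
open Cfsg

namespace Cfsg.Agent.S1237

open Subgroup CA.Rk2 CA.Two

/-- Let T be a finite 2-group of 2-rank exactly 2 (it has a Klein four-subgroup but no elementary abelian subgroup of order 8) admitting an automorphism φ such that any two involutions of T are carried to one another by a power of φ. Then T ≅ Z_{2^n} × Z_{2^n} for some n ≥ 1, or T is isomorphic to a Sylow 2-subgroup of PSU(3) over the field with 16 elements. -/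
theorem result {T : Type*} [Group T] [Finite T] (hT : IsPGroup 2 T) (h2 : Cfsg.PRankLE 2 2 T) (h1 : ¬ Cfsg.PRankLE 2 1 T) (φ : MulAut T) (htrans : ∀ s t : T, orderOf s = 2 → orderOf t = 2 → ∃ k : ℕ, (φ ^ k) s = t) {F : Type*} [Field F] [Fintype F] (hF : Fintype.card F = 16) (P : Sylow 2 (Cfsg.PSU 3 F 4)) : (∃ n : ℕ, 1 ≤ n ∧ Nonempty (T ≃* Multiplicative (ZMod (2 ^ n) × ZMod (2 ^ n)))) ∨ Nonempty (T ≃* (P : Subgroup (Cfsg.PSU 3 F 4))) := by
  obtain ⟨V, hV⟩ := exists_klein h1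
  obtain ⟨v, hv, hv1, -⟩ := klein_exists hV 1
  haveI : Nontrivial T := ⟨v, 1, hv1⟩
  obtain ⟨z, -, hz, hzo⟩ := CA.PGBasic.exists_mem_center_orderOf hT (M := ⊤) top_ne_bot
  have o2 : ∀ {x : T}, x ≠ 1 → x * x = 1 → orderOf x = 2 := fun h1 h2 =>
    orderOf_eq_prime (by rwa [pow_two]) h1
  have hc : ∀ x : T, x * x = 1 → x ∈ center T := fun x hx => by
    by_cases h1 : x = 1
    · rw [h1]; exact one_mem _
    · obtain ⟨k, rfl⟩ := htrans z x hzo (o2 h1 hx)
      exact (mem_center_map _).2 hz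
  have hO : Om V := ⟨hV, fun x hx => hc x (by rw [← pow_two]; exact klein_sq hV hx),
    fun x hx => mem_of_rank h2 hV (fun g _ => mem_center_iff.1 (hc x hx) g) hx⟩
  have hφ : ∀ z ∈ V, φ z = z → z = 1 := fun z hz e => by
    by_contra z1
    obtain ⟨w, hw, w1, hwz⟩ := klein_exists hV z
    obtain ⟨k, hk⟩ := htrans z w (o2 z1 (hO.sq hz)) (o2 w1 (hO.sq hw))
    exact hwz (hk.symm.trans (MulAction.mem_stabilizer_iff.1
      (pow_mem (MulAction.mem_stabilizer_iff.2 (show φ • z = z from e)) k) :))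
  rcases hO.cases' hT hφ with hab | ⟨ρ, hρ⟩
  · exact Or.inl (hO.homocyclic hT hab hφ)
  · exact Or.inr (CA.Rk3.equiv_sylow hρ hF P)

end Cfsg.Agent.S1237
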