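import Cfsg.Statements.S1241
import Cfsg.Agent.Lib.Grp.Trf

set_option autoImplicit false
open Cfsg

namespace Cfsg.Agent.S1241


/-- Let G be a finite group, p a prime, H a subgroup of index prime to p, K a subgroup of H normal in H with H/K commutative, and g ∈ H ∖ K an element of p-power order such that for all integers m and all a ∈ G with a g^m a⁻¹ ∈ H one has a g^m a⁻¹ ∈ g^m K. Then g ∉ G'. -/
theorem result {G : Type*} [Group G] [Finite G] {p : ℕ} [Fact p.Prime] (H K : Subgroup G) (hHK : K ≤ H) (hKn : (K.subgroupOf H).Normal) (hab : ∀ x ∈ H, ∀ y ∈ H, x * y * x⁻¹ * y⁻¹ ∈ K) (hidx : Nat.Coprime p H.index) (g : G) (hgH : g ∈ H) (hgK : g ∉ K) (hgp : ∃ k : ℕ, orderOf g = p ^ k) (hctrl : ∀ (m : ℤ) (a : G), a * g ^ m * a⁻¹ ∈ H → (a * g ^ m * a⁻¹) * (g ^ m)⁻¹ ∈ K) : g ∉ commutator G := by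
  obtain ⟨e, he⟩ := hgp
  obtain ⟨N, -, h1, h2, -⟩ := CA.Trf.exists_normal_not_mem (p := p) (H := H) (K := K)
    (Subgroup.commutator_le.2 fun x hx y hy => hab x hx y hy)
    ((Nat.Prime.coprime_iff_not_dvd Fact.out).1 hidx) hgH (e := e) (he ▸ pow_orderOf_eq_one g) hgK
    (fun k _ t ht => by
      have h1 := hctrl k t (by rwa [zpow_natCast])
      rw [zpow_natCast] at h1
      have hn := (Subgroup.normal_subgroupOf_iff hHK).1 hKn _ _ h1 (inv_mem (pow_mem hgH k))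
      have e : (g ^ k)⁻¹ * (t * g ^ k * t⁻¹ * (g ^ k)⁻¹) * (g ^ k)⁻¹⁻¹ =
        (g ^ k)⁻¹ * (t * g ^ k * t⁻¹) := by group
      rwa [e] at hn)
  exact fun h => h2 (h1 h)

end Cfsg.Agent.S1241
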