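import Cfsg.Statements.S1242
import Cfsg.Agent.Lib.Grp.Fus2

set_option autoImplicit false
open Cfsg

namespace Cfsg.Agent.S1242

open Subgroup CA.SylIn CA.PRes CA.Trf CA.NPC2 CA.Fus2

/-- Let G be a finite group, p a prime and H a subgroup of index prime to p such that any two elements of H of p-power order that are conjugate in G are conjugate in H. Then (O^p(G)·G') ∩ H = O^p(H)·H', where O^p denotes the subgroup generated by the elements of order prime to p. -/
theorem result {G : Type*} [Group G] [Finite G] {p : ℕ} [Fact p.Prime] (H : Subgroup G) (hidx : Nat.Coprime p H.index) (hfus : ∀ g ∈ H, (∃ k : ℕ, orderOf g = p ^ k) → ∀ a : G, a * g * a⁻¹ ∈ H → ∃ h ∈ H, h * g * h⁻¹ = a * g * a⁻¹) : (Cfsg.pResidual p G ⊔ commutator G) ⊓ H = (Cfsg.pResidual p ↥H ⊔ commutator ↥H).map H.subtype := by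
  obtain ⟨P, hP⟩ := exists_sylow_le (p := p) (H := H) (coprime_iff_not_dvd.1 hidx.symm)
  have h1 := commutator_inf_eq_of_controls P hP fun x hx g hg => by
    obtain ⟨k, hk⟩ := exists_pow_eq_one P.isPGroup' hx
    obtain ⟨j, -, hj⟩ := (Nat.dvd_prime_pow Fact.out).1 (orderOf_dvd_of_pow_eq_one hk)
    exact hfus x (hP hx) ⟨j, hj⟩ g (hP hg)
  rw [Subgroup.map_sup, map_subtype_commutator]
  refine le_antisymm (fun x hx => ?_) (sup_le (le_inf ((map_pResidual_le _).trans le_sup_left)
    (map_subtype_le _)) (le_inf ((commutator_mono le_top le_top).trans le_sup_right)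
      (commutator_le_self H)))
  obtain ⟨n, hn, t, ht, rfl⟩ := exists_mul_eq_of_isSylowIn (isSylowIn_of_le P hP) hx.2
  refine mul_mem (mem_sup_left hn) (mem_sup_right ?_)
  have : t ∈ (pResidual p G ⊔ _root_.commutator G) ⊓ (P : Subgroup G) :=
    ⟨by simpa using mul_mem (inv_mem (mem_sup_left (map_pResidual_le _ hn))) hx.1, ht⟩
  rw [inf_pResidual_sup_commutator, h1] at this
  exact this.1

end Cfsg.Agent.S1242
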