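import Cfsg.Statements.S1244
import Cfsg.Agent.Lib.Grp.Fus2

set_option autoImplicit false
open Cfsg

namespace Cfsg.Agent.S1244

open Subgroup CA.SylIn CA.PRes CA.Trf CA.PGBasic CA.PGNormalCyclic

/-- Let G be a finite group with no subgroup of index 2 whose Sylow 2-subgroup S is commutative, and let R ≤ S be a subgroup whose 2-rank is exactly one less than the 2-rank r of S. Then every involution of S is conjugate, by an element of N_G(S), to an element of R. -/
theorem result {G : Type*} [Group G] [Finite G] (hG : ∀ H : Subgroup G, H.index ≠ 2) (S : Sylow 2 G) (hS : IsMulCommutative (S : Subgroup G)) (r : ℕ) (hr1 : 1 ≤ r) (hSr : Cfsg.PRankLE 2 r (S : Subgroup G) ∧ ¬ Cfsg.PRankLE 2 (r - 1) (S : Subgroup G)) (R : Subgroup G) (hRS : R ≤ S) (hRr : Cfsg.PRankLE 2 (r - 1) R ∧ (r = 1 ∨ ¬ Cfsg.PRankLE 2 (r - 2) R)) (t : G) (ht : orderOf t = 2) (htS : t ∈ S) : ∃ n ∈ Subgroup.normalizer ((S : Subgroup G) : Set G), n * t * n⁻¹ ∈ R := by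
  by_contra hne
  push Not at hne
  have hcomm := CA.PGBasic.isMulCommutative_iff.1 hS
  have ht2 : t ^ 2 = 1 := ht ▸ pow_orderOf_eq_one t
  -- an elementary abelian subgroup of `R` of rank `r - 1`
  obtain ⟨F, hFR, hF, hFc⟩ : ∃ F : Subgroup G, F ≤ R ∧ IsElementaryAbelian 2 F ∧
      2 ^ (r - 1) ≤ Nat.card F := by
    by_cases hr : r = 1
    · exact ⟨⊥, bot_le, isElementaryAbelian_bot 2, by simp [hr]⟩
    have h := hRr.2.resolve_left hr
    unfold PRankLE at h
    push Not at h
    obtain ⟨A, hA, hA2, hAc⟩ := h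
    have hE : IsElementaryAbelian 2 (A.map R.subtype) := ⟨inferInstance, by
      rintro _ ⟨a, ha, rfl⟩
      rw [← map_pow, hA2 a ha, map_one]⟩
    refine ⟨A.map R.subtype, map_subtype_le A, hE, ?_⟩
    obtain ⟨k, hk⟩ := (isPGroup_of_isElementaryAbelian hE).exists_card_eq
    rw [CA.Coprime.card_map_subtype] at hk ⊢
    rw [hk] at hAc ⊢
    have := (Nat.pow_lt_pow_iff_right one_lt_two).1 hAc
    exact Nat.pow_le_pow_right two_pos (by omega)
  have hcen : ∀ {A : Subgroup G} {x : G}, A ≤ S → x ∈ (S : Subgroup G) →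
      x ∈ centralizer (A : Set G) :=
    fun hA hx => mem_centralizer_iff.2 fun a ha => hcomm _ (hA ha) _ hx
  have htR : t ∉ R := by simpa using hne 1 (one_mem _)
  have key : ∀ u ∈ (S : Subgroup G), u ^ 2 = 1 → u ∉ R → t⁻¹ * u ∈ F := by
    intro u hu hu2 huR
    have hFS : F ≤ S := hFR.trans hRS
    have h1 : F ⊔ zpowers t ≤ S := sup_le hFS (zpowers_le.2 htS)
    have hE1 := isElementaryAbelian_sup_zpowers hF (hcen hFS htS) ht2
    have hc1 := card_sup_zpowers Nat.prime_two (centralizer_le_normalizer _ (hcen hFS htS))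
      (fun h => htR (hFR h)) (ht2 ▸ one_mem F)
    have hmem : u ∈ F ⊔ zpowers t := by
      by_contra hu'
      have hE2 := isElementaryAbelian_sup_zpowers hE1 (hcen h1 hu) hu2
      have hc2 := card_sup_zpowers Nat.prime_two (centralizer_le_normalizer _ (hcen h1 hu))
        hu' (hu2 ▸ one_mem _)
      have h2 : F ⊔ zpowers t ⊔ zpowers u ≤ S := sup_le h1 (zpowers_le.2 hu)
      have := hSr.1 ((F ⊔ zpowers t ⊔ zpowers u).subgroupOf S)
        (haveI := hE2.1; inferInstance) fun a ha => Subtype.ext (hE2.2 a ha)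
      rw [CA.Coprime.card_subgroupOf h2, hc2, hc1] at this
      obtain ⟨m, rfl⟩ := Nat.exists_eq_add_of_le' hr1
      rw [Nat.add_sub_cancel] at hFc
      rw [pow_succ] at this
      have := Nat.pos_of_ne_zero (pow_ne_zero m two_ne_zero)
      omega
    obtain ⟨f, hf, k, rfl⟩ := (mem_sup_zpowers_nat (centralizer_le_normalizer _ (hcen hFS htS))).1 hmem
    rcases Nat.even_or_odd' k with ⟨j, rfl | rfl⟩
    · rw [pow_mul, ht2, one_pow, mul_one] at huR
      exact absurd (hFR hf) huR
    · rw [pow_succ, pow_mul, ht2, one_pow, one_mul, hcomm f (hFS hf) t htS, inv_mul_cancel_left]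
      exact hf
  obtain ⟨N, -, hN, htN, -⟩ := exists_normal_not_mem (p := 2) (H := (S : Subgroup G)) (K := F)
    (commutator_le.2 fun a ha b hb => by
      rw [commutatorElement_eq_one_iff_mul_comm.2 (hcomm a ha b hb)]; exact one_mem _)
    S.not_dvd_index htS (e := 1) (by simpa using ht2) (fun h => htR (hFR h)) fun k hk g hg => by
      rw [ht] at hk
      rcases (Nat.dvd_prime Nat.prime_two).1 hk with rfl | rfl
      · rw [pow_one] at hg ⊢
        obtain ⟨n, hn, e⟩ := exists_normalizer_conj_of_comm S hS htS hg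
        exact key _ hg (by rw [conj_pow, ht2]; simp) (e ▸ hne n hn)
      · rw [ht2]; simp
  exact htN (hN (sylow_le_commutator_of_pResidual_eq_top S (pResidual_two_eq_top_iff.2 hG) htS))

end Cfsg.Agent.S1244
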