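import Cfsg.Statements.S1245
import Cfsg.Agent.Lib.Walt.H8R2

set_option autoImplicit false
open Cfsg

namespace Cfsg.Agent.S1245

open CA.BG CA.Wa CA.JRow

/-- Let G be a non-abelian finite simple group with commutative Sylow 2-subgroups, and t an involution whose centralizer is the internal direct product of ⟨t⟩ and a subgroup E which has a normal subgroup E₀ ≅ PSL(2,F), |F| odd, with C_E(E₀) = 1 (so PSL(2,q) ≤ E ≤ Aut PSL(2,q)). Then C_G(t) is a maximal subgroup of G. -/
theorem result {G : Type*} [Group G] [Finite G] [IsSimpleGroup G] (hna : ¬ IsMulCommutative G) (S : Sylow 2 G) (hS : IsMulCommutative (S : Subgroup G)) (t : G) (ht : orderOf t = 2) (E E₀ : Subgroup G) (hprod : Cfsg.IsInternalDirectProduct (Subgroup.zpowers t) E (Subgroup.centralizer ({t} : Set G))) (hE₀E : E₀ ≤ E) (hE₀n : (E₀.subgroupOf E).Normal) (hE₀ : ∃ (F : Type) (_ : Field F) (_ : Fintype F), Odd (Fintype.card F) ∧ Nonempty (E₀ ≃* Matrix.ProjectiveSpecialLinearGroup (Fin 2) F)) (hCE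 : E ⊓ Subgroup.centralizer (E₀ : Set G) = ⊥) : IsCoatom (Subgroup.centralizer ({t} : Set G)) := by
  obtain ⟨F, _, _, hF, ⟨e⟩⟩ := hE₀
  obtain ⟨K, _, _, ι, h⟩ := exists_jr hna (ab2_of_syl (syl_top Nat.prime_two S) hS) ht hprod hE₀E
    (Subgroup.normal_subgroupOf_iff_le_normalizer hE₀E |>.1 hE₀n) hCE (by rwa [Nat.card_eq_fintype_card]) e
  exact coatom h

end Cfsg.Agent.S1245
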