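import Cfsg.Statements.S1253
import Cfsg.Agent.Lib.Grp.Iso3

set_option autoImplicit false
open Cfsg

namespace Cfsg.Agent.S1253

open Subgroup CA.Iso2 CA.H13Inv CA.SylIn

/-- Let z be an isolated involution of the finite group G with centralizer C, p an odd prime and P a Sylow p-subgroup of G normalized by z. Then P ∩ C has p-power-free index in C (it is a Sylow p-subgroup of C), and |P : C_P(z)| equals the number of elements x ∈ P with z x z⁻¹ = x⁻¹. -/
theorem result {G : Type*} [Group G] [Finite G] (z : G) (hz : Cfsg.IsIsolatedInvolution z) {p : ℕ} [Fact p.Prime] (hp : p ≠ 2) (P : Sylow p G) (hzP : z ∈ Subgroup.normalizer ((P : Subgroup G) : Set G)) : ¬ p ∣ ((P : Subgroup G) ⊓ Subgroup.centralizer ({z} : Set G)).relIndex (Subgroup.centralizer ({z} : Set G)) ∧ ((P : Subgroup G) ⊓ Subgroup.centralizer ({z} : Set G)).relIndex (P : Subgroup G) = Nat.card {x : G // x ∈ P ∧ z * x * z⁻¹ = x⁻¹} := by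
  have hzz := mul_self hz.1
  constructor
  · obtain ⟨T, hT⟩ := exists_isSylowIn p (centralizer ({z} : Set G))
    obtain ⟨P', hTP, hP'⟩ := exists_invariant_sylow_ge hzz (CA.Iso3.inZStar hz) hT.isPGroup
      (centralizer_le_normalizer _ (mem_centralizer_iff.2 fun t ht =>
        mem_centralizer_singleton_iff.1 (hT.le ht)))
    obtain ⟨g, rfl⟩ := MulAction.exists_smul_eq G P' P
    rw [coe_smul_sylow] at hzP ⊢
    obtain ⟨c, hc, e⟩ := exists_centralizer_conj_eq (oddIso hz) hzz hP' hzP
    have h1 := hT.conj_of_mem hc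
    exact fun hd => h1.not_dvd (hd.trans (relIndex_dvd_of_le_left _
      (le_inf (e ▸ conj_mono c hTP) h1.le)))
  · rw [inf_relIndex_left, relIndex_centralizer_eq (oddIso hz) hzz hzP]
    refine Nat.card_congr (Equiv.subtypeEquivRight fun x => ⟨fun h => ⟨h.1, h.2.2⟩,
      fun h => ⟨h.1, ?_, h.2⟩⟩)
    obtain ⟨k, hk⟩ := CA.Fus2.exists_pow_eq_one P.isPGroup' h.1
    exact (((Fact.out : p.Prime).odd_of_ne_two hp).pow).of_dvd_nat (orderOf_dvd_of_pow_eq_one hk)

end Cfsg.Agent.S1253
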