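import Cfsg.Statements.S1254
import Cfsg.Agent.Lib.Grp.MC3

set_option autoImplicit false
open Cfsg

namespace Cfsg.Agent.S1254

open Subgroup CA.SylIn CA.PRes CA.Two CA.MC2 CA.MC3 CA.PGBasic

/-- Let X be a finite group whose Sylow 2-subgroup S is dihedral (of order at least 4). Then X has a normal 2-complement if and only if, for every Klein four-subgroup U ≤ S, the normalizer N_X(U) is generated by C_X(U) and N_S(U). -/
theorem result {X : Type*} [Group X] [Finite X] (S : Sylow 2 X) (m : ℕ) (hm : 2 ≤ m) (eS : (S : Subgroup X) ≃* DihedralGroup m) : Cfsg.HasNormalPComplement 2 X ↔ ∀ U : Subgroup X, U ≤ S → IsKleinFour U → Subgroup.normalizer (U : Set X) = Subgroup.centralizer (U : Set X) ⊔ ((S : Subgroup X) ⊓ Subgroup.normalizer (U : Set X)) := by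
  obtain ⟨k, a, b, rfl, h, e⟩ := exists_of_dihedral' S.isPGroup' hm eS
  constructor
  · intro hN U hU _
    refine le_antisymm (fun g hg => ?_) (sup_le (centralizer_le_normalizer _) inf_le_right)
    obtain ⟨s, hs, h1⟩ := exists_conj_of_hasNPC hN S g
    have h2 : ∀ x ∈ U, s * x * s⁻¹ = g * x * g⁻¹ := fun x hx =>
      h1 x (hU hx) (hU (conj_mem_of_mem_normalizer hg hx))
    have h3 : s⁻¹ * g ∈ centralizer (U : Set X) := mem_centralizer_iff.2 fun x hx => by
      calc x * (s⁻¹ * g) = s⁻¹ * (s * x * s⁻¹) * g := by group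
        _ = _ := by rw [h2 x hx]; group
    have h4 : s ∈ normalizer (U : Set X) := mem_normalizer_of_forall fun x hx => by
      rw [h2 x hx]; exact conj_mem_of_mem_normalizer hg hx
    simpa using mul_mem (mem_sup_right (mem_inf.2 ⟨hs, h4⟩)) (mem_sup_left h3)
  · intro hU
    refine hasNPC_of_not_act S fun D hD _ hA => ?_
    obtain ⟨j, w, hw, hw', rfl, -, hj⟩ := exists_fus h (e ▸ hD) hA
    obtain ⟨i, rfl⟩ := h.eq_of_notMem (e ▸ hD hw) hw'
    have h' : MC k 0 0 a (a ^ i * b) := by simpa using h.shift i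
    rcases hj with ⟨rfl, -⟩ | ⟨-, h2⟩
    · obtain ⟨n, hn, ho, hc⟩ := hA
      refine hc (CA.Fus3.mem_of_coprime_of_mem_sup (S.isPGroup'.to_le inf_le_left)
        (inf_le_right.trans (normalizer_le_normalizer_centralizer _)) ?_ ho)
      rwa [sup_comm, ← hU _ hD (h'.isKleinFour_H Even.zero)]
    · exact absurd (h'.sq_eq_z.1 h2) (by decide)

end Cfsg.Agent.S1254
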