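import Cfsg.Statements.S1255
import Cfsg.Agent.Lib.Grp.MC3

set_option autoImplicit false
open Cfsg

namespace Cfsg.Agent.S1255

open Subgroup CA.SylIn CA.PRes CA.Two CA.MC2 CA.MC3 CA.PGBasic

/-- Let X be a finite group whose Sylow 2-subgroup S is dihedral of order 2m ≥ 4. Then X has no subgroup of index 2 and no isolated involution if and only if either all involutions of X are conjugate, or for every Klein four-subgroup U ≤ S the index |N_X(U) : C_X(U)| equals 3 when |S| = 4 and equals 6 when |S| > 4. -/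
theorem result {X : Type*} [Group X] [Finite X] (S : Sylow 2 X) (m : ℕ) (hm : 2 ≤ m) (eS : (S : Subgroup X) ≃* DihedralGroup m) : ((∀ H : Subgroup X, H.index ≠ 2) ∧ (∀ z : X, ¬ Cfsg.IsIsolatedInvolution z)) ↔ ((∀ a b : X, orderOf a = 2 → orderOf b = 2 → IsConj a b) ∨ (∀ U : Subgroup X, U ≤ S → IsKleinFour U → (Subgroup.centralizer (U : Set X)).relIndex (Subgroup.normalizer (U : Set X)) = (if Nat.card S = 4 then 3 else 6))) := by
  obtain ⟨k, a, b, rfl, h, e⟩ := exists_of_dihedral' S.isPGroup' hm eS
  have h' : ∀ i : ℤ, MC k 0 0 a (a ^ i * b) := fun i => by simpa using h.shift i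
  have e' := (sup_shift a b 1).trans e
  have key : Fus k a b → Fus k a (a ^ (1 : ℤ) * b) →
      ∀ x y : X, orderOf x = 2 → orderOf y = 2 → IsConj x y := fun h1 h2 => by
    have key : ∀ t : X, orderOf t = 2 → IsConj t (a ^ (2 ^ k : ℤ)) := fun t ht => by
      rcases involution_cases h S e ht with e | e | e
      exacts [e, e.1.trans (isConj_z_of_fus h e.2 h1),
        e.1.trans (isConj_z_of_fus (h' 1) Even.zero h2)]
    exact fun x y hx hy => (key x hx).trans (key y hy).symm
  constructor
  · rintro ⟨hi, -⟩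
    have hO := pResidual_two_eq_top_iff.2 hi
    left
    rcases k with _ | k
    · have h0 : Fus 0 a (a ^ (1 : ℤ) * b) ↔ Fus 0 a b := by
        rw [fus_iff_of_even h Even.zero, fus_iff_of_even (h' 1) Even.zero, H_shift a b (by simp)]
      have h1 : Fus 0 a b := by
        by_contra h1
        have := (hasNPC_iff_inf_eq_bot S).1 (hasNPC_of_not_fus h S e h1 (h1 ∘ h0.1))
        rw [hO, top_inf_eq, ← e] at this
        exact h.y_ne_one (this.le (mem_sup_right (mem_zpowers b)))
      exact key h1 (h0.2 h1)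
    refine key ?_ ?_
    · by_contra h1
      exact shift_notMem_pResidual (h' 1) S e' (by omega)
        (fun h => absurd h (by decide)) (fun h2 => h1 ((fus_shift_two h).1 h2)) (hO ▸ mem_top _)
    · by_contra h2
      exact shift_notMem_pResidual h S e (by omega) (fun h => absurd h (by decide)) h2
        (hO ▸ mem_top _)
  · intro hyp
    have hc : ∀ x y : X, orderOf x = 2 → orderOf y = 2 → IsConj x y := by
      refine hyp.elim id fun hU => ?_
      have h3 : ∀ U : Subgroup X, U ≤ S → IsKleinFour U → Act 2 U := fun U h1 h2 =>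
        act_of_relIndex le_rfl (by rw [hU U h1 h2]; split_ifs <;> decide)
      exact key ((fus_iff_of_even h Even.zero).2 (h3 _ (e ▸ H_le _ _ _) (h.isKleinFour_H Even.zero)))
        ((fus_iff_of_even (h' 1) Even.zero).2 (h3 _ (e' ▸ H_le _ _ _)
          ((h' 1).isKleinFour_H Even.zero)))
    refine ⟨fun K hK => ?_, fun z hz => ?_⟩
    · haveI := normal_of_index_eq_two hK
      have h1 : ∃ t ∈ K, orderOf t = 2 := by
        by_cases h1 : a ^ (2 ^ k : ℤ) ∈ K
        · exact ⟨_, h1, h.ord_z⟩
        by_cases h2 : b ∈ K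
        · exact ⟨_, h2, h.ord_two Even.zero⟩
        exact ⟨_, (mul_mem_iff_of_index_two hK).2 (iff_of_false h1 h2), (h' _).ord_two Even.zero⟩
      obtain ⟨t, ht, ht2⟩ := h1
      have h2 : ∀ x, orderOf x = 2 → x ∈ K := fun x hx => by
        by_contra hx'
        exact not_isConj_of_normal ht hx' (hc t x ht2 hx)
      refine S.not_dvd_index (hK.symm.dvd.trans (index_dvd_of_le ?_))
      have hb := h2 b (h.ord_two Even.zero)
      rw [← e]
      exact sup_le (zpowers_le.2 (by
        simpa using mul_mem (h2 _ ((h' 1).ord_two Even.zero)) (inv_mem hb))) (zpowers_le.2 hb)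
    · obtain ⟨g, hg⟩ := isConj_iff.1 (hc _ z h.ord_z hz.1)
      obtain ⟨g', hg'⟩ := isConj_iff.1 (hc z (g * b * g⁻¹) hz.1
        (by rw [CA.H13Inv.orderOf_conj, h.ord_two Even.zero]))
      have := hz.2 g' (by
        rw [hg', ← hg]
        change _ = _
        rw [conj_mul, conj_mul, h.commute_z])
      rw [hg', ← hg, mul_left_inj, mul_right_inj] at this
      exact h.notMem (this ▸ zpow_mem_zpowers a _)

end Cfsg.Agent.S1255
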