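import Cfsg.Statements.S1256
import Cfsg.Agent.Lib.Grp.MC3

set_option autoImplicit false
open Cfsg

namespace Cfsg.Agent.S1256

open Subgroup CA.SylIn CA.PRes CA.Two CA.MC2 CA.MC3 CA.PGBasic

/-- Let X be a finite group whose Sylow 2-subgroup S is dihedral of order 2m ≥ 4. If |S| = 4, any two Klein four-subgroups of X are conjugate; if |S| > 4, there are Klein four-subgroups U₁, U₂ of X that are not conjugate, and every Klein four-subgroup of X is conjugate to U₁ or to U₂. -/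
theorem result {X : Type*} [Group X] [Finite X] (S : Sylow 2 X) (m : ℕ) (hm : 2 ≤ m) (eS : (S : Subgroup X) ≃* DihedralGroup m) : (Nat.card S = 4 → ∀ U V : Subgroup X, IsKleinFour U → IsKleinFour V → (∃ x : X, U.map (MulAut.conj x).toMonoidHom = V)) ∧ (4 < Nat.card S → ∃ U₁ U₂ : Subgroup X, IsKleinFour U₁ ∧ IsKleinFour U₂ ∧ ¬ (∃ x : X, U₁.map (MulAut.conj x).toMonoidHom = U₂) ∧ ∀ V : Subgroup X, IsKleinFour V → (∃ x : X, V.map (MulAut.conj x).toMonoidHom = U₁) ∨ (∃ x : X, V.map (MulAut.conj x).toMonoidHom = U₂)) := by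
  obtain ⟨k, a, b, rfl, h, e⟩ := exists_of_dihedral' S.isPGroup' hm eS
  have hc : Nat.card S = 2 ^ (k + 2) := by rw [← h.card, e]
  have h' : ∀ i : ℤ, MC k 0 0 a (a ^ i * b) := fun i => by simpa using h.shift i
  constructor
  · intro h4 U V hU hV
    have key : ∀ U : Subgroup X, IsKleinFour U → ∃ g : X, g •ᶜ U = S := fun U hU => by
      obtain ⟨g, hg⟩ := exists_conj_le_sylow S (klein_isPGroup hU)
      exact ⟨g, eq_of_le_of_card_le hg (by rw [card_conj, klein_card hU]; exact h4.le)⟩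
    obtain ⟨g, hg⟩ := key U hU
    obtain ⟨g', hg'⟩ := key V hV
    exact ⟨g'⁻¹ * g, by rw [← conj_conj, hg, ← hg', inv_conj_conj]⟩
  · intro h4
    have hk : 1 ≤ k := by
      rcases k with _ | k
      · omega
      · omega
    refine ⟨H k a b, H k a (a ^ (1 : ℤ) * b), h.isKleinFour_H Even.zero,
      (h' 1).isKleinFour_H Even.zero, ?_, fun V hV => ?_⟩
    · rintro ⟨g, hg⟩
      have := invariant_subgroup S (fun U => IsKleinFour U ∧ U ≤ H 1 a b) (fun U hU s hs => ?_)
        (fun D hD _ hA n hn _ U hU => ?_) (U := H k a b) (g := g) (e ▸ H_le k a b)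
        (hg ▸ (H_le _ _ _).trans ((sup_shift a b 1).trans e).le)
      · rw [hg] at this
        exact shift_notMem_H h hk ((this.mpr ⟨h.isKleinFour_H Even.zero, H_mono hk a b⟩).2
          (right_mem_H _ _ _))
      · have hs' := conj_eq_of_mem_normalizer (h.le_normalizer_H_one hk (e.ge hs))
        refine propext ⟨fun h1 => ⟨(klein_conj_iff s).1 h1.1, ?_⟩,
          fun h1 => ⟨klein_conj h1.1 s, hs' ▸ conj_mono s h1.2⟩⟩
        exact conj_le_conj_iff.1 (hs'.symm ▸ h1.2)
      · by_cases hK : IsKleinFour U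
        · obtain ⟨j, w, hw, hw', rfl, -, hj⟩ := exists_fus h (e ▸ hD) hA
          obtain ⟨i, rfl⟩ := h.eq_of_notMem (e ▸ hD hw) hw'
          rcases hj with ⟨rfl, -⟩ | ⟨-, h2⟩
          · rw [eq_of_le_of_card_le hU (by rw [klein_card hK, (h' i).card_H (j := 0) rfl]; rfl),
              conj_eq_of_mem_normalizer hn]
          · exact absurd ((h' i).sq_eq_z.1 h2) (by decide)
        · exact propext ⟨fun h1 => absurd ((klein_conj_iff n).1 h1.1) hK, fun h1 => absurd h1.1 hK⟩
    · obtain ⟨g, hg⟩ := exists_conj_le_sylow S (klein_isPGroup hV)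
      obtain ⟨w, hw, hw', -, e1⟩ := h.klein_eq (klein_conj hV g) (e ▸ hg)
      rcases h.exists_conj (e ▸ hg hw) hw' with ⟨j, rfl⟩ | ⟨j, rfl⟩
      · exact .inl ⟨(a ^ j)⁻¹ * g, by rw [← conj_conj, e1, ← conj_H_zpow, inv_conj_conj]⟩
      · exact .inr ⟨(a ^ j)⁻¹ * g, by rw [← conj_conj, e1, ← conj_H_zpow, inv_conj_conj]⟩

end Cfsg.Agent.S1256
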