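import Cfsg.Statements.S1266
import Cfsg.Agent.Lib.Grp.Bal

set_option autoImplicit false
open Cfsg

namespace Cfsg.Agent.S1266

open Subgroup CA.Rad CA.Core CA.Fitting CA.Subn CA.Quasi CA.Comp CA.Fstar CA.PLoc CA.PComp CA.Bal in
/-- Let P be a p-subgroup of the finite group G and N = N_G(P). Then the preimage in N of E(N / O_{p'}(N)) centralizes O_p(G). -/
theorem result {G : Type*} [Group G] [Finite G] (p : ℕ) [Fact p.Prime] (P : Subgroup G) (hP : IsPGroup p ↥P) : (((Cfsg.layer (↥(Subgroup.normalizer ((P : Subgroup G) : Set G)) ⧸ Cfsg.pPrimeCore p ↥(Subgroup.normalizer ((P : Subgroup G) : Set G)))).comap (QuotientGroup.mk' (Cfsg.pPrimeCore p ↥(Subgroup.normalizer ((P : Subgroup G) : Set G))))).map (Subgroup.normalizer ((P : Subgroup G) : Set G)).subtype) ≤ Subgroup.centralizer (Cfsg.pCore p G : Set G) := by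
  rw [OE_eq, OE_normalizer_eq hP]
  exact OE_centralizer_le_centralizer_pCore hP

end Cfsg.Agent.S1266
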