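import Cfsg.Statements.S1271
import Cfsg.Agent.Lib.Grp.Bal

set_option autoImplicit false
open Cfsg

namespace Cfsg.Agent.S1271

open Subgroup CA.Rad CA.Core CA.Fitting CA.Subn CA.Quasi CA.Comp CA.Fstar CA.PLoc CA.PComp CA.Bal in
/-- Let G be finite with O_{p'}(G) = 1. Suppose that for every component L of G and every subgroup H ≥ L in which L is normal, the quotient H / C_H(L) is balanced for the prime p. Then G is balanced for p. -/
theorem result {G : Type*} [Group G] [Finite G] (p : ℕ) [Fact p.Prime] (hO : Cfsg.pPrimeCore p G = ⊥) (h : ∀ L : Subgroup G, Cfsg.IsComponent L → ∀ H : Subgroup G, L ≤ H → (L.subgroupOf H).Normal → ∀ [((Subgroup.centralizer (L : Set G)).subgroupOf H).Normal], Cfsg.IsBalancedFor p (↥H ⧸ (Subgroup.centralizer (L : Set G)).subgroupOf H)) : Cfsg.IsBalancedFor p G := by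
  intro x hx
  have hx' := hx.trans (pow_one p).symm
  refine (eq_bot_of_le_centralizer hO (CA.Core.coprime_map_pPrimeCore _)
    (centralizerPPrimeCore_le_centralizer_pCore hx') fun L hL => ?_).le.trans bot_le
  by_cases h1 : ⁅L, zpowers x⁆ = L
  swap
  · exact centralizerPPrimeCore_le_centralizer_comp hO hx hL h1
  have hxn : x ∈ normalizer (L : Set G) := h1 ▸ normalizer_commutator_ge_right L _ (mem_zpowers x)
  have hYn := centralizerPPrimeCore_le_normalizer_comp hO hx' hL
  set H := L ⊔ (centralizer ({x} : Set G) ⊓ normalizer (L : Set G))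
  have hH : H ≤ normalizer (L : Set G) := sup_le le_normalizer inf_le_right
  have hxH : x ∈ H := le_sup_right (a := L) ⟨mem_centralizer_singleton_iff.2 rfl, hxn⟩
  have hYH : Cfsg.centralizerPPrimeCore p x ≤ H :=
    le_sup_of_le_right (le_inf (centralizerPPrimeCore_le x) hYn)
  have := normal_subgroupOf_of_le_normalizer (le_normalizer_centralizer hH)
  set f := QuotientGroup.mk' ((centralizer (L : Set G)).subgroupOf H)
  have hk : f.ker = (centralizer (L : Set G)).subgroupOf H := QuotientGroup.ker_mk' _
  have h2 : orderOf (f ⟨x, hxH⟩) = p := orderOf_eq_prime (by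
    rw [← map_pow, show (⟨x, hxH⟩ : H) ^ p = 1 from Subtype.ext (hx ▸ pow_orderOf_eq_one x),
      map_one]) fun e => comp_ne_bot hL (h1.symm.trans (by
      rw [commutator_comm, commutator_eq_bot_iff_le_centralizer]
      exact zpowers_le.2 (hk.le e)))
  have h3 := (map_le_centralizerPPrimeCore hO hL (a := ⟨x, hxH⟩) hx' hxn le_rfl
    (QuotientGroup.mk'_surjective _) hk.le).trans
    (h L hL H le_sup_left (normal_subgroupOf_of_le_normalizer hH) _ h2)
  rw [← commutator_eq_bot_iff_le_centralizer, commutator_comm]
  refine (qs_commutator_eq hL.2 hYn).resolve_left fun e => ?_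
  have h4 : (L.subgroupOf H).map f ≤ Cfsg.pPrimeCore p _ := by
    have h5 : ⁅L.subgroupOf H, (Cfsg.centralizerPPrimeCore p x).subgroupOf H⁆ = L.subgroupOf H := by
      apply map_injective H.subtype_injective
      rw [map_commutator, map_subgroupOf_eq_of_le le_sup_left, map_subgroupOf_eq_of_le hYH, e]
    rw [← h5, map_commutator]
    exact (commutator_mono le_top h3).trans (commutator_le_right _ _)
  have h6 := coprime_of_le_pPrimeCore h4
  rw [← relIndex_ker, hk, relIndex_subgroupOf le_sup_left] at h6
  exact coprime_iff_not_dvd.1 h6 (prime_dvd_relIndex_centralizer_of_perfect (comp_perfect hL)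
    Fact.out (comp_dvd_card hO hL))

end Cfsg.Agent.S1271
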