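import Cfsg.Statements.S1273
import Cfsg.Agent.Lib.Grp.PComp

set_option autoImplicit false
open Cfsg

namespace Cfsg.Agent.S1273

open Subgroup CA.Rad CA.Core CA.Fitting CA.Subn CA.Quasi CA.Comp CA.Fstar CA.PLoc CA.PComp in
/-- Let K be a p-component of the finite group X and N a normal subgroup of K whose index in K is prime to p. Then N = K. -/
theorem result {X : Type*} [Group X] [Finite X] (p : ℕ) [Fact p.Prime] (K : Subgroup X) (hK : Cfsg.IsPComponent p K) (N : Subgroup ↥K) [N.Normal] (hidx : (N.index).Coprime p) : N = ⊤ := by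
  have := (PCp.top_iff.2 hK).eq_of_SN (SN.map_subtype (A := N) (Normal.isSubnormal inferInstance))
    (by rw [relIndex, map_subtype_subgroupOf]; exact coprime_iff_not_dvd.1 hidx)
  exact top_le_iff.1 ((subgroupOf_self K).ge.trans ((le_map_subtype_iff le_rfl).1 this.ge))

end Cfsg.Agent.S1273
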