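import Cfsg.Statements.S1278
import Cfsg.Agent.Lib.Grp.PComp

set_option autoImplicit false
open Cfsg

namespace Cfsg.Agent.S1278

open Subgroup CA.Rad CA.Core CA.Fitting CA.Subn CA.Quasi CA.Comp CA.Fstar CA.PLoc CA.PComp in
/-- Let K ≠ L be 2-components of the finite group X. Then ⁅K, L⁆ ≤ O(K) ⊓ O(L), and if K is quasisimple then ⁅K, L⁆ = 1. -/
theorem result {X : Type*} [Group X] [Finite X] (K L : Subgroup X) (hK : Cfsg.IsPComponent 2 K) (hL : Cfsg.IsPComponent 2 L) (hne : K ≠ L) : ⁅K, L⁆ ≤ ((Cfsg.oddCore ↥K).map K.subtype) ⊓ ((Cfsg.oddCore ↥L).map L.subtype) ∧ (Cfsg.IsQuasisimple ↥K → ⁅K, L⁆ = ⊥) := by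
  have h1 := pcomp_commutator_le_of_ne hK hL hne
  refine ⟨le_inf (commutator_le_map_pPrimeCore hK h1) ?_, fun hq => ?_⟩
  · rw [commutator_comm] at h1 ⊢
    exact commutator_le_map_pPrimeCore hL h1
  · exact (comp_le_or_commutator ⟨hK.1, hq⟩ hL.1).resolve_left fun e => hne (pcomp_eq_of_le hK hL e)

end Cfsg.Agent.S1278
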