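import Cfsg.Statements.S1279
import Cfsg.Agent.Lib.Grp.Bal2

set_option autoImplicit false
open Cfsg

namespace Cfsg.Agent.S1279

open Subgroup CA.Rad CA.Core CA.Fitting CA.Subn CA.Quasi CA.Comp CA.Fstar CA.PLoc CA.PComp CA.Bal CA.Bal2 in
/-- Let A be a noncyclic elementary abelian p-subgroup of the finite group G such that C_G(a) is solvable for every non-identity a ∈ A. Then a ↦ O_{p'}(C_G(a)) is a solvable A-signalizer functor on G. -/
theorem result {G : Type*} [Group G] [Finite G] (p : ℕ) [Fact p.Prime] (A : Subgroup G) (hA : Cfsg.IsElementaryAbelian p A) (hA2 : p ^ 2 ≤ Nat.card ↥A) (hsolv : ∀ a ∈ A, a ≠ 1 → Group.IsSolvable ↥(Subgroup.centralizer ({a} : Set G))) : Cfsg.IsSolvableSignalizerFunctor p A (fun a => Cfsg.centralizerPPrimeCore p a) := by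
  refine ⟨⟨fun a _ _ => centralizerPPrimeCore_le a,
    fun a _ _ => coprime_iff_not_dvd.1 (coprime_cpc a),
    fun a ha _ b hb x hx => CA.Coprime.conj_mem (centralizer_le_normalizer_cpc a)
      (ea_le_centralizer_singleton hA ha hb) hx,
    fun a ha h1 b hb h2 => cpc_inf_le_of_pLayer (pLayer_eq_bot_of_isSolvable (hsolv b hb h2))
      (ea_le_centralizer_singleton hA hb ha)
      ((orderOf_eq_of_elemAb hA ha h1).trans (pow_one p).symm)⟩,
    fun a ha h1 => isSolvable_of_le (centralizerPPrimeCore_le a) (hsolv a ha h1)⟩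

end Cfsg.Agent.S1279
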