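import Cfsg.Statements.S1286


set_option autoImplicit false
open Cfsg

namespace Cfsg.Agent.S1286

/-- There exist a finite group X, an elementary abelian subgroup A of order 4 and a solvable A-signalizer functor θ on X for the prime 2 which is not complete. -/
theorem result : ∃ (X : Type) (_ : Group X) (_ : Finite X) (A : Subgroup X) (θ : X → Subgroup X), Cfsg.IsElementaryAbelian 2 A ∧ Nat.card ↥A = 4 ∧ Cfsg.IsSolvableSignalizerFunctor 2 A θ ∧ ¬ Cfsg.IsCompleteSignalizerFunctor 2 A θ := by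
  classical
  let a : Equiv.Perm (Fin 5) := Equiv.swap 0 1
  let b : Equiv.Perm (Fin 5) := Equiv.swap 2 3
  let c : Equiv.Perm (Fin 5) := Equiv.swap 2 3 * Equiv.swap 3 4
  let d : Equiv.Perm (Fin 5) := Equiv.swap 0 1 * Equiv.swap 1 4
  let A : Subgroup (Equiv.Perm (Fin 5)) :=
    { carrier := {x | x = 1 ∨ x = a ∨ x = b ∨ x = a * b}
      mul_mem' := by
        rintro x y (rfl | rfl | rfl | rfl) (rfl | rfl | rfl | rfl) <;> simp only [Set.mem_ofPred_eq] <;> decide
      one_mem' := Or.inl rfl
      inv_mem' := by rintro x (rfl | rfl | rfl | rfl) <;> simp only [Set.mem_ofPred_eq] <;> decide }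
  have mA : ∀ x, x ∈ A ↔ x = 1 ∨ x = a ∨ x = b ∨ x = a * b := fun _ => Iff.rfl
  have : Fact (Nat.Prime 3) := ⟨Nat.prime_three⟩
  have oc : orderOf c = 3 := orderOf_eq_prime (by decide) (by decide)
  have od : orderOf d = 3 := orderOf_eq_prime (by decide) (by decide)
  have m3 : ∀ x y : Equiv.Perm (Fin 5), orderOf x = 3 → y ∈ Subgroup.zpowers x → y = 1 ∨ y = x ∨ y = x ^ 2 :=
    fun x y h hy => by
      rw [mem_zpowers_iff_mem_range_orderOf, h] at hy
      simp only [Finset.mem_image, Finset.mem_range] at hy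
      obtain ⟨i, i1, rfl⟩ := hy
      interval_cases i <;> simp
  let θ : Equiv.Perm (Fin 5) → Subgroup (Equiv.Perm (Fin 5)) := fun x =>
    Subgroup.zpowers (if x = a then c else if x = b then d else 1)
  have ta : θ a = Subgroup.zpowers c := by simp [θ]
  have tb : θ b = Subgroup.zpowers d := by simp only [θ]; rw [if_neg (by decide)]; simp
  have tab : θ (a * b) = ⊥ := by simp only [θ]; rw [if_neg (by decide), if_neg (by decide)]; simp
  refine ⟨Equiv.Perm (Fin 5), inferInstance, inferInstance, A, θ, ⟨⟨⟨fun x y => Subtype.ext ?_⟩⟩, fun x => ?_⟩,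
    ?_, ⟨⟨?_, ?_, ?_, ?_⟩, fun x _ _ => ?_⟩, ?_⟩
  · obtain ⟨x, rfl | rfl | rfl | rfl⟩ := x <;> obtain ⟨y, rfl | rfl | rfl | rfl⟩ := y <;>
      simp only [Subgroup.coe_mul] <;> decide
  · rintro (rfl | rfl | rfl | rfl) <;> decide
  · rw [Nat.card_congr (Equiv.subtypeEquivRight mA), Nat.card_eq_fintype_card]; decide
  · rintro x (rfl | rfl | rfl | rfl) h
    · exact absurd rfl h
    · rw [ta, Subgroup.zpowers_le, Subgroup.mem_centralizer_singleton_iff]; decide
    · rw [tb, Subgroup.zpowers_le, Subgroup.mem_centralizer_singleton_iff]; decide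
    · rw [tab]; exact bot_le
  · rintro x (rfl | rfl | rfl | rfl) h
    · exact absurd rfl h
    · rw [ta, Nat.card_zpowers, oc]; decide
    · rw [tb, Nat.card_zpowers, od]; decide
    · rw [tab]; simp
  · rintro x (rfl | rfl | rfl | rfl) h y hy z hz
    · exact absurd rfl h
    · rw [ta] at hz ⊢
      have : y * z * y⁻¹ = z ∨ y * z * y⁻¹ = z⁻¹ := by
        rcases hy with rfl | rfl | rfl | rfl <;> rcases m3 _ _ oc hz with rfl | rfl | rfl <;> decide
      rcases this with e | e <;> rw [e]
      exacts [hz, inv_mem hz]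
    · rw [tb] at hz ⊢
      have : y * z * y⁻¹ = z ∨ y * z * y⁻¹ = z⁻¹ := by
        rcases hy with rfl | rfl | rfl | rfl <;> rcases m3 _ _ od hz with rfl | rfl | rfl <;> decide
      rcases this with e | e <;> rw [e]
      exacts [hz, inv_mem hz]
    · rw [tab, Subgroup.mem_bot] at hz ⊢; simp [hz]
  · rintro x hx h y hy h' z ⟨hz, hz'⟩
    by_cases e : x = y
    · exact e ▸ hz
    suffices z = 1 from this ▸ one_mem _
    have hz'' : z * y = y * z := Subgroup.mem_centralizer_singleton_iff.1 hz'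
    rcases hx with rfl | rfl | rfl | rfl
    · exact absurd rfl h
    · rw [ta] at hz
      revert hz'' e h'
      rcases hy with rfl | rfl | rfl | rfl <;> rcases m3 _ _ oc hz with rfl | rfl | rfl <;> decide
    · rw [tb] at hz
      revert hz'' e h'
      rcases hy with rfl | rfl | rfl | rfl <;> rcases m3 _ _ od hz with rfl | rfl | rfl <;> decide
    · rw [tab] at hz; exact hz
  · exact Group.isSolvable_of_comm fun u v => (Subgroup.zpowers_isMulCommutative _).is_comm.comm u v
  · rintro ⟨-, X, -, h2, h3⟩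
    have hc : c ∈ X := ((h3 a (Or.inr (Or.inl rfl)) (by decide)).ge (ta ▸ Subgroup.mem_zpowers c)).1
    have hd : d ∈ X := ((h3 b (Or.inr (Or.inr (Or.inl rfl))) (by decide)).ge (tb ▸ Subgroup.mem_zpowers d)).1
    have : orderOf (c * (d * c * d⁻¹)) = 2 := orderOf_eq_prime (by decide) (by decide)
    exact h2 (this ▸ Subgroup.orderOf_dvd_natCard X (mul_mem hc (mul_mem (mul_mem hd hc) (inv_mem hd))))

end Cfsg.Agent.S1286
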