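import Cfsg.Statements.S1289
import Cfsg.Agent.Lib.Grp.PComp

set_option autoImplicit false
open Cfsg

namespace Cfsg.Agent.S1289

open Subgroup CA.Rad CA.Core CA.Fitting CA.Subn CA.Quasi CA.Comp CA.Fstar CA.PLoc CA.PComp in
/-- A p-component K of the finite group X is subnormal, perfect, of order divisible by p, and minimal among the subnormal perfect subgroups of X of order divisible by p. -/
theorem result {X : Type*} [Group X] [Finite X] (p : ℕ) [Fact p.Prime] (K : Subgroup X) (hK : Cfsg.IsPComponent p K) : K.IsSubnormal ∧ ⁅K, K⁆ = K ∧ p ∣ Nat.card ↥K ∧ ∀ H : Subgroup X, H ≤ K → H.IsSubnormal → ⁅H, H⁆ = H → p ∣ Nat.card ↥H → H = K := by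
  refine ⟨hK.1, pcomp_perfect hK, (PCp.top_iff.2 hK).dvd_card, fun H hle hH hp hd => ?_⟩
  refine hK.2.2 H hH hle ((qs_SN hK.2.1.2 (SN.of_subnormal (hH.map (QuotientGroup.mk'_surjective _))
    (map_mono hle))).resolve_right fun e => ?_)
  have := eq_bot_of_perfect_of_le_centralizer (perfect_map hp _)
    (e.trans (centralizer_anti (map_mono hle)))
  rw [Subgroup.map_eq_bot_iff, QuotientGroup.ker_mk'] at this
  exact coprime_iff_not_dvd.1 (coprime_of_le_pPrimeCore this) hd

end Cfsg.Agent.S1289
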