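import Cfsg.Statements.S1298
import Cfsg.Agent.Lib.Grp.Bal2

set_option autoImplicit false
open Cfsg

namespace Cfsg.Agent.S1298

open Subgroup CA.Rad CA.Core CA.Fitting CA.Subn CA.Quasi CA.Comp CA.Fstar CA.PLoc CA.PComp CA.Bal CA.Bal2 in
/-- Let G be finite and k ≥ 1. Suppose that for every x of order p, writing C = C_G(x), every component K of C / O_{p'}(C) has K / Z(K) locally k-balanced for p. Then G is k-balanced for p. -/
theorem result {G : Type*} [Group G] [Finite G] (p k : ℕ) [Fact p.Prime] (hk : 1 ≤ k) (h : ∀ x : G, orderOf x = p → ∀ K : Subgroup (↥(Subgroup.centralizer ({x} : Set G)) ⧸ Cfsg.pPrimeCore p ↥(Subgroup.centralizer ({x} : Set G))), Cfsg.IsComponent K → Cfsg.IsLocallyKBalanced p k (↥K ⧸ Subgroup.center ↥K)) : Cfsg.IsKBalanced p k G := by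
  intro A hA hc b hb hab
  have hle : A ≤ centralizer {b} := fun a ha => mem_centralizer_singleton_iff.2 (hab a ha)
  have h1 := card_bar (ea_isPGroup hA) hle
  refine bar_eq_bot_iff.1 (le_bot_iff.1 ((bar_delta_le (ea_isPGroup hA) _).trans ?_))
  exact (signalizerDelta_eq_bot pPrimeCore_quotient_pPrimeCore (ea_bar hA _) (h1.trans hc)
    (ne_bot_of_pow_le hk (h1.trans hc).ge) (h b hb)).le

end Cfsg.Agent.S1298
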