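import Cfsg.Statements.S1299
import Cfsg.Agent.Lib.Loc.AmbChar
import Cfsg.Agent.Lib.Loc.LBal3
import Cfsg.Agent.Lib.Grp.H13Inv
import Cfsg.Agent.Lib.Loc.AmbWC
import Cfsg.Agent.Lib.Loc.AmbRed
import Cfsg.Agent.Lib.Grp.SigK5
import Cfsg.Agent.Lib.Odd.BG4x3
-- import your own Cfsg.Agent.* helpers here

set_option autoImplicit false
open Cfsg

namespace Cfsg.Agent.S1299

/-- Let G be finite and k-balanced for the prime p (k ≥ 1), A an elementary abelian p-subgroup of order at least p^(k+2) such that O_{p'}(C_G(a)) is solvable for every non-identity a ∈ A. For a ∈ A put θ a = the subgroup generated by the Δ_G(D) ∩ C_G(a) over the subgroups D ≤ A of order p^k. Then θ is an A-signalizer functor. -/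
theorem result {G : Type*} [Group G] [Finite G] (p k : ℕ) [Fact p.Prime] (hk : 1 ≤ k) (hbal : Cfsg.IsKBalanced p k G) (A : Subgroup G) (hA : Cfsg.IsElementaryAbelian p A) (hAk : p ^ (k + 2) ≤ Nat.card ↥A) (hsolv : ∀ a ∈ A, a ≠ 1 → Group.IsSolvable ↥(Cfsg.centralizerPPrimeCore p a)) : Cfsg.IsSignalizerFunctor p A (fun a => ⨆ D : {D : Subgroup G // D ≤ A ∧ Nat.card ↥D = p ^ k}, Cfsg.signalizerDelta p (D : Subgroup G) ⊓ Subgroup.centralizer {a}) := by
  open Subgroup Cfsg CA CA.Amb CA.AmbSyl CA.AmbCore CA.AmbRes CA.AmbChar CA.AmbFs CA.AmbSpe CA.AmbIso CA.LBal CA.LBal2 CA.Comp CA.PComp in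
  open scoped commutatorElement in
  (
    let Y : Subgroup G → Subgroup G := fun F =>
      ⨆ D : {D : Subgroup G // D ≤ A ∧ Nat.card D = p ^ k}, signalizerDelta p (D : Subgroup G) ⊓ 𝐂 F
    have hp : p.Prime := Fact.out
    have cA := ea_le_cent hA
    have oa : ∀ a ∈ A, a ≠ 1 → orderOf a = p := fun a ha h1 => orderOf_eq_of_pow (ea_pow hA ha) h1
    have Yc : ∀ F, Y F ≤ 𝐂 F := fun F => iSup_le fun _ => inf_le_right
    have Ya : ∀ {E F}, E ≤ F → Y F ≤ Y E := fun h => iSup_mono fun _ => inf_le_inf_left _ (centralizer_anti h)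
    have YO : ∀ F, ∀ a ∈ A, a ≠ 1 → a ∈ F → Y F ≤ centralizerPPrimeCore p a := fun F a ha h1 h2 =>
      iSup_le fun D => le_trans (inf_le_inf_left _ fun g hg => mem_cs.2 (mem_centralizer_sub.1 hg a h2).symm)
        (hbal D (ea_of_le hA D.2.1) D.2.2 a (oa a ha h1) fun b hb => comm_of_ea hA (D.2.1 hb) ha)
    have nD : ∀ D ≤ A, A ≤ 𝐍 (signalizerDelta p D) := fun D hD => norm_iInf fun a =>
      norm_OQ (norm_of_le (le_cent_of_mem (cA (hD a.2.1))))
    have nC : ∀ F ≤ A, A ≤ 𝐍 (𝐂 F) := fun F hF => norm_of_le (cA.trans (centralizer_anti hF))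
    have nY : ∀ F ≤ A, A ≤ 𝐍 (Y F) := fun F hF => norm_iSup fun D => norm_inf (nD D D.2.1) (nC F hF)
    have co : ∀ (a : G) {U}, U ≤ centralizerPPrimeCore p a → (Nat.card U).Coprime p := fun a U h =>
      Core.coprime_card_of_le h (coprime_OQ p _)
    have key : ∀ F, F ≤ A → F ≠ ⊥ → ∀ E, F ≤ E → E ≤ A → Y F ⊓ 𝐂 E ≤ Y E := fun F => by
      induction F using WellFoundedGT.induction with
      | ind F ih =>
      intro hF h1 E l hE
      by_cases c : p ^ k ≤ Nat.card F
      · obtain ⟨n, hn⟩ := IsPGroup.iff_card.1 (ea_pg (ea_of_le hA hF))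
        obtain ⟨D, hD, hc⟩ : ∃ D ≤ F, Nat.card D = p ^ k := by
          obtain ⟨D, hD⟩ := Sylow.exists_subgroup_card_pow_prime (G := F) p (n := k)
            (hn ▸ pow_dvd_pow p ((Nat.pow_le_pow_iff_right hp.one_lt).1 (hn ▸ c)))
          exact ⟨D.map F.subtype, map_subtype_le D, by rw [card_map_of_injective F.subtype_injective, hD]⟩
        refine le_trans (inf_le_inf_right _ (le_iInf fun a => ?_)) (le_iSup_of_le ⟨D, hD.trans hF, hc⟩ le_rfl)
        exact YO F a (hF (hD a.2.1)) a.2.2 (hD a.2.1)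
      rcases l.eq_or_lt with rfl | lt
      · exact inf_le_left
      obtain ⟨B, hB, i, s⟩ := BG4.exists_compl_elem hp hA hF
      have eB := ea_of_le hA hB
      have lt' : ∀ a ∈ B, a ≠ 1 → F < F ⊔ zpowers a := fun a ha h1 => left_lt_sup.2 fun h =>
        h1 (mem_bot.1 (i.le (mem_inf.2 ⟨h (mem_zpowers a), ha⟩)))
      have le' : ∀ a ∈ B, F ⊔ zpowers a ≤ A := fun a ha => sup_le hF (zle (hB ha))
      have mz : ∀ a : G, a ∈ F ⊔ zpowers a := fun a => mem_sup_right (mem_zpowers a)
      have yc : ∀ a : G, Y (F ⊔ zpowers a) ≤ centralizer {a} := fun a =>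
        le_cent_of_mem (cent_symm (Yc _) (mz a))
      have sf : Sig.SF p B fun a => Y (F ⊔ zpowers a) := ⟨eB, fun a _ _ => yc a,
        fun a ha h => co a (YO _ a (hB ha) h (mz a)), fun a ha _ => hB.trans (nY _ (le' a ha)),
        fun a ha h b hb _ => le_trans (le_inf inf_le_left (by
          rw [Amb.centralizer_sup (F ⊔ _), Amb.centralizer_zpowers]; exact inf_le_inf_right _ (Yc _)))
          ((ih _ (lt' a ha h) (le' a ha) (lt' a ha h).ne_bot (F ⊔ zpowers a ⊔ zpowers b) le_sup_left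
            (sup_le (le' a ha) (zle (hB hb)))).trans (Ya (sup_le_sup_right le_sup_left _))),
        fun a ha h => Core.isSolvable_of_le (YO _ a (hB ha) h (mz a)) (hsolv a (hB ha) h)⟩
      have c3 : p ^ 3 ≤ Nat.card B := by
        have e := card_sup_mul_card_inf (H := F) (N := B) (norm_of_centralizer (hF.trans (cA.trans (centralizer_anti hB))))
        rw [s, i, card_bot, mul_one] at e
        obtain ⟨n, hn⟩ := IsPGroup.iff_card.1 (ea_pg (ea_of_le hA hF))
        obtain ⟨m, hm⟩ := IsPGroup.iff_card.1 (ea_pg eB)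
        rw [e, hn, hm, ← pow_add, Nat.pow_le_pow_iff_right hp.one_lt] at hAk
        rw [hn, Nat.pow_le_pow_iff_right hp.one_lt] at c
        rw [hm, Nat.pow_le_pow_iff_right hp.one_lt]
        omega
      have cp := SigK5.cpl sf c3
      have W : Y F ≤ signalizerClosure B fun a => Y (F ⊔ zpowers a) := iSup_le fun D => by
        obtain ⟨d, hd, d1⟩ := exists_ne_one_of_ne_bot (K := D.1) fun e => by
          have := D.2.2
          rw [e, card_bot] at this
          exact (Nat.one_lt_pow (by omega) hp.one_lt).ne this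
        refine Hyp.le_of_forall_singleton eB ((Nat.pow_le_pow_right hp.pos (by omega)).trans c3)
          (hB.trans (norm_inf (nD D D.2.1) (nC F hF))) (co d (inf_le_left.trans (iInf_le_of_le ⟨d, hd, d1⟩ le_rfl)))
          fun a ha h => le_trans ?_ (Sig.le_closure ha h)
        refine le_iSup_of_le D ?_
        rw [Amb.centralizer_sup, Amb.centralizer_zpowers, inf_assoc]
      obtain ⟨a, ha, h⟩ := exists_ne_one_of_ne_bot (K := B ⊓ E) fun e => by
        have := sup_inf_of_norm (H := F) (N := B) (L := E)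
          (norm_of_centralizer (hF.trans (cA.trans (centralizer_anti hB)))) l
        rw [s, e, sup_bot_eq, inf_eq_right.2 hE] at this
        exact lt.ne' this
      refine le_trans (le_inf ?_ inf_le_right)
        (ih _ (lt' a ha.1 h) (le' a ha.1) (lt' a ha.1 h).ne_bot E (sup_le l (zle ha.2)) hE)
      rw [← Sig.Cpl.inf_eq sf cp ha.1 h]
      exact inf_le_inf W fun g hg => mem_cs.2 (mem_centralizer_sub.1 hg a ha.2).symm
    have e : ∀ a : G, ⨆ D : {D : Subgroup G // D ≤ A ∧ Nat.card D = p ^ k},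
        signalizerDelta p (D : Subgroup G) ⊓ centralizer {a} = Y (zpowers a) := fun a => by
      simp only [Y, Amb.centralizer_zpowers]
    simp only [e]
    refine ⟨fun a _ _ => Amb.centralizer_zpowers a ▸ Yc _, fun a ha h => Fitting.coprime_iff_not_dvd.1
      (co a (YO _ a ha h (mem_zpowers a))), fun a ha _ b hb x hx => conj_mem_of_mem_normalizer (nY _ (zle ha) hb) hx,
      fun a ha h b hb _ => le_trans (le_inf inf_le_left ?_) ((key _ (zle ha) (by rwa [Ne, zpowers_eq_bot])
        (zpowers a ⊔ zpowers b) le_sup_left (sup_le (zle ha) (zle hb))).trans (Ya le_sup_right))⟩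
    rw [Amb.centralizer_sup, Amb.centralizer_zpowers b]
    exact inf_le_inf_right _ (Yc _))

end Cfsg.Agent.S1299
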