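import Cfsg.Statements.S1303
import Cfsg.Agent.Lib.Loc.AmbChar
import Cfsg.Agent.Lib.Loc.H6PSolv
import Cfsg.Agent.Lib.Grp.SL23
import Cfsg.Agent.Lib.Char.CharBurn
-- import your own Cfsg.Agent.* helpers here

set_option autoImplicit false
open Cfsg

namespace Cfsg.Agent.S1303

section Aux
open Subgroup Cfsg CA CA.Amb CA.AmbSyl CA.AmbCore CA.AmbRes CA.AmbChar
open scoped commutatorElement

theorem h1 : ∀ x : Matrix.SpecialLinearGroup (Fin 2) (ZMod 3),
    (∀ g, (x⁻¹ * (g * x * g⁻¹)) ^ 3 = 1) → x ^ 3 = 1 → x = 1 := by decide +kernel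

theorem h2 : ∀ x : Matrix.SpecialLinearGroup (Fin 2) (ZMod 3), x ^ 2 = 1 → ∀ g, g * x = x * g := by decide +kernel

end Aux

/-- The group X = SL(2, 3): it is 2-constrained, O_{2'}(X) = 1, its centre A = Z(X) contains every involution of X = C_X(A), and X has a subgroup of order 3 (normalized by A) not contained in O_{2'}(X). -/
theorem result : Cfsg.IsPConstrained 2 (Matrix.SpecialLinearGroup (Fin 2) (ZMod 3)) ∧ Cfsg.pPrimeCore 2 (Matrix.SpecialLinearGroup (Fin 2) (ZMod 3)) = ⊥ ∧ (∀ t : Matrix.SpecialLinearGroup (Fin 2) (ZMod 3), orderOf t = 2 → t ∈ Subgroup.center (Matrix.SpecialLinearGroup (Fin 2) (ZMod 3))) ∧ ∃ Q : Subgroup (Matrix.SpecialLinearGroup (Fin 2) (ZMod 3)), Nat.card ↥Q = 3 ∧ ¬ (Q ≤ Cfsg.pPrimeCore 2 (Matrix.SpecialLinearGroup (Fin 2) (ZMod 3))) := by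
  open Subgroup Cfsg CA CA.Amb CA.AmbSyl CA.AmbCore CA.AmbRes CA.AmbChar in
  open scoped commutatorElement in
  (
  have c := SL23.card_sl
  have k : ∀ x ∈ pPrimeCore 2 (Matrix.SpecialLinearGroup (Fin 2) (ZMod 3)), x ^ 3 = 1 := fun x hx => by
    refine orderOf_dvd_iff_pow_eq_one.1 (Nat.Coprime.dvd_of_dvd_mul_left (Nat.Coprime.pow_right 3
      (Nat.Coprime.coprime_dvd_left ?_ (Core.coprime_of_le_pPrimeCore (zpowers_le.2 hx)))) ((orderOf_dvd_natCard x).trans c.dvd))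
    rw [Nat.card_zpowers]
  have o : pPrimeCore 2 (Matrix.SpecialLinearGroup (Fin 2) (ZMod 3)) = ⊥ := eq_bot_iff.2 fun x hx =>
    h1 x (fun g => k _ (mul_mem (inv_mem hx) (Normal.conj_mem inferInstance x hx g))) (k x hx)
  refine ⟨H6PSolv.isPConstrained_of_isPSolvable (H6PSolv.isPSolvable_of_isSolvable
    (CChar.CharBurn.isSolvable_of_card_eq (a := 3) (b := 1) Nat.prime_two Nat.prime_three c)), o,
    fun t ht => mem_center_iff.2 (h2 t (orderOf_dvd_iff_pow_eq_one.1 ht.dvd)), ?_⟩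
  haveI := Fact.mk Nat.prime_three
  obtain ⟨x, hx⟩ := exists_prime_orderOf_dvd_card' (G := Matrix.SpecialLinearGroup (Fin 2) (ZMod 3)) 3 (by rw [c]; decide)
  refine ⟨zpowers x, by rw [Nat.card_zpowers, hx], fun h => ?_⟩
  rw [o, le_bot_iff, zpowers_eq_bot] at h
  simp [h] at hx)

end Cfsg.Agent.S1303
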