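import Cfsg.Statements.S1304
import Cfsg.Agent.Lib.Grp.Quasi

set_option autoImplicit false
open Cfsg

namespace Cfsg.Agent.S1304

/-- Let X be a perfect group and α an automorphism of X with α(x) x⁻¹ central for every x. Then α is the identity. -/
theorem result {X : Type*} [Group X] (hperf : commutator X = ⊤) (α : X ≃* X) (h : ∀ x : X, α x * x⁻¹ ∈ Subgroup.center X) : ∀ x : X, α x = x := by
  let f : X →* Subgroup.center X :=
    { toFun := fun x => ⟨α x * x⁻¹, h x⟩
      map_one' := by simp
      map_mul' := fun x y => Subtype.ext (by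
        have h1 := Subgroup.mem_center_iff.1 (h y) x⁻¹
        have h2 := Subgroup.mem_center_iff.1 (h y) (α x)
        show α (x * y) * (x * y)⁻¹ = α x * x⁻¹ * (α y * y⁻¹)
        rw [map_mul, mul_inv_rev, mul_assoc (α x) x⁻¹, h1]
        simp only [mul_assoc]) }
  have hk : (⊤ : Subgroup X) ≤ f.ker := CA.Fitting.le_ker_of_perfect hperf f
    (CA.Core.isSolvable_of_isMulCommutative inferInstance)
  intro x
  have : f x = 1 := hk (Subgroup.mem_top x)
  exact mul_inv_eq_one.1 (congrArg Subtype.val this)

end Cfsg.Agent.S1304
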