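import Cfsg.Statements.S1305
import Cfsg.Agent.Lib.Loc.AmbChar
import Cfsg.Agent.Lib.Loc.LBal2
-- import your own Cfsg.Agent.* helpers here

set_option autoImplicit false
open Cfsg

namespace Cfsg.Agent.S1305

/-- Let G be a finite group of component type with the B-property and no nontrivial normal subgroup of odd order. Let a be an involution and K a component of C_G(a) such that (a) |K| is maximal among the orders of components of centralizers of involutions of G, (b) subject to (a) the 2-rank of the centralizer of K in C_G(a) is as large as possible, and (c) K has 2-rank at least 2. If B is an elementary abelian 2-subgroup of that centralizer of the largest possible order, then K is a component of C_G(b) for every non-identity b ∈ B. -/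
theorem result {G : Type*} [Group G] [Finite G] (hO : Cfsg.oddCore G = ⊥) (hB : Cfsg.HasBProperty G) (hct : Cfsg.IsComponentType G) (a : G) (ha : orderOf a = 2) (K : Subgroup G) (hKa : K ≤ Subgroup.centralizer ({a} : Set G)) (hK : Cfsg.IsComponent (K.subgroupOf (Subgroup.centralizer ({a} : Set G)))) (hmax : ∀ y : G, orderOf y = 2 → ∀ K' : Subgroup G, K' ≤ Subgroup.centralizer ({y} : Set G) → Cfsg.IsComponent (K'.subgroupOf (Subgroup.centralizer ({y} : Set G))) → Nat.card ↥K' ≤ Nat.card ↥K ∧ (Nat.card ↥K' = Nat.card ↥K → ∀ k : ℕ, Cfsg.PRankLE 2 k ↥(Subgroup.centralizer ({a} : Set G) ⊓ Subgroup.centralizer (K : Set G)) → Cfsg.PRankLE 2 k ↥(Subgroup.centralizer ({y} : Set G) ⊓ Subgroup.centralizer (K' : Set G)))) (hrk : ¬ Cfsg.PRankLE 2 1 ↥K) (B : Subgroup G) (hBle : B ≤ Subgroup.centralizer ({a} : Set G) ⊓ Subgroup.centralizer (K : Set G)) (hBel : Cfsg.IsElementaryAbelian 2 B) (hBmax : ∀ B' : Subgroup G, B' ≤ Subgroup.centralizer ({a} : Set G) ⊓ Subgroup.centralizer (K : Set G)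 → Cfsg.IsElementaryAbelian 2 B' → Nat.card ↥B' ≤ Nat.card ↥B) (b : G) (hb : b ∈ B) (hb1 : b ≠ 1) : K ≤ Subgroup.centralizer ({b} : Set G) ∧ Cfsg.IsComponent (K.subgroupOf (Subgroup.centralizer ({b} : Set G))) := by
  open Subgroup Cfsg CA CA.Amb CA.AmbSyl CA.AmbCore CA.AmbRes CA.AmbChar CA.AmbFs CA.AmbSpe CA.AmbIso CA.LBal CA.LBal2 CA.Comp CA.PComp in
  open scoped commutatorElement in
  (
    have c : Cp K (centralizer {a}) := cp_iff.2 ⟨hKa, hK⟩
    have a2 : a ^ 2 = 1 := ha ▸ pow_orderOf_eq_one a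
    have aa : a * a = 1 := pow_two a ▸ a2
    have ob : orderOf b = 2 := orderOf_eq_of_pow (ea_pow hBel hb) hb1
    have Ba : B ≤ centralizer {a} := hBle.trans inf_le_left
    have aB : a ∈ B := by
      have := hBmax (B ⊔ zpowers a) (sup_le hBle (zle ⟨self_mem_cent a, mem_cent_of_le hKa⟩))
        (ea_sup hBel (Bal2.ea_zpowers a2) (by rwa [Amb.centralizer_zpowers]))
      exact (eq_of_le_of_card_ge le_sup_left this).ge (mem_sup_right (mem_zpowers a))
    set H := centralizer ({b} : Set G)
    have BH : B ≤ H := Bal2.ea_le_centralizer_singleton hBel hb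
    have KH : K ≤ H := le_cent_of_mem (hBle hb).2
    have k : PCp 2 K (H ⊓ centralizer {a}) := pcp_two (c.mono (le_inf KH hKa) inf_le_right)
    have l : K ≤ EL H := (LB.le lb_two (isPGroup_zpowers' a2) (zle (BH aB)) (by rwa [Amb.centralizer_zpowers])).trans
      (PL_le_EL (le_bot_iff.1 (le_trans (map_commutator _ _ _).ge ((hB b ob).trans hO.le))))
    have n : a ∈ 𝐍 H := le_normalizer (BH aB)
    obtain ⟨D, hD, h⟩ := pump (p := 2) n (by rw [a2]; exact one_mem _) k l
    obtain ⟨m1, m2⟩ := hmax b ob D hD.le hD.comp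
    refine cp_iff.1 ?_
    rcases h with ⟨-, h2⟩ | ⟨h1, δ, h2, h3⟩
    · exact eq_of_le_of_card_ge h2 m1 ▸ hD
    exfalso
    have s : Function.Surjective δ.rangeRestrict := δ.rangeRestrict_surjective
    have e : Nat.card D = Nat.card K := le_antisymm m1 (h3 ▸ Nat.card_le_card_of_surjective _ s)
    have i : Function.Injective δ := fun u v h =>
      ((Nat.bijective_iff_surjective_and_card _).2 ⟨s, h3 ▸ e⟩).1 (Subtype.ext h)
    obtain ⟨j, hj⟩ := (ea_pg hBel).exists_card_eq
    have r := rank_iff.1 (m2 e j (rank_iff.2 fun A l ea => hj ▸ hBmax A l ea))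
    obtain ⟨V, V1, V2, V3⟩ : ∃ V, V ≤ K ∧ IsElementaryAbelian 2 V ∧ 2 < Nat.card V := by
      by_contra k
      exact hrk (rank_iff.2 fun A l ea => not_lt.1 fun h => k ⟨A, l, ea, h⟩)
    have mV : (V.comap δ).map δ = V := map_comap_eq_self (h3 ▸ V1)
    set W := (V.comap δ).map D.subtype
    have cW : Nat.card W = Nat.card V := by rw [card_subtype, ← mV, card_map_of_injective i, mV]
    have eW : IsElementaryAbelian 2 W := ea_map _ ((ea_map_iff i).1 (mV.symm ▸ V2))
    set B₀ := B ⊓ 𝐍 D
    have c0 : B₀ ≤ 𝐂 D := h2.cent hD.perfect inf_le_right (h3 ▸ inf_le_left.trans (hBle.trans inf_le_right))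
    have c1 : B₀ ≤ 𝐂 (cj a W) := by
      refine cent_symm (cj_le_iff.2 ?_)
      rw [cj_centralizer, cj_eq_self (inv_mem (centralizer_le_normalizer _ (mem_cent_of_le (inf_le_left.trans Ba))))]
      exact (map_subtype_le _).trans (cent_symm c0)
    have aD : cj a D ≤ 𝐂 D := (hD.map_conj_of_mem n).le_centralizer_of_ne hD fun e => h1 (cj_eq_self_iff.1 e)
    have r1 := r (B₀ ⊔ cj a W) (sup_le (le_inf (inf_le_left.trans BH) c0) ((cj_mono a (map_subtype_le _)).trans
      (le_inf (cj_le_of_mem hD.le (BH aB)) aD))) (ea_sup (ea_of_le hBel inf_le_left) (ea_cj eW a) c1)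
    have i0 : B₀ ⊓ cj a W = ⊥ := by
      rw [eq_bot_iff]
      rintro z ⟨z1, z2⟩
      obtain ⟨_, ⟨v, hv, rfl⟩, rfl⟩ := mem_cj'.1 z2
      have t : a * v * a⁻¹ = v := by
        have := mem_cent_iff.1 (mem_cent_symm (Ba z1.1))
        exact (MulAut.conj a).injective this
      have : δ v = 1 := by
        rw [h2.two aa, t, ← pow_two]
        exact ea_pow eW ⟨v, hv, rfl⟩
      rw [i (this.trans (map_one δ).symm)]
      simp
    have r2 := card_sup_mul_card_inf (norm_of_centralizer c1)
    rw [i0, card_bot, mul_one, card_cj, cW] at r2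
    have r3 : B ≤ zpowers a ⊔ B₀ := fun u hu => by
      obtain ⟨g, hg, e⟩ := h2.conj_mem hD n (le_normalizer (BH hu)) (h3 ▸ centralizer_le_normalizer _ (hBle hu).2)
      refine (mul_mem_cancel_left (mem_sup_left (inv_mem hg))).1 (mem_sup_right (mem_inf.2 ⟨mul_mem (inv_mem (zle aB hg)) hu, ?_⟩))
      exact cj_eq_self_iff.1 (by rw [← cj_cj, e, cj_inv_cj])
    have r4 := card_sup_mul_card_inf (H := zpowers a) (N := B₀)
      (norm_of_centralizer (zle (mem_cent_of_le (inf_le_left.trans Ba))))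
    rw [Nat.card_zpowers, ha] at r4
    have r5 := card_le_of_le r3
    have r6 : 0 < Nat.card ↥(zpowers a ⊓ B₀) := Nat.card_pos
    have r7 : 0 < Nat.card B₀ := Nat.card_pos
    nlinarith)

end Cfsg.Agent.S1305
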