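import Cfsg.Statements.S1306
import Cfsg.Agent.Lib.Loc.AmbChar
import Cfsg.Agent.Lib.Loc.LBal2
-- import your own Cfsg.Agent.* helpers here

set_option autoImplicit false
open Cfsg

namespace Cfsg.Agent.S1306

/-- Let G be finite, x an involution and L ≤ C_G(x) a component of C_G(x). Suppose L is a component of C_G(y) for every involution y ∈ C_G(L), and ⁅L, g L g⁻¹⁆ ≠ 1 whenever g L g⁻¹ ≠ L. Then L is a standard subgroup of G. -/
theorem result {G : Type*} [Group G] [Finite G] (x : G) (hx : orderOf x = 2) (L : Subgroup G) (hLx : L ≤ Subgroup.centralizer ({x} : Set G)) (hL : Cfsg.IsComponent (L.subgroupOf (Subgroup.centralizer ({x} : Set G)))) (hne : ∀ y : G, orderOf y = 2 → y ∈ Subgroup.centralizer (L : Set G) → L ≤ Subgroup.centralizer ({y} : Set G) ∧ Cfsg.IsComponent (L.subgroupOf (Subgroup.centralizer ({y} : Set G)))) (hnc : ∀ g : G, L.map (MulAut.conj g).toMonoidHom ≠ L → ⁅L, L.map (MulAut.conj g).toMonoidHom⁆ ≠ ⊥) : Cfsg.IsStandardSubgroup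 L := by
  open Subgroup Cfsg CA CA.Amb CA.AmbSyl CA.AmbCore CA.AmbRes CA.AmbChar CA.AmbFs CA.AmbSpe CA.AmbIso CA.LBal CA.LBal2 CA.Comp CA.PComp in
  open scoped commutatorElement in
  (
    have key : ∀ g y : G, orderOf y = 2 → y ∈ 𝐂 L → y ∈ cj g (𝐂 L) → g ∈ 𝐍 L := fun g y ho h1 h2 => by
      have a : Cp L (centralizer {y}) := cp_iff.2 (hne y ho h1)
      have b : Cp (cj g L) (cj g (centralizer {g⁻¹ * y * g⁻¹⁻¹})) :=
        (cp_iff.2 (hne _ (by rw [orderOf_conj', ho]) (by rw [inv_inv]; exact mem_cj.1 h2))).map_conj g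
      rw [← cj_centralizer_singleton, cj_cj_inv] at b
      by_contra n
      exact hnc g (fun e => n (cj_eq_self_iff.1 e)) (a.commutator_of_ne b fun e => n (cj_eq_self_iff.1 e.symm))
    have xc := mem_cent_of_le hLx
    refine ⟨(cp_iff.2 ⟨hLx, hL⟩).qs, ⟨even_iff_two_dvd.2 (dvd_card_iff_exists.2 ⟨x, xc, hx⟩), fun g hg => ?_⟩, hnc,
      le_antisymm (normalizer_le_normalizer_centralizer L) fun g hg => key g x hx xc ((cj_eq_self hg).ge xc)⟩
    refine Nat.not_even_iff_odd.1 fun e => hg ?_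
    obtain ⟨y, hy, ho⟩ := dvd_card_iff_exists.1 e.two_dvd
    exact normalizer_le_normalizer_centralizer L (key g y ho hy.1 hy.2))

end Cfsg.Agent.S1306
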