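import Cfsg.Statements.S1307
import Cfsg.Agent.Lib.Loc.AmbChar
import Cfsg.Agent.Lib.Loc.LBal2
import Cfsg.Agent.Lib.Grp.Two
-- import your own Cfsg.Agent.* helpers here

set_option autoImplicit false
open Cfsg

namespace Cfsg.Agent.S1307

/-- Let G be finite, x an involution and L ≤ C_G(x) a component of C_G(x) of even order and 2-rank 1, such that L is a component of C_G(y) for every involution y ∈ C_G(L). Then some involution of L is a classical involution of G. -/
theorem result {G : Type*} [Group G] [Finite G] (x : G) (hx : orderOf x = 2) (L : Subgroup G) (hLx : L ≤ Subgroup.centralizer ({x} : Set G)) (hL : Cfsg.IsComponent (L.subgroupOf (Subgroup.centralizer ({x} : Set G)))) (heven : Even (Nat.card ↥L)) (hrk : Cfsg.PRankLE 2 1 ↥L) (hne : ∀ y : G, orderOf y = 2 → y ∈ Subgroup.centralizer (L : Set G) → L ≤ Subgroup.centralizer ({y} : Set G) ∧ Cfsg.IsComponent (L.subgroupOf (Subgroup.centralizer ({y} : Set G)))) : ∃ t ∈ L, Cfsg.IsClassicalInvolution t := by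
  open Subgroup Cfsg CA CA.Amb CA.AmbSyl CA.AmbCore CA.AmbRes CA.AmbChar CA.AmbFs CA.AmbSpe CA.AmbIso CA.LBal CA.LBal2 CA.Comp CA.PComp in
  open scoped commutatorElement in
  (
    have c : Cp L (centralizer {x}) := cp_iff.2 ⟨hLx, hL⟩
    obtain ⟨S⟩ : Nonempty (Sylow 2 L) := inferInstance
    have s := sylIn_sylow S
    have s1 := s.ne_bot heven.two_dvd
    obtain ⟨t, ht, ho⟩ := exists_orderOf_eq_of_ne_bot s.pg s1
    have tc := cent_of_rank_one c.qs hrk (s.le ht) ho
    refine ⟨t, s.le ht, ho, L, le_cent_of_mem tc, s.le ht, (hne t ho tc).2.1, S, ?_⟩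
    have e := (S : Subgroup L).equivMapOfInjective _ L.subtype_injective
    have nc : ¬ IsCyclic (S : Subgroup L) := fun h => not_cyclic_syl c.perfect s s1 (isCyclic_of_surjective _ e.surjective)
    obtain ⟨-, n, ⟨f⟩⟩ := (cyc_or_quat_of_rank S.2 fun A _ e => hrk A e.1 e.2).resolve_left nc
    cases n with
    | zero =>
      haveI : IsCyclic (QuaternionGroup (2 ^ 0)) := QuaternionGroup.quaternionGroup_one_isCyclic
      exact absurd (isCyclic_of_surjective _ f.symm.surjective) nc
    | succ n => exact ⟨n, ⟨f⟩⟩)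

end Cfsg.Agent.S1307
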