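import Cfsg.Statements.S1314
import Cfsg.Agent.Lib.Grp.Quasi

set_option autoImplicit false
open Cfsg

namespace Cfsg.Agent.S1314

open Subgroup CA.Rad CA.Core CA.Fitting CA.Subn CA.Quasi in
/-- Let x be an involution of a group G and L a perfect subgroup with ⁅L, x L x⁻¹⁆ = 1. Then l ↦ l (x l x⁻¹) is a group homomorphism π from L to G whose kernel is central in L and whose image lies in C_G(x); and the commutator subgroup of C_{L ⊔ xLx⁻¹}(x) equals the image of π. -/
theorem result {G : Type*} [Group G] [Finite G] (x : G) (hx : orderOf x = 2) (L : Subgroup G) (hperf : ⁅L, L⁆ = L) (hcomm : ⁅L, L.map (MulAut.conj x).toMonoidHom⁆ = ⊥) : ∃ π : ↥L →* G, (∀ l : ↥L, π l = (l : G) * (x * (l : G) * x⁻¹)) ∧ π.ker ≤ Subgroup.center ↥L ∧ π.range ≤ Subgroup.centralizer ({x} : Set G) ∧ ⁅(L ⊔ L.map (MulAut.conj x).toMonoidHom) ⊓ Subgroup.centralizer ({x} : Set G), (L ⊔ L.map (MulAut.conj x).toMonoidHom) ⊓ Subgroup.centralizer ({x} : Set G)⁆ = π.range := by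
  have hxx : x * x = 1 := by rw [← pow_two, ← hx, pow_orderOf_eq_one]
  have hxi : x⁻¹ = x := inv_eq_of_mul_eq_one_right hxx
  have hc := commutator_eq_bot_iff_le_centralizer.1 hcomm
  have hc' := le_centralizer_iff.1 hc
  have key : ∀ a ∈ L, ∀ b ∈ L, x * b * x⁻¹ * a = a * (x * b * x⁻¹) := fun a ha b hb =>
    hc ha _ (conj_mem_map_conj hb)
  let π : L →* G :=
    { toFun := fun l => (l : G) * (x * l * x⁻¹)
      map_one' := by simp
      map_mul' := fun a b => by
        have := key b b.2 a a.2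
        calc ((a * b : L) : G) * (x * (a * b : L) * x⁻¹)
            = a * (b * (x * a * x⁻¹)) * (x * b * x⁻¹) := by simp only [coe_mul]; group
          _ = _ := by rw [← this]; group }
  have hπ : ∀ l : L, π l = (l : G) * (x * l * x⁻¹) := fun _ => rfl
  have hr : π.range ≤ centralizer ({x} : Set G) := by
    rintro _ ⟨l, rfl⟩
    rw [mem_centralizer_singleton_iff, hπ, ← key l l.2 l l.2]
    calc x * l * x⁻¹ * l * x = x * (l * (x⁻¹ * l * x)) := by group
      _ = x * (l * (x * l * x⁻¹)) := by rw [hxi]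
      _ = _ := by rw [← key l l.2 l l.2]
  have hrl : π.range ≤ L ⊔ L.map (MulAut.conj x).toMonoidHom := by
    rintro _ ⟨l, rfl⟩
    exact mul_mem_sup l.2 (conj_mem_map_conj l.2)
  refine ⟨π, hπ, fun l hl => ?_, hr, ?_⟩
  · refine mem_center_iff.2 fun a => Subtype.ext ?_
    have h1 : (l : G) = (x * (l : G) * x⁻¹)⁻¹ := eq_inv_of_mul_eq_one_left hl
    have : (l : G) ∈ centralizer (L : Set G) := h1 ▸ inv_mem (hc' (conj_mem_map_conj l.2))
    exact this a a.2
  · have hp : ⁅π.range, π.range⁆ = π.range := by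
      rw [MonoidHom.range_eq_map]
      exact perfect_map (Group.isPerfect_def.1 (isPerfect_iff.2 hperf)) π
    refine le_antisymm ?_ (hp.ge.trans (commutator_mono (le_inf hrl hr) (le_inf hrl hr)))
    set M := L ⊔ L.map (MulAut.conj x).toMonoidHom
    have hZ : M ⊓ centralizer (M : Set G) ≤ centralizer (π.range : Set G) :=
      inf_le_right.trans (centralizer_anti hrl)
    have h1 : M ⊓ centralizer ({x} : Set G) ≤ π.range ⊔ (M ⊓ centralizer (M : Set G)) := by
      intro g hg
      obtain ⟨a, ha, _, ⟨b, hb, rfl⟩, rfl⟩ :=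
        (mem_sup_iff_of_le_normalizer (hc.trans (centralizer_le_normalizer _))).1 hg.1
      have h2 : a * (x * b * x⁻¹) * x = x * (a * (x * b * x⁻¹)) :=
        mem_centralizer_singleton_iff.1 hg.2
      have h3 : x * (a⁻¹ * b) * x⁻¹ = a⁻¹ * b := by
        have h4 : x * a * x⁻¹ * b = a * (x * b * x⁻¹) := by
          calc x * a * x⁻¹ * b = x * (a * (x⁻¹ * b * x)) * x⁻¹ := by group
            _ = x * (a * (x * b * x⁻¹)) * x⁻¹ := by rw [hxi]
            _ = _ := by rw [← h2]; group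
        calc x * (a⁻¹ * b) * x⁻¹ = (x * a * x⁻¹)⁻¹ * a⁻¹ * (a * (x * b * x⁻¹)) := by group
          _ = (a * (x * a * x⁻¹))⁻¹ * (x * a * x⁻¹ * b) := by rw [h4]; group
          _ = (x * a * x⁻¹ * a)⁻¹ * (x * a * x⁻¹ * b) := by rw [key a ha a ha]
          _ = _ := by group
      have h5 : a⁻¹ * b ∈ L := mul_mem (inv_mem ha) hb
      have h6 : a⁻¹ * b ∈ L.map (MulAut.conj x).toMonoidHom := h3 ▸ conj_mem_map_conj h5
      have h7 : a * (x * b * x⁻¹) = π ⟨a, ha⟩ * (a⁻¹ * b) := by
        rw [hπ, ← h3]; group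
      show a * (x * b * x⁻¹) ∈ _
      rw [h7]
      refine mul_mem_sup (MonoidHom.mem_range.2 ⟨_, rfl⟩) (mem_inf.2 ⟨le_sup_left (a := L) h5, ?_⟩)
      rw [centralizer_sup]
      exact ⟨hc' h6, hc h5⟩
    refine (commutator_mono h1 h1).trans ?_
    rw [commutator_sup_sup_of_central hZ (inf_le_right.trans (centralizer_anti inf_le_left)), hp]

end Cfsg.Agent.S1314
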