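import Cfsg.Statements.S1316
import Cfsg.Agent.Lib.Grp.Fstar

set_option autoImplicit false
open Cfsg

namespace Cfsg.Agent.S1316

open Subgroup CA.Rad CA.Core CA.Fitting CA.Subn CA.Quasi CA.Comp CA.Fstar in
/-- For a finite group X, E(X) equals the intersection of the derived series of F*(X) (its last term). -/
theorem result {X : Type*} [Group X] [Finite X] : (⨅ n : ℕ, (derivedSeries ↥(Cfsg.generalizedFittingSubgroup X) n).map (Cfsg.generalizedFittingSubgroup X).subtype) = Cfsg.layer X := by
  refine le_antisymm ?_ (le_iInf fun n => ?_)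
  · refine le_layer_of_perfect ?_ ((iInf_le _ 0).trans (map_subtype_le _))
    obtain ⟨n, hn⟩ := WellFoundedLT.exists_minimal (α := Subgroup X) inferInstance
      (Set.range fun n : ℕ => (derivedSeries ↥(Cfsg.generalizedFittingSubgroup X) n).map
        (Cfsg.generalizedFittingSubgroup X).subtype) (Set.range_nonempty _)
    obtain ⟨⟨n, rfl⟩, hn⟩ := hn
    have hanti : ∀ {a b : ℕ}, a ≤ b → (derivedSeries ↥(Cfsg.generalizedFittingSubgroup X) b) ≤
        (derivedSeries ↥(Cfsg.generalizedFittingSubgroup X) a) := fun h =>
      antitone_nat_of_succ_le (f := derivedSeries ↥(Cfsg.generalizedFittingSubgroup X))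
        (fun n => commutator_le_self _) h
    have h1 : (⨅ n : ℕ, (derivedSeries ↥(Cfsg.generalizedFittingSubgroup X) n).map
        (Cfsg.generalizedFittingSubgroup X).subtype) = (derivedSeries
          ↥(Cfsg.generalizedFittingSubgroup X) n).map (Cfsg.generalizedFittingSubgroup X).subtype :=
      le_antisymm (iInf_le _ n) (le_iInf fun m => (le_total m n).elim (fun h => map_mono (hanti h))
        fun h => hn ⟨m, rfl⟩ (map_mono (hanti h)))
    rw [h1, ← map_commutator]
    exact le_antisymm (map_mono (commutator_le_self _))
      (hn ⟨n + 1, rfl⟩ (map_mono (commutator_le_self _)))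
  · induction n with
    | zero => rw [derivedSeries_zero, ← MonoidHom.range_eq_map, range_subtype]; exact layer_le_fstar
    | succ n ih =>
      rw [derivedSeries_succ, map_commutator, ← layer_perfect]
      exact commutator_mono ih ih

end Cfsg.Agent.S1316
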