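import Cfsg.Statements.S1327
import Cfsg.Agent.Lib.Grp.Bal2
import Cfsg.Agent.Lib.Grp.H12PSolv

set_option autoImplicit false
open Cfsg

namespace Cfsg.Agent.S1327

open Subgroup CA.Rad CA.Core CA.Fitting CA.Subn CA.Quasi CA.Comp CA.Fstar CA.PLoc CA.PComp CA.Bal CA.Bal2 in
/-- A finite group X is p-constrained if and only if its p-layer L_{p'}(X) is trivial (equivalently X / O_{p'}(X) has trivial layer). -/
theorem result {X : Type*} [Group X] [Finite X] (p : ℕ) [Fact p.Prime] : Cfsg.IsPConstrained p X ↔ Cfsg.pLayer p X = ⊥ := by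
  have key : ∀ P : Sylow p (pPrimePCore p X),
      centralizer (((P : Subgroup (pPrimePCore p X)).map (pPrimePCore p X).subtype : Subgroup X) : Set X)
        ≤ pPrimePCore p X ↔ pLayer p X = ⊥ := fun P => by
    have h1 := CA.SylIn.isSylowIn_map P
    rw [← fstar_quotient_eq_pCore_iff, fstar_eq_pCore_iff, ← CA.H12PSolv.map_eq_pCore h1,
      ← map_centralizer_p (QuotientGroup.mk'_surjective _) coprime_ker_mk_pPrimeCore h1.isPGroup,
      CA.H12PSolv.map_eq_pCore h1, map_le_iff_le_comap]
    rfl
  exact ⟨fun h => (key default).1 (h default), fun h P => (key P).2 h⟩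

end Cfsg.Agent.S1327
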