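import Cfsg.Statements.S1328
import Cfsg.Agent.Lib.Loc.AmbChar
import Cfsg.Agent.Lib.Loc.LBal2
-- import your own Cfsg.Agent.* helpers here

set_option autoImplicit false
open Cfsg

namespace Cfsg.Agent.S1328

/-- Let G be finite, H ≤ G with O(H) = 1, t an involution of G normalizing H, and Y a nontrivial subgroup of O(C_H(t)). Then some component E of H is normalized by t and by Y and centralized by neither t nor Y. -/
theorem result {G : Type*} [Group G] [Finite G] (H : Subgroup G) (hO : Cfsg.oddCore ↥H = ⊥) (t : G) (ht : orderOf t = 2) (htH : t ∈ Subgroup.normalizer (H : Set G)) (Y : Subgroup G) (hY1 : Y ≠ ⊥) (hY : Y ≤ (Cfsg.oddCore ↥(H ⊓ Subgroup.centralizer ({t} : Set G))).map (H ⊓ Subgroup.centralizer ({t} : Set G)).subtype) : ∃ E : Subgroup ↥H, Cfsg.IsComponent E ∧ (E.map H.subtype).map (MulAut.conj t).toMonoidHom = E.map H.subtype ∧ Y ≤ Subgroup.normalizer ((E.map H.subtype : Subgroup G) : Set G) ∧ ¬ (t ∈ Subgroup.centralizer ((E.map H.subtype : Subgroup G) : Set G)) ∧ ¬ (Y ≤ Subgroup.centralizer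 ((E.map H.subtype : Subgroup G) : Set G)) := by
  open Subgroup Cfsg CA CA.Amb CA.AmbSyl CA.AmbCore CA.AmbRes CA.AmbChar CA.AmbFs CA.AmbSpe CA.AmbIso CA.LBal CA.LBal2 CA.Comp CA.PComp in
  open scoped commutatorElement in
  (
    have t2 : t * t = 1 := by rw [← pow_two, ← ht, pow_orderOf_eq_one]
    set X := H ⊔ zpowers t
    have tX : t ∈ X := mem_sup_right (mem_zpowers t)
    have nH : X ≤ 𝐍 H := sup_le le_normalizer (zle htH)
    have pt : IsPGroup 2 (zpowers t) := isPGroup_zpowers_of_orderOf (k := 1) ht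
    have r : pResidualOf 2 X ≤ H := res_le_of_le_sup pt (zle htH) (sup_comm H _).le
    have o : pPrimeCore 2 X = ⊥ := by
      rw [← map_eq_bot_iff_of_injective _ X.subtype_injective, ← le_bot_iff]
      refine le_trans (le_inf ((le_res_of_coprime (OQ_le 2 X) (coprime_OQ 2 X)).trans r) le_rfl)
        ((inf_OQ_le le_sup_left).trans ?_)
      show (oddCore H).map H.subtype ≤ ⊥
      rw [hO, Subgroup.map_bot]
    have ho : orderOf (⟨t, tX⟩ : X) = 2 := by rw [← orderOf_coe]; exact ht
    have y : Y ≤ (centralizerPPrimeCore 2 (⟨t, tX⟩ : X)).map X.subtype := by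
      rw [Bal2.map_cpc_subtype]
      exact hY.trans (SN.OQ_le (SN.of_norm (inf_le_inf_right _ le_sup_left)
        (norm_inf (inf_le_left.trans nH) (norm_of_le inf_le_right))))
    have YX : Y ≤ X := y.trans (map_subtype_le _)
    have y' : Y.subgroupOf X ≤ centralizerPPrimeCore 2 (⟨t, tX⟩ : X) := by
      rwa [← map_subtype_le_map_subtype, map_subgroupOf_eq_of_le YX]
    obtain ⟨L, hL, n⟩ : ∃ L : Subgroup X, IsComponent L ∧ ¬ Y.subgroupOf X ≤ 𝐂 L := by
      by_contra k
      refine hY1 ?_
      rw [← map_subgroupOf_eq_of_le YX, Bal.eq_bot_of_le_centralizer o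
        ((Bal2.coprime_cpc _).coprime_dvd_left (card_dvd_of_le y'))
        (y'.trans (Bal.centralizerPPrimeCore_le_centralizer_pCore (k := 1) ho))
        fun L hL => by_contra fun n => k ⟨L, hL, n⟩, Subgroup.map_bot]
    have e : ⁅L, zpowers (⟨t, tX⟩ : X)⁆ = L := by_contra fun k =>
      n (y'.trans (Bal.centralizerPPrimeCore_le_centralizer_comp o ho hL k))
    have c := Cp.map_subtype hL
    have LH : L.map X.subtype ≤ H := (le_res_of_perfect c.perfect c.le).trans r
    have e' : ⁅L.map X.subtype, zpowers t⁆ = L.map X.subtype := by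
      have := congrArg (map X.subtype) e
      rwa [map_commutator, MonoidHom.map_zpowers] at this
    refine ⟨(L.map X.subtype).subgroupOf H, (c.mono LH le_sup_left).comp, ?_⟩
    rw [map_subgroupOf_eq_of_le LH]
    refine ⟨cj_eq_self (norm_of_commutator_le e'.le (mem_zpowers t)), ?_, fun k => ?_, fun k => n ?_⟩
    · rw [← map_subgroupOf_eq_of_le YX]
      exact norm_map _ (y'.trans (Bal.centralizerPPrimeCore_le_normalizer_comp o (k := 1) ho hL))
    · exact c.ne_bot (e'.symm.trans (comm_eq_bot_of_le' (zle k)))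
    · rw [← map_subtype_le_map_subtype, map_subgroupOf_eq_of_le YX, map_subtype_centralizer]
      exact le_inf YX k)

end Cfsg.Agent.S1328
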