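import Cfsg.Statements.S1336
import Cfsg.Agent.Lib.Loc.AmbSpe

set_option autoImplicit false
open Cfsg

namespace Cfsg.Agent.S1336

open Subgroup Cfsg CA.Amb CA.AmbSyl CA.AmbSpe

section
variable {G : Type*} [Group G] {p : ℕ}

def Vx (p : ℕ) (A : Subgroup G) : Prop := IsElementaryAbelian p A ∧ p ^ 1 ≤ Nat.card A

abbrev R (p : ℕ) (A B : Subgroup G) : Prop :=
  IsElementaryAbelian p A ∧ p ^ 1 ≤ Nat.card ↥A ∧ IsElementaryAbelian p B ∧
    p ^ 1 ≤ Nat.card ↥B ∧ ∀ a ∈ A, ∀ b ∈ B, a * b = b * a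

theorem Vx.cj {A : Subgroup G} (h : Vx p A) (g : G) : Vx p (cj g A) :=
  ⟨ea_cj h.1 g, by rw [card_cj]; exact h.2⟩

theorem Vx.ne_bot [hp : Fact p.Prime] {A : Subgroup G} (h : Vx p A) : A ≠ ⊥ := by
  rintro rfl
  have := h.2
  have := hp.out.two_le
  simp at *
  omega

theorem vx_of [Finite G] [hp : Fact p.Prime] {A : Subgroup G} (h : IsElementaryAbelian p A)
    (h1 : A ≠ ⊥) : Vx p A :=
  ⟨h, by rw [pow_one]; exact Nat.le_of_dvd Nat.card_pos (dvd_card_of_isPGroup (ea_pg h) h1)⟩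

theorem vx_zp {x : G} (h : orderOf x = p) : Vx p (zpowers x) := by
  refine ⟨⟨inferInstance, ?_⟩, by rw [Nat.card_zpowers, h, pow_one]⟩
  rintro _ ⟨k, rfl⟩
  rw [← zpow_natCast, ← zpow_mul, mul_comm, zpow_mul, zpow_natCast, ← h, pow_orderOf_eq_one, one_zpow]

theorem rt_symm {A B : Subgroup G} (h : Relation.ReflTransGen (R p) A B) :
    Relation.ReflTransGen (R p) B A := by
  induction h with
  | refl => exact .refl
  | tail _ h ih =>
    exact .head ⟨h.2.2.1, h.2.2.2.1, h.1, h.2.1, fun a ha b hb => (h.2.2.2.2 b hb a ha).symm⟩ ih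

theorem rt_cj {A B : Subgroup G} (h : Relation.ReflTransGen (R p) A B) (g : G) :
    Relation.ReflTransGen (R p) (cj g A) (cj g B) := by
  induction h with
  | refl => exact .refl
  | tail _ h ih =>
    refine .tail ih ⟨ea_cj h.1 g, by rw [card_cj]; exact h.2.1, ea_cj h.2.2.1 g,
      by rw [card_cj]; exact h.2.2.2.1, ?_⟩
    intro a ha b hb
    obtain ⟨a, ha', rfl⟩ := mem_cj'.1 ha
    obtain ⟨b, hb', rfl⟩ := mem_cj'.1 hb
    rw [conj_mul, conj_mul, h.2.2.2.2 a ha' b hb']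

theorem rt_of_pg [Finite G] [Fact p.Prime] {T A B : Subgroup G} (hT : IsPGroup p T) (hA : Vx p A)
    (hB : Vx p B) (h1 : A ≤ T) (h2 : B ≤ T) : Relation.ReflTransGen (R p) A B := by
  have hZ := vx_of (ea_OZ p T) (OZ_ne_bot hT fun h => hA.ne_bot (eq_bot_iff.2 (h ▸ h1)))
  have hc : ∀ t ∈ T, ∀ z ∈ OZ p T, t * z = z * t :=
    fun t ht z hz => mem_centralizer_sub.1 (OZ_le_cent p T hz) t ht
  exact .head ⟨hA.1, hA.2, hZ.1, hZ.2, fun a ha z hz => hc a (h1 ha) z hz⟩
    (.single ⟨hZ.1, hZ.2, hB.1, hB.2, fun z hz b hb => (hc b (h2 hb) z hz).symm⟩)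
end

/-- Let G be finite and p prime. Then G has a proper subgroup H with p ∣ |H| and p ∤ |H ∩ gHg⁻¹| for every g ∉ H (a strongly p-embedded subgroup) if and only if G is not 1-connected for p. -/
theorem result {G : Type*} [Group G] [Finite G] (p : ℕ) [Fact p.Prime] : (∃ H : Subgroup G, H ≠ ⊤ ∧ p ∣ Nat.card ↥H ∧ ∀ g : G, g ∉ H → ¬ p ∣ Nat.card ↥(H ⊓ H.map (MulAut.conj g).toMonoidHom)) ↔ ¬ Cfsg.IsKConnected p 1 G := by
  have hp : p.Prime := Fact.out
  constructor
  · rintro ⟨H, h1, h2, h3⟩ hc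
    have hS : SPE p H ⊤ := spe_top_iff.2 ⟨h1, h2, h3⟩
    obtain ⟨x, hx, ho⟩ := exists_orderOf_eq_of_dvd h2
    obtain ⟨g, hg⟩ : ∃ g, g ∉ H := by
      by_contra h
      push Not at h
      exact h1 (eq_top_iff.2 fun g _ => h g)
    have hv := vx_zp ho
    have hr := hc _ _ hv.1 hv.2 (hv.cj g).1 (hv.cj g).2
    have key : ∀ B, Relation.ReflTransGen (R p) (zpowers x) B → B ≤ H := by
      intro B hB
      induction hB with
      | refl => exact zpowers_le.2 hx
      | tail _ h ih =>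
        exact hS.le_of_norm ih (ea_pg h.1) (Vx.ne_bot ⟨h.1, h.2.1⟩) le_top
          (norm_of_centralizer fun b hb => mem_centralizer_sub.2 fun a ha => h.2.2.2.2 a ha b hb)
    exact hg (hS.mem_of_cj_le (ea_pg hv.1) hv.ne_bot (zpowers_le.2 hx) (mem_top g) (key _ hr))
  · intro hc
    unfold Cfsg.IsKConnected at hc
    push Not at hc
    obtain ⟨E, E', e1, e2, e3, e4, hn⟩ := hc
    have hE : Vx p E := ⟨e1, e2⟩
    let H : Subgroup G :=
      { carrier := {g | Relation.ReflTransGen (R p) E (cj g E)}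
        one_mem' := by simp only [Set.mem_setOf_eq, cj_one]; exact .refl
        mul_mem' := fun {a b} ha hb => by
          have := rt_cj hb a
          rw [cj_cj] at this
          exact Relation.ReflTransGen.trans ha this
        inv_mem' := fun {a} ha => by
          have := rt_cj ha a⁻¹
          rw [cj_inv_cj] at this
          exact rt_symm this }
    have hEH : E ≤ H := fun e he => by
      show Relation.ReflTransGen (R p) E (cj e E)
      rw [cj_eq_self_of_mem he]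
    have key : ∀ A, Vx p A → A ≤ H → Relation.ReflTransGen (R p) E A := by
      intro A hA hAH
      obtain ⟨T, hT, hAT⟩ := exists_sylIn_ge (ea_pg hA.1) hAH
      obtain ⟨h, hh, hle⟩ := hT.exists_conj_le (ea_pg e1) hEH
      exact Relation.ReflTransGen.trans hh (rt_of_pg hT.pg (hE.cj h) hA hle hAT)
    have hH : H ≠ ⊤ := fun h => hn (key E' ⟨e3, e4⟩ (h ▸ le_top))
    refine ⟨H, spe_top_iff.1 (spe_of_elem hH.lt_top
      (dvd_card_of_le (ea_pg e1) hE.ne_bot hEH) fun x hx ho g _ hg => ?_)⟩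
    have h1 := key _ (vx_zp ho) (zpowers_le.2 hx)
    have h2 := key _ ((vx_zp ho).cj g) (by rw [cj_zpowers]; exact zpowers_le.2 hg)
    exact Relation.ReflTransGen.trans h2 (rt_symm (rt_cj h1 g))

end Cfsg.Agent.S1336
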