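import Cfsg.Statements.S1337
import Cfsg.Agent.Lib.Odd.BG4x2
import Cfsg.Agent.Lib.Grp.PGFrattini

set_option autoImplicit false
open Cfsg

namespace Cfsg.Agent.S1337

open Subgroup CA.BG CA.BG4 CA.PGBasic CA.PGNormalCyclic

/-- Let P be a finite p-group of p-rank greater than 2. Then P has a normal elementary abelian subgroup U of order p², and for every elementary abelian X ≤ P with |X| ≥ p²: X is joined to U by a chain of pairwise commuting elementary abelian subgroups of order ≥ p² if and only if C_P(X) has p-rank greater than 2. -/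
theorem result {P : Type*} [Group P] [Finite P] (p : ℕ) [Fact p.Prime] (hP : IsPGroup p P) (hrk : ¬ Cfsg.PRankLE p 2 P) : ∃ U : Subgroup P, U.Normal ∧ Cfsg.IsElementaryAbelian p U ∧ Nat.card ↥U = p ^ 2 ∧ ∀ X : Subgroup P, Cfsg.IsElementaryAbelian p X → p ^ 2 ≤ Nat.card ↥X → (Relation.ReflTransGen (fun A B : Subgroup P => Cfsg.IsElementaryAbelian p A ∧ p ^ 2 ≤ Nat.card ↥A ∧ Cfsg.IsElementaryAbelian p B ∧ p ^ 2 ≤ Nat.card ↥B ∧ ∀ a ∈ A, ∀ b ∈ B, a * b = b * a) X U ↔ ¬ Cfsg.PRankLE p 2 ↥(Subgroup.centralizer (X : Set P))) := by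
  have hp : p.Prime := Fact.out
  have hT : IsPi {p} (⊤ : Subgroup P) := isPi_of_isPGroup hp (hP.to_subgroup _)
  have h3 : PRk p 3 (⊤ : Subgroup P) := by rwa [prankLE_top_iff hp, not_not] at hrk
  rcases trichotomy hP with h | ⟨U, hn, hU, hc⟩ | ⟨rfl, n, a, y, ha, e, h, -⟩
  · exact absurd h3 (not_prk_of_cyc (k := 1) hp (isCyclic_of_surjective _ topEquiv.symm.surjective))
  swap
  · have hi : (zpowers a).relIndex ⊤ = 2 :=
      e ▸ relIndex_sup_zpowers hp (dqs_normalizer h) (dqs_notMem ha h) (dqs_sq_mem h)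
    have := h3.of_relIndex hp (K := zpowers a) hi.dvd
      (e ▸ sup_le le_normalizer (zpowers_le.2 (dqs_normalizer h)))
    rw [top_inf_eq] at this
    exact absurd this (not_prk_of_cyc (k := 0) hp inferInstance)
  have hU2 : El p 2 U := ⟨hU, hc⟩
  have hi : ∀ D : Subgroup P, El p 3 D → ∃ B, B ≤ D ⊓ 𝓒(U) ∧ El p 2 B := fun D hD =>
    hD.exists_inf hp (p2_relIndex_cent_dvd hp (hD.pi hp) le_normalizer_of_normal hU2)
  have step : ∀ X B : Subgroup P, Cfsg.IsElementaryAbelian p X → p ^ 2 ≤ ♯X →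
      Cfsg.IsElementaryAbelian p B → p ^ 2 ≤ ♯B → B ≤ 𝓒(X) → X = B ∨ PRk p 3 𝓒(X) := by
    intro X B hX cX hB cB h
    by_cases e : X = B
    · exact Or.inl e
    right
    have hs := elem_sup hX hB h
    have hle : X ⊔ B ≤ 𝓒(X) := sup_le (haveI := hX.1; le_centralizer X) h
    by_cases h1 : B ≤ X
    · obtain ⟨C, hC, eC⟩ := prk_of_elem_card hp hB cB
      exact (prk_of_elem_lt hp eC hs (lt_of_le_of_lt hC
        (lt_of_lt_of_le (lt_of_le_of_ne h1 (Ne.symm e)) le_sup_left))).mono hle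
    · obtain ⟨C, hC, eC⟩ := prk_of_elem_card hp hX cX
      exact (prk_of_elem_lt hp eC hs (lt_of_le_of_lt hC (left_lt_sup.2 h1))).mono hle
  refine ⟨U, hn, hU, hc, fun X hX cX => ?_⟩
  rw [prankLE_iff hp, not_not]
  constructor
  · intro h
    clear hX cX
    induction h using Relation.ReflTransGen.head_induction_on with
    | refl =>
      obtain ⟨D, -, hD⟩ := h3
      obtain ⟨B, hB, eB⟩ := hi D hD
      rcases step U B hU hc.ge eB.1 eB.2.ge (hB.trans inf_le_right) with h | h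
      · exact hD.prk (le_centralizer_iff.1 ((h.le.trans (hB.trans inf_le_left)).trans hD.le_cent))
      · exact h
    | head h _ ih =>
      rcases step _ _ h.1 h.2.1 h.2.2.1 h.2.2.2.1
        (fun b hb => mem_centralizer_iff.2 fun a ha => h.2.2.2.2 a ha b hb) with e | e
      · exact e ▸ ih
      · exact e
  · rintro ⟨D, hD, eD⟩
    obtain ⟨B, hB, eB⟩ := hi D eD
    refine .head ⟨hX, cX, eB.1, eB.2.ge, fun a ha b hb => ?_⟩
      (.single ⟨eB.1, eB.2.ge, hU, hc.ge, fun b hb a ha => ?_⟩)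
    · exact mem_centralizer_iff.1 (hD (hB hb).1) a ha
    · exact (mem_centralizer_iff.1 (hB hb).2 a ha).symm

end Cfsg.Agent.S1337
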