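import Cfsg.Statements.S1338
import Cfsg.Agent.S0122

set_option autoImplicit false
open Cfsg

namespace Cfsg.Agent.S1338

section Aux
open Subgroup CA.BG CA.BG4
open scoped commutatorElement
variable {G : Type*} [Group G] [Finite G]

theorem nine_le {V : Subgroup G} [hn : V.Normal] (hV : El 3 4 V) {x : G} (hx : x ^ 3 = 1) :
    3 ^ 2 ≤ ♯(V ⊓ 𝓒₁(x)) := by
  by_contra h
  have h1 : ♯(V ⊓ 𝓒₁(x)) ≤ 3 := by
    obtain ⟨k, hk⟩ := elem_exists_el Nat.prime_three (elem_of_le hV.elem (inf_le_left : V ⊓ 𝓒₁(x) ≤ V))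
    rw [hk.card] at h ⊢
    have : k ≤ 1 := by
      by_contra h'
      exact h (Nat.pow_le_pow_right (by norm_num) (by omega))
    exact (Nat.pow_le_pow_right (by norm_num) this).trans_eq (pow_one 3)
  have hc : ∀ W, W ≤ V → V ≤ 𝓒(W) := fun W hW v hv w hw => hV.le_cent hv w (hW hw)
  set W := cmod V (V ⊓ 𝓒₁(x)) ((hc _ inf_le_left).trans (centralizer_le_normalizer _)) x with hW
  have hWV : W ≤ V := fun v hv => (mem_cmod.1 hv).1
  have h2 := relIndex_cent1_dvd (R := W) (x := x) (hWV.trans (hc _ inf_le_left))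
    fun g hg => comm_symm_mem (mem_cmod.1 hg).2
  have h3 := relIndex_cent1_dvd (R := V) (x := x) (hc _ hWV) fun g hg => by
    have m1 := hn.conj_mem g hg x
    have m2 := hn.conj_mem _ m1 x
    have m0 : ⁅x, g⁆ ∈ V := mul_mem m1 (inv_mem hg)
    refine mem_cmod.2 ⟨m0, comm_mem_of_norm' m0 (by rw [normalizer_eq_top]; trivial), ?_⟩
    have e3 : x * (x * (x * g * x⁻¹) * x⁻¹) * x⁻¹ = g := by
      rw [show x * (x * (x * g * x⁻¹) * x⁻¹) * x⁻¹ = x ^ 3 * g * (x ^ 3)⁻¹ by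
        simp [pow_succ, mul_assoc], hx]; group
    generalize hb : x * g * x⁻¹ = b at *
    generalize hc' : x * b * x⁻¹ = c at *
    have e1 : ⁅⁅x, g⁆, x⁆ = b * g⁻¹ * (b * c⁻¹) := by
      rw [← hc', ← hb]; simp only [commutatorElement_def]; group
    have b3 := hV.elem.2 b m1
    have c1 : Commute g b := hV.le_cent m1 g hg
    have c2 : Commute g c := hV.le_cent m2 g hg
    have c3 : Commute b c := hV.le_cent m2 b m1
    have e2 : b * g⁻¹ * (b * c⁻¹) = (c * b * g)⁻¹ := by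
      rw [← c1.inv_left.eq, show g⁻¹ * b * (b * c⁻¹) = g⁻¹ * (b ^ 3 * b⁻¹) * c⁻¹ by
        simp [pow_succ, mul_assoc], b3]; group
    rw [e1, e2]
    refine (𝓒₁(x)).inv_mem (mem_centralizer_singleton_iff.2 ?_)
    rw [eq_comm, ← mul_inv_eq_iff_eq_mul, show x * (c * b * g) * x⁻¹ =
      x * c * x⁻¹ * (x * b * x⁻¹) * (x * g * x⁻¹) by group, e3, hc', hb, c2.eq, mul_assoc, c1.eq,
      mul_assoc]
  have h4 := card_inf_mul_relIndex 𝓒₁(x) W
  have h5 := card_inf_mul_relIndex 𝓒₁(x) V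
  have h6 : ♯(𝓒₁(x) ⊓ W) ≤ 3 := (card_le_of_le (le_inf (inf_le_right.trans hWV) inf_le_left)).trans h1
  have h7 := Nat.mul_le_mul h6 ((Nat.le_of_dvd Nat.card_pos h2).trans h1)
  have h8 := Nat.mul_le_mul h1 ((Nat.le_of_dvd Nat.card_pos h3).trans (h4 ▸ h7))
  rw [inf_comm, h5, hV.card] at h8
  norm_num at h8

end Aux

open Subgroup CA.BG in

/-- A finite 3-group of 3-rank at least 4 is 2-connected for the prime 3: its commuting graph on elementary abelian subgroups of order ≥ 9 is connected. -/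
theorem result {P : Type*} [Group P] [Finite P] (hP : IsPGroup 3 P) (hrk : ¬ Cfsg.PRankLE 3 3 P) : Cfsg.IsKConnected 3 2 P := by
  have : Fact (Nat.Prime 3) := ⟨Nat.prime_three⟩
  obtain ⟨A, -, hA, hA4⟩ : PRk 3 4 (⊤ : Subgroup P) := by
    by_contra h
    exact hrk ((prankLE_top_iff Nat.prime_three).2 h)
  obtain ⟨V, hn, hV, hV4⟩ := S0122.result (by norm_num) hP A hA hA4
  obtain ⟨z, hzV, hzc, hz⟩ := CA.PGBasic.exists_mem_center_orderOf hP (M := V) (by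
    rintro rfl; simp at hV4)
  have hz3 : z ^ 3 = 1 := hz ▸ pow_orderOf_eq_one z
  have key : ∀ E : Subgroup P, IsElementaryAbelian 3 E → 3 ^ 2 ≤ ♯E → ∃ X Y : Subgroup P,
      IsElementaryAbelian 3 X ∧ 3 ^ 2 ≤ ♯X ∧ IsElementaryAbelian 3 Y ∧ 3 ^ 2 ≤ ♯Y ∧
      (∀ a ∈ E, ∀ b ∈ X, a * b = b * a) ∧ (∀ a ∈ X, ∀ b ∈ Y, a * b = b * a) ∧
      ∀ a ∈ Y, ∀ b ∈ V, a * b = b * a := by
    intro E hE h9
    obtain ⟨x, hx, hxz⟩ : ∃ x ∈ E, x ∉ zpowers z := by
      by_contra h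
      push Not at h
      have := card_le_of_le h
      rw [Nat.card_zpowers, hz] at this
      omega
    obtain ⟨h1, h2⟩ := CA.PGNormalCyclic.four_of_commute Nat.prime_three hz (hE.2 x hx) hxz
      (mem_center_iff.1 hzc x).symm
    have hc : ∀ a, a * x = x * a → ∀ b ∈ zpowers z ⊔ zpowers x, a * b = b * a := fun a ha b hb =>
      (mem_centralizer_singleton_iff.1 ((sup_le (zpowers_le.2 (mem_centralizer_singleton_iff.2
        (mem_center_iff.1 hzc a).symm)) (zpowers_le.2 (mem_centralizer_singleton_iff.2 ha.symm)) :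
        zpowers z ⊔ zpowers x ≤ 𝓒₁(a)) hb)).symm
    exact ⟨_, V ⊓ 𝓒₁(x), h1, h2.ge, elem_of_le hV inf_le_left, nine_le ⟨hV, hV4⟩ (hE.2 x hx),
      fun a ha => hc a (CA.PGBasic.isMulCommutative_iff.1 hE.1 a ha x hx),
      fun a ha b hb => (hc b (mem_centralizer_singleton_iff.1 hb.2) a ha).symm,
      fun a ha b hb => CA.PGBasic.isMulCommutative_iff.1 hV.1 a ha.1 b hb⟩
  intro E E' hE h9 hE' h9'
  obtain ⟨X, Y, x1, x2, y1, y2, e1, e2, e3⟩ := key E hE h9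
  obtain ⟨X', Y', x1', x2', y1', y2', e1', e2', e3'⟩ := key E' hE' h9'
  have v2 : 3 ^ 2 ≤ ♯V := by rw [hV4]; norm_num
  exact .head ⟨hE, h9, x1, x2, e1⟩ (.head ⟨x1, x2, y1, y2, e2⟩ (.head ⟨y1, y2, hV, v2, e3⟩
    (.head ⟨hV, v2, y1', y2', fun a ha b hb => (e3' b hb a ha).symm⟩
    (.head ⟨y1', y2', x1', x2', fun a ha b hb => (e2' b hb a ha).symm⟩
    (.single ⟨x1', x2', hE', h9', fun a ha b hb => (e1' b hb a ha).symm⟩)))))

end Cfsg.Agent.S1338
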