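import Cfsg.Statements.S1343
import Cfsg.Agent.Lib.Loc.AmbChar
import Cfsg.Agent.Lib.Loc.ExtL
-- import your own Cfsg.Agent.* helpers here

set_option autoImplicit false
open Cfsg

namespace Cfsg.Agent.S1343

/-- Let X be finite. Then L*_{2'}(X) = L_{2'}(X) ⊔ F for some subgroup F of odd order normalized by a Sylow 2-subgroup of X. -/
theorem result {X : Type*} [Group X] [Finite X] : ∃ F : Subgroup X, Odd (Nat.card ↥F) ∧ (∃ S : Sylow 2 X, (S : Subgroup X) ≤ Subgroup.normalizer (F : Set X)) ∧ Cfsg.extendedTwoLayer X = Cfsg.pLayer 2 X ⊔ F := by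
  open Subgroup Cfsg CA CA.Amb CA.AmbSyl CA.AmbCore CA.AmbRes CA.AmbChar CA.AmbFs CA.AmbSpe CA.AmbIso CA.LBal CA.LBal2 CA.ExtL CA.Comp CA.PComp in
  open scoped commutatorElement in
  (
    obtain ⟨S⟩ : Nonempty (Sylow 2 X) := inferInstance
    have s := (sylIn_top S).inf_norm (N := MM X) le_top norm_of_normal
    refine ⟨OQ 2 (𝐂 ((S : Subgroup X) ⊓ MM X)) ⊔ pPrimeCore 2 X, ?_, ⟨S, norm_sup (norm_OQ (norm_centralizer
      (norm_inf le_normalizer norm_of_normal))) norm_of_normal⟩, by rw [ext_eq s, sup_assoc, sup_comm (OQ 2 _)]⟩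
    refine H13ZRed.coprime_two_iff.1 (Nat.Coprime.coprime_dvd_left (Dvd.intro _ (card_sup_mul_card_inf norm_of_normal)) ?_)
    exact Nat.Coprime.mul_left (coprime_OQ 2 _) Core.coprime_pPrimeCore)

end Cfsg.Agent.S1343
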