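import Cfsg.Statements.S1344
import Cfsg.Agent.Lib.Loc.AmbChar
import Cfsg.Agent.Lib.Loc.ExtL
-- import your own Cfsg.Agent.* helpers here

set_option autoImplicit false
open Cfsg

namespace Cfsg.Agent.S1344

/-- Let K be a 2-component of the finite group X. Then K ≤ L*_{2'}(X) and K is normal in L*_{2'}(X). -/
theorem result {X : Type*} [Group X] [Finite X] (K : Subgroup X) (hK : Cfsg.IsPComponent 2 K) : K ≤ Cfsg.extendedTwoLayer X ∧ (K.subgroupOf (Cfsg.extendedTwoLayer X)).Normal := by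
  open Subgroup Cfsg CA CA.Amb CA.AmbSyl CA.AmbCore CA.AmbRes CA.AmbChar CA.AmbFs CA.AmbSpe CA.AmbIso CA.LBal CA.LBal2 CA.ExtL CA.Comp CA.PComp in
  open scoped commutatorElement in
  (
    refine ⟨(le_pLayer hK).trans L_le, normal_subgroupOf_of_norm (ext_le (pLayer_le_normalizer hK)
      (pPrimeCore_le_normalizer_pcomp hK) fun T h => (OQ_le 2 _).trans fun c hc => ?_)⟩
    exact cent_le_norm (PCp.top_iff.2 hK) (SN.sylIn_inf ((sn_top_iff.2 hK.1).mono
      ((le_pLayer hK).trans le_sup_left) le_top) h) ⟨mem_top _, centralizer_anti inf_le_left hc⟩)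

end Cfsg.Agent.S1344
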