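import Cfsg.Statements.S1346
import Cfsg.Agent.Lib.Loc.AmbChar
import Cfsg.Agent.Lib.Loc.ExtL
-- import your own Cfsg.Agent.* helpers here

set_option autoImplicit false
open Cfsg

namespace Cfsg.Agent.S1346

/-- Let G be a finite group all of whose 2-local subgroups have known non-abelian composition factors, and x, y commuting involutions. Then the extended 2-layer of L*_{2'}(C_G(x)) ∩ C_G(y) (as a group) is contained in L*_{2'}(C_G(y)). -/
theorem result {G : Type*} [Group G] [Finite G] (hK : ∀ T : Subgroup G, IsPGroup 2 ↥T → T ≠ ⊥ → Cfsg.IsCompositionKGroup ↥(Subgroup.normalizer (T : Set G))) (x y : G) (hx : orderOf x = 2) (hy : orderOf y = 2) (hxy : x * y = y * x) : (Cfsg.extendedTwoLayer ↥((Cfsg.extendedTwoLayer ↥(Subgroup.centralizer ({x} : Set G))).map (Subgroup.centralizer ({x} : Set G)).subtype ⊓ Subgroup.centralizer ({y} : Set G))).map ((Cfsg.extendedTwoLayer ↥(Subgroup.centralizer ({x} : Set G))).map (Subgroup.centralizer ({x} : Set G)).subtype ⊓ Subgroup.centralizer ({y} : Set G)).subtype ≤ (Cfsg.extendedTwoLayer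 ↥(Subgroup.centralizer ({y} : Set G))).map (Subgroup.centralizer ({y} : Set G)).subtype := by
  open Subgroup Cfsg CA CA.Amb CA.AmbSyl CA.AmbCore CA.AmbRes CA.AmbChar CA.AmbFs CA.AmbSpe CA.AmbIso CA.LBal CA.LBal2 CA.ExtL CA.Comp CA.PComp in
  open scoped commutatorElement in
  (
    have px : IsPGroup 2 (zpowers x) := isPGroup_zpowers_of_orderOf (k := 1) hx
    have xy : zpowers x ≤ centralizer {y} := zle (mem_cs.2 hxy)
    set H := XL (centralizer ({x} : Set G)) ⊓ centralizer {y}
    have Hx : H ≤ 𝐂 (zpowers x) := by rw [Amb.centralizer_zpowers]; exact inf_le_left.trans (map_subtype_le _)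
    have n : centralizer {y} ⊓ 𝐂 (zpowers x) ≤ 𝐍 H := norm_inf (inf_le_right.trans (by
      rw [Amb.centralizer_zpowers]; exact norm_map_subtype _)) (norm_of_le inf_le_left)
    refine XL_le (map_pLayer_le_of_forall fun K hK => (LB.le lb_two px xy (hK.trans
      (Subn.SN.of_le_normalizer (le_inf inf_le_right Hx) n))).trans (map_mono L_le)) fun T l hT => ?_
    refine le_trans (SN.OQ_le (SN.of_norm ?_ ?_)) (core_le' (R := T ⊔ zpowers x)
      (isPGroup_sup_of_norm hT px (norm_of_centralizer (l.trans Hx))) (sup_le (l.trans inf_le_right) xy))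
    · rw [Amb.centralizer_sup]
      exact le_inf (inf_le_left.trans inf_le_right) (le_inf inf_le_right (inf_le_left.trans Hx))
    · rw [Amb.centralizer_sup]
      exact norm_inf ((inf_le_inf_left _ inf_le_right).trans n) (norm_of_le (inf_le_right.trans inf_le_left)))

end Cfsg.Agent.S1346
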