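import Cfsg.Statements.S1347
import Cfsg.Agent.Lib.Loc.AmbChar
import Cfsg.Agent.Lib.Loc.LBal2
import Cfsg.Agent.Lib.Grp.H13Inv
import Cfsg.Agent.Lib.Grp.SEmb
-- import your own Cfsg.Agent.* helpers here

set_option autoImplicit false
open Cfsg

namespace Cfsg.Agent.S1347

/-- Let A be a standard subgroup of the finite group G with O(G) = 1, and t an involution of C_G(A). Then (i) A is normal in G; or (ii) there is a non-abelian simple subgroup X ≅ A with X and tXt⁻¹ commuting, meeting trivially and generating E(G), and C_G(A) = ⟨t⟩; or (iii) A ≤ E(G) and E(G) is non-abelian simple. -/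
theorem result {G : Type*} [Group G] [Finite G] (A : Subgroup G) (hA : Cfsg.IsStandardSubgroup A) (hO : Cfsg.oddCore G = ⊥) (t : G) (ht : orderOf t = 2) (htA : t ∈ Subgroup.centralizer (A : Set G)) : A.Normal ∨ (∃ X : Subgroup G, IsSimpleGroup ↥X ∧ ¬ IsMulCommutative ↥X ∧ Nonempty (↥X ≃* ↥A) ∧ (∀ a ∈ X, ∀ b ∈ X.map (MulAut.conj t).toMonoidHom, a * b = b * a) ∧ X ⊓ X.map (MulAut.conj t).toMonoidHom = ⊥ ∧ X ⊔ X.map (MulAut.conj t).toMonoidHom = Cfsg.layer G ∧ Subgroup.centralizer (A : Set G) = Subgroup.zpowers t) ∨ (A ≤ Cfsg.layer G ∧ IsSimpleGroup ↥(Cfsg.layer G) ∧ ¬ IsMulCommutative ↥(Cfsg.layer G)) := by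
  open Subgroup Cfsg CA CA.Amb CA.AmbSyl CA.AmbCore CA.AmbRes CA.AmbChar CA.AmbFs CA.AmbSpe CA.AmbIso CA.LBal CA.LBal2 CA.Comp CA.PComp in
  open scoped commutatorElement in
  (
    obtain ⟨qA, ⟨-, te⟩, nc, nn⟩ := hA
    have inv : ∀ u ∈ 𝐂 A, orderOf u = 2 → centralizer {u} ≤ 𝐍 A := fun u hu ou g hg => by
      rw [nn]
      by_contra n
      refine H13Inv.odd_card_iff.1 (te g n) u ⟨hu, ?_⟩ ou
      rw [← mem_cent_iff.1 hg]
      exact conj_mem_cj.2 hu
    have c : Cp A (⊤ ⊓ centralizer {t}) := by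
      rw [top_inf_eq]
      exact ⟨Subn.SN.of_le_normalizer (le_cent_of_mem htA) (inv t htA ht), qA⟩
    have t2 : t ^ 2 = 1 := ht ▸ pow_orderOf_eq_one t
    have tt : t * t = 1 := by rw [← pow_two, t2]
    have l : A ≤ EL ⊤ := by
      rw [EL_top, ← pLayer_eq_layer (p := 2) hO]
      exact lb_two (zpowers t) A (isPGroup_zpowers' t2) (by
        rw [Amb.centralizer_zpowers, ← top_inf_eq (centralizer _)]; exact pcp_two c)
    have n : t ∈ 𝐍 (⊤ : Subgroup G) := le_normalizer (mem_top t)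
    have fin : ∀ M : Subgroup G, M ≤ layer G → (∀ L, IsComponent L → L ≤ M ∨ L ≤ 𝐂 M) →
        (∀ u ∈ 𝐂 M, orderOf u ≠ 2) → M = layer G ∧ 𝐂 M = ⊥ := fun M h1 h2 h3 => by
      have e : M = layer G := le_antisymm h1 (layer_le fun L hL => (h2 L hL).resolve_right fun k => by
        obtain ⟨u, hu, ou⟩ := dvd_card_iff_exists.1 (even_of_qs hL.2)
        exact h3 u (k hu) ou)
      refine ⟨e, le_bot_iff.1 ?_⟩
      rw [← hO]
      have : (𝐂 M).Normal := by rw [e]; infer_instance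
      exact Core.le_pPrimeCore (Nat.coprime_two_right.2 (H13Inv.odd_card_iff.2 h3))
    have sim : ∀ D : Subgroup G, IsQuasisimple D → D ⊓ 𝐂 D = ⊥ → IsSimpleGroup D ∧ ¬ IsMulCommutative D :=
      fun D q z => ⟨Quasi.simple_of_qs_of_center_eq_bot q (by
        rw [← map_eq_bot_iff_of_injective _ D.subtype_injective, map_subtype_center, z]),
        fun h => Quasi.qs_not_isSolvable q (Core.isSolvable_of_isMulCommutative h)⟩
    obtain ⟨D, hD, ⟨h1, h2⟩ | ⟨h1, δ, h2, h3⟩⟩ := pump (p := 2) n (by rw [t2]; exact one_mem _) (pcp_two c) l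
    · have cD := Cp.top_iff.1 hD
      by_cases k : ∃ u ∈ 𝐂 D, orderOf u = 2
      · obtain ⟨u, hu, ou⟩ := k
        obtain rfl : A = D := (Quasi.qs_of_le_normalizer hD.qs h2 ((le_cent_of_mem hu).trans
          (inv u (centralizer_anti h2 hu) ou))).resolve_right fun k =>
            Quasi.qs_not_le_centralizer qA (k.trans (centralizer_anti h2))
        refine Or.inl (normal_iff_cj.2 fun g => ?_)
        by_contra ne
        exact nc g (fun e => ne e.le) (comp_commutator_of_ne cD (comp_map_conj cD g) fun e => ne e.ge)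
      · obtain ⟨e, z⟩ := fin D (le_layer cD) (fun L hL => comp_le_or_le_centralizer hL cD.1)
          fun u hu ou => k ⟨u, hu, ou⟩
        exact Or.inr (Or.inr (e ▸ ⟨h2, sim D hD.qs (by rw [z, inf_bot_eq])⟩))
    · have cD := Cp.top_iff.1 hD
      have cD' := comp_map_conj cD t
      have cc : D ≤ 𝐂 (cj t D) := comp_le_centralizer_of_ne cD cD' fun e => h1 (cj_eq_self_iff.1 e.symm)
      have AM : A ≤ D ⊔ cj t D := by
        rw [← ncl_two (by rw [tt]; exact one_mem _), h3]; exact h2.le_ncl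
      obtain ⟨e, z⟩ := fin (D ⊔ cj t D) (sup_le (le_layer cD) (le_layer cD'))
        (fun L hL => comp_le_or_le_centralizer hL (Subn.subnormal_sup cD.1 cD'.1)) fun u hu ou => by
          have a : D ≤ 𝐍 A := le_sup_left.trans ((le_cent_of_mem hu).trans (inv u (centralizer_anti AM hu) ou))
          have b : D ≤ A := by
            rw [← h2.comm_eq hD.perfect, ← h3]; exact commutator_le_right_of_norm a
          exact h1 (norm_of_centralizer (centralizer_anti b) htA)
      rw [Amb.centralizer_sup] at z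
      have zD : D ⊓ 𝐂 D = ⊥ := le_bot_iff.1 (z ▸ le_inf inf_le_right (inf_le_left.trans cc))
      refine Or.inr (Or.inl ⟨D, (sim D hD.qs zD).1, (sim D hD.qs zD).2, ⟨h3 ▸ MonoidHom.ofInjective
        ((injective_iff_map_eq_one δ).2 fun d hd => Subtype.ext (mem_bot.1 (zD ▸ ⟨d.2, h2.ker hd⟩)))⟩,
        fun a ha b hb => (mem_centralizer_sub.1 (cc ha) b hb).symm,
        le_bot_iff.1 (z ▸ le_inf (inf_le_right.trans (cent_symm cc)) (inf_le_left.trans cc)), e,
        le_antisymm (fun u hu => ?_) (zle htA)⟩)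
      obtain ⟨g, hg, h⟩ := h2.conj_mem hD n (u := u) (le_normalizer (mem_top u))
        (h3 ▸ norm_of_centralizer le_rfl hu)
      have a : g⁻¹ * u ∈ 𝐂 A := mul_mem (inv_mem (zle htA hg)) hu
      have b : g⁻¹ * u ∈ 𝐂 D := h2.cent hD.perfect (zle (cj_eq_self_iff.1 (by rw [← cj_cj, h, cj_inv_cj])))
        (h3 ▸ zle a) (mem_zpowers _)
      have d : g⁻¹ * u ∈ 𝐂 (cj t D) := cent_symm (H := cj t D) (K := zpowers (g⁻¹ * u)) (cj_le_iff'.2 fun x hx => by
        have := h2.two tt ⟨x, hx⟩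
        rw [show t * x * t⁻¹ = x⁻¹ * δ ⟨x, hx⟩ by rw [this]; group]
        exact mul_mem (inv_mem (cent_symm (zle b) hx)) (cent_symm (zle a) (h3 ▸ ⟨_, rfl⟩))) (mem_zpowers _)
      have := mem_bot.1 (z.le (mem_inf.2 ⟨b, d⟩))
      rw [← inv_mul_eq_one.1 this]
      exact hg)

end Cfsg.Agent.S1347
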