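import Cfsg.Statements.S1348
import Cfsg.Agent.Lib.Lin.CentInv
import Cfsg.Agent.Lib.Lin.CFormFin
import Cfsg.Agent.S1306

set_option autoImplicit false
open Cfsg

namespace Cfsg.Agent.S1348

open CA.CentInv CA.Comp CA.Quasi Matrix in
/-- Let F be a finite field of odd order, n ≥ 7 odd, and t ∈ SL(n, F) the diagonal matrix with entries −1, …, −1, 1. Then E(C(t)) is a standard subgroup of SL(n, F). -/
theorem result {F : Type*} [Field F] [Fintype F] [DecidableEq F] (hF : Odd (Fintype.card F)) (n : ℕ) (hn : 7 ≤ n) (hodd : Odd n) (t : Matrix.SpecialLinearGroup (Fin n) F) (ht : (t : Matrix (Fin n) (Fin n) F) = Matrix.diagonal (fun i : Fin n => if (i : ℕ) + 1 = n then (1 : F) else -1)) : Cfsg.IsStandardSubgroup ((Cfsg.layer ↥(Subgroup.centralizer ({t} : Set (Matrix.SpecialLinearGroup (Fin n) F)))).map (Subgroup.centralizer ({t} : Set (Matrix.SpecialLinearGroup (Fin n) F))).subtype) := by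
  have h2 : (2 : F) ≠ 0 := CA.CForm.two_ne_zero_iff_odd.2 hF
  have h3 : (-1 : F) ≠ 1 := fun h => h2 (by linear_combination -h)
  obtain ⟨k, rfl⟩ := hodd
  have h4 : t.1 = bm (scalar _ (-1), 1) := by rw [bm_diag]; exact ht
  have h5 := range_bS h3 h4
  let K := (GeneralLinearGroup.det : GL (Fin (2 * k)) F →* Fˣ).ker
  have hK : IsQuasisimple K := qs_ker (by omega) (.inl (by omega))
  have h6 : (layer (Subgroup.centralizer ({t} : Set (SpecialLinearGroup (Fin (2 * k + 1)) F)))).map
      (Subgroup.subtype _) = K.map bS := by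
    rw [← h5, MonoidHom.range_eq_map, ← map_map_layer bS_inj, map_layer_top,
      layer_GL (by omega) (.inl (by omega))]
  have h7 : Cp (K.map bS) (Subgroup.centralizer {t}) := by
    rw [← h5, MonoidHom.range_eq_map]
    exact (Cp.top_iff.2 ⟨Subgroup.Normal.isSubnormal inferInstance, hK⟩).map_of_injective bS_inj
  have h8 : t ∈ K.map bS := ⟨GeneralLinearGroup.scalar _ (-1), Units.ext (by simp),
    Subtype.ext (by rw [h4, coe_bS]; simp)⟩
  have h9 : ∀ y ∈ Subgroup.centralizer (K.map bS : Set (SpecialLinearGroup (Fin (2 * k + 1)) F)),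
      ∃ a : Fˣ, y = bS (GeneralLinearGroup.scalar _ a) := fun y hy => by
    obtain ⟨A, rfl⟩ := h5.ge (Subgroup.mem_centralizer_singleton_iff.2 (hy t h8).symm)
    have : Nonempty (Fin (2 * k)) := ⟨⟨0, by omega⟩⟩
    obtain ⟨a, ha⟩ := GeneralLinearGroup.center_eq_range_scalar.le
      (GeneralLinearGroup.mem_center_iff_val_mem_range_scalar.2
        (mem_range_scalar_of_commute_transvectionStruct (M := A.1) fun s => by
          have := hy (bS (SpecialLinearGroup.toGL ⟨s.toMatrix, s.det⟩))
            ⟨SpecialLinearGroup.toGL ⟨s.toMatrix, s.det⟩, Units.ext s.det, rfl⟩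
          rw [← map_mul, ← map_mul] at this
          exact congrArg Units.val (bS_inj this)))
    exact ⟨a, by rw [ha]⟩
  have h1 : t ≠ 1 := fun h => h3 (by
    have := congrFun (congrFun (ht.symm.trans (congrArg Subtype.val h)) 0) 0
    simpa [show k ≠ 0 by omega] using this)
  rw [h6]
  refine S1306.result t (orderOf_eq_prime (Subtype.ext ?_) h1) _ h7.le h7.comp (fun y hy hy' => ?_)
    fun g _ h => ?_
  · change t.1 ^ 2 = 1
    rw [h4, ← map_pow, Prod.pow_mk, ← map_pow]
    exact (congrArg bm (by simp)).trans (map_one bm)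
  · obtain ⟨a, rfl⟩ := h9 y hy'
    have h10 := pow_orderOf_eq_one (bS (GeneralLinearGroup.scalar (Fin (2 * k)) a))
    have : Nonempty (Fin (2 * k)) := ⟨⟨0, by omega⟩⟩
    rw [hy, ← map_pow, ← map_pow, map_eq_one_iff _ bS_inj,
      map_eq_one_iff _ CA.SLnCard.scalar_injective, sq, Units.ext_iff] at h10
    rcases mul_self_eq_one_iff.1 h10 with h | h
    · rw [show a = 1 from Units.ext h] at hy
      simp at hy
    · rw [show bS (GeneralLinearGroup.scalar (Fin (2 * k)) a) = t from
        Subtype.ext (by rw [h4, coe_bS, show a = -1 from Units.ext h]; simp)]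
      exact ⟨h7.le, h7.comp⟩
  · rw [Subgroup.commutator_comm, Subgroup.commutator_eq_bot_iff_le_centralizer] at h
    refine qs_not_le_centralizer (h7.map_conj g).qs fun x hx y hy => ?_
    obtain ⟨a, rfl⟩ := h9 x (h hx)
    obtain ⟨b, rfl⟩ := h9 y (h hy)
    rw [← map_mul, ← map_mul, ← map_mul, ← map_mul, mul_comm b]

end Cfsg.Agent.S1348
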