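import Cfsg.Statements.S1397
import Cfsg.Agent.Lib.Odd.BG8

set_option autoImplicit false
open Cfsg

namespace Cfsg.Agent.S1397

/-- Let G be a minimal simple group of odd order, M a maximal subgroup, p a prime and A₀ an elementary abelian p-subgroup of F(M) of order at least p ^ 3 that is maximal among elementary abelian p-subgroups of F(M). (a) If F(M) is not a p-group, then F(M) ∩ C_G(A₀) lies in exactly one maximal subgroup of G. (b) If F(M) is a p-group and P is a Sylow p-subgroup of M, then p does not divide the index of P in G, and every normal self-centralizing subgroup A of P containing an elementary abelian subgroup of order p ^ 3 is contained in F(M) and lies in exactly one maximal subgroup of G. -/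
theorem result {G : Type*} [Group G] [Finite G] (hG : Cfsg.IsMinSimpleOddOrder G)
    (M : Subgroup G) (hM : IsCoatom M) (p : ℕ) [Fact p.Prime] (A₀ : Subgroup G)
    (hA₀ : A₀ ≤ Cfsg.fittingOf M) (hA₀e : Cfsg.IsElementaryAbelian p A₀) (hA₀3 : p ^ 3 ≤ Nat.card A₀)
    (hA₀max : ∀ B : Subgroup G, B ≤ Cfsg.fittingOf M → Cfsg.IsElementaryAbelian p B → A₀ ≤ B → B = A₀) :
    (¬ IsPGroup p ↥(Cfsg.fittingOf M) → Cfsg.InUniqueMaximal (Cfsg.fittingOf M ⊓ Subgroup.centralizer (A₀ : Set G))) ∧
      (IsPGroup p ↥(Cfsg.fittingOf M) → ∀ P : Sylow p M,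
        ¬ p ∣ ((P : Subgroup M).map M.subtype).index ∧
        ∀ A : Subgroup G, Cfsg.IsSCN ((P : Subgroup M).map M.subtype) A → ¬ Cfsg.PRankLE p 2 ↥A →
          A ≤ Cfsg.fittingOf M ∧ Cfsg.InUniqueMaximal A) := by
  have hp' : p.Prime := Fact.out
  refine ⟨fun h => (CA.BG.non_pcore_Fitting_Uniqueness hG hp' hM ⟨hA₀, hA₀e, hA₀max⟩
    (CA.BG.prk_of_elem_card hp' hA₀e hA₀3) (mt (CA.BG.isPi_iff_isPGroup hp').1 h)).uniq,
    fun h P => ?_⟩
  have hF := CA.BG.isPi_of_isPGroup hp' h
  have hP := CA.BG.syl_map hp' P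
  refine ⟨?_, fun A hA hr => ?_⟩
  · have := (CA.BG.pcore_Fitting_Sylow hG hp' hM hF hP).not_dvd hp'
    rwa [Subgroup.relIndex_top_right] at this
  · obtain ⟨h1, h2⟩ := CA.BG.SCN_Fitting_Uniqueness hG hp' hM hF hP hA
      (not_not.1 (mt (CA.BG.prankLE_iff hp').2 hr))
    exact ⟨h1, h2.uniq⟩

end Cfsg.Agent.S1397
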