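import Cfsg.Statements.S1405
import Cfsg.Agent.Lib.Odd.BG10

set_option autoImplicit false
open Cfsg

namespace Cfsg.Agent.S1405

open CA.BG CA.OQuo

theorem rankLE_of_equiv {A B : Type*} [Group A] [Group B] (e : A ≃* B) {k : ℕ}
    (h : Cfsg.RankLE k B) : Cfsg.RankLE k A := by
  intro p hp K hK hKp
  have h1 := h p hp (K.map e.toMonoidHom) (Subgroup.map_isMulCommutative K _) (by
    rintro _ ⟨a, ha, rfl⟩
    rw [← map_pow, hKp a ha, map_one])
  rwa [Subgroup.card_map_of_injective (f := e.toMonoidHom) e.injective] at h1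

theorem nil_quo {G : Type*} [Group G] [Finite G] (M : Subgroup G) (N : Subgroup M) [N.Normal]
    (h : Group.IsNilpotent (⁅M, M⁆ /ᵍ N.map M.subtype)) :
    Group.IsNilpotent ↥((commutator ↥M).map (QuotientGroup.mk' N)) := by
  let e := quotientEquivQuoMap N
  let f : (↥M ⧸ N) →* _ := (Subgroup.subtype _).comp e.toMonoidHom
  have hf : Function.Injective f := Subtype.val_injective.comp e.injective
  have h2 : ((commutator ↥M).map (QuotientGroup.mk' N)).map f ≤ ⁅M, M⁆ /ᵍ N.map M.subtype := by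
    rintro _ ⟨_, ⟨x, hx, rfl⟩, rfl⟩
    have h3 : (x : G) ∈ ⁅M, M⁆ := by
      rw [← Subgroup.map_subtype_commutator]
      exact ⟨x, hx, rfl⟩
    have h4 := quotientEquivQuoMap_mk N x
    have h5 := mel_mem_mim (qh (N.map M.subtype)) h3
    exact (congrArg (· ∈ ⁅M, M⁆ /ᵍ N.map M.subtype) h4).mpr h5
  have h3 := nil_of_le h h2
  exact nilpotent_of_mulEquiv (Subgroup.equivMapOfInjective _ f hf).symm

/-- Let G be a minimal simple group of odd order and M a maximal subgroup, α(M) the set of primes p with M of p-rank at least 3, and M_α = O_{α(M)}(M). Then M_α is a Hall α(M)-subgroup of M and of G, M_α ≤ M_σ, the quotient M/M_α has no elementary abelian subgroup of order p ^ 3 for any prime p, and the image of M' in M/M_α is nilpotent. -/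
theorem result {G : Type*} [Group G] [Finite G] (hG : Cfsg.IsMinSimpleOddOrder G)
    (M : Subgroup G) (hM : IsCoatom M) :
    Cfsg.IsPiHallOf (Cfsg.alpha M) (Cfsg.alphaCore M) M ∧ Cfsg.IsPiHall (Cfsg.alpha M) (Cfsg.alphaCore M) ∧
      Cfsg.alphaCore M ≤ Cfsg.sigmaCore M ∧ Cfsg.RankLE 2 (↥M ⧸ Cfsg.piCore (Cfsg.alpha M) ↥M) ∧
      Group.IsNilpotent ↥((commutator ↥M).map (QuotientGroup.mk' (Cfsg.piCore (Cfsg.alpha M) ↥M))) := by
  exact ⟨Malpha_Hall hG hM, hall_top_iff.1 (Malpha_Hall_G hG hM), Malpha_sub_Msigma hG hM,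
    rankLE_of_equiv (quotientEquivQuoMap (Cfsg.piCore (Cfsg.alpha M) ↥M))
      (rankLE_iff.2 (Malpha_quo_rank2 hG hM)), nil_quo M _ (Malpha_quo_nil hG hM)⟩

end Cfsg.Agent.S1405
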