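import Cfsg.Statements.S1408
import Cfsg.Agent.Lib.Odd.BG10

set_option autoImplicit false
open Cfsg

namespace Cfsg.Agent.S1408

open CA.BG CA.OQuo

/-- Let G be a minimal simple group of odd order, M a maximal subgroup, and p a prime not in σ(M) such that M has p-rank exactly 2. Then p is not an ideal prime for G, and every elementary abelian subgroup of M of order p ^ 2 is maximal among elementary abelian p-subgroups of G. -/
theorem result {G : Type*} [Group G] [Finite G] (hG : Cfsg.IsMinSimpleOddOrder G)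
    (M : Subgroup G) (hM : IsCoatom M) (p : ℕ) [Fact p.Prime] (hp : p ∉ Cfsg.sigma M) (hr2 : Cfsg.PRankLE p 2 M) (hr1 : ¬ Cfsg.PRankLE p 1 M) :
    ¬ Cfsg.IsIdealPrime p G ∧ ∀ A : Subgroup G, A ≤ M → Cfsg.IsElementaryAbelian p A → Nat.card A = p ^ 2 →
        ∀ B : Subgroup G, Cfsg.IsElementaryAbelian p B → A ≤ B → B = A := by
  have hpp : p.Prime := Fact.out
  have ht : p ∈ Cfsg.tau2 M := mem_tau2 hG hM hpp hp (by
    by_contra h
    exact hr1 ((prankLE_iff hpp).2 h))
  exact ⟨sigma'_rank2_beta' hG hM ht, fun A hAM h1 h2 B h3 h4 =>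
    (sigma'_rank2_max hG hM ht ⟨h1, h2⟩ hAM).eq le_top h3 h4⟩

end Cfsg.Agent.S1408
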