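import Cfsg.Statements.S1412
import Cfsg.Agent.Lib.Odd.BG12

set_option autoImplicit false
open Cfsg

namespace Cfsg.Agent.S1412

open CA.BG CA.OQuo

/-- Let G be a minimal simple group of odd order, p a prime and P a Sylow p-subgroup of G with no elementary abelian subgroup of order p ^ 3. Then either P is abelian, or P is generated by two elementwise-commuting subgroups P₁, P₂ with P₁ nonabelian of order p ^ 3 and exponent p, P₂ cyclic, and the elements of P₂ of order dividing p generating exactly the centre of P₁. -/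
theorem result {G : Type*} [Group G] [Finite G] (hG : Cfsg.IsMinSimpleOddOrder G) (p : ℕ) [Fact p.Prime] (P : Sylow p G) (hr : Cfsg.PRankLE p 2 (P : Subgroup G)) :
    IsMulCommutative (P : Subgroup G) ∨ ∃ P₁ P₂ : Subgroup G, P₁ ⊔ P₂ = (P : Subgroup G) ∧ (∀ a ∈ P₁, ∀ b ∈ P₂, a * b = b * a) ∧
        ¬ IsMulCommutative P₁ ∧ Nat.card P₁ = p ^ 3 ∧ Monoid.exponent P₁ = p ∧ IsCyclic P₂ ∧
        Subgroup.closure {x : G | x ∈ P₂ ∧ x ^ p = 1} = P₁ ⊓ Subgroup.centralizer (P₁ : Set G) := by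
  have hpp : p.Prime := Fact.out
  by_cases h : IsMulCommutative (P : Subgroup G)
  · exact Or.inl h
  obtain ⟨S, C, h1, h2, h3, h4, h5, h6, h7⟩ :=
    mFT_rank2_Sylow_cprod hG hpp (syl_top hpp P) ((prankLE_iff hpp).1 hr) h
  refine Or.inr ⟨S, C, h1, fun a ha b hb => mem_cent.1 (h2 hb) a ha, h3, h4, ?_, h6, h7⟩
  rcases (Nat.dvd_prime hpp).1 h5.exponent_dvd with h8 | h8
  · haveI := Monoid.exp_eq_one_iff.1 h8
    exact absurd ⟨⟨fun a b => Subsingleton.elim _ _⟩⟩ h3
  · exact h8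

end Cfsg.Agent.S1412
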