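import Cfsg.Statements.S1413
import Cfsg.Agent.Lib.Odd.BG10

set_option autoImplicit false
open Cfsg

namespace Cfsg.Agent.S1413

open CA.BG CA.OQuo

/-- Let G be a minimal simple group of odd order, p a prime and P a Sylow p-subgroup. (c) If Q ≤ P and xQx⁻¹ ≤ P then xQx⁻¹ = yQy⁻¹ for some y ∈ N_G(P). (d) For every Q ≤ P, p does not divide the index of N_P(Q) in N_G(Q). (e) If R is a p-subgroup and Q ≤ P ∩ R is normal in N_G(P), then Q is normal in N_G(R). -/
theorem result {G : Type*} [Group G] [Finite G] (hG : Cfsg.IsMinSimpleOddOrder G) (p : ℕ) [Fact p.Prime] (P : Sylow p G) :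
    (∀ (Q : Subgroup G) (x : G), Q ≤ (P : Subgroup G) → Q.map (MulAut.conj x).toMonoidHom ≤ (P : Subgroup G) →
        ∃ y ∈ Subgroup.normalizer ((P : Subgroup G) : Set G), Q.map (MulAut.conj x).toMonoidHom = Q.map (MulAut.conj y).toMonoidHom) ∧
      (∀ Q : Subgroup G, Q ≤ (P : Subgroup G) →
        ¬ p ∣ ((P : Subgroup G) ⊓ Subgroup.normalizer (Q : Set G)).relIndex (Subgroup.normalizer (Q : Set G))) ∧
      (∀ (R Q : Subgroup G), IsPGroup p R → Q ≤ (P : Subgroup G) ⊓ R →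
        Subgroup.normalizer ((P : Subgroup G) : Set G) ≤ Subgroup.normalizer (Q : Set G) →
        Subgroup.normalizer (R : Set G) ≤ Subgroup.normalizer (Q : Set G)) := by
  have hpp : p.Prime := Fact.out
  have hP := syl_top hpp P
  refine ⟨fun Q x h1 h2 => ?_, fun Q h => (mFT_subnorm_Sylow hG hpp hP h).not_dvd hpp,
    fun R Q h1 h2 h3 => mFT_Sylow_normalS hG hpp hP (isPi_of_isPGroup hpp h1)
      (h2.trans inf_le_left) (h2.trans inf_le_right) h3⟩
  obtain ⟨y, hy, c, hc, rfl⟩ := mFT_sub_Sylow_trans hG hpp hP h1 h2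
  refine ⟨y, hy, ?_⟩
  change cj (y * c) Q = cj y Q
  rw [cj_mul, cj_of_mem_cent hc]

end Cfsg.Agent.S1413
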