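import Cfsg.Statements.S1441
import Cfsg.Agent.Lib.Odd.BG1

set_option autoImplicit false
open Cfsg

namespace Cfsg.Agent.S1441

open CA.BG CA.OQuo Subgroup

/-- Let G be a finite group, H a solvable subgroup and A a subgroup normalizing H. Suppose there is a chain H = H₀ ≥ H₁ ≥ ⋯ ≥ H_n = 1 of subgroups normal in H and normalized by A such that A acts trivially on each factor H_{i-1}/H_i (that is, [H_{i-1}, A] ≤ H_i). Then every prime dividing the index of C_A(H) in A divides the order of H. -/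
theorem result {G : Type*} [Group G] [Finite G] (H A : Subgroup G) (hH : Group.IsSolvable H) (hA : (A ≤ Subgroup.normalizer (H : Set G)))
    (n : ℕ) (c : Fin (n + 1) → Subgroup G) (hc0 : c 0 = H) (hcn : c (Fin.last n) = ⊥) (hanti : Antitone c)
    (hcN : ∀ i, H ≤ Subgroup.normalizer ((c i : Subgroup G) : Set G)) (hcA : ∀ i, A ≤ Subgroup.normalizer ((c i : Subgroup G) : Set G))
    (htriv : ∀ i : Fin n, ⁅c i.castSucc, A⁆ ≤ c i.succ) :
    ∀ p : ℕ, p.Prime → p ∣ (A ⊓ Subgroup.centralizer (H : Set G)).relIndex A → p ∣ Nat.card H := by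
  intro p hp hd
  by_contra hpH
  obtain ⟨P, hP⟩ := syl_exists hp A
  have hc : (♯H).Coprime ♯P := ((isPi_compl_iff hp).2 hpH).coprime' hP.pi
  have hle : ∀ i, c i ≤ H := fun i => hc0 ▸ hanti (Fin.zero_le i)
  have key : ∀ i : Fin (n + 1), P ≤ 𝓒(c i) := by
    intro i
    induction i using Fin.reverseInduction with
    | last => rw [hcn, cent_bot]; exact le_top
    | cast i ih =>
      exact stable_factor_cent' (hP.le.trans (hcA _)) (cop_mono hc (hle _) le_rfl)
        ((commutator_mono le_rfl hP.le).trans (htriv i)) ih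
  have h1 : P ≤ A ⊓ 𝓒(H) := le_inf hP.le (hc0 ▸ key 0)
  exact (piNat_compl_iff hp).1 (hP.le_of_idx h1) hd

end Cfsg.Agent.S1441
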