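import Cfsg.Statements.S1450
import Cfsg.Agent.Lib.Odd.BG4b

set_option autoImplicit false
open Cfsg

namespace Cfsg.Agent.S1450

open CA.BG CA.BG4 Subgroup

theorem conv {G : Type*} [Group G] [Finite G] (hodd : Odd (Nat.card G)) {p : ℕ} (hp : p.Prime)
    (h1 : HasPC p ⁅(⊤ : Subgroup G), (⊤ : Subgroup G)⁆)
    (h2 : ∀ q, q.Prime → q ∣ 𝓞({p}ᶜ, (⊤ : Subgroup G)).relIndex ⊤ → q ≤ p)
    (h3 : ⁅(⊤ : Subgroup G), (⊤ : Subgroup G)⁆ ≤ Opp p ⊤) (h4 : PL1 p (⊤ : Subgroup G)) :
    (∀ q : ℕ, q.Prime → q ∣ (Cfsg.pPrimeCore p G).index → q ≤ p) ∧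
      ((p = 3 ∨ ∀ q : ℕ, q.Prime → q ∣ Nat.card G → p ≤ q) → Cfsg.HasNormalPComplement p G) ∧
      Cfsg.HasNormalPComplement p ↥(commutator G) ∧
      (∀ L : Subgroup ↥(commutator G), (Nat.card L).Coprime p → L ≤ Cfsg.pPrimeCore p ↥(commutator G)) ∧
      commutator G ≤ Cfsg.pPrimePCore p G ∧ ((Cfsg.pPrimePCore p G).index).Coprime p := by
  refine ⟨fun q hq hd => h2 q hq (by rwa [core_p'_top hp, relIndex_top_right]), fun h => ?_,
    (hasPC_iff hp).1 h1, fun L hL => ?_, Opp_top (G := G) hp ▸ h3,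
    (pLengthLE_one_iff p G).1 ((PL1_top hp).1 h4)⟩
  · haveI := Fact.mk hp
    exact CA.PRes.hasNPC_top_iff.1
      ((hasPC_iff hp).1 (hasPC_of_max_pdiv (odd_of_top hodd ⊤) h2 (by rwa [card_top])))
  · have h5 := h1.le_core (K := L.map (commutator G).subtype)
      ((isPi_compl_iff_coprime hp).2 (by rwa [CA.Rad.card_map_subtype])) (map_subtype_le _)
    rw [core_p'_eq hp] at h5
    exact (map_le_map_iff_of_injective (subtype_injective _)).1 h5

/-- Let G be a solvable group of odd order, p a prime dividing its order with G having no elementary abelian subgroup of order p ^ 3. Then every prime dividing the index of O_{p'}(G) is at most p; if p = 3 or p is the smallest prime divisor of #G then G has a normal p-complement; the derived subgroup G' has a normal p-complement; every subgroup of G' of order coprime to p lies in O_{p'}(G'); and G/O_{p',p}(G) is abelian of order coprime to p. -/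
theorem result {G : Type*} [Group G] [Finite G] [Group.IsSolvable G] (hodd : Odd (Nat.card G)) (p : ℕ) [Fact p.Prime] (hpG : p ∣ Nat.card G) (hr : Cfsg.PRankLE p 2 G) :
    (∀ q : ℕ, q.Prime → q ∣ (Cfsg.pPrimeCore p G).index → q ≤ p) ∧
      ((p = 3 ∨ ∀ q : ℕ, q.Prime → q ∣ Nat.card G → p ≤ q) → Cfsg.HasNormalPComplement p G) ∧
      Cfsg.HasNormalPComplement p ↥(commutator G) ∧
      (∀ L : Subgroup ↥(commutator G), (Nat.card L).Coprime p → L ≤ Cfsg.pPrimeCore p ↥(commutator G)) ∧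
      commutator G ≤ Cfsg.pPrimePCore p G ∧ ((Cfsg.pPrimePCore p G).index).Coprime p := by
  have hpp : p.Prime := Fact.out
  have h1 := (prankLE_top_iff hpp).1 hr
  obtain ⟨h2, h3, h4⟩ := rank2_der1_complement hpp (solv_top ⊤) (odd_of_top hodd ⊤) h1
  exact conv hodd hpp h2 (fun q hq => rank2_max_pdiv hpp hq (solv_top ⊤) (odd_of_top hodd ⊤) h1) h3 h4

end Cfsg.Agent.S1450
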