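import Cfsg.Statements.S1451
import Cfsg.Agent.Lib.Odd.BG4b

set_option autoImplicit false
open Cfsg

namespace Cfsg.Agent.S1451

open CA.BG CA.BG4 Subgroup

/-- Let G be a solvable group of odd order such that G, or its Fitting subgroup, has no elementary abelian subgroup of order q ^ 3 for any prime q. Then G' is nilpotent; for every Sylow subgroup S of G, every characteristic subgroup T of S with T ≤ [S, S] is normal in G; and for every prime p, G has a characteristic subgroup that is a Hall subgroup for the set of primes greater than p. -/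
theorem result {G : Type*} [Group G] [Finite G] [Group.IsSolvable G] (hodd : Odd (Nat.card G)) (hr : Cfsg.RankLE 2 G ∨ Cfsg.RankLE 2 (Cfsg.fittingSubgroup G)) :
    Group.IsNilpotent ↥(commutator G) ∧
      (∀ (q : ℕ) [Fact q.Prime] (S : Sylow q G) (T : Subgroup ↥(S : Subgroup G)), T.Characteristic → T.map (S : Subgroup G).subtype ≤ ⁅(S : Subgroup G), (S : Subgroup G)⁆ →
        (T.map (S : Subgroup G).subtype).Normal) ∧
      ∀ p : ℕ, ∃ N : Subgroup G, N.Characteristic ∧ Cfsg.IsPiHall {q | q.Prime ∧ p < q} N := by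
  have h1 : ¬ Rk 3 𝓕((⊤ : Subgroup G)) := by
    rcases hr with h | h
    · exact fun h' => rankLE_top_iff.1 h (h'.mono le_top)
    · rw [fit_top]; exact rankLE_iff.1 h
  have hs := solv_top (⊤ : Subgroup G)
  have ho := odd_of_top hodd ⊤
  refine ⟨nil_of_le (fit_nil ⊤) (rank2_der1_sub_Fitting hs ho h1), fun q hq S T h2 h3 => ?_,
    fun p => ?_⟩
  · exact normal_of_top_le_norm
      (rank2_char_Sylow_normal hq.out hs ho h1 (syl_top hq.out S) h3 (charIn_map T))
  · have h2 := rank2_ge_pcore_Hall (p + 1) hs ho h1
    rw [core_top] at h2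
    refine ⟨_, CA.Core.piCore_characteristic, fun q hq hd => ⟨hq, h2.pi q hq hd⟩,
      fun q hq h hd => h2.idx q hq (by rwa [relIndex_top_right]) h.2⟩

end Cfsg.Agent.S1451
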