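import Cfsg.Statements.S1452
import Cfsg.Agent.Lib.Odd.BG4x2

set_option autoImplicit false
open Cfsg

namespace Cfsg.Agent.S1452

open CA.BG

/-- Let p be an odd prime and R a finite p-group containing an elementary abelian subgroup of order p ^ 3. If E is a normal elementary abelian subgroup of R of order p ^ 2, then E ≤ A for some normal subgroup A of R with C_R(A) = A that contains an elementary abelian subgroup of order p ^ 3. -/
theorem result {R : Type*} [Group R] [Finite R] (p : ℕ) [Fact p.Prime] (hp : p ≠ 2) (hR : IsPGroup p R) (hr : ¬ Cfsg.PRankLE p 2 R)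
    (E : Subgroup R) [E.Normal] (hE : Cfsg.IsElementaryAbelian p E) (hE2 : Nat.card E = p ^ 2) :
    ∃ A : Subgroup R, E ≤ A ∧ A.Normal ∧ Subgroup.centralizer (A : Set R) = A ∧ ¬ Cfsg.PRankLE p 2 A := by
  have hpp : p.Prime := Fact.out
  have hG' : IsPi {p} (⊤ : Subgroup R) := isPi_of_isPGroup hpp (hR.to_subgroup ⊤)
  obtain ⟨B, h1, h2, h3⟩ := normal_p2Elem_SCN3 hpp hp hG'
    (by_contra fun h => hr ((prankLE_top_iff hpp).2 h)) le_top ⟨hE, hE2⟩
    (Subgroup.normalizer_eq_top_iff.2 ‹_›).ge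
  exact ⟨B, h3, Subgroup.normalizer_eq_top_iff.1 (top_le_iff.1 h1.2.1),
    by simpa using h1.2.2, fun h => (prankLE_iff hpp).1 h h2⟩

end Cfsg.Agent.S1452
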