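import Cfsg.Statements.S1453
import Cfsg.Agent.Lib.Odd.BG5

set_option autoImplicit false
open Cfsg

namespace Cfsg.Agent.S1453

open CA.BG CA.BG4 Subgroup

theorem Z2_top {R : Type*} [Group R] : Z2 (⊤ : Subgroup R) = Subgroup.upperCentralSeries R 2 := by
  ext x
  rw [mem_Z2, Subgroup.mem_upperCentralSeries_succ_iff, Subgroup.upperCentralSeries_one]
  simp only [mem_top, true_and, forall_true_left, mem_center_iff]
  exact ⟨fun h y z => (h y z).symm, fun h y z => (h y z).symm⟩

theorem center_top' {R : Type*} [Group R] : 𝓩((⊤ : Subgroup R)) = center R := by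
  rw [top_inf_eq, coe_top, centralizer_univ]

theorem char_of_charIn {R : Type*} [Group R] {K : Subgroup R} (h : CharIn K ⊤) :
    K.Characteristic := by
  refine characteristic_iff_le_comap.2 fun φ x hx => ?_
  exact (charIn_iff.1 h).2 ((topEquiv.trans φ).trans topEquiv.symm) ⟨x, mem_top x⟩ hx

/-- Let p be an odd prime and R a finite p-group with an elementary abelian subgroup of order p ^ 3 and an elementary abelian subgroup E of order p ^ 2 contained in no larger elementary abelian subgroup. Let Z₂ be the second centre of R, W the subgroup generated by the elements of Z₂ of order dividing p, and T = C_R(W). Then E is not contained in T; the elements of order dividing p of the centre of R generate a group of order p; W is elementary abelian of order p ^ 2; and T is characteristic in R of index p. -/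
theorem result {R : Type*} [Group R] [Finite R] (p : ℕ) [Fact p.Prime] (hp : p ≠ 2) (hR : IsPGroup p R) (hr : ¬ Cfsg.PRankLE p 2 R)
    (E : Subgroup R) (hE : Cfsg.IsElementaryAbelian p E) (hE2 : Nat.card E = p ^ 2)
    (hEmax : ∀ B : Subgroup R, Cfsg.IsElementaryAbelian p B → E ≤ B → B = E) :
    ¬ E ≤ Subgroup.centralizer ((Subgroup.closure {x : R | x ∈ Subgroup.upperCentralSeries R 2 ∧ x ^ p = 1} : Subgroup R) : Set R) ∧
      Nat.card ↥(Subgroup.closure {x : R | x ∈ Subgroup.center R ∧ x ^ p = 1}) = p ∧
      (Cfsg.IsElementaryAbelian p (Subgroup.closure {x : R | x ∈ Subgroup.upperCentralSeries R 2 ∧ x ^ p = 1}) ∧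
        Nat.card ↥(Subgroup.closure {x : R | x ∈ Subgroup.upperCentralSeries R 2 ∧ x ^ p = 1}) = p ^ 2) ∧
      (Subgroup.centralizer ((Subgroup.closure {x : R | x ∈ Subgroup.upperCentralSeries R 2 ∧ x ^ p = 1} : Subgroup R) : Set R)).Characteristic ∧
      (Subgroup.centralizer ((Subgroup.closure {x : R | x ∈ Subgroup.upperCentralSeries R 2 ∧ x ^ p = 1} : Subgroup R) : Set R)).index = p := by
  have hpp : p.Prime := Fact.out
  have hG' : IsPi {p} (⊤ : Subgroup R) := isPi_of_isPGroup hpp (hR.to_subgroup ⊤)
  obtain ⟨h1, h2, h3, h4, h5⟩ := Ohm1_ucn_p2maxElem hpp hp hG'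
    (by_contra fun h => hr ((prankLE_top_iff hpp).2 h)) ⟨hE, hE2⟩
    ⟨le_top, hE, fun B _ => hEmax B⟩
  rw [center_top'] at h2
  rw [Z2_top] at h3
  rw [top_inf_eq, Z2_top] at h1 h4 h5
  exact ⟨h1, h2, h3, char_of_charIn h4, by rwa [relIndex_top_right] at h5⟩

end Cfsg.Agent.S1453
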