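import Cfsg.Statements.S1454
import Cfsg.Agent.Lib.Odd.BG5

set_option autoImplicit false
open Cfsg

namespace Cfsg.Agent.S1454

open CA.BG CA.BG4 Subgroup

/-- Let G be a finite group, p an odd prime, R a narrow p-subgroup and A a solvable subgroup of odd order normalizing R with A ∩ C_G(R) = 1. Then [A, A] ≤ O_p(A) and the index of O_p(A) in A is coprime to p; if R has an elementary abelian subgroup of order p ^ 3 then the order of every element of A of order coprime to p divides p − 1; and if the order of A is a prime not dividing p(p − 1), then 2·#A divides p + 1, and if in addition [R, A] = R and R is non-abelian then #R = p ^ 3. -/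
theorem result {G : Type*} [Group G] [Finite G] (p : ℕ) [Fact p.Prime] (hp : p ≠ 2) (R A : Subgroup G) (hR : IsPGroup p R) (hRn : Cfsg.IsNarrow p R)
    (hA : (A ≤ Subgroup.normalizer (R : Set G))) (hAs : Group.IsSolvable A) (hAodd : Odd (Nat.card A)) (hfaith : A ⊓ Subgroup.centralizer (R : Set G) = ⊥) :
    (commutator ↥A ≤ Cfsg.pCore p ↥A ∧ ((Cfsg.pCore p ↥A).index).Coprime p) ∧
      (¬ Cfsg.PRankLE p 2 R → ∀ a ∈ A, (orderOf a).Coprime p → orderOf a ∣ p - 1) ∧
      ((Nat.card A).Prime → ¬ Nat.card A ∣ p * (p - 1) →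
        2 * Nat.card A ∣ p + 1 ∧ (⁅R, A⁆ = R → ¬ IsMulCommutative R → Nat.card R = p ^ 3)) := by
  have hpp : p.Prime := Fact.out
  have hR' := isPi_of_isPGroup hpp hR
  have hN := (narrow_iff_isNarrow hpp hp hR').2 hRn
  obtain ⟨h1, h2⟩ := Aut_narrow hpp hp hR' hN hA hAs hAodd
  have hb : ¬ Cfsg.PRankLE p 2 R → ∀ a ∈ A, (orderOf a).Coprime p → orderOf a ∣ p - 1 :=
    fun h a ha hc => orderOf_dvd_of_pow_eq_one (mem_bot.1 (hfaith ▸ ⟨pow_mem ha _,
      h2 (by_contra fun h' => h ((prankLE_iff hpp).2 h')) a ha ((piNat_compl_iff_coprime hpp).2 hc)⟩))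
  have h3 : IsPi {p} ⁅A, A⁆ := IsPi.of_relIndex (by
    rw [CA.BG.eq_bot_mono (le_inf (inf_le_right.trans (der_le A)) inf_le_left) hfaith]
    exact isPi_bot _) h1
  have h4 := le_core h3 (der_le A) (le_norm_comm_left A A)
  refine ⟨⟨?_, ?_⟩, hb, fun hq hd => ?_⟩
  · rw [← core_p_subgroupOf hpp, subgroupOf, ← map_le_iff_le_comap, commutator_def, map_commutator,
      ← MonoidHom.range_eq_map, range_subtype]
    exact h4
  · obtain ⟨S, hS⟩ := syl_exists hpp A
    have h5 := hS.core_hall (norm_of_der_le (h4.trans hS.core_le) hS.le)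
    rw [← core_p_subgroupOf hpp]
    exact (piNat_compl_iff_coprime hpp).1 h5.idx
  have hqp : ♯A ≠ p := fun e => hd (e ▸ Dvd.intro _ rfl)
  have hq1 : ¬ ♯A ∣ p - 1 := fun e => hd (e.mul_left p)
  have hi : ♯A ∣ 𝓒(R).relIndex A := by
    rw [← inf_relIndex_right, inf_comm, hfaith, relIndex_bot_left]
  have hr : ¬ PRk p 3 R := fun h => hq1 (narrow_pi_Aut hpp hp hq hqp hR' hN h hA hi)
  obtain ⟨m, hm⟩ := hpp.odd_of_ne_two hp
  have hA' : IsPi {p}ᶜ A := (isPi_of_card_eq hq rfl).ne hqp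
  refine ⟨?_, fun hRA hna => ?_⟩
  · rcases (pi_Aut_rank2_pgroup hpp hp hq hqp hR' hr hA hi).2.2 with h | h
    · rw [show p + 1 = 2 * ((p + 1) / 2) by omega]; exact Nat.mul_dvd_mul_left 2 h
    · exact absurd (h.trans (Nat.div_dvd_of_dvd (by omega))) hq1
  obtain ⟨h5, h6⟩ := rank2_coprime_comm_cprod hpp hp hR' (by rintro rfl; exact hna comm_bot) hr hRA
    hA' hAodd
  obtain ⟨S, C, h6, h7, h8, h9, h10, h11, h12⟩ := h6.resolve_left hna
  have hS : S ≤ R := h6 ▸ le_sup_left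
  have hC : C ≤ R := h6 ▸ le_sup_right
  have hE := p3group_extraspecial hpp h9 h8
  have h13 : S = Ω₁(p, R) := eq_of_le_of_card_le (h10.le_omega hS) (h9 ▸ Nat.le_of_dvd
    (pow_pos hpp.pos 3) (rank2_exponent_p_p3group hpp (exponent_Ohm1_rank2 hpp h5 hR' hr)
      fun h => hr (h.mono (omega_le _ _))))
  have hAS : A ≤ 𝓝(S) := h13 ▸ norm_omega p hA
  have h14 : C = 𝓩(R) := by
    refine le_antisymm (le_inf hC ?_) ?_
    · rw [← h6]; exact le_cent_sup h7 (comm_iff_le_cent.1 (comm_of_cyclic h11))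
    · rintro x ⟨hx, hxc⟩
      obtain ⟨s, hs, c, hc, rfl⟩ := (mem_sup_norm' (norm_of_cent h7)).1 (h6 ▸ hx)
      refine mul_mem (omega_le p C ?_) hc
      rw [h12, hE.2.2.1]
      refine ⟨hs, ?_⟩
      rw [show s = s * c * c⁻¹ by group]
      exact (𝓒(S)).mul_mem (cent_anti hS hxc) (inv_mem (h7 hc))
  have hAC : A ≤ 𝓝(C) := h14 ▸ hA.trans (norm_center R)
  have h15 : A ≤ 𝓒(Ω₁(p, C)) := by
    by_contra h
    refine hq1 (dvd_card_sub_one hq (isPi_of_card_eq hq rfl) (norm_omega p hAC) ?_ |>.trans ?_)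
    · refine (eq_bot_or_eq_of_prime (X := Ω₁(p, C)) ?_ inf_le_left).resolve_right
        fun e => h (cent_symm (e.ge.trans inf_le_right))
      rw [h12, hE.2.2.1, hE.2.2.2]; exact hpp
    · rw [h12, hE.2.2.1, hE.2.2.2]
  have h16 := coprime_odd_faithful_Ohm1 hpp hp (hR'.of_le hC) hAC ((hR'.of_le hC).coprime hA') h15
  rw [← h9]
  refine congrArg (fun X : Subgroup G => Nat.card X) (le_antisymm ?_ hS)
  rw [← hRA]
  nth_rw 1 [← h6]
  rw [comm_sup_cent_left (cent_symm h16) (norm_of_cent h7)]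
  exact comm_le_left hAS

end Cfsg.Agent.S1454
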