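import Cfsg.Statements.S1455
import Cfsg.Agent.Lib.Odd.BG5
import Cfsg.Agent.S1450

set_option autoImplicit false
open Cfsg

namespace Cfsg.Agent.S1455

open CA.BG CA.BG4 Subgroup

/-- Let G be a solvable group of odd order, p a prime dividing its order, and S a Sylow p-subgroup of G that is narrow; if S has an elementary abelian subgroup of order p ^ 3 assume also G = O_{p',p,p'}(G). Then every prime dividing the index of O_{p'}(G) is at most p; if p = 3 or p is the smallest prime divisor of #G then G has a normal p-complement; G' has a normal p-complement; every subgroup of G' of order coprime to p lies in O_{p'}(G'); and G' ≤ O_{p',p}(G) with the index of O_{p',p}(G) coprime to p. -/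
theorem result {G : Type*} [Group G] [Finite G] [Group.IsSolvable G] (hodd : Odd (Nat.card G)) (p : ℕ) [Fact p.Prime] (hpG : p ∣ Nat.card G) (S : Sylow p G) (hS : Cfsg.IsNarrow p ↥(S : Subgroup G))
    (hpl : ¬ Cfsg.PRankLE p 2 ↥(S : Subgroup G) → Cfsg.PLengthLE p 1 G) :
    (∀ q : ℕ, q.Prime → q ∣ (Cfsg.pPrimeCore p G).index → q ≤ p) ∧
      ((p = 3 ∨ ∀ q : ℕ, q.Prime → q ∣ Nat.card G → p ≤ q) → Cfsg.HasNormalPComplement p G) ∧
      Cfsg.HasNormalPComplement p ↥(commutator G) ∧
      (∀ L : Subgroup ↥(commutator G), (Nat.card L).Coprime p → L ≤ Cfsg.pPrimeCore p ↥(commutator G)) ∧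
      commutator G ≤ Cfsg.pPrimePCore p G ∧ ((Cfsg.pPrimePCore p G).index).Coprime p := by
  have hpp : p.Prime := Fact.out
  have h0 := syl_top hpp S
  have ho := odd_of_top hodd ⊤
  obtain ⟨h1, h2, h3, h4⟩ := narrow_der1_complement_max_pdiv hpp (solv_top ⊤) ho h0
    ((narrow_iff_isNarrow hpp (ne_two_of_odd ho (by rwa [card_top])) h0.pi).2 hS)
    fun h => (PL1_top hpp).2 (hpl fun h' => (prankLE_iff hpp).1 h' h)
  exact S1450.conv hodd hpp h1 h2 h3 h4

end Cfsg.Agent.S1455
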