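import Cfsg.Statements.S1458
import Cfsg.Agent.Lib.Loc.H6Stab

set_option autoImplicit false
open Cfsg

set_option linter.unusedVariables false
set_option linter.unusedSimpArgs false
set_option linter.style.haveILetI false

namespace Cfsg.Agent.S1458

open CA.H6Stab CA.H6PSolv CA.H6ZJ CA.H6Op CA.H6J CA.Amb CA.AmbSyl CA.AmbCore CA.AmbRes CA.AmbChar Subgroup

/-- Let G be a solvable group of odd order, p a prime and S a Sylow p-subgroup of G. Then the subgroup generated by the centre of the Thompson subgroup of S and O_{p'}(G) is normal in G. -/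
theorem result {G : Type*} [Group G] [Finite G] [Group.IsSolvable G] (hodd : Odd (Nat.card G)) (p : ℕ) [Fact p.Prime] (S : Sylow p G) :
    (Cfsg.centerThompsonOf p (S : Subgroup G) ⊔ Cfsg.pPrimeCore p G).Normal := by
  by_cases hp2 : p = 2
  · subst hp2
    have : Cfsg.pPrimeCore 2 G = ⊤ := CA.Core.pPrimeCore_eq_top_iff.2 (Nat.coprime_two_right.2 hodd)
    rw [this, sup_top_eq]; infer_instance
  rw [centerThompsonOf_eq, ← π_ker]
  refine sup_normal_of_map π_surj ?_
  rw [← ZJ_map' (inf_π_ker S.isPGroup')]
  have h1 := (sylIn_top S).map (π p G)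
  rw [map_top_of_surjective _ π_surj] at h1
  refine normal_of_top_le (zj_Z hp2 dvd_rfl h1
    (charP_quot_of_psolv (psolv_of_isSolvable inferInstance)) fun V _ hn hV => stab_of_odd hp2 hV hn ?_)
  rw [card_top]
  exact hodd.of_dvd_nat (card_quotient_dvd_card _)

end Cfsg.Agent.S1458
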