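import Cfsg.Statements.S1461
import Cfsg.Agent.Lib.Odd.BG6

set_option autoImplicit false
open Cfsg

namespace Cfsg.Agent.S1461

open CA.BG CA.OQuo Subgroup

/-- Let G be a finite solvable group, p a prime with G = O_{p',p,p'}(G), and S a Sylow p-subgroup. Then: if S ≤ G' then S ≤ [N_G(S), N_G(S)]; if Y ⊆ S and xYx⁻¹ ⊆ S then x = g c for some g ∈ N_G(S) and c centralizing Y; and for every p-subgroup Q there is x ∈ C_G(Q ∩ S) with xQx⁻¹ ≤ S. -/
theorem result {G : Type*} [Group G] [Finite G] [Group.IsSolvable G] (p : ℕ) [Fact p.Prime] (hpl : Cfsg.PLengthLE p 1 G) (S : Sylow p G) :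
    ((S : Subgroup G) ≤ commutator G → (S : Subgroup G) ≤ ⁅Subgroup.normalizer ((S : Subgroup G) : Set G), Subgroup.normalizer ((S : Subgroup G) : Set G)⁆) ∧
      (∀ (Y : Set G) (x : G), Y ⊆ (S : Subgroup G) → (fun y => x * y * x⁻¹) '' Y ⊆ (S : Subgroup G) →
        ∃ g ∈ Subgroup.normalizer ((S : Subgroup G) : Set G), ∃ c ∈ Subgroup.centralizer Y, g * c = x) ∧
      ∀ Q : Subgroup G, IsPGroup p Q → ∃ x ∈ Subgroup.centralizer ((Q ⊓ (S : Subgroup G) : Subgroup G) : Set G), Q.map (MulAut.conj x).toMonoidHom ≤ (S : Subgroup G) := by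
  have hpp : p.Prime := Fact.out
  have h := (PL1_top hpp).2 hpl
  have hS := syl_top hpp S
  refine ⟨fun h1 => ?_, fun Y x h1 h2 => ?_, fun Q hQ => ?_⟩
  · have := plength1_Sylow_der1 hpp h hS
    rw [top_inf_eq] at this
    exact (le_inf le_rfl h1).trans (this.le.trans inf_le_right)
  · obtain ⟨g, hg, c, hc, e⟩ := plength1_Sylow_trans hpp h hS (Y := closure Y)
      ((closure_le _).2 h1) (mem_top x) (by rw [cj_closure]; exact (closure_le _).2 h2)
    exact ⟨g, hg.2, c, centralizer_le Subgroup.subset_closure hc.2, e.symm⟩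
  · obtain ⟨x, hx, h1⟩ := plength1_Sylow_Jsub hpp h hS le_top (isPi_of_isPGroup hpp hQ)
    exact ⟨x, hx.2, h1⟩

end Cfsg.Agent.S1461
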