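import Cfsg.Statements.S1463
import Cfsg.Agent.Lib.Odd.BGRep4

set_option autoImplicit false
open scoped MatrixGroups
open Cfsg

namespace Cfsg.Agent.S1463

open CA.BG CA.OQuo Subgroup

/-- Let F be a field of odd characteristic p and H a finite subgroup of odd order of GL(2, F) that leaves no 1-dimensional subspace of F² invariant. Then p does not divide the order of H. -/
theorem result {F : Type*} [Field F] (p : ℕ) [Fact p.Prime] [CharP F p] (hp : p ≠ 2)
    (H : Subgroup (GL (Fin 2) F)) [Finite H] (hodd : Odd (Nat.card H))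
    (hirr : ∀ v : Fin 2 → F, v ≠ 0 → ∃ g ∈ H, (g : Matrix (Fin 2) (Fin 2) F).mulVec v ∉ Submodule.span F {v}) :
    ¬ p ∣ Nat.card H := by
  intro hd
  have hpp : p.Prime := Fact.out
  obtain ⟨g, hg⟩ := exists_prime_orderOf_dvd_card' p hd
  let K := AlgebraicClosure F
  let ι : F →+* K := algebraMap F K
  have hι : Function.Injective ι := ι.injective
  let φ : H →* GL (Fin 2) K := (Matrix.GeneralLinearGroup.map ι).comp H.subtype
  obtain ⟨v, hv, h1⟩ := CA.BGRep.exists_eigvec_GL2 hodd φ
  have hφ : ∀ (h : H) i j, (φ h : Matrix (Fin 2) (Fin 2) K) i j =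
      ι (((h : GL (Fin 2) F) : Matrix (Fin 2) (Fin 2) F) i j) := fun _ _ _ => rfl
  obtain ⟨c, hc⟩ := h1 g
  have hpow : ∀ n : ℕ, (φ (g ^ n) : Matrix (Fin 2) (Fin 2) K).mulVec v = c ^ n • v := by
    intro n
    induction n with
    | zero => simp
    | succ n ih =>
      rw [pow_succ, map_mul, Units.val_mul, ← Matrix.mulVec_mulVec, hc, Matrix.mulVec_smul, ih,
        smul_smul, pow_succ, mul_comm]
  have hc1 : c = 1 := by
    have h2 := hpow p
    rw [← hg, pow_orderOf_eq_one, hg, map_one, Units.val_one, Matrix.one_mulVec] at h2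
    have h3 : (c ^ p - 1) • v = 0 := by rw [sub_smul, ← h2, one_smul, sub_self]
    have h4 : c ^ p - 1 = 0 := (smul_eq_zero.1 h3).resolve_right hv
    have h5 : (c - 1) ^ p = 0 := by rw [sub_pow_char, one_pow, h4]
    exact sub_eq_zero.1 (pow_eq_zero_iff hpp.ne_zero |>.1 h5)
  subst hc1
  -- a vector over `F` proportional to `v`
  have key : ∀ a b : F, (a ≠ 0 ∨ b ≠ 0) → ι a * v 0 + ι b * v 1 = 0 → False := by
    intro a b hab e
    have hw : (![b, -a] : Fin 2 → F) ≠ 0 := by
      intro h
      have h0 := congrFun h 0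
      have h1 := congrFun h 1
      simp at h0 h1
      tauto
    obtain ⟨x, hx, hx'⟩ := hirr _ hw
    apply hx'
    obtain ⟨d, hd⟩ := h1 ⟨x, hx⟩
    have d0 := congrFun hd 0
    have d1 := congrFun hd 1
    simp only [Matrix.mulVec, dotProduct, Fin.sum_univ_two, hφ, Pi.smul_apply, smul_eq_mul] at d0 d1
    set y := (x : Matrix (Fin 2) (Fin 2) F).mulVec ![b, -a] with hy
    have y0 : y 0 = (x : Matrix (Fin 2) (Fin 2) F) 0 0 * b - (x : Matrix (Fin 2) (Fin 2) F) 0 1 * a := by
      simp [hy, Matrix.mulVec, dotProduct, Fin.sum_univ_two]; ring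
    have y1 : y 1 = (x : Matrix (Fin 2) (Fin 2) F) 1 0 * b - (x : Matrix (Fin 2) (Fin 2) F) 1 1 * a := by
      simp [hy, Matrix.mulVec, dotProduct, Fin.sum_univ_two]; ring
    have hdet : a * y 0 + b * y 1 = 0 := by
      apply hι
      rw [y0, y1]
      simp only [map_add, map_mul, map_sub, map_zero]
      have hv' : v 0 ≠ 0 ∨ v 1 ≠ 0 := by
        by_contra h
        push Not at h
        exact hv (funext fun i => by fin_cases i <;> simp [h.1, h.2])
      rcases hv' with h | h
      · apply mul_left_cancel₀ h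
        linear_combination (ι a * ι b) * d0 * 0 + ι b * (ι a * d0 + ι b * d1) + (ι b * d) * e -
          (ι a * ι (x.val 0 1) + ι b * ι (x.val 1 1)) * e
      · apply mul_left_cancel₀ h
        linear_combination (-ι a) * (ι a * d0 + ι b * d1) - (ι a * d) * e +
          (ι a * ι (x.val 0 0) + ι b * ι (x.val 1 0)) * e
    rw [Submodule.mem_span_singleton]
    rcases hab with h | h
    · refine ⟨-(y 1 / a), funext fun i => ?_⟩
      fin_cases i
      · simp; field_simp; linear_combination -hdet
      · simp; field_simp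
    · refine ⟨y 0 / b, funext fun i => ?_⟩
      fin_cases i
      · simp; field_simp
      · simp; field_simp; linear_combination -hdet
  have c0 := congrFun hc 0
  have c1 := congrFun hc 1
  simp only [Matrix.mulVec, dotProduct, Fin.sum_univ_two, hφ, Pi.smul_apply, smul_eq_mul] at c0 c1
  set m := ((g : GL (Fin 2) F) : Matrix (Fin 2) (Fin 2) F) with hm
  by_cases r0 : m 0 0 - 1 ≠ 0 ∨ m 0 1 ≠ 0
  · exact key _ _ r0 (by rw [map_sub, map_one]; linear_combination c0)
  by_cases r1 : m 1 0 ≠ 0 ∨ m 1 1 - 1 ≠ 0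
  · exact key _ _ r1 (by rw [map_sub, map_one]; linear_combination c1)
  push Not at r0 r1
  have : g = 1 := by
    refine Subtype.ext (Units.ext ?_)
    ext i j
    fin_cases i <;> fin_cases j <;>
      simp [← hm, r0.2, r1.1, sub_eq_zero.1 r0.1, sub_eq_zero.1 r1.2]
  rw [this, orderOf_one] at hg
  exact hpp.one_lt.ne hg

end Cfsg.Agent.S1463
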