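import Cfsg.Statements.S1466
import Cfsg.Agent.Lib.Odd.BG6a

set_option autoImplicit false
open Cfsg

namespace Cfsg.Agent.S1466

open CA.BG CA.OQuo Subgroup

theorem puig_top {G : Type*} [Group G] [Finite G] : Puig (⊤ : Subgroup G) = puigSubgroup G := by
  rw [Puig_eq]; simp only [PSeq_top]; rfl

theorem puigL_top {G : Type*} [Group G] [Finite G] : PuigL (⊤ : Subgroup G) = puigLower G := by
  rw [PuigL_eq]; simp only [PSeq_top]; rfl

/-- Let p be a prime and R a nontrivial finite p-group. Then for every i > 0, Z(R) ≤ C_R(L_i(R)) ≤ L_i(R); likewise Z(R) ≤ C_R(L_*(R)) ≤ L_*(R) and Z(R) ≤ C_R(L(R)) ≤ L(R); and L(R) ≠ 1, L_*(R) ≠ 1. -/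
theorem result {R : Type*} [Group R] [Finite R] (p : ℕ) [Fact p.Prime] (hR : IsPGroup p R) [Nontrivial R] :
    (∀ i : ℕ, 0 < i → Subgroup.center R ≤ Subgroup.centralizer ((Cfsg.puigSeq R i : Subgroup R) : Set R) ∧
        Subgroup.centralizer ((Cfsg.puigSeq R i : Subgroup R) : Set R) ≤ Cfsg.puigSeq R i) ∧
      (Subgroup.center R ≤ Subgroup.centralizer ((Cfsg.puigLower R : Subgroup R) : Set R) ∧ Subgroup.centralizer ((Cfsg.puigLower R : Subgroup R) : Set R) ≤ Cfsg.puigLower R) ∧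
      (Subgroup.center R ≤ Subgroup.centralizer ((Cfsg.puigSubgroup R : Subgroup R) : Set R) ∧ Subgroup.centralizer ((Cfsg.puigSubgroup R : Subgroup R) : Set R) ≤ Cfsg.puigSubgroup R) ∧
      Cfsg.puigSubgroup R ≠ ⊥ ∧ Cfsg.puigLower R ≠ ⊥ := by
  have hn : Group.IsNilpotent (⊤ : Subgroup R) := by
    haveI := hR.isNilpotent; infer_instance
  have h0 : ∀ X : Subgroup R, center R ≤ 𝓒(X) := fun X => center_le_centralizer _
  have h1 : ∀ X : Subgroup R, 𝓒(PStep ⊤ X) ≤ PStep ⊤ X := fun X => by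
    have := cent_PStep_le hn (X := X) le_top
    rwa [top_inf_eq] at this
  have h2 : 𝓒(puigLower R) ≤ puigLower R := by rw [← puigL_top, ← PStep_Puig]; exact h1 _
  have h3 : 𝓒(puigSubgroup R) ≤ puigSubgroup R := by rw [← puig_top, ← PStep_PuigL]; exact h1 _
  have h4 : ∀ X : Subgroup R, 𝓒(X) ≤ X → X ≠ ⊥ := fun X h e => by
    rw [e, cent_bot] at h
    exact top_ne_bot (le_bot_iff.1 h)
  refine ⟨fun i hi => ⟨h0 _, ?_⟩, ⟨h0 _, h2⟩, ⟨h0 _, h3⟩, h4 _ h3, h4 _ h2⟩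
  obtain ⟨j, rfl⟩ := Nat.exists_eq_succ_of_ne_zero hi.ne'
  rw [← PSeq_top, Nat.succ_eq_add_one, PSeq_succ]; exact h1 _

end Cfsg.Agent.S1466
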