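import Cfsg.Statements.S1469
import Cfsg.Agent.Lib.Odd.BG6a

set_option autoImplicit false
open Cfsg

namespace Cfsg.Agent.S1469

open CA.BG CA.OQuo Subgroup

/-- Let p be an odd prime, G a solvable group of odd order and S a Sylow p-subgroup, and let Z be the centre of the Puig subgroup L(S), viewed inside G. Then G is generated by O_{p'}(G) and N_G(Z); and if O_{p'}(G) = 1 then Z is normal in G. -/
theorem result {G : Type*} [Group G] [Finite G] [Group.IsSolvable G] (hodd : Odd (Nat.card G)) (p : ℕ) [Fact p.Prime] (hp : p ≠ 2) (S : Sylow p G) :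
    Cfsg.pPrimeCore p G ⊔ Subgroup.normalizer ((((Subgroup.center ↥(Cfsg.puigSubgroup ↥(S : Subgroup G))).map (Cfsg.puigSubgroup ↥(S : Subgroup G)).subtype).map (S : Subgroup G).subtype : Subgroup G) : Set G) = ⊤ ∧
      (Cfsg.pPrimeCore p G = ⊥ → (((Subgroup.center ↥(Cfsg.puigSubgroup ↥(S : Subgroup G))).map (Cfsg.puigSubgroup ↥(S : Subgroup G)).subtype).map (S : Subgroup G).subtype).Normal) := by
  have hpp : p.Prime := Fact.out
  have e : ((center ↥(puigSubgroup ↥(S : Subgroup G))).map
      (puigSubgroup ↥(S : Subgroup G)).subtype).map (S : Subgroup G).subtype =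
      𝓩(Puig (S : Subgroup G)) := by
    rw [map_center]
    have := mim_center (f := (S : Subgroup G).subtype.comp (⊤ : Subgroup (S : Subgroup G)).subtype)
      (S := puigSubgroup ↥(S : Subgroup G)) le_top (by rw [mker_top_comp, ker_subtype, inf_bot_eq])
    rw [mim_top_comp, mim_top_comp] at this
    exact this
  rw [e]
  refine ⟨?_, fun h => normal_of_top_le_norm (Puig_center_normal hpp (solv_top _)
    (odd_of_top hodd _) (syl_top hpp S) ((core_p'_top hpp).trans h))⟩
  have := Puig_factorisation hpp (solv_top _) (odd_of_top hodd _) (syl_top hpp S)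
  rwa [core_p'_top hpp, top_inf_eq] at this

end Cfsg.Agent.S1469
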