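import Cfsg.Statements.S1480
import Cfsg.Agent.Lib.Grp.H4Bend
import Cfsg.Agent.Lib.Odd.BG7a

set_option autoImplicit false
open Cfsg

namespace Cfsg.Agent.S1480


open Subgroup CA.BG CA.H4Bend

/-- Let G be a finite group and p a prime such that the normalizer of every nontrivial p-subgroup of G is p-constrained; if p = 2 assume also that the Sylow 2-subgroups of G have nilpotency class at most 2. Let E be an abelian p-subgroup containing an elementary abelian subgroup of order p ^ 3 and containing every element of p-power order of C_G(E). Then for every prime q ≠ p, any two maximal E-invariant q-subgroups of G are conjugate by an element of O_{p'}(C_G(E)). -/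
theorem result {G : Type*} [Group G] [Finite G] (p : ℕ) [Fact p.Prime]
    (hloc : ∀ T : Subgroup G, IsPGroup p T → T ≠ ⊥ → Cfsg.IsPConstrained p ↥(Subgroup.normalizer (T : Set G)))
    (h2 : p = 2 → ∀ S : Sylow p G, Group.IsNilpotent (S : Subgroup G) ∧ Group.nilpotencyClass (S : Subgroup G) ≤ 2)
    (E : Subgroup G) (hEp : IsPGroup p E) (hEc : IsMulCommutative E) (hE3 : ¬ Cfsg.PRankLE p 2 E)
    (hEfull : ∀ x ∈ Subgroup.centralizer (E : Set G), IsPGroup p (Subgroup.zpowers x) → x ∈ E)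
    (q : ℕ) [Fact q.Prime] (hqp : q ≠ p) :
    ∀ Q₁ ∈ Cfsg.maxInvSubgroups ⊤ E {q}, ∀ Q₂ ∈ Cfsg.maxInvSubgroups ⊤ E {q},
        ∃ k ∈ Cfsg.piCoreOf (Cfsg.primesNotDvd p) (Subgroup.centralizer (E : Set G)), Q₂ = Q₁.map (MulAut.conj k).toMonoidHom := by
  have hp : p.Prime := Fact.out
  have hq : q.Prime := Fact.out
  have hE := isPi_of_isPGroup hp hEp
  obtain ⟨A, hAE, hA⟩ : PRk p 3 E := by
    by_contra e
    exact hE3 ((prankLE_iff hp).2 e)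
  have hf : ∀ T, T ≤ 𝓒(E) → IsPi {p} T → T ≤ E := fun T a b x hx =>
    hEfull x (a hx) ((b.of_le (zpowers_le.2 hx)).isPGroup hp)
  have hcore : ∀ z ∈ E, z ≠ 1 → ∀ Y, IsPi {q} Y → Y ≤ 𝓒₁(z) → E ≤ 𝓝(Y) →
      Y ≤ 𝓞({p}ᶜ, 𝓝(zpowers z)) := by
    intro z hz h1 Y a b c
    have hz' := zpowers_le.2 hz
    have d : E ≤ 𝓝(zpowers z) := norm_of_comm hEc hz'
    refine CA.H4Bend.le_core hp (hloc _ ((hE.of_le hz').isPGroup hp) (by simpa using h1)) hE hEc d ?_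
      (a.ne hqp) (norm_of_cent (cent_zpowers z ▸ b)) c
    by_cases e : p = 2
    · refine Or.inr ⟨fun T a b => hf T (a.trans inf_le_right) b, ?_⟩
      obtain ⟨S, s1, s2⟩ := syl_superset hp hE d
      obtain ⟨T, t1, t2⟩ := syl_superset hp s1.pi le_top
      obtain ⟨T, rfl⟩ := t1.exists_sylow_top hp
      obtain ⟨u1, u2⟩ := h2 e T
      have u3 := classLE_two_iff.1 (lowerCentralSeries_eq_bot_of_nilpotencyClass_le u2)
      exact ⟨S, s1, hf _ ((comm_le_der t2 (s2.trans t2)).trans (u3.trans (cent_anti (s2.trans t2))))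
        (s1.pi.of_le (comm_le_of_le le_rfl s2))⟩
    · exact Or.inl ⟨e, fun x hx e => hf _ (zpowers_le.2 hx.2) (isPi_zpowers.2
        (((piNat_prime (π := {p}) hp).2 rfl).of_dvd (orderOf_dvd_of_pow_eq_one e))) (mem_zpowers x)⟩
  suffices ∀ n, ∀ Q₁ ∈ maxInvSubgroups ⊤ E {q}, ∀ Q₂ ∈ maxInvSubgroups ⊤ E {q},
      Nat.card G - ♯(Q₁ ⊓ Q₂) = n → ∃ k ∈ 𝓞(primesNotDvd p, 𝓒(E)), Q₂ = cj k Q₁ from
    fun Q₁ h₁ Q₂ h₂ => this _ Q₁ h₁ Q₂ h₂ rfl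
  intro n
  induction n using Nat.strong_induction_on with
  | _ n ih =>
  intro Q₁ h₁ Q₂ h₂ hn
  by_cases h12 : Q₁ ≤ Q₂
  · exact ⟨1, one_mem _, by rw [minv_eq h₁ h₂ h12, cj_of_mem (one_mem _)]⟩
  by_cases h21 : Q₂ ≤ Q₁
  · exact ⟨1, one_mem _, by rw [minv_eq h₂ h₁ h21, cj_of_mem (one_mem _)]⟩
  have l1 := lt_norm_of_nilpotent ((minv_pi h₁).isNilpotent hq) (inf_lt_left.2 h12)
  have l2 := lt_norm_of_nilpotent ((minv_pi h₂).isNilpotent hq) (inf_lt_right.2 h21)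
  have hD : IsPi {q} (Q₁ ⊓ Q₂) := (minv_pi h₁).inf_left _
  have hED := norm_inf (minv_norm h₁) (minv_norm h₂)
  obtain ⟨D, hD'⟩ : ∃ D, D = Q₁ ⊓ Q₂ := ⟨_, rfl⟩
  rw [← hD'] at l1 l2 hD hED hn
  have n1 := norm_inf (minv_norm h₁) (norm_norm hED)
  have n2 := norm_inf (minv_norm h₂) (norm_norm hED)
  have p1 := (minv_pi h₁).inf_left 𝓝(D)
  have p2 := (minv_pi h₂).inf_left 𝓝(D)
  obtain ⟨C, c1, c2, c3⟩ := cop_exists_cent_el hp hA (hAE.trans n1)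
    ((hA.pi hp).coprime_ne p1 hqp.symm) l1.not_ge
  obtain ⟨z, z1, z2, z3⟩ := cop_exists_cent1 c2.comm (c2.not_cyclic hp)
    ((c1.trans hAE).trans n2) ((c2.pi hp).coprime_ne p2 hqp.symm) l2.not_ge
  replace c3 : ¬ Q₁ ⊓ 𝓝(D) ⊓ 𝓒₁(z) ≤ D := fun e =>
    c3 ((inf_le_inf_left _ (cent_le_cent1 z1)).trans e)
  have zE := hAE (c1 z1)
  have hEz : E ≤ 𝓒₁(z) := le_cent1_iff.2 (comm_iff_le_cent.1 hEc zE)
  have hCz : 𝓒(E) ≤ 𝓝(zpowers z) := norm_of_cent (cent_anti (zpowers_le.2 zE))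
  obtain ⟨L, hL⟩ : ∃ L, L = 𝓞({p}ᶜ, 𝓝(zpowers z)) ⊓ 𝓝(D) := ⟨_, rfl⟩
  have L1 : E ≤ 𝓝(L) := hL ▸ norm_inf (((comm_iff_le_cent.1 hEc).trans hCz).trans
    (le_norm_core _ _)) (norm_norm hED)
  have L2 : (♯L).Coprime ♯E := (hL ▸ (core_pi _ _).inf_left _ : IsPi {p}ᶜ L).coprime' hE
  have L3 : ∀ N, IsPi {q} N → N ≤ 𝓝(D) → E ≤ 𝓝(N) → ∃ P, Syl q P L ∧ E ≤ 𝓝(P) ∧ N ⊓ 𝓒₁(z) ≤ P :=
    fun N a b c => coprime_Sylow_subset hq L1 L2 (Or.inl (hE.isSolvable hp)) (hL ▸ le_inf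
      (hcore z zE z2 _ (a.inf_left _) inf_le_right (norm_inf c (le_norm_of_le hEz)))
      (inf_le_left.trans b)) (a.inf_left _) (norm_inf c (le_norm_of_le hEz))
  obtain ⟨P₁, a1, a2, a3⟩ := L3 _ p1 inf_le_right n1
  obtain ⟨P₂, b1, b2, b3⟩ := L3 _ p2 inf_le_right n2
  obtain ⟨k, ⟨k1, k2⟩, k3⟩ := coprime_Sylow_trans hq L1 L2 (Or.inl (hE.isSolvable hp)) a1 a2 b1 b2
  rw [hL] at k1
  have hk : k ∈ 𝓞(primesNotDvd p, 𝓒(E)) := by
    refine CA.BG.le_core (K := 𝓞({p}ᶜ, 𝓝(zpowers z)) ⊓ 𝓒(E)) (((core_pi _ _).inf_left _).mono'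
      fun r hr _ e => And.intro hr fun e' => e ((Nat.prime_dvd_prime_iff_eq hr hp).1 e')) inf_le_right
      (norm_inf (hCz.trans (le_norm_core _ _)) (le_norm_self _)) ⟨k1.1, k2⟩
  have b4 : P₂ ≤ 𝓝(D) := b1.le.trans (hL ▸ inf_le_right)
  obtain ⟨Q₃, h₃, q3⟩ := minv_exists (b1.pi.sup hD b4) (norm_sup b2 hED)
  have d : ∀ X : Subgroup G, D ≤ X → ¬ X ≤ D → Nat.card G - ♯X < n := fun X a b => by
    have := Subgroup.card_le_card_group X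
    have := card_lt_of_lt (lt_of_le_not_ge a b)
    omega
  obtain ⟨k1', hk1, e1⟩ := ih _ (d (cj k Q₁ ⊓ Q₃) (le_inf ((cj_of_mem_norm k1.2).ge.trans
    (cj_mono k (hD' ▸ inf_le_left))) (le_sup_right.trans q3)) fun e => c3 (by
      rw [← cj_le_cj (g := k), cj_of_mem_norm k1.2]
      exact (le_inf (cj_mono k (inf_le_left.trans inf_le_left)) ((cj_mono k a3).trans
        (k3.le.trans (le_sup_left.trans q3)))).trans e)) _ (minv_cj h₁ (cent_le_norm E k2)) _ h₃ rfl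
  obtain ⟨k2', hk2, e2⟩ := ih _ (d (Q₃ ⊓ Q₂) (le_inf (le_sup_right.trans q3) (hD' ▸ inf_le_right))
    fun e => z3 ((le_inf (b3.trans (le_sup_left.trans q3)) (inf_le_left.trans inf_le_left)).trans e))
    _ h₃ _ h₂ rfl
  exact ⟨k2' * k1' * k, mul_mem (mul_mem hk2 hk1) hk, by rw [cj_mul, cj_mul, ← e1, ← e2]⟩

end Cfsg.Agent.S1480
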