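import Cfsg.Statements.S1481
import Cfsg.Agent.Lib.Loc.AmbChar
import Cfsg.Agent.Lib.Loc.AmbT2
-- import your own Cfsg.Agent.* helpers here

set_option autoImplicit false
open Cfsg

namespace Cfsg.Agent.S1481

/-- Let G be a finite group and H a local subgroup (the normalizer of a nontrivial subgroup of prime-power order) not properly contained in any local subgroup; let F = F(H), suppose at least two primes divide #F, put X = H ∩ C_G(F), let M ≤ F with F ∩ C_G(M) ≤ M, and let R be a solvable subgroup normalized by M and by X. Then for every prime q not dividing #F there is exactly one maximal M-invariant q-subgroup of R, and it is a Sylow q-subgroup of the largest normal subgroup of R of order coprime to #F. -/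
theorem result {G : Type*} [Group G] [Finite G] (H : Subgroup G) (hH : Cfsg.IsLocalSubgroup H) (hHmax : ∀ L : Subgroup G, Cfsg.IsLocalSubgroup L → H ≤ L → L = H)
    (hF2 : 2 ≤ (Nat.card (Cfsg.fittingOf H)).primeFactors.card)
    (M : Subgroup G) (hM : M ≤ Cfsg.fittingOf H) (hCM : Cfsg.fittingOf H ⊓ Subgroup.centralizer (M : Set G) ≤ M)
    (R : Subgroup G) (hR : Group.IsSolvable R) (hMR : M ≤ Subgroup.normalizer (R : Set G))
    (hXR : H ⊓ Subgroup.centralizer (Cfsg.fittingOf H : Set G) ≤ Subgroup.normalizer (R : Set G))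
    (q : ℕ) [Fact q.Prime] (hq : ¬ q ∣ Nat.card (Cfsg.fittingOf H)) :
    ∃! Q : Subgroup G, Q ∈ Cfsg.maxInvSubgroups R M {q} ∧
      (∀ Q' : Subgroup G, Q' ∈ Cfsg.maxInvSubgroups R M {q} →
        Q' ≤ Cfsg.piCoreOf (Cfsg.primesNotDvd (Nat.card (Cfsg.fittingOf H))) R ∧
        ¬ q ∣ Q'.relIndex (Cfsg.piCoreOf (Cfsg.primesNotDvd (Nat.card (Cfsg.fittingOf H))) R)) := by
  open Subgroup Cfsg CA CA.Amb CA.AmbSyl CA.AmbCore CA.AmbRes CA.AmbChar CA.AmbFs CA.AmbSpe CA.AmbIso CA.LBal2 CA.AmbT2 in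
  open scoped commutatorElement in
  (
  change FL H ⊓ _ ≤ M at hCM
  change M ≤ FL H at hM
  change ¬ q ∣ Nat.card (FL H) at hq
  have nF : H ≤ 𝐍 (FL H) := norm_FL le_normalizer
  have Z : ∀ p : ℕ, p.Prime → p ∣ Nat.card (FL H) → ∃ Z : Subgroup G, IsPGroup p Z ∧ Z ≤ M ∧ Z ≤ 𝐂 M ∧ 𝐍 Z = H := fun p hp h => by
    haveI := Fact.mk hp
    have c := (BendM.Z_le_cent (p := p) H).trans (centralizer_anti (hM.trans (FL_le_FS H)))
    have g := (isPGroup_pCoreOf p H).to_le (inf_le_left (b := 𝐂 (pCoreOf p H)))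
    exact ⟨_, g, (le_inf (inf_le_left.trans (pCoreOf_le_FL H)) c).trans hCM, c, hHmax _
      ⟨p, _, hp, g, center_ne_bot (isPGroup_pCoreOf p H) (BendM.core_ne_iff.2 h), rfl⟩
      (norm_inf (norm_pCoreOf p H) (norm_centralizer (norm_pCoreOf p H)))⟩
  have A : ∀ Y, Y ≤ R → Y ≤ H → M ≤ 𝐍 Y → (Nat.card Y).Coprime (Nat.card (FL H)) → Y = ⊥ := fun Y h1 h2 n co => by
    have b := disjoint_iff.1 (disjoint_of_coprime_natCard co)
    have c := BendM.cent_of_selfcent (isNilpotent_FL H) hM hCM (h2.trans nF) (commutator_eq_bot_iff'.1 (le_bot_iff.1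
      (b ▸ le_inf (commutator_le_right_of_norm n) ((commutator_mono hM le_rfl).trans
        (commutator_le_left_of_norm (h2.trans nF)))))) co
    have s : SN H (R ⊓ (H ⊓ 𝐂 (FL H))) := (SN.of_norm inf_le_left (norm_inf le_normalizer (norm_centralizer nF))).trans
      (SN.of_norm inf_le_right (norm_inf hXR le_normalizer))
    have l := AmbFs.SN.FL_le s
    exact le_bot_iff.1 (b ▸ le_inf le_rfl ((le_inf (le_inf h1 (le_inf h2 c)) (c.trans (centralizer_anti l))).trans
      ((Fitting.inf_centralizer_map_fitting_le (Core.isSolvable_of_le inf_le_left hR)).trans l)))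
  have B : ∀ Q Z : Subgroup G, Q ≤ R → M ≤ 𝐍 Q → (Nat.card Q).Coprime (Nat.card (FL H)) → Z ≤ 𝐂 M → 𝐍 Z = H →
      Q ⊓ 𝐂 Z = ⊥ := fun Q Z h n co c e => A _ (inf_le_left.trans h) (inf_le_right.trans (e ▸ norm_of_centralizer le_rfl))
    (norm_inf n (norm_centralizer (norm_of_centralizer (cent_symm c)))) (Core.coprime_card_of_le inf_le_left co)
  have sW := Core.isSolvable_sup hMR (BendM.solv_of_nil (BendM.nil_of_le (isNilpotent_FL H) hM)) hR
  have C : ∀ Q : Subgroup G, Q ≤ R → M ≤ 𝐍 Q → (Nat.card Q).Coprime (Nat.card (FL H)) →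
      Q ≤ piCoreOf (primesNotDvd (Nat.card (FL H))) R := fun Q h n co => by
    refine (le_ncl Q R).trans (Core.le_map_piCore (ncl_le_of_le h) (norm_ncl _ _) fun p hp d => ⟨hp, fun k => ?_⟩)
    haveI := Fact.mk hp
    obtain ⟨r, hr, rp⟩ := Finset.exists_mem_ne hF2 p
    obtain ⟨Y, y1, y2, y3, y4⟩ := Z p hp k
    obtain ⟨X, x1, x2, x3, x4⟩ := Z r (Nat.prime_of_mem_primeFactors hr) (Nat.dvd_of_mem_primeFactors hr)
    haveI := Fact.mk (Nat.prime_of_mem_primeFactors hr)
    have l : X ≤ OQ p (M ⊔ R) := (le_OQ (le_inf (x2.trans le_sup_left) (x3.trans (centralizer_anti y2)))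
      (inf_le_right.trans (by rw [x4, ← y4]; exact norm_of_centralizer le_rfl))
      (coprime_card_of_isPGroup x1 ((Nat.coprime_primes hp Fact.out).2 rp.symm)).symm).trans
        (OQ_cent_le (PComp.pLayer_eq_bot_of_isSolvable sW) y1 (y2.trans le_sup_left))
    have nO : R ≤ 𝐍 (OQ p (M ⊔ R)) := norm_OQ (norm_of_le le_sup_right)
    have := comm_sup_cent_coprime (x2.trans n) (Core.coprime_card_of_le (x2.trans hM) co.symm)
      (Or.inr (Core.isSolvable_of_le h hR))
    rw [B Q X h n co x3 x4, sup_bot_eq] at this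
    exact (Nat.Prime.coprime_iff_not_dvd hp).1 (Core.coprime_card_of_le (ncl_le (this.ge.trans
      ((commutator_mono le_rfl l).trans (commutator_le_right_of_norm (h.trans nO)))) nO) (coprime_OQ p _)).symm d
  have co : ∀ Q : Subgroup G, (∀ p : ℕ, p.Prime → p ∣ Nat.card Q → p ∈ ({q} : Set ℕ)) →
      (Nat.card Q).Coprime (Nat.card (FL H)) := fun Q h =>
    (coprime_card_of_isPGroup (pg_of_primes h) ((Nat.Prime.coprime_iff_not_dvd Fact.out).2 hq).symm).symm
  have lO : piCoreOf (primesNotDvd (Nat.card (FL H))) R ≤ R := map_subtype_le _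
  have nO := hMR.trans (Core.normalizer_le_normalizer_map_piCore (π := primesNotDvd (Nat.card (FL H))) R)
  have cO : (Nat.card (piCoreOf (primesNotDvd (Nat.card (FL H))) R)).Coprime (Nat.card (FL H)) :=
    Nat.coprime_of_dvd fun p hp d => (Core.pi_map_piCore R p hp d).2
  have cM := Core.coprime_card_of_le hM cO.symm
  have sO := Or.inr (a := Group.IsSolvable M) (Core.isSolvable_of_le lO hR)
  obtain ⟨T, hT, nT⟩ := Coprime2.exists_isSylowIn nO cM sO q
  have k : ∀ U ∈ invSubgroups R M {q}, U ≤ T := fun U hU => by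
    obtain ⟨c, hc, l⟩ := Coprime2.exists_centralizer_conj_le nO cM sO hT nT (C U hU.1 hU.2.2 (co U hU.2.1))
      (pg_of_primes hU.2.1) hU.2.2
    obtain ⟨p, hp⟩ := Finset.card_pos.1 (two_pos.trans_le hF2)
    obtain ⟨Y, -, y2, y3, y4⟩ := Z p (Nat.prime_of_mem_primeFactors hp) (Nat.dvd_of_mem_primeFactors hp)
    obtain rfl : c = 1 := (B _ Y lO nO cO y3 y4).le ⟨hc.1, centralizer_anti y2 hc.2⟩
    exact (cj_one U).ge.trans l
  have m : T ∈ invSubgroups R M {q} := ⟨hT.1.trans lO, fun p hp d => eq_of_dvd_pg hT.2.1 hp d, nT⟩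
  have u : ∀ U ∈ maxInvSubgroups R M {q}, U = T := fun U hU => (hU.2 T m (k U hU.1)).symm
  exact ⟨T, ⟨⟨m, fun U hU l => le_antisymm (k U hU) l⟩, fun U hU => u U hU ▸ ⟨hT.1, hT.2.2⟩⟩, fun U hU => u U hU.1⟩)

end Cfsg.Agent.S1481
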