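import Cfsg.Statements.S1492
import Cfsg.Agent.Lib.Odd.PF1

set_option autoImplicit false
open Cfsg

namespace Cfsg.Agent.S1492

open CA.PF CA.BG

/-- Let ψ be an irreducible character of the finite group G and B ≤ D ≤ C subgroups with B normal in C, every commutator of an element of D with an element of C lying in B (so D/B is central in C/B), and ψ constant equal to ψ 1 on B. Then ψ(1) ^ 2 * |C| * |D| ≤ |G| ^ 2. -/
theorem result {G : Type*} [Group G] [Finite G] (ψ : G → ℂ) (hψ : Cfsg.IsIrrCharacter G ψ) (B C D : Subgroup G) (hBD : B ≤ D) (hDC : D ≤ C) (hBn : ∀ c ∈ C, ∀ b ∈ B, c * b * c⁻¹ ∈ B) (hcent : ∀ d ∈ D, ∀ c ∈ C, d * c * d⁻¹ * c⁻¹ ∈ B) (hker : ∀ b ∈ B, ψ b = ψ 1) : ‖ψ 1‖ ^ 2 * (Nat.card C : ℝ) * (Nat.card D : ℝ) ≤ (Nat.card G : ℝ) ^ 2 := by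
  let _ := Fintype.ofFinite G
  have h := mem_irr_top.2 hψ
  obtain ⟨n, -, hn⟩ := irr_one_pos h
  have h1 := irr1_bound_quo h (B := B) (fun b hb => (irr_mem_cfker h).2 (hker b hb)) hDC le_top
    (Subgroup.commutator_le.2 hcent) hn
  have h2 := card_mul_relIndex hDC
  have h3 := C.card_mul_index
  rw [Subgroup.relIndex_top_right] at h1
  rw [hn, Complex.norm_natCast, ← h3]
  norm_cast
  calc n ^ 2 * Nat.card C * Nat.card D ≤ C.index ^ 2 * D.relIndex C * Nat.card C * Nat.card D := by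
        gcongr
    _ = C.index ^ 2 * Nat.card C * (Nat.card D * D.relIndex C) := by ring
    _ = _ := by rw [h2]; ring

end Cfsg.Agent.S1492
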