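import Cfsg.Statements.S1497
import Cfsg.Agent.Lib.Odd.PFDade

set_option autoImplicit false
open Cfsg

namespace Cfsg.Agent.S1497

/-- Let A be a nonempty subset of the finite group G not containing 1 and L a subgroup. Then A is a TI-subset whose normaliser is L if and only if the Dade hypothesis holds for A, L and the constant choice H(a) = ⊥. -/
theorem result {G : Type*} [Group G] [Finite G] (A : Set G) (hA : A.Nonempty) (h1 : (1 : G) ∉ A) (L : Subgroup G) : (Cfsg.IsTISubset A ∧ Subgroup.normalizer A = L) ↔ Cfsg.DadeHypothesis A L (fun _ => ⊥) := by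
  constructor
  · rintro ⟨hTI, rfl⟩
    have key : ∀ a ∈ A, ∀ g : G, g * a * g⁻¹ ∈ A → g ∈ Subgroup.normalizer A := fun a ha g hg =>
      by_contra fun hn => h1 (hTI g hn a ha hg ▸ ha)
    have hc : ∀ a ∈ A, Subgroup.centralizer ({a} : Set G) ≤ Subgroup.normalizer A :=
      fun a ha g hg => key a ha g (by rw [CA.PF.mem_cent1.1 hg]; simpa using ha)
    exact
      { one_not_mem := h1
        subset := fun a ha => key a ha a (by simpa using ha)
        conj_mem := fun x hx a ha => (Subgroup.mem_set_normalizer_iff.1 hx a).1 ha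
        fusion := fun a ha g hg => ⟨g, key a ha g hg, rfl⟩
        le_centralizer := fun _ _ => bot_le
        conj_mem_H := fun a _ c _ u hu => by rw [Subgroup.mem_bot.1 hu]; simp
        inf_eq_bot := fun _ _ => bot_inf_eq _
        sup_eq := fun a ha => by rw [bot_sup_eq, inf_eq_right.2 (hc a ha)]
        coprime := fun _ _ _ _ => by simp }
  · intro hD
    have key : ∀ a ∈ A, ∀ g : G, g * a * g⁻¹ ∈ A → g ∈ L := by
      intro a ha g hg
      obtain ⟨x, hx, e⟩ := hD.fusion a ha g hg
      have hc : x⁻¹ * g ∈ Subgroup.centralizer ({a} : Set G) := by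
        rw [CA.PF.mem_cent1]
        calc x⁻¹ * g * a = x⁻¹ * (g * a * g⁻¹) * g := by group
          _ = _ := by rw [← e]; group
      rw [← hD.sup_eq a ha, bot_sup_eq] at hc
      simpa using L.mul_mem hx hc.1
    have hN : Subgroup.normalizer A = L := by
      apply le_antisymm
      · intro g hg
        obtain ⟨a, ha⟩ := hA
        exact key a ha g ((Subgroup.mem_set_normalizer_iff.1 hg a).1 ha)
      · intro x hx
        exact Subgroup.mem_set_normalizer_iff.2 fun a => (CA.PF.dd_conj_iff hD hx a).symm
    exact ⟨fun g hg x hx hgx => absurd (hN ▸ key x hx g hgx) hg, hN⟩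

end Cfsg.Agent.S1497
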