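import Cfsg.Statements.S1499
import Cfsg.Agent.Lib.Odd.PFDade

set_option autoImplicit false
open Cfsg

namespace Cfsg.Agent.S1499

/-- Under the Dade hypothesis for (A, L, H), let a, b ∈ A. If an element of the coset a·H(a) is conjugate in G to an element of b·H(b), then a and b are conjugate by an element of L. Moreover the set normaliser of the coset a·H(a) is the centraliser of a. -/
theorem result {G : Type*} [Group G] [Finite G] (A : Set G) (L : Subgroup G) (H : G → Subgroup G) (hD : Cfsg.DadeHypothesis A L H) (a b : G) (ha : a ∈ A) (hb : b ∈ A) : ((∃ u ∈ H a, ∃ v ∈ H b, ∃ g : G, g * (a * u) * g⁻¹ = b * v) → ∃ x ∈ L, x * a * x⁻¹ = b) ∧ Subgroup.normalizer ((fun u : G => a * u) '' (H a : Set G)) = Subgroup.centralizer ({a} : Set G) := by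
  constructor
  · rintro ⟨u, hu, v, hv, g, e⟩
    have h1 := (CA.PF.dd_part hD ha hb hu hv e).1
    obtain ⟨x, hx, e2⟩ := hD.fusion a ha g (by rw [h1]; exact hb)
    exact ⟨x, hx, e2.trans h1⟩
  · ext g
    rw [Subgroup.mem_set_normalizer_iff, CA.PF.mem_cent1]
    constructor
    · intro h
      obtain ⟨u, hu, e⟩ := (h a).1 ⟨1, (H a).one_mem, by simp⟩
      have := (CA.PF.dd_part hD ha ha (H a).one_mem hu (g := g) (by simpa using e.symm)).1
      exact mul_inv_eq_iff_eq_mul.1 this
    · intro h y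
      have hg : g * a * g⁻¹ = a := mul_inv_eq_iff_eq_mul.2 h
      constructor
      · rintro ⟨u, hu, rfl⟩
        refine ⟨g * u * g⁻¹, hD.conj_mem_H a ha g (CA.PF.mem_cent1.2 h) u hu, ?_⟩
        conv_lhs => rw [← hg]
        simp only; group
      · rintro ⟨u, hu, e⟩
        refine ⟨g⁻¹ * u * g⁻¹⁻¹, hD.conj_mem_H a ha _
          (Subgroup.inv_mem _ (CA.PF.mem_cent1.2 h)) u hu, ?_⟩
        simp only at e ⊢
        calc a * (g⁻¹ * u * g⁻¹⁻¹) = g⁻¹ * ((g * a * g⁻¹) * u) * g := by group
          _ = y := by rw [hg, e]; group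

end Cfsg.Agent.S1499
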