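import Cfsg.Statements.S1502
import Cfsg.Agent.Lib.Odd.PFRows

set_option autoImplicit false
open Cfsg

namespace Cfsg.Agent.S1502

open CA.PF

/-- Let W₁, W₂ be nontrivial subgroups of the finite group G generating a cyclic subgroup W = W₁ ⊔ W₂ of odd order that is the normaliser of every nonempty set of its elements outside W₁ ∪ W₂. Then there is a family attaching to each linear character ω of W an irreducible character of G up to sign, orthonormal, sending the trivial character to the principal character, with χ ω = ω on W outside W₁ ∪ W₂, and such that inducing (1 − φ)(1 − ψ) to G gives 1 − χ φ − χ ψ + χ (φψ) whenever φ ≠ 1 is trivial on W₂ and ψ ≠ 1 is trivial on W₁. -/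
theorem result {G : Type*} [Group G] [Fintype G] (W₁ W₂ : Subgroup G) (hW : Cfsg.IsSelfNormalizingCyclic W₁ W₂) (hodd : Odd (Nat.card ↥(W₁ ⊔ W₂))) : ∃ χ : (↥(W₁ ⊔ W₂) →* ℂˣ) → (G → ℂ), Cfsg.IsCyclicTIFamily W₁ W₂ χ := by
  have h := cycTI_of_selfNorm hW hodd
  refine ⟨fun ω => eta ⊤ (r₁ ω) (r₂ ω), fun ω => dirr_top.1 (h.eta_Dirr _ _), fun ω ω' => ?_,
    h.eta_one_one.trans triv_top, fun ω w h1 h2 => ?_, fun φ ψ _ _ h2 h1 => ?_⟩
  · rw [← dot_top, h.dot_eta]; simp only [← r_eq_iff]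
  · rw [h.eta_on_V _ _ (mem_cycV.2 ⟨w.2, h1, h2⟩), h.abD.wch_r_apply]
  · rw [← r₂_eq_one] at h2
    rw [← r₁_eq_one] at h1
    rw [← Ind_top, h.abD.ext_alpha h2 h1, h.fam.ind, r₁_mul, r₂_mul, h1, h2, mul_one, one_mul, triv_top]
    rfl

end Cfsg.Agent.S1502
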