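import Cfsg.Statements.S1504
import Cfsg.Agent.Lib.Odd.PFRows

set_option autoImplicit false
open Cfsg

namespace Cfsg.Agent.S1504

open CA.PF

/-- Let W₁, W₂ be subgroups of a finite group with W₁ ⊓ W₂ = ⊥ whose elements commute, and W = W₁ ⊔ W₂. For linear characters φ, ψ of W with φ trivial on W₂ and ψ trivial on W₁, the function (1 − φ)(1 − ψ) vanishes on W₁ ∪ W₂; and the family of these functions, indexed by pairs (φ, ψ) with φ ≠ 1 ≠ ψ, is linearly independent over ℂ. -/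
theorem result {G : Type*} [Group G] [Finite G] (W₁ W₂ : Subgroup G) (hdisj : W₁ ⊓ W₂ = ⊥) (hcomm : ∀ a ∈ W₁, ∀ b ∈ W₂, a * b = b * a) : (∀ φ ψ : ↥(W₁ ⊔ W₂) →* ℂˣ, (∀ w : ↥(W₁ ⊔ W₂), (w : G) ∈ W₂ → φ w = 1) → (∀ w : ↥(W₁ ⊔ W₂), (w : G) ∈ W₁ → ψ w = 1) → ∀ w : ↥(W₁ ⊔ W₂), ((w : G) ∈ W₁ ∨ (w : G) ∈ W₂) → (1 - (φ w : ℂ) - (ψ w : ℂ) + (φ w : ℂ) * (ψ w : ℂ)) = 0) ∧ LinearIndependent ℂ (fun p : {p : (↥(W₁ ⊔ W₂) →* ℂˣ) × (↥(W₁ ⊔ W₂) →* ℂˣ) // p.1 ≠ 1 ∧ p.2 ≠ 1 ∧ (∀ w : ↥(W₁ ⊔ W₂), (w : G) ∈ W₂ → p.1 w = 1) ∧ (∀ w : ↥(W₁ ⊔ W₂), (w : G) ∈ W₁ → p.2 w = 1)} => fun w : ↥(W₁ ⊔ W₂) => 1 - (p.1.1 w : ℂ) - (p.1.2 w : ℂ) + (p.1.1 w : ℂ) * (p.1.2 w : ℂ)) := by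
  classical
  haveI := Fintype.ofFinite G
  refine ⟨fun φ ψ h2 h1 w hw => by rcases hw with hw | hw <;> simp [h1 w, h2 w, hw], ?_⟩
  have o : ∀ a b : ↥(W₁ ⊔ W₂) →* ℂˣ, classInner (fun w => (a w : ℂ)) (fun w => (b w : ℂ)) =
      if a = b then 1 else 0 := fun a b => by
    have := dot_lin (Lin.mk a) (Lin.mk b)
    rw [dot_eq_classInner _ (lin_on _)] at this
    simp only [lin_coe] at this
    split_ifs with e
    · exact this.trans (if_pos e)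
    · exact this.trans (if_neg e)
  refine LinearIndependent.of_pairwise_dual_eq_zero_one _ (fun p =>
    { toFun := fun f => classInner f fun w => ((p.1.1 * p.1.2) w : ℂ)
      map_add' := fun f g => by simp [classInner, add_mul, Finset.sum_add_distrib, mul_add]
      map_smul' := fun c f => by simp [classInner, mul_assoc, ← Finset.mul_sum, mul_left_comm] })
    ?_ ?_ <;>
  have key : ∀ p q : {p : (↥(W₁ ⊔ W₂) →* ℂˣ) × (↥(W₁ ⊔ W₂) →* ℂˣ) // p.1 ≠ 1 ∧ p.2 ≠ 1 ∧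
      (∀ w : ↥(W₁ ⊔ W₂), (w : G) ∈ W₂ → p.1 w = 1) ∧ (∀ w : ↥(W₁ ⊔ W₂), (w : G) ∈ W₁ → p.2 w = 1)},
      classInner (fun w => 1 - (q.1.1 w : ℂ) - (q.1.2 w : ℂ) + (q.1.1 w : ℂ) * (q.1.2 w : ℂ))
        (fun w => ((p.1.1 * p.1.2) w : ℂ)) = if q = p then 1 else 0 := by
    rintro ⟨⟨a, b⟩, ha, hb, a2, b1⟩ ⟨⟨c, d⟩, -, -, c2, d1⟩
    rw [← r₂_eq_one] at a2 c2
    rw [← r₁_eq_one] at b1 d1
    have na : r₁ a ≠ 1 := fun e => ha (r_ext e a2)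
    have nb : r₂ b ≠ 1 := fun e => hb (r_ext b1 e)
    have h := o 1 (a * b)
    have h1 := o c (a * b)
    have h2 := o d (a * b)
    have h3 := o (c * d) (a * b)
    simp only [← r_eq_iff, r₁_mul, r₂_mul, a2, b1, c2, d1, mul_one, one_mul, na.symm, nb.symm,
      and_false, false_and, if_false, show r₂ (1 : ↥(W₁ ⊔ W₂) →* ℂˣ) = 1 from rfl] at h h1 h2 h3
    simp only [Subtype.mk.injEq, Prod.mk.injEq, ← r_eq_iff, a2, b1, c2, d1, and_true, true_and, ← h3]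
    simp only [classInner, MonoidHom.one_apply, Units.val_one, MonoidHom.mul_apply, Units.val_mul,
      add_mul, sub_mul, Finset.sum_add_distrib, Finset.sum_sub_distrib] at h h1 h2 ⊢
    linear_combination h - h1 - h2
  · exact fun p q hpq => (key p q).trans (if_neg hpq.symm)
  · exact fun p => (key p p).trans (if_pos rfl)

end Cfsg.Agent.S1504
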