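import Cfsg.Statements.S1505
import Cfsg.Agent.Lib.Odd.PFRows

set_option autoImplicit false
open Cfsg

namespace Cfsg.Agent.S1505

open CA.PF

open Classical in
/-- Let W₁, W₂ ≤ G form a self-normalising cyclic subgroup W = W₁ ⊔ W₂. For nontrivial linear characters φ, φ' of W trivial on W₂ and ψ, ψ' trivial on W₁, put α = (1 − φ)(1 − ψ) and α' = (1 − φ')(1 − ψ'). Then the function induced from α to G has inner product 1 with the principal character, and the inner product of the functions induced from α and α' is 1 + a + b + ab where a = 1 if φ = φ' (else 0) and b = 1 if ψ = ψ' (else 0). -/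
theorem result {G : Type*} [Group G] [Fintype G] (W₁ W₂ : Subgroup G) (hW : Cfsg.IsSelfNormalizingCyclic W₁ W₂) (φ φ' ψ ψ' : ↥(W₁ ⊔ W₂) →* ℂˣ) (hφ : φ ≠ 1) (hφ' : φ' ≠ 1) (hψ : ψ ≠ 1) (hψ' : ψ' ≠ 1) (hφ₂ : ∀ w : ↥(W₁ ⊔ W₂), (w : G) ∈ W₂ → φ w = 1 ∧ φ' w = 1) (hψ₁ : ∀ w : ↥(W₁ ⊔ W₂), (w : G) ∈ W₁ → ψ w = 1 ∧ ψ' w = 1) : Cfsg.classInner (Cfsg.indFun (W₁ ⊔ W₂) (fun w => 1 - (φ w : ℂ) - (ψ w : ℂ) + (φ w : ℂ) * (ψ w : ℂ))) (fun _ => 1) = 1 ∧ Cfsg.classInner (Cfsg.indFun (W₁ ⊔ W₂) (fun w => 1 - (φ w : ℂ) - (ψ w : ℂ) + (φ w : ℂ) * (ψ w : ℂ))) (Cfsg.indFun (W₁ ⊔ W₂) (fun w => 1 - (φ' w : ℂ) - (ψ' w : ℂ) + (φ' w : ℂ) * (ψ' w : ℂ))) = 1 + (if φ = φ' then 1 else 0) + (if ψ = ψ' then 1 else 0) + (if φ = φ' then 1 else 0) * (if ψ = ψ' then 1 else 0) := by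
  have h := abD_of_selfNorm hW
  have a := r₂_eq_one.2 fun w hw => (hφ₂ w hw).1
  have a' := r₂_eq_one.2 fun w hw => (hφ₂ w hw).2
  have b := r₁_eq_one.2 fun w hw => (hψ₁ w hw).1
  have b' := r₁_eq_one.2 fun w hw => (hψ₁ w hw).2
  have n : r₁ φ ≠ 1 := fun e => hφ (r_ext e a)
  have n' : r₁ φ' ≠ 1 := fun e => hφ' (r_ext e a')
  have m : r₂ ψ ≠ 1 := fun e => hψ (r_ext b e)
  have m' : r₂ ψ' ≠ 1 := fun e => hψ' (r_ext b' e)
  rw [← Ind_top, ← Ind_top, h.ext_alpha a b, h.ext_alpha a' b', ← dot_top, ← dot_top, ← triv_top,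
    h.dot_Ind_alpha_triv le_top n m, (nti_of_selfNorm hW).dot_Ind (h.alpha_on _ _)
      (VC_CInv (h.alpha_VC _ _)) (h.alpha_on _ _), h.dot_alpha n m n' m']
  simp only [← r_eq_iff, a, a', b, b', and_true, true_and]

end Cfsg.Agent.S1505
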