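import Cfsg.Statements.S1507
import Cfsg.Agent.Lib.Odd.PFRows

set_option autoImplicit false
open Cfsg

namespace Cfsg.Agent.S1507

open CA.PF

open Classical in
/-- Let W₁, W₂ ≤ G form a self-normalising cyclic subgroup W = W₁ ⊔ W₂ of odd order with Nat.card W₁ < Nat.card W₂, and χ an orthonormal family of irreducible characters of G up to sign, indexed by the linear characters ω of W, with χ_1 = 1, χ_ω = ω on W outside W₁ ∪ W₂, and the induction identity for (1 − φ)(1 − ψ). Let θ be a class function of G vanishing on W outside W₁ ∪ W₂, and suppose fewer than 2 · Nat.card W₁ linear characters ω of W have ⟨θ, χ ω⟩ ≠ 0. Then one of: all ⟨θ, χ ω⟩ vanish; or there are ψ₀ and a with ⟨θ, χ ω⟩ = a when ω ψ₀⁻¹ is trivial on W₂ and 0 otherwise; or there are φ₀ and a with ⟨θ, χ ω⟩ = a when ω φ₀⁻¹ is trivial on W₁ and 0 otherwise.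 -/
theorem result {G : Type*} [Group G] [Fintype G] (W₁ W₂ : Subgroup G) (hW : Cfsg.IsSelfNormalizingCyclic W₁ W₂) (hodd : Odd (Nat.card ↥(W₁ ⊔ W₂))) (χ : (↥(W₁ ⊔ W₂) →* ℂˣ) → (G → ℂ)) (hχ : Cfsg.IsCyclicTIFamily W₁ W₂ χ) (hlt : Nat.card W₁ < Nat.card W₂) (θ : G → ℂ) (hθ : Cfsg.IsClassFunction G θ) (hθV : ∀ w : ↥(W₁ ⊔ W₂), (w : G) ∉ W₁ → (w : G) ∉ W₂ → θ w = 0) (hfew : Nat.card {ω : ↥(W₁ ⊔ W₂) →* ℂˣ // Cfsg.classInner θ (χ ω) ≠ 0} < 2 * Nat.card W₁) : (∀ ω, Cfsg.classInner θ (χ ω) = 0) ∨ (∃ (ψ₀ : ↥(W₁ ⊔ W₂) →* ℂˣ) (a : ℂ), ∀ ω, Cfsg.classInner θ (χ ω) = if (∀ w : ↥(W₁ ⊔ W₂), (w : G) ∈ W₂ → (ω * ψ₀⁻¹) w = 1) then a else 0) ∨ (∃ (φ₀ : ↥(W₁ ⊔ W₂) →* ℂˣ) (a : ℂ), ∀ ω, Cfsg.classInner θ (χ ω) = if (∀ w : ↥(W₁ ⊔ W₂), (w : G) ∈ W₁ → (ω * φ₀⁻¹) w = 1) then a else 0) := by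
  have h := cycTI_of_selfNorm hW hodd
  obtain ⟨χ', f, e⟩ := h.abD.exists_fam hχ
  refine or_iff_not_imp_left.2 fun hn => ?_
  obtain ⟨ω₀, h0⟩ := not_forall.1 hn
  rw [← e, ← dot_top] at h0
  have hc : (Finset.univ.filter fun p : Lin W₁ × Lin W₂ => dot ⊤ θ (χ' p.1 p.2) ≠ 0).card ≤
      Nat.card {ω : ↥(W₁ ⊔ W₂) →* ℂˣ // Cfsg.classInner θ (χ ω) ≠ 0} := by
    haveI : Finite (↥(W₁ ⊔ W₂) →* ℂˣ) := instFiniteLin (W₁ ⊔ W₂)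
    rw [← Fintype.card_subtype, ← Nat.card_eq_fintype_card]
    refine Nat.card_le_card_of_surjective (fun ω => ⟨(r₁ ω.1, r₂ ω.1), by
      rw [e, dot_top]; exact ω.2⟩) fun ⟨⟨i, j⟩, hp⟩ => ?_
    obtain ⟨ω, rfl, rfl⟩ := h.abD.exists_r i j
    exact ⟨⟨ω, by rwa [e, dot_top] at hp⟩, rfl⟩
  rcases h.fam_small f (mem_CF_top.2 hθ).2
    (fun v hv => hθV ⟨v, hv.1⟩ (mem_cycV.1 hv).2.1 (mem_cycV.1 hv).2.2)
    (by rw [min_eq_left hlt.le]; exact hc.trans_lt hfew) h0 with h1 | h1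
  · refine Or.inl ⟨ω₀, dot ⊤ θ (χ' (r₁ ω₀) (r₂ ω₀)), fun ω => ?_⟩
    rw [← e, ← dot_top, h1]
    simp only [r₂_eq_iff, MonoidHom.mul_apply, MonoidHom.inv_apply, mul_inv_eq_one]
  · refine Or.inr ⟨ω₀, dot ⊤ θ (χ' (r₁ ω₀) (r₂ ω₀)), fun ω => ?_⟩
    rw [← e, ← dot_top, h1]
    simp only [r₁_eq_iff, MonoidHom.mul_apply, MonoidHom.inv_apply, mul_inv_eq_one]

end Cfsg.Agent.S1507
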