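import Cfsg.Statements.S1510
import Cfsg.Agent.Lib.Odd.PFRows

set_option autoImplicit false
open Cfsg

namespace Cfsg.Agent.S1510

open CA.PF CA.BG

/-- Let L be a finite group with a normal subgroup K and a nontrivial cyclic subgroup W₁ of order coprime to its index, K ⊓ W₁ = ⊥ and K ⊔ W₁ = ⊤; let W₂ ≠ ⊥ be a cyclic subgroup of K with K ⊓ C_L(x) = W₂ for every non-identity x ∈ W₁, and suppose W₁ ⊔ W₂ has odd order. Then (W₁, W₂) is a self-normalising cyclic pair in L. -/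
theorem result {L : Type*} [Group L] [Fintype L] (K W₁ W₂ : Subgroup L) [hK : K.Normal] (hKW₁ : K ⊓ W₁ = ⊥) (hKW₁' : K ⊔ W₁ = ⊤) (hW₁ : W₁ ≠ ⊥) (hW₁c : IsCyclic W₁) (hHall : Nat.Coprime (Nat.card W₁) W₁.index) (hW₂ : W₂ ≠ ⊥) (hW₂c : IsCyclic W₂) (hW₂K : W₂ ≤ K) (hC : ∀ x ∈ W₁, x ≠ 1 → K ⊓ Subgroup.centralizer ({x} : Set L) = W₂) (hodd : Odd (Nat.card ↥(W₁ ⊔ W₂))) : Cfsg.IsSelfNormalizingCyclic W₁ W₂ := by
  have h := (primeTI_of hKW₁ hKW₁' hW₁ hW₁c hHall hW₂ hW₂c hW₂K hC hodd).cti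
  refine ⟨h.ne₁, h.ne₂, h.disj, fun a ha b hb => mem_cent.1 (h.dprod.1 hb) a ha, h.cyc,
    fun X hX ⟨x, hx⟩ => le_antisymm (fun g hg => ?_) fun g hg => ?_⟩
  · exact (h.nti.iff x (hX hx) g (Subgroup.mem_top g)).1
      (hX ((Subgroup.mem_set_normalizer_iff.1 hg x).1 hx))
  · refine Subgroup.mem_set_normalizer_iff.2 fun y =>
      ⟨fun hy => by rwa [h.abD.conj_eq hg (hX hy).1], fun hy => ?_⟩
    have := h.abD.conj_eq hg (hX hy).1
    rwa [show y = g * y * g⁻¹ from (mul_left_cancel (mul_right_cancel this)).symm]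

end Cfsg.Agent.S1510
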