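import Cfsg.Statements.S1511
import Cfsg.Agent.Lib.Odd.PFRows

set_option autoImplicit false
open Cfsg

namespace Cfsg.Agent.S1511

open CA.PF

/-- Let L be a finite group with K normal with complement W₁ ≠ 1 a cyclic Hall subgroup, and W₂ ≠ 1 a cyclic subgroup of K equal to C_K(x) for every non-identity x ∈ W₁, with W₁W₂ of odd order. Then there are a map μ from the linear characters of W = W₁ ⊔ W₂ to irreducible characters of L, injective, and a sign δ(ω) ∈ {1, −1} depending only on the values of ω on W₂, such that: for ω, ω' agreeing on W₂, the function induced to L from ω − ω' equals δ(ω) • (μ ω − μ ω'); μ ω x = δ(ω) ω x for x ∈ W outside W₂; every irreducible character of L not of the form μ ω vanishes on W outside W₂; and μ ω 1 − δ(ω) is an integer multiple of Nat.card W₁. -/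
theorem result {L : Type*} [Group L] [Fintype L] (K W₁ W₂ : Subgroup L) [hK : K.Normal] (hKW₁ : K ⊓ W₁ = ⊥) (hKW₁' : K ⊔ W₁ = ⊤) (hW₁ : W₁ ≠ ⊥) (hW₁c : IsCyclic W₁) (hHall : Nat.Coprime (Nat.card W₁) W₁.index) (hW₂ : W₂ ≠ ⊥) (hW₂c : IsCyclic W₂) (hW₂K : W₂ ≤ K) (hC : ∀ x ∈ W₁, x ≠ 1 → K ⊓ Subgroup.centralizer ({x} : Set L) = W₂) (hodd : Odd (Nat.card ↥(W₁ ⊔ W₂))) : ∃ (μ : (↥(W₁ ⊔ W₂) →* ℂˣ) → (L → ℂ)) (δ : (↥(W₁ ⊔ W₂) →* ℂˣ) → ℂ), Function.Injective μ ∧ (∀ ω, Cfsg.IsIrrCharacter L (μ ω)) ∧ (∀ ω, δ ω = 1 ∨ δ ω = -1) ∧ (∀ ω ω' : ↥(W₁ ⊔ W₂) →* ℂˣ, (∀ w : ↥(W₁ ⊔ W₂), (w : L) ∈ W₂ → ω w = ω' w) → δ ω = δ ω' ∧ Cfsg.indFun (W₁ ⊔ W₂) (fun w => (ω w : ℂ) - (ω' w : ℂ)) = δ ω • (μ ω - μ ω')) ∧ (∀ ω, ∀ w : ↥(W₁ ⊔ W₂), (w : L) ∉ W₂ → μ ω w = δ ω * (ω w : ℂ)) ∧ (∀ θ : L → ℂ, Cfsg.IsIrrCharacter L θ → (∀ ω, θ ≠ μ ω) → ∀ w :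 ↥(W₁ ⊔ W₂), (w : L) ∉ W₂ → θ w = 0) ∧ (∀ ω, ∃ n : ℤ, μ ω 1 - δ ω = n * (Nat.card W₁ : ℂ)) := by
  have h := primeTI_of hKW₁ hKW₁' hW₁ hW₁c hHall hW₂ hW₂c hW₂K hC hodd
  refine ⟨fun ω => mu2 ⊤ (r₁ ω) (r₂ ω), fun ω => dlt ⊤ W₁ (r₂ ω),
    fun ω ω' e => r_eq_iff.1 (h.mu2_inj e), fun ω => mem_irr_top.1 (h.mu2_irr _ _),
    fun ω => by rcases dlt_eq ⊤ W₁ (r₂ ω) with e | e <;> simp [e], fun ω ω' e => ?_,
    fun ω w hw => (h.mu2_apply _ _ w.2 hw).trans (by rw [h.abD.wch_r_apply]), fun θ hθ hn w hw => ?_,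
    fun ω => (h.mu2_one_mod (r₁ ω) (r₂ ω)).imp fun n e => sub_eq_of_eq_add' e⟩
  · rw [← r₂_eq_iff] at e
    refine ⟨by simp only [e], ?_⟩
    beta_reduce
    rw [← Ind_top, ← e, Int.cast_smul_eq_zsmul, ← h.Ind_sub]
    congr 1
    refine CF_ext (ext_on _ _) (sub_mem (wch_on _ _) (wch_on _ _)) fun x hx => ?_
    rw [CA.Ind.ext_of_mem _ _ hx, Pi.sub_apply, h.abD.wch_r_apply ω ⟨x, hx⟩, e,
      h.abD.wch_r_apply ω' ⟨x, hx⟩]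
  · refine h.not_mu2_vanish (mem_irr_top.2 hθ) (fun i j => ?_) (h.X_disjoint w.2 hw)
    obtain ⟨ω, rfl, rfl⟩ := h.abD.exists_r i j
    exact hn ω

end Cfsg.Agent.S1511
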