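import Cfsg.Statements.S1513
import Cfsg.Agent.Lib.Odd.PFRows

set_option autoImplicit false
open Cfsg

namespace Cfsg.Agent.S1513

open CA.PF

/-- Let L be a finite group with K normal with complement W₁ ≠ 1 a cyclic Hall subgroup, and W₂ ≠ 1 a cyclic subgroup of K equal to C_K(x) for every non-identity x ∈ W₁, with W₁W₂ of odd order. For an irreducible character θ of K: if θ is not fixed under conjugation by some element of W₁, then the function induced from θ to L is an irreducible character of L; and the irreducible characters of K fixed by all of W₁ are exactly Nat.card W₂ in number, each inducing to the sum of Nat.card W₁ pairwise distinct irreducible characters of L. -/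
theorem result {L : Type*} [Group L] [Fintype L] (K W₁ W₂ : Subgroup L) [hK : K.Normal] (hKW₁ : K ⊓ W₁ = ⊥) (hKW₁' : K ⊔ W₁ = ⊤) (hW₁ : W₁ ≠ ⊥) (hW₁c : IsCyclic W₁) (hHall : Nat.Coprime (Nat.card W₁) W₁.index) (hW₂ : W₂ ≠ ⊥) (hW₂c : IsCyclic W₂) (hW₂K : W₂ ≤ K) (hC : ∀ x ∈ W₁, x ≠ 1 → K ⊓ Subgroup.centralizer ({x} : Set L) = W₂) (hodd : Odd (Nat.card ↥(W₁ ⊔ W₂))) : (∀ θ : K → ℂ, Cfsg.IsIrrCharacter K θ → (∃ x ∈ W₁, (fun k : K => θ ⟨x * k * x⁻¹, hK.conj_mem (k : L) k.2 x⟩) ≠ θ) → Cfsg.IsIrrCharacter L (Cfsg.indFun K θ)) ∧ Nat.card {θ : Cfsg.IrrCharacter K // ∀ x ∈ W₁, (fun k : K => (θ : K → ℂ) ⟨x * k * x⁻¹, hK.conj_mem (k : L) k.2 x⟩) = θ} = Nat.card W₂ ∧ (∀ θ : K → ℂ, Cfsg.IsIrrCharacter K θ → (∀ x ∈ W₁, (fun k : K => θ ⟨x * k * x⁻¹, hK.conj_mem (k : L) k.2 x⟩) = θ) → ∃ C : Finset (L → ℂ), C.card = Nat.card W₁ ∧ (∀ μ ∈ C, Cfsg.IsIrrCharacter L μ) ∧ Cfsg.indFun K θ = ∑ μ ∈ C, μ)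 := by
  classical
  have h := primeTI_of hKW₁ hKW₁' hW₁ hW₁c hHall hW₂ hW₂c hW₂K hC hodd
  have s : ∀ (θ : K → ℂ) (x : L), x ∈ stab (extendByZero K θ) ↔
      (fun k : K => θ ⟨x * k * x⁻¹, hK.conj_mem (k : L) k.2 x⟩) = θ := fun θ x =>
    ⟨fun e => funext fun k => by
      rw [← CA.Ind.ext_of_mem K θ, ← cj_apply x (extendByZero K θ), e, CA.Ind.ext_coe], fun e =>
      mem_stab_of (ext_on K θ) ((nrm_top K).le_normalizer (Subgroup.mem_top x)) fun y hy => by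
        rw [CA.Ind.ext_of_mem K θ hy, CA.Ind.ext_of_mem K θ (hK.conj_mem y hy x)]
        exact congrFun e ⟨y, hy⟩⟩
  have t : ∀ θ : K → ℂ, IsIrrCharacter K θ → (∀ x ∈ W₁,
      (fun k : K => θ ⟨x * k * x⁻¹, hK.conj_mem (k : L) k.2 x⟩) = θ) →
      ∃ j : Lin W₂, extendByZero K θ = chi ⊤ K W₁ j := fun θ hθ e => by
    obtain ⟨x, hx, x1⟩ := CA.BG.exists_ne_one hW₁
    exact h.exists_chi_of_stab (ext_mem_irr.2 hθ) (Subgroup.mem_top x) (fun hc => x1 (h.eq_one hc hx))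
      ((s θ x).2 (e x hx))
  refine ⟨fun θ hθ ⟨x, hx, e⟩ => ?_, ?_, fun θ hθ e => ?_⟩
  · rcases h.res_irr_cases (ext_mem_irr.2 hθ) with ⟨j, e'⟩ | ⟨h1, -⟩
    · exact (e ((s θ x).1 (e' ▸ h.le_stab_chi j (Subgroup.mem_top x)))).elim
    · rw [← Ind_top]; exact mem_irr_top.1 h1
  · rw [← h.cti.card_Lin₂, ← Nat.card_eq_fintype_card]
    refine (Nat.card_eq_of_bijective (fun j => ⟨⟨fun k : K => chi ⊤ K W₁ j k,
      (mem_irr.1 (h.chi_irr j)).2⟩, fun x _ => (s _ x).1 (by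
        rw [ext_res_of_on (irr_on (h.chi_irr j))]; exact h.le_stab_chi j (Subgroup.mem_top x))⟩)
      ⟨fun j k e => h.chi_inj (CF_ext (irr_on (h.chi_irr j)) (irr_on (h.chi_irr k)) fun x hx =>
        congrFun (congrArg (fun z => z.1.1) e) ⟨x, hx⟩), fun θ => ?_⟩).symm
    obtain ⟨j, e⟩ := t _ θ.1.2 θ.2
    exact ⟨j, Subtype.ext (Subtype.ext (by simp only [← e]; exact res_ext K _))⟩
  · obtain ⟨j, e⟩ := t θ hθ e
    refine ⟨Finset.univ.image fun i : Lin W₁ => mu2 ⊤ i j, ?_, fun μ hμ => ?_, ?_⟩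
    · rw [Finset.card_image_of_injective _ fun _ _ e => (h.mu2_inj e).1, Finset.card_univ,
        h.cti.card_Lin₁]
    · obtain ⟨i, -, rfl⟩ := Finset.mem_image.1 hμ
      exact mem_irr_top.1 (h.mu2_irr i j)
    · rw [← Ind_top, e, h.Ind_chi, Finset.sum_image fun _ _ _ _ e => (h.mu2_inj e).1, mu]

end Cfsg.Agent.S1513
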