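import Cfsg.Statements.S1515
import Cfsg.Agent.Lib.Odd.PFCoh

set_option autoImplicit false
open Cfsg

namespace Cfsg.Agent.S1515

open CA.PF

/-- Let (S, τ, R) be a coherence system from L to G, χ ∈ S, and ψ an integer combination of S with ⟨χ, ψ⟩ = ⟨conj χ, ψ⟩ = 0. Let τ₁ be a linear isometry on the integer combinations of χ − ψ and χ − conj χ, with virtual-character values, agreeing with τ on integer multiples of χ − conj χ. Then the sum over α ∈ R χ of the squared absolute values of ⟨τ₁(χ − ψ), α⟩ is at least ⟨χ, χ⟩; and if ⟨τ₁(χ − ψ), τ₁(χ − ψ)⟩ minus that sum is at least ⟨ψ, ψ⟩, then the sum equals ⟨χ, χ⟩ and every ⟨τ₁(χ − ψ), α⟩ with α ∈ R χ is 0 or 1. -/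
theorem result {L : Type*} [Group L] [Fintype L] {G : Type*} [Group G] [Fintype G] (S : Set (L → ℂ)) (τ : (L → ℂ) → (G → ℂ)) (R : (L → ℂ) → Finset (G → ℂ)) (hS : Cfsg.IsCoherenceSystem S τ R) (χ : L → ℂ) (hχ : χ ∈ S) (ψ : L → ℂ) (hψ : ψ ∈ Cfsg.zspan S) (h1 : Cfsg.classInner χ ψ = 0) (h2 : Cfsg.classInner (Cfsg.conjFun χ) ψ = 0) (τ₁ : (L → ℂ) → (G → ℂ)) (hτ₁ : Cfsg.IsLinearIsometryOn (Cfsg.zspan {χ - ψ, χ - Cfsg.conjFun χ}) τ₁) (hagree : ∀ n : ℤ, τ₁ (n • (χ - Cfsg.conjFun χ)) = τ (n • (χ - Cfsg.conjFun χ))) : (Cfsg.classInner χ χ).re ≤ ∑ α ∈ R χ, ‖Cfsg.classInner (τ₁ (χ - ψ)) α‖ ^ 2 ∧ ((Cfsg.classInner ψ ψ).re ≤ (Cfsg.classInner (τ₁ (χ - ψ)) (τ₁ (χ - ψ))).re - ∑ α ∈ R χ, ‖Cfsg.classInner (τ₁ (χ - ψ)) α‖ ^ 2 → (∑ α ∈ R χ, ‖Cfsg.classInner (τ₁ (χ - ψ)) α‖ ^ 2 = (Cfsg.classInner χ χ).re ∧ ∀ α ∈ R χ, Cfsg.classInner (τ₁ (χ - ψ)) α = 0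 ∨ Cfsg.classInner (τ₁ (χ - ψ)) α = 1)) := by
  obtain ⟨S, rfl, τ', he, h⟩ := subcoh_of hS
  have m1 : χ - ψ ∈ zspan {χ - ψ, χ - conjFun χ} := Submodule.subset_span (by simp)
  have m2 : χ - conjFun χ ∈ zspan {χ - ψ, χ - conjFun χ} := Submodule.subset_span (by simp)
  have hv := mem_VC_top.2 (hτ₁.2.2.2 _ m1)
  have e1 := hτ₁.2.2.1 _ m1 _ m1
  have e2 := hτ₁.2.2.1 _ m1 _ m2
  have e3 := hagree 1
  rw [one_smul] at e3
  rw [e3, conjFun_eq, ← he _ (h.sub_star_mem hχ)] at e2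
  simp only [← dot_top, conjFun_eq] at *
  generalize τ₁ (χ - ψ) = β at *
  have hon := h.R_on χ hχ
  have hY : ∀ α ∈ R χ, dot ⊤ (∑ α ∈ R χ, dot ⊤ β α • α - β) α = 0 := fun α hα => by
    rw [← neg_sub, dot_neg_left, hon.dot_sub_proj β hα, neg_zero]
  have hn : nrm ⊤ β = nrm ⊤ χ + nrm ⊤ ψ := by
    rw [nrm_def, rdot_def, e1, ← rdot_def, ← nrm_def, nrm_sub, rdot_of_dot_zero h1]; ring
  have := h.norm hχ (X := ∑ α ∈ R χ, dot ⊤ β α • α) (Y := ∑ α ∈ R χ, dot ⊤ β α • α - β)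
    (c := nrm ⊤ ψ) (by rwa [sub_sub_cancel]) (by rwa [sub_sub_cancel])
    (by rw [sub_sub_cancel, e2, dot_sub_left, dot_sub_right, dot_sub_right, h.dot_star hχ,
      dot_comm_zero h1, dot_comm_zero h2]; ring)
    (dot_comm_zero (dot_sum_smul_eq_zero hY _)) hY
  rw [hon.nrm_sum, ← nrm_neg ⊤ (_ - β), neg_sub, hon.nrm_sub_proj] at this
  refine ⟨this.1, fun hc => ?_⟩
  obtain ⟨e4, -, E, hE, e5⟩ := this.2 hc
  refine ⟨e4, fun α hα => ?_⟩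
  rw [← hon.dot_sum_left (fun α => dot ⊤ β α) hα, e5]
  by_cases hαE : α ∈ E
  · exact Or.inr (hon.dot_sum_left' hE hαE)
  · exact Or.inl (hon.dot_sum_left_zero hE hα hαE)

end Cfsg.Agent.S1515
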