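import Cfsg.Statements.S1520
import Cfsg.Agent.Lib.Odd.PF6x

set_option autoImplicit false
open Cfsg

namespace Cfsg.Agent.S1520

open CA.PF CA.BG

/-- Let K be a solvable normal subgroup of the finite group L and (S, τ, R) a coherence system from L to G with S the functions induced from non-principal irreducible characters of K; S(A) the members of S induced from characters whose kernel contains A. Let M ≤ H₁ ≤ H ≤ K be normal subgroups of L such that every term of the lower central series of H eventually lies in M (H/M nilpotent), S(H₁) is coherent and [H:H₁] > 4 * [L:K]^2 + 1. Then S(M) is coherent. -/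
theorem result {L : Type*} [Group L] [Fintype L] {G : Type*} [Group G] [Fintype G] (K : Subgroup L) [hK : K.Normal] (hsolv : Group.IsSolvable K) (τ : (L → ℂ) → (G → ℂ)) (R : (L → ℂ) → Finset (G → ℂ)) (hS : Cfsg.IsCoherenceSystem (Cfsg.inducedIrrAbove K ⊥) τ R) (M H₁ H : Subgroup L) [M.Normal] [H₁.Normal] [H.Normal] (hMH₁ : M ≤ H₁) (hH₁H : H₁ ≤ H) (hHK : H ≤ K) [(M.subgroupOf H).Normal] (hnil : Group.IsNilpotent (↥H ⧸ M.subgroupOf H)) (hcoh : Cfsg.IsCoherent (Cfsg.inducedIrrAbove K H₁) {1}ᶜ τ) (hbig : 4 * K.index ^ 2 + 1 < H₁.relIndex H) : Cfsg.IsCoherent (Cfsg.inducedIrrAbove K M) {1}ᶜ τ := by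
  obtain ⟨S, e, τ', he, h⟩ := subcoh_of hS
  rw [inducedIrrAbove_eq bot_le, Finset.coe_inj] at e
  subst e
  have hn := nrm_top K
  rw [inducedIrrAbove_eq (hH₁H.trans hHK)] at hcoh
  rw [inducedIrrAbove_eq (hMH₁.trans (hH₁H.trans hHK))]
  have sub : ∀ X : Subgroup L, seqIndD K ⊤ K X ⊆ seqIndD K ⊤ K ⊥ := fun X => seqIndD_mono bot_le le_rfl
  have hN : H ≤ Subgroup.normalizer (M : Set L) := le_top.trans (nrm_top M).le_normalizer
  obtain ⟨α, hα, h0⟩ := hcoh.1
  refine isCoherent_of (fun α a => he α (ZS0_mono (sub M) a)) (h.extSys.bounded hn hsolv (nrm_top M)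
    (nrm_top H) (nrm_top H₁) hMH₁ hH₁H hHK ((nilMod_iff hN).2 ?_)
    (coh_of_isCoherent (fun α a => he α (ZS0_mono (sub H₁) a)) hcoh)
    (by rwa [Subgroup.relIndex_top_right])) ⟨α, ZS0_mono (seqIndD_mono hMH₁ le_rfl) (mem_zspanOn.1 hα), h0⟩
  exact nilpotent_of_mulEquiv (CA.OQuo.quotientEquivQuo hN)

end Cfsg.Agent.S1520
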