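import Cfsg.Statements.S1521
import Cfsg.Agent.Lib.Odd.PF6x

set_option autoImplicit false
open Cfsg

namespace Cfsg.Agent.S1521

open CA.PF CA.BG

/-- Let K be a solvable normal subgroup of the finite group L of odd order and (S, τ, R) a coherence system from L to G with S the functions induced from non-principal irreducible characters of K; S(A) as before. Let M ≤ K be normal in L with K/M nilpotent, H₁ = [K, K] ⊔ M, H₁ < K < L, and suppose every element of K outside H₁ is centralised modulo H₁ only from inside K (L/H₁ is a Frobenius group with kernel K/H₁). Suppose one of the following: some normal subgroup of L lies strictly between H₁ and K; or [K:H₁] > 4[L:K]^2 + 1; or [K:M] is not a prime power; or [K,K] ≤ M; or [K:M] is a power of a prime p with [L:K] dividing p − 1. Then S(M) is coherent. -/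
theorem result {L : Type*} [Group L] [Fintype L] {G : Type*} [Group G] [Fintype G] (K : Subgroup L) [hK : K.Normal] (hsolv : Group.IsSolvable K) (τ : (L → ℂ) → (G → ℂ)) (R : (L → ℂ) → Finset (G → ℂ)) (hS : Cfsg.IsCoherenceSystem (Cfsg.inducedIrrAbove K ⊥) τ R) (hodd : Odd (Nat.card L)) (M : Subgroup L) [M.Normal] (hMK : M ≤ K) [(M.subgroupOf K).Normal] (hnil : Group.IsNilpotent (↥K ⧸ M.subgroupOf K)) (H₁ : Subgroup L) (hH₁ : H₁ = ⁅K, K⁆ ⊔ M) (hH₁K : H₁ < K) (hKL : K < ⊤) (hfrob : ∀ k ∈ K, k ∉ H₁ → ∀ x : L, x * k * x⁻¹ * k⁻¹ ∈ H₁ → x ∈ K) (hgood : (∃ N : Subgroup L, N.Normal ∧ H₁ < N ∧ N < K) ∨ 4 * K.index ^ 2 + 1 < H₁.relIndex K ∨ (¬ ∃ p m : ℕ, p.Prime ∧ M.relIndex K = p ^ m) ∨ ⁅K, K⁆ ≤ M ∨ (∃ p m : ℕ, p.Prime ∧ M.relIndex K = p ^ m ∧ K.index ∣ p - 1)) : Cfsg.IsCoherent (Cfsg.inducedIrrAbove K M) {1}ᶜ τ := by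
  obtain ⟨S, e, τ', he, h⟩ := subcoh_of hS
  rw [inducedIrrAbove_eq bot_le, Finset.coe_inj] at e
  subst e hH₁
  have hn := nrm_top K
  rw [inducedIrrAbove_eq hMK]
  have sub : ∀ X : Subgroup L, seqIndD K ⊤ K X ⊆ seqIndD K ⊤ K ⊥ := fun X => seqIndD_mono bot_le le_rfl
  have hN : K ≤ Subgroup.normalizer (M : Set L) := le_top.trans (nrm_top M).le_normalizer
  obtain ⟨χ, hχ⟩ := seqIndD_nonempty (L := ⊤) le_rfl ((nrm_top M).mono hMK le_top)
    (le_sup_right.trans_lt hH₁K).not_ge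
  refine isCoherent_of (fun α a => he α (ZS0_mono (sub M) a)) (by_contra fun hc => ?_)
    (exists_ZS0_star (fun _ => seqIndD_star) hχ (h.VC_mem (sub M hχ)) (h.star_ne χ (sub M hχ)))
  obtain ⟨h1, h2, p, hp, h3, h4, h5⟩ := h.extSys.chief hn hsolv ⟨by rwa [Subgroup.card_top], nrm_top M, hMK,
    (nilMod_iff hN).2 (nilpotent_of_mulEquiv (CA.OQuo.quotientEquivQuo hN)), hH₁K, hKL,
    fun k a b x _ => hfrob k a b x⟩ hc
  rw [Subgroup.relIndex_top_right] at h2 h5
  obtain ⟨m, hm⟩ := h3.exists_pow hp (relIndex_ne_zero' _ _)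
  rcases hgood with ⟨N, hN, a, b⟩ | a | a | a | ⟨q, k, hq, a, b⟩
  · exact (h1.2.2.2.2 N a.le b.le (nrm_top N).le_normalizer).elim a.ne' b.ne
  · exact a.not_ge h2
  · exact a ⟨p, m, hp, hm⟩
  · exact h4 a
  · have : k ≠ 0 := fun e => (one_lt_relIndex (le_sup_right.trans_lt hH₁K)).ne' (by rw [a, e, pow_zero])
    exact h5 ((show q = p from h3 q hq (a ▸ dvd_pow_self q this)) ▸ b)

end Cfsg.Agent.S1521
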