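import Cfsg.Statements.S1522
import Cfsg.Agent.Lib.Odd.PF6x

set_option autoImplicit false
open Cfsg

namespace Cfsg.Agent.S1522

open CA.PF CA.BG

/-- Let K be a nilpotent normal subgroup of the finite group L of odd order with [K,K] < K < L and L/[K,K] a Frobenius group with kernel K/[K,K] (elements of K outside [K,K] are centralised modulo [K,K] only from inside K); let (S, τ, R) be a coherence system from L to G with S the functions induced from non-principal irreducible characters of K. Let Z be a nontrivial normal subgroup of L contained in the centre of K, and suppose every member of S outside S(Z) is an irreducible character of L. Then S minus S(Z) is the set of irreducible characters χ of L with χ z ≠ χ 1 for some z ∈ Z, and it is coherent. -/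
theorem result {L : Type*} [Group L] [Fintype L] {G : Type*} [Group G] [Fintype G] (K : Subgroup L) [hK : K.Normal] (hsolv : Group.IsSolvable K) (τ : (L → ℂ) → (G → ℂ)) (R : (L → ℂ) → Finset (G → ℂ)) (hS : Cfsg.IsCoherenceSystem (Cfsg.inducedIrrAbove K ⊥) τ R) (hodd : Odd (Nat.card L)) (hnil : Group.IsNilpotent K) (hH₁K : ⁅K, K⁆ < K) (hKL : K < ⊤) (hfrob : ∀ k ∈ K, k ∉ ⁅K, K⁆ → ∀ x : L, x * k * x⁻¹ * k⁻¹ ∈ ⁅K, K⁆ → x ∈ K) (Z : Subgroup L) [Z.Normal] (hZ1 : Z ≠ ⊥) (hZK : Z ≤ K) (hZc : ∀ z ∈ Z, ∀ k ∈ K, z * k = k * z) (hirr : ∀ χ ∈ Cfsg.inducedIrrAbove K ⊥ \ Cfsg.inducedIrrAbove K Z, Cfsg.IsIrrCharacter L χ) : Cfsg.inducedIrrAbove K ⊥ \ Cfsg.inducedIrrAbove K Z = {χ | Cfsg.IsIrrCharacter L χ ∧ ∃ z ∈ Z, χ z ≠ χ 1} ∧ Cfsg.IsCoherent (Cfsg.inducedIrrAbove K ⊥ \ Cfsg.inducedIrrAbove K Z) {1}ᶜ τ := by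
  obtain ⟨S, e, τ', he, h⟩ := subcoh_of hS
  rw [inducedIrrAbove_eq bot_le, Finset.coe_inj] at e
  subst e
  have hn := nrm_top K
  have nZ := nrm_top Z
  have sub : seqIndD K ⊤ Z ⊥ ⊆ seqIndD K ⊤ K ⊥ := seqIndD_mono le_rfl hZK
  have e : inducedIrrAbove K ⊥ \ inducedIrrAbove K Z = ↑(seqIndD K ⊤ Z ⊥) := by
    ext φ
    rw [inducedIrrAbove_eq bot_le, inducedIrrAbove_eq hZK, Set.mem_diff, Finset.mem_coe, Finset.mem_coe,
      Finset.mem_coe, mem_seqIndD_cfker hn hn.le_normalizer (nrm_bot _).le_normalizer,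
      mem_seqIndD_cfker hn hn.le_normalizer nZ.le_normalizer,
      mem_seqIndD_cfker hn nZ.le_normalizer (nrm_bot _).le_normalizer]
    exact ⟨fun ⟨a, b⟩ => ⟨a.1, a.2.1, fun c => b ⟨a.1, c, a.2.2⟩⟩,
      fun a => ⟨⟨a.1, a.2.1, fun c => a.2.2 (hZK.trans c)⟩, fun c => a.2.2 c.2.1⟩⟩
  rw [e] at hirr ⊢
  obtain ⟨h1, h2⟩ := seqIndD_irr_coherence hn hsolv h ⟨by rwa [Subgroup.card_top], nrm_bot _, bot_le,
    let ⟨n, hn⟩ := nil_iff_lcs.1 hnil; ⟨n, hn.le⟩, by rwa [sup_bot_eq], hKL,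
    fun k a b x _ => by rw [sup_bot_eq] at b ⊢; exact hfrob k a b x⟩ nZ hZ1
    (le_inf hZK fun z hz k hk => (hZc z hz k hk).symm) fun χ a => mem_irr_top.2 (hirr χ a)
  obtain ⟨χ, hχ⟩ := seqIndD_nonempty (L := ⊤) hZK (nrm_bot K) (by rwa [le_bot_iff])
  exact ⟨by rw [irrKD_top_eq, h1], isCoherent_of (fun α a => he α (ZS0_mono sub a)) h2
    (exists_ZS0_star (fun _ => seqIndD_star) hχ (h.VC_mem (sub hχ)) (h.star_ne χ (sub hχ)))⟩

end Cfsg.Agent.S1522
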