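import Cfsg.Statements.S1523
import Cfsg.Agent.Lib.Odd.PF6b

set_option autoImplicit false
open Cfsg

namespace Cfsg.Agent.S1523

/-- Let G be a finite group, p a prime, P a Sylow p-subgroup whose underlying set is a TI-subset of G, with L the set normaliser of P of odd order. Let Z ≠ ⊥ be a subgroup of P, normal in L and central in P, such that the centralisers in L of any two non-identity elements of Z have the same order. If ψ is an irreducible character of G taking the same value at all non-identity elements of Z, then for z ∈ Z, z ≠ 1, the value ψ z is an integer n with Nat.card P dividing ψ(1) − n (as integers, ψ 1 being the degree). -/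
theorem result {G : Type*} [Group G] [Finite G] (p : ℕ) [Fact p.Prime] (P : Sylow p G) (hTI : Cfsg.IsTISubset ((P : Subgroup G) : Set G)) (hodd : Odd (Nat.card (Subgroup.normalizer ((P : Subgroup G) : Set G)))) (Z : Subgroup G) (hZ1 : Z ≠ ⊥) (hZP : Z ≤ P) (hZn : ∀ x ∈ Subgroup.normalizer ((P : Subgroup G) : Set G), ∀ z ∈ Z, x * z * x⁻¹ ∈ Z) (hZc : ∀ z ∈ Z, ∀ y ∈ (P : Subgroup G), z * y = y * z) (hCL : ∀ z ∈ Z, ∀ z' ∈ Z, z ≠ 1 → z' ≠ 1 → Nat.card ↥(Subgroup.normalizer ((P : Subgroup G) : Set G) ⊓ Subgroup.centralizer ({z} : Set G)) = Nat.card ↥(Subgroup.normalizer ((P : Subgroup G) : Set G) ⊓ Subgroup.centralizer ({z'} : Set G))) (ψ : G → ℂ) (hψ : Cfsg.IsIrrCharacter G ψ) (hconst : ∀ z ∈ Z, ∀ z' ∈ Z, z ≠ 1 → z' ≠ 1 → ψ z = ψ z') (z : G) (hz : z ∈ Z) (hz1 : z ≠ 1) : ∃ n d : ℤ, ψ z = n ∧ ψ 1 = d ∧ (Nat.card (P : Subgroup G) : ℤ) ∣ d - n := by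
  letI := Fintype.ofFinite G
  have hp : p.Prime := Fact.out
  have hP1 : (P : Subgroup G) ≠ ⊥ := CA.BG.ne_bot_mono hZP hZ1
  obtain ⟨n, d, h1, h2, h3⟩ := CA.PF.const_irr_mod hp (CA.BG.syl_top hp P) hodd
    ((CA.PF.nti_nz_iff hP1).2 ⟨hTI, rfl⟩) ⟨hZP.trans Subgroup.le_normalizer, hZn⟩
    (le_inf hZP fun z hz y hy => (hZc z hz y hy).symm) (CA.PF.mem_irr_top.2 hψ)
    (fun x hx y hy => hconst x hx.1 y hy.1 hx.2 hy.2) ⟨hz, hz1⟩
  exact ⟨n, d, h1, h2, dvd_sub_comm.1 h3⟩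

end Cfsg.Agent.S1523
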