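import Cfsg.Statements.S1524
import Cfsg.Agent.Lib.Odd.PF6y

set_option autoImplicit false
open Cfsg

namespace Cfsg.Agent.S1524

open CA.PF CA.BG

/-- Let G be a finite group and H ≤ L subgroups with L of odd order, H ≠ ⊥ nilpotent and normal in L with a nontrivial complement W₁ in L (H ⊓ W₁ = ⊥, H ⊔ W₁ = L) acting on H without non-identity fixed points (L is a Frobenius group with kernel H), and suppose the underlying set of H is a TI-subset of G whose normaliser is L. Let S be the set of functions on L induced from the non-principal irreducible characters of H. Then (S, L minus 1, induction to G) is coherent. -/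
theorem result {G : Type*} [Group G] [Fintype G] (H L W₁ : Subgroup G) [Fintype L] (hodd : Odd (Nat.card L)) (hHL : H ≤ L) (hW₁L : W₁ ≤ L) (hH1 : H ≠ ⊥) (hW1 : W₁ ≠ ⊥) (hnil : Group.IsNilpotent H) (hHn : ∀ x ∈ L, ∀ h ∈ H, x * h * x⁻¹ ∈ H) (hinf : H ⊓ W₁ = ⊥) (hsup : H ⊔ W₁ = L) (hfpf : ∀ w ∈ W₁, w ≠ 1 → ∀ h ∈ H, w * h = h * w → h = 1) (hTI : Cfsg.IsTISubset (H : Set G)) (hN : Subgroup.normalizer (H : Set G) = L) : Cfsg.IsCoherent (Cfsg.inducedIrrAbove (H.subgroupOf L) ⊥) {1}ᶜ (fun α : L → ℂ => Cfsg.indFun L α) := by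
  have hn : Nrm H L := ⟨hHL, hHn⟩
  have hF : Frob H W₁ L := ⟨⟨hW₁L.trans hn.le_normalizer, hinf, hsup⟩, hH1, hW1, fun w a b =>
    eq_bot_iff.2 fun h c => hfpf w a b h c.1 (CA.PF.mem_cent1.1 c.2).symm⟩
  have h := FrobK.of_frob hF
  obtain ⟨χ, hχ⟩ := seqIndD_nonempty (L := L) le_rfl (nrm_bot H) (by rwa [le_bot_iff])
  have := h.isCoherent hn le_rfl (Sibley_coherence hodd hnil ((nti_nz_iff hH1).2 ⟨hTI, hN⟩) (Or.inl hF))
    (exists_ZS0_star (fun _ => seqIndD_star) hχ (irr_VC (h.seqInd_irr hχ))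
      (seqInd_conjC_neq hn le_rfl hodd hχ))
  have hF' : FrobK (H.subgroupOf L) ⊤ := ⟨@nrm_top _ _ _ hn.normal,
    fun e => hH1 (by rw [← inf_eq_left.2 hHL, ← disjoint_iff, ← Subgroup.subgroupOf_eq_bot, e]),
    fun e => h.ne (le_antisymm hHL (Subgroup.subgroupOf_eq_top.1 e)), fun x a b y c =>
      h.cent x a (fun e => b (Subtype.ext e)) ⟨y.2, CA.PF.mem_cent1.2
        (congrArg Subtype.val (CA.PF.mem_cent1.1 c.2))⟩⟩
  rwa [inducedIrrAbove_eq bot_le, seqIndD_eq_irrKD hF'.nrm hF'.nrm le_rfl hF'.seqInd_irr, ← irrKD_top_eq]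

end Cfsg.Agent.S1524
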