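import Cfsg.Statements.S1525
import Cfsg.Agent.Lib.Odd.PFDade
import Cfsg.Agent.Lib.Odd.PFIrr

set_option autoImplicit false
open Cfsg

namespace Cfsg.Agent.S1525

open CA.PF

/-- Under the Dade hypothesis for (A, L, H), let χ be a class function of G and let ψ be a function on L whose value at each a ∈ A is the average of χ over the coset a·H(a). Then (1/|G|) Σ |χ g|² over the elements g of G conjugate into some coset a·H(a) with a ∈ A is at least (1/|L|) Σ_{a ∈ A ∩ L} |ψ a|². -/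
theorem result {G : Type*} [Group G] [Fintype G] (A : Set G) (L : Subgroup G) [Fintype L] (H : G → Subgroup G) (hD : Cfsg.DadeHypothesis A L H) (χ : G → ℂ) (hχ : Cfsg.IsClassFunction G χ) (ψ : L → ℂ) (hψ : ∀ a : L, (a : G) ∈ A → ψ a = (Nat.card (H a) : ℂ)⁻¹ * ∑ᶠ u ∈ (H a : Set G), χ (a * u)) : (Nat.card L : ℝ)⁻¹ * ∑ᶠ a ∈ {a : L | (a : G) ∈ A}, ‖ψ a‖ ^ 2 ≤ (Nat.card G : ℝ)⁻¹ * ∑ᶠ g ∈ {g : G | ∃ a ∈ A, ∃ u ∈ H a, ∃ x : G, x * g * x⁻¹ = a * u}, ‖χ g‖ ^ 2 := by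
  have h := nrm_rho_le hD (mem_CF_top.2 hχ).2
  rw [nrm_eq_sum_on L (rho_on χ), nrm_eq_sum_on ⊤ (Res_on _ χ), Subgroup.card_top] at h
  rw [finsum_mem_fs, finsum_mem_fs]
  convert h using 2
  · have key : ∀ a : L, a ∈ fs {a : L | (a : G) ∈ A} ↔ (a : G) ∈ A := fun a => by
      rw [mem_fs]; rfl
    refine Finset.sum_bij (fun a _ => (a : G)) (fun a ha => mem_fs.2 ((key a).1 ha))
      (fun a _ b _ e => Subtype.ext e)
      (fun b hb => ⟨⟨b, hD.subset (mem_fs.1 hb)⟩, (key _).2 (mem_fs.1 hb), rfl⟩) fun a ha => ?_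
    rw [rho_apply _ ((key a).1 ha), hψ a ((key a).1 ha), finsum_mem_fs]
  · exact Finset.sum_congr rfl fun g hg => by rw [Res_of_mem _ (mem_fs.1 hg)]

end Cfsg.Agent.S1525
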