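import Cfsg.Statements.S1527
import Cfsg.Agent.Lib.Odd.PF2

set_option autoImplicit false
open Cfsg

namespace Cfsg.Agent.S1527

open CA.PF CA.BG

/-- Let G be a finite group and H i (i in a finite index type) subgroups of pairwise coprime orders, each of whose underlying sets is a TI-subset of G, such that every non-identity element of G is conjugate to an element of some H i. Then Nat.card G − 1 = Σ_i [G : N_G(H i)] · (Nat.card (H i) − 1). -/
theorem result {G : Type*} [Group G] [Finite G] {ι : Type*} [Fintype ι] (H : ι → Subgroup G) (hcop : ∀ i j, i ≠ j → Nat.Coprime (Nat.card (H i)) (Nat.card (H j))) (hTI : ∀ i, Cfsg.IsTISubset (H i : Set G)) (hcover : ∀ g : G, g ≠ 1 → ∃ i, ∃ x : G, x * g * x⁻¹ ∈ H i) : Nat.card G - 1 = ∑ i, (Subgroup.normalizer (H i : Set G)).index * (Nat.card (H i) - 1) := by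
  classical
  let _ := Fintype.ofFinite G
  have h1 : ∀ i, (clsup (nz (H i)) ⊤).ncard =
      (Subgroup.normalizer (H i : Set G)).index * (Nat.card (H i) - 1) := fun i => by
    by_cases hb : H i = ⊥
    · have : clsup (nz (H i)) ⊤ = ∅ := Set.eq_empty_of_forall_notMem fun g ⟨_, _, a, ha, _⟩ =>
        ha.2 (by simpa [hb] using ha.1)
      rw [this, hb]; simp
    · rw [((nti_nz_iff hb).2 ⟨hTI i, rfl⟩).card_clsup, Subgroup.relIndex_top_right, mul_comm,
        Set.ncard_diff_singleton_of_mem (H i).one_mem, ← Nat.card_coe_set_eq]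
      rfl
  have h2 : (Finset.univ.erase (1 : G)) = Finset.univ.biUnion fun i => fs (clsup (nz (H i)) ⊤) := by
    ext g
    simp only [Finset.mem_erase, Finset.mem_univ, and_true, Finset.mem_biUnion, true_and, mem_fs]
    refine ⟨fun hg => ?_, fun ⟨i, x, _, a, ha, e⟩ => e ▸ conj_ne_one_iff.2 ha.2⟩
    obtain ⟨i, x, hx⟩ := hcover g hg
    exact ⟨i, x⁻¹, trivial, _, ⟨hx, conj_ne_one_iff.2 hg⟩, by group⟩
  have h3 := congrArg Finset.card h2
  rw [Finset.card_erase_of_mem (Finset.mem_univ _), Finset.card_univ, Finset.card_biUnion] at h3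
  · rw [Nat.card_eq_fintype_card, h3]
    exact Finset.sum_congr rfl fun i _ => by rw [card_fs_ncard, h1]
  · intro i _ j _ hij
    refine Finset.disjoint_left.2 fun g hi hj => ?_
    obtain ⟨x, _, a, ha, e⟩ := mem_fs.1 hi
    obtain ⟨y, _, b, hb, e'⟩ := mem_fs.1 hj
    have o1 : orderOf g = orderOf a := e ▸ (MulAut.conj x).orderOf_eq a
    have o2 : orderOf g = orderOf b := e' ▸ (MulAut.conj y).orderOf_eq b
    exact ha.2 (orderOf_eq_one_iff.1 (Nat.eq_one_of_dvd_coprimes (hcop i j hij)
      (orderOf_dvd_of_mem ha.1) (o1 ▸ o2 ▸ orderOf_dvd_of_mem hb.1)))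

end Cfsg.Agent.S1527
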