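import Cfsg.Statements.S1529
import Cfsg.Agent.Lib.Odd.PFCoh

set_option autoImplicit false
open Cfsg

namespace Cfsg.Agent.S1529

open CA.PF

/-- Let N be a subgroup of the finite group G, S a set of irreducible characters of N with at least two members, and τ₁ a linear isometry on the integer combinations of S with virtual-character values such that τ₁ α vanishes at 1 whenever α ∈ ℤ[S] does. Then there is ε ∈ {1, −1} such that ε • τ₁ χ is an irreducible character of G for every χ ∈ S, and distinct members of S give distinct characters. -/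
theorem result {G : Type*} [Group G] [Fintype G] (N : Subgroup G) [Fintype N] (S : Set (N → ℂ)) (hirr : ∀ χ ∈ S, Cfsg.IsIrrCharacter N χ) (htwo : ∃ χ ∈ S, ∃ ψ ∈ S, χ ≠ ψ) (τ₁ : (N → ℂ) → (G → ℂ)) (hτ₁ : Cfsg.IsLinearIsometryOn (Cfsg.zspan S) τ₁) (h0 : ∀ α ∈ Cfsg.zspan S, α 1 = 0 → τ₁ α 1 = 0) : ∃ ε : ℂ, (ε = 1 ∨ ε = -1) ∧ (∀ χ ∈ S, Cfsg.IsIrrCharacter G (ε • τ₁ χ)) ∧ (∀ χ ∈ S, ∀ ψ ∈ S, τ₁ χ = τ₁ ψ → χ = ψ) := by
  obtain ⟨S, rfl, hS⟩ := finite_of_irr hirr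
  obtain ⟨ν, he⟩ := lin_of_iso hτ₁
  obtain ⟨ν', he', hν⟩ := cohWith_of (τ' := ν) hτ₁ fun α hα => (he α hα.1).symm
  obtain ⟨χ₀, hχ₀, -⟩ := htwo
  have hd : ∀ χ ∈ S, Dirr ⊤ (ν' χ) := fun χ hχ => hν.Dirr hχ (hS hχ)
  obtain ⟨e, he1, he2⟩ := (hd χ₀ hχ₀).sign
  refine ⟨e, by exact_mod_cast he1, fun χ hχ => ?_, fun χ hχ ψ hψ e => ?_⟩
  · rw [← he' χ (mem_ZS hχ), Int.cast_smul_eq_zsmul]
    refine mem_irr_top.1 (Dirr.irr_of_pos ?_ ?_)
    · rcases he1 with rfl | rfl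
      · rw [one_smul]; exact hd χ hχ
      · rw [neg_smul, one_smul]; exact (hd χ hχ).neg
    · have := hν.one_rel (fun φ hφ => by rw [he φ hφ.1, h0 φ hφ.1 hφ.2]) hS hχ hχ₀
      obtain ⟨x, hx, ex⟩ := irr_one_pos (hS hχ)
      obtain ⟨y, hy, ey⟩ := irr_one_pos (hS hχ₀)
      obtain ⟨z, hz, ez⟩ := irr_one_pos he2
      rw [Pi.smul_apply, zsmul_eq_mul] at ez ⊢
      have e' : (y : ℂ) * (e * ν' χ 1) = (x * z : ℕ) := by
        rw [ex, ey] at this; push_cast; linear_combination e * this + x * ez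
      have e'' := congrArg Complex.re e'
      rw [Complex.natCast_re, ← Complex.ofReal_natCast, Complex.re_ofReal_mul] at e''
      exact (mul_pos_iff_of_pos_left (Nat.cast_pos.2 hy)).1 (by
        rw [e'']; exact_mod_cast Nat.mul_pos hx hz)
  · rw [← he' χ (mem_ZS hχ), ← he' ψ (mem_ZS hψ)] at e
    refine irr_eq_of_dot_ne (hS hχ) (hS hψ) ?_
    rw [← hν.dot_mem hχ hψ, e, (hd ψ hψ).dot_self]
    exact one_ne_zero

end Cfsg.Agent.S1529
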