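import Cfsg.Statements.S1531
import Cfsg.Agent.Lib.Odd.PFCoh

set_option autoImplicit false
open Cfsg

namespace Cfsg.Agent.S1531

open CA.PF

/-- Let N be a subgroup of the finite group G, S a set of irreducible characters of N, and α a linear isometry on the integer combinations of S vanishing at 1 with values virtual characters of G vanishing at 1. Let X, Y ⊆ S be disjoint, each with at least two members, and σ, τ linear isometries on ℤ[X], ℤ[Y] into virtual characters agreeing with α on the members vanishing at 1. Then ⟨σ χ, τ η⟩ = 0 for χ ∈ X, η ∈ Y; and if for some χ₀ ∈ X, η₀ ∈ Y with degrees c = χ₀ 1, e = η₀ 1 one has α (c • η₀ − e • χ₀) = c • τ η₀ − e • σ χ₀, then (X ∪ Y, N minus 1, α) is coherent. -/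
theorem result {G : Type*} [Group G] [Fintype G] (N : Subgroup G) [Fintype N] (S X Y : Set (N → ℂ)) (hirr : ∀ ξ ∈ S, Cfsg.IsIrrCharacter N ξ) (hXS : X ⊆ S) (hYS : Y ⊆ S) (hXY : Disjoint X Y) (hX2 : ∃ a ∈ X, ∃ b ∈ X, a ≠ b) (hY2 : ∃ a ∈ Y, ∃ b ∈ Y, a ≠ b) (α : (N → ℂ) → (G → ℂ)) (hα : Cfsg.IsLinearIsometryOn (Cfsg.zspanOn S {1}ᶜ) α) (hα1 : ∀ θ ∈ Cfsg.zspanOn S {1}ᶜ, α θ 1 = 0) (σ τ : (N → ℂ) → (G → ℂ)) (hσ : Cfsg.IsLinearIsometryOn (Cfsg.zspan X) σ) (hσα : ∀ θ ∈ Cfsg.zspanOn X {1}ᶜ, σ θ = α θ) (hτ : Cfsg.IsLinearIsometryOn (Cfsg.zspan Y) τ) (hτα : ∀ θ ∈ Cfsg.zspanOn Y {1}ᶜ, τ θ = α θ) : (∀ χ ∈ X, ∀ η ∈ Y, Cfsg.classInner (σ χ) (τ η) = 0) ∧ ((∃ χ₀ ∈ X, ∃ η₀ ∈ Y, α (χ₀ 1 • η₀ - η₀ 1 • χ₀) = χ₀ 1 • τ η₀ - η₀ 1 • σ χ₀) → Cfsg.IsCoherent (X ∪ Y) {1}ᶜ α) := by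
  obtain ⟨S, rfl, hS⟩ := finite_of_irr hirr
  obtain ⟨X, rfl, hX⟩ := finite_of_irr fun ξ hξ => hirr ξ (hXS hξ)
  obtain ⟨Y, rfl, hY⟩ := finite_of_irr fun ξ hξ => hirr ξ (hYS hξ)
  have hXS' : X ⊆ S := Finset.coe_subset.1 hXS
  have hYS' : Y ⊆ S := Finset.coe_subset.1 hYS
  have hd : Disjoint X Y := Finset.disjoint_coe.1 hXY
  obtain ⟨α', he, h0⟩ := iso0_of hα hα1
  obtain ⟨ν₁, e₁, h₁⟩ := cohWith_of (τ' := α') hσ fun θ hθ => by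
    rw [hσα θ (mem_zspanOn.2 hθ), he θ (ZS0_mono hXS' hθ)]
  obtain ⟨ν₂, e₂, h₂⟩ := cohWith_of (τ' := α') hτ fun θ hθ => by
    rw [hτα θ (mem_zspanOn.2 hθ), he θ (ZS0_mono hYS' hθ)]
  have hU : X ∪ Y ⊆ S := Finset.union_subset hXS' hYS'
  have key : ∀ {Z : Finset (N → ℂ)}, (∃ a ∈ (Z : Set (N → ℂ)), ∃ b ∈ (Z : Set (N → ℂ)), a ≠ b) →
      ∀ χ, ∃ χ' ∈ Z, χ ≠ χ' := by
    rintro Z ⟨a, ha, b, hb, hab⟩ χ
    by_cases h : χ = a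
    · exact ⟨b, hb, h ▸ hab⟩
    · exact ⟨a, ha, h⟩
  have ho : ∀ χ ∈ X, ∀ η ∈ Y, dot ⊤ (ν₁ χ) (ν₂ η) = 0 := fun χ hχ η hη => by
    obtain ⟨χ', hχ', hn⟩ := key hX2 χ
    obtain ⟨η', hη', hn'⟩ := key hY2 η
    exact irr_coherent_ortho hX hY hd (h0.mono hU) h₁ h₂ hχ hχ' hn hη hη' hn'
  refine ⟨fun χ hχ η hη => by rw [← e₁ χ (mem_ZS hχ), ← e₂ η (mem_ZS hη), ← dot_top, ho χ hχ η hη],
    ?_⟩
  rintro ⟨χ, hχ, η, hη, e⟩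
  have hP := pivot_mem_ZS0 (fun φ hφ => irr_VC (hS (hU hφ))) (mem_ZS (Finset.mem_union_left _ hχ))
    (mem_ZS (Finset.mem_union_right _ hη))
  rw [← Finset.coe_union]
  refine isCoherent_of (fun θ hθ => he θ (ZS0_mono hU hθ)) (irr_coherent_union hX hY hd h₁ h₂ ho hχ hη
    (by rw [he _ (ZS0_mono hU hP), e, e₁ χ (mem_ZS hχ), e₂ η (mem_ZS hη)])) ⟨_, hP, fun e => ?_⟩
  have := congrArg (fun φ => dot ⊤ φ η) e
  simp only [dot_sub_left, dot_smul_left, dot_irr_self (hY hη), dot_zero_left, dot_irr_ne (hX hχ)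
    (hY hη) fun e => Finset.disjoint_left.1 hd hχ (e ▸ hη)] at this
  exact irr_one_ne (hX hχ) (by linear_combination this)

end Cfsg.Agent.S1531
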