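import Cfsg.Statements.S1532
import Cfsg.Agent.Lib.Odd.PF6y

set_option autoImplicit false
open Cfsg

namespace Cfsg.Agent.S1532

open CA.PF CA.BG

/-- Let G be a finite group, p an odd prime and P a Sylow p-subgroup that is non-abelian, whose underlying set is a TI-subset of G, with P properly contained in its set normaliser N and C_G(x) ≤ P for every non-identity x ∈ P. Let Z be a nontrivial subgroup of the centre of P normalised by N. Then the set of irreducible characters χ of N with χ z ≠ χ 1 for some z ∈ Z is coherent for the map induced by induction from N to G. -/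
theorem result {G : Type*} [Group G] [Fintype G] (p : ℕ) [Fact p.Prime] (hp : p ≠ 2) (P : Sylow p G) (hna : ¬ IsMulCommutative (P : Subgroup G)) (hTI : Cfsg.IsTISubset ((P : Subgroup G) : Set G)) (hlt : (P : Subgroup G) < Subgroup.normalizer ((P : Subgroup G) : Set G)) (hC : ∀ k ∈ (P : Subgroup G), k ≠ 1 → Subgroup.centralizer ({k} : Set G) ≤ (P : Subgroup G)) [Fintype ↥(Subgroup.normalizer ((P : Subgroup G) : Set G))] (Z : Subgroup G) (hZ1 : Z ≠ ⊥) (hZP : ∀ z ∈ Z, z ∈ (P : Subgroup G) ∧ ∀ y ∈ (P : Subgroup G), z * y = y * z) (hZn : ∀ x ∈ Subgroup.normalizer ((P : Subgroup G) : Set G), ∀ z ∈ Z, x * z * x⁻¹ ∈ Z) : Cfsg.IsCoherent {χ : ↥(Subgroup.normalizer ((P : Subgroup G) : Set G)) → ℂ | Cfsg.IsIrrCharacter ↥(Subgroup.normalizer ((P : Subgroup G) : Set G)) χ ∧ ∃ z : ↥(Subgroup.normalizer ((P : Subgroup G) : Set G)), (z : G) ∈ Z ∧ χ z ≠ χ 1} {1}ᶜ (fun α => Cfsg.indFun (Subgroup.normalizer ((P : Subgroup G) : Set G)) α) := by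
  have hZ : Z ≤ P := fun z a => (hZP z a).1
  have hP1 : (P : Subgroup G) ≠ ⊥ := ne_bot_mono hZ hZ1
  have h := frobK_norm hP1 hlt hC
  have pp : p.Prime := Fact.out
  have hP := (syl_top pp P).pi
  have o1 : Odd (Nat.card (P : Subgroup G)) :=
    Nat.not_even_iff_odd.1 fun e => hp (hP 2 Nat.prime_two (even_iff_two_dvd.1 e)).symm
  have ho := h.odd o1 (by_contra fun e => hna (h.comm_of_even e))
  have nZ : Nrm Z (Subgroup.normalizer ((P : Subgroup G) : Set G)) := ⟨hZ.trans hlt.le, hZn⟩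
  obtain ⟨χ, hχ⟩ := seqIndD_nonempty (L := Subgroup.normalizer ((P : Subgroup G) : Set G)) hZ
    (nrm_bot _) (by rwa [le_bot_iff])
  have sub := (seqIndD_mono le_rfl hZ).trans h.seqInd_irr
  exact h.isCoherent nZ hZ ((h.coh_of_odd ((nti_nz_iff hP1).2 ⟨hTI, rfl⟩) o1).mono
    (seqIndD_mono le_rfl hZ)) (exists_ZS0_star (fun _ => seqIndD_star) hχ (irr_VC (sub hχ))
      (seqInd_conjC_neq h.nrm hZ ho hχ))

end Cfsg.Agent.S1532
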