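import Cfsg.Statements.S1533
import Cfsg.Agent.Lib.Odd.PF6y

set_option autoImplicit false
open Cfsg

namespace Cfsg.Agent.S1533

open CA.PF CA.BG

/-- Let G be a finite group, p an odd prime, and P a nontrivial Sylow p-subgroup whose underlying set is a TI-subset of G, with P properly contained in its set normaliser N and C_G(x) ≤ P for every non-identity x ∈ P. Let S be the set of irreducible characters χ of N with χ x ≠ χ 1 for some x ∈ P. Then either S has exactly one member, P is elementary abelian and Nat.card P = [N:P] + 1; or (S, N minus 1, induction to G) is coherent. -/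
theorem result {G : Type*} [Group G] [Fintype G] (p : ℕ) [Fact p.Prime] (hp : p ≠ 2) (P : Sylow p G) (hP1 : (P : Subgroup G) ≠ ⊥) (hTI : Cfsg.IsTISubset ((P : Subgroup G) : Set G)) (hlt : (P : Subgroup G) < Subgroup.normalizer ((P : Subgroup G) : Set G)) (hC : ∀ k ∈ (P : Subgroup G), k ≠ 1 → Subgroup.centralizer ({k} : Set G) ≤ (P : Subgroup G)) [Fintype ↥(Subgroup.normalizer ((P : Subgroup G) : Set G))] : (Nat.card {χ : ↥(Subgroup.normalizer ((P : Subgroup G) : Set G)) → ℂ // Cfsg.IsIrrCharacter ↥(Subgroup.normalizer ((P : Subgroup G) : Set G)) χ ∧ ∃ x : ↥(Subgroup.normalizer ((P : Subgroup G) : Set G)), (x : G) ∈ (P : Subgroup G) ∧ χ x ≠ χ 1} = 1 ∧ Cfsg.IsElementaryAbelian p (P : Subgroup G) ∧ Nat.card (P : Subgroup G) = ((P : Subgroup G).subgroupOf (Subgroup.normalizer ((P : Subgroup G) : Set G))).index + 1) ∨ Cfsg.IsCoherent {χ : ↥(Subgroup.normalizer ((P : Subgroup G) : Set G)) → ℂ | Cfsg.IsIrrCharacter ↥(Subgroup.normalizer ((P : Subgroup G) : Set G)) χ ∧ ∃ x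 : ↥(Subgroup.normalizer ((P : Subgroup G) : Set G)), (x : G) ∈ (P : Subgroup G) ∧ χ x ≠ χ 1} {1}ᶜ (fun α => Cfsg.indFun (Subgroup.normalizer ((P : Subgroup G) : Set G)) α) := by
  have h := frobK_norm hP1 hlt hC
  have pp : p.Prime := Fact.out
  have hP := (syl_top pp P).pi
  rcases h.card_eq_or with a | a
  · obtain ⟨q, hq, he⟩ := h.elem_of_card a.2
    obtain ⟨k, hk⟩ := elem_exists_el hq he
    rcases k with _ | k
    · exact absurd (Subgroup.card_eq_one.1 (by simpa using hk.2)) hP1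
    · exact Or.inl ⟨h.card_irr.trans a.1, (show q = p from hP q hq hk.dvd) ▸ he, a.2⟩
  · exact Or.inr (h.isCoherent h.nrm le_rfl (h.coh_of_odd ((nti_nz_iff hP1).2 ⟨hTI, rfl⟩)
      (Nat.not_even_iff_odd.1 fun e => hp (hP 2 Nat.prime_two (even_iff_two_dvd.1 e)).symm)) a.2)

end Cfsg.Agent.S1533
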