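import Cfsg.Statements.S1551
import Cfsg.Agent.Lib.Spor.M24Iso
import Cfsg.Agent.Lib.Spor.CGLin2

set_option autoImplicit false
open scoped Pointwise
open Cfsg

namespace Cfsg.Agent.S1551

open Cfsg CA.NatBits CA.OrbBfs CA.CGroup CA.CGConstr CA.CGParts CA.CGCert CA.CGRank CA.CGDec CA.Perm24 CA.Golay
open CA.M24Core CA.M24Sub CA.M24Tools MulAction
open scoped Pointwise
open CA.M24St2 CA.M24Syl CA.M24Cls CA.CGIso CA.CGLin CA.CGLin2 CA.M24Iso
set_option maxRecDepth 100000

theorem mtS : MT (stabilizer M24 (dss S0)) (dss S0 : Set (Finset GolayPt)) 6 :=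
  mt_of_lowc (A := mSub) (xs := S0.map ds) (L := [(147496, [[3, 0, 0, 0, 0, 2], [1, 3]]), (268544, [[2, 1, 3, 3, 1, 2, 2], [2, 1, 2, 0, 0, 3, 3], [3, 3, 1, 3, 1]]), (1082880, [[1, 2, 5, 3, 1], [1, 4, 3, 5], [1, 4, 4, 0, 2]]), (2621632, [[5, 1], [3, 3], [5, 0, 3, 0]]), (4268048, [[0, 0, 2], [0, 5], [1, 1], [5, 5, 0, 2, 1]]), (8388615, [])])
    (forall₂_sub (cs := S0) (by decide)) stS.inn (Y := (dss S0 : Set (Finset GolayPt))) (Set.toFinite _)
    (fun g hg y hy => by
      rw [Finset.mem_coe, ← show g • dss S0 = dss S0 from hg]; exact Finset.smul_mem_smul_finset hy)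
    (by decide +kernel) (fun x hx => List.mem_toFinset.2 hx) (n := 6) (by rw [Set.ncard_coe_finset, S0_mem.1]) rfl
    (by decide +kernel)

/-- generators of the hexacode subgroup -/
def l64 : List ℕ := [1247800902354211170037090955994749474205047591136199191, 24905326675850410523956156208457505570398020216664626946, 564348613710420807073877270882327503557437081886306468096, 565493128716202460044121709500931014546998404579965665536, 566068172606219147393495572125024197805395392082265374976, 566072663886452603279348647476606651406176598718140252416]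

theorem in64 : mG.In l64 (stabilizer M24 (dss S0)) :=
  inS0 (mSS _) (ok_of (by decide +kernel)) (sSS (l := S0)) (by decide +kernel)

theorem nrm : Nat.card (mG.gen l64) = 64 ∧ ∀ g ∈ mG.gen gS, ∀ x ∈ mG.gen l64, g * x * g⁻¹ ∈ mG.gen l64 :=
  nrmOK_spec (cj := cj24) R_cj R_inj in64.ok (by decide +kernel)

/-- Structure of a sextet stabiliser: it induces every permutation of the six tetrads, the subgroup fixing each tetrad setwise has order 192, and there is a normal subgroup of order 64 consisting of elements squaring to the identity. -/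
theorem result (S : Finset (Finset Cfsg.GolayPt)) (hS : S ∈ Cfsg.sextets) : (∀ e : Equiv.Perm ↥S, ∃ g ∈ MulAction.stabilizer Cfsg.M24 S, ∀ t : ↥S, (g : Equiv.Perm Cfsg.GolayPt) • (t : Finset Cfsg.GolayPt) = ((e t : ↥S) : Finset Cfsg.GolayPt)) ∧ Nat.card {g : ↥(MulAction.stabilizer Cfsg.M24 S) // ∀ t ∈ S, ((g : Cfsg.M24) : Equiv.Perm Cfsg.GolayPt) • t = t} = 192 ∧ ∃ N : Subgroup ↥(MulAction.stabilizer Cfsg.M24 S), N.Normal ∧ Nat.card N = 64 ∧ ∀ x ∈ N, x * x = 1 := by
  obtain ⟨g, hg⟩ := sextet_trans S0_mem hS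
  have hc := conjTo_stabilizer g (dss S0)
  rw [hg] at hc
  refine ⟨fun e => ?_, ?_, ((mG.gen l64).subgroupOf _).map hc.equiv.toMonoidHom,
    (normal_subgroupOf fun g hg => nrm.2 g (stS.gen.ge hg)).map _ hc.equiv.surjective, ?_, ?_⟩
  · have h1 := mtS.conj hc
    rw [← Finset.coe_smul_finset, hg] at h1
    obtain ⟨k, hk, h2⟩ := MT.perm h1 hS.1 e
    exact ⟨k, hk, h2⟩
  · obtain ⟨φ, h1, h2⟩ := perm_surj mSub 6 S0 rfl okSub stS.ok stS.gen [(147496, [[3, 0, 0, 0, 0, 2], [1, 3]]), (268544, [[2, 1, 3, 3, 1, 2, 2], [2, 1, 2, 0, 0, 3, 3], [3, 3, 1, 3, 1]]), (1082880, [[1, 2, 5, 3, 1], [1, 4, 3, 5], [1, 4, 4, 0, 2]]), (2621632, [[5, 1], [3, 3], [5, 0, 3, 0]]), (4268048, [[0, 0, 2], [0, 5], [1, 1], [5, 5, 0, 2, 1]]), (8388615, [])]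
      (by decide +kernel)
    rw [← card_ker_of_surj (φ.comp hc.equiv.symm.toMonoidHom) (h1.comp hc.equiv.symm.surjective) (n := 720) (m := 192)
      (by norm_num) (by rw [Nat.card_perm]; simp; rfl) (hc.card_eq.trans stS.card)]
    refine Nat.card_congr (Equiv.subtypeEquivRight fun k => ?_)
    rw [MonoidHom.mem_ker, MonoidHom.comp_apply, h2]
    simp only [MulEquiv.coe_toMonoidHom, symm_apply hc, smul_conj]
    refine ⟨fun h c hc y hy => h (g • y) ?_, fun h t ht => ?_⟩
    · rw [← hg]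
      exact Finset.smul_mem_smul_finset (mem_dss.2 ⟨c, hc, hy.2.symm⟩)
    rw [← hg] at ht
    obtain ⟨t, ht', rfl⟩ := Finset.mem_smul_finset.1 ht
    obtain ⟨c, hc, rfl⟩ := mem_dss.1 ht'
    exact h c hc _ (sS ((by decide : ∀ c ∈ S0, c < 2 ^ 24) c hc))
  · rw [Subgroup.card_map_of_injective hc.equiv.injective, card_subgroupOf in64.gen_le, nrm.1]
  · rintro _ ⟨x, hx, rfl⟩
    rw [← map_mul, show x * x = 1 from Subtype.ext (sq_eq_one_of_gens rfl (by decide +kernel) _ hx), map_one]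

end Cfsg.Agent.S1551
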