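import Cfsg.Statements.S1552
import Cfsg.Agent.Lib.Spor.M24St2

set_option autoImplicit false
open scoped Pointwise
open Cfsg

namespace Cfsg.Agent.S1552

open Cfsg CA.NatBits CA.OrbBfs CA.CGroup CA.CGConstr CA.CGParts CA.CGCert CA.CGRank CA.CGDec CA.Perm24 CA.Golay
open CA.M24Core CA.M24Sub CA.M24Tools MulAction
open scoped Pointwise
open CA.M24St2

set_option maxRecDepth 100000 in
theorem chk : Orbs (stabilizer M24 (dss S0)) ((S0 :: [[43, 297984, 1053440, 2162768, 4726912, 8536068], [15, 5264, 622848, 3416064, 4196928, 8536096], [27, 5252, 57856, 2162784, 4587776, 9963520]]).map dss) [1, 90, 240, 1440] ∧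
    ∀ x ∈ (S0 :: [[43, 297984, 1053440, 2162768, 4726912, 8536068], [15, 5264, 622848, 3416064, 4196928, 8536096], [27, 5252, 57856, 2162784, 4587776, 9963520]]).map dss, x ∈ sextets := orbsSex stS _ _ (by decide +kernel)

/-- A sextet stabiliser has four orbits on the 1771 sextets, of sizes 1, 90, 240, 1440; and the stabiliser is a maximal proper subgroup. -/
theorem result (S : Finset (Finset Cfsg.GolayPt)) (hS : S ∈ Cfsg.sextets) : ∃ X₁ ∈ Cfsg.sextets, ∃ X₂ ∈ Cfsg.sextets, ∃ X₃ ∈ Cfsg.sextets, (MulAction.orbit ↥(MulAction.stabilizer Cfsg.M24 S) X₁).ncard = 90 ∧ (MulAction.orbit ↥(MulAction.stabilizer Cfsg.M24 S) X₂).ncard = 240 ∧ (MulAction.orbit ↥(MulAction.stabilizer Cfsg.M24 S) X₃).ncard = 1440 ∧ Cfsg.sextets = {S} ∪ MulAction.orbit ↥(MulAction.stabilizer Cfsg.M24 S) X₁ ∪ MulAction.orbit ↥(MulAction.stabilizer Cfsg.M24 S) X₂ ∪ MulAction.orbit ↥(MulAction.stabilizer Cfsg.M24 S) X₃ ∧ IsCoatom (MulAction.stabilizer Cfsg.M24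 S) := by
  obtain ⟨g, rfl⟩ := sextet_trans S0_mem hS
  obtain ⟨a, ha, b, hb, c, hc, h1, h2, h3, h4⟩ := (decSex chk rfl (conjTo_stabilizer g _)).three' le_rfl
  exact ⟨a, ha, b, hb, c, hc, h1, h2, h3, h4, (conjTo_stabilizer g _).isCoatom
    (coatom_of_orbs chk.1 (orbit_sextet S0_mem) chk.2 ncard_sextets (by decide))⟩

end Cfsg.Agent.S1552
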