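import Cfsg.Statements.S1553
import Cfsg.Agent.Lib.Spor.M24Iso
import Cfsg.Agent.Lib.Spor.CGLin2

set_option autoImplicit false
open scoped Pointwise
open Cfsg

namespace Cfsg.Agent.S1553

open Cfsg CA.NatBits CA.OrbBfs CA.CGroup CA.CGConstr CA.CGParts CA.CGCert CA.CGRank CA.CGDec CA.Perm24 CA.Golay
open CA.M24Core CA.M24Sub CA.M24Tools MulAction
open scoped Pointwise
open CA.M24St2 CA.M24Syl CA.M24Cls CA.CGIso CA.CGLin CA.CGLin2 CA.M24Iso
set_option maxRecDepth 100000

theorem mem_iff {o : Finset GolayPt} (g : stabilizer M24 o) (x : GolayPt) :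
    ((g : M24) : Equiv.Perm GolayPt) x ∈ o ↔ x ∈ o := by
  have h := Finset.smul_mem_smul_finset_iff (s := o) (b := x) (g : M24)
  rwa [show (g : M24) • o = o from g.2] at h

/-- the action on the octad -/
def ψ (o : Finset GolayPt) : stabilizer M24 o →* Equiv.Perm o :=
  MonoidHom.mk' (fun g => ((g : M24) : Equiv.Perm GolayPt).subtypePerm (mem_iff g)) fun _ _ => rfl

/-- The stabiliser of an octad in the group of the length-24 code induces on the octad exactly its alternating group. -/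
theorem result (o : Finset Cfsg.GolayPt) (ho : o ∈ Cfsg.octads) : {e : Equiv.Perm ↥o | ∃ g : Equiv.Perm Cfsg.GolayPt, g ∈ Cfsg.M24 ∧ ∃ h : (∀ x, g x ∈ o ↔ x ∈ o), g.subtypePerm h = e} = (alternatingGroup ↥o : Set (Equiv.Perm ↥o)) := by
  have h1 : (ψ o).ker = (fixingSubgroup M24 (o : Set GolayPt)).subgroupOf (stabilizer M24 o) := by
    ext g
    rw [MonoidHom.mem_ker, Subgroup.mem_subgroupOf, mem_fixingSubgroup_iff, Equiv.ext_iff]
    exact ⟨fun h x hx => congrArg Subtype.val (h ⟨x, hx⟩), fun h x => Subtype.ext (h x x.2)⟩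
  have h2 := card_ker_mul (ψ o)
  rw [h1, card_subgroupOf (fixing_le o), card_stab_octad ho] at h2
  have h3 : Nat.card (fixingSubgroup M24 (o : Set GolayPt)) = 16 := by
    obtain ⟨g, rfl⟩ := octad_trans O0_mem ho
    exact (conjTo_fix g _).card_eq.trans stE4.card
  have h4 := (ψ o).range.card_mul_index
  rw [h3] at h2
  rw [Nat.card_perm, Nat.card_eq_fintype_card (α := o), Fintype.card_coe, (mem_octads.1 ho).2, show Nat.card (ψ o).range = 20160 by omega,
    show Nat.factorial 8 = 20160 * 2 from rfl] at h4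
  rw [← Equiv.Perm.eq_alternatingGroup_of_index_eq_two (G := (ψ o).range) (by omega)]
  ext e
  refine ⟨fun ⟨g, hg, h, e'⟩ => ⟨⟨⟨g, hg⟩, ?_⟩, e'⟩, fun ⟨g, e'⟩ => ⟨_, g.1.2, mem_iff g, e'⟩⟩
  refine Finset.eq_of_subset_of_card_le (fun x hx => ?_) (Finset.card_smul_finset _ _).ge
  obtain ⟨y, hy, rfl⟩ := Finset.mem_smul_finset.1 hx
  exact (h y).2 hy

end Cfsg.Agent.S1553
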