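import Cfsg.Statements.S1554
import Cfsg.Agent.Lib.Spor.M24Iso
import Cfsg.Agent.Lib.Spor.CGLin2

set_option autoImplicit false
open scoped Pointwise
open Cfsg

namespace Cfsg.Agent.S1554

open Cfsg CA.NatBits CA.OrbBfs CA.CGroup CA.CGConstr CA.CGParts CA.CGCert CA.CGRank CA.CGDec CA.Perm24 CA.Golay
open CA.M24Core CA.M24Sub CA.M24Tools MulAction
open scoped Pointwise
open CA.M24St2 CA.M24Syl CA.M24Cls CA.CGIso CA.CGLin CA.CGLin2 CA.M24Iso
set_option maxRecDepth 100000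

theorem trE {x : GolayPt} (hx : x ∉ ds O0) : ∃ e ∈ fixingSubgroup M24 (ds O0 : Set GolayPt), e • (some 4 : GolayPt) = x :=
  mem_orbit_sub.1 (by
    rw [orbit_eq_of_orb (A := mPt) stE4.inn (sPt (some 4)) (Y := (ds O0 : Set GolayPt)ᶜ) (Set.toFinite _)
      (fun g hg y hy => by
        rw [Set.mem_compl_iff, Finset.mem_coe, ← show g • ds O0 = ds O0 from fixing_le _ hg,
          Finset.smul_mem_smul_finset_iff]
        exact hy) (by decide) ncard_O0c.le (by decide +kernel)]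
    exact hx)

/-- An octad stabiliser is a split extension: the joint stabiliser of the octad and a point outside it is a complement to the pointwise stabiliser of the octad, and is isomorphic to the alternating group of degree 8. -/
theorem result (o : Finset Cfsg.GolayPt) (ho : o ∈ Cfsg.octads) (p : Cfsg.GolayPt) (hp : p ∉ o) : (Cfsg.M24 ⊓ fixingSubgroup (Equiv.Perm Cfsg.GolayPt) (o : Set Cfsg.GolayPt)) ⊓ (Cfsg.M24 ⊓ MulAction.stabilizer (Equiv.Perm Cfsg.GolayPt) o ⊓ MulAction.stabilizer (Equiv.Perm Cfsg.GolayPt) p) = ⊥ ∧ (Cfsg.M24 ⊓ fixingSubgroup (Equiv.Perm Cfsg.GolayPt) (o : Set Cfsg.GolayPt)) ⊔ (Cfsg.M24 ⊓ MulAction.stabilizer (Equiv.Perm Cfsg.GolayPt) o ⊓ MulAction.stabilizer (Equiv.Perm Cfsg.GolayPt) p) = (Cfsg.M24 ⊓ MulAction.stabilizer (Equiv.Perm Cfsg.GolayPt) o) ∧ Nonempty (↥(Cfsg.M24 ⊓ MulAction.stabilizer (Equiv.Perm Cfsg.GolayPt) o ⊓ MulAction.stabilizer (Equiv.Perm Cfsg.GolayPt) p) ≃* alternatingGroup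 (Fin 8)) := by
  obtain ⟨g, rfl, rfl⟩ := flag_Oc1 ho hp
  have h1 : (stabilizer M24 (g • ds O0) ⊓ stabilizer M24 (g • (some 4 : GolayPt))).map M24.subtype =
      M24 ⊓ stabilizer (Equiv.Perm GolayPt) (g • ds O0) ⊓ stabilizer (Equiv.Perm GolayPt) (g • (some 4 : GolayPt)) := by
    rw [map_inf_stab, map_stab]
  rw [← map_fixing, ← h1, ← map_stab, ← Subgroup.map_inf _ _ _ M24.subtype_injective, ← Subgroup.map_sup]
  refine ⟨?_, congrArg _ (le_antisymm (sup_le (fixing_le _) inf_le_left) fun k hk => ?_), ?_⟩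
  · rw [Subgroup.map_eq_bot_iff_of_injective _ M24.subtype_injective, eq_bot_iff]
    intro k hk
    have h2 : g⁻¹ * k * g = 1 := eq_one_of_ubd [6, 7, 8, 9, 10, 11, 12, 13, 15, 16, 18, 19, 20, 21, 22] (m := 8536127)
      (by decide) (by decide +kernel) fun x hx => (smul_conj g k x).2 (by
        rcases (by decide : ∀ x ∈ ds 8536127, x ∈ ds O0 ∨ x = some 4) x hx with h | rfl
        · exact (mem_fixingSubgroup_iff _).1 hk.1 _ (Finset.mem_coe.2 (Finset.smul_mem_smul_finset h))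
        · exact hk.2.2)
    rw [Subgroup.mem_bot, show k = g * (g⁻¹ * k * g) * g⁻¹ by group, h2]
    group
  · obtain ⟨e, he, h2⟩ := trE (x := (g⁻¹ * k * g) • some 4) (by
      rw [← (smul_conj g k (ds O0)).2 hk, Finset.smul_mem_smul_finset_iff]; decide)
    have h3 := (conjTo_fix g (ds O0) e).2 he
    rw [show k = (g * e * g⁻¹) * ((g * e * g⁻¹)⁻¹ * k) by group]
    refine Subgroup.mul_mem_sup h3 (Subgroup.mem_inf.2 ⟨mul_mem (inv_mem (fixing_le _ h3)) hk, ?_⟩)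
    rw [mem_stabilizer_iff, mul_smul, inv_smul_eq_iff, tr g e h2]
    simp only [mul_smul, smul_inv_smul]
  · obtain ⟨e⟩ := alt_iso mPt 8 [0, 1, 2, 3, 5, 14, 17, 23] rfl okPt stA8.ok stA8.gen stA8.card rfl
      [(0, [[1, 3, 1, 2, 0, 2], [2]]), (1, [[2, 0, 0, 0, 0, 3], [1, 3, 1]]), (2, [[2, 1, 3, 3], [0]]), (3, [[1, 2, 1, 2, 0, 2], [1, 3, 0, 0, 0, 0, 0]]), (5, [[3, 1, 1, 3]]), (14, [])]
      (by decide +kernel)
    exact ⟨(eqv rfl).symm.trans ((conj2 g _ _).equiv.symm.trans e)⟩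

end Cfsg.Agent.S1554
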