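import Cfsg.Statements.S1555
import Cfsg.Agent.Lib.Spor.M24St2

set_option autoImplicit false
open scoped Pointwise
open Cfsg

namespace Cfsg.Agent.S1555

open Cfsg CA.NatBits CA.OrbBfs CA.CGroup CA.CGConstr CA.CGParts CA.CGCert CA.CGRank CA.CGDec CA.Perm24 CA.Golay
open CA.M24Core CA.M24Sub CA.M24Tools MulAction
open scoped Pointwise
open CA.M24St2

set_option maxRecDepth 100000 in
theorem chk : cntL octL (fun m => Nat.beq (Nat.land O0 m) 3) = 16 ∧ cntL octL (fun m => Nat.beq (Nat.land O0 m) 15) = 4 := by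
  decide +kernel

theorem key (o : Finset GolayPt) (ho : o ∈ octads) (s : Finset GolayPt) (hs : s ⊆ o) (a : ℕ)
    (ha : a < 2 ^ 24 ∧ Nat.land a O0 = a ∧ pc24 a ≤ 6) (h : s.card = pc24 a) :
    {o' | o' ∈ octads ∧ o ∩ o' = s}.ncard = cntL octL (fun m => Nat.beq (Nat.land O0 m) a) := by
  obtain ⟨g, rfl, rfl⟩ := flag_Os ho (t := ds a) (u := s) (by rw [card_ds ha.1, h]) (by rw [card_ds ha.1]; exact ha.2.2)
    (gE.ds_subset_of ha.2.1) hs
  rw [ncard_smul_of_inv g (P := fun o => o ∈ octads ∧ ds O0 ∩ o = ds a)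
    fun y => by rw [smul_mem_octads, ← Finset.smul_finset_inter, smul_left_cancel_iff]]
  exact ncard_octads fun m hm _ => by rw [beq_iff, ds, ds, ds, ← Enc.ds_land, gE.ds_eq_iff (land_lt' _ hm) ha.1]

/-- Bottom row of the Leech triangle: an octad is met in a prescribed pair of its points by exactly 16 octads and in a prescribed 4-subset by exactly 4 octads. -/
theorem result (o : Finset Cfsg.GolayPt) (ho : o ∈ Cfsg.octads) (s : Finset Cfsg.GolayPt) (hs : s ⊆ o) : (s.card = 2 → {o' : Finset Cfsg.GolayPt | o' ∈ Cfsg.octads ∧ o ∩ o' = s}.ncard = 16) ∧ (s.card = 4 → {o' : Finset Cfsg.GolayPt | o' ∈ Cfsg.octads ∧ o ∩ o' = s}.ncard = 4) := by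
  exact ⟨fun h => (key o ho s hs 3 (by decide +kernel) (h.trans (by decide +kernel))).trans chk.1,
    fun h => (key o ho s hs 15 (by decide +kernel) (h.trans (by decide +kernel))).trans chk.2⟩

end Cfsg.Agent.S1555
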