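import Cfsg.Statements.S1556
import Cfsg.Agent.Lib.Spor.M24St2

set_option autoImplicit false
open scoped Pointwise
open Cfsg

namespace Cfsg.Agent.S1556

open Cfsg CA.NatBits CA.OrbBfs CA.CGroup CA.CGConstr CA.CGParts CA.CGCert CA.CGRank CA.CGDec CA.Perm24 CA.Golay
open CA.M24Core CA.M24Sub CA.M24Tools MulAction
open scoped Pointwise
open CA.M24St2

set_option maxRecDepth 100000 in

/-- Two octads meeting a fixed octad in equally many points are in the same orbit of its stabiliser. -/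
theorem result (o o' o'' : Finset Cfsg.GolayPt) (ho : o ∈ Cfsg.octads) (ho' : o' ∈ Cfsg.octads) (ho'' : o'' ∈ Cfsg.octads) (h : (o ∩ o').card = (o ∩ o'').card) : ∃ g : Equiv.Perm Cfsg.GolayPt, g ∈ Cfsg.M24 ∧ g • o = o ∧ g • o' = o'' := by
  obtain ⟨g, rfl⟩ := octad_trans O0_mem ho
  obtain ⟨a, ha, rfl⟩ := exists_smul_ds g o'
  obtain ⟨b, hb, rfl⟩ := exists_smul_ds g o''
  rw [smul_mem_octads] at ho' ho''
  rw [card_smul_inter, card_smul_inter, card_inter' _ ha, card_inter' _ hb] at h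
  obtain ⟨k, hk, e⟩ := keySub (L := octL) stO.inn (fun m => pc24 (Nat.land O0 m) + 1) [5279, 15777, 337856, 8536111] (by decide +kernel) ha hb
    (octL_of ha ho') (octL_of hb ho'') (Nat.succ_ne_zero _) (congrArg (· + 1) h)
  exact ⟨(g * k * g⁻¹ : M24), (g * k * g⁻¹).2, tr g k hk, tr g k e⟩

end Cfsg.Agent.S1556
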