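import Cfsg.Statements.S1558
import Cfsg.Agent.Lib.Spor.M24Iso
import Cfsg.Agent.Lib.Spor.CGLin2

set_option autoImplicit false
open scoped Pointwise
open Cfsg

namespace Cfsg.Agent.S1558

open Cfsg CA.NatBits CA.OrbBfs CA.CGroup CA.CGConstr CA.CGParts CA.CGCert CA.CGRank CA.CGDec CA.Perm24 CA.Golay
open CA.M24Core CA.M24Sub CA.M24Tools MulAction
open scoped Pointwise
open CA.M24St2 CA.M24Syl CA.M24Cls CA.CGIso CA.CGLin CA.CGLin2 CA.M24Iso
set_option maxRecDepth 100000

theorem mtT : MT (stabilizer M24 (dss T0)) (dss T0 : Set (Finset GolayPt)) 3 :=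
  mt_of_lowc (A := mSub) (xs := T0.map ds) (L := [(1351424, [[3, 0, 4, 4, 1, 4, 0], [2, 4, 4, 0]]), (6889680, [[3, 1, 1, 1, 1, 3], [1]]), (8536111, [])])
    (forall₂_sub (cs := T0) (by decide)) stT.inn (Y := (dss T0 : Set (Finset GolayPt))) (Set.toFinite _)
    (fun g hg y hy => by
      rw [Finset.mem_coe, ← show g • dss T0 = dss T0 from hg]; exact Finset.smul_mem_smul_finset hy)
    (by decide +kernel) (fun x hx => List.mem_toFinset.2 hx) (n := 3) (by rw [Set.ncard_coe_finset, T0_mem.1]) rfl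
    (by decide +kernel)

/-- generators -/
def gTka : List ℕ := [345291911391275645594095640549954040937661626166142894081, 539923707406026350837988336696302644344620123022080480016]

theorem stTka : St gTka (stabilizer M24 (dss T0) ⊓ stabilizer M24 (ds 1351424)) 21504 :=
  stabM mSub stT (sS (m := 1351424) (by decide)) 3
    [[3, 0, 4, 4, 1, 4, 0], [2, 4, 4, 0]] [(0, [[1, 1], [3, 1, 1, 3, 0]]), (4, [[2, 2, 1, 3, 3], [2, 2, 2, 1]]), (8, [[1, 2, 0, 2], [0, 3, 1, 2, 1]]), (1, [[2, 0, 2]]), (2, [])] (by decide +kernel)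

/-- generators -/
def gTkb : List ℕ := [344531275718577471600235493512743749545848402863443673361, 345292672799441393298041893904991426873862477103109374721]

theorem stTkb : St gTkb (stabilizer M24 (dss T0) ⊓ stabilizer M24 (ds 1351424) ⊓ stabilizer M24 (ds 6889680)) 10752 :=
  stabM mSub stTka (sS (m := 6889680) (by decide)) 2
    [[3, 0, 2], [2, 1, 2]] [(0, [[3, 3, 1, 2, 0, 2], [3, 0, 2]]), (4, [[1, 1, 2], [1, 1, 3, 0, 2, 0, 2]]), (8, [[3, 0, 2, 0], [2, 2, 0]]), (1, [[1, 2, 0, 2]]), (2, [])] (by decide +kernel)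

/-- generators -/
def gTkc : List ℕ := [565784205766820233726148074685740417369454528775758872581, 25771096947390122742117431624856438000588916146997235991, 25102872057452373728354843892233394360236004889470504471]

theorem stTkc : St gTkc (stabilizer M24 (dss T0) ⊓ stabilizer M24 (ds 1351424) ⊓ stabilizer M24 (ds 6889680) ⊓ stabilizer M24 (dss [43, 297984, 1053440, 2162768, 4726912, 8536068])) 1536 :=
  stabM (mSS 6) stTkb (sSS (l := [43, 297984, 1053440, 2162768, 4726912, 8536068])) 7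
    [[3, 0], [1, 3, 0, 3, 3, 0], [1, 3, 3, 3, 3, 1, 1, 2]] [(0, [[4, 2, 1, 1], [0, 2, 4]]), (4, [[0, 0, 3, 1], [0, 0, 3, 0, 2, 0, 2, 2]]), (8, [[3]]), (1, [])] (by decide +kernel)

/-- generators -/
def gTkd : List ℕ := [124619304097149160957345992514127802626987742635378282001, 345101100591935422586999298581482763164484180146158436611, 581812201397934333287523687324735820605609624305996046, 678339982934057930570966312894948666933961467870908686, 75674850779001957388845629492742421672346479091138236686, 25198278867210363789890852312469229074740559915411050001]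

theorem stTkd : St gTkd (stabilizer M24 (dss T0) ⊓ stabilizer M24 (ds 1351424) ⊓ stabilizer M24 (ds 6889680) ⊓ stabilizer M24 (dss [43, 297984, 1053440, 2162768, 4726912, 8536068]) ⊓ stabilizer M24 (dss [7680, 131110, 1343744, 2695168, 4194512, 8405001])) 256 :=
  stabM (mSS 6) stTkc (sSS (l := [7680, 131110, 1343744, 2695168, 4194512, 8405001])) 6
    [[5, 2, 4, 0, 4, 0, 5, 3, 0, 5], [1, 2, 2, 5, 5, 3, 3], [1, 5, 0, 5, 0, 5], [3, 0], [1, 1, 3, 0], [2, 1]] [(0, [[1, 4, 0, 7, 0, 7, 3, 6, 11], [1, 3, 1], [5, 7, 3], [10, 6, 8, 5, 3, 3, 5, 10]]), (4, [[3, 0, 4, 3, 5], [6, 1]]), (8, [])] (by decide +kernel)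

/-- generators -/
def gTke : List ℕ := [390261979503855950371025852444904318084462406071812631, 122989893556583024443470242666841632120805712001742605841, 565779711734943905085954662993657873470960937479698514176, 2115060432667119717663890061908821643098743019657036311, 343858572873279848814020591075713911293206999720050885891, 51154908971433425432662875382604198032912195485867376641]

theorem stTke : St gTke (stabilizer M24 (dss T0) ⊓ stabilizer M24 (ds 1351424) ⊓ stabilizer M24 (ds 6889680) ⊓ stabilizer M24 (dss [43, 297984, 1053440, 2162768, 4726912, 8536068]) ⊓ stabilizer M24 (dss [7680, 131110, 1343744, 2695168, 4194512, 8405001]) ⊓ stabilizer M24 (dss [16398, 73920, 263936, 1087488, 6815760, 8519713])) 64 :=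
  stabM (mSS 6) stTkd (sSS (l := [16398, 73920, 263936, 1087488, 6815760, 8519713])) 4
    [[5, 0, 9, 7, 0], [3, 5, 6, 11, 9, 6, 3], [3, 9, 4, 2, 11, 1], [3, 5, 5, 1, 1, 8, 3], [5, 8, 8, 7], [5, 11, 1, 6, 9, 5, 2, 2, 9, 1]] [(0, [[11, 8, 2, 0], [3, 1, 6, 1, 3, 0], [2, 11, 4, 10, 3]]), (4, [])] (by decide +kernel)

/-- the seven sextets refining the trio -/
def tab : List (List ℕ) := [[43, 297984, 1053440, 2162768, 4726912, 8536068], [7680, 131110, 1343744, 2695168, 4194512, 8405001], [131085, 299520, 532560, 1051904, 6357120, 8405026], [16398, 73920, 263936, 1087488, 6815760, 8519713], [16421, 35584, 1315840, 2105488, 4784192, 8519690], [147496, 268544, 1082880, 2621632, 4268048, 8388615], [38144, 147459, 589968, 1313280, 6299712, 8388652]]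

/-- labels -/
noncomputable def cx (v : Fin 3 → ZMod 2) : ℕ :=
  nth 0 (0 :: tab.map (pack 24)) ((v 0).val + 2 * (v 1).val + 4 * (v 2).val)

theorem hom : ∃ φ : stabilizer M24 (dss T0) →* GL (Fin 3) (ZMod 2) × Equiv.Perm (Fin 3),
    Function.Surjective φ ∧ ∀ x, φ x = 1 → x * x = 1 := by
  obtain ⟨φ, -, h1⟩ := label_GL0 (mSS 6) cx (by decide +kernel)
    (fun v hv => okSS (ls := tab) (by decide) _ ((by decide +kernel : ∀ v, v ≠ 0 → cx v ∈ tab.map (pack 24)) v hv))
    stT.ok stT.gen [(!![1, 1, 1; 0, 1, 1; 0, 0, 1], !![1, 1, 0; 0, 1, 1; 0, 0, 1]), (!![1, 0, 1; 1, 0, 0; 1, 1, 1], !![0, 1, 0; 1, 0, 1; 1, 1, 0]), (!![1, 0, 0; 0, 1, 1; 0, 0, 1], !![1, 0, 0; 0, 1, 1; 0, 0, 1])]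
    (by decide +kernel) [(11346380934028317605395933008428446685069355, [[3, 1, 4, 2, 1], [0, 4, 4, 4, 4]]), (11172162966123704828275713586763834704535040, [[2, 0, 2, 1, 3, 0], [3, 0, 2, 0], [1, 1, 1]]), (11324641575652839040024170371860777698082830, [])]
    (by decide +kernel) 1 (by decide) card_GL32 (by decide +kernel)
  obtain ⟨ψ, h2⟩ := perm_hom mSub (n := 3) T0 rfl (by decide) okSub stT.gen (by decide +kernel)
  have h3 : ∀ x, φ.prod ψ x = 1 → (x : M24) ∈ mG.gen gTke := fun x hx => by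
    have h4 := (h1 x).1 (congrArg Prod.fst hx)
    have h5 := (h2 x).1 (congrArg Prod.snd hx)
    rw [stTke.gen]
    exact ⟨⟨⟨⟨⟨x.2, h5 _ (by decide) _ (sS (by decide))⟩, h5 _ (by decide) _ (sS (by decide))⟩,
      h4 ![1, 0, 0] (by decide) _ (sSS (l := [43, 297984, 1053440, 2162768, 4726912, 8536068]))⟩,
      h4 ![0, 1, 0] (by decide) _ (sSS (l := [7680, 131110, 1343744, 2695168, 4194512, 8405001]))⟩,
      h4 ![0, 0, 1] (by decide) _ (sSS (l := [16398, 73920, 263936, 1087488, 6815760, 8519713]))⟩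
  refine ⟨φ.prod ψ, surj_of_card _ ?_, fun x hx => Subtype.ext (sq_eq_one_of_gens rfl (by decide +kernel) _ (h3 x hx))⟩
  have h4 := card_ker_mul (φ.prod ψ)
  have h5 : Nat.card (φ.prod ψ).ker ≤ 64 := by
    rw [← stTke.card, ← stTke.gen, ← Subgroup.card_map_of_injective (Subgroup.subtype_injective _)]
    exact Subgroup.card_le_of_le (by rintro _ ⟨x, hx, rfl⟩; exact h3 x hx)
  rw [stT.card] at h4
  rw [Nat.card_prod, card_GL32, Nat.card_perm, Nat.card_eq_fintype_card, Fintype.card_fin]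
  have := Nat.mul_le_mul_left (Nat.card (φ.prod ψ).range) h5
  rw [show Nat.factorial 3 = 6 from rfl]
  omega

/-- Structure of a trio stabiliser: every permutation of the three octads is induced, and there is a normal subgroup of order 64 of elements squaring to the identity whose quotient is isomorphic to the product of GL(3, 2) with the symmetric group of degree 3. -/
theorem result (T : Finset (Finset Cfsg.GolayPt)) (hT : T ∈ Cfsg.trios) : (∀ e : Equiv.Perm ↥T, ∃ g ∈ MulAction.stabilizer Cfsg.M24 T, ∀ o : ↥T, (g : Equiv.Perm Cfsg.GolayPt) • (o : Finset Cfsg.GolayPt) = ((e o : ↥T) : Finset Cfsg.GolayPt)) ∧ ∃ (N : Subgroup ↥(MulAction.stabilizer Cfsg.M24 T)) (_ : N.Normal), Nat.card N = 64 ∧ (∀ x ∈ N, x * x = 1) ∧ Nonempty (↥(MulAction.stabilizer Cfsg.M24 T) ⧸ N ≃* GL (Fin 3) (ZMod 2) × Equiv.Perm (Fin 3)) := by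
  obtain ⟨g, hg⟩ := trio_trans T0_mem hT
  have hc := conjTo_stabilizer g (dss T0)
  rw [hg] at hc
  obtain ⟨φ, h1, h2⟩ := hom
  have h3 : Function.Surjective (φ.comp hc.equiv.symm.toMonoidHom) := h1.comp hc.equiv.symm.surjective
  refine ⟨fun e => ?_, (φ.comp hc.equiv.symm.toMonoidHom).ker, inferInstance, card_ker_of_surj _ h3 (n := 1008) (by norm_num) ?_
    (hc.card_eq.trans stT.card), fun x hx => hc.equiv.symm.injective ?_, quot_of_surj _ h3⟩
  · have h1 := mtT.conj hc
    rw [← Finset.coe_smul_finset, hg] at h1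
    obtain ⟨k, hk, h2⟩ := MT.perm h1 hT.1 e
    exact ⟨k, hk, h2⟩
  · rw [Nat.card_prod, card_GL32, Nat.card_perm, Nat.card_eq_fintype_card, Fintype.card_fin]; rfl
  · rw [map_mul, map_one]; exact h2 _ hx

end Cfsg.Agent.S1558
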