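import Cfsg.Statements.S1559
import Cfsg.Agent.Lib.Spor.M24St2

set_option autoImplicit false
open scoped Pointwise
open Cfsg

namespace Cfsg.Agent.S1559

open Cfsg CA.NatBits CA.OrbBfs CA.CGroup CA.CGConstr CA.CGParts CA.CGCert CA.CGRank CA.CGDec CA.Perm24 CA.Golay
open CA.M24Core CA.M24Sub CA.M24Tools MulAction
open scoped Pointwise
open CA.M24St2

set_option maxRecDepth 100000 in
theorem chk : Orbs (stabilizer M24 (dss T0)) ((T0 :: [[52005, 6889680, 9835530], [52005, 3421328, 13303882], [5279, 4038912, 12733024], [5279, 1009728, 15762208]]).map dss) [1, 42, 56, 1008, 2688] ∧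
    ∀ x ∈ (T0 :: [[52005, 6889680, 9835530], [52005, 3421328, 13303882], [5279, 4038912, 12733024], [5279, 1009728, 15762208]]).map dss, x ∈ trios := orbsTri stT _ _ (by decide +kernel)

/-- A trio stabiliser has five orbits on the 3795 trios, of sizes 1, 42, 56, 1008, 2688; and the stabiliser is a maximal proper subgroup. -/
theorem result (T : Finset (Finset Cfsg.GolayPt)) (hT : T ∈ Cfsg.trios) : ∃ X₁ ∈ Cfsg.trios, ∃ X₂ ∈ Cfsg.trios, ∃ X₃ ∈ Cfsg.trios, ∃ X₄ ∈ Cfsg.trios, (MulAction.orbit ↥(MulAction.stabilizer Cfsg.M24 T) X₁).ncard = 42 ∧ (MulAction.orbit ↥(MulAction.stabilizer Cfsg.M24 T) X₂).ncard = 56 ∧ (MulAction.orbit ↥(MulAction.stabilizer Cfsg.M24 T) X₃).ncard = 1008 ∧ (MulAction.orbit ↥(MulAction.stabilizer Cfsg.M24 T) X₄).ncard = 2688 ∧ Cfsg.trios = {T} ∪ MulAction.orbit ↥(MulAction.stabilizer Cfsg.M24 T) X₁ ∪ MulAction.orbit ↥(MulAction.stabilizer Cfsg.M24 T) X₂ ∪ MulAction.orbit ↥(MulAction.stabilizer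 Cfsg.M24 T) X₃ ∪ MulAction.orbit ↥(MulAction.stabilizer Cfsg.M24 T) X₄ ∧ IsCoatom (MulAction.stabilizer Cfsg.M24 T) := by
  obtain ⟨g, rfl⟩ := trio_trans T0_mem hT
  obtain ⟨a, ha, b, hb, c, hc, d, hd, h1, h2, h3, h4, h5⟩ := (decTri chk rfl (conjTo_stabilizer g _)).four' le_rfl
  exact ⟨a, ha, b, hb, c, hc, d, hd, h1, h2, h3, h4, h5, (conjTo_stabilizer g _).isCoatom
    (coatom_of_orbs chk.1 (orbit_trio T0_mem) chk.2 ncard_trios (by decide))⟩

end Cfsg.Agent.S1559
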