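import Cfsg.Statements.S1560
import Cfsg.Agent.Lib.Spor.M24St2

set_option autoImplicit false
open scoped Pointwise
open Cfsg

namespace Cfsg.Agent.S1560

open Cfsg CA.NatBits CA.OrbBfs CA.CGroup CA.CGConstr CA.CGParts CA.CGCert CA.CGRank CA.CGDec CA.Perm24 CA.Golay
open CA.M24Core CA.M24Sub CA.M24Tools MulAction
open scoped Pointwise
open CA.M24St2

set_option maxRecDepth 100000 in
theorem chk : cntL dodL (fun m => Nat.beq (pc24 (Nat.land D0 m)) 4) = 495 ∧
    cntL dodL (fun m => Nat.beq (pc24 (Nat.land D0 m)) 6) = 1584 ∧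
    cntL dodL (fun m => Nat.beq (pc24 (Nat.land D0 m)) 8) = 495 ∧
    allL dodL (fun m => Nat.beq m D0 || force (pc24 (Nat.land D0 m)) fun c =>
      Nat.beq c 0 || Nat.beq c 4 || Nat.beq c 6 || Nat.beq c 8) = true := by decide +kernel

/-- Intersection numbers of dodecads: a dodecad meets every other dodecad in 0, 4, 6 or 8 points, meeting 495 of them in 4 points, 1584 in 6 points and 495 in 8 points. -/
theorem result (d : Finset Cfsg.GolayPt) (hd : d ∈ Cfsg.dodecads) : (∀ d' ∈ Cfsg.dodecads, d' ≠ d → (d ∩ d').card = 0 ∨ (d ∩ d').card = 4 ∨ (d ∩ d').card = 6 ∨ (d ∩ d').card = 8) ∧ {d' : Finset Cfsg.GolayPt | d' ∈ Cfsg.dodecads ∧ (d ∩ d').card = 4}.ncard = 495 ∧ {d' : Finset Cfsg.GolayPt | d' ∈ Cfsg.dodecads ∧ (d ∩ d').card = 6}.ncard = 1584 ∧ {d' : Finset Cfsg.GolayPt | d' ∈ Cfsg.dodecads ∧ (d ∩ d').card = 8}.ncard = 495 := by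
  obtain ⟨g, rfl⟩ := dodecad_trans D0_mem hd
  have key : ∀ k, {o | o ∈ dodecads ∧ (g • ds D0 ∩ o).card = k}.ncard =
      cntL dodL (fun m => Nat.beq (pc24 (Nat.land D0 m)) k) := fun k => by
    rw [ncard_smul_of_inv g (P := fun o => o ∈ dodecads ∧ (ds D0 ∩ o).card = k)
      fun y => by rw [smul_mem_dodecads, card_smul_inter]]
    exact ncard_dodecads fun m hm _ => by rw [beq_iff, card_inter' _ hm]
  refine ⟨fun d' hd' hne => ?_, (key 4).trans chk.1, (key 6).trans chk.2.1, (key 8).trans chk.2.2.1⟩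
  obtain ⟨a, ha, rfl⟩ := exists_smul_ds g d'
  rw [smul_mem_dodecads] at hd'
  have := allL_iff.1 chk.2.2.2 a (dodL_of ha hd')
  simp only [fe, Bool.or_eq_true, beq_iff] at this
  rw [card_smul_inter, card_inter' _ ha]
  have h2 : a ≠ D0 := fun e => hne (e ▸ rfl)
  omega

end Cfsg.Agent.S1560
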