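import Cfsg.Statements.S1561
import Cfsg.Agent.Lib.Spor.M24St2

set_option autoImplicit false
open scoped Pointwise
open Cfsg

namespace Cfsg.Agent.S1561

open Cfsg CA.NatBits CA.OrbBfs CA.CGroup CA.CGConstr CA.CGParts CA.CGCert CA.CGRank CA.CGDec CA.Perm24 CA.Golay
open CA.M24Core CA.M24Sub CA.M24Tools MulAction
open scoped Pointwise
open CA.M24St2

set_option maxRecDepth 100000 in

/-- Two dodecads meeting a fixed dodecad in equally many points lie in one orbit of its stabiliser. -/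
theorem result (d d' d'' : Finset Cfsg.GolayPt) (hd : d ∈ Cfsg.dodecads) (hd' : d' ∈ Cfsg.dodecads) (hd'' : d'' ∈ Cfsg.dodecads) (h : (d ∩ d').card = (d ∩ d'').card) : ∃ g : Equiv.Perm Cfsg.GolayPt, g ∈ Cfsg.M24 ∧ g • d = d ∧ g • d' = d'' := by
  obtain ⟨g, rfl⟩ := dodecad_trans D0_mem hd
  obtain ⟨a, ha, rfl⟩ := exists_smul_ds g d'
  obtain ⟨b, hb, rfl⟩ := exists_smul_ds g d''
  rw [smul_mem_dodecads] at hd' hd''
  rw [card_smul_inter, card_smul_inter, card_inter' _ ha, card_inter' _ hb] at h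
  obtain ⟨k, hk, e⟩ := keySub (L := dodL) st12.inn (fun m => pc24 (Nat.land D0 m) + 1) [28637, 57274, 340831, 1035448, 16436384] (by decide +kernel) ha hb
    (dodL_of ha hd') (dodL_of hb hd'') (Nat.succ_ne_zero _) (congrArg (· + 1) h)
  exact ⟨(g * k * g⁻¹ : M24), (g * k * g⁻¹).2, tr g k hk, tr g k e⟩

end Cfsg.Agent.S1561
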