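import Cfsg.Statements.S1562
import Cfsg.Agent.Lib.Spor.M24St2

set_option autoImplicit false
open scoped Pointwise
open Cfsg

namespace Cfsg.Agent.S1562

open Cfsg CA.NatBits CA.OrbBfs CA.CGroup CA.CGConstr CA.CGParts CA.CGCert CA.CGRank CA.CGDec CA.Perm24 CA.Golay
open CA.M24Core CA.M24Sub CA.M24Tools MulAction
open scoped Pointwise
open CA.M24St2

/-- octads through the standard triad -/
def L3 : List ℕ := [9347075, 14716939, 12656663, 8536111, 13893731, 9465987, 11010247, 11731203, 8421811, 8524371, 8716939, 13124355, 10765331, 8983587, 8398155, 9471495, 9963547, 8505411, 8657159, 10496547, 12717187]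

set_option maxRecDepth 100000 in
theorem hL3 : octL.filter (fun o => Nat.beq (Nat.land T3 o) T3) = L3 := by decide +kernel

/-- test -/
noncomputable def inO (m : ℕ) : Bool := anyL L3 (fun o => Nat.beq (Nat.land m o) m)

set_option maxRecDepth 100000 in
theorem chk : cntL (kSub 24 3) (fun m => Nat.beq (Nat.land T3 m) 0 && inO m) = 210 ∧
    cntL (kSub 24 3) (fun m => Nat.beq (Nat.land T3 m) 0 && !(inO m)) = 1120 := by decide +kernel

theorem iff1 (g : M24) (y : Finset GolayPt) : (∃ o ∈ octads, g • ds T3 ∪ g • y ⊆ o) ↔ ∃ o ∈ octads, ds T3 ∪ y ⊆ o :=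
  exists_octad_smul g fun o => by rw [← Finset.smul_finset_union, Finset.smul_finset_subset_smul_finset_iff]

theorem iff2 {m : ℕ} (hm : m < 2 ^ 24) : (∃ o ∈ octads, ds T3 ∪ ds m ⊆ o) ↔ inO m = true := by
  simp only [Finset.union_subset_iff]; exact exists_octad_iff (by decide) hL3 hm

set_option maxRecDepth 100000 in

/-- Orbits of a triad stabiliser on the triads disjoint from it: the 210 triads inside a common octad with it form one orbit and the remaining 1120 another. -/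
theorem result (T : Finset Cfsg.GolayPt) (hT : T.card = 3) : {U : Finset Cfsg.GolayPt | U.card = 3 ∧ Disjoint T U ∧ (∃ o ∈ Cfsg.octads, T ∪ U ⊆ o)}.ncard = 210 ∧ {U : Finset Cfsg.GolayPt | U.card = 3 ∧ Disjoint T U ∧ ¬ (∃ o ∈ Cfsg.octads, T ∪ U ⊆ o)}.ncard = 1120 ∧ ∀ U U' : Finset Cfsg.GolayPt, U.card = 3 → U'.card = 3 → Disjoint T U → Disjoint T U' → ((∃ o ∈ Cfsg.octads, T ∪ U ⊆ o) ↔ (∃ o ∈ Cfsg.octads, T ∪ U' ⊆ o)) → ∃ g : Equiv.Perm Cfsg.GolayPt, g ∈ Cfsg.M24 ∧ g • T = T ∧ g • U = U' := by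
  obtain ⟨g, rfl⟩ := exists_smul_ds_of_card hT T3 (by decide +kernel)
  refine ⟨?_, ?_, fun U U' h1 h2 h3 h4 h5 => ?_⟩
  · rw [ncard_smul_of_inv g (P := fun U => U.card = 3 ∧ Disjoint (ds T3) U ∧ ∃ o ∈ octads, ds T3 ∪ U ⊆ o)
      fun y => by rw [Finset.card_smul_finset, disjoint_smul, iff1], ← chk.1]
    exact ncard_kSub fun m hm _ => by rw [Bool.and_eq_true, beq_iff, iff2 hm, gE.ds_disjoint_iff (by decide)]
  · rw [ncard_smul_of_inv g (P := fun U => U.card = 3 ∧ Disjoint (ds T3) U ∧ ¬ ∃ o ∈ octads, ds T3 ∪ U ⊆ o)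
      fun y => by rw [Finset.card_smul_finset, disjoint_smul, iff1], ← chk.2]
    exact ncard_kSub fun m hm _ => by
      rw [Bool.and_eq_true, beq_iff, iff2 hm, gE.ds_disjoint_iff (by decide), Bool.not_eq_true', Bool.not_eq_true]
  · obtain ⟨a, ha, rfl⟩ := exists_smul_ds g U
    obtain ⟨b, hb, rfl⟩ := exists_smul_ds g U'
    rw [Finset.card_smul_finset] at h1 h2
    rw [disjoint_smul, gE.ds_disjoint_iff (by decide), ← beq_iff] at h3 h4
    rw [iff1, iff1, iff2 ha, iff2 hb, Bool.coe_iff_coe] at h5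
    obtain ⟨k, hk, e⟩ := keySub (L := kSub 24 3) stT3.inn
      (fun m => cond (Nat.beq (Nat.land T3 m) 0) (cond (inO m) 1 2) 0) [28, 44] (by decide +kernel) ha hb
      (kSub_of ha h1) (kSub_of hb h2) (by rw [h3]; cases inO a <;> simp) (by rw [h3, h4, h5])
    exact ⟨(g * k * g⁻¹ : M24), (g * k * g⁻¹).2, tr g k hk, tr g k e⟩

end Cfsg.Agent.S1562
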