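import Cfsg.Statements.S1563
import Cfsg.Agent.Lib.Spor.M24St2

set_option autoImplicit false
open scoped Pointwise
open Cfsg

namespace Cfsg.Agent.S1563

open Cfsg CA.NatBits CA.OrbBfs CA.CGroup CA.CGConstr CA.CGParts CA.CGCert CA.CGRank CA.CGDec CA.Perm24 CA.Golay
open CA.M24Core CA.M24Sub CA.M24Tools MulAction
open scoped Pointwise
open CA.M24St2

/-- The stabiliser of a pair of points (setwise) is a maximal proper subgroup of the group of the length-24 code. -/
theorem result (s : Finset Cfsg.GolayPt) (hs : s.card = 2) : IsCoatom (MulAction.stabilizer Cfsg.M24 s) := by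
  obtain ⟨g, rfl⟩ := exists_smul_ds_of_card hs 8388609 (by decide +kernel)
  exact (conjTo_stabilizer g _).isCoatom (isCoatom_of_subOK (A := mSub) st24.ok stD2.ok st24.gen (sS (by decide))
    (stD2.gen.trans (top_inf_eq _)) [3, 6] [44, 231] (by decide +kernel))

end Cfsg.Agent.S1563
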