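import Cfsg.Statements.S1564
import Cfsg.Agent.Lib.Spor.M24St2

set_option autoImplicit false
open scoped Pointwise
open Cfsg

namespace Cfsg.Agent.S1564

open Cfsg CA.NatBits CA.OrbBfs CA.CGroup CA.CGConstr CA.CGParts CA.CGCert CA.CGRank CA.CGDec CA.Perm24 CA.Golay
open CA.M24Core CA.M24Sub CA.M24Tools MulAction
open scoped Pointwise
open CA.M24St2

set_option maxRecDepth 100000 in

/-- The stabiliser of a set of three points (setwise) is a maximal proper subgroup of the group of the length-24 code. -/
theorem result (s : Finset Cfsg.GolayPt) (hs : s.card = 3) : IsCoatom (MulAction.stabilizer Cfsg.M24 s) := by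
  obtain ⟨g, rfl⟩ := exists_smul_ds_of_card hs T3 (by decide +kernel)
  exact (conjTo_stabilizer g _).isCoatom (isCoatom_of_subOK (A := mSub) st24.ok stT3.ok st24.gen (sS (by decide))
    stT3.gen [7, 44, 13, 28] [63, 210, 630, 1120] (by decide +kernel))

end Cfsg.Agent.S1564
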