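import Cfsg.Statements.S1566
import Cfsg.Agent.Lib.Spor.M24St2

set_option autoImplicit false
open scoped Pointwise
open Cfsg

namespace Cfsg.Agent.S1566

open Cfsg CA.NatBits CA.OrbBfs CA.CGroup CA.CGConstr CA.CGParts CA.CGCert CA.CGRank CA.CGDec CA.Perm24 CA.Golay
open CA.M24Core CA.M24Sub CA.M24Tools MulAction
open scoped Pointwise
open CA.M24St2

set_option maxRecDepth 100000 in

/-- The setwise stabiliser of a dodecad together with its complement is a maximal proper subgroup of the group of the length-24 code. -/
theorem result (d : Finset Cfsg.GolayPt) (hd : d ∈ Cfsg.dodecads) : IsCoatom (MulAction.stabilizer Cfsg.M24 ({d, dᶜ} : Finset (Finset Cfsg.GolayPt))) := by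
  obtain ⟨g, rfl⟩ := dodecad_trans D0_mem hd
  rw [← smul_DD]
  exact (conjTo_stabilizer g _).isCoatom (isCoatom_of_subOK (A := mSS 2) st24.ok stDD.ok st24.gen (sSS (l := DD))
    stDD.gen [280994510827485, 280514061721530] [495, 792] (by decide +kernel))

end Cfsg.Agent.S1566
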