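import Cfsg.Statements.S1567
import Cfsg.Agent.Lib.Spor.LeechH

set_option autoImplicit false
open Cfsg

namespace Cfsg.Agent.S1567

open CA.Leech CA.Golay

/-- The rank-24 lattice is the additive subgroup generated by its 196560 minimal vectors. -/
theorem result : AddSubgroup.closure {x : Cfsg.GolayPt → ℤ | x ∈ Cfsg.leechLattice ∧ Cfsg.sqNorm x = 32} = Cfsg.leechLattice := by
  refine le_antisymm ((AddSubgroup.closure_le _).2 fun _ h => h.1) (le_of_gens
    (AddSubgroup.subset_closure ⟨od0_mem, by decide +kernel⟩) (fun b hb => AddSubgroup.subset_closure ?_) fun i => ?_)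
  · have : ∀ r ∈ basis, isC r = true ∧ sqNorm (tw (ds r)) = 32 := by decide +kernel
    exact ⟨tw_mem ((ds_mem_Cw (isC_lt (this b hb).1)).2 (this b hb).1), (this b hb).2⟩
  · by_cases h : i = none
    · have : f4 i = (vU : V) + vU2 := by
        rw [← AddSubgroup.coe_add, ← eE, e8_coe, h, f4, ← Pi.single_add]; rfl
      rw [this]
      exact add_mem (AddSubgroup.subset_closure ⟨vU.2, sqU⟩) (AddSubgroup.subset_closure ⟨vU2.2, mU2.1⟩)
    · refine AddSubgroup.subset_closure ⟨?_, ?_⟩
      · have := four_mem (a := Pi.single i 1 + Pi.single none 1) (by simp [Finset.sum_add_distrib])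
        rwa [smul_add, ← Pi.single_smul, ← Pi.single_smul] at this
      · rw [f4, sq_add, sq_single, sq_single, dot_single, Pi.single_eq_of_ne' h]; norm_num

end Cfsg.Agent.S1567
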