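import Cfsg.Statements.S1568
import Cfsg.Agent.Lib.Spor.Leech

set_option autoImplicit false
open Cfsg

namespace Cfsg.Agent.S1568

open CA.Leech
theorem chk : (tot (fun t => t == 0 || t == 2 || t == -2) 48 = 5275648 ∧ tot (fun t => t != 4 && t != -4) 48 = 13664256) ∧
    tot (fun t => t != 5 && t != -5) 48 = 16674816 ∧ tot (fun t => t % 2 == 1 && t != 5 && t != -5) 48 = 8290304 := by
  decide +kernel

theorem compl (p : ℤ → Bool) (P : V → Prop) (h : ∀ x, P x ↔ ¬ ∀ i, p (x i) = true) :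
    {x : V | x ∈ leechLattice ∧ sqNorm x = 48 ∧ P x}.ncard + tot p 48 = 16773120 := by
  rw [← count p (n := 48) (by norm_num), ← ncard48, ← Set.ncard_union_eq _ ((Sh_finite 48).subset fun x hx => ⟨hx.1, hx.2.1⟩)
    ((Sh_finite 48).subset fun x hx => ⟨hx.1, hx.2.1⟩)]
  · refine congrArg Set.ncard (Set.ext fun x => ?_)
    simp only [Set.mem_union, Set.mem_setOf_eq, h, Sh]
    constructor
    · rintro (h | h) <;> exact ⟨h.1, h.2.1⟩
    · intro h1
      by_cases h2 : ∀ i, p (x i) = true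
      · exact Or.inr ⟨h1.1, h1.2, h2⟩
      · exact Or.inl ⟨h1.1, h1.2, h2⟩
  · exact Set.disjoint_left.2 fun x h1 h2 => (h x).1 h1.2.2 h2.2.2

/-- Shape census of the lattice vectors of sum of squares 48 (customary norm 6): the four families (2^12, 0^12), (±3^3, ±1^21), (±4, ±2^8, 0^15) and (±5, ±1^23) have 5275648, 8290304, 3108864 and 98304 members. -/
theorem result : {x : Cfsg.GolayPt → ℤ | x ∈ Cfsg.leechLattice ∧ Cfsg.sqNorm x = 48 ∧ ∀ i, x i = 0 ∨ x i = 2 ∨ x i = -2}.ncard = 5275648 ∧ {x : Cfsg.GolayPt → ℤ | x ∈ Cfsg.leechLattice ∧ Cfsg.sqNorm x = 48 ∧ ∃ i j k, i ≠ j ∧ j ≠ k ∧ i ≠ k ∧ |x i| = 3 ∧ |x j| = 3 ∧ |x k| = 3}.ncard = 8290304 ∧ {x : Cfsg.GolayPt → ℤ | x ∈ Cfsg.leechLattice ∧ Cfsg.sqNorm x = 48 ∧ ∃ i, |x i| = 4}.ncard = 3108864 ∧ {x : Cfsg.GolayPt → ℤ | x ∈ Cfsg.leechLattice ∧ Cfsg.sqNorm x = 48 ∧ ∃ i, |x i| = 5}.ncard = 98304 := by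
  refine ⟨?_, ?_, ?_, ?_⟩
  · rw [← chk.1.1, ← count _ (n := 48) (by norm_num)]
    refine congrArg Set.ncard (Set.ext fun x => ?_)
    simp [or_assoc]
  · rw [← chk.2.2, ← count _ (n := 48) (by norm_num)]
    refine congrArg Set.ncard (Set.ext fun x => and_congr_right fun hx => and_congr_right fun hn => ?_)
    simp only [Bool.and_eq_true, beq_iff_eq, bne_iff_ne]
    have hodd : (∃ i, x i % 2 = 1) → ∀ i, x i % 2 = 1 := by
      rintro ⟨j, hj⟩ i
      obtain ⟨m, a, h1, -, -⟩ := mem_iff.1 hx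
      have := h1 i; have := h1 j; omega
    have hs : ∀ s : Finset GolayPt, (∀ i, x i % 2 = 1) → 24 + ∑ i ∈ s, (x i ^ 2 - 1) ≤ 48 := fun s h => by
      have h1 : ∑ i ∈ s, (x i ^ 2 - 1) ≤ ∑ i, (x i ^ 2 - 1) :=
        Finset.sum_le_sum_of_subset_of_nonneg (Finset.subset_univ s) fun i _ _ => by
          have := h i; have : x i ≠ 0 := by omega
          have := sq_pos_of_ne_zero this; omega
      rw [Finset.sum_sub_distrib (s := Finset.univ), sum_c24] at h1
      have : ∑ i, x i ^ 2 = 48 := hn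
      omega
    constructor
    · rintro ⟨i, j, k, hij, hjk, hik, h1, h2, h3⟩ l
      have ho := hodd ⟨i, by rcases abs_eq (by norm_num : (0:ℤ) ≤ 3) |>.1 h1 with h | h <;> omega⟩
      have := hs {i, l} ho
      refine ⟨⟨ho l, fun h => ?_⟩, fun h => ?_⟩ <;>
      · rw [Finset.sum_pair (by rintro rfl; rw [h] at h1; simp at h1), ← sq_abs (x i), h1, h] at this; omega
    · intro h
      have ho : ∀ i, x i % 2 = 1 := fun i => (h i).1.1
      have h3 : ∀ i, x i ^ 2 - 1 = if |x i| = 3 then 8 else 0 := fun i => by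
        have h4 := hs {i} ho
        rw [Finset.sum_singleton] at h4
        have h5 := h i
        have : -5 ≤ x i ∧ x i ≤ 5 := by constructor <;> nlinarith
        obtain ⟨h6, h7⟩ := this
        interval_cases x i <;> simp_all
      have h4 : ∑ i, (x i ^ 2 - 1) = 24 := by
        rw [Finset.sum_sub_distrib, sum_c24]; have : ∑ i, x i ^ 2 = 48 := hn
        omega
      rw [Finset.sum_congr rfl fun i _ => h3 i, ← Finset.sum_filter, Finset.sum_const, nsmul_eq_mul] at h4
      obtain ⟨i, j, k, hij, hik, hjk, e⟩ := Finset.card_eq_three.1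
        (show (Finset.univ.filter fun i => |x i| = 3).card = 3 by omega)
      have m : ∀ l, l ∈ ({i, j, k} : Finset GolayPt) → |x l| = 3 := fun l hl => by
        rw [← e] at hl; exact (Finset.mem_filter.1 hl).2
      exact ⟨i, j, k, hij, hjk, hik, m i (by simp), m j (by simp), m k (by simp)⟩
  · have := compl (fun t => t != 4 && t != -4) (fun x => ∃ i, |x i| = 4) fun x => by
      simp [abs_eq, or_iff_not_imp_left]
    rw [chk.1.2] at this; exact Nat.add_right_cancel (this.trans (by norm_num))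
  · have := compl (fun t => t != 5 && t != -5) (fun x => ∃ i, |x i| = 5) fun x => by
      simp [abs_eq, or_iff_not_imp_left]
    rw [chk.2.1] at this; exact Nat.add_right_cancel (this.trans (by norm_num))

end Cfsg.Agent.S1568
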