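import Cfsg.Statements.S1579
import Cfsg.Agent.Lib.Spor.LeechH

set_option autoImplicit false
open Cfsg

namespace Cfsg.Agent.S1579

open CA.Leech

/-- The stabiliser of a vector of customary norm 6 is transitive on the 552 minimal vectors that complete it to a sum of two minimal vectors. -/
theorem result (u v v' : ↥Cfsg.leechLattice) (hu : Cfsg.sqNorm (u : Cfsg.GolayPt → ℤ) = 48) (hv : Cfsg.sqNorm (v : Cfsg.GolayPt → ℤ) = 32 ∧ Cfsg.sqNorm ((u - v) : Cfsg.GolayPt → ℤ) = 32) (hv' : Cfsg.sqNorm (v' : Cfsg.GolayPt → ℤ) = 32 ∧ Cfsg.sqNorm ((u - v') : Cfsg.GolayPt → ℤ) = 32) : ∃ g : ↥Cfsg.Co0, g • u = u ∧ g • v = v' := by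
  have h : ∀ x : LL, sqNorm (x : V) = 32 ∧ sqNorm ((u : V) - (x : V)) = 32 → x ∈ Cl [u] [24] := fun x h => by
    rw [sq_sub, hu] at h
    rw [mem_Cl1]; omega
  obtain ⟨g, h1, h2⟩ := (T552.neg.eqv (eqv48 sqV hu)).trans v (h v hv) v' (h v' hv')
  exact ⟨g, mem_St1.1 h1, h2⟩

end Cfsg.Agent.S1579
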