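import Cfsg.Statements.S1581
import Cfsg.Agent.Lib.Spor.LeechI

set_option autoImplicit false
open Cfsg

namespace Cfsg.Agent.S1581

open CA.Leech

/-- The McLaughlin group acts with rank 3 and subdegrees 1, 112, 162 on its 275 points: the point stabiliser has two orbits on the remaining points, distinguished by customary inner product 1 or 2 with the fixed point. -/
theorem result (u v x : ↥Cfsg.leechLattice) (hu : Cfsg.sqNorm (u : Cfsg.GolayPt → ℤ) = 48) (hv : Cfsg.sqNorm (v : Cfsg.GolayPt → ℤ) = 32 ∧ Cfsg.sqNorm ((u - v) : Cfsg.GolayPt → ℤ) = 32) (hx : x ∈ {x : ↥Cfsg.leechLattice | Cfsg.sqNorm (x : Cfsg.GolayPt → ℤ) = 32 ∧ Cfsg.sqNorm ((u - x) : Cfsg.GolayPt → ℤ) = 32 ∧ Cfsg.dotInt (v : Cfsg.GolayPt → ℤ) (x : Cfsg.GolayPt → ℤ) = 16}) : {y : ↥Cfsg.leechLattice | y ∈ {x : ↥Cfsg.leechLattice | Cfsg.sqNorm (x : Cfsg.GolayPt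 → ℤ) = 32 ∧ Cfsg.sqNorm ((u - x) : Cfsg.GolayPt → ℤ) = 32 ∧ Cfsg.dotInt (v : Cfsg.GolayPt → ℤ) (x : Cfsg.GolayPt → ℤ) = 16} ∧ Cfsg.dotInt (x : Cfsg.GolayPt → ℤ) (y : Cfsg.GolayPt → ℤ) = 8}.ncard = 112 ∧ {y : ↥Cfsg.leechLattice | y ∈ {x : ↥Cfsg.leechLattice | Cfsg.sqNorm (x : Cfsg.GolayPt → ℤ) = 32 ∧ Cfsg.sqNorm ((u - x) : Cfsg.GolayPt → ℤ) = 32 ∧ Cfsg.dotInt (v : Cfsg.GolayPt → ℤ) (x : Cfsg.GolayPt → ℤ) = 16} ∧ y ≠ x ∧ Cfsg.dotInt (x : Cfsg.GolayPt → ℤ) (y : Cfsg.GolayPt → ℤ) = 16}.ncard = 162 ∧ ∀ y ∈ {x : ↥Cfsg.leechLattice | Cfsg.sqNorm (x : Cfsg.GolayPt → ℤ) = 32 ∧ Cfsg.sqNorm ((u - x) : Cfsg.GolayPt → ℤ) = 32 ∧ Cfsg.dotInt (v : Cfsg.GolayPt → ℤ) (x : Cfsg.GolayPt → ℤ) = 16}, ∀ y' ∈ {x : ↥Cfsg.leechLattice | Cfsg.sqNorm (x : Cfsg.GolayPt → ℤ) = 32 ∧ Cfsg.sqNorm ((u - x) : Cfsg.GolayPt → ℤ) = 32 ∧ Cfsg.dotInt (v :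 Cfsg.GolayPt → ℤ) (x : Cfsg.GolayPt → ℤ) = 16}, y ≠ x → y' ≠ x → Cfsg.dotInt (x : Cfsg.GolayPt → ℤ) (y : Cfsg.GolayPt → ℤ) = Cfsg.dotInt (x : Cfsg.GolayPt → ℤ) (y' : Cfsg.GolayPt → ℤ) → ∃ g : ↥Cfsg.Co0, g • u = u ∧ g • v = v ∧ g • x = x ∧ g • y = y' := by
  have e : ∀ x : LL, _ := fun x => memM (v := v) (x := x) hu (k := 16) (l := 8) rfl
  obtain ⟨g, g1, g2, g3⟩ := eqv3.1 (T275.ext (cfgM hu hv) mX1 ((e x).2 hx))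
  have h := spU.smul g
  simp only [List.map_cons, List.map_nil, g1, g2, g3, sU, List.forall_mem_cons] at h
  obtain ⟨⟨⟨-, h1⟩, ⟨-, h2⟩, -⟩, h3⟩ := h
  refine ⟨(congrArg _ (Set.ext fun y => ?_)).trans h1.card, (congrArg _ (Set.ext fun y => ?_)).trans h2.card,
    fun y hy z hz a b c => ?_⟩
  · rw [mem_Cl_append, e]; rfl
  · rw [mem_Cl_append, e]
    refine and_congr_right fun _ => and_iff_right_of_imp ?_
    rintro d rfl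
    rw [dot_self, hx.1] at d; omega
  · have : ∃ k ∈ St ([v, u - v] ++ [x]), k • y = z := by
      have := h3 y ((e y).2 hy)
      simp only [List.mem_cons, List.not_mem_nil, or_false] at this
      rcases this with d | d | d
      · exact h1.trans y (mem_Cl_append.2 ⟨(e y).2 hy, d⟩) z (mem_Cl_append.2 ⟨(e z).2 hz, c ▸ d⟩)
      · exact h2.trans y (mem_Cl_append.2 ⟨(e y).2 hy, d⟩) z (mem_Cl_append.2 ⟨(e z).2 hz, c ▸ d⟩)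
      · exact (a (eq_of_dot hx.1 hy.1 d)).elim
    obtain ⟨k, k1, k2⟩ := this
    rw [St_append, St_M] at k1
    exact ⟨k, k1.1.1, k1.1.2, k1.2, k2⟩

end Cfsg.Agent.S1581
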