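import Cfsg.Statements.S1584
import Cfsg.Agent.Lib.Spor.LeechI

set_option autoImplicit false
open Cfsg

namespace Cfsg.Agent.S1584

open CA.Leech

/-- The Higman–Sims group acts with rank 3 and subdegrees 1, 22, 77 on its 100 points, the orbits of a point stabiliser being distinguished by customary inner product 1 with the fixed point. -/
theorem result (v w x : ↥Cfsg.leechLattice) (hv : Cfsg.sqNorm (v : Cfsg.GolayPt → ℤ) = 48) (hw : Cfsg.sqNorm (w : Cfsg.GolayPt → ℤ) = 48) (hvw : Cfsg.dotInt (v : Cfsg.GolayPt → ℤ) (w : Cfsg.GolayPt → ℤ) = -32) (hx : x ∈ {x : ↥Cfsg.leechLattice | Cfsg.sqNorm (x : Cfsg.GolayPt → ℤ) = 32 ∧ Cfsg.dotInt (v : Cfsg.GolayPt → ℤ) (x : Cfsg.GolayPt → ℤ) = 24 ∧ Cfsg.dotInt (w : Cfsg.GolayPt → ℤ) (x : Cfsg.GolayPt → ℤ) = -24}) : {y : ↥Cfsg.leechLattice | y ∈ {x : ↥Cfsg.leechLattice | Cfsg.sqNorm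 (x : Cfsg.GolayPt → ℤ) = 32 ∧ Cfsg.dotInt (v : Cfsg.GolayPt → ℤ) (x : Cfsg.GolayPt → ℤ) = 24 ∧ Cfsg.dotInt (w : Cfsg.GolayPt → ℤ) (x : Cfsg.GolayPt → ℤ) = -24} ∧ Cfsg.dotInt (x : Cfsg.GolayPt → ℤ) (y : Cfsg.GolayPt → ℤ) = 8}.ncard = 22 ∧ {y : ↥Cfsg.leechLattice | y ∈ {x : ↥Cfsg.leechLattice | Cfsg.sqNorm (x : Cfsg.GolayPt → ℤ) = 32 ∧ Cfsg.dotInt (v : Cfsg.GolayPt → ℤ) (x : Cfsg.GolayPt → ℤ) = 24 ∧ Cfsg.dotInt (w : Cfsg.GolayPt → ℤ) (x : Cfsg.GolayPt → ℤ) = -24} ∧ y ≠ x ∧ Cfsg.dotInt (x : Cfsg.GolayPt → ℤ) (y : Cfsg.GolayPt → ℤ) ≠ 8}.ncard = 77 ∧ ∀ y ∈ {x : ↥Cfsg.leechLattice | Cfsg.sqNorm (x : Cfsg.GolayPt → ℤ) = 32 ∧ Cfsg.dotInt (v : Cfsg.GolayPt → ℤ) (x : Cfsg.GolayPt → ℤ) = 24 ∧ Cfsg.dotInt (w : Cfsg.GolayPt → ℤ) (x : Cfsg.GolayPt → ℤ) = -24}, ∀ y' ∈ {x : ↥Cfsg.leechLattice | Cfsg.sqNorm (x : Cfsg.GolayPt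 → ℤ) = 32 ∧ Cfsg.dotInt (v : Cfsg.GolayPt → ℤ) (x : Cfsg.GolayPt → ℤ) = 24 ∧ Cfsg.dotInt (w : Cfsg.GolayPt → ℤ) (x : Cfsg.GolayPt → ℤ) = -24}, y ≠ x → y' ≠ x → (Cfsg.dotInt (x : Cfsg.GolayPt → ℤ) (y : Cfsg.GolayPt → ℤ) = 8 ↔ Cfsg.dotInt (x : Cfsg.GolayPt → ℤ) (y' : Cfsg.GolayPt → ℤ) = 8) → ∃ g : ↥Cfsg.Co0, g • v = v ∧ g • w = w ∧ g • x = x ∧ g • y = y' := by
  have e : ∀ x : LL, _ := fun x => memH (v := v) (w := w) (x := x) (k := 24) (l := -24) (m := 0) rfl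
  obtain ⟨g, g1, g2, g3⟩ := eqv3.1 (T100.ext (cfgH hv hw hvw) mX3 ((e x).2 hx))
  have h := spT.smul g
  simp only [List.map_cons, List.map_nil, g1, g2, g3, sT, List.forall_mem_cons] at h
  obtain ⟨⟨⟨-, h1⟩, ⟨-, h2⟩, -⟩, h3⟩ := h
  have h4 : ∀ y ∈ Cl [v, -v - w] [24, 0], y ≠ x → dotInt (x : V) y ≠ 8 → dotInt (x : V) y = 16 := fun y hy a b => by
    have := h3 y hy
    simp only [List.mem_cons, List.not_mem_nil, or_false] at this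
    exact (this.resolve_left b).resolve_right fun d => a (eq_of_dot hx.1 hy.1 d)
  refine ⟨(congrArg _ (Set.ext fun y => ?_)).trans h1.card, (congrArg _ (Set.ext fun y => ?_)).trans h2.card,
    fun y hy z hz a b c => ?_⟩
  · rw [mem_Cl_append, e]; rfl
  · rw [mem_Cl_append, e]
    refine and_congr_right fun hy => ⟨fun d => h4 y ((e y).2 hy) d.1 d.2, fun d => ⟨?_, by omega⟩⟩
    rintro rfl
    rw [dot_self, hx.1] at d; omega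
  · have : ∃ k ∈ St ([v, -v - w] ++ [x]), k • y = z := by
      by_cases d : dotInt (x : V) y = 8
      · exact h1.trans y (mem_Cl_append.2 ⟨(e y).2 hy, d⟩) z (mem_Cl_append.2 ⟨(e z).2 hz, c.1 d⟩)
      · exact h2.trans y (mem_Cl_append.2 ⟨(e y).2 hy, h4 y ((e y).2 hy) a d⟩) z
          (mem_Cl_append.2 ⟨(e z).2 hz, h4 z ((e z).2 hz) b (mt c.2 d)⟩)
    obtain ⟨k, k1, k2⟩ := this
    rw [St_append, St_H] at k1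
    exact ⟨k, k1.1.1, k1.1.2, k1.2, k2⟩

end Cfsg.Agent.S1584
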