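import Cfsg.Statements.S1590
import Cfsg.Agent.Lib.Spor.SmallCodes

set_option autoImplicit false
open Cfsg

namespace Cfsg.Agent.S1590

open Cfsg CA.NatBits CA.SmallCodes Finset

/-- The length-12 ternary code has 729 words with weight distribution 0^1 6^264 9^440 12^24. -/
theorem result : Nat.card ↥Cfsg.ternaryGolayCode = 729 ∧ (∀ x ∈ Cfsg.ternaryGolayCode, x ≠ 0 → (Cfsg.ternarySupport x).card = 6 ∨ (Cfsg.ternarySupport x).card = 9 ∨ (Cfsg.ternarySupport x).card = 12) ∧ {x : Cfsg.ArrayPt → ZMod 3 | x ∈ Cfsg.ternaryGolayCode ∧ (Cfsg.ternarySupport x).card = 6}.ncard = 264 ∧ {x : Cfsg.ArrayPt → ZMod 3 | x ∈ Cfsg.ternaryGolayCode ∧ (Cfsg.ternarySupport x).card = 9}.ncard = 440 ∧ {x : Cfsg.ArrayPt → ZMod 3 | x ∈ Cfsg.ternaryGolayCode ∧ (Cfsg.ternarySupport x).card = 12}.ncard = 24 := by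
  refine ⟨?_, fun x hx h0 => ?_, (ncard_wt 6).trans (by decide +kernel), (ncard_wt 9).trans (by decide +kernel),
    (ncard_wt 12).trans (by decide +kernel)⟩
  · have := (ncard_t (P := fun _ => True) (f := fun _ => true) (by simp)).trans (show _ = 729 by decide +kernel)
    rw [← this, tern_eq]; simp only [and_true]; rfl
  · obtain ⟨c, hc, hc', rfl⟩ := exists_t hx
    have h := allL_iff.1 (show allL TL (fun c => Nat.beq c 0 || force (pcRec 12 (sup 12 c)) fun w =>
      Nat.beq w 6 || Nat.beq w 9 || Nat.beq w 12) = true by decide +kernel) c hc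
    simp only [Bool.or_eq_true, beq_iff, CA.Perm24.fe] at h
    rw [supp_t hc', tE.card_ds]
    rcases h with rfl | h
    · exact absurd (funext fun p => by simp [W, ap_eq]) h0
    · exact or_assoc.1 h

end Cfsg.Agent.S1590
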