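import Cfsg.Statements.S1591
import Cfsg.Agent.Lib.Spor.SmallCodes

set_option autoImplicit false
open Cfsg

namespace Cfsg.Agent.S1591

open Cfsg CA.NatBits CA.SmallCodes Finset

/-- Any two words of the length-12 ternary code have dot product zero. -/
theorem result (x y : Cfsg.ArrayPt → ZMod 3) (hx : x ∈ Cfsg.ternaryGolayCode) (hy : y ∈ Cfsg.ternaryGolayCode) : ∑ p, x p * y p = 0 := by
  rw [tern_eq] at hx hy
  induction hx using Submodule.span_induction with
  | mem x hx =>
    induction hy using Submodule.span_induction with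
    | mem y hy =>
      obtain ⟨r, hr, rfl⟩ := hx
      obtain ⟨s, hs, rfl⟩ := hy
      revert r s; decide +kernel
    | zero => simp
    | add y z _ _ h1 h2 => simp [mul_add, sum_add_distrib, h1, h2]
    | smul a y _ h1 => simp only [Pi.smul_apply, smul_eq_mul, mul_left_comm _ a, ← mul_sum, h1, mul_zero]
  | zero => simp
  | add y z _ _ h1 h2 => simp [add_mul, sum_add_distrib, h1, h2]
  | smul a y _ h1 => simp only [Pi.smul_apply, smul_eq_mul, mul_assoc, ← mul_sum, h1, mul_zero]

end Cfsg.Agent.S1591
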