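import Cfsg.Statements.S1595
import Cfsg.Agent.Lib.Spor.Steiner

set_option autoImplicit false
open Cfsg

namespace Cfsg.Agent.S1595

open Cfsg CA.Steiner Finset

/-- Leech triangle of S(5, 6, 12): blocks meet in 0, 2, 3 or 4 points, and a block is met exactly in a given 2-, 3- or 4-subset by 3, 2, 3 blocks respectively. -/
theorem result {α : Type*} [Fintype α] [DecidableEq α] (hα : Fintype.card α = 12) {B : Set (Finset α)} (hB : Cfsg.IsSteinerSystem 5 6 B) (b : Finset α) (hb : b ∈ B) : (∀ c ∈ B, c ≠ b → (b ∩ c).card = 0 ∨ (b ∩ c).card = 2 ∨ (b ∩ c).card = 3 ∨ (b ∩ c).card = 4) ∧ ∀ s ⊆ b, (s.card = 2 → {c : Finset α | c ∈ B ∧ b ∩ c = s}.ncard = 3) ∧ (s.card = 3 → {c : Finset α | c ∈ B ∧ b ∩ c = s}.ncard = 2) ∧ (s.card = 4 → {c : Finset α | c ∈ B ∧ b ∩ c = s}.ncard = 3) := by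
  refine ⟨fun c hc h => inter12 hα hB hb hc h.symm, fun s hs => ?_⟩
  rw [← N_exact hs]
  have hc : (b \ s).card = 6 - s.card := by rw [card_sdiff_of_subset hs, hB.1 b hb]
  refine ⟨fun h => ?_, fun h => ?_, fun h => ?_⟩
  · have m := fun i L => mom hB hα disjoint_sdiff h (show (b \ s).card = 4 by omega) i L
    have h0 := m 0 30 (by decide); have h1 := m 1 12 (by decide); have h2 := m 2 4 (by decide)
    have h3 := m 3 1 (by decide)
    have := Nb hB hb hs h 3 (by decide)
    simp [sum_range_succ, Nat.choose] at h0 h1 h2 h3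
    omega
  · have m := fun i L => mom hB hα disjoint_sdiff h (show (b \ s).card = 3 by omega) i L
    have h0 := m 0 12 (by decide); have h1 := m 1 4 (by decide); have h2 := m 2 1 (by decide)
    have := Nb hB hb hs h 2 (by decide)
    simp [sum_range_succ, Nat.choose] at h0 h1 h2
    omega
  · have m := fun i L => mom hB hα disjoint_sdiff h (show (b \ s).card = 2 by omega) i L
    have h0 := m 0 4 (by decide); have h1 := m 1 1 (by decide)
    have := Nb hB hb hs h 1 (by decide)
    simp [sum_range_succ, Nat.choose] at h0 h1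
    omega

end Cfsg.Agent.S1595
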