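import Cfsg.Statements.S1596
import Cfsg.Agent.Lib.Spor.M24Iso
import Cfsg.Agent.Lib.Spor.CGLin2

set_option autoImplicit false
open scoped Pointwise
open Cfsg

namespace Cfsg.Agent.S1596

open Cfsg CA.NatBits CA.OrbBfs CA.CGroup CA.CGConstr CA.CGParts CA.CGCert CA.CGRank CA.CGDec CA.Perm24 CA.Golay
open CA.M24Core CA.M24Sub CA.M24Tools MulAction
open scoped Pointwise
open CA.M24St2 CA.M24Syl CA.M24Cls CA.CGIso CA.CGLin CA.CGLin2 CA.M24Iso
set_option maxRecDepth 100000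

/-- A quartet of a dodecad is determined by any two of its triples: two disjoint triples uniting to a hexad extend to exactly one quartet. -/
theorem result (d : Finset Cfsg.GolayPt) (hd : d ∈ Cfsg.dodecads) (t u : Finset Cfsg.GolayPt) (ht : t.card = 3) (hu : u.card = 3) (htu : Disjoint t u) (hh : t ∪ u ∈ Cfsg.hexadsOn d) : ∃! Q : Finset (Finset Cfsg.GolayPt), Q ∈ Cfsg.quartets d ∧ t ∈ Q ∧ u ∈ Q := by
  obtain ⟨g, rfl, rfl, rfl⟩ := pair_hexad_std hd ht hu hh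
  refine ⟨g • dss Q0, ⟨(smul_mem_quartets g).2 Q0_mem, Finset.smul_mem_smul_finset (mem_dss.2 ⟨7, by decide, rfl⟩),
    Finset.smul_mem_smul_finset (mem_dss.2 ⟨4120, by decide, rfl⟩)⟩, fun Q ⟨h1, h2, h3⟩ => ?_⟩
  obtain ⟨Q, rfl⟩ : ∃ Q', Q = g • Q' := ⟨g⁻¹ • Q, (smul_inv_smul g Q).symm⟩
  rw [smul_mem_quartets] at h1
  rw [Finset.smul_mem_smul_finset_iff] at h2 h3
  rw [quartet_eq h1 h2 h3]

end Cfsg.Agent.S1596
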