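import Cfsg.Statements.S1597
import Cfsg.Agent.Lib.Spor.M24Iso
import Cfsg.Agent.Lib.Spor.CGLin2

set_option autoImplicit false
open scoped Pointwise
open Cfsg

namespace Cfsg.Agent.S1597

open Cfsg CA.NatBits CA.OrbBfs CA.CGroup CA.CGConstr CA.CGParts CA.CGCert CA.CGRank CA.CGDec CA.Perm24 CA.Golay
open CA.M24Core CA.M24Sub CA.M24Tools MulAction
open scoped Pointwise
open CA.M24St2 CA.M24Syl CA.M24Cls CA.CGIso CA.CGLin CA.CGLin2 CA.M24Iso
set_option maxRecDepth 100000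

/-- A dodecad has 220 quartets and its stabiliser is transitive on them. -/
theorem result (d : Finset Cfsg.GolayPt) (hd : d ∈ Cfsg.dodecads) : (Cfsg.quartets d).ncard = 220 ∧ ∀ Q ∈ Cfsg.quartets d, ∀ Q' ∈ Cfsg.quartets d, ∃ g : Equiv.Perm Cfsg.GolayPt, g ∈ Cfsg.M24 ∧ g • d = d ∧ g • Q = Q' := by
  refine ⟨?_, fun Q hQ Q' hQ' => ?_⟩
  · obtain ⟨g, rfl⟩ := dodecad_trans D0_mem hd
    exact (ncard_smul_of_inv g (P := fun Q => Q ∈ quartets (ds D0)) fun y => smul_mem_quartets g).trans ncard_quartets0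
  · obtain ⟨g, h1, h2⟩ := quartet_std hd hQ
    obtain ⟨k, h3, h4⟩ := quartet_std hd hQ'
    refine ⟨(k * g⁻¹ : M24), (k * g⁻¹).2, ?_, ?_⟩
    · show (k * g⁻¹) • d = d
      rw [mul_smul, inv_smul_eq_iff.2 h1.symm, h3]
    · show (k * g⁻¹) • Q = Q'
      rw [mul_smul, inv_smul_eq_iff.2 h2.symm, h4]

end Cfsg.Agent.S1597
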