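import Cfsg.Statements.S1598
import Cfsg.Agent.Lib.Spor.M24Iso
import Cfsg.Agent.Lib.Spor.CGLin2

set_option autoImplicit false
open scoped Pointwise
open Cfsg

namespace Cfsg.Agent.S1598

open Cfsg CA.NatBits CA.OrbBfs CA.CGroup CA.CGConstr CA.CGParts CA.CGCert CA.CGRank CA.CGDec CA.Perm24 CA.Golay
open CA.M24Core CA.M24Sub CA.M24Tools MulAction
open scoped Pointwise
open CA.M24St2 CA.M24Syl CA.M24Cls CA.CGIso CA.CGLin CA.CGLin2 CA.M24Iso
set_option maxRecDepth 100000

/-- the normal subgroup of order 9 -/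
def tab : List ℕ := [566073426779046459040877649791461066728553822781039575296, 368286099536377188222149935655183928107609683288997822466, 492411866182025447335413477475538865436033431761980490241, 467323980511242304714939407062753315979718406674682281986, 345200260640816017146082649493046970083109807510035366401, 271929680910477456545159616866739190564120720275425853696, 516266551512378160850998542591548181452139160352008962561, 540497289868533911080118934487306756786208103931752612096, 124423629580011203740094974285226722296292940661116698626]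

/-- labels -/
noncomputable def cx (v : Fin 2 → ZMod 3) : ℕ := nth 0 tab ((v 0).val + 3 * (v 1).val)

theorem hom : ∃ φ : ↥(stabilizer M24 (ds D0) ⊓ stabilizer M24 (dss Q0)) →* GL (Fin 2) (ZMod 3), Function.Surjective φ := by
  obtain ⟨φ, h, -⟩ := label_GL mCj cx (by decide +kernel)
    (fun v => okCj (cs := tab) (by decide +kernel) _ ((by decide +kernel : ∀ v, cx v ∈ tab) v))
    stQ.ok stQ.gen [(!![0, 1; 1, 1], !![2, 1; 1, 0]), (!![2, 2; 1, 0], !![0, 1; 2, 2])] (by decide +kernel)
    [(368286099536377188222149935655183928107609683288997822466, [[0, 0, 3, 0, 3], [1, 3, 0, 0, 3, 0, 0], [0, 0, 2, 2, 1, 1]]), (467323980511242304714939407062753315979718406674682281986, [])]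
    (by decide +kernel) card_GL23 (by decide +kernel)
  exact ⟨φ, h⟩

theorem mtQ : MT (stabilizer M24 (ds D0) ⊓ stabilizer M24 (dss Q0)) (ds D0 : Set GolayPt) 1 :=
  mtM stQ.inn (by decide) inf_le_left [(0, [])] (by decide +kernel)

/-- A quartet stabiliser inside the dodecad stabiliser has order 432, a normal subgroup of order 9 with quotient GL(2, 3), and is transitive on the dodecad. -/
theorem result (d : Finset Cfsg.GolayPt) (hd : d ∈ Cfsg.dodecads) (Q : Finset (Finset Cfsg.GolayPt)) (hQ : Q ∈ Cfsg.quartets d) : Nat.card ↥(MulAction.stabilizer Cfsg.M24 d ⊓ MulAction.stabilizer Cfsg.M24 Q) = 432 ∧ (∃ (N : Subgroup ↥(MulAction.stabilizer Cfsg.M24 d ⊓ MulAction.stabilizer Cfsg.M24 Q)) (_ : N.Normal), Nat.card N = 9 ∧ Nonempty (↥(MulAction.stabilizer Cfsg.M24 d ⊓ MulAction.stabilizer Cfsg.M24 Q) ⧸ N ≃* GL (Fin 2) (ZMod 3))) ∧ ∀ p ∈ d, ∀ q ∈ d, ∃ g ∈ (MulAction.stabilizer Cfsg.M24 d ⊓ MulAction.stabilizer Cfsg.M24 Q), ((g : ↥Cfsg.M24) : Equiv.Perm Cfsg.GolayPt) p = q := by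
  obtain ⟨g, h1, h2⟩ := quartet_std hd hQ
  have hc := conj2 g (ds D0) (dss Q0)
  rw [h1, h2] at hc
  obtain ⟨φ, h⟩ := hom
  have h3 : Function.Surjective (φ.comp hc.equiv.symm.toMonoidHom) := h.comp hc.equiv.symm.surjective
  refine ⟨hc.card_eq.trans stQ.card, ⟨(φ.comp hc.equiv.symm.toMonoidHom).ker, inferInstance,
    card_ker_of_surj _ h3 (by norm_num) card_GL23 (hc.card_eq.trans stQ.card), quot_of_surj _ h3⟩, fun p hp q hq => ?_⟩
  have h4 := mtQ.conj hc
  rw [← Finset.coe_smul_finset, h1] at h4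
  exact MT.one h4 hp hq

end Cfsg.Agent.S1598
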