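import Cfsg.Statements.S1599
import Cfsg.Agent.Lib.Spor.M24Iso
import Cfsg.Agent.Lib.Spor.CGLin2

set_option autoImplicit false
open scoped Pointwise
open Cfsg

namespace Cfsg.Agent.S1599

open Cfsg CA.NatBits CA.OrbBfs CA.CGroup CA.CGConstr CA.CGParts CA.CGCert CA.CGRank CA.CGDec CA.Perm24 CA.Golay
open CA.M24Core CA.M24Sub CA.M24Tools MulAction
open scoped Pointwise
open CA.M24St2 CA.M24Syl CA.M24Cls CA.CGIso CA.CGLin CA.CGLin2 CA.M24Iso
set_option maxRecDepth 100000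

theorem dec : ∃ a b c d, Dec (stabilizer M24 (ds D0) ⊓ stabilizer M24 (dss Q0)) (quartets (ds D0)) [dss Q0, a, b, c, d]
    [1, 12, 27, 72, 108] := by
  obtain ⟨-, xs, h1, h2, h3⟩ := subOK_spec (A := mSS 4) st12.ok stQ.ok (sSS (l := Q0))
    (cs := [1276663464188692137680830471, 1549842903141869672789442571, 1276644573448242040521359371, 1239224544874229415658127371])
    (ns := [12, 27, 72, 108]) (by decide +kernel)
  rw [st12.gen, orbit_Q0] at h2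
  rw [stQ.gen] at h3
  obtain ⟨a, b, c, d, rfl⟩ : ∃ a b c d, xs = [a, b, c, d] := by
    rcases xs with _ | ⟨a, _ | ⟨b, _ | ⟨c, _ | ⟨d, _ | _⟩⟩⟩⟩ <;> have := h1.length_eq <;> simp at this
    exact ⟨a, b, c, d, rfl⟩
  exact ⟨a, b, c, d, dec_of_orbs h3 (Set.toFinite _) (inv_quartets inf_le_left)
    (List.forall_mem_cons.2 ⟨Q0_mem, h2⟩) (by rw [ncard_quartets0]; decide)⟩

/-- A quartet stabiliser has five orbits on the quartets of its dodecad, of sizes 1, 12, 27, 72, 108. -/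
theorem result (d : Finset Cfsg.GolayPt) (hd : d ∈ Cfsg.dodecads) (Q : Finset (Finset Cfsg.GolayPt)) (hQ : Q ∈ Cfsg.quartets d) : ∃ X₁ ∈ Cfsg.quartets d, ∃ X₂ ∈ Cfsg.quartets d, ∃ X₃ ∈ Cfsg.quartets d, ∃ X₄ ∈ Cfsg.quartets d, (MulAction.orbit ↥(MulAction.stabilizer Cfsg.M24 d ⊓ MulAction.stabilizer Cfsg.M24 Q) X₁).ncard = 12 ∧ (MulAction.orbit ↥(MulAction.stabilizer Cfsg.M24 d ⊓ MulAction.stabilizer Cfsg.M24 Q) X₂).ncard = 27 ∧ (MulAction.orbit ↥(MulAction.stabilizer Cfsg.M24 d ⊓ MulAction.stabilizer Cfsg.M24 Q) X₃).ncard = 72 ∧ (MulAction.orbit ↥(MulAction.stabilizer Cfsg.M24 d ⊓ MulAction.stabilizer Cfsg.M24 Q) X₄).ncard = 108 ∧ Cfsg.quartets d = {Q} ∪ MulAction.orbit ↥(MulAction.stabilizer Cfsg.M24 d ⊓ MulAction.stabilizer Cfsg.M24 Q) X₁ ∪ MulAction.orbit ↥(MulAction.stabilizer Cfsg.M24 d ⊓ MulAction.stabilizer Cfsg.M24 Q) X₂ ∪ MulAction.orbit ↥(MulAction.stabilizer Cfsg.M24 d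 ⊓ MulAction.stabilizer Cfsg.M24 Q) X₃ ∪ MulAction.orbit ↥(MulAction.stabilizer Cfsg.M24 d ⊓ MulAction.stabilizer Cfsg.M24 Q) X₄ := by
  obtain ⟨g, h1, h2⟩ := quartet_std hd hQ
  have hc := conj2 g (ds D0) (dss Q0)
  obtain ⟨a, b, c, e, h⟩ := dec
  have h3 := h.conj hc (Y' := quartets (g • ds D0)) fun y => smul_mem_quartets g
  simp only [List.map_cons, List.map_nil] at h3
  rw [h1, h2] at h3
  exact h3.four' inf_le_right

end Cfsg.Agent.S1599
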