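import Cfsg.Statements.S1600
import Cfsg.Agent.Lib.Spor.M24Iso
import Cfsg.Agent.Lib.Spor.CGLin2

set_option autoImplicit false
open scoped Pointwise
open Cfsg

namespace Cfsg.Agent.S1600

open Cfsg CA.NatBits CA.OrbBfs CA.CGroup CA.CGConstr CA.CGParts CA.CGCert CA.CGRank CA.CGDec CA.Perm24 CA.Golay
open CA.M24Core CA.M24Sub CA.M24Tools MulAction
open scoped Pointwise
open CA.M24St2 CA.M24Syl CA.M24Cls CA.CGIso CA.CGLin CA.CGLin2 CA.M24Iso
set_option maxRecDepth 100000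

theorem mt9 : MT (stabilizer M24 (ds D0) ⊓ stabilizer M24 (some 0 : GolayPt) ⊓ stabilizer M24 (some 1 : GolayPt) ⊓
    stabilizer M24 (some 2 : GolayPt)) (ds D0 : Set GolayPt)ᶜ 1 :=
  mtM' st9.inn (by decide) (inf_le_left.trans (inf_le_left.trans inf_le_left)) [(23, [])] (by decide +kernel)

/-- The pointwise stabiliser of three points of a dodecad inside the dodecad stabiliser (order 72) is transitive on the complementary dodecad. -/
theorem result (d : Finset Cfsg.GolayPt) (hd : d ∈ Cfsg.dodecads) (p q r : Cfsg.GolayPt) (hp : p ∈ d) (hq : q ∈ d) (hr : r ∈ d) (hpq : p ≠ q) (hpr : p ≠ r) (hqr : q ≠ r) : Nat.card ↥(MulAction.stabilizer Cfsg.M24 d ⊓ MulAction.stabilizer Cfsg.M24 p ⊓ MulAction.stabilizer Cfsg.M24 q ⊓ MulAction.stabilizer Cfsg.M24 r) = 72 ∧ ∀ x ∉ d, ∀ y ∉ d, ∃ g ∈ (MulAction.stabilizer Cfsg.M24 d ⊓ MulAction.stabilizer Cfsg.M24 p ⊓ MulAction.stabilizer Cfsg.M24 q ⊓ MulAction.stabilizer Cfsg.M24 r), ((g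 : ↥Cfsg.M24) : Equiv.Perm Cfsg.GolayPt) x = y := by
  obtain ⟨g, h1, h⟩ := flag_D hd (xs := [some 0, some 1, some 2]) (ys := [p, q, r]) (by decide) (by simp [*]) rfl
    (by decide) (by decide) (by simp [*])
  obtain ⟨h2, h3, h4⟩ : g • some 0 = p ∧ g • some 1 = q ∧ g • some 2 = r := by simpa using h
  have hc := (conj3 g (ds D0) (some 0 : GolayPt) (some 1 : GolayPt)).inf (conjTo_stabilizer g (some 2 : GolayPt))
  rw [h1, h2, h3, h4] at hc
  have h5 := mt9.conj hc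
  rw [Set.smul_set_compl, ← Finset.coe_smul_finset, h1] at h5
  exact ⟨hc.card_eq.trans st9.card, fun x hx y hy => MT.one h5 hx hy⟩

end Cfsg.Agent.S1600
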