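import Cfsg.Statements.S1602
import Cfsg.Agent.Lib.Spor.M24Iso
import Cfsg.Agent.Lib.Spor.CGLin2

set_option autoImplicit false
open scoped Pointwise
open Cfsg

namespace Cfsg.Agent.S1602

open Cfsg CA.NatBits CA.OrbBfs CA.CGroup CA.CGConstr CA.CGParts CA.CGCert CA.CGRank CA.CGDec CA.Perm24 CA.Golay
open CA.M24Core CA.M24Sub CA.M24Tools MulAction
open scoped Pointwise
open CA.M24St2 CA.M24Syl CA.M24Cls CA.CGIso CA.CGLin CA.CGLin2 CA.M24Iso
set_option maxRecDepth 100000

/-- generators -/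
def gPr : List ℕ := [564924424854766155640642055779149494975090053792495896576, 124618172968966861914290286846742580292289394887469630976]

theorem stPr : St gPr (stabilizer M24 (ds D0) ⊓ stabilizer M24 (some 0 : GolayPt) ⊓ stabilizer M24 (ds 8388640)) 120 :=
  stabM mSub st11 (sS (m := 8388640) (by decide)) 66
    [[1, 2, 0, 2, 0, 3, 3, 1], [2, 0, 2, 1, 3, 1, 3, 1, 2, 0]] [(7, [[1, 2, 2, 1, 3], [2, 0, 0, 3, 1, 1]]), (1, [[1, 3, 3, 3, 1]]), (2, [])] (by decide +kernel)

/-- In the 12-point action of the smallest Mathieu group the setwise stabiliser of a pair is isomorphic to the symmetric group of degree 5. -/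
theorem result (d : Finset Cfsg.GolayPt) (hd : d ∈ Cfsg.dodecads) (p q q' : Cfsg.GolayPt) (hp : p ∈ d) (hq : q ∉ d) (hq' : q' ∉ d) (hqq' : q ≠ q') : Nonempty (↥(MulAction.stabilizer Cfsg.M24 d ⊓ MulAction.stabilizer Cfsg.M24 p ⊓ MulAction.stabilizer Cfsg.M24 ({q, q'} : Finset Cfsg.GolayPt)) ≃* Equiv.Perm (Fin 5)) := by
  obtain ⟨g, h1, h2, h⟩ := flag_D1c hd hp (xs := [none, some 5]) (ys := [q, q']) (by decide) (by simpa) rfl (by decide)
    (by decide) (by simp [*])
  obtain ⟨h3, h4⟩ : g • none = q ∧ g • some 5 = q' := by simpa using h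
  have hc := conj3 g (ds D0) (some 0 : GolayPt) (ds 8388640)
  rw [h1, h2, show ds 8388640 = {none, some 5} by decide, Finset.smul_finset_insert, Finset.smul_finset_singleton,
    h3, h4, ← show ds 8388640 = {none, some 5} by decide] at hc
  obtain ⟨φ, h1, -⟩ := perm_surj mPt 5 [3, 4, 12, 13, 18] rfl okPt stPr.ok stPr.gen
    [(3, [[0, 2, 1, 2, 0, 2], [3, 0, 2]]), (4, [[0], [2, 1, 2, 0, 3]]), (12, [[2, 1, 3, 3]]), (13, [])] (by decide +kernel)
  obtain ⟨e⟩ := iso_of_surj φ h1 (by rw [stPr.card, Nat.card_perm]; simp; rfl)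
  exact ⟨hc.equiv.symm.trans e⟩

end Cfsg.Agent.S1602
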