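import Cfsg.Statements.S1604
import Cfsg.Agent.Lib.Spor.M24St2

set_option autoImplicit false
open scoped Pointwise
open Cfsg

namespace Cfsg.Agent.S1604

open Cfsg CA.NatBits CA.OrbBfs CA.CGroup CA.CGConstr CA.CGParts CA.CGCert CA.CGRank CA.CGDec CA.Perm24 CA.Golay
open CA.M24Core CA.M24Sub CA.M24Tools MulAction
open scoped Pointwise
open CA.M24St2

set_option maxRecDepth 100000 in
theorem chk : cntL octL (fun m => (tb m 23 && tb m 0) && Nat.beq (pc24 (Nat.land O0 m)) 2) = 16 ∧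
    cntL octL (fun m => (tb m 23 && tb m 0) && Nat.beq (pc24 (Nat.land O0 m)) 4) = 60 := by decide +kernel

set_option maxRecDepth 100000 in

/-- A hexad stabiliser in the two-point stabiliser has orbits of sizes 1, 16, 60 on the 77 hexads: the 16 hexads disjoint from it and the 60 meeting it in two points. -/
theorem result (p q : Cfsg.GolayPt) (hpq : p ≠ q) (o o' o'' : Finset Cfsg.GolayPt) (ho : o ∈ Cfsg.octads) (ho' : o' ∈ Cfsg.octads) (ho'' : o'' ∈ Cfsg.octads) (hp : p ∈ o ∧ p ∈ o' ∧ p ∈ o'') (hq : q ∈ o ∧ q ∈ o' ∧ q ∈ o'') (h : (o ∩ o').card = (o ∩ o'').card) : {x : Finset Cfsg.GolayPt | x ∈ Cfsg.octads ∧ p ∈ x ∧ q ∈ x ∧ (o ∩ x).card = 2}.ncard = 16 ∧ {x : Finset Cfsg.GolayPt | x ∈ Cfsg.octads ∧ p ∈ x ∧ q ∈ x ∧ (o ∩ x).card = 4}.ncard = 60 ∧ ∃ g : Equiv.Perm Cfsg.GolayPt, g ∈ Cfsg.M24 ∧ g p = p ∧ g q = q ∧ g • o = o ∧ g • o' = o'' := by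
  obtain ⟨g, rfl, h'⟩ := flag_O ho (xs := [none, some 0]) (ys := [p, q]) (by simp) (by simpa) rfl (by simp) (by decide)
    (by simp [hp.1, hq.1])
  obtain ⟨rfl, rfl⟩ : g • none = p ∧ g • some 0 = q := by simpa using h'
  have key : ∀ k, {o' | o' ∈ octads ∧ g • (none : GolayPt) ∈ o' ∧ g • (some 0 : GolayPt) ∈ o' ∧
      (g • ds O0 ∩ o').card = k}.ncard =
      cntL octL (fun m => (tb m 23 && tb m 0) && Nat.beq (pc24 (Nat.land O0 m)) k) := fun k => by
    rw [ncard_smul_of_inv g (P := fun o => o ∈ octads ∧ (none : GolayPt) ∈ o ∧ (some 0 : GolayPt) ∈ o ∧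
      (ds O0 ∩ o).card = k) fun y => by simp only [smul_mem_octads, Finset.smul_mem_smul_finset_iff, card_smul_inter]]
    exact ncard_octads fun m hm _ => by
      rw [Bool.and_eq_true, Bool.and_eq_true, beq_iff, mem_ds', mem_ds', card_inter' _ hm, and_assoc]; rfl
  refine ⟨(key 2).trans chk.1, (key 4).trans chk.2, ?_⟩
  obtain ⟨a, ha, rfl⟩ := exists_smul_ds g o'
  obtain ⟨b, hb, rfl⟩ := exists_smul_ds g o''
  rw [smul_mem_octads] at ho' ho''
  simp only [Finset.smul_mem_smul_finset_iff, mem_ds'] at hp hq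
  rw [card_smul_inter, card_smul_inter, card_inter' _ ha, card_inter' _ hb] at h
  obtain ⟨k, hk, e⟩ := keySub (L := octL) stO2.inn (fun m => cond (tb m 23 && tb m 0) (pc24 (Nat.land O0 m) + 1) 0) [8391797, 8499969, 8536111] (by decide +kernel) ha hb
    (octL_of ha ho') (octL_of hb ho'') (by rw [show tb a 23 = _ from hp.2.1, show tb a 0 = _ from hq.2.1]; simp)
    (by rw [show tb a 23 = _ from hp.2.1, show tb a 0 = _ from hq.2.1, show tb b 23 = _ from hp.2.2,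
      show tb b 0 = _ from hq.2.2, h])
  exact ⟨(g * k * g⁻¹ : M24), (g * k * g⁻¹).2, tr g k hk.1.2, tr g k hk.2, tr g k hk.1.1, tr g k e⟩

end Cfsg.Agent.S1604
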