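import Cfsg.Statements.S1605
import Cfsg.Agent.Lib.Spor.M24St2

set_option autoImplicit false
open scoped Pointwise
open Cfsg

namespace Cfsg.Agent.S1605

open Cfsg CA.NatBits CA.OrbBfs CA.CGroup CA.CGConstr CA.CGParts CA.CGCert CA.CGRank CA.CGDec CA.Perm24 CA.Golay
open CA.M24Core CA.M24Sub CA.M24Tools MulAction
open scoped Pointwise
open CA.M24St2

set_option maxRecDepth 100000 in
theorem chk : cntL octL (fun m => (tb m 23 && !(tb m 4)) && Nat.beq (pc24 (Nat.land O0 m)) 2) = 70 ∧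
    cntL octL (fun m => (tb m 23 && !(tb m 4)) && Nat.beq (pc24 (Nat.land O0 m)) 4) = 105 := by decide +kernel

set_option maxRecDepth 100000 in
theorem chk2 : cntL octL (fun m => tb m 23 && !(tb m 0)) = 176 := by decide +kernel

theorem std {p q : GolayPt} {o : Finset GolayPt} (h : o ∈ octads ∧ p ∈ o ∧ q ∉ o) :
    ∃ g : M24, g • ds O0 = o ∧ g • (some 4 : GolayPt) = q ∧ g • (none : GolayPt) = p := by
  simpa using flag_Oc1i h.1 h.2.2 (xs := [none]) (ys := [p]) (by simp) (by simp) rfl (by simp) (by decide)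
    (by simpa using h.2.1)

set_option maxRecDepth 100000 in

/-- The two-point stabiliser acts on the 176 octads through the first point avoiding the second with rank 3 and subdegrees 1, 70, 105 (intersections 8, 2, 4). -/
theorem result (p q : Cfsg.GolayPt) (hpq : p ≠ q) : {x : Finset Cfsg.GolayPt | (x ∈ Cfsg.octads ∧ p ∈ x ∧ q ∉ x)}.ncard = 176 ∧ (∀ o o' : Finset Cfsg.GolayPt, (o ∈ Cfsg.octads ∧ p ∈ o ∧ q ∉ o) → (o' ∈ Cfsg.octads ∧ p ∈ o' ∧ q ∉ o') → ∃ g : Equiv.Perm Cfsg.GolayPt, g ∈ Cfsg.M24 ∧ g p = p ∧ g q = q ∧ g • o = o') ∧ ∀ o : Finset Cfsg.GolayPt, (o ∈ Cfsg.octads ∧ p ∈ o ∧ q ∉ o) → {x : Finset Cfsg.GolayPt | (x ∈ Cfsg.octads ∧ p ∈ x ∧ q ∉ x) ∧ (o ∩ x).card = 2}.ncard = 70 ∧ {x : Finset Cfsg.GolayPt | (x ∈ Cfsg.octads ∧ p ∈ x ∧ q ∉ x) ∧ (o ∩ x).card = 4}.ncard = 105 ∧ ∀ o' o'' : Finset Cfsg.GolayPt, (o' ∈ Cfsg.octads ∧ p ∈ o' ∧ q ∉ o') → (o'' ∈ Cfsg.octads ∧ p ∈ o'' ∧ q ∉ o'') → (o ∩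 o').card = (o ∩ o'').card → ∃ g : Equiv.Perm Cfsg.GolayPt, g ∈ Cfsg.M24 ∧ g p = p ∧ g q = q ∧ g • o = o ∧ g • o' = o'' := by
  refine ⟨?_, fun o o' h h' => ?_, fun o h => ?_⟩
  · obtain ⟨g, rfl, rfl⟩ := exists_smul_pt2 (p := none) (q := some 0) (by simp) hpq
    rw [ncard_smul_of_inv g (P := fun o => o ∈ octads ∧ (none : GolayPt) ∈ o ∧ (some 0 : GolayPt) ∉ o)
      fun y => by simp only [smul_mem_octads, Finset.smul_mem_smul_finset_iff], ← chk2]
    exact ncard_octads fun m hm _ => by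
      rw [Bool.and_eq_true, mem_ds', mem_ds', Bool.not_eq_true', ← Bool.not_eq_true]; rfl
  · obtain ⟨g, rfl, rfl, rfl⟩ := std h
    obtain ⟨g', rfl, e1, e2⟩ := std h'
    exact ⟨(g' * g⁻¹ : M24), (g' * g⁻¹).2, (by rw [mul_smul, inv_smul_smul, e2] : (g' * g⁻¹) • g • (none : GolayPt) = g • (none : GolayPt)),
      (by rw [mul_smul, inv_smul_smul, e1] : (g' * g⁻¹) • g • (some 4 : GolayPt) = g • (some 4 : GolayPt)),
      (by rw [mul_smul, inv_smul_smul] : (g' * g⁻¹) • g • ds O0 = g' • ds O0)⟩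
  obtain ⟨g, rfl, rfl, rfl⟩ := std h
  have key : ∀ k, {o' | (o' ∈ octads ∧ g • (none : GolayPt) ∈ o' ∧ g • (some 4 : GolayPt) ∉ o') ∧
      (g • ds O0 ∩ o').card = k}.ncard =
      cntL octL (fun m => (tb m 23 && !(tb m 4)) && Nat.beq (pc24 (Nat.land O0 m)) k) := fun k => by
    rw [ncard_smul_of_inv g (P := fun o => o ∈ octads ∧ ((none : GolayPt) ∈ o ∧ (some 4 : GolayPt) ∉ o) ∧
      (ds O0 ∩ o).card = k)
      fun y => by simp only [smul_mem_octads, Finset.smul_mem_smul_finset_iff, card_smul_inter, and_assoc]]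
    exact ncard_octads fun m hm _ => by
      rw [Bool.and_eq_true, Bool.and_eq_true, beq_iff, mem_ds', mem_ds', card_inter' _ hm, Bool.not_eq_true',
        ← Bool.not_eq_true]; rfl
  refine ⟨(key 2).trans chk.1, (key 4).trans chk.2, fun o' o'' h1 h2 h5 => ?_⟩
  obtain ⟨a, ha, rfl⟩ := exists_smul_ds g o'
  obtain ⟨b, hb, rfl⟩ := exists_smul_ds g o''
  simp only [smul_mem_octads, Finset.smul_mem_smul_finset_iff, mem_ds', Bool.not_eq_true] at h1 h2
  rw [card_smul_inter, card_smul_inter, card_inter' _ ha, card_inter' _ hb] at h5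
  obtain ⟨k, hk, e⟩ := keySub (L := octL) stA7.inn (fun m => cond (tb m 23 && !(tb m 4)) (pc24 (Nat.land O0 m) + 1) 0) [8394986, 8490656, 8536111] (by decide +kernel) ha hb
    (octL_of ha h1.1) (octL_of hb h2.1) (by rw [show tb a 23 = _ from h1.2.1, show tb a 4 = _ from h1.2.2]; simp)
    (by rw [show tb a 23 = _ from h1.2.1, show tb a 4 = _ from h1.2.2, show tb b 23 = _ from h2.2.1,
      show tb b 4 = _ from h2.2.2, h5])
  exact ⟨(g * k * g⁻¹ : M24), (g * k * g⁻¹).2, tr g k hk.2, tr g k hk.1.2, tr g k hk.1.1, tr g k e⟩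

end Cfsg.Agent.S1605
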