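import Cfsg.Statements.S1607
import Cfsg.Agent.Lib.Spor.M24St2

set_option autoImplicit false
open scoped Pointwise
open Cfsg

namespace Cfsg.Agent.S1607

open Cfsg CA.NatBits CA.OrbBfs CA.CGroup CA.CGConstr CA.CGParts CA.CGCert CA.CGRank CA.CGDec CA.Perm24 CA.Golay
open CA.M24Core CA.M24Sub CA.M24Tools MulAction
open scoped Pointwise
open CA.M24St2

set_option maxRecDepth 100000 in
theorem chk : cntL octL (fun m => (tb m 23) && Nat.beq (pc24 (Nat.land O0 m)) 2) = 112 ∧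
    cntL octL (fun m => (tb m 23) && Nat.beq (pc24 (Nat.land O0 m)) 4) = 140 := by decide +kernel

set_option maxRecDepth 100000 in

/-- The point stabiliser acts on the 253 heptads of its S(4, 7, 23) with rank 3 and subdegrees 1, 112, 140 (intersections 8, 2, 4). -/
theorem result (x : Cfsg.GolayPt) (o : Finset Cfsg.GolayPt) (ho : o ∈ Cfsg.octads) (hx : x ∈ o) : {o' : Finset Cfsg.GolayPt | o' ∈ Cfsg.octads ∧ x ∈ o' ∧ (o ∩ o').card = 2}.ncard = 112 ∧ {o' : Finset Cfsg.GolayPt | o' ∈ Cfsg.octads ∧ x ∈ o' ∧ (o ∩ o').card = 4}.ncard = 140 ∧ ∀ o' o'' : Finset Cfsg.GolayPt, o' ∈ Cfsg.octads → o'' ∈ Cfsg.octads → x ∈ o' → x ∈ o'' → (o ∩ o').card = (o ∩ o'').card → ∃ g : Equiv.Perm Cfsg.GolayPt, g ∈ Cfsg.M24 ∧ g x = x ∧ g • o = o ∧ g • o' = o'' := by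
  obtain ⟨g, rfl, h⟩ := flag_O ho (xs := [none]) (ys := [x]) (by simp) (by simp) rfl (by simp) (by decide) (by simpa)
  obtain rfl : g • none = x := by simpa using h
  have key : ∀ k, {o' | o' ∈ octads ∧ g • (none : GolayPt) ∈ o' ∧ (g • ds O0 ∩ o').card = k}.ncard =
      cntL octL (fun m => (tb m 23) && Nat.beq (pc24 (Nat.land O0 m)) k) := fun k => by
    rw [ncard_smul_of_inv g (P := fun o => o ∈ octads ∧ (none : GolayPt) ∈ o ∧ (ds O0 ∩ o).card = k)
      fun y => by rw [smul_mem_octads, Finset.smul_mem_smul_finset_iff, card_smul_inter]]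
    exact ncard_octads fun m hm _ => by rw [Bool.and_eq_true, beq_iff, mem_ds', card_inter' _ hm]; rfl
  refine ⟨(key 2).trans chk.1, (key 4).trans chk.2, fun o' o'' h1 h2 h3 h4 h5 => ?_⟩
  obtain ⟨a, ha, rfl⟩ := exists_smul_ds g o'
  obtain ⟨b, hb, rfl⟩ := exists_smul_ds g o''
  rw [smul_mem_octads] at h1 h2
  rw [Finset.smul_mem_smul_finset_iff, mem_ds'] at h3 h4
  rw [card_smul_inter, card_smul_inter, card_inter' _ ha, card_inter' _ hb] at h5
  obtain ⟨k, hk, e⟩ := keySub (L := octL) stO1.inn (fun m => cond (tb m 23) (pc24 (Nat.land O0 m) + 1) 0) [8391797, 8401364, 8536111] (by decide +kernel) ha hb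
    (octL_of ha h1) (octL_of hb h2) (by rw [show tb a 23 = _ from h3]; simp)
    (by rw [show tb a 23 = _ from h3, show tb b 23 = _ from h4, h5])
  exact ⟨(g * k * g⁻¹ : M24), (g * k * g⁻¹).2, tr g k hk.2, tr g k hk.1, tr g k e⟩

end Cfsg.Agent.S1607
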