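import Cfsg.Statements.S1610
import Cfsg.Agent.Lib.Spor.SmallCodes

set_option autoImplicit false
open Cfsg

namespace Cfsg.Agent.S1610

open Cfsg CA.NatBits CA.SmallCodes Finset

/-- The hexacode has 64 words, minimum weight 4, and weight distribution 0^1 4^45 6^18. -/
theorem result (F : Type*) [Field F] [Fintype F] [DecidableEq F] (hF : Fintype.card F = 4) (ω : F) (hω : ω ^ 2 + ω + 1 = 0) : Nat.card ↥(Cfsg.hexacode F ω) = 64 ∧ (∀ x ∈ Cfsg.hexacode F ω, x ≠ 0 → (Finset.univ.filter fun i => x i ≠ 0).card = 4 ∨ (Finset.univ.filter fun i => x i ≠ 0).card = 6) ∧ {x : Fin 6 → F | x ∈ Cfsg.hexacode F ω ∧ (Finset.univ.filter fun i => x i ≠ 0).card = 4}.ncard = 45 ∧ {x : Fin 6 → F | x ∈ Cfsg.hexacode F ω ∧ (Finset.univ.filter fun i => x i ≠ 0).card = 6}.ncard = 18 := by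
  refine ⟨?_, fun x hx h0 => ?_, (ncard_h hF hω 4).trans (by decide +kernel),
    (ncard_h hF hω 6).trans (by decide +kernel)⟩
  · have := (ncard_sp (E := Enc.fin 6) (CA.CMat.sound4 hF hω) x4 xl HL_eq (by decide +kernel) (P := fun _ => True)
      (f := fun _ => true) (by simp)).trans (show _ = 64 by decide +kernel)
    rw [← this, hexa_eq hF hω]; simp only [and_true]; rfl
  · obtain ⟨c, hc, rfl⟩ := (mem_sp' (CA.CMat.sound4 hF hω) x4 xl).1 (hexa_eq hF hω ▸ hx)
    have h := allL_iff.1 (show allL HL (fun c => Nat.beq c 0 || force (pcRec 6 (sup 6 c)) fun w =>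
      Nat.beq w 4 || Nat.beq w 6) = true by decide +kernel) c (HL_eq ▸ hc)
    simp only [Bool.or_eq_true, beq_iff, CA.Perm24.fe] at h
    rw [supp_W (CA.CMat.sound4 hF hω) (can_CL x4 xl hc), Enc.card_ds]
    rcases h with rfl | h
    · exact absurd (funext fun p => by simp [W, ap_eq, CA.CMat.elQ]) h0
    · exact h

end Cfsg.Agent.S1610
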