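import Cfsg.Statements.S1614
import Cfsg.Agent.Lib.Spor.Fis14

set_option autoImplicit false
open Cfsg

namespace Cfsg.Agent.S1614

open CA.Fis CA.Tr3Struct CA.CForm CA.Tr3Rank

/-- If the commuting transpositions of one transposition generate a solvable group, a Fischer 3-transposition group is S5, S6, PSU(4, 2) or PSU(5, 2). -/
theorem result {G : Type*} [Group G] [Finite G] (hsol : ∀ N : Subgroup G, N.Normal → Group.IsSolvable ↥N → N = ⊥) (hperf : ⁅commutator G, commutator G⁆ = commutator G) {D : Set G} (hD : Cfsg.IsThreeTranspositionClass D) (x : G) (hx : x ∈ D) (hs : Group.IsSolvable ↥(Subgroup.closure {y : G | y ∈ D ∧ y ≠ x ∧ Commute x y})) : Nonempty (G ≃* Equiv.Perm (Fin 5)) ∨ Nonempty (G ≃* Equiv.Perm (Fin 6)) ∨ ∃ (F : Type) (_ : Field F) (_ : Fintype F), Fintype.card F = 4 ∧ (Nonempty (G ≃* Cfsg.PSU 4 F 2) ∨ Nonempty (G ≃* Cfsg.PSU 5 F 2)) := by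
    have p := pr_of_prim (prim_of_fischer hsol hperf hD)
    have g : Gen D := ⟨hD.2.2, center_bot_of_sol hsol⟩
    obtain ⟨a, ha, n⟩ := p.cn.edge x hx
    have k : ¬ Pr (Mm D x a) := fun q => q.nonsolv (fun y hy => Subgroup.subset_closure hy.1) hs
    by_cases hv : VL D
    · rcases p.card35 hv with h3 | h5
      · obtain ⟨m, f, hf, τ, c⟩ := p.sp_of_three h3
        obtain ⟨W, a1, a2, τ', a3⟩ := c.mm0 hf hx ⟨ha, n⟩
        obtain ⟨u, hu, v, hv', e⟩ := p.pair
        have h4 := c.four_le hf (x := u) (y := v) ⟨by simp [hu, hv'], by simp [e]⟩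
        have h5 := mt (a3.sp_pr a1) k
        obtain ⟨φ, hφ⟩ := p.sp4 (p.symp_of_three hv h3) c hf (by omega)
        exact .inr (.inl ⟨(perm_of_fiso (by norm_num) hφ g.top g.cen).choose⟩)
      · obtain ⟨F, _, _, hF⟩ := f4_exists
        obtain ⟨m, hm, τ, c⟩ := p.u_of_five h5 hF
        obtain ⟨W, a1, a2, τ', a3⟩ := c.mm0 (hermStd_nondeg hF m) hx ⟨ha, n⟩
        have h5 := mt (a3.u_pr a1) k
        obtain ⟨g', φ, hφ⟩ := u_bridge hF hm c
        have e := (g'.equiv hφ g).choose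
        rw [Module.finrank_fin_fun] at a2
        obtain rfl | rfl : m = 4 ∨ m = 5 := by omega
        exacts [.inr (.inr ⟨F, _, _, hF, .inl ⟨e⟩⟩), .inr (.inr ⟨F, _, _, hF, .inr ⟨e⟩⟩)]
    · by_cases hw : ∀ v ∈ Dd D x, ∀ d ∈ Dd D x, W (Dd D x) v d → v = d
      · exact absurd hs ((p.pr_dd hv hx hw).nonsolv Subgroup.subset_closure)
      push Not at hw
      obtain ⟨v, hv', d, hd, w, n⟩ := hw
      obtain ⟨-, φ, hφ⟩ := p.prim_lam0 hx hv' hd w n
      exact .inl ⟨(perm_of_fiso (by norm_num) hφ g.top g.cen).choose⟩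

end Cfsg.Agent.S1614
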