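import Cfsg.Statements.S1622
import Cfsg.Agent.Lib.Spor.H28J2
-- import your own Cfsg.Agent.* helpers here

set_option autoImplicit false
open Quaternion
open Cfsg

namespace Cfsg.Agent.S1622

/-- The reflection group is transitive on its 315 reflections by conjugation. -/
theorem result (f f' : Equiv.Perm ↥Cfsg.Spor.icoLeech) (hf : Cfsg.Spor.IsIcoReflection f) (hf' : Cfsg.Spor.IsIcoReflection f') : ∃ g ∈ Cfsg.Spor.twoJ2, g * f * g⁻¹ = f' := by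
  obtain ⟨i, hi, rfl⟩ := CA.H28Ico.isRefl_iff'.1 hf
  obtain ⟨j, hj, rfl⟩ := CA.H28Ico.isRefl_iff'.1 hf'
  obtain ⟨a, ha⟩ := CA.H28Ico.ρ_conj ⟨i, hi⟩
  obtain ⟨b, hb⟩ := CA.H28Ico.ρ_conj ⟨j, hj⟩
  have : (b * a⁻¹) * CA.H28Ico.ρ ⟨i, hi⟩ * (b * a⁻¹)⁻¹ = CA.H28Ico.ρ ⟨j, hj⟩ := by rw [← ha, ← hb]; group
  exact ⟨_, (b * a⁻¹).2, congrArg Subtype.val this⟩

end Cfsg.Agent.S1622
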