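import Cfsg.Statements.S1630
import Cfsg.Agent.Lib.Lin.Tr3

set_option autoImplicit false
open scoped MatrixGroups
open Cfsg

namespace Cfsg.Agent.S1630

open CA.CForm CA.CForm.Form Module in
/-- The orthogonal transvections of the minus-type orthogonal group in dimension ≥ 6 over the field with two elements form a generating conjugacy class of 3-transpositions. -/
theorem result (m : ℕ) (hm : 2 ≤ m) : Cfsg.IsThreeTranspositionClass {g : ↥(Cfsg.isometryGroup (ZMod 2) (Cfsg.quadFormMinus m (ZMod 2) 1 1)) | (((g : GL ((Fin m ⊕ Fin m) ⊕ Fin 2) (ZMod 2)) : Matrix ((Fin m ⊕ Fin m) ⊕ Fin 2) ((Fin m ⊕ Fin m) ⊕ Fin 2) (ZMod 2)) - 1).rank = 1} := by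
  exact (minusForm_nondeg m (a := (1 : ZMod 2)) (b := 1) (by decide)).orth_three_class (by simp; omega)
    (orthEquiv (minusForm m 1 1)) fun g => by rw [← rank_sub_one_eq _ _ (orthEquiv_apply _ g)]; rfl

end Cfsg.Agent.S1630
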