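import Cfsg.Statements.S1635
import Cfsg.Agent.Lib.Spor.GolayUniq

set_option autoImplicit false
open Cfsg

namespace Cfsg.Agent.S1635

open Cfsg CA.NatBits CA.Golay CA.M24Core CA.M24Sub CA.M24St2 CA.StSearch CA.StModel CA.CGCert Finset MulAction
open scoped Pointwise

/-- Coset leaders of the length-24 code: a coset contains a unique word of weight ≤ 3, or else exactly six words of weight 4 and none lighter. -/
theorem result (w : Cfsg.GolayPt → ZMod 2) : ({v : Cfsg.GolayPt → ZMod 2 | hammingNorm v ≤ 4 ∧ w - v ∈ Cfsg.golayCode}.ncard = 1 ∧ ∃ v : Cfsg.GolayPt → ZMod 2, hammingNorm v ≤ 3 ∧ w - v ∈ Cfsg.golayCode) ∨ ({v : Cfsg.GolayPt → ZMod 2 | hammingNorm v ≤ 4 ∧ w - v ∈ Cfsg.golayCode}.ncard = 6 ∧ ∀ v : Cfsg.GolayPt → ZMod 2, w - v ∈ Cfsg.golayCode → hammingNorm v ≤ 4 → hammingNorm v = 4) := by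
  have e : {v : GolayPt → ZMod 2 | hammingNorm v ≤ 4 ∧ w - v ∈ golayCode} =
      {v | v - w ∈ golayCode ∧ hammingNorm v ≤ 4} := by
    ext v; rw [Set.mem_ofPred_eq, Set.mem_ofPred_eq, and_comm, ← golayCode.neg_mem_iff, neg_sub]
  rw [e]
  rcases CA.GolayUniq.cosets card_GolayPt CA.GolayUniq.card_golay CA.GolayUniq.min_golay w with ⟨u, h1, h2⟩ | h
  · have : u ∈ {v | v - w ∈ golayCode ∧ hammingNorm v ≤ 4} := h1 ▸ rfl
    exact Or.inl ⟨by rw [h1, Set.ncard_singleton], u, h2, by simpa using golayCode.neg_mem this.1⟩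
  · exact Or.inr ⟨h.1, fun v h1 h2 => (h.2 v ⟨by simpa using golayCode.neg_mem h1, h2⟩).1⟩

end Cfsg.Agent.S1635
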