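import Cfsg.Statements.S1636
import Cfsg.Agent.Lib.Spor.GolayUniq

set_option autoImplicit false
open Cfsg

namespace Cfsg.Agent.S1636

open Cfsg CA.NatBits CA.Golay CA.M24Core CA.M24Sub CA.M24St2 CA.StSearch CA.StModel CA.CGCert Finset MulAction
open scoped Pointwise

theorem norm_opt (w : GolayPt → ZMod 2) :
    hammingNorm w = hammingNorm (fun x : ZMod 23 => w (some x)) + if w none = 0 then 0 else 1 := by
  simp only [hammingNorm, card_filter]
  rw [Fintype.sum_option, add_comm]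
  congr 1; split_ifs <;> simp_all

theorem inj {w w' : GolayPt → ZMod 2} (hw : w ∈ golayCode) (hw' : w' ∈ golayCode)
    (h : (fun x : ZMod 23 => w (some x)) = fun x => w' (some x)) : w = w' := by
  by_contra hne
  have h1 := CA.GolayUniq.min_golay _ (golayCode.sub_mem hw hw') (sub_ne_zero.2 hne)
  have h4 := norm_opt (w - w')
  rw [show (fun x => (w - w') (some x)) = 0 from funext fun x => sub_eq_zero.2 (congrFun h x), hammingNorm_zero] at h4
  split_ifs at h4 <;> omega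

theorem cnt (P : ℕ → Prop) (f : ℕ → Bool) (h : ∀ n, P n ↔ f n = true) :
    {u : ZMod 23 → ZMod 2 | u ∈ {u : ZMod 23 → ZMod 2 | ∃ w ∈ golayCode, ∀ x : ZMod 23, u x = w (some x)} ∧
      P (hammingNorm u)}.ncard = cntL cwL fun m => f (pc24 (Nat.land m 8388607)) := by
  rw [← ncard_Cw (P := fun s => P (s ∩ ds 8388607).card) fun m hm _ => by rw [CA.M24Tools.card_inter hm, h]]
  have key : ∀ w : GolayPt → ZMod 2, hammingNorm (fun x : ZMod 23 => w (some x)) = (support₂ w ∩ ds 8388607).card :=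
    fun w => by
      rw [← card_support, ← card_map ⟨some, Option.some_injective _⟩]; congr 1; ext p
      cases p <;> simp [Y23, mem_support]
  refine (Set.ncard_congr (fun s _ => fun x => CA.GolayUniq.ind s (some x)) ?_ ?_ ?_).symm
  · rintro _ ⟨⟨w, hw, rfl⟩, h⟩
    rw [CA.GolayUniq.ind_support]
    exact ⟨⟨w, hw, fun _ => rfl⟩, by rwa [key]⟩
  · rintro _ _ ⟨⟨w, hw, rfl⟩, -⟩ ⟨⟨w', hw', rfl⟩, -⟩ h
    rw [CA.GolayUniq.ind_support, CA.GolayUniq.ind_support] at h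
    rw [inj hw hw' h]
  · rintro u ⟨⟨w, hw, e⟩, h⟩
    obtain rfl : u = fun x => w (some x) := funext e
    exact ⟨support₂ w, ⟨⟨w, hw, rfl⟩, by rwa [← key]⟩, by rw [CA.GolayUniq.ind_support]⟩

theorem cnt' (j : ℕ) :
    {u : ZMod 23 → ZMod 2 | u ∈ {u : ZMod 23 → ZMod 2 | ∃ w ∈ golayCode, ∀ x : ZMod 23, u x = w (some x)} ∧
      hammingNorm u = j}.ncard = cntL cwL fun m => Nat.beq (pc24 (Nat.land m 8388607)) j :=
  cnt (· = j) (Nat.beq · j) fun _ => beq_iff.symm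

/-- The punctured length-23 code has weight distribution 0^1 7^253 8^506 11^1288 12^1288 15^506 16^253 23^1. -/
theorem result : {u : ZMod 23 → ZMod 2 | ∃ w ∈ Cfsg.golayCode, ∀ x : ZMod 23, u x = w (some x)}.ncard = 4096 ∧ {u : ZMod 23 → ZMod 2 | u ∈ {u : ZMod 23 → ZMod 2 | ∃ w ∈ Cfsg.golayCode, ∀ x : ZMod 23, u x = w (some x)} ∧ hammingNorm u = 7}.ncard = 253 ∧ {u : ZMod 23 → ZMod 2 | u ∈ {u : ZMod 23 → ZMod 2 | ∃ w ∈ Cfsg.golayCode, ∀ x : ZMod 23, u x = w (some x)} ∧ hammingNorm u = 8}.ncard = 506 ∧ {u : ZMod 23 → ZMod 2 | u ∈ {u : ZMod 23 → ZMod 2 | ∃ w ∈ Cfsg.golayCode, ∀ x : ZMod 23, u x = w (some x)} ∧ hammingNorm u = 11}.ncard = 1288 ∧ {u : ZMod 23 → ZMod 2 | u ∈ {u : ZMod 23 → ZMod 2 | ∃ w ∈ Cfsg.golayCode, ∀ x : ZMod 23, u x = w (some x)} ∧ hammingNorm u = 12}.ncard = 1288 ∧ {u : ZMod 23 → ZMod 2 | u ∈ {u : ZMod 23 → ZMod 2 | ∃ w ∈ Cfsg.golayCode, ∀ x : ZMod 23, u x = w (some x)} ∧ hammingNorm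 u = 15}.ncard = 506 ∧ {u : ZMod 23 → ZMod 2 | u ∈ {u : ZMod 23 → ZMod 2 | ∃ w ∈ Cfsg.golayCode, ∀ x : ZMod 23, u x = w (some x)} ∧ hammingNorm u = 16}.ncard = 253 ∧ ∀ u ∈ {u : ZMod 23 → ZMod 2 | ∃ w ∈ Cfsg.golayCode, ∀ x : ZMod 23, u x = w (some x)}, u ≠ 0 → 7 ≤ hammingNorm u := by
  have h0 := cnt (fun _ => True) (fun _ => true) (by simp)
  simp only [and_true, Set.ofPred_mem_eq] at h0
  refine ⟨h0.trans (by decide +kernel), (cnt' 7).trans (by decide +kernel), (cnt' 8).trans (by decide +kernel),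
    (cnt' 11).trans (by decide +kernel), (cnt' 12).trans (by decide +kernel), (cnt' 15).trans (by decide +kernel),
    (cnt' 16).trans (by decide +kernel), ?_⟩
  rintro u ⟨w, hw, e⟩ hu
  obtain rfl : u = fun x => w (some x) := funext e
  have h1 := CA.GolayUniq.min_golay w hw fun h => hu (by rw [h]; rfl)
  have h2 := norm_opt w
  split_ifs at h2 <;> omega

end Cfsg.Agent.S1636
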