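import Cfsg.Statements.S1637
import Cfsg.Agent.Lib.Spor.GolayUniq

set_option autoImplicit false
open Cfsg

namespace Cfsg.Agent.S1637

open Cfsg CA.NatBits CA.Golay CA.M24Core CA.M24Sub CA.M24St2 CA.StSearch CA.StModel CA.CGCert Finset MulAction
open scoped Pointwise

theorem norm_opt (w : GolayPt → ZMod 2) :
    hammingNorm w = hammingNorm (fun x : ZMod 23 => w (some x)) + if w none = 0 then 0 else 1 := by
  simp only [hammingNorm, card_filter]
  rw [Fintype.sum_option, add_comm]
  congr 1; split_ifs <;> simp_all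

/-- The punctured length-23 code is a perfect 3-error-correcting code: each word of length 23 is within distance 3 of exactly one codeword. -/
theorem result (u : ZMod 23 → ZMod 2) : ∃! c : ZMod 23 → ZMod 2, c ∈ {u : ZMod 23 → ZMod 2 | ∃ w ∈ Cfsg.golayCode, ∀ x : ZMod 23, u x = w (some x)} ∧ hammingDist u c ≤ 3 := by
  refine existsUnique_of_exists_of_unique ?_ ?_
  · let w : GolayPt → ZMod 2 := fun p => p.elim (if Even (hammingNorm u) then 1 else 0) u
    have hw : Odd (hammingNorm w) := by
      rw [norm_opt]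
      show Odd (hammingNorm u + if (if Even (hammingNorm u) then (1 : ZMod 2) else 0) = 0 then 0 else 1)
      by_cases h : Even (hammingNorm u)
      · simp [h]
      · simpa [h] using Nat.not_even_iff_odd.1 h
    obtain ⟨v, h1, h2⟩ : ∃ v, v - w ∈ golayCode ∧ hammingNorm v ≤ 4 := by
      rcases CA.GolayUniq.cosets card_GolayPt CA.GolayUniq.card_golay CA.GolayUniq.min_golay w with ⟨u, h1, -⟩ | h
      · exact ⟨u, (h1 ▸ rfl : u ∈ {v | v - w ∈ golayCode ∧ hammingNorm v ≤ 4})⟩
      · exact Set.nonempty_of_ncard_ne_zero (h.1.trans_ne (by norm_num))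
    have h3 := CA.GolayUniq.dvd_golay h1
    have h4 := CA.GolayUniq.norm_add v w
    rw [← CA.GolayUniq.sub_eq] at h4
    have h5 := norm_opt v
    refine ⟨fun x => (v - w) (some x), ⟨_, h1, fun _ => rfl⟩, ?_⟩
    rw [hammingDist_eq_hammingNorm, show (-u + fun x => (v - w) (some x)) = fun x => v (some x) from funext fun x => by
      show -u x + (v (some x) - u x) = _
      rw [CharTwo.neg_eq, CharTwo.sub_eq_add, add_comm, add_assoc, CharTwo.add_self_eq_zero, add_zero]]
    obtain ⟨k, hk⟩ := hw
    omega
  · rintro c c' ⟨⟨w, hw, e⟩, h1⟩ ⟨⟨w', hw', e'⟩, h2⟩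
    have h3 := hammingDist_triangle_left c c' u
    rw [hammingDist_eq_hammingNorm c c'] at h3
    have h4 := norm_opt (-w + w')
    rw [show (fun x => (-w + w') (some x)) = -c + c' from funext fun x => by simp [e, e']] at h4
    by_contra hne
    have := CA.GolayUniq.min_golay _ (golayCode.add_mem (golayCode.neg_mem hw) hw') fun h => hne (funext fun x => by
      rw [e, e', neg_add_eq_zero.1 h])
    split_ifs at h4 <;> omega

end Cfsg.Agent.S1637
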