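import Cfsg.Statements.S1638
import Cfsg.Agent.Lib.Spor.M24Iso
import Cfsg.Agent.Lib.Spor.CGLin2

set_option autoImplicit false
open scoped Pointwise
open Cfsg

namespace Cfsg.Agent.S1638

open Cfsg CA.NatBits CA.OrbBfs CA.CGroup CA.CGConstr CA.CGParts CA.CGCert CA.CGRank CA.CGDec CA.Perm24 CA.Golay
open CA.M24Core CA.M24Sub CA.M24Tools MulAction
open scoped Pointwise
open CA.M24St2 CA.M24Syl CA.M24Cls CA.CGIso CA.CGLin CA.CGLin2 CA.M24Iso
set_option maxRecDepth 100000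

/-- octads through the standard tetrad -/
def L4 : List ℕ := [12656663, 8536111, 11010247, 9471495, 8657159]

theorem hL4 : octL.filter (fun o => Nat.beq (Nat.land 8388615 o) 8388615) = L4 := by decide +kernel

/-- test -/
noncomputable def inO (m : ℕ) : Bool := anyL L4 (fun o => Nat.beq (Nat.land m o) m)

/-- avoids the two points -/
def av (m : ℕ) : Bool := !(tb m 23) && !(tb m 0)

theorem chk : cntL (kSub 24 2) (fun m => av m && Nat.beq (Nat.land 6 m) 0 && inO m) = 30 ∧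
    cntL (kSub 24 2) (fun m => av m && Nat.beq (Nat.land 6 m) 0 && !(inO m)) = 160 := by decide +kernel

theorem iff1 (g : M24) (y : Finset GolayPt) :
    (∃ o ∈ octads, g • (none : GolayPt) ∈ o ∧ g • (some 0 : GolayPt) ∈ o ∧ g • ds 6 ∪ g • y ⊆ o) ↔
      ∃ o ∈ octads, none ∈ o ∧ some 0 ∈ o ∧ ds 6 ∪ y ⊆ o :=
  exists_octad_smul g fun o => by
    rw [← Finset.smul_finset_union, Finset.smul_finset_subset_smul_finset_iff, Finset.smul_mem_smul_finset_iff,
      Finset.smul_mem_smul_finset_iff]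

theorem iff2 {m : ℕ} (hm : m < 2 ^ 24) : (∃ o ∈ octads, none ∈ o ∧ some 0 ∈ o ∧ ds 6 ∪ ds m ⊆ o) ↔ inO m = true := by
  rw [inO, ← exists_octad_iff (by decide) hL4 hm, show ds 8388615 = insert none (insert (some 0) (ds 6)) by decide]
  simp only [Finset.union_subset_iff, Finset.insert_subset_iff, and_assoc]

theorem av_iff {m : ℕ} : av m = true ↔ none ∉ ds m ∧ some 0 ∉ ds m := by
  rw [av, mem_ds', mem_ds', Bool.and_eq_true, Bool.not_eq_true', Bool.not_eq_true', Bool.not_eq_true, Bool.not_eq_true]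
  rfl

/-- Fix two points p ≠ q and a pair s of two further points. Among the pairs avoiding p, q and disjoint from s, exactly 30 lie in an octad together with p, q and s and exactly 160 do not; and any two pairs other than s that meet s in equally many points and agree on that octad property are carried to one another by an element of the group of the length-24 code fixing p, q and s. -/
theorem result (p q : Cfsg.GolayPt) (hpq : p ≠ q) (s : Finset Cfsg.GolayPt) (hs : (s.card = 2 ∧ p ∉ s ∧ q ∉ s)) : {t : Finset Cfsg.GolayPt | (t.card = 2 ∧ p ∉ t ∧ q ∉ t) ∧ Disjoint s t ∧ (∃ o ∈ Cfsg.octads, p ∈ o ∧ q ∈ o ∧ s ∪ t ⊆ o)}.ncard = 30 ∧ {t : Finset Cfsg.GolayPt | (t.card = 2 ∧ p ∉ t ∧ q ∉ t) ∧ Disjoint s t ∧ ¬ (∃ o ∈ Cfsg.octads, p ∈ o ∧ q ∈ o ∧ s ∪ t ⊆ o)}.ncard = 160 ∧ ∀ t t' : Finset Cfsg.GolayPt, (t.card = 2 ∧ p ∉ t ∧ q ∉ t) → (t'.card = 2 ∧ p ∉ t' ∧ q ∉ t') → t ≠ s → t' ≠ s → (s ∩ t).card = (s ∩ t').card → ((∃ o ∈ Cfsg.octads,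 p ∈ o ∧ q ∈ o ∧ s ∪ t ⊆ o) ↔ (∃ o ∈ Cfsg.octads, p ∈ o ∧ q ∈ o ∧ s ∪ t' ⊆ o)) → ∃ g : Equiv.Perm Cfsg.GolayPt, g ∈ Cfsg.M24 ∧ g p = p ∧ g q = q ∧ g • s = s ∧ g • t = t' := by
  obtain ⟨a, b, hab, rfl⟩ := Finset.card_eq_two.1 hs.1
  have h1 := hs.2
  simp only [Finset.mem_insert, Finset.mem_singleton, not_or] at h1
  obtain ⟨g, h⟩ := exists_smul_list (xs := [none, some 0, some 1, some 2]) (ys := [p, q, a, b]) (by decide)
    (by simp [*]) rfl (by decide)
  obtain ⟨rfl, rfl, rfl, rfl⟩ : g • none = p ∧ g • some 0 = q ∧ g • some 1 = a ∧ g • some 2 = b := by simpa using h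
  rw [← Finset.smul_finset_singleton, ← Finset.smul_finset_insert, ← show ds 6 = {some 1, some 2} by decide]
  refine ⟨?_, ?_, fun U U' h1 h2 h3 h4 h5 h6 => ?_⟩
  · rw [ncard_smul_of_inv g (P := fun U => U.card = 2 ∧ (none ∉ U ∧ some 0 ∉ U) ∧ Disjoint (ds 6) U ∧
      ∃ o ∈ octads, none ∈ o ∧ some 0 ∈ o ∧ ds 6 ∪ U ⊆ o) fun y => by
        rw [Finset.card_smul_finset, disjoint_smul, iff1, Finset.smul_mem_smul_finset_iff,
          Finset.smul_mem_smul_finset_iff, and_assoc], ← chk.1]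
    exact ncard_kSub fun m hm _ => by
      rw [Bool.and_eq_true, Bool.and_eq_true, beq_iff, iff2 hm, gE.ds_disjoint_iff (by decide), av_iff, and_assoc (c := _ = true)]
  · rw [ncard_smul_of_inv g (P := fun U => U.card = 2 ∧ (none ∉ U ∧ some 0 ∉ U) ∧ Disjoint (ds 6) U ∧
      ¬ ∃ o ∈ octads, none ∈ o ∧ some 0 ∈ o ∧ ds 6 ∪ U ⊆ o) fun y => by
        rw [Finset.card_smul_finset, disjoint_smul, iff1, Finset.smul_mem_smul_finset_iff,
          Finset.smul_mem_smul_finset_iff, and_assoc], ← chk.2]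
    exact ncard_kSub fun m hm _ => by
      rw [Bool.and_eq_true, Bool.and_eq_true, beq_iff, iff2 hm, gE.ds_disjoint_iff (by decide), av_iff, Bool.not_eq_true',
        Bool.not_eq_true, and_assoc (c := _ = false)]
  · obtain ⟨a, ha, rfl⟩ := exists_smul_ds g U
    obtain ⟨b, hb, rfl⟩ := exists_smul_ds g U'
    rw [Finset.card_smul_finset, Finset.smul_mem_smul_finset_iff, Finset.smul_mem_smul_finset_iff, ← av_iff] at h1 h2
    rw [card_smul_inter, card_smul_inter, card_inter' _ ha, card_inter' _ hb] at h5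
    rw [iff1, iff1, iff2 ha, iff2 hb, Bool.coe_iff_coe] at h6
    have h7 : Nat.beq a 6 = false := Bool.eq_false_iff.2 fun e => h3 (by rw [beq_iff.1 e])
    have h8 : Nat.beq b 6 = false := Bool.eq_false_iff.2 fun e => h4 (by rw [beq_iff.1 e])
    obtain ⟨k, hk, e⟩ := keySub (L := kSub 24 2) st22s.inn
      (fun m => cond (av m && !(Nat.beq m 6)) (1 + 2 * pc24 (Nat.land 6 m) + cond (inO m) 1 0) 0) [10, 24, 40]
      (by decide +kernel) ha hb (kSub_of ha h1.1) (kSub_of hb h2.1) (by rw [h1.2, h7]; simp)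
      (by rw [h1.2, h2.2, h7, h8, h5, h6])
    exact ⟨(g * k * g⁻¹ : M24), (g * k * g⁻¹).2, tr g k hk.1.1, tr g k hk.1.2, tr g k hk.2, tr g k e⟩

end Cfsg.Agent.S1638
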