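import Cfsg.Statements.S1639
import Cfsg.Agent.Lib.Spor.M24St2

set_option autoImplicit false
open scoped Pointwise
open Cfsg

namespace Cfsg.Agent.S1639

open Cfsg CA.NatBits CA.OrbBfs CA.CGroup CA.CGConstr CA.CGParts CA.CGCert CA.CGRank CA.CGDec CA.Perm24 CA.Golay
open CA.M24Core CA.M24Sub CA.M24Tools MulAction
open scoped Pointwise
open CA.M24St2

set_option maxRecDepth 100000 in
theorem chk : cntL dodL (fun m => (tb m 0) && Nat.beq (pc24 (Nat.land D0 m)) 4) = 165 ∧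
    cntL dodL (fun m => (tb m 0) && Nat.beq (pc24 (Nat.land D0 m)) 8) = 330 ∧
    cntL dodL (fun m => (tb m 0) && Nat.beq (pc24 (Nat.land D0 m)) 6) = 792 := by decide +kernel

set_option maxRecDepth 100000 in

/-- The point stabiliser acts on the 1288 dodecads through the point with rank 4 and subdegrees 1, 165, 330, 792, distinguished by intersection 4, 8, 6 with the fixed dodecad. -/
theorem result (x : Cfsg.GolayPt) (d : Finset Cfsg.GolayPt) (hd : d ∈ Cfsg.dodecads) (hx : x ∈ d) : {d' : Finset Cfsg.GolayPt | d' ∈ Cfsg.dodecads ∧ x ∈ d' ∧ (d ∩ d').card = 4}.ncard = 165 ∧ {d' : Finset Cfsg.GolayPt | d' ∈ Cfsg.dodecads ∧ x ∈ d' ∧ (d ∩ d').card = 8}.ncard = 330 ∧ {d' : Finset Cfsg.GolayPt | d' ∈ Cfsg.dodecads ∧ x ∈ d' ∧ (d ∩ d').card = 6}.ncard = 792 ∧ ∀ d' d'' : Finset Cfsg.GolayPt, d' ∈ Cfsg.dodecads → d'' ∈ Cfsg.dodecads → x ∈ d' → x ∈ d'' → (d ∩ d').card = (d ∩ d'').card → ∃ g : Equiv.Perm Cfsg.GolayPt,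 g ∈ Cfsg.M24 ∧ g x = x ∧ g • d = d ∧ g • d' = d'' := by
  obtain ⟨g, rfl, rfl⟩ := flag_D1 hd hx
  have key : ∀ k, {o' | o' ∈ dodecads ∧ g • (some 0 : GolayPt) ∈ o' ∧ (g • ds D0 ∩ o').card = k}.ncard =
      cntL dodL (fun m => (tb m 0) && Nat.beq (pc24 (Nat.land D0 m)) k) := fun k => by
    rw [ncard_smul_of_inv g (P := fun o => o ∈ dodecads ∧ (some 0 : GolayPt) ∈ o ∧ (ds D0 ∩ o).card = k)
      fun y => by rw [smul_mem_dodecads, Finset.smul_mem_smul_finset_iff, card_smul_inter]]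
    exact ncard_dodecads fun m hm _ => by rw [Bool.and_eq_true, beq_iff, mem_ds', card_inter' _ hm]; rfl
  refine ⟨(key 4).trans chk.1, (key 8).trans chk.2.1, (key 6).trans chk.2.2, fun o' o'' h1 h2 h3 h4 h5 => ?_⟩
  obtain ⟨a, ha, rfl⟩ := exists_smul_ds g o'
  obtain ⟨b, hb, rfl⟩ := exists_smul_ds g o''
  rw [smul_mem_dodecads] at h1 h2
  rw [Finset.smul_mem_smul_finset_iff, mem_ds'] at h3 h4
  rw [card_smul_inter, card_smul_inter, card_inter' _ ha, card_inter' _ hb] at h5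
  obtain ⟨k, hk, e⟩ := keySub (L := dodL) st11.inn (fun m => cond (tb m 0) (pc24 (Nat.land D0 m) + 1) 0) [28637, 195645, 340831, 1727659] (by decide +kernel) ha hb
    (dodL_of ha h1) (dodL_of hb h2) (by rw [show tb a 0 = _ from h3]; simp)
    (by rw [show tb a 0 = _ from h3, show tb b 0 = _ from h4, h5])
  exact ⟨(g * k * g⁻¹ : M24), (g * k * g⁻¹).2, tr g k hk.2, tr g k hk.1, tr g k e⟩

end Cfsg.Agent.S1639
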