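import Cfsg.Statements.S1642
import Cfsg.Agent.Lib.Spor.LeechI

set_option autoImplicit false
open Cfsg

namespace Cfsg.Agent.S1642

open CA.Leech CA.CGroup CA.NatBits

/-- Some involution of the Higman–Sims group acts without fixed points on its 100 points. -/
theorem result (v w : ↥Cfsg.leechLattice) (hv : Cfsg.sqNorm (v : Cfsg.GolayPt → ℤ) = 48) (hw : Cfsg.sqNorm (w : Cfsg.GolayPt → ℤ) = 48) (hvw : Cfsg.dotInt (v : Cfsg.GolayPt → ℤ) (w : Cfsg.GolayPt → ℤ) = -32) : ∃ g : ↥Cfsg.Co0, g • v = v ∧ g • w = w ∧ orderOf g = 2 ∧ ∀ x ∈ {x : ↥Cfsg.leechLattice | Cfsg.sqNorm (x : Cfsg.GolayPt → ℤ) = 32 ∧ Cfsg.dotInt (v : Cfsg.GolayPt → ℤ) (x : Cfsg.GolayPt → ℤ) = 24 ∧ Cfsg.dotInt (w : Cfsg.GolayPt → ℤ) (x : Cfsg.GolayPt → ℤ) = -24}, g • x ≠ x := by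
  obtain ⟨t, t1, ht⟩ : ∃ t ∈ St [vV, vU2], cG.R cFp t :=
    in_St (ps := [cV, cU2]) (l := [cFp]) (fun c hc => ok_cSq c (List.mem_cons_of_mem _ hc)) (by decide +kernel) cFp (by simp)
  have h1 : t * t = 1 := cG.R_isOne (cG.R_mul ht ht) (by decide +kernel)
  have h2 : ∀ x ∈ Cl [vV, vU2] [24, 0], t • x ≠ x := fun x hx e => by
    obtain ⟨T, n, a, b⟩ := orb_spec (A := cA) ok_gS (ok_S (show ok cX3 = true by decide +kernel))
      (k := fun T _ => T.all fun c _ => !(Nat.beq (cA.act cFp c) c)) (by decide +kernel)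
    rw [gen_gS, T100.orbit_eq mX3] at b
    obtain ⟨c, _, c1, c2⟩ := b.forall a hx
    have := cA.S_act ht c1
    rw [e] at this
    rw [cA.S_inj this c1] at c2
    simp at c2
  obtain ⟨g, g1, g2⟩ := eqv2.1 (cfgH hv hw hvw)
  have h3 := (conjTo_St g _ t).2 t1
  rw [List.map_cons, List.map_cons, List.map_nil, g1, g2, St_H] at h3
  have h4 : t ≠ 1 := fun e => h2 _ mX3 (by rw [e, one_smul])
  refine ⟨_, h3.1, h3.2, ?_, fun x hx e => h2 (g⁻¹ • x) ?_ (by rwa [mul_smul, mul_smul, smul_eq_iff_eq_inv_smul] at e)⟩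
  · exact ((MulAut.conj g).orderOf_eq t).trans (orderOf_eq_prime (by rw [pow_two, h1]) h4)
  · refine (smul_mem_Cl g).1 ?_
    rw [smul_inv_smul, List.map_cons, List.map_cons, g1, g2]
    exact (memH rfl).2 hx

end Cfsg.Agent.S1642
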