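import Cfsg.Statements.S1666
import Cfsg.Agent.Lib.Spor.H17Srg

set_option autoImplicit false
open Cfsg

namespace Cfsg.Agent.S1666



/-- Recognition of the Higman–Sims group as a rank 3 permutation group: a transitive permutation group on 100 points in which the stabiliser of a point is isomorphic to the Mathieu group M₂₂ and has two further orbits, of sizes 22 and 77, is isomorphic to the Higman–Sims group. -/
theorem result {Ω : Type*} [Fintype Ω] [DecidableEq Ω] (hΩ : Fintype.card Ω = 100) (G : Subgroup (Equiv.Perm Ω)) [MulAction.IsPretransitive G Ω] (a : Ω)  (e : MulAction.stabilizer G a ≃* Cfsg.Spor.M22) (b c : Ω) (hb : (MulAction.orbit (MulAction.stabilizer G a) b).ncard = 22) (hc : (MulAction.orbit (MulAction.stabilizer G a) c).ncard = 77) : Cfsg.Spor.IsoHS G := by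
  rw [CA.H17Srg.R_orbit] at hb hc
  obtain ⟨Γ, i, h1, ρ, hρ⟩ := CA.H17Srg.rank3_hs hΩ hb hc
  have hi : Function.Injective ρ := fun g k h => Subtype.ext (Equiv.ext fun x =>
    (hρ g x).symm.trans (h ▸ hρ k x))
  obtain ⟨H, ⟨f⟩⟩ := CA.H17Srg.hs_sub h1
  have := CA.Leech.simple_HS
  have := f.symm.isSimpleGroup
  have cH : Nat.card H = 44352000 := (Nat.card_congr f.toEquiv).symm.trans CA.Leech.card_HS
  have cL : Nat.card ρ.range = 44352000 := by
    rw [← Nat.card_congr (MonoidHom.ofInjective hi).toEquiv, CA.PermBasic.card_eq_card_mul_card_stabilizer (X := Ω) a,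
      Nat.card_congr e.toEquiv, CA.M24Sub.card_M22, Nat.card_eq_fintype_card, hΩ]
  have cA := CA.H17Srg.card_aut h1
  have : Finite (Γ ≃g Γ) := Nat.finite_of_card_ne_zero (by rw [cA]; norm_num)
  have h2 := ρ.range.card_mul_index
  rw [cL, cA] at h2
  have h3 := CA.H17Srg.eq_of_index_two (H := H) (L := ρ.range) (by rw [cH]; norm_num) (by omega) (cL.trans cH.symm)
  exact ⟨(((MonoidHom.ofInjective hi).trans (MulEquiv.subgroupCongr h3.symm)).trans f.symm).trans
    ((Subgroup.equivMapOfInjective _ _ Cfsg.Co0.subtype_injective).trans (MulEquiv.subgroupCongr CA.Leech.HS_eq))⟩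

end Cfsg.Agent.S1666
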