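import Cfsg.Statements.S1667
import Cfsg.Agent.Lib.Spor.H28Mc3
-- import your own Cfsg.Agent.* helpers here

set_option autoImplicit false
open Cfsg

namespace Cfsg.Agent.S1667

/-- Recognition of the McLaughlin group as a rank 3 permutation group: a transitive permutation group on 275 points in which the stabiliser of a point is isomorphic to the unitary group U₄(3) and has two further orbits, of sizes 112 and 162, is isomorphic to the McLaughlin group. -/
theorem result {Ω : Type*} [Fintype Ω] [DecidableEq Ω] (hΩ : Fintype.card Ω = 275) (G : Subgroup (Equiv.Perm Ω)) [MulAction.IsPretransitive G Ω] (a : Ω) (K : Type) [Field K] [Fintype K] (hK : Fintype.card K = 9) (e : MulAction.stabilizer G a ≃* Cfsg.PSU 4 K 3) (b c : Ω) (hb : (MulAction.orbit (MulAction.stabilizer G a) b).ncard = 112) (hc : (MulAction.orbit (MulAction.stabilizer G a) c).ncard = 162) : Cfsg.Spor.IsoMcL G := by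
  open CA.H28Mc MulAction in
  obtain ⟨Γ, i, l, m, h1, h2, h3⟩ := CA.H17Srg.rank3 hΩ rfl (by norm_num) (by norm_num) (by norm_num)
    (CA.H17Srg.R_orbit (K := G) a b ▸ hb) (CA.H17Srg.R_orbit (K := G) a c ▸ hc)
  obtain ⟨rfl, rfl⟩ := params h1 h2
  obtain ⟨-, -, -, L, p, M, ⟨f⟩⟩ := model
  let φ := (f.symm.trans (Cfsg.Agent.S1582.iso hK).some).trans e.symm
  have n1 := (CA.Steiner.srg_ncard h1).1 a
  have nb : ∀ (g : stabilizer G a) x, Γ.Adj a (g • x) ↔ Γ.Adj a x := fun g x => by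
    have := h3 g a x
    rwa [g.2] at this
  have o1 : orbit (stabilizer G a) b = {y | Γ.Adj a y} :=
    Set.eq_of_subset_of_ncard_le (by rintro _ ⟨g, rfl⟩; exact (nb g b).2 h2) (by rw [n1, hb])
  have c1 : c ≠ a := by
    rintro rfl
    rw [show orbit (stabilizer G c) c = {c} from Set.eq_singleton_iff_unique_mem.2
      ⟨mem_orbit_self c, fun _ ⟨g, h⟩ => h.symm.trans g.2⟩, Set.ncard_singleton] at hc
    omega
  have c2 : ¬ Γ.Adj a c := fun h => by
    rw [orbit_eq_iff.2 (o1.ge h), hb] at hc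
    omega
  have o2 : orbit (stabilizer G a) c = (insert a {y | Γ.Adj a y})ᶜ := Set.eq_of_subset_of_ncard_le (by
    rintro _ ⟨g, rfl⟩ (h | h)
    exacts [c1 (MulAction.injective g (h.trans g.2.symm)), c2 ((nb g c).1 h)]) (by
    have := Set.ncard_add_ncard_compl (insert a {y | Γ.Adj a y})
    rw [Set.ncard_insert_of_notMem (by simp), n1, Nat.card_eq_fintype_card, hΩ] at this
    omega)
  have tr : ∀ d x y : Ω, x ∈ orbit (stabilizer G a) d → y ∈ orbit (stabilizer G a) d → ∃ k : L, φ k • x = y := fun d x y hx hy => by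
    obtain ⟨g, h⟩ := (orbit_eq_iff.2 hx).ge hy
    exact ⟨φ.symm g, by rw [φ.apply_symm_apply]; exact h⟩
  obtain ⟨Ψ, hΨ⟩ := iso h1 M (a := a) (σ := G.subtype.comp ((stabilizer G a).subtype.comp φ.toMonoidHom))
    ⟨fun k => h3 (φ k), fun k => (φ k).2, fun x y hx hy => tr b x y (o1.ge hx) (o1.ge hy),
      fun x y h h' k k' => tr c x y (o2.ge fun e => e.elim h h') (o2.ge fun e => e.elim k k')⟩
  have g := G.equivMapOfInjective Ψ.permCongrHom.toMonoidHom Ψ.permCongrHom.injective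
  refine ⟨g.trans (uniq ?_ ?_).some⟩
  · rintro _ ⟨k, hk, rfl⟩ x y
    obtain ⟨x, rfl⟩ := Ψ.surjective x
    obtain ⟨y, rfl⟩ := Ψ.surjective y
    have e : ∀ x, Ψ.permCongrHom.toMonoidHom k (Ψ x) = Ψ (k x) := fun x => by simp
    rw [e, e, Bool.eq_iff_iff, ← hΨ, ← hΨ]
    exact h3 ⟨k, hk⟩ x y
  · rw [← Nat.card_congr g.toEquiv, CA.PermBasic.card_eq_card_mul_card_stabilizer (X := Ω) a, ← Nat.card_congr φ.toEquiv,
      M.card, Nat.card_eq_fintype_card, hΩ]

end Cfsg.Agent.S1667
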