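import Cfsg.Statements.S1681
import Cfsg.Agent.Lib.Spor.SuzPres

set_option autoImplicit false
open Cfsg

namespace Cfsg.Agent.S1681

/-- In the presented sporadic Suzuki group (generators a, …, g), the subgroup generated by the images of a, b, c, d, f, g has index 22880. -/
theorem result : (((Subgroup.closure ({Cfsg.Spor.Suz.a, Cfsg.Spor.Suz.b, Cfsg.Spor.Suz.c, Cfsg.Spor.Suz.d, Cfsg.Spor.Suz.f, Cfsg.Spor.Suz.g} : Set (FreeGroup Cfsg.Spor.Suz.Gen))).map (PresentedGroup.mk (Cfsg.Spor.coxRelators Cfsg.Spor.Suz.edges ∪ {r | r ∈ Cfsg.Spor.Suz.extra})))).index = 22880 := by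
  rw [CA.CPres.map_closure_eq (gen := CA.SuzRel.gen) [[0],[2],[4],[6],[10],[12]] rfl
    (fun x => by simp only [Set.mem_insert_iff, Set.mem_singleton_iff, List.map, List.mem_cons,
      List.not_mem_nil, or_false]; rfl)]
  obtain ⟨φ, -, h2, h3⟩ := CA.SuzPres.inj
  exact CA.CPres.index_of_inj φ CA.SuzPres.top h3 (h2 _ (by decide)) (h2 _ (by decide))
    CA.SuzPres.cardU4 (by decide) CA.SuzPerm.card

end Cfsg.Agent.S1681
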