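import Cfsg.Statements.S1682
import Cfsg.Agent.Lib.Spor.HeSp
import Cfsg.Agent.Lib.Lin.SmallF

set_option autoImplicit false
open Cfsg

namespace Cfsg.Agent.S1682

/-- In the presented Held group, the subgroup H generated by the images of a, c, d, e, f, (ab)^2 and (bcde)^7 has a normal subgroup of index 2 isomorphic to the 4-dimensional symplectic group over a field with four elements. -/
theorem result : ∃ (N : Subgroup (((Subgroup.closure ({Cfsg.Spor.He.a, Cfsg.Spor.He.c, Cfsg.Spor.He.d, Cfsg.Spor.He.e, Cfsg.Spor.He.f, (Cfsg.Spor.He.a * Cfsg.Spor.He.b) ^ 2, (Cfsg.Spor.He.b * Cfsg.Spor.He.c * Cfsg.Spor.He.d * Cfsg.Spor.He.e) ^ 7} : Set (FreeGroup Cfsg.Spor.He.Gen))).map (PresentedGroup.mk (Cfsg.Spor.coxRelators Cfsg.Spor.He.edges ∪ {r | r ∈ Cfsg.Spor.He.extra}))))) (K : Type) (_ : Field K) (_ : Fintype K), N.Normal ∧ N.index = 2 ∧ Fintype.card K = 4 ∧ Nonempty (N ≃* Matrix.symplecticGroup (Fin 2) K) := by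
  rw [CA.CPres.map_closure_eq (gen := CA.HeRel.gen) CA.HePres.subs rfl
    (fun x => by simp only [Set.mem_insert_iff, Set.mem_singleton_iff, CA.HePres.subs, List.map, List.mem_cons,
      List.not_mem_nil, or_false]; rfl)]
  obtain ⟨φ, -, h2, h3⟩ := CA.HePres.inj
  obtain ⟨f, -⟩ := CA.CPres.equiv_of_inj φ h3 (CA.HePres.top ▸ le_top) (h2 CA.HePres.subs (by decide))
  obtain ⟨N, h4, h5⟩ := CA.HeSp.struct f CA.SmallF.F4 CA.SmallF.card_F4
  exact ⟨N, _, _, _, N.normal_of_index_eq_two h4, h4, CA.SmallF.card_F4, h5⟩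

end Cfsg.Agent.S1682
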