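import Cfsg.Statements.S1684
import Cfsg.Agent.Lib.Spor.FiCover
import Cfsg.Agent.Lib.Spor.FiU6
import Cfsg.Agent.Lib.Lin.SmallF
import Cfsg.Agent.Lib.Spor.Fi22Pres

set_option autoImplicit false
open Cfsg

namespace Cfsg.Agent.S1684

/-- In the presented Fischer group Fi₂₂, the subgroup generated by the images of a, c, d, e, f, g, h, i and (abcdeh)^5 is a non-split double cover of PSU(6, 2) (realised over a field with four elements). -/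
theorem result : ∃ (K : Type) (_ : Field K) (_ : Fintype K), Fintype.card K = 4 ∧ Cfsg.IsNonsplitDoubleCover (((Subgroup.closure ({Cfsg.Spor.Fi22.a, Cfsg.Spor.Fi22.c, Cfsg.Spor.Fi22.d, Cfsg.Spor.Fi22.e, Cfsg.Spor.Fi22.f, Cfsg.Spor.Fi22.g, Cfsg.Spor.Fi22.h, Cfsg.Spor.Fi22.i, (Cfsg.Spor.Fi22.a * Cfsg.Spor.Fi22.b * Cfsg.Spor.Fi22.c * Cfsg.Spor.Fi22.d * Cfsg.Spor.Fi22.e * Cfsg.Spor.Fi22.h) ^ 5} : Set (FreeGroup Cfsg.Spor.Fi22.Gen))).map (PresentedGroup.mk (Cfsg.Spor.coxRelators Cfsg.Spor.Fi22.edges ∪ {r | r ∈ Cfsg.Spor.Fi22.extra})))) (Cfsg.PSU 6 K 2) := by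
  rw [CA.CPres.map_closure_eq (gen := CA.Fi22Rel.gen) CA.Fi22Pres.subs
    (l := [Spor.Fi22.a, Spor.Fi22.c, Spor.Fi22.d, Spor.Fi22.e, Spor.Fi22.f, Spor.Fi22.g, Spor.Fi22.h, Spor.Fi22.i,
      (Spor.Fi22.a * Spor.Fi22.b * Spor.Fi22.c * Spor.Fi22.d * Spor.Fi22.e * Spor.Fi22.h) ^ 5]) (by decide +kernel)
    (fun x => by simp only [Set.mem_insert_iff, Set.mem_singleton_iff, List.mem_cons,
      List.not_mem_nil, or_false])]
  obtain ⟨M⟩ := CA.Fi.model22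
  obtain ⟨M'⟩ := CA.Fi.model21
  obtain ⟨e⟩ := CA.FiU6.iso M' CA.SmallF.F4 CA.SmallF.card_F4
  obtain ⟨φ, -, h2, h3⟩ := CA.Fi22Pres.inj
  obtain ⟨f, -⟩ := CA.CPres.equiv_of_inj φ h3 (CA.Fi22Pres.top ▸ le_top) (h2 CA.Fi22Pres.subs (by decide))
  have h4 := M.cent_eq (ws := CA.Fi22Pres.subs) (CA.FiSimple.X22 ▸ CA.Fi22Pres.coset.2.2)
  exact ⟨CA.SmallF.F4, _, _, CA.SmallF.card_F4, CA.CTrans.dc_congr (((MulEquiv.subgroupCongr h4).trans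
    ((Subgroup.equivMapOfInjective _ _ M.inj).trans (MulEquiv.subgroupCongr (M.map_H _)))).trans f.symm) e
    (CA.FiCover.dc22 M M' (M.t_mem _))⟩

end Cfsg.Agent.S1684
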