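import Cfsg.Statements.S1686
import Cfsg.Agent.Lib.Spor.FiO7

set_option autoImplicit false
open Cfsg

namespace Cfsg.Agent.S1686

/-- In the presented Fischer group Fi₂₂, the subgroup generated by the images of b, …, i is isomorphic to PΩ(7, 3), the commutator subgroup of the isometry group of the quadratic form x₀² + x₁y₁ + x₂y₂ + x₃y₃ over the integers mod 3, modulo its centre. -/
theorem result : Nonempty ((((Subgroup.closure ({Cfsg.Spor.Fi22.b, Cfsg.Spor.Fi22.c, Cfsg.Spor.Fi22.d, Cfsg.Spor.Fi22.e, Cfsg.Spor.Fi22.f, Cfsg.Spor.Fi22.g, Cfsg.Spor.Fi22.h, Cfsg.Spor.Fi22.i} : Set (FreeGroup Cfsg.Spor.Fi22.Gen))).map (PresentedGroup.mk (Cfsg.Spor.coxRelators Cfsg.Spor.Fi22.edges ∪ {r | r ∈ Cfsg.Spor.Fi22.extra})))) ≃* Cfsg.POmega (ZMod 3) (Cfsg.quadFormOdd 3 (ZMod 3))) := by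
  rw [CA.CPres.map_closure_eq (gen := CA.Fi22Rel.gen) [[2],[4],[6],[8],[10],[12],[14],[16]] rfl
    (fun x => by simp only [Set.mem_insert_iff, Set.mem_singleton_iff, List.map, List.mem_cons,
      List.not_mem_nil, or_false]; rfl)]
  obtain ⟨φ, -, h2, h3⟩ := CA.Fi22Pres.inj
  obtain ⟨f, -⟩ := CA.CPres.equiv_of_inj φ h3 (CA.Fi22Pres.top ▸ le_top)
    (h2 [[2],[4],[6],[8],[10],[12],[14],[16]] (by decide))
  exact ⟨f.trans CA.FiO7.iso.some⟩

end Cfsg.Agent.S1686
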