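import Cfsg.Statements.S1688
import Cfsg.Agent.Lib.Spor.Fi23Pres

set_option autoImplicit false
open Cfsg

namespace Cfsg.Agent.S1688

/-- In the presented Fischer group Fi₂₃, the subgroup generated by the images of a, …, i is a non-split double cover of the presented Fischer group Fi₂₂. -/
theorem result : Cfsg.IsNonsplitDoubleCover (((Subgroup.closure ({Cfsg.Spor.Fi23.a, Cfsg.Spor.Fi23.b, Cfsg.Spor.Fi23.c, Cfsg.Spor.Fi23.d, Cfsg.Spor.Fi23.e, Cfsg.Spor.Fi23.f, Cfsg.Spor.Fi23.g, Cfsg.Spor.Fi23.h, Cfsg.Spor.Fi23.i} : Set (FreeGroup Cfsg.Spor.Fi23.Gen))).map (PresentedGroup.mk (Cfsg.Spor.coxRelators Cfsg.Spor.Fi23.edges ∪ {r | r ∈ Cfsg.Spor.Fi23.extra})))) Cfsg.Spor.Fi22 := by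
  rw [CA.CPres.map_closure_eq (gen := CA.Fi23RelB.gen) CA.Fi23Pres.subs rfl
    (fun x => by simp only [Set.mem_insert_iff, Set.mem_singleton_iff, CA.Fi23Pres.subs, List.map, List.mem_cons,
      List.not_mem_nil, or_false]; rfl)]
  exact CA.Fi23Pres.dc

end Cfsg.Agent.S1688
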