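import Cfsg.Statements.S1691
import Cfsg.Agent.Lib.Spor.FiIdx

set_option autoImplicit false
open Cfsg

namespace Cfsg.Agent.S1691

/-- The commutator subgroup of the presented group Fi₂₄ has index 2 (the presented group is Fi₂₄′:2 with Fi₂₄′ its derived subgroup). -/
theorem result : (commutator Cfsg.Spor.Fi24).index = 2 := by
  exact CA.FiIdx.index_pres

end Cfsg.Agent.S1691
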