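import Cfsg.Statements.S1694
import Cfsg.Agent.Lib.Spor.SuzPres

set_option autoImplicit false
open Cfsg

namespace Cfsg.Agent.S1694

/-- The presented sporadic Suzuki group is simple of the expected order (that is, it is a simple group of the order of the sporadic Suzuki group). -/
theorem result : Cfsg.IsSuz Cfsg.Spor.Suz := by
  obtain ⟨e⟩ := CA.SuzPres.equiv
  have := CA.SuzPres.simple
  exact ⟨e.isSimpleGroup, (Nat.card_congr e.toEquiv).trans CA.SuzPerm.card⟩

end Cfsg.Agent.S1694
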