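import Cfsg.Statements.S1711
import Cfsg.Agent.Lib.Spor.J4M24
import Cfsg.Agent.Lib.Spor.J112

set_option autoImplicit false
open Cfsg

namespace Cfsg.Agent.S1711

/-- In the presented fourth Janko group (generators x, y, t), the subgroup generated by the images of x and y is isomorphic to the Mathieu group M₂₄. -/
theorem result : Nonempty ((((Subgroup.closure ({Cfsg.Spor.J4.x, Cfsg.Spor.J4.y} : Set (FreeGroup Cfsg.Spor.J4.Gen))).map (PresentedGroup.mk (Cfsg.Spor.coxRelators Cfsg.Spor.J4.edges ∪ {r | r ∈ Cfsg.Spor.J4.extra})))) ≃* Cfsg.M24) := by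
  rw [CA.CPres.map_closure_eq (gen := CA.J4Rel.gen) CA.J4M24.gens (l := [_, _]) rfl
    (fun x => by simp only [Set.mem_insert_iff, Set.mem_singleton_iff, List.mem_cons,
      List.not_mem_nil, or_false]; rfl)]
  obtain ⟨γ, h1, h2⟩ := CA.J4M24.model
  obtain ⟨g, h3, h4⟩ := CA.J112.main
  obtain ⟨φ, h5⟩ := CA.J4Rel.enc.hom _ g h3
  refine (CA.PkW.equiv_of_bound CA.J4M24.bound h1
    (fun r hr => CA.J4Rel.enc.hold r ((by decide +kernel : ∀ r ∈ CA.J4TC.r7, r ∈ CA.J4Rel.rels) r hr)) h2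
    CA.M24Core.card_top.ge CA.M24Sub.simple_top fun h => h4 ?_).map fun e => e.trans Subgroup.topEquiv
  have := CA.CWord.mem_grp (CA.CPres.pg Spor.J4.edges Spor.J4.extra CA.J4Rel.gen) (ws := CA.J4M24.gens) (w := [2 * 0])
    (by decide)
  rw [h, Subgroup.mem_bot, CA.CWord.ev_gen] at this
  rw [← h5 0 (by decide), this, map_one]

end Cfsg.Agent.S1711
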