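import Cfsg.Statements.S1714
import Cfsg.Agent.Lib.Spor.M22G
import Cfsg.Agent.S2053
import Cfsg.Agent.Lib.Spor.Fi22Pres
import Cfsg.Agent.Lib.Spor.Fi23Pres

set_option autoImplicit false
open Cfsg

namespace Cfsg.Agent.S1714

/-- The Fischer group Fi₂₃ from a transposition centraliser: let G be a finite group with an involution d such that the centraliser C of d is quasisimple, C modulo the subgroup generated by d is isomorphic to the presented Fischer group Fi₂₂, and some conjugate of d different from d commutes with d. Then G is isomorphic to the presented Fischer group Fi₂₃. -/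
theorem result {G : Type*} [Group G] [Finite G] (d : G) (hd : orderOf d = 2) (hq : Cfsg.IsQuasisimple (Subgroup.centralizer ({d} : Set G))) [((Subgroup.zpowers d).subgroupOf (Subgroup.centralizer ({d} : Set G))).Normal] (e : Cfsg.Spor.IsoFi22 ((Subgroup.centralizer ({d} : Set G)) ⧸ (Subgroup.zpowers d).subgroupOf (Subgroup.centralizer ({d} : Set G)))) (hnwc : ∃ g : G, g * d * g⁻¹ ∈ Subgroup.centralizer ({d} : Set G) ∧ g * d * g⁻¹ ≠ d) : Cfsg.Spor.IsoFi23 G := by
  obtain ⟨M'⟩ := CA.Fi.model22
  obtain ⟨h1, h2⟩ := CA.M2T.fin23 hd e.some M'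
    ((MulEquiv.subgroupCongr CA.FiSimple.X22).trans CA.Fi22Pres.equiv.some.symm) S2053.result hq hnwc
  obtain ⟨M⟩ := (CA.Fi.T23' h1 h2).1
  exact ⟨((CA.FiU6.toX M).trans (MulEquiv.subgroupCongr CA.Fi23Pres.gens_eq.symm)).trans CA.Fi23Pres.equiv.some.symm⟩

end Cfsg.Agent.S1714
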