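import Cfsg.Statements.S1717
import Cfsg.Agent.Lib.Lin.H7L52
import Cfsg.Agent.Lib.Grp.SylIn

set_option autoImplicit false
open Cfsg

namespace Cfsg.Agent.S1717

open Subgroup CA.SylIn

/-- Let G be a finite group with an involution z whose centraliser C is isomorphic to the centraliser of a transvection of SL(5, 2). Then a Sylow 2-subgroup of C, viewed in G, is a Sylow 2-subgroup of G (its index in G is odd). -/
theorem result {G : Type*} [Group G] [Finite G] (s : Matrix.SpecialLinearGroup (Fin 5) (ZMod 2)) (hs : (s : Matrix (Fin 5) (Fin 5) (ZMod 2)) = Matrix.transvection 0 1 1) (z : G) (hz : orderOf z = 2) (e : (Subgroup.centralizer ({z} : Set G)) ≃* Subgroup.centralizer ({s} : Set (Matrix.SpecialLinearGroup (Fin 5) (ZMod 2)))) (T : Sylow 2 (Subgroup.centralizer ({z} : Set G))) : ¬ 2 ∣ ((T : Subgroup (Subgroup.centralizer ({z} : Set G))).map (Subgroup.subtype (Subgroup.centralizer ({z} : Set G)))).index := by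
  intro hd
  have hz1 : z ≠ 1 := fun h => by rw [h, orderOf_one] at hz; omega
  have hzC : z ∈ centralizer ({z} : Set G) := mem_centralizer_singleton_iff.2 rfl
  have key : ∀ x : centralizer ({z} : Set G), (∀ t ∈ T, x * t = t * x) → x ≠ 1 → (e x).1 = s := by
    intro x hx h1
    refine (CA.H7L52.cent hs (T.mapSurjective (f := e.toMonoidHom) e.surjective) (e x) ?_).resolve_left
      fun h => h1 (e.map_eq_one_iff.1 (Subtype.ext h))
    rintro _ ⟨t, ht, rfl⟩
    have := congrArg e (hx t ht)
    simpa using this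
  have hzc : ∀ t : centralizer ({z} : Set G), (⟨z, hzC⟩ : centralizer ({z} : Set G)) * t = t * ⟨z, hzC⟩ :=
    fun t => Subtype.ext (mem_centralizer_singleton_iff.1 t.2).symm
  have hzT : (⟨z, hzC⟩ : centralizer ({z} : Set G)) ∈ T := by
    haveI : (zpowers (⟨z, hzC⟩ : centralizer ({z} : Set G))).Normal :=
      ⟨fun a ha g => by
        have : a ∈ center _ := zpowers_le.2 (mem_center_iff.2 fun t => (hzc t).symm) ha
        rwa [mem_center_iff.1 this g, mul_inv_cancel_right]⟩
    refine IsPGroup.le_sylow_of_normal (IsPGroup.of_card (n := 1) ?_) T (mem_zpowers _)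
    rw [Nat.card_zpowers, ← orderOf_coe, hz, pow_one]
  have hT := isSylowIn_map T
  obtain ⟨S, hS⟩ := hT.isPGroup.exists_le_sylow
  have hlt := lt_inf_normalizer S.isPGroup' (lt_of_le_of_ne hS fun h => S.not_dvd_index (h ▸ hd))
  obtain ⟨n, ⟨hnS, hn⟩, hnT⟩ := SetLike.exists_of_lt hlt
  apply hnT
  rw [← hT.inf_eq_of_le S.isPGroup' hS]
  refine ⟨hnS, ?_⟩
  obtain ⟨x, hx, ex⟩ := conj_mem_of_mem_normalizer hn ⟨_, hzT, rfl⟩
  replace ex : (x : G) = n * z * n⁻¹ := ex
  have h1 := key x (fun t ht => by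
    obtain ⟨y, -, ey⟩ := inv_conj_mem_of_mem_normalizer hn ⟨_, ht, rfl⟩
    replace ey : (y : G) = n⁻¹ * t * n := ey
    have h2 := mem_centralizer_singleton_iff.1 y.2
    rw [ey] at h2
    apply Subtype.ext
    show (x : G) * t = t * x
    rw [ex]
    calc n * z * n⁻¹ * t = n * (z * (n⁻¹ * t * n)) * n⁻¹ := by group
      _ = _ := by rw [← h2]; group) (fun h => hz1 (by
    rw [h] at ex
    exact conj_eq_one_iff.1 ex.symm))
  have h2 := key ⟨z, hzC⟩ (fun t _ => hzc t) (fun h => hz1 (congrArg Subtype.val h))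
  have h3 : (x : G) = z := congrArg Subtype.val (e.injective (Subtype.ext (h1.trans h2.symm)))
  rw [ex] at h3
  exact mem_centralizer_singleton_iff.2 (mul_inv_eq_iff_eq_mul.1 h3)

end Cfsg.Agent.S1717
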