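import Cfsg.Statements.S1754
import Cfsg.Agent.Lib.Grp.Bal2

set_option autoImplicit false
open Cfsg

namespace Cfsg.Agent.S1754

open Subgroup CA.Rad CA.Core CA.Fitting CA.Subn CA.Quasi CA.Comp CA.Fstar CA.PLoc CA.PComp CA.Bal CA.Bal2 in
/-- Let A be a standard subgroup of the finite group G (A quasisimple, C_G(A) tightly embedded of even order, A commuting elementwise with no other conjugate of itself, and N_G(A) = N_G(C_G(A))), and let t be an involution of G centralizing A. Then the centralizer of t lies in the normalizer of A; in particular A, viewed inside C_G(t), is a component of C_G(t). -/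
theorem result {G : Type*} [Group G] [Finite G]
    (A : Subgroup G) (hA : Cfsg.IsStandardSubgroup A) (t : G) (ht : orderOf t = 2) (htA : t ∈ Subgroup.centralizer (A : Set G)) :
    Subgroup.centralizer ({t} : Set G) ≤ Subgroup.normalizer (A : Set G) ∧
      Cfsg.IsComponent (A.subgroupOf (Subgroup.centralizer ({t} : Set G))) := by
  have h1 : centralizer ({t} : Set G) ≤ normalizer (A : Set G) := fun g hg => by
    rw [hA.2.2.2]
    by_contra hn
    have h2 := hA.2.1.2 g hn
    have h3 : t ∈ centralizer (A : Set G) ⊓
        (centralizer (A : Set G)).map (MulAut.conj g).toMonoidHom := by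
      refine ⟨htA, t, htA, ?_⟩
      exact mul_inv_eq_of_eq_mul (mem_centralizer_singleton_iff.1 hg)
    have h4 := orderOf_dvd_natCard (⟨t, h3⟩ : ↥(centralizer (A : Set G) ⊓
        (centralizer (A : Set G)).map (MulAut.conj g).toMonoidHom))
    rw [orderOf_mk, ht] at h4
    exact (Nat.not_even_iff_odd.2 h2) (even_iff_two_dvd.2 h4)
  refine ⟨h1, Cp.comp ⟨SN.of_le_normalizer (fun a ha => ?_) h1, hA.1⟩⟩
  exact mem_centralizer_singleton_iff.2 (htA a ha)

end Cfsg.Agent.S1754
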