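import Cfsg.Statements.S1755
import Cfsg.Agent.Lib.Grp.Fstar
import Cfsg.Agent.Lib.Grp.PGCritical
import Cfsg.Agent.Lib.Loc.AmbSyl
import Cfsg.Agent.Lib.Grp.H13Inv

set_option autoImplicit false
open Cfsg

namespace Cfsg.Agent.S1755

open Subgroup CA.Amb CA.AmbSyl CA.PGBasic CA.PGCritical CA.Fstar

theorem uniq2 {H : Type*} [Group H] [Finite H] (h : IsCyclic H) {x y : H} (hx : orderOf x = 2)
    (hy : orderOf y = 2) : x = y := by
  classical
  haveI := Fintype.ofFinite H
  have := IsCyclic.card_orderOf_eq_totient (α := H) (hx ▸ orderOf_dvd_card (x := x))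
  rw [Nat.totient_two, Finset.card_eq_one] at this
  obtain ⟨a, ha⟩ := this
  have h1 : x ∈ ({a} : Finset H) := ha ▸ by simpa using hx
  have h2 : y ∈ ({a} : Finset H) := ha ▸ by simpa using hy
  rw [Finset.mem_singleton.1 h1, Finset.mem_singleton.1 h2]

/-- Let G be a finite group and let z be an involution of G such that Q, the generalized Fitting subgroup of the centralizer C of z, is a 2-group of symplectic type (every characteristic abelian subgroup of Q is cyclic). Let B be a characteristic abelian subgroup of Q, viewed as a subgroup of G. Then for every g in G, the conjugate of B by g either equals B or meets B trivially. -/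
theorem result {G : Type*} [Group G] [Finite G] (z : G) (hz : orderOf z = 2) (hQ : Cfsg.IsOfSymplecticType ↥(Cfsg.generalizedFittingSubgroup ↥(Subgroup.centralizer ({z} : Set G))))
    (B : Subgroup ↥(Cfsg.generalizedFittingSubgroup ↥(Subgroup.centralizer ({z} : Set G)))) (hBc : B.Characteristic) (hBa : IsMulCommutative ↥B) (g : G) :
    ((B.map (Cfsg.generalizedFittingSubgroup ↥(Subgroup.centralizer ({z} : Set G))).subtype).map (Subgroup.centralizer ({z} : Set G)).subtype).map (MulAut.conj g).toMonoidHom =
        (B.map (Cfsg.generalizedFittingSubgroup ↥(Subgroup.centralizer ({z} : Set G))).subtype).map (Subgroup.centralizer ({z} : Set G)).subtype ∨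
      ((B.map (Cfsg.generalizedFittingSubgroup ↥(Subgroup.centralizer ({z} : Set G))).subtype).map (Subgroup.centralizer ({z} : Set G)).subtype).map (MulAut.conj g).toMonoidHom ⊓
        (B.map (Cfsg.generalizedFittingSubgroup ↥(Subgroup.centralizer ({z} : Set G))).subtype).map (Subgroup.centralizer ({z} : Set G)).subtype = ⊥ := by
  let C := centralizer ({z} : Set G)
  let Q := Cfsg.generalizedFittingSubgroup C
  let B' := (B.map Q.subtype).map C.subtype
  haveI := hBc
  have hzC : z ∈ C := mem_centralizer_singleton_iff.2 rfl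
  have hzc : (⟨z, hzC⟩ : C) ∈ center C := mem_center_iff.2 fun g =>
    Subtype.ext (mem_centralizer_singleton_iff.1 g.2)
  have hzQ : (⟨z, hzC⟩ : C) ∈ Q := center_le_fstar hzc
  have hn : C ≤ normalizer (B' : Set G) := norm_map_subtype _
  have key : ∀ x ∈ B', orderOf x = 2 → x = z := by
    rintro _ ⟨_, ⟨x, hx, rfl⟩, rfl⟩ ho
    let z' : Q := ⟨⟨z, hzC⟩, hzQ⟩
    have hz' : z' ∈ center Q := mem_center_iff.2 fun g =>
      Subtype.ext (mem_center_iff.1 hzc g)
    haveI := hBa
    haveI := CA.PGCritical.characteristic_sup B (center Q)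
    have hc := hQ.2 (B ⊔ center Q) inferInstance (isMulCommutative_sup (center_le_centralizer _))
    have o1 : orderOf (⟨x, mem_sup_left hx⟩ : ↥(B ⊔ center Q)) = 2 := by
      rw [orderOf_mk, ← orderOf_injective _ Q.subtype_injective,
        ← orderOf_injective _ C.subtype_injective, ho]
    have o2 : orderOf (⟨z', mem_sup_right hz'⟩ : ↥(B ⊔ center Q)) = 2 := by
      rw [orderOf_mk, ← orderOf_injective _ Q.subtype_injective,
        ← orderOf_injective _ C.subtype_injective]; exact hz
    have := uniq2 hc o1 o2
    have : x = z' := congrArg Subtype.val this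
    rw [this]; rfl
  haveI : Fact (Nat.Prime 2) := ⟨Nat.prime_two⟩
  by_cases h : cj g B' ⊓ B' = ⊥
  · exact Or.inr h
  left
  have hB : IsPGroup 2 B' := ((hQ.1.to_subgroup B).map _).map _
  obtain ⟨x, hx, ho⟩ := exists_orderOf_eq_of_ne_bot (hB.to_le inf_le_right) h
  have h1 := key x hx.2 ho
  have h2 := key _ (mem_cj.1 hx.1) (by simpa using (CA.H13Inv.orderOf_conj g⁻¹ x).trans ho)
  refine cj_eq_self (hn (mem_centralizer_singleton_iff.2 ?_))
  rw [h1] at h2
  calc g * z = g * (g⁻¹ * z * g) := by rw [h2]
    _ = z * g := by group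

end Cfsg.Agent.S1755
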