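import Cfsg.Statements.S1756
import Cfsg.Agent.Lib.Grp.H7Lge2

set_option autoImplicit false
open Cfsg

namespace Cfsg.Agent.S1756

open Subgroup CA.BG CA.BG4 CA.H7Lge
open scoped commutatorElement

/-- Let Q be an extraspecial 2-subgroup of the finite group G (special with centre of order 2) and t an involution of G normalizing Q such that the centralizer of t in Q has index at most 2 in Q. Then t lies in the product of Q with the centralizer of Q. -/
theorem result {G : Type*} [Group G] [Finite G] (Q : Subgroup G)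
    (hQ : Cfsg.IsExtraspecial 2 ↥Q) (t : G) (ht : orderOf t = 2) (htN : t ∈ Subgroup.normalizer (Q : Set G))
    (hi : (Subgroup.centralizer ({t} : Set G) ⊓ Q).relIndex Q ≤ 2) :
    t ∈ Q ⊔ Subgroup.centralizer (Q : Set G) := by
    obtain ⟨z, h, -⟩ := EX.of hQ
    have t2 : t * t = 1 := by rw [← pow_two, ← ht, pow_orderOf_eq_one]
    have h1 : ∀ a ∈ Q, ∀ b ∈ Q, a ∉ 𝓒₁(t) ⊓ Q → b ∉ 𝓒₁(t) ⊓ Q → a * b ∈ 𝓒₁(t) ⊓ Q := by
      intro a ha b hb k1 k2
      have h0 : (𝓒₁(t) ⊓ Q).relIndex Q ≠ 0 := index_ne_zero_of_finite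
      have h2 : (𝓒₁(t) ⊓ Q).relIndex Q ≠ 1 := fun e => k1 (relIndex_eq_one.1 e ha)
      exact (mul_mem_iff_of_index_two (H := (𝓒₁(t) ⊓ Q).subgroupOf Q) (a := ⟨a, ha⟩) (b := ⟨b, hb⟩)
        (show (𝓒₁(t) ⊓ Q).relIndex Q = 2 by omega)).2 (iff_of_false k1 k2)
    refine h.mem_sup (norm_zpowers_le h.sq h.ne (h.center_eq ▸ norm_center Q htN)) fun q hq => ?_
    have := h.comm_mem inf_le_right h1 htN (mem_cent.2 fun a ha => mem_cent1.1 ha.1) hq
    refine this.2 ?_
    have e := mem_cent1.1 this.1.1.1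
    have e1 : ⁅q, t⁆ * t * (⁅q, t⁆ * t) = 1 := by
      rw [commutatorElement_def, inv_mul_cancel_right, conj_mul, t2, mul_one, mul_inv_cancel]
    rwa [mul_assoc, ← mul_assoc t, ← e, mul_assoc, t2, mul_one] at e1

end Cfsg.Agent.S1756
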