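import Cfsg.Statements.S1757
import Cfsg.Agent.Lib.Odd.BG1b
import Cfsg.Agent.Lib.Odd.BGMisc

set_option autoImplicit false
open Cfsg

namespace Cfsg.Agent.S1757

open CA.BG Subgroup

/-- Let p be a prime and A, B p-subgroups of the finite group G, each of which meets every conjugate of itself other than itself trivially. Suppose the order of A is at most that of B, A and B intersect trivially, and B normalizes A. Then A and B commute elementwise. -/
theorem result {G : Type*} [Group G] [Finite G] (p : ℕ) [Fact p.Prime] (A B : Subgroup G)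
    (hA : IsPGroup p ↥A) (hB : IsPGroup p ↥B)
    (hAti : ∀ g : G, A.map (MulAut.conj g).toMonoidHom = A ∨ A.map (MulAut.conj g).toMonoidHom ⊓ A = ⊥)
    (hBti : ∀ g : G, B.map (MulAut.conj g).toMonoidHom = B ∨ B.map (MulAut.conj g).toMonoidHom ⊓ B = ⊥)
    (hle : Nat.card ↥A ≤ Nat.card ↥B) (hAB : A ⊓ B = ⊥) (hN : B ≤ Subgroup.normalizer (A : Set G)) : ⁅A, B⁆ = ⊥ := by
  have hp : p.Prime := Fact.out
  have hA' := isPi_of_isPGroup hp hA
  have hB' := isPi_of_isPGroup hp hB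
  have hP : IsPi {p} (B ⊔ A) := hB'.sup hA' hN
  rw [comm_eq_bot_iff]
  by_cases hAn : A ≤ 𝓝(B)
  · exact cent_of_norm_disjoint hAn hN hAB
  exfalso
  set N := (B ⊔ A) ⊓ 𝓝(B) with hNd
  have hlt : N < B ⊔ A := lt_of_le_of_ne inf_le_left fun h => hAn (le_sup_right.trans (h.ge.trans inf_le_right))
  obtain ⟨x, ⟨hxP, hxN⟩, hx⟩ := SetLike.exists_of_lt (lt_norm_of_pi hP hlt)
  have hxB : cj x B ≠ B := fun h => hx ⟨hxP, mem_norm_iff_cj.2 h⟩
  have hd : cj x B ⊓ B = ⊥ := (hBti x).resolve_left hxB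
  have hBN : B ≤ N := le_inf le_sup_left (le_norm_self B)
  have hxBN : cj x B ≤ N := by rw [← cj_of_mem_norm hxN]; exact cj_mono x hBN
  have h1 := card_sup_of_disjoint (hxBN.trans inf_le_right) hd
  rw [card_cj] at h1
  have h2 : ♯(cj x B ⊔ B) ≤ ♯N := card_le_of_le' (sup_le hxBN hBN)
  have h3 : N = B ⊔ (A ⊓ 𝓝(B)) := sup_inf_of_le_left hN (le_norm_self B)
  have h4 : ♯(A ⊓ 𝓝(B) ⊔ B) = ♯(A ⊓ 𝓝(B)) * ♯B :=
    card_sup_of_disjoint inf_le_right (CA.BG.eq_bot_mono (inf_le_inf_right B inf_le_left) hAB)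
  have h5 : ♯(A ⊓ 𝓝(B)) < ♯A := card_lt_of_lt (lt_of_le_of_ne inf_le_left fun h => hAn (h.ge.trans inf_le_right))
  rw [h3, sup_comm B, h4, h1] at h2
  have := Nat.le_of_mul_le_mul_right h2 (card_pos' B)
  omega

end Cfsg.Agent.S1757
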