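import Cfsg.Statements.S1774
import Cfsg.Agent.S3762
import Cfsg.Agent.Lib.Grp.H7Lge4
import Cfsg.Agent.Lib.Grp.H7Lge2

set_option autoImplicit false
open Cfsg

namespace Cfsg.Agent.S1774

section Aux
open Subgroup CA.PGBasic CA.PGNormalCyclic Cfsg.Agent.S3762
open scoped commutatorElement

theorem sq_mem {T : Type*} [Group T] [Finite T] (hT : IsOfSymplecticType T) (h4 : ∀ x : T, x ^ 4 = 1)
    {z : T} (hz : orderOf z = 2) (hc : z ∈ center T) :
    om T 2 ≤ zpowers z ∧ ∀ x : T, x ^ 2 ∈ zpowers z := by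
  have : Fact (Nat.Prime 2) := ⟨Nat.prime_two⟩
  set A := E0 T 2 ⊓ centralizer (E0 T 2 : Set T) with hA
  have hAc : IsMulCommutative A := isMulCommutative_iff.2 fun a ha b hb => hb.2 a ha.1
  have hA' := hT.2 A inferInstance hAc
  have hz2 : z ^ 2 = 1 := hz ▸ pow_orderOf_eq_one z
  have hZA : om T 2 ≤ A := fun x hx => ⟨mem_E0.2 ⟨fun g => by
    rw [commutatorElement_eq_one_iff_mul_comm.2 (mem_center_iff.1 (mem_om.1 hx).1 g).symm]
    exact one_mem _, pow_mem hx _⟩, fun y _ => mem_center_iff.1 (mem_om.1 hx).1 y⟩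
  have hzo : z ∈ om T 2 := mem_om.2 ⟨hc, hz2⟩
  have U : ∀ a ∈ A, a ^ 2 = 1 → a ∈ zpowers z := by
    intro a ha h2
    have h1 : ¬ 2 < Nat.card (omegaAb A 2) := fun h =>
      not_isCyclic_of_elementary two_pos (omegaAb_elementary A 2).2 h
        (Subgroup.isCyclic_of_le (omegaAb_le A 2))
    rw [eq_of_le_of_card_le (zpowers_le.2 (mem_omegaAb.2 ⟨hZA hzo, hz2⟩ : z ∈ omegaAb A 2))
      (by rw [Nat.card_zpowers, hz]; omega)]
    exact mem_omegaAb.2 ⟨ha, h2⟩
  have hsq : ∀ x : T, (x ^ 2) ^ 2 = 1 := fun x => by rw [← pow_mul, h4]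
  have hC : centralizer (E0 T 2 : Set T) ≤ A := by
    by_contra hn
    obtain ⟨x, h1, h2, h3, h5⟩ := exists_layer_pow_top hT.1 hn
    have h6 : x ^ 2 ∈ om T 2 := zpowers_le.2 hzo (U _ h3 (hsq x))
    refine h2 ⟨mem_E0.2 ⟨fun g => zpowers_le.2 hzo (U _ (h5 g) ?_), h6⟩, h1⟩
    have e1 : ⁅x, g⁆ * x = x * ⁅x, g⁆ := h1 _ (h5 g).1
    have e2 := mem_center_iff.1 (mem_om.1 h6).1 g
    have e3 : ⁅x, g⁆ * ⁅x, g⁆ = x * ⁅x, g⁆ * x⁻¹ * ⁅x, g⁆ := by rw [← e1, mul_inv_cancel_right]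
    rw [pow_two, e3]
    calc _ = x ^ 2 * g * (x ^ 2)⁻¹ * g⁻¹ := by simp only [commutatorElement_def, pow_two]; group
      _ = 1 := by rw [← e2]; group
  refine ⟨fun x hx => U x (hZA hx) (mem_om.1 hx).2, fun x => U _ (hC fun w hw => ?_) (hsq x)⟩
  obtain ⟨h1, h2⟩ := mem_om.1 ((mem_E0.1 hw).1 x)
  have e := mem_center_iff.1 h1 x
  rw [pow_two] at h2
  rw [← commutatorElement_eq_one_iff_mul_comm]
  calc _ = ⁅w, x⁆ * (x * ⁅w, x⁆ * x⁻¹) := by simp only [commutatorElement_def, pow_two]; group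
    _ = 1 := by rw [e, mul_inv_cancel_right, h2]

open CA.BG CA.H7Lge in
theorem mem_cj_small {G : Type*} [Group G] [Finite G] {Q : Subgroup G} {z y : G} (h : LX Q z)
    (hy : y ∈ Q) (hy2 : y * y = 1) (hn : y ∉ zpowers z) (hx : ∀ x ∈ Q ⊓ 𝓒₁(y), x * x ≠ z) :
    IsPi {2} 𝓒₁(z) := by
  obtain ⟨t, ht, hty⟩ := h.exists_conj hy hy2 hn
  have hzz : ∀ g ∈ Q, g * z = z * g := fun g hg => mem_centralizer_singleton_iff.1 (h.cent hg)
  have htn : t ∉ 𝓒₁(y) := fun e => by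
    rw [mem_centralizer_singleton_iff.1 e, mul_inv_cancel_right] at hty
    exact h.ne (by simpa using hty.symm)
  have hP : ∀ x ∈ Q ⊓ 𝓒₁(y), x * x = 1 := fun x hx' =>
    (h.mem_iff.1 (h.pow x hx'.1)).resolve_right (hx x hx')
  have hE : EX Q z := ⟨h.toSX, fun c hc => h.inv c hc (hP c ⟨hc.1,
    mem_centralizer_singleton_iff.2 (hc.2 y hy).symm⟩), fun hc => htn
    (mem_centralizer_singleton_iff.2 (isMulCommutative_iff.1 hc t ht y hy))⟩
  have h8 : ♯Q ≤ 8 := by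
    by_contra h8
    obtain ⟨x, h1, h2⟩ := hE.exists_sq (by omega) hy
    exact hx x h1 h2
  have hi := h.relIndex_cent hy fun e => htn (e ht)
  have hc := card_inf_mul_relIndex 𝓒₁(y) Q
  have hV : zpowers z ⊔ zpowers y = Q ⊓ 𝓒₁(y) := by
    refine CA.PGBasic.eq_of_le_of_card_le (sup_le (zpowers_le.2 ⟨h.mem, mem_centralizer_singleton_iff.2
      (hzz y hy).symm⟩) (zpowers_le.2 ⟨hy, mem_centralizer_singleton_iff.2 rfl⟩)) ?_
    rw [(four_of_commute Nat.prime_two h.ord (by rw [pow_two, hy2]) hn (hzz y hy).symm).2, inf_comm]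
    rw [hi] at hc; omega
  have hPm : ∀ x ∈ Q ⊓ 𝓒₁(y), ∃ c ∈ zpowers z, x = c ∨ x = y * c := by
    intro x hx'
    rw [← hV] at hx'
    obtain ⟨c, hc, k, rfl⟩ := (mem_sup_zpowers (h.norm_of (mem_zpowers z) h.le hy)).1 hx'
    refine ⟨c, hc, ?_⟩
    rcases (mem_two hy2).1 (zpow_mem (mem_zpowers y) k) with e | e <;> rw [e]
    · exact Or.inl (mul_one c)
    · exact Or.inr (h.cz (h.cent hy) hc).symm
  obtain ⟨x, hxQ, hxn, hxx⟩ : ∃ x ∈ Q, x ∉ 𝓒₁(y) ∧ x * x = z := by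
    rcases h.mem_iff.1 (h.pow t ht) with e | e
    · refine ⟨t * y, mul_mem ht hy, fun e' => htn ?_, ?_⟩
      · simpa using mul_mem e' (inv_mem (mem_centralizer_singleton_iff.2 rfl : y ∈ 𝓒₁(y)))
      · calc _ = t * y * t⁻¹ * (t * t) * y := by group
          _ = z := by rw [hty, e, mul_one, hzz y hy, mul_assoc, hy2, mul_one]
    · exact ⟨t, ht, htn, e⟩
  have hxy := h.conj hxQ hy hxn
  -- the cosets of `⟨z⟩` in `Q`
  have hQm : ∀ q ∈ Q, ∃ c ∈ zpowers z, q = c ∨ q = y * c ∨ q = x * c ∨ q = x * y * c := by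
    intro q hq
    by_cases e : q ∈ 𝓒₁(y)
    · obtain ⟨c, hc, e | e⟩ := hPm q ⟨hq, e⟩
      · exact ⟨c, hc, Or.inl e⟩
      · exact ⟨c, hc, Or.inr (Or.inl e)⟩
    · obtain ⟨c, hc, e | e⟩ := hPm (x⁻¹ * q) ⟨Q.mul_mem (Q.inv_mem hxQ) hq,
        h.mul_cent hy (inv_mem hxQ) hq (fun e => hxn ((𝓒₁(y)).inv_mem_iff.1 e)) e⟩
      · exact ⟨c, hc, Or.inr (Or.inr (Or.inl (by rw [← e]; group)))⟩
      · exact ⟨c, hc, Or.inr (Or.inr (Or.inr (by rw [mul_assoc, ← e]; group)))⟩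
  have hxy2 : x * y * (x * y) = 1 := by
    calc _ = x * y * x⁻¹ * (x * x) * y := by group
      _ = 1 := by rw [hxy, hxx, mul_assoc y, h.sq, mul_one, hy2]
  have key : ∀ g ∈ 𝓒₁(z), g * g ∈ Q := by
    intro g hg
    have hg' : ∀ c ∈ zpowers z, g * c * g⁻¹ = c := fun c hc => by rw [h.cz hg hc, mul_inv_cancel_right]
    have hN : ∀ q ∈ Q, g * q * g⁻¹ ∈ Q := fun q hq => (mem_normalizer_iff.1 (h.norm hg) q).1 hq
    have sq : ∀ q, g * q * g⁻¹ * (g * q * g⁻¹) = g * (q * q) * g⁻¹ := fun q => by group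
    obtain ⟨a, ha, ea⟩ : ∃ a ∈ zpowers z, g * x * g⁻¹ = x * a := by
      have s := sq x
      rw [hxx, hg' z (mem_zpowers z)] at s
      obtain ⟨c, hc, e | e | e | e⟩ := hQm _ (hN x hxQ) <;> rw [e] at s
      · exact absurd (s.symm.trans (h.zsq hc)) h.ne
      · exact absurd (s.symm.trans ((h.sq_mul hy hc).trans hy2)) h.ne
      · exact ⟨c, hc, e⟩
      · exact absurd (s.symm.trans ((h.sq_mul (mul_mem hxQ hy) hc).trans hxy2)) h.ne
    obtain ⟨b, hb, eb⟩ : ∃ b ∈ zpowers z, g * g * y * (g * g)⁻¹ = y * b := by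
      have s := sq y
      rw [hy2, mul_one, mul_inv_cancel] at s
      have e0 : g * g * y * (g * g)⁻¹ = g * (g * y * g⁻¹) * g⁻¹ := by group
      obtain ⟨c, hc, e | e | e | e⟩ := hQm _ (hN y hy)
      · refine absurd ?_ hn
        have := hg' c hc
        rw [← e] at this
        have h5 : g * y * g⁻¹ = y := mul_left_cancel (mul_right_cancel this)
        rwa [← h5, e]
      · refine ⟨c * c, mul_mem hc hc, ?_⟩
        rw [e0, e, show g * (y * c) * g⁻¹ = g * y * g⁻¹ * (g * c * g⁻¹) by group, e, hg' c hc, mul_assoc]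
      · rw [e, h.sq_mul hxQ hc, hxx] at s
        exact absurd s h.ne
      · refine ⟨z * (a * (c * c)), mul_mem (mem_zpowers z) (mul_mem ha (mul_mem hc hc)), ?_⟩
        rw [e0, e, show g * (x * y * c) * g⁻¹ = g * x * g⁻¹ * (g * y * g⁻¹) * (g * c * g⁻¹) by group,
          e, hg' c hc, ea]
        have h5 := h.cz (h.cent (mul_mem hxQ hy)) ha
        calc _ = x * (a * (x * y)) * c * c := by group
          _ = x * x * y * a * c * c := by rw [← h5]; group
          _ = _ := by rw [hxx, ← hzz y hy]; group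
    have ea2 : g * g * x * (g * g)⁻¹ = x * (a * a) := by
      rw [show g * g * x * (g * g)⁻¹ = g * (g * x * g⁻¹) * g⁻¹ by group, ea,
        show g * (x * a) * g⁻¹ = g * x * g⁻¹ * (g * a * g⁻¹) by group, ea, hg' a ha, mul_assoc]
    have hc2 : ∀ c ∈ zpowers z, g * g * c * (g * g)⁻¹ = c := fun c hc => by
      rw [h.cz (mul_mem hg hg) hc, mul_inv_cancel_right]
    refine h.stab _ (mul_mem hg hg) fun q hq => ?_
    suffices hs : ∃ d ∈ zpowers z, g * g * q * (g * g)⁻¹ = q * d by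
      obtain ⟨d, hd, e⟩ := hs
      rw [show ⁅q, g * g⁆ = q * (g * g * q * (g * g)⁻¹)⁻¹ by
        simp only [commutatorElement_def, mul_inv_rev, inv_inv, mul_assoc],
        e, h.cz (h.cent hq) hd]
      simpa using hd
    obtain ⟨c, hc, e | e | e | e⟩ := hQm q hq <;> rw [e]
    · exact ⟨1, one_mem _, by rw [hc2 c hc, mul_one]⟩
    · refine ⟨b, hb, ?_⟩
      rw [show g * g * (y * c) * (g * g)⁻¹ = g * g * y * (g * g)⁻¹ * (g * g * c * (g * g)⁻¹) by group,
        eb, hc2 c hc, mul_assoc, mul_assoc, h.cz (h.cent (h.le hb)) hc]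
    · refine ⟨1, one_mem _, ?_⟩
      rw [show g * g * (x * c) * (g * g)⁻¹ = g * g * x * (g * g)⁻¹ * (g * g * c * (g * g)⁻¹) by group,
        ea2, hc2 c hc, h.zsq ha, mul_one, mul_one]
    · refine ⟨b, hb, ?_⟩
      rw [show g * g * (x * y * c) * (g * g)⁻¹ = g * g * x * (g * g)⁻¹ * (g * g * y * (g * g)⁻¹) *
        (g * g * c * (g * g)⁻¹) by group, ea2, eb, hc2 c hc, h.zsq ha, mul_one, mul_assoc, mul_assoc,
        mul_assoc, mul_assoc, h.cz (h.cent (h.le hb)) hc]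
  rw [isPi_iff_isPGroup Nat.prime_two]
  intro g
  refine ⟨3, Subtype.ext ?_⟩
  have := h.pow4 (key g g.2)
  simpa [← pow_two, ← pow_mul] using this

end Aux

open Subgroup CA.BG CA.H7Lge in

/-- Let G be a finite group and let z be an involution of G such that Q, the generalized Fitting subgroup of the centralizer C of z, is a 2-group of symplectic type (every characteristic abelian subgroup of Q is cyclic); suppose every element of Q has order dividing 4. Let g ∈ G with z' = g z g⁻¹ ≠ z and z' ∈ Q. Then z lies in the conjugate g Q g⁻¹, and the subgroup X generated by Q and g Q g⁻¹ induces every automorphism of the four-group generated by z and z': for any two distinct non-identity elements u, v of that four-group there is x ∈ X with x z x⁻¹ = u and x z' x⁻¹ = v. -/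
theorem result {G : Type*} [Group G] [Finite G] (z : G) (hz : orderOf z = 2) (hQ : Cfsg.IsOfSymplecticType ↥(Cfsg.generalizedFittingSubgroup ↥(Subgroup.centralizer ({z} : Set G))))
    (h4 : ∀ q ∈ (Cfsg.generalizedFittingSubgroup ↥(Subgroup.centralizer ({z} : Set G))).map (Subgroup.centralizer ({z} : Set G)).subtype, q ^ 4 = 1) (g : G) (hne : g * z * g⁻¹ ≠ z) (hin : g * z * g⁻¹ ∈ (Cfsg.generalizedFittingSubgroup ↥(Subgroup.centralizer ({z} : Set G))).map (Subgroup.centralizer ({z} : Set G)).subtype) :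
    z ∈ ((Cfsg.generalizedFittingSubgroup ↥(Subgroup.centralizer ({z} : Set G))).map (Subgroup.centralizer ({z} : Set G)).subtype).map (MulAut.conj g).toMonoidHom ∧
      ∀ u ∈ Subgroup.closure ({z, g * z * g⁻¹} : Set G), ∀ v ∈ Subgroup.closure ({z, g * z * g⁻¹} : Set G),
        u ≠ 1 → v ≠ 1 → u ≠ v →
          ∃ x ∈ (Cfsg.generalizedFittingSubgroup ↥(Subgroup.centralizer ({z} : Set G))).map (Subgroup.centralizer ({z} : Set G)).subtype ⊔ ((Cfsg.generalizedFittingSubgroup ↥(Subgroup.centralizer ({z} : Set G))).map (Subgroup.centralizer ({z} : Set G)).subtype).map (MulAut.conj g).toMonoidHom, x * z * x⁻¹ = u ∧ x * (g * z * g⁻¹) * x⁻¹ = v := by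
  set Q := (generalizedFittingSubgroup ↥𝓒₁(z)).map 𝓒₁(z).subtype with hQd
  have hQ2 : IsPi {2} Q := (isPi_iff_isPGroup Nat.prime_two).2 (hQ.1.map _)
  obtain ⟨h1, h2, h3, h5⟩ := of_fstar hz hQd.symm hQ2
  obtain ⟨z', hz', ez⟩ := h1.1
  let φ : generalizedFittingSubgroup ↥𝓒₁(z) →* G := 𝓒₁(z).subtype.comp (Subgroup.subtype _)
  have hφ : Function.Injective φ := (subtype_injective _).comp (subtype_injective _)
  have hr : ∀ x, φ x ∈ Q := fun x => ⟨x, x.2, rfl⟩
  have hs : ∀ q ∈ Q, ∃ x, φ x = q := by rintro _ ⟨x, hx, rfl⟩; exact ⟨⟨x, hx⟩, rfl⟩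
  have ez' : φ ⟨z', hz'⟩ = z := ez
  obtain ⟨h6, h7⟩ := sq_mem hQ (fun x => hφ (by rw [map_pow, map_one]; exact h4 _ (hr x)))
    (z := ⟨z', hz'⟩) (by rw [← orderOf_injective φ hφ, ez', hz])
    (mem_center_iff.2 fun x => hφ (by rw [map_mul, map_mul, ez']; exact h1.2 _ (hr x)))
  have hm : ∀ x ∈ zpowers (⟨z', hz'⟩ : generalizedFittingSubgroup ↥𝓒₁(z)), φ x ∈ zpowers z := by
    rintro _ ⟨k, rfl⟩
    exact ⟨k, by simp only [map_zpow, ez']⟩
  have hz2 : z * z = 1 := by rw [← pow_two, ← hz, pow_orderOf_eq_one]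
  have hS : SX Q z := ⟨h1.1, by rintro rfl; simp at hz, hz2,
    fun q hq => mem_centralizer_singleton_iff.2 (h1.2 q hq), fun q hq => by
      obtain ⟨x, rfl⟩ := hs q hq
      rw [← pow_two, ← map_pow]; exact hm _ (h7 x), fun c hc hc2 => by
      obtain ⟨x, rfl⟩ := hs c hc.1
      refine hm _ (h6 (S3762.mem_om.2 ⟨mem_center_iff.2 fun y => hφ ?_, hφ ?_⟩))
      · rw [map_mul, map_mul]; exact hc.2 _ (hr y)
      · rw [map_pow, map_one, pow_two, hc2]⟩
  have hL : LX Q z := hS.lx h2 (inf_le_right.trans h3) h5.le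
  have hy2 : g * z * g⁻¹ * (g * z * g⁻¹) = 1 := by
    rw [show g * z * g⁻¹ * (g * z * g⁻¹) = g * (z * z) * g⁻¹ by group, hz2]; group
  have hyn : g * z * g⁻¹ ∉ zpowers z := fun h => by
    rcases hS.mem_iff.1 h with e | e
    · exact hS.ne (by simpa using e)
    · exact hne e
  have hmem : z ∈ CA.BG.cj g Q := by
    by_cases hx : ∃ x ∈ Q ⊓ 𝓒₁(g * z * g⁻¹), x * x = z
    · exact hL.mem_cj hin hx
    · push Not at hx
      have h8 := mem_cj_small hL hin hy2 hyn hx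
      rw [mem_cj, ← h5]
      refine le_core h8 le_rfl le_normalizer (mem_centralizer_singleton_iff.2 ?_)
      have := mem_centralizer_singleton_iff.1 (hS.cent hin)
      calc _ = g⁻¹ * (z * (g * z * g⁻¹)) * g := by group
        _ = _ := by rw [← this]; group
  refine ⟨hmem, fun u hu v hv u1 v1 huv => ?_⟩
  rw [closure_pair] at hu hv
  exact (hL.pair hin hne hmem).pairs hu hv u1 v1 huv

end Cfsg.Agent.S1774
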