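import Cfsg.Statements.S1775
import Cfsg.Agent.Lib.Loc.AmbChar
import Cfsg.Agent.Lib.Loc.LBal2
import Cfsg.Agent.Lib.Grp.H13Inv
import Cfsg.Agent.Lib.Grp.SEmb
-- import your own Cfsg.Agent.* helpers here

set_option autoImplicit false
open Cfsg

namespace Cfsg.Agent.S1775

/-- Let G be a finite group whose generalized Fitting subgroup is a non-abelian simple group and in which every proper section (every quotient H/N of a proper subgroup H, or of G by a nontrivial normal subgroup) has the B-property. Let x, y be commuting involutions, let D be the intersection of the 2-layer of C_G(x) with C_G(y), and let J be a 2-component of D. Write Q for the quotient of C_G(y) by its largest normal odd-order subgroup. Then (i) the image of J in Q is a component of the centralizer in Q of the image of x; and (ii) for every J-invariant subgroup E of odd order of C_G(x) ∩ C_G(y), the commutator subgroup [J, E] lies in the largest normal odd-order subgroup of C_G(y). -/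
theorem result {G : Type*} [Group G] [Finite G]
    (hF : IsSimpleGroup ↥(Cfsg.generalizedFittingSubgroup G)) (hF' : ¬ IsMulCommutative ↥(Cfsg.generalizedFittingSubgroup G))
    (hsec : ∀ (H : Subgroup G) (N : Subgroup ↥H) [N.Normal], (H ≠ ⊤ ∨ N ≠ ⊥) → Cfsg.HasBProperty (↥H ⧸ N))
    (x y : G) (hx : orderOf x = 2) (hy : orderOf y = 2) (hxy : x * y = y * x)
    (J : Subgroup ↥((Cfsg.pLayer 2 ↥(Subgroup.centralizer ({x} : Set G))).map (Subgroup.centralizer ({x} : Set G)).subtype ⊓ Subgroup.centralizer ({y} : Set G)))
    (hJ : Cfsg.IsPComponent 2 J) :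
    Cfsg.IsComponent
        ((((J.map (Subgroup.subtype _)).subgroupOf (Subgroup.centralizer ({y} : Set G))).map (QuotientGroup.mk' (Cfsg.oddCore ↥(Subgroup.centralizer ({y} : Set G))))).subgroupOf
          (Subgroup.centralizer ({(QuotientGroup.mk' (Cfsg.oddCore ↥(Subgroup.centralizer ({y} : Set G))) ⟨x, Subgroup.mem_centralizer_singleton_iff.mpr hxy⟩ : ↥(Subgroup.centralizer ({y} : Set G)) ⧸ Cfsg.oddCore ↥(Subgroup.centralizer ({y} : Set G)))} : Set _))) ∧
      ∀ E : Subgroup G, E ≤ Subgroup.centralizer ({x} : Set G) ⊓ Subgroup.centralizer ({y} : Set G) → Odd (Nat.card ↥E) →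
        (∀ j ∈ J.map (Subgroup.subtype _), ∀ e ∈ E, j * e * j⁻¹ ∈ E) →
          ⁅J.map (Subgroup.subtype _), E⁆ ≤ (Cfsg.oddCore ↥(Subgroup.centralizer ({y} : Set G))).map (Subgroup.centralizer ({y} : Set G)).subtype := by
  open Subgroup Cfsg CA CA.Amb CA.AmbSyl CA.AmbCore CA.AmbRes CA.AmbChar CA.AmbFs CA.AmbSpe CA.AmbIso CA.LBal CA.LBal2 CA.Comp CA.PComp in
  open scoped commutatorElement in
  (
    let H := centralizer ({y} : Set G)
    have hne : H ≠ ⊤ := fun e => by
      have c : y ∈ center G := mem_center_iff.2 fun g => mem_cs.1 (e.ge (mem_top g))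
      have m : (⟨y, Fstar.center_le_fstar c⟩ : generalizedFittingSubgroup G) ∈ center _ :=
        mem_center_iff.2 fun g => Subtype.ext (mem_center_iff.1 c g)
      rw [Quasi.center_eq_bot_of_simple hF'] at m
      exact ne_one_of_orderOf hy (congrArg Subtype.val (mem_bot.1 m))
    let x' : H := ⟨x, mem_centralizer_singleton_iff.mpr hxy⟩
    have ox : orderOf x' = 2 ^ 1 := by rw [← orderOf_coe]; exact hx
    let f := QuotientGroup.mk' (oddCore H)
    have hk : (Nat.card f.ker).Coprime 2 := PLoc.coprime_ker_mk_pPrimeCore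
    have sf : Function.Surjective f := QuotientGroup.mk'_surjective _
    let J0 := J.map (Subgroup.subtype _)
    have cx : (centralizer ({x} : Set G) ⊓ H).subgroupOf H = centralizer {x'} := by
      ext g
      simp only [mem_subgroupOf, mem_inf, mem_cs, SetLike.coe_mem, and_true, Subtype.ext_iff]
      rfl
    have j0 : PCp 2 J0 (centralizer ({x} : Set G) ⊓ H) := (PCp.map_subtype hJ).trans
      (Subn.SN.of_le_normalizer (inf_le_inf_right _ (map_subtype_le _))
        (norm_inf (inf_le_left.trans (norm_map_subtype _)) (norm_of_le inf_le_right)))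
    have jH : J0 ≤ H := j0.le.trans inf_le_right
    have j1 := (j0.subgroupOf jH).map_of_coprime hk
    rw [cx, PLoc.map_centralizer_singleton_p sf hk ox] at j1
    have b := hsec H (oddCore H) (Or.inl hne) (f x') (by rw [PLoc.orderOf_map_of_coprime_ker hk ox, ox]; rfl)
    have o : oddCore (H ⧸ oddCore H) = ⊥ := Core.pPrimeCore_quotient_pPrimeCore
    rw [o, map_commutator, le_bot_iff] at b
    have c := cp_of_comm j1 (le_bot_iff.1 ((commutator_mono j1.le_map_pLayer le_rfl).trans b.le))
    refine ⟨c.comp, fun E hE hO hn => ?_⟩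
    have EH : E ≤ H := hE.trans inf_le_right
    refine (commutator_le_map_iff jH EH).2 ?_
    rw [← QuotientGroup.ker_mk' (oddCore H), ← Subgroup.map_eq_bot_iff, map_commutator]
    have n : J0 ≤ 𝐍 E := le_normalizer_iff_cj.2 fun g hg => cj_le_iff'.2 (hn g hg)
    have l : (E.subgroupOf H).map f ≤ centralizer {f x'} := by
      rw [← PLoc.map_centralizer_singleton_p sf hk ox, ← cx]
      exact map_mono (subgroupOf_mono _ hE)
    rcases c.le_or_le_centralizer_of_le_normalizer l (norm_map f (norm_comap H.subtype n)) with h | h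
    · exact absurd h (j1.not_le_of_coprime (Core.coprime_card_map (by
        rw [Nat.card_congr (subgroupOfEquivOfLe EH).toEquiv]; exact Nat.coprime_two_right.2 hO) f))
    · exact comm_eq_bot_of_le h)

end Cfsg.Agent.S1775
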