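import Cfsg.Statements.S1780
import Mathlib

set_option autoImplicit false
open Cfsg

namespace Cfsg.Agent.S1780



/-- Let A be a finite abelian 2-group and t an automorphism of A whose order is a power of 2. If every element of A fixed by t² is fixed by t, then t fixes every element of A. -/
theorem result {A : Type*} [CommGroup A] [Finite A]
    (hA : IsPGroup 2 A) (t : MulAut A) (ht : ∃ k : ℕ, orderOf t = 2 ^ k) (hC : ∀ a : A, t (t a) = a → t a = a) :
    ∀ a : A, t a = a := by
  classical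
  obtain ⟨k, hk⟩ := ht
  set C : Subgroup A := (MulEquiv.toMonoidHom t).eqLocus (MonoidHom.id A) with hCd
  have hm : ∀ a, a ∈ C ↔ t a = a := fun a => Iff.rfl
  by_contra hne
  have hCt : C ≠ ⊤ := by
    intro h; apply hne; intro a; exact (hm a).1 (h ▸ Subgroup.mem_top a)
  have hmap : C.map (t : A →* A) = C := by
    ext a; constructor
    · rintro ⟨b, hb, rfl⟩
      have : t b = b := hb
      rw [hm]; simp [this]
    · intro ha; exact ⟨a, ha, (hm a).1 ha⟩
  let σ : A ⧸ C ≃* A ⧸ C := QuotientGroup.congr C C t hmap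
  have hσ : ∀ a : A, σ (QuotientGroup.mk a) = QuotientGroup.mk (t a) := fun a => rfl
  have hpow : ∀ n : ℕ, ∀ a : A, ((σ.toEquiv : Equiv.Perm (A ⧸ C)) ^ n) (QuotientGroup.mk a) = QuotientGroup.mk ((t ^ n) a) := by
    intro n
    induction n with
    | zero => intro a; rfl
    | succ n ih => intro a; rw [pow_succ', pow_succ', Equiv.Perm.mul_apply, ih]; rfl
  have h1 : (σ.toEquiv : Equiv.Perm (A ⧸ C)) ^ 2 ^ k = 1 := by
    ext q; obtain ⟨a, rfl⟩ := QuotientGroup.mk_surjective q
    rw [hpow, ← hk, pow_orderOf_eq_one]; rfl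
  haveI : Fintype (A ⧸ C) := Fintype.ofFinite _
  have hd : 2 ∣ Fintype.card (A ⧸ C) := by
    obtain ⟨e, he⟩ := (hA.to_quotient C).exists_card_eq
    rw [← Nat.card_eq_fintype_card, he]
    apply dvd_pow_self
    rintro rfl
    rw [pow_zero, ← Subgroup.index_eq_card, Subgroup.index_eq_one] at he
    exact hCt he
  obtain ⟨b, hb, hb1⟩ := Equiv.Perm.exists_fixed_point_of_prime' hd h1 (a := 1) (map_one σ)
  obtain ⟨a, rfl⟩ := QuotientGroup.mk_surjective b
  have hd : a⁻¹ * t a ∈ C := by
    rw [← QuotientGroup.eq]; exact hb.symm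
  set d := a⁻¹ * t a with hdd
  have hta : t a = a * d := by simp [hdd]
  have hd1 : d ≠ 1 := by
    intro h; apply hb1; rw [QuotientGroup.eq_one_iff, hm, hta, h, mul_one]
  obtain ⟨e, he⟩ := IsPGroup.iff_orderOf.1 hA d
  obtain ⟨e, rfl⟩ : ∃ e', e = e' + 1 := by
    cases e with
    | zero => simp at he; exact absurd he hd1
    | succ e => exact ⟨e, rfl⟩
  have htd : t d = d := hd
  have h2 : t (a ^ 2 ^ e) = a ^ 2 ^ e * d ^ 2 ^ e := by rw [map_pow, hta, mul_pow]
  have h3 : t (t (a ^ 2 ^ e)) = a ^ 2 ^ e := by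
    rw [h2, map_mul, h2, map_pow, htd, mul_assoc, ← pow_add, ← two_mul, ← pow_succ', ← he, pow_orderOf_eq_one, mul_one]
  have h4 := hC _ h3
  rw [h2, mul_eq_left] at h4
  have := Nat.le_of_dvd (by positivity) (orderOf_dvd_of_pow_eq_one h4)
  rw [he, pow_succ] at this
  have : 0 < 2 ^ e := by positivity
  omega

end Cfsg.Agent.S1780
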