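import Cfsg.Statements.S1781
import Cfsg.Agent.Lib.Odd.BG1b
import Cfsg.Agent.S1757
import Cfsg.Agent.S1780

set_option autoImplicit false
open Cfsg

namespace Cfsg.Agent.S1781

open CA.BG Subgroup
open scoped IsMulCommutative

/-- Let A be an abelian 2-subgroup of the finite group G such that every conjugate of A equals A or meets A trivially, and let g ∈ G with g A g⁻¹ ≠ A. Then either the subgroup of those elements of A that normalize g A g⁻¹ is an elementary abelian 2-group, or A and g A g⁻¹ commute elementwise. -/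
theorem result {G : Type*} [Group G] [Finite G] (A : Subgroup G)
    (hA2 : IsPGroup 2 ↥A) (hAa : IsMulCommutative ↥A)
    (hti : ∀ h : G, A.map (MulAut.conj h).toMonoidHom = A ∨ A.map (MulAut.conj h).toMonoidHom ⊓ A = ⊥)
    (g : G) (hg : A.map (MulAut.conj g).toMonoidHom ≠ A) :
    Cfsg.IsElementaryAbelian 2 (A ⊓ Subgroup.normalizer ((A.map (MulAut.conj g).toMonoidHom : Subgroup G) : Set G)) ∨
      ⁅A, A.map (MulAut.conj g).toMonoidHom⁆ = ⊥ := by
  change Cfsg.IsElementaryAbelian 2 (A ⊓ 𝓝(cj g A)) ∨ ⁅A, cj g A⁆ = ⊥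
  change cj g A ≠ A at hg
  have hti' : ∀ h : G, cj h A = A ∨ cj h A ⊓ A = ⊥ := hti
  have hd : cj g A ⊓ A = ⊥ := (hti' g).resolve_left hg
  by_cases hE : ∀ a ∈ A ⊓ 𝓝(cj g A), a ^ 2 = 1
  · exact Or.inl ⟨comm_of_le hAa inf_le_left, hE⟩
  right
  push Not at hE
  obtain ⟨t, ⟨htA, htN⟩, ht2⟩ := hE
  set B := cj g A with hB
  have hBa : IsMulCommutative B := (isComm_cj g).2 hAa
  have hB2 : IsPGroup 2 B := ((isPi_of_isPGroup Nat.prime_two hA2).cj g).isPGroup Nat.prime_two
  have hnorm : ∀ b a : G, a ∈ A → a ≠ 1 → b * a = a * b → b ∈ 𝓝(A) := by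
    intro b a ha ha1 hc
    rw [mem_norm_iff_cj]
    refine (hti' b).resolve_right fun h => ha1 ?_
    have : a ∈ cj b A ⊓ A := ⟨mem_cj'.2 ⟨a, ha, by rw [hc]; group⟩, ha⟩
    rwa [h, mem_bot] at this
  let τ : MulAut B := cact B ⟨t, htN⟩
  have hτ : ∀ b : B, (τ b : G) = t * b * t⁻¹ := fun b => rfl
  have hfix := Cfsg.Agent.S1780.result hB2 τ (by
      obtain ⟨k, hk⟩ := IsPGroup.iff_orderOf.1 hA2 ⟨t, htA⟩
      rw [orderOf_mk] at hk
      have : orderOf τ ∣ 2 ^ k := by
        rw [← hk, ← orderOf_mk t htN]; exact orderOf_map_dvd _ _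
      obtain ⟨j, -, hj⟩ := (Nat.dvd_prime_pow Nat.prime_two).1 this
      exact ⟨j, hj⟩) (by
      intro b hb
      have e := congrArg Subtype.val hb
      rw [hτ, hτ] at e
      have hbN : (b : G) ∈ 𝓝(A) := hnorm b (t ^ 2) (A.pow_mem htA 2) ht2 (by
        rw [pow_two]; conv_lhs => rw [← e]
        group)
      have m : (t * b * t⁻¹) * (b : G)⁻¹ ∈ B ⊓ A := by
        refine ⟨B.mul_mem (conj_mem_of_mem_norm htN b.2) (B.inv_mem b.2), ?_⟩
        have := A.mul_mem htA (conj_mem_of_mem_norm hbN (A.inv_mem htA))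
        simpa [mul_assoc] using this
      rw [hd, mem_bot, mul_inv_eq_one] at m
      exact Subtype.ext (by rw [hτ, m]))
  have ht1 : t ≠ 1 := by rintro rfl; simp at ht2
  have hBN : B ≤ 𝓝(A) := fun b hb => hnorm b t htA ht1 (by
    have := congrArg Subtype.val (hfix ⟨b, hb⟩)
    rw [hτ] at this
    simp only at this
    conv_lhs => rw [← this]
    group)
  refine Cfsg.Agent.S1757.result 2 A B hA2 hB2 hti ?_ (card_cj g A).ge (by rw [inf_comm]; exact hd) hBN
  intro h
  change cj h B = B ∨ cj h B ⊓ B = ⊥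
  have e : cj h B = cj g (cj (g⁻¹ * h * g) A) := by rw [hB, ← cj_mul, ← cj_mul]; congr 1; group
  rw [e, hB, ← cj_inf, cj_inj, cj_eq_bot]
  exact hti' _

end Cfsg.Agent.S1781
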