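import Cfsg.Statements.S1782
import Cfsg.Agent.Lib.Grp.PGFrattini
import Cfsg.Agent.Lib.Odd.BGBase1
import Cfsg.Agent.Lib.Grp.Fitting

set_option autoImplicit false
open Cfsg

namespace Cfsg.Agent.S1782

section Aux
open Subgroup CA.PGBasic CA.BG
open scoped commutatorElement
variable {S : Type*} [Group S] [Finite S] {H R T : Subgroup S}

/-- distinct `H`-conjugates of `R` meet trivially and commute -/
def Good (H R : Subgroup S) : Prop := R ≤ H ∧ ∀ h ∈ H, h ∉ 𝓝(R) → ∀ x ∈ R,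
  (h * x * h⁻¹ ∈ R → x = 1) ∧ h * x * h⁻¹ ∈ 𝓒(R)

omit [Finite S] in
theorem Good.norm (g : Good H R) {h x : S} (hh : h ∈ H) (hx : x ∈ R) : h * x * h⁻¹ ∈ 𝓝(R) := by
  by_cases e : h ∈ 𝓝(R)
  · exact le_normalizer ((mem_normalizer_iff.1 e x).1 hx)
  · exact centralizer_le_normalizer _ (g.2 h hh e x hx).2

theorem Good.one (g : Good H R) (hT : T ≤ H) (hc : ♯R = ♯T) (hn : R ≤ 𝓝(T)) : T ≤ 𝓝(R) := by
  intro t ht
  by_contra h
  let f : R → T := fun r => ⟨(r : S)⁻¹ * (t * r * t⁻¹), by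
    have := T.mul_mem ((mem_normalizer_iff.1 (hn (inv_mem r.2)) t).1 ht) (inv_mem ht)
    simpa [mul_assoc] using this⟩
  have hf : Function.Injective f := by
    intro a b e
    have e' : (a : S)⁻¹ * (t * a * t⁻¹) = (b : S)⁻¹ * (t * b * t⁻¹) := congrArg Subtype.val e
    have := (g.2 t (hT ht) h (a * (b : S)⁻¹) (mul_mem a.2 (inv_mem b.2))).1 (by
      rw [show t * (a * (b : S)⁻¹) * t⁻¹ = a * ((a : S)⁻¹ * (t * a * t⁻¹)) *
        ((b : S)⁻¹ * (t * b * t⁻¹))⁻¹ * (b : S)⁻¹ by group, e', mul_inv_cancel_right]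
      exact mul_mem a.2 (inv_mem b.2))
    exact Subtype.ext (mul_inv_eq_one.1 this)
  obtain ⟨r, hr⟩ := (hf.bijective_of_nat_card_le hc.ge).2 ⟨t, ht⟩
  have hr' : (r : S)⁻¹ * (t * r * t⁻¹) = t := congrArg Subtype.val hr
  exact h (hr' ▸ mul_mem (le_normalizer (inv_mem r.2)) (g.norm (hT ht) r.2))

theorem Good.two (hS : IsPGroup 2 S) (g : Good H R) (g' : Good H T) (h1 : ¬ R ≤ 𝓝(T))
    (h2 : ¬ T ≤ 𝓝(R)) {s : S} (hs : s ∈ T) (hs' : s ∈ 𝓝(R)) : s = 1 := by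
  have : Fact (Nat.Prime 2) := ⟨Nat.prime_two⟩
  have := hS.isNilpotent
  obtain ⟨r, hr, hrn⟩ := SetLike.not_le_iff_exists.1 h1
  obtain ⟨t, ht, htn⟩ := SetLike.not_le_iff_exists.1 h2
  by_contra hs1
  let B : Subgroup S := ⨅ h : H, CA.BG.cj (h : S)⁻¹ 𝓝(T)
  have hB : ∀ x, x ∈ B ↔ ∀ h ∈ H, h * x * h⁻¹ ∈ 𝓝(T) := fun x => by
    simp [B, mem_iInf, mem_cj]
  have hBc : ∀ h ∈ H, ∀ x ∈ B, h * x * h⁻¹ ∈ B := fun h hh x hx => (hB _).2 fun k hk => by
    have := (hB x).1 hx (k * h) (mul_mem hk hh)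
    simpa [mul_assoc] using this
  have hTB : T ≤ B := fun x hx => (hB x).2 fun h hh => g'.norm hh hx
  have hne : ¬ R ⊓ B ≤ ⊥ := by
    intro h
    have e : s * r * s⁻¹ * r⁻¹ = 1 := h ⟨R.mul_mem ((mem_normalizer_iff.1 hs' r).1 hr) (R.inv_mem hr), by
      have := mul_mem (hTB hs) (hBc r (g.1 hr) _ (hTB (inv_mem hs)))
      simpa [mul_assoc] using this⟩
    refine hs1 ((g'.2 r (g.1 hr) hrn s hs).1 ?_)
    have e' : s * r = r * s := by
      rw [← mul_inv_eq_one, ← e]; group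
    rwa [← e', mul_inv_cancel_right]
  obtain ⟨x, hx, hx1, hxc⟩ := exists_layer (H := ⊤) (P := R) (M := R ⊓ B) (N := ⊥) inferInstance
    le_top le_top (fun y hy => mem_normalizer_fintype fun n hn =>
      ⟨R.mul_mem (R.mul_mem hy hn.1) (R.inv_mem hy), hBc y (g.1 hy) n hn.2⟩) hne
  have hxT : x ∈ 𝓝(T) := by simpa using (hB x).1 hx.2 1 (one_mem _)
  have e1 : x * r = r * x := commutatorElement_eq_one_iff_mul_comm.1 (hxc r hr)
  obtain ⟨h3, h4⟩ := g.2 t (g'.1 ht) htn x hx.1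
  have hy : x⁻¹ * (t * x * t⁻¹) ∈ T := by
    have := T.mul_mem ((mem_normalizer_iff.1 (inv_mem hxT) t).1 ht) (inv_mem ht)
    simpa [mul_assoc] using this
  have := (g'.2 r (g.1 hr) hrn _ hy).1 (by
    rwa [show r * (x⁻¹ * (t * x * t⁻¹)) * r⁻¹ = (r * x * r⁻¹)⁻¹ * (r * (t * x * t⁻¹) * r⁻¹) by group,
      ← e1, h4 r hr, mul_inv_cancel_right, mul_inv_cancel_right])
  exact hx1 (h3 (by rw [← inv_mul_eq_one.1 this]; exact hx.1))

theorem Good.three (hS : IsPGroup 2 S) (g : Good H R) (g' : Good H T) (h1 : ¬ R ≤ 𝓝(T))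
    (h2 : ¬ T ≤ 𝓝(R)) : frattini R = ⊥ := by
  have : Fact (Nat.Prime 2) := ⟨Nat.prime_two⟩
  obtain ⟨z, hz, hz2⟩ : ∃ z ∈ T, orderOf z = 2 := by
    obtain ⟨z, -, -, hz⟩ := exists_mem_center_orderOf (hS.to_subgroup T) (M := ⊤) (fun e => h2 (by
      intro t ht
      have : (⟨t, ht⟩ : T) ∈ (⊥ : Subgroup T) := e ▸ mem_top _
      rw [show t = 1 from congrArg Subtype.val (mem_bot.1 this)]; exact one_mem _))
    exact ⟨z, z.2, by rw [← hz, orderOf_coe]⟩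
  have hzz : z * z = 1 := by rw [← pow_two, ← hz2, pow_orderOf_eq_one]
  have hzn : z ∉ 𝓝(R) := fun h => by
    rw [g.two hS g' h1 h2 hz h] at hz2; simp at hz2
  rw [eq_bot_iff]
  refine CA.PGFrattini.frattini_le_of_sq_mem fun r => mem_bot.2 (Subtype.ext ?_)
  by_cases hrn : (r : S) ∈ 𝓝(T)
  · simp [g'.two hS g h2 h1 r.2 hrn]
  have e1 := (g'.2 _ (g.1 r.2) hrn z hz).2 z hz
  have e2 := (g.2 z (g'.1 hz) hzn r r.2).2 r r.2
  have hzi : z⁻¹ = z := inv_eq_of_mul_eq_one_left hzz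
  refine (g.2 z (g'.1 hz) hzn _ (pow_mem r.2 2)).1 ?_
  have e3 : z * (r : S) ^ 2 * z⁻¹ = (r : S) ^ 2 := by
    rw [hzi] at e2 ⊢
    have e4 : (r : S) * z * (r : S)⁻¹ * z * ((r : S) * z * (r : S)⁻¹ * z) = 1 := by
      calc _ = (r : S) * z * (r : S)⁻¹ * (z * ((r : S) * z * (r : S)⁻¹)) * z := by group
        _ = r * (z * z) * (r : S)⁻¹ * (z * z) := by rw [e1]; group
        _ = 1 := by rw [hzz]; group
    have e5 : z * (r : S)⁻¹ * z = (z * r * z)⁻¹ := by simp [hzi, mul_assoc]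
    have e6 : Commute (r : S) (z * r * z) := e2
    calc z * (r : S) ^ 2 * z = (z * r * z) * (z * r * z) := by
          rw [pow_two, show z * r * z * (z * r * z) = z * r * (z * z) * r * z by group, hzz]; group
      _ = (r * (z * r * z)⁻¹ * (r * (z * r * z)⁻¹)) * ((z * r * z) * (z * r * z)) := by
          rw [← e5, show (r : S) * (z * (r : S)⁻¹ * z) * (r * (z * (r : S)⁻¹ * z)) =
            r * z * (r : S)⁻¹ * z * (r * z * (r : S)⁻¹ * z) by group, e4, one_mul]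
      _ = _ := by
          rw [mul_assoc (r : S), ← mul_assoc (z * r * z)⁻¹, ← e6.inv_right.eq, pow_two]; group
  rw [e3]; exact pow_mem r.2 2

end Aux

open Subgroup CA.PGBasic CA.BG in

/-- Let S be a finite 2-group and Δ a set of subgroups of S closed under conjugation by S, all of the same order, each with nontrivial Frattini subgroup, and such that two distinct members of Δ meet trivially. Then any two distinct members of Δ commute elementwise. -/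
theorem result {S : Type*} [Group S] [Finite S] (hS : IsPGroup 2 S)
    (Δ : Set (Subgroup S)) (hinv : ∀ s : S, ∀ R ∈ Δ, R.map (MulAut.conj s).toMonoidHom ∈ Δ)
    (hΦ : ∀ R ∈ Δ, frattini ↥R ≠ ⊥) (hord : ∀ R ∈ Δ, ∀ T ∈ Δ, Nat.card ↥R = Nat.card ↥T)
    (hti : ∀ R ∈ Δ, ∀ T ∈ Δ, R = T ∨ R ⊓ T = ⊥) :
    ∀ R ∈ Δ, ∀ T ∈ Δ, R ≠ T → ⁅R, T⁆ = ⊥ := by
  have : Fact (Nat.Prime 2) := ⟨Nat.prime_two⟩
  suffices key : ∀ (n : ℕ) (H : Subgroup S), ♯H = n → ∀ R ∈ Δ, ∀ T ∈ Δ, R ≤ H → T ≤ H → R ≠ T →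
      ⁅R, T⁆ = ⊥ from fun R hR T hT => key _ ⊤ rfl R hR T hT le_top le_top
  intro n
  induction n using Nat.strong_induction_on with
  | _ n ih =>
  intro H hH R hR T hT hRH hTH hne
  have good : ∀ R ∈ Δ, ∀ T ∈ Δ, R ≤ H → T ≤ H → R ≠ T → Good H R := by
    intro R hR T hT hRH hTH hne
    have hlt : R < H := lt_of_le_of_ne hRH fun e => hne
      (CA.PGBasic.eq_of_le_of_card_le (e ▸ hTH) (hord R hR T hT).le).symm
    obtain ⟨M, h1, h2, h3⟩ := exists_relIndex_eq_below (hS.to_subgroup H) hlt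
    have h4 := le_normalizer_of_relIndex (hS.to_subgroup H) h2 h3
    have h5 : ♯M < n := by
      have := CA.PGBasic.card_mul_relIndex h2
      have : 0 < ♯M := Nat.card_pos
      rw [h3] at *; omega
    refine ⟨hRH, fun h hh hn x hx => ?_⟩
    have h6 : CA.BG.cj h R ≠ R := fun e => hn (mem_norm_iff_cj.2 e)
    have h7 : h * x * h⁻¹ ∈ CA.BG.cj h R := mem_cj'.2 ⟨x, hx, rfl⟩
    refine ⟨fun h8 => ?_, ?_⟩
    · have := (hti _ (hinv h R hR) R hR).resolve_left h6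
      have h9 : h * x * h⁻¹ ∈ (⊥ : Subgroup S) := this ▸ ⟨h7, h8⟩
      simpa using h9
    · refine commutator_eq_bot_iff_le_centralizer.1 (ih _ h5 M rfl _ (hinv h R hR) R hR ?_ h1 h6) h7
      rintro _ ⟨y, hy, rfl⟩
      exact (mem_normalizer_iff.1 (h4 hh) y).1 (h1 hy)
  have g := good R hR T hT hRH hTH hne
  have g' := good T hT R hR hTH hRH hne.symm
  have h1 : R ≤ 𝓝(T) := by
    by_contra h1
    exact hΦ R hR (g.three hS g' h1 fun h2 => h1 (g'.one hRH (hord T hT R hR) h2))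
  have h2 := g.one hTH (hord R hR T hT) h1
  rw [eq_bot_iff, ← (hti R hR T hT).resolve_left hne]
  exact CA.Fitting.commutator_le_inf_of_le_normalizer h1 h2

end Cfsg.Agent.S1782
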