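import Cfsg.Statements.S1783
import Cfsg.Agent.S1782
import Cfsg.Agent.Lib.Grp.Coprime2
import Cfsg.Agent.Lib.Grp.Fstar
import Cfsg.Agent.Lib.Odd.BGPi

set_option autoImplicit false
open Cfsg

namespace Cfsg.Agent.S1783

section Aux
open Subgroup CA.PGBasic CA.BG CA.PGFrattini
open scoped commutatorElement
variable {X : Type*} [Group X] [Finite X]

theorem comm_of_ti {S R : Subgroup X} (hS : IsPGroup 2 S) (hΦ : ¬ IsElementaryAbelian 2 R)
    (hti : ∀ h : X, CA.BG.cj h R = R ∨ CA.BG.cj h R ⊓ R = ⊥) {g h : X} (hg : CA.BG.cj g R ≤ S)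
    (hh : CA.BG.cj h R ≤ S) (hne : CA.BG.cj g R ≠ CA.BG.cj h R) :
    CA.BG.cj g R ≤ 𝓒(CA.BG.cj h R) := by
  have : Fact (Nat.Prime 2) := ⟨Nat.prime_two⟩
  have inj := map_injective (f := S.subtype) S.subtype_injective
  have := S1782.result hS {K | ∃ k : X, K.map S.subtype = CA.BG.cj k R} ?_ ?_ ?_ ?_
    ((CA.BG.cj g R).subgroupOf S) ⟨g, map_subgroupOf_eq_of_le hg⟩
    ((CA.BG.cj h R).subgroupOf S) ⟨h, map_subgroupOf_eq_of_le hh⟩
    (fun e => hne (by rw [← map_subgroupOf_eq_of_le hg, e, map_subgroupOf_eq_of_le hh]))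
  · rw [← commutator_eq_bot_iff_le_centralizer, ← map_subgroupOf_eq_of_le hg,
      ← map_subgroupOf_eq_of_le hh, ← map_commutator, this, Subgroup.map_bot]
  · rintro s K ⟨k, hk⟩
    refine ⟨s * k, ?_⟩
    rw [cj_mul, ← hk]
    simp only [CA.BG.cj, map_map]
    rfl
  · rintro K ⟨k, hk⟩ e
    obtain ⟨h1, h2⟩ := (frattini_eq_bot_iff (hS.to_subgroup K)).1 e
    have hm : ∀ a ∈ R, ∃ b : K, ((b : S) : X) = k * a * k⁻¹ := fun a ha => by
      obtain ⟨b, hb, e⟩ : k * a * k⁻¹ ∈ K.map S.subtype := hk ▸ mem_cj'.2 ⟨a, ha, rfl⟩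
      exact ⟨⟨b, hb⟩, e⟩
    refine hΦ ⟨isMulCommutative_iff.2 fun a ha b hb => ?_, fun a ha => ?_⟩
    · obtain ⟨a', ea⟩ := hm a ha
      obtain ⟨b', eb⟩ := hm b hb
      have : ((a' * b' : K) : X) = (b' * a' : K) := by rw [h1.1.1]
      simpa [ea, eb] using this
    · obtain ⟨a', ea⟩ := hm a ha
      have : (((a' ^ 2 : K) : S) : X) = 1 := by rw [h2]; rfl
      simpa [ea] using this
  · rintro K ⟨k, hk⟩ L ⟨l, hl⟩
    rw [← card_map_of_injective S.subtype_injective, hk, ← card_map_of_injective (K := L)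
      S.subtype_injective, hl, card_cj, card_cj]
  · rintro K ⟨k, hk⟩ L ⟨l, hl⟩
    have e : CA.BG.cj k R = CA.BG.cj l (CA.BG.cj (l⁻¹ * k) R) := by rw [← cj_mul]; simp
    rcases hti (l⁻¹ * k) with h1 | h1
    · exact Or.inl (inj (by rw [hk, hl, e, h1]))
    · exact Or.inr (inj (by
        rw [map_inf _ _ _ S.subtype_injective, hk, hl, e, ← cj_inf, h1]; simp))

theorem mem_core (hC : 𝓒(pCore 2 X) ≤ pCore 2 X) {x : X}
    (h : ∀ k ∈ pCore 2 X, x * k * x⁻¹ * k⁻¹ ∈ (frattini (pCore 2 X)).map (pCore 2 X).subtype) :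
    x ∈ pCore 2 X := by
  have : Fact (Nat.Prime 2) := ⟨Nat.prime_two⟩
  set Q := pCore 2 X
  set F := (frattini Q).map Q.subtype
  have hQ : IsPGroup 2 Q := CA.Core.isPGroup_pCore
  let N := (𝓒(Q.map (QuotientGroup.mk' F))).comap (QuotientGroup.mk' F)
  have hN : ∀ y, y ∈ N ↔ ∀ k ∈ Q, y * k * y⁻¹ * k⁻¹ ∈ F := fun y => by
    have : ∀ k, y * k * y⁻¹ * k⁻¹ ∈ F ↔ QuotientGroup.mk' F k * QuotientGroup.mk' F y =
        QuotientGroup.mk' F y * QuotientGroup.mk' F k := fun k => by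
      conv_lhs => rw [← commutatorElement_def, ← QuotientGroup.ker_mk' F, MonoidHom.mem_ker,
        map_commutatorElement, commutatorElement_eq_one_iff_mul_comm]
      exact eq_comm
    simp only [this]
    exact ⟨fun h k hk => h _ ⟨k, hk, rfl⟩, by rintro h _ ⟨k, hk, rfl⟩; exact h k hk⟩
  refine CA.Core.le_pCore (N := N) ((isPi_iff_isPGroup Nat.prime_two).1 (isPi_iff.2 ?_)) ((hN x).2 h)
  intro r hr hd
  have := Fact.mk hr
  obtain ⟨y, hy⟩ := exists_prime_orderOf_dvd_card' r hd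
  rw [← orderOf_coe] at hy
  by_contra h2
  obtain ⟨n, hn⟩ := IsPGroup.iff_card.1 (hQ.to_subgroup (frattini Q))
  have h3 := CA.Coprime2.le_centralizer_of_commutator_le_frattini (A := zpowers (y : X)) (K := Q)
    (by rw [Nat.card_zpowers, hy, hn]
        exact Nat.Coprime.pow_right _ ((Nat.coprime_primes hr Nat.prime_two).2 h2))
    fun a ha => (hN a).1 (zpowers_le.2 y.2 ha)
  obtain ⟨m, hm⟩ := IsPGroup.iff_card.1 hQ
  have := Q.orderOf_dvd_natCard (hC (h3 (mem_zpowers _)))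
  rw [hy, hm] at this
  exact h2 ((Nat.prime_dvd_prime_iff_eq hr Nat.prime_two).1 (hr.dvd_of_dvd_pow this))

end Aux

open Subgroup CA.PGBasic CA.BG CA.PGFrattini in

/-- Let X be a finite group whose generalized Fitting subgroup equals its largest normal 2-subgroup Q, and let A be an abelian 2-subgroup of X such that every conjugate of A equals A or meets A trivially. Let B be the subgroup generated by the squares of the elements of A. Then B lies in Q, and if B is not an elementary abelian 2-group then the normal closure of B in X is commutative. -/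
theorem result {X : Type*} [Group X] [Finite X]
    (hX : Cfsg.generalizedFittingSubgroup X = Cfsg.pCore 2 X) (A : Subgroup X) (hA2 : IsPGroup 2 ↥A) (hAa : IsMulCommutative ↥A)
    (hti : ∀ h : X, A.map (MulAut.conj h).toMonoidHom = A ∨ A.map (MulAut.conj h).toMonoidHom ⊓ A = ⊥) :
    Subgroup.closure ((fun a : X => a ^ 2) '' (A : Set X)) ≤ Cfsg.pCore 2 X ∧
      (¬ Cfsg.IsElementaryAbelian 2 (Subgroup.closure ((fun a : X => a ^ 2) '' (A : Set X))) →
        IsMulCommutative ↥(Subgroup.normalClosure ((fun a : X => a ^ 2) '' (A : Set X)))) := by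
  have : Fact (Nat.Prime 2) := ⟨Nat.prime_two⟩
  set B := closure ((fun a : X => a ^ 2) '' (A : Set X)) with hB
  have hQ : IsPGroup 2 (pCore 2 X) := CA.Core.isPGroup_pCore
  have hAc := CA.PGBasic.isMulCommutative_iff.1 hAa
  have hBA : B ≤ A := (closure_le _).2 (by rintro _ ⟨a, ha, rfl⟩; exact pow_mem ha 2)
  have h1 : B ≤ pCore 2 X := by
    refine (closure_le _).2 ?_
    rintro _ ⟨a, ha, rfl⟩
    by_cases hE : IsElementaryAbelian 2 A
    · simp only [hE.2 a ha]; exact one_mem _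
    refine mem_core (hX ▸ CA.Fstar.centralizer_fstar_le) fun k hk => ?_
    have hS : IsPGroup 2 ↥(A ⊔ pCore 2 X) := hA2.to_sup_of_normal_right hQ
    have hc : k * a * k⁻¹ ∈ 𝓒(A) := by
      have hm : k * a * k⁻¹ ∈ CA.BG.cj k A := mem_cj'.2 ⟨a, ha, rfl⟩
      by_cases e : CA.BG.cj k A = CA.BG.cj 1 A
      · rw [e, cj_one] at hm
        exact fun y hy => hAc y hy _ hm
      · have := comm_of_ti hS hE hti (cj_le_of_mem (mem_sup_right hk) le_sup_left)
          (cj_le_of_mem (one_mem _) le_sup_left) e hm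
        rwa [cj_one] at this
    have e : Commute a (k * a * k⁻¹) := hc a ha
    have hm : a * k * a⁻¹ * k⁻¹ ∈ pCore 2 X :=
      mul_mem (Normal.conj_mem inferInstance _ hk a) (inv_mem hk)
    have := pow_mem_map_frattini hQ hm
    rwa [show a * k * a⁻¹ * k⁻¹ = a * (k * a * k⁻¹)⁻¹ by group, e.inv_right.mul_pow,
      show a ^ 2 * (k * a * k⁻¹)⁻¹ ^ 2 = a ^ 2 * k * (a ^ 2)⁻¹ * k⁻¹ by simp only [pow_two]; group] at this
  refine ⟨h1, fun hE => ?_⟩
  have hti' : ∀ h : X, CA.BG.cj h B = B ∨ CA.BG.cj h B ⊓ B = ⊥ := fun h => by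
    rcases hti h with e | e
    · refine Or.inl (mem_norm_iff_cj.1 (mem_norm_of_cj_le (cj_le_iff.2 ((closure_le _).2 ?_))))
      rintro _ ⟨a, ha, rfl⟩
      refine mem_cj_inv.2 (subset_closure ⟨h * a * h⁻¹, ?_, by simp⟩)
      exact e ▸ (mem_cj'.2 ⟨a, ha, rfl⟩ : h * a * h⁻¹ ∈ CA.BG.cj h A)
    · exact Or.inr (eq_bot_iff.2 (e ▸ inf_le_inf (cj_mono h hBA) hBA))
  have hn : ∀ g, CA.BG.cj g B ≤ pCore 2 X := fun g => by
    rintro _ ⟨b, hb, rfl⟩
    exact Normal.conj_mem inferInstance _ (h1 hb) g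
  have hc : ∀ g h, CA.BG.cj g B ≤ 𝓒(CA.BG.cj h B) := fun g h => by
    by_cases e : CA.BG.cj g B = CA.BG.cj h B
    · rw [e]
      rintro _ ⟨a, ha, rfl⟩ _ ⟨b, hb, rfl⟩
      simp only [← map_mul, hAc b (hBA hb) a (hBA ha)]
    · exact comm_of_ti hQ hE hti' (hn g) (hn h) e
  refine Subgroup.isMulCommutative_closure ?_
  intro x hx y hy
  obtain ⟨a, ha, hax⟩ := Group.mem_conjugatesOfSet_iff.1 hx
  obtain ⟨b, hb, hby⟩ := Group.mem_conjugatesOfSet_iff.1 hy
  obtain ⟨g, rfl⟩ := isConj_iff.1 hax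
  obtain ⟨h, rfl⟩ := isConj_iff.1 hby
  exact hc h g (mem_cj'.2 ⟨b, subset_closure hb, rfl⟩) _ (mem_cj'.2 ⟨a, subset_closure ha, rfl⟩)

end Cfsg.Agent.S1783
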