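import Cfsg.Statements.S1784
import Cfsg.Agent.Lib.Grp.H7Lge
import Cfsg.Agent.Lib.Loc.H6Qd

set_option autoImplicit false
open Cfsg

namespace Cfsg.Agent.S1784

open Subgroup CA.BG CA.BG4 CA.H7Lge
open scoped commutatorElement

/-- Let G be a finite group and let z be an involution of G such that Q, the generalized Fitting subgroup of the centralizer C of z, is a 2-group of symplectic type (every characteristic abelian subgroup of Q is cyclic); suppose Q is extraspecial, and view Q inside G. Let α be an involution of C that is not in Q, and let Q₀ be the subgroup of those q ∈ Q whose commutator with α lies in the subgroup generated by z. Then (a) the subgroup generated by the commutators α q α⁻¹ q⁻¹, q ∈ Q, equals the centre of Q₀; and (b) if Q₀ is not contained in the product of the centralizer of α in Q with the subgroup generated by z, then some element of Q conjugates α to α z. -/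
theorem result {G : Type*} [Group G] [Finite G] (z : G) (hz : orderOf z = 2) (hQ : Cfsg.IsOfSymplecticType ↥(Cfsg.generalizedFittingSubgroup ↥(Subgroup.centralizer ({z} : Set G)))) (hE : Cfsg.IsExtraspecial 2 ↥(Cfsg.generalizedFittingSubgroup ↥(Subgroup.centralizer ({z} : Set G))))
    (α : G) (hα : orderOf α = 2) (hαC : α ∈ Subgroup.centralizer ({z} : Set G)) (hαQ : α ∉ (Cfsg.generalizedFittingSubgroup ↥(Subgroup.centralizer ({z} : Set G))).map (Subgroup.centralizer ({z} : Set G)).subtype)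
    (Q₀ : Subgroup G) (hQ₀ : ∀ q : G, q ∈ Q₀ ↔ (q ∈ (Cfsg.generalizedFittingSubgroup ↥(Subgroup.centralizer ({z} : Set G))).map (Subgroup.centralizer ({z} : Set G)).subtype ∧ α * q * α⁻¹ * q⁻¹ ∈ Subgroup.zpowers z)) :
    Subgroup.closure ((fun q : G => α * q * α⁻¹ * q⁻¹) '' ((Cfsg.generalizedFittingSubgroup ↥(Subgroup.centralizer ({z} : Set G))).map (Subgroup.centralizer ({z} : Set G)).subtype : Set G)) = (Subgroup.center ↥Q₀).map Q₀.subtype ∧
      (¬ Q₀ ≤ ((Cfsg.generalizedFittingSubgroup ↥(Subgroup.centralizer ({z} : Set G))).map (Subgroup.centralizer ({z} : Set G)).subtype ⊓ Subgroup.centralizer ({α} : Set G)) ⊔ Subgroup.zpowers z →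
        ∃ q ∈ (Cfsg.generalizedFittingSubgroup ↥(Subgroup.centralizer ({z} : Set G))).map (Subgroup.centralizer ({z} : Set G)).subtype, q * α * q⁻¹ = α * z) := by
  have hE' := CA.H6Qd.isExtraspecial_congr (equivMapOfInjective _ _ 𝓒₁(z).subtype_injective) hE
  generalize hF : (Cfsg.generalizedFittingSubgroup 𝓒₁(z)).map 𝓒₁(z).subtype = Q at *
  obtain ⟨h1, h2, h3, -⟩ := of_fstar hz hF (isPi_of_isPGroup Nat.prime_two hE'.1.1)
  have h := EX.of_mem hE' h1 (by rintro rfl; simp at hz)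
  have a2 : α * α = 1 := by rw [← pow_two, ← hα, pow_orderOf_eq_one]
  have hA : zpowers α ≤ 𝓝(Q) := zpowers_le.2 (h2 hαC)
  have e : closure ((fun q : G => α * q * α⁻¹ * q⁻¹) '' (Q : Set G)) = ⁅zpowers α, Q⁆ := by
    refine le_antisymm ((closure_le _).2 ?_) (commutator_le.2 fun a ha q hq => ?_)
    · rintro _ ⟨q, hq, rfl⟩
      exact commutator_mem_commutator (mem_zpowers α) hq
    · rcases (mem_two a2).1 ha with rfl | rfl
      · simp
      · exact subset_closure ⟨q, hq, rfl⟩
  have h4 : ⁅zpowers α, Q⁆ ≤ Q := comm_le_right hA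
  have h5 : Q₀ ≤ Q := fun q hq => ((hQ₀ q).1 hq).1
  have h6 : ⁅zpowers α, Q₀⁆ ≤ zpowers z := commutator_le.2 fun a ha q hq => by
    rcases (mem_two a2).1 ha with rfl | rfl
    · simp
    · exact ((hQ₀ q).1 hq).2
  have h7 : ∀ K, K ≤ Q → ⁅⁅Q, K⁆, zpowers α⁆ = ⊥ := fun K hK =>
    commutator_eq_bot_iff_le_centralizer.2 (((commutator_mono le_rfl hK).trans h.der).trans
      (cent_symm (cent_zpowers z ▸ zpowers_le.2 hαC)))
  have h8 : Q ⊓ 𝓒(⁅zpowers α, Q⁆) = Q₀ := by
    refine le_antisymm (fun x hx => (hQ₀ x).2 ⟨hx.1, ?_⟩) (le_inf h5 (cent_symm ?_))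
    · have := commutator_commutator_eq_bot_of_rotate (H₁ := Q ⊓ 𝓒(⁅zpowers α, Q⁆)) (H₂ := zpowers α)
        (H₃ := Q) (commutator_eq_bot_iff_le_centralizer.2 (cent_symm inf_le_right)) (h7 _ inf_le_left)
      rw [commutator_eq_bot_iff_le_centralizer, commutator_comm] at this
      exact h.ctr ⟨h4 (commutator_mem_commutator (mem_zpowers α) hx.1),
        this (commutator_mem_commutator (mem_zpowers α) hx)⟩
    · refine commutator_eq_bot_iff_le_centralizer.1
        (commutator_commutator_eq_bot_of_rotate (h7 _ h5) (commutator_eq_bot_iff_le_centralizer.2 ?_))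
      rw [commutator_comm]
      exact h6.trans (h.center_eq.ge.trans inf_le_right)
  have h9 : z ∈ ⁅zpowers α, Q⁆ := by
    obtain ⟨c, hc, c1⟩ := exists_ne_one (h.isPi.meet_cent (h.isPi.of_le h4) (le_norm_comm_right _ _) fun k =>
      hαQ (h3 (zpowers_le.1 (commutator_eq_bot_iff_le_centralizer.1 k))))
    exact (h.mem_iff.1 (h.ctr ⟨h4 hc.1, hc.2⟩)).resolve_left c1 ▸ hc.1
  refine ⟨?_, fun hn => ?_⟩
  · rw [CA.BG.map_center]
    refine le_antisymm (le_inf ?_ (e ▸ h8 ▸ cent_symm inf_le_right))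
      (e ▸ le_trans (inf_le_inf h5 (h8 ▸ le_rfl)) (h.cent_cent_le h9 h4))
    rw [closure_le]
    rintro _ ⟨q, hq, rfl⟩
    have k : α * q * α⁻¹ * q⁻¹ ∈ Q := h4 (commutator_mem_commutator (mem_zpowers α) hq)
    refine (hQ₀ _).2 ⟨k, ?_⟩
    convert h.pow _ (inv_mem k) using 1
    rw [show α * (α * q * α⁻¹ * q⁻¹) * α⁻¹ = α * α * q * α⁻¹ * q⁻¹ * α⁻¹ by group, a2]
    simp [inv_eq a2, mul_assoc]
  · obtain ⟨q, hq, k⟩ := SetLike.not_le_iff_exists.1 hn
    refine ⟨q, h5 hq, ?_⟩
    rcases h.mem_iff.1 ((hQ₀ q).1 hq).2 with k1 | k1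
    · exact absurd (mem_sup_left (mem_inf.2 ⟨h5 hq, mem_cent1.2 (commutatorElement_eq_one_iff_mul_comm.1 k1).symm⟩)) k
    · rw [← k1, inv_eq a2, ← mul_assoc, ← mul_assoc, ← mul_assoc, a2, one_mul]

end Cfsg.Agent.S1784
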