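import Cfsg.Statements.S1785
import Cfsg.Agent.Lib.Grp.H7Max
import Cfsg.Agent.Lib.Loc.AmbSpe

set_option autoImplicit false
open Cfsg

namespace Cfsg.Agent.S1785

open Subgroup Cfsg CA.BG CA.H7Max
open scoped commutatorElement

theorem sq_le {X : Type*} [Group X] [Finite X] {F : Subgroup X} (hF : IsElementaryAbelian 2 F)
    {a : X} (ha : a ^ 2 = 1) (hn : a ∈ 𝓝(F)) : ♯F ≤ ♯(F ⊓ 𝓒₁(a)) * ♯(F ⊓ 𝓒₁(a)) := by
  have h1 : ⁅F, zpowers a⁆ ≤ F ⊓ 𝓒₁(a) := by
    rw [commutator_le]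
    rintro n hn' _ ⟨k, rfl⟩
    have ha' : a ^ (2 : ℤ) = 1 := by exact_mod_cast ha
    rcases Int.even_or_odd' k with ⟨j, rfl | rfl⟩
    · simp only [zpow_mul, ha', one_zpow, commutatorElement_one_right, one_mem]
    simp only [zpow_add, zpow_mul, ha', one_zpow, one_mul, zpow_one]
    have hm : a * n * a⁻¹ ∈ F := (mem_normalizer_iff.1 hn n).1 hn'
    have inv : ∀ x ∈ F, x⁻¹ = x := fun x hx =>
      inv_eq_of_mul_eq_one_right (by rw [← pow_two, hF.2 x hx])
    have e : ⁅n, a⁆ = n * (a * n * a⁻¹) := by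
      rw [← inv _ hm, commutatorElement_def]; group
    have hc : n * (a * n * a⁻¹) = a * n * a⁻¹ * n :=
      congrArg Subtype.val (hF.1.is_comm.comm (⟨n, hn'⟩ : F) ⟨_, hm⟩)
    refine ⟨e ▸ F.mul_mem hn' hm, mem_centralizer_singleton_iff.2 ?_⟩
    have ha2 : a⁻¹ = a := inv_eq_of_mul_eq_one_right (by rw [← pow_two, ha])
    rw [e]
    calc n * (a * n * a⁻¹) * a = (a * a⁻¹) * n * a * n := by group
      _ = a * (a * n * a⁻¹ * n) := by rw [ha2]; group
      _ = _ := by rw [hc]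
  have h2 := (relIndex_cent1_le (N := F) (mem_zpowers a)).trans (card_le_of_le h1)
  have h3 := CA.Amb.card_inf_mul_relIndex 𝓒₁(a) F
  rw [inf_comm] at h3
  rw [← h3]
  exact Nat.mul_le_mul_left _ h2

theorem pow_le {X : Type*} [Group X] [Finite X] {F : Subgroup X} (hF : IsElementaryAbelian 2 F)
    {a : X} (ha : a ^ 2 = 1) (hn : a ∈ 𝓝(F)) {k : ℕ} (h : 2 ^ (2 * k) < ♯F) :
    2 ^ (k + 1) ≤ ♯(F ⊓ 𝓒₁(a)) := by
  obtain ⟨j, hj⟩ := elem_exists_el Nat.prime_two
    (CA.AmbSpe.ea_of_le hF (inf_le_left (b := 𝓒₁(a))))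
  have := lt_of_lt_of_le h (sq_le hF ha hn)
  rw [hj.card, ← pow_add, Nat.pow_lt_pow_iff_right (by norm_num)] at this
  rw [hj.card]
  exact Nat.pow_le_pow_right (by norm_num) (by omega)

/-- An elementary abelian `A = B × (rank j)` with `B ≤ E` has a large centralizer in `E`. -/
theorem cent_le {X : Type*} [Group X] [Finite X] {E : Subgroup X} [E.Normal]
    (hE : IsElementaryAbelian 2 E) (h32 : 32 ≤ ♯E) (j : ℕ) (hj : j ≤ 3) :
    ∀ A : Subgroup X, IsElementaryAbelian 2 A → ♯A = ♯(A ⊓ E) * 2 ^ j →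
      [32, 8, 4, 2].getD j 0 ≤ ♯(E ⊓ 𝓒(A)) := by
  induction j with
  | zero =>
    intro A _ h
    have : A ⊓ E = A := eq_of_le_of_card_ge inf_le_left (by omega)
    rw [inf_eq_left.2 (le_centralizer_iff.1 ((inf_eq_left.1 this).trans
      (haveI := hE.1; le_centralizer E)))]
    exact h32
  | succ j ih =>
    intro A hA h
    obtain ⟨i, hi⟩ := elem_exists_el Nat.prime_two
      (CA.AmbSpe.ea_of_le hA (inf_le_left (b := E)))
    obtain ⟨B, h1, h2, hB⟩ := hi.exists_between Nat.prime_two (k := i + (j + 1)) (j := i + j)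
      ⟨hA, by rw [h, hi.card, ← pow_add]⟩ inf_le_left (by omega) (by omega)
    have e : B ⊓ E = A ⊓ E := le_antisymm (inf_le_inf_right _ h2) (le_inf h1 inf_le_right)
    have h3 := ih (by omega) B hB.1 (by rw [e, hB.card, hi.card, pow_add])
    have hBA : B.relIndex A = 2 :=
      El.relIndex_prime Nat.prime_two ⟨hA, by rw [h, hi.card, ← pow_add, add_assoc]⟩ hB h2
    obtain ⟨a, ha, haB⟩ : ∃ a ∈ A, a ∉ B := by
      by_contra hc
      push Not at hc
      rw [relIndex_eq_one.2 hc] at hBA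
      omega
    have e2 := CA.PGBasic.sup_zpowers_eq_of_relIndex_prime Nat.prime_two hBA h2 ha haB
    have e3 : E ⊓ 𝓒(A) = E ⊓ 𝓒(B) ⊓ 𝓒₁(a) := by
      rw [← e2, CA.Amb.centralizer_sup, CA.Amb.centralizer_zpowers, inf_assoc]
    have hn : a ∈ 𝓝(E ⊓ 𝓒(B)) := CA.Amb.norm_inf (L := A) le_normalizer_of_normal
      (CA.Amb.norm_centralizer (CA.Amb.norm_of_centralizer
        (le_centralizer_iff.1 (h2.trans (haveI := hA.1; le_centralizer A))))) ha
    have := fun k => pow_le (CA.AmbSpe.ea_of_le hE inf_le_left) (hA.2 a ha) hn (k := k)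
    rw [e3]
    have hj' : j = 0 ∨ j = 1 ∨ j = 2 := by omega
    rcases hj' with rfl | rfl | rfl
    · exact this 2 (lt_of_lt_of_le (by norm_num) h3)
    · exact this 1 (lt_of_lt_of_le (by norm_num) h3)
    · exact this 0 (lt_of_lt_of_le (by norm_num) h3)

/-- Let X be a finite 2-group having a normal elementary abelian subgroup of order at least 32. Then (a) for any two elementary abelian subgroups A, B of X of order 8 there is a chain A = A₁, A₂, …, Aₙ = B of elementary abelian subgroups of order 8 in which consecutive members commute elementwise; and (b) every elementary abelian subgroup of X of order 4 is contained in an elementary abelian subgroup of order 8. -/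
theorem result {X : Type*} [Group X] [Finite X]
    (hX : IsPGroup 2 X) (E : Subgroup X) [E.Normal] (hE : Cfsg.IsElementaryAbelian 2 E) (hE32 : 32 ≤ Nat.card ↥E) :
    (∀ A B : Subgroup X, Cfsg.IsElementaryAbelian 2 A → Nat.card ↥A = 8 → Cfsg.IsElementaryAbelian 2 B → Nat.card ↥B = 8 →
        Relation.ReflTransGen
          (fun C D : Subgroup X => Cfsg.IsElementaryAbelian 2 C ∧ Nat.card ↥C = 8 ∧ Cfsg.IsElementaryAbelian 2 D ∧ Nat.card ↥D = 8 ∧ ⁅C, D⁆ = ⊥)
          A B) ∧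
      (∀ V : Subgroup X, Cfsg.IsElementaryAbelian 2 V → Nat.card ↥V = 4 →
        ∃ A : Subgroup X, V ≤ A ∧ Cfsg.IsElementaryAbelian 2 A ∧ Nat.card ↥A = 8) := by
  have p2 := Nat.prime_two
  have hEc : E ≤ 𝓒(E) := haveI := hE.1; le_centralizer E
  let R := fun C D : Subgroup X => IsElementaryAbelian 2 C ∧ Nat.card ↥C = 8 ∧
    IsElementaryAbelian 2 D ∧ Nat.card ↥D = 8 ∧ ⁅C, D⁆ = ⊥
  have ext : ∀ (A : Subgroup X) (i j : ℕ), El 2 (i + j) A → El 2 i (A ⊓ E) → j ≤ 3 →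
      2 ^ i < [32, 8, 4, 2].getD j 0 → ∃ Y, Y ≤ E ⊓ 𝓒(A) ∧ ♯Y = 2 ∧ ¬ Y ≤ A := by
    intro A i j hA hi hj h
    refine elem_exists_not_le p2 (CA.AmbSpe.ea_of_le hE inf_le_left) fun hle => ?_
    have h1 := cent_le hE hE32 j hj A hA.1 (by rw [hA.card, hi.card, pow_add])
    have h2 := card_le_of_le (le_inf hle inf_le_left : E ⊓ 𝓒(A) ≤ A ⊓ E)
    rw [hi.card] at h2
    omega
  have key : ∀ j i, i + j = 3 → ∀ A : Subgroup X, El 2 3 A → PRk 2 i (A ⊓ E) →
      ∃ D, D ≤ E ∧ El 2 3 D ∧ Relation.ReflTransGen R A D := by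
    intro j
    induction j with
    | zero =>
      rintro i rfl A hA ⟨B, hB, eB⟩
      have := eB.eq_of_le hA (hB.trans inf_le_left)
      exact ⟨A, this ▸ hB.trans inf_le_right, hA, .refl⟩
    | succ j ih =>
      intro i hij A hA h
      by_cases h' : PRk 2 (i + 1) (A ⊓ E)
      · exact ih (i + 1) (by omega) A hA h'
      have hi := el_of_prk p2 (CA.AmbSpe.ea_of_le hA.1 inf_le_left) h h'
      obtain ⟨Y, hY, cY, nY⟩ := ext A i (j + 1) (hij ▸ hA) hi (by omega) (by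
        have : i = 0 ∧ j = 2 ∨ i = 1 ∧ j = 1 ∨ i = 2 ∧ j = 0 := by omega
        rcases this with ⟨rfl, rfl⟩ | ⟨rfl, rfl⟩ | ⟨rfl, rfl⟩ <;> decide)
      obtain ⟨V, h1, h2, hV⟩ := hi.exists_between p2 (j := 2) hA inf_le_left (by omega) (by omega)
      have hYA : Y ≤ 𝓒(A) := hY.trans inf_le_right
      have hD := hV.sup_prime p2 cY (hYA.trans (CA.Amb.centralizer_anti h2)) fun h => nY (h.trans h2)
      have hD' := hi.sup_prime p2 cY (hYA.trans (CA.Amb.centralizer_anti inf_le_left))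
        fun h => nY (h.trans inf_le_left)
      obtain ⟨D, d1, d2, d3⟩ := ih (i + 1) (by omega) _ hD (hD'.prk
        (le_inf (sup_le_sup_right h1 _) (sup_le inf_le_right (hY.trans inf_le_left))))
      exact ⟨D, d1, d2, .head ⟨hA.1, hA.2, hD.1, hD.2,
        CA.Amb.commutator_eq_bot_iff'.2 (sup_le (h2.trans hA.le_cent) hYA)⟩ d3⟩
  have sy : ∀ A B, Relation.ReflTransGen R A B → Relation.ReflTransGen R B A := by
    intro A B h
    induction h with
    | refl => exact .refl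
    | tail _ h ih =>
      exact .head ⟨h.2.2.1, h.2.2.2.1, h.1, h.2.1, by rw [commutator_comm]; exact h.2.2.2.2⟩ ih
  refine ⟨fun A B hA cA hB cB => ?_, fun V hV cV => ?_⟩
  · obtain ⟨D, d1, d2, d3⟩ := key 3 0 rfl A ⟨hA, cA⟩ ⟨⊥, bot_le, el_zero 2⟩
    obtain ⟨D', e1, e2, e3⟩ := key 3 0 rfl B ⟨hB, cB⟩ ⟨⊥, bot_le, el_zero 2⟩
    exact (d3.tail ⟨d2.1, d2.2, e2.1, e2.2, CA.Amb.commutator_eq_bot_iff'.2
      ((e1.trans hEc).trans (CA.Amb.centralizer_anti d1))⟩).trans (sy _ _ e3)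
  · have hV2 : El 2 2 V := ⟨hV, cV⟩
    obtain ⟨i, hi⟩ := elem_exists_el p2 (CA.AmbSpe.ea_of_le hV (inf_le_left (b := E)))
    obtain ⟨j, hj⟩ := Nat.exists_eq_add_of_le (hi.le_of_le p2 hV2 inf_le_left)
    obtain ⟨Y, hY, cY, nY⟩ := ext V i j (hj ▸ hV2) hi (by omega) (by
      have : i = 0 ∧ j = 2 ∨ i = 1 ∧ j = 1 ∨ i = 2 ∧ j = 0 := by omega
      rcases this with ⟨rfl, rfl⟩ | ⟨rfl, rfl⟩ | ⟨rfl, rfl⟩ <;> decide)
    have hD := hV2.sup_prime p2 cY (hY.trans inf_le_right) nY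
    exact ⟨_, le_sup_left, hD.1, hD.2⟩

end Cfsg.Agent.S1785
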