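import Cfsg.Statements.S1850
import Cfsg.Agent.Lib.Loc.AmbChar
import Cfsg.Agent.Lib.Loc.LBal3
import Cfsg.Agent.Lib.Grp.H13Inv
import Cfsg.Agent.Lib.Loc.AmbWC
import Cfsg.Agent.Lib.Loc.AmbRed
-- import your own Cfsg.Agent.* helpers here

set_option autoImplicit false
open Cfsg

namespace Cfsg.Agent.S1850

/-- Let G be a non-abelian finite simple QTKE-group and T a Sylow 2-subgroup of G. If U is a nontrivial 2-subgroup of G with U ∩ Z(T) ≠ 1, then F*(N_G(U)) = O₂(N_G(U)). -/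
theorem result {G : Type*} [Group G] [Finite G] [IsSimpleGroup G]
    (hG : ¬ IsMulCommutative G) (hQ : Cfsg.IsQTKE G) (T : Sylow 2 G) (U : Subgroup G)
    (hU : IsPGroup 2 ↥U) (hZ : U ⊓ ((T : Subgroup G) ⊓ Subgroup.centralizer ((T : Subgroup G) : Set G)) ≠ ⊥) :
    Subgroup.normalizer (U : Set G) ∈ Cfsg.calHe G := by
  open Subgroup Cfsg CA CA.Amb CA.AmbSyl CA.AmbCore CA.AmbRes CA.AmbChar CA.AmbFs CA.AmbSpe CA.AmbIso CA.LBal CA.LBal2 CA.Comp CA.PComp in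
  open scoped commutatorElement in
  (
    have P : Parab 2 (⊤ : Subgroup G) := fun R T hR _ h1 hT h2 => by
      rw [top_inf_eq]
      exact charP_iff.2 (hQ.2.2 _ ⟨R, hR, h1, rfl⟩ ⟨hT.toSylowTop, h2⟩)
    obtain ⟨z, hz, h1⟩ := exists_ne_one_of_ne_bot hZ
    have := charP_norm_of_elem hU le_top hz.1 (P.cent (sylIn_top T) hz.2.1 hz.2.2 h1)
    rw [top_inf_eq] at this
    exact fstar_iff_charP.2 this)

end Cfsg.Agent.S1850
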