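import Cfsg.Statements.S1851
import Cfsg.Agent.Lib.Loc.AmbChar
import Cfsg.Agent.Lib.Loc.LBal3
import Cfsg.Agent.Lib.Grp.H13Inv
import Cfsg.Agent.Lib.Loc.AmbWC
import Cfsg.Agent.Lib.Loc.AmbRed
-- import your own Cfsg.Agent.* helpers here

set_option autoImplicit false
open Cfsg

namespace Cfsg.Agent.S1851

/-- Let G be a non-abelian finite simple QTKE-group and T a Sylow 2-subgroup of G, and let L be a member of ℒ_f(G, T) (a member of ℒ(G, T) that lies in 𝒳 — L ≠ 1, L = O²(L), F*(L) = O₂(L) — and acts nontrivially on Ω₁(Z(O₂(L)))). Then (1) every member K of ℒ(G, T) containing L is again in ℒ_f(G, T) (a sharper form of (1) also compares the modules [Ω₁(Z(R)), L] and [Ω₁(Z(R')), K] for suitable 2-subgroups R, R'; that comparison is not included); and (2) if L is maximal under inclusion among the members of ℒ_f(G, T), then L is a maximal member of ℒ(G, T), hence a member of ℒ_f*(G, T). -/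
theorem result {G : Type*} [Group G] [Finite G] [IsSimpleGroup G]
    (hG : ¬ IsMulCommutative G) (hQ : Cfsg.IsQTKE G) (T : Sylow 2 G) (L : Subgroup G)
    (hL : L ∈ Cfsg.calLf (T : Subgroup G)) :
    (∀ K ∈ Cfsg.calL (T : Subgroup G), L ≤ K → K ∈ Cfsg.calLf (T : Subgroup G)) ∧
    ((∀ K ∈ Cfsg.calLf (T : Subgroup G), L ≤ K → K = L) → L ∈ Cfsg.calLfMax (T : Subgroup G)) := by
  open Subgroup Cfsg CA CA.Amb CA.AmbSyl CA.AmbCore CA.AmbRes CA.AmbChar CA.AmbFs CA.AmbSpe CA.AmbIso CA.LBal CA.LBal2 CA.Comp CA.PComp in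
  open scoped commutatorElement in
  (
    have P : Parab 2 (⊤ : Subgroup G) := fun R T hR _ h1 hT h2 => by
      rw [top_inf_eq]
      exact charP_iff.2 (hQ.2.2 _ ⟨R, hR, h1, rfl⟩ ⟨hT.toSylowTop, h2⟩)
    have og : ∀ Y : Subgroup G, oddGenerated Y = pResidualOf 2 Y := fun Y => by
      rw [pResidualOf_eq]
      simp only [Nat.coprime_two_right]
      rfl
    have sn : ∀ K ∈ calL (T : Subgroup G), SN (K ⊔ T) K := fun K hK => sn_iff.2 ⟨le_sup_left, hK.1.2.2.1⟩
    have key : ∀ K ∈ calL (T : Subgroup G), L ≤ K → K ∈ calLf (T : Subgroup G) := fun K hK l => by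
      have c : CharP 2 K := (P.charP (sylIn_top T) le_sup_right le_top
        fun e => hK.2.2 (pCoreOf_eq_bot_iff.1 e)).of_sn (sn K hK)
      have pf : ⁅K, K⁆ = K := by
        have := congrArg (map (K ⊔ T).subtype) hK.1.2.1
        rwa [map_commutator, map_subgroupOf_eq_of_le le_sup_left] at this
      refine ⟨hK, ⟨fun e => hL.2.1.1 (le_bot_iff.1 (e ▸ l)), by rw [og, res_eq_of_perfect pf], fstar_iff_charP.2 c⟩,
        fun e => hL.2.2 ?_⟩
      have r : pResidualOf 2 L = L := og L ▸ hL.2.1.2.1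
      have n1 : L ≤ 𝐍 (pCoreOf 2 K) := l.trans (norm_pCoreOf 2 K)
      have s : pCoreOf 2 K ≤ pCoreOf 2 (L ⊔ T) := (sn K hK).pCoreOf_le.trans (pCoreOf_le_pCoreOf_of_le
        (sup_le_sup_right l _) ((pCoreOf_le_syl (sylIn_of_le T le_sup_right)).trans le_sup_right))
      have n2 : pCoreOf 2 K ≤ 𝐍 L := s.trans (AmbWC.pCoreOf_norm_of_sn (sn L hL.1) r)
      refine comm_eq_bot_of_le' (AmbRed.pq_lemma' (U := OZ 2 (pCoreOf 2 L)) (isPGroup_OZ 2 _)
        (norm_OZ (norm_pCoreOf_of_norm n2)) (by rw [res_eq_bot_of_isPGroup (isPGroup_pCoreOf 2 K)]; exact bot_le) r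
        (norm_OZ (norm_pCoreOf 2 L)) (le_trans ?_ (le_cent_OZ 2 _)) ?_)
      · exact le_pCoreOf (commutator_le_right_of_norm n2) ((isPGroup_pCoreOf 2 K).to_le
          (commutator_le_left_of_norm n1)) (norm_comm_right _ _)
      · refine le_trans (le_OZ' ((ea_of_le (ea_OZ 2 _)) inf_le_left) (c.le_of_cent
          (inf_le_left.trans ((OZ_le 2 _).trans ((pCoreOf_le 2 L).trans l))) inf_le_right) inf_le_right) ?_
        exact (cent_symm (commutator_eq_bot_iff'.1 e)).trans (centralizer_anti l)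
    exact ⟨key, fun h => ⟨⟨hL.1, fun K hK l => h K (key K hK l) l⟩, hL.2⟩⟩)

end Cfsg.Agent.S1851
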