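import Cfsg.Statements.S1957
import Cfsg.Agent.Lib.Loc.AmbChar
import Cfsg.Agent.Lib.Loc.AmbT2
import Cfsg.Agent.Lib.Grp.Two
import Cfsg.Agent.Lib.Grp.H13Count
-- import your own Cfsg.Agent.* helpers here

set_option autoImplicit false
open Cfsg

namespace Cfsg.Agent.S1957

section Aux
open Subgroup Cfsg CA CA.Amb CA.AmbSyl CA.AmbCore CA.AmbRes CA.AmbChar CA.AmbFs CA.AmbSpe CA.AmbIso CA.LBal2 CA.AmbT2
open scoped commutatorElement

variable {G : Type*} [Group G] [Finite G] {U S P : Subgroup G} {u : G}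

theorem conj_klein (hU : IsKleinFour U) (hu : u ∈ U) (h1 : u ≠ 1) {v s : G} (hv : v ∈ U) (n : s ∈ 𝐍 U)
    (c : s * u * s⁻¹ = u) : s * v * s⁻¹ = v ∨ s * v * s⁻¹ = u * v := by
  by_cases v1 : v = 1
  · simp [v1]
  by_cases vu : v = u
  · rw [vu]; exact Or.inl c
  rcases Two.klein_mem hU hu hv h1 v1 (Ne.symm vu) (conj_mem_of_mem_normalizer n hv) with e | e | e | e
  · exact (v1 (by simpa using e)).elim
  · exact (vu (by simpa using e.trans c.symm)).elim
  exacts [Or.inl e, Or.inr e]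

theorem exists_syl (hP : SylIn 2 P ⊤) (l : U ≤ P) (n : P ≤ 𝐍 U) (hU : IsKleinFour U)
    (hZ : ¬ IsCyclic ↥(P ⊓ 𝐂 P) → U ≤ 𝐂 P) (hu : u ∈ U) (h1 : u ≠ 1) :
    ∃ S, SylIn 2 S (centralizer {u}) ∧ S ≤ 𝐍 U := by
  by_cases h : P ≤ centralizer {u}
  · exact ⟨P, hP.mono h le_top, n⟩
  have cy : IsCyclic ↥(P ⊓ 𝐂 P) := by
    by_contra k; exact h (le_cent_of_mem (hZ k hu))
  have ab := PGBasic.isMulCommutative_iff.1 (Two.klein_comm hU)
  have sq : ∀ x ∈ U, x * x = 1 := fun x hx => by rw [← sq, Two.klein_sq hU hx]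
  obtain ⟨z, ⟨hz, zc⟩, z1⟩ := exists_ne_one_of_ne_bot
    (inf_centralizer_ne_bot hP.pg (Two.klein_isPGroup hU) n (ne_bot_of_mem hu h1))
  have zu : z ≠ u := fun e => h (le_cent_of_mem (e ▸ zc))
  have k : ∀ g ∈ P, g ∉ centralizer {u} → g * u * g⁻¹ = z * u := fun g hg h' =>
    (conj_klein hU hz z1 hu (n hg) (by rw [mem_centralizer_sub.1 zc g hg, mul_inv_cancel_right])).resolve_left
      fun e => h' (mem_cent_iff.2 e)
  obtain ⟨s, hs, sn⟩ := SetLike.not_le_iff_exists.1 h
  let Q := P ⊓ centralizer {u}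
  have m : ∀ g ∈ P, g * s ∈ Q ∨ g ∈ Q := fun g hg => by
    by_cases e : g ∈ centralizer {u}
    · exact Or.inr ⟨hg, e⟩
    refine Or.inl ⟨mul_mem hg hs, mem_cent_iff.2 ?_⟩
    calc g * s * u * (g * s)⁻¹ = g * (s * u * s⁻¹) * g⁻¹ := by group
      _ = g * z * g⁻¹ * (g * u * g⁻¹) := by rw [k s hs sn]; group
      _ = u := by rw [k g hg e, mem_centralizer_sub.1 zc g hg, mul_inv_cancel_right, ← mul_assoc, sq z hz, one_mul]
  have i2 : Q.relIndex P = 2 := relIndex_eq_two_iff_exists_notMem_and.2 ⟨s, hs, fun e => sn e.2, m⟩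
  have nQ : P ≤ 𝐍 Q := PGBasic.le_normalizer_of_relIndex hP.pg inf_le_left i2
  have zz : ∀ w ∈ Q, w ∈ 𝐂 Q → w * w = 1 → s * w * s⁻¹ = w → w = 1 ∨ w = z := fun w h2 h3 h4 h5 => by
    have : w ∈ 𝐂 P := mem_centralizer_sub.2 fun g hg => by
      rcases m g hg with e | e
      · have := mem_centralizer_sub.1 h3 _ e
        calc g * w = g * (s * w * s⁻¹) := by rw [h5]
          _ = g * s * w * s⁻¹ := by group
          _ = w * g := by rw [this]; group
      · exact mem_centralizer_sub.1 h3 _ e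
    refine or_iff_not_imp_left.2 fun w1 => H13Count.eq_of_isCyclic cy ⟨h2.1, this⟩ ⟨l hz, zc⟩ ?_ ?_
    · exact orderOf_eq_of_pow (by rw [pow_two, h4]) w1
    · exact orderOf_eq_of_pow (Two.klein_sq hU hz) z1
  have lQ : U ≤ Q := le_inf l fun x hx => mem_cs.2 (ab x hx u hu)
  have cQ : U ≤ 𝐂 Q := fun x hx => by
    rcases Two.klein_mem hU hz hu z1 h1 zu hx with e | e | e | e <;> rw [e]
    exacts [one_mem _, centralizer_anti inf_le_left zc, mem_cent_of_le inf_le_right,
      mul_mem (centralizer_anti inf_le_left zc) (mem_cent_of_le inf_le_right)]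
  have oz : OZ 2 Q = U := by
    refine le_antisymm (fun w hw => ?_) (le_OZ lQ cQ fun a ha => Two.klein_sq hU ha)
    have hw' := conj_mem_of_mem_normalizer (norm_OZ (p := 2) nQ hs) hw
    have ss : s * s * w = w * (s * s) :=
      mem_centralizer_sub.1 (OZ_le_cent 2 Q hw) _ ((m s hs).resolve_right fun e => sn e.2)
    have cw := comm_of_ea (ea_OZ 2 Q) hw hw'
    have w2 := mul_self_of_ea (ea_OZ 2 Q) hw
    have := zz _ (OZ_le 2 Q (mul_mem hw hw')) (OZ_le_cent 2 Q (mul_mem hw hw'))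
      (mul_self_of_ea (ea_OZ 2 Q) (mul_mem hw hw')) (by
        calc s * (w * (s * w * s⁻¹)) * s⁻¹ = s * w * s⁻¹ * (s * s * w * (s * s)⁻¹) := by group
          _ = _ := by rw [ss, mul_inv_cancel_right, cw])
    rcases this with e | e
    · rcases zz w (OZ_le 2 Q hw) (OZ_le_cent 2 Q hw) w2 (mul_left_cancel (a := w) (e.trans w2.symm)) with e | e <;>
        rw [e]
      exacts [one_mem _, hz]
    · have c := mem_centralizer_sub.1 (OZ_le_cent 2 Q hw)
      have := zz (w * u) (mul_mem (OZ_le 2 Q hw) (lQ hu)) (mul_mem (OZ_le_cent 2 Q hw) (cQ hu))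
        (by rw [mul_assoc, ← mul_assoc u, c u (lQ hu), mul_assoc, sq u hu, mul_one, w2]) (by
          calc s * (w * u) * s⁻¹ = w⁻¹ * (w * (s * w * s⁻¹)) * (s * u * s⁻¹) := by group
            _ = w⁻¹ * (z * z) * u := by rw [e, k s hs sn]; group
            _ = _ := by rw [sq z hz, mul_one, inv_eq_of_mul_eq_one_right w2])
      refine (U.mul_mem_cancel_right hu).1 ?_
      rcases this with e | e <;> rw [e]
      exacts [one_mem _, hz]
  obtain ⟨S, hS, l'⟩ := exists_sylIn_ge (hP.pg.to_le (inf_le_left : Q ≤ P)) (inf_le_right : Q ≤ centralizer {u})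
  refine ⟨S, hS, oz ▸ norm_OZ ?_⟩
  have d := hP.card_dvd hS.pg le_top
  rw [← card_mul_relIndex l', ← card_mul_relIndex (inf_le_left : Q ≤ P), i2] at d
  rcases (Nat.dvd_prime Nat.prime_two).1 (Nat.dvd_of_mul_dvd_mul_left Nat.card_pos d) with e | e
  · exact norm_of_le (relIndex_eq_one.1 e)
  · exact PGBasic.le_normalizer_of_relIndex hS.pg l' e

end Aux

/-- Let `G` be a finite non-abelian simple group in which every local subgroup is solvable and which is of characteristic 2 type. Let `P` be a Sylow 2-subgroup of `G` and `U` a normal subgroup of `P` that is a four-group, with `U` central in `P` if the centre of `P` is not cyclic. Then `U` centralizes every subgroup of odd order of `G` that it normalizes. -/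
theorem result {G : Type*} [Group G] [Finite G]
    [IsSimpleGroup G] (hna : ¬ IsMulCommutative G) (hN : Cfsg.IsNGroup G) (h2 : Cfsg.IsCharacteristicTwoType G)
    (P : Sylow 2 G) (U : Subgroup G) (hUP : U ≤ (P : Subgroup G)) (hUn : (P : Subgroup G) ≤ Subgroup.normalizer (U : Set G))
    (hU4 : IsKleinFour ↥U)
    (hUZ : ¬ IsCyclic ↥((P : Subgroup G) ⊓ Subgroup.centralizer ((P : Subgroup G) : Set G)) →
      U ≤ Subgroup.centralizer ((P : Subgroup G) : Set G))
    (K : Subgroup G) (hK : Odd (Nat.card K)) (hUK : U ≤ Subgroup.normalizer (K : Set G)) :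
    U ≤ Subgroup.centralizer (K : Set G) := by
  open Subgroup Cfsg CA CA.Amb CA.AmbSyl CA.AmbCore CA.AmbRes CA.AmbChar CA.AmbFs CA.AmbSpe CA.AmbIso CA.LBal2 CA.AmbT2 in
  open scoped commutatorElement in
  (
  have ea : IsElementaryAbelian 2 U := ea_iff.2 ⟨fun x hx => mem_centralizer_sub.2 fun y hy =>
    PGBasic.isMulCommutative_iff.1 (Two.klein_comm hU4) y hy x hx, fun a ha => Two.klein_sq hU4 ha⟩
  refine cent_symm (Hyp.le_of_forall_singleton ea (Two.klein_card hU4).ge hUK (Nat.coprime_two_right.2 hK)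
    fun u hu h1 => ?_)
  obtain ⟨S, hS, n⟩ := exists_syl (sylIn_top P) hUP hUn hU4 hUZ hu h1
  have ch : CharP 2 (centralizer {u}) := by
    have := LocP.cent (p := 2) (L := ⊤) (locP_top_iff.1 ⟨h2.1.two_dvd, h2.2⟩).2 (mem_top u) (k := 1)
      (Two.klein_sq hU4 hu) h1
    rwa [top_inf_eq] at this
  let H := centralizer ({u} : Set G)
  have lU : U ≤ H := (ea_le_cent ea).trans (Hyp.centralizer_le_singleton hu)
  have nH : H ≤ 𝐍 (zpowers u) := norm_of_centralizer (centralizer_zpowers u).ge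
  have q := pCoreOf_le 2 H
  have c1 : ⁅U, pCoreOf 2 H⁆ ≤ zpowers u := commutator_le.2 fun v hv s hs => by
    have := conj_klein hU4 hu h1 (inv_mem hv) (n (pCoreOf_le_syl hS hs)) (mem_cent_iff.1 (q hs))
    rw [commutatorElement_def, mul_assoc, mul_assoc, ← mul_assoc s]
    rcases this with e | e <;> rw [e]
    · simp
    · rw [← mul_assoc, mem_cs.1 (lU hv)]; simp
  have nq := norm_pCoreOf 2 H
  have n2 : U ≤ 𝐍 (K ⊓ H) := norm_inf hUK (norm_of_le lU)
  have c2 : ⁅⁅K ⊓ H, U⁆, pCoreOf 2 H⁆ ≤ zpowers u :=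
    three_subgroups (inf_le_right.trans nH) (lU.trans nH) (q.trans nH)
      ((commutator_mono c1 le_rfl).trans (commutator_le_left_of_norm (inf_le_right.trans nH)))
      ((commutator_mono (commutator_le_left_of_norm (inf_le_right.trans nq)) le_rfl).trans (commutator_comm U _ ▸ c1))
  refine commutator_eq_bot_iff'.1 ?_
  rw [commutator_comm, eq_bot_iff]
  intro x hx
  have hx' := commutator_le_left_of_norm n2 hx
  have o : (orderOf x).Coprime 2 :=
    Nat.coprime_two_right.2 (hK.of_dvd_nat (orderOf_coe (⟨x, hx'.1⟩ : K) ▸ orderOf_dvd_natCard _))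
  refine charP_iff_elem.1 ch x hx'.2 (mem_cent_of_comm_le (isPGroup_pCoreOf 2 H) (nq hx'.2) o ?_) o
  rw [commutator_comm]
  exact ((commutator_mono (zle hx) le_rfl).trans c2).trans (zle (mem_cent_of_le (zle hx'.2))))

end Cfsg.Agent.S1957
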