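import Cfsg.Statements.S1958
import Cfsg.Agent.Lib.Grp.Bal2

set_option autoImplicit false
open Cfsg

namespace Cfsg.Agent.S1958

open Subgroup CA.Rad CA.Core CA.Fitting CA.Subn CA.Quasi CA.Comp CA.Fstar CA.PLoc CA.PComp CA.Bal CA.Bal2 in
/-- Let `G` be a finite group, `p` a prime, and `x, y` commuting elements of order `p` whose centralizers `C_G(x)` and `C_G(y)` are both solvable. Then `O_{p'}(C_G(x)) ∩ C_G(y) = O_{p'}(C_G(y)) ∩ C_G(x)` (balance). -/
theorem result {G : Type*} [Group G] [Finite G]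
    (p : ℕ) [Fact p.Prime] (x y : G) (hx : orderOf x = p) (hy : orderOf y = p) (hxy : x * y = y * x)
    (hCx : Group.IsSolvable ↥(Subgroup.centralizer ({x} : Set G))) (hCy : Group.IsSolvable ↥(Subgroup.centralizer ({y} : Set G))) :
    Cfsg.centralizerPPrimeCore p x ⊓ Subgroup.centralizer {y} = Cfsg.centralizerPPrimeCore p y ⊓ Subgroup.centralizer {x} := by
  refine le_antisymm (le_inf ?_ (inf_le_left.trans (centralizerPPrimeCore_le x)))
    (le_inf ?_ (inf_le_left.trans (centralizerPPrimeCore_le y)))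
  · exact cpc_inf_le_of_pLayer (pLayer_eq_bot_of_isSolvable hCy)
      (mem_centralizer_singleton_iff.2 hxy) (hx.trans (pow_one p).symm)
  · exact cpc_inf_le_of_pLayer (pLayer_eq_bot_of_isSolvable hCx)
      (mem_centralizer_singleton_iff.2 hxy.symm) (hy.trans (pow_one p).symm)

end Cfsg.Agent.S1958
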