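import Cfsg.Statements.S1962
import Cfsg.Agent.Lib.Grp.CFun

set_option autoImplicit false
open Cfsg

namespace Cfsg.Agent.S1962

open Subgroup CA.SylIn CA.CFun

/-- Local-to-global control of transfer through well-placed subgroups. Let p be a prime, G a finite group with Sylow p-subgroup S, and W a conjugacy functor for p on G. If W controls transfer in N_G(T) for every nonidentity subgroup T of S that is well placed in S with respect to W, then W controls transfer in G: S ∩ G' = S ∩ (N_G(W(S)))'. -/
theorem result {G : Type*} [Group G] [Finite G] {p : ℕ} [Fact p.Prime] (S : Sylow p G) (W : Subgroup G → Subgroup G) (hW : Cfsg.IsConjugacyFunctor p W) (hloc : ∀ T : Subgroup G, T ≠ ⊥ → Cfsg.IsWellPlaced p W (S : Subgroup G) T → Cfsg.ControlsTransferIn p W (Subgroup.normalizer ((T : Subgroup G) : Set G))) : Cfsg.ControlsTransferIn p W ⊤ := by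
  have h := single_cf hW
  exact ctf_iff_ftf.2 ((ftf_iff h (isSylowIn_top S)).2 (tf_local S _ h (wp_family S hW)
    fun T a b c d => (ftf_iff h d).1 (ctf_iff_ftf.1 (hloc T b a))))

end Cfsg.Agent.S1962
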