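import Cfsg.Statements.S1966
import Cfsg.Agent.Lib.Grp.CFun

set_option autoImplicit false
open Cfsg

namespace Cfsg.Agent.S1966

open Subgroup CA.SylIn CA.CFun CA.ConjFam

theorem aux {G : Type*} [Group G] {F : Set (Subgroup G)} (Q : Subgroup G) [hQ : Q.Normal] {A : Set G} {g : G}
    (h : Reach F A g) : (Q : Set G) ⊆ A → Reach {T | T ∈ F ∧ Q ≤ T} A g := by
  induction h with
  | one A => exact fun _ => .one A
  | cons A T x g h1 h2 h3 _ ih =>
    exact fun h => .cons A T x g ⟨h1, h.trans h3⟩ h2 h3 (ih fun q hq =>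
      ⟨x * q * x⁻¹, h (hQ.conj_mem q hq x), by group⟩)

/-- Let p be a prime, G a finite group with Sylow p-subgroup S and 𝓕 a conjugation family for S in G. Then the members of 𝓕 containing O_p(G) still form a conjugation family for S in G. -/
theorem result {G : Type*} [Group G] [Finite G] {p : ℕ} [Fact p.Prime] (S : Sylow p G) (𝓕 : Set (Subgroup G)) (h : Cfsg.IsConjugationFamily 𝓕 (S : Subgroup G)) : Cfsg.IsConjugationFamily {T : Subgroup G | T ∈ 𝓕 ∧ Cfsg.pCore p G ≤ T} (S : Subgroup G) := by
  refine ⟨fun T hT => h.1 T hT.1, fun A g h1 h2 h3 => ?_⟩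
  have hQ := CA.AmbCore.pCore_le_sylow S
  have := FinReach.reach (h.2 (A ∪ pCore p G) g (h1.mono Set.subset_union_left)
    (Set.union_subset h2 hQ) (by
      rw [Set.image_union]
      refine Set.union_subset h3 ?_
      rintro _ ⟨q, hq, rfl⟩
      exact hQ (Normal.conj_mem' inferInstance q hq g)))
  exact ((aux (pCore p G) this Set.subset_union_right).mono A Set.subset_union_left).finReach

end Cfsg.Agent.S1966
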