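import Cfsg.Statements.S1968
import Cfsg.Agent.Lib.Grp.CFun

set_option autoImplicit false
open Cfsg

namespace Cfsg.Agent.S1968

open Subgroup CA.SylIn CA.CFun CA.ConjFam

/-- Let p be a prime, G a finite group with Sylow p-subgroup S and W a conjugacy functor for p on G with Z(P) ≤ W(P) for every p-subgroup P. Let A be a subgroup of Z(S) normalized by N_G(W(S)) that is not weakly closed in S with respect to G. Then there is a subgroup T of S, well placed in S with respect to W, such that: A ≤ T; N_G(W(N_S(T))) normalizes A; N_S(T) is a Sylow p-subgroup of N_G(T); A ≤ Z(N_S(T)); and A is not weakly closed in N_S(T) with respect to N_G(T), that is, some N_G(T)-conjugate of A other than A lies in N_S(T). -/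
theorem result {G : Type*} [Group G] [Finite G] {p : ℕ} [Fact p.Prime] (S : Sylow p G) (W : Subgroup G → Subgroup G) (hW : Cfsg.IsConjugacyFunctor p W) (hWZ : ∀ P : Subgroup G, IsPGroup p ↥P → P ⊓ Subgroup.centralizer (P : Set G) ≤ W P) (A : Subgroup G) (hAZ : A ≤ (S : Subgroup G) ⊓ Subgroup.centralizer ((S : Subgroup G) : Set G)) (hAN : Subgroup.normalizer ((W (S : Subgroup G) : Subgroup G) : Set G) ≤ Subgroup.normalizer ((A : Subgroup G) : Set G)) (hnwc : ¬ Cfsg.IsWeaklyClosed A (S : Subgroup G)) : ∃ T : Subgroup G, Cfsg.IsWellPlaced p W (S : Subgroup G) T ∧ A ≤ T ∧ Subgroup.normalizer ((W ((S : Subgroup G) ⊓ Subgroup.normalizer ((T : Subgroup G) : Set G)) : Subgroup G) : Set G) ≤ Subgroup.normalizer ((A : Subgroup G) : Set G) ∧ ¬ p ∣ ((S : Subgroup G) ⊓ Subgroup.normalizer ((T : Subgroup G) : Set G)).relIndex (Subgroup.normalizer ((T : Subgroup G) : Set G)) ∧ A ≤ Subgroup.centralizer (((S : Subgroup G) ⊓ Subgroup.normalizer ((T : Subgroup G) : Set G) : Subgroup G) : Set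 G) ∧ ∃ g ∈ Subgroup.normalizer ((T : Subgroup G) : Set G), A.map (MulAut.conj g).toMonoidHom ≤ (S : Subgroup G) ⊓ Subgroup.normalizer ((T : Subgroup G) : Set G) ∧ A.map (MulAut.conj g).toMonoidHom ≠ A := by
  have hAS : A ≤ S := hAZ.trans inf_le_left
  have hne : {T : Subgroup G | IsWellPlaced p W S T ∧ A ≤ T ∧
      ¬ normalizer (T : Set G) ≤ normalizer (A : Set G)}.Nonempty := by
    by_contra hc
    refine hnwc ⟨hAS, fun g hg => ?_⟩
    exact alperin_family S _ (wp_family S hW) (fun D g => A ≤ D → g •ᶜ A = A)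
      (fun D E g a _ _ r b => r (b.trans a))
      (fun D g k _ _ _ r r' b => by
        rw [← conj_conj, r b]; exact r' ((r b).ge.trans (conj_mono g b)))
      (fun D a _ _ _ n hn b => conj_eq_of_mem_normalizer (by
        by_contra h; exact hc ⟨D, a, b, fun h' => h (h' hn)⟩)) A g hAS hg le_rfl
  obtain ⟨T, ⟨h1, h2, h3⟩, hmax⟩ := Set.exists_max_image _
    (fun T : Subgroup G => Nat.card ↥((S : Subgroup G) ⊓ normalizer (T : Set G))) (Set.toFinite _) hne
  have hA : A ≤ centralizer (((S : Subgroup G) ⊓ normalizer (T : Set G) : Subgroup G) : Set G) :=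
    (hAZ.trans inf_le_right).trans (centralizer_le (inf_le_left : _ ≤ (S : Subgroup G)))
  have hTP : T ≤ (S : Subgroup G) ⊓ normalizer (T : Set G) := le_inf h1.1 le_normalizer
  refine ⟨T, h1, h2, ?_, h1.2 0, hA, ?_⟩
  · by_cases e : (S : Subgroup G) ⊓ normalizer (T : Set G) = S
    · rwa [e]
    by_contra hc
    exact (card_lt_of_lt (lt_of_ne S inf_le_left e (cf_norm hW S.2.to_inf_left))).not_ge
      (hmax _ ⟨((wp_iff S hW).1 h1).2.2, (le_inf (h2.trans hTP) hA).trans (hWZ _ S.2.to_inf_left), hc⟩)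
  · obtain ⟨g, g1, g2⟩ := SetLike.not_le_iff_exists.1 h3
    exact ⟨g, g1, (conj_mono g h2).trans ((conj_eq_of_mem_normalizer g1).le.trans hTP),
      fun e => g2 (mem_normalizer_iff_conj_eq.2 e)⟩

end Cfsg.Agent.S1968
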