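import Cfsg.Statements.S1970
import Cfsg.Agent.Lib.Grp.CFun3

set_option autoImplicit false
universe u
open Cfsg

namespace Cfsg.Agent.S1970

open Subgroup CA.SylIn CA.CFun

/-- Let p be a prime, G a finite group and W an isomorphism-invariant p-group functor (W assigns to every group Q a subgroup W(Q), nontrivial whenever Q is a nontrivial finite p-group, and every isomorphism from a finite p-group Q onto a group R carries W(Q) onto W(R)). Suppose that for every section G* = K/R of G with C_{G*}(O_p(G*)) ≤ O_p(G*) and every Sylow p-subgroup S* of G*, one has O_p(G*) ∩ (G*)' = O_p(G*) ∩ (N_{G*}(W(S*)))'. Then W controls transfer in every section G* of G: S* ∩ (G*)' = S* ∩ (N_{G*}(W(S*)))' for a Sylow p-subgroup S* of G*. -/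
theorem result {G : Type u} [Group G] [Finite G] {p : ℕ} [Fact p.Prime] (W : ∀ (Q : Type u) [Group Q], Subgroup Q) (hW : Cfsg.IsCharPFunctor.{u} p W) (hloc : ∀ (K R : Subgroup G) [hR : (R.subgroupOf K).Normal], Subgroup.centralizer ((Cfsg.pCore p (↥K ⧸ R.subgroupOf K) : Subgroup (↥K ⧸ R.subgroupOf K)) : Set (↥K ⧸ R.subgroupOf K)) ≤ Cfsg.pCore p (↥K ⧸ R.subgroupOf K) → ∀ T : Sylow p (↥K ⧸ R.subgroupOf K), Cfsg.pCore p (↥K ⧸ R.subgroupOf K) ⊓ commutator (↥K ⧸ R.subgroupOf K) = Cfsg.pCore p (↥K ⧸ R.subgroupOf K) ⊓ ⁅Subgroup.normalizer ((Cfsg.inducedFunctor (G := (↥K ⧸ R.subgroupOf K)) W ((T : Subgroup (↥K ⧸ R.subgroupOf K))) : Subgroup (↥K ⧸ R.subgroupOf K)) : Set (↥K ⧸ R.subgroupOf K)), Subgroup.normalizer ((Cfsg.inducedFunctor (G := (↥K ⧸ R.subgroupOf K)) W ((T : Subgroup (↥K ⧸ R.subgroupOf K))) : Subgroup (↥K ⧸ R.subgroupOf K)) : Set (↥K ⧸ R.subgroupOf K))⁆) : ∀ (K R : Subgroup G) [hR : (R.subgroupOf K).Normal],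 Cfsg.ControlsTransferIn p (Cfsg.inducedFunctor (G := (↥K ⧸ R.subgroupOf K)) W) ⊤ := by
  have h𝓦 : ∀ W' ∈ ({W} : Set _), IsCharPFunctor.{u} p W' := fun _ h => h ▸ hW
  intro K R _
  rw [ctf_iff_ftf, ← Set.image_singleton (f := fun W => inducedFunctor (G := K ⧸ R.subgroupOf K) W)]
  refine sect_induction (P := fun X _ => FamilyControlsTransferIn p (I {W} X) ⊤)
    (fun _ _ _ _ _ _ e => ftf_equiv h𝓦 e) (fun K R _ h => ?_) K R
  by_contra hc
  obtain ⟨S⟩ : Nonempty (Sylow p (K ⧸ R.subgroupOf K)) := inferInstance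
  obtain ⟨a, -, -, -, b⟩ := tf_minimal h𝓦 S ⟨W, rfl⟩ h hc rfl rfl
  refine b ((hloc K R a S).le.trans (le_trans ?_ (le_MW ⟨W, rfl, rfl⟩)))
  rw [top_inf_eq]
  exact inf_le_inf_right _ (CA.AmbCore.pCore_le_sylow S)

end Cfsg.Agent.S1970
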