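import Cfsg.Statements.S1981
import Cfsg.Agent.Lib.Grp.L0K

set_option autoImplicit false
open Cfsg

namespace Cfsg.Agent.S1981

open CA.L0K

/-- Let P be a finite p-group generated by its abelian normal subgroups. Then both K-infinity subgroups of P equal P. -/
theorem result {P : Type*} [Group P] [Finite P] {p : ℕ} [Fact p.Prime] (hP : IsPGroup p P) (hgen : ⨆ A ∈ {A : Subgroup P | A.Normal ∧ IsMulCommutative ↥A}, A = ⊤) : Cfsg.kInfLower P = ⊤ ∧ Cfsg.kInfUpper P = ⊤ := by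
  rw [← KL_top, ← KU_top, eq_top_iff, eq_top_iff]
  have h : ∀ A ∈ {A : Subgroup P | A.Normal ∧ IsMulCommutative ↥A}, A ≤ KL ⊤ ∧ A ≤ KU ⊤ :=
    fun A hA => (le_K_of_comm hA.2 le_top (by have := hA.1; exact Subgroup.le_normalizer_of_normal)).2
  exact ⟨hgen.ge.trans (iSup₂_le fun A hA => (h A hA).1), hgen.ge.trans (iSup₂_le fun A hA => (h A hA).2)⟩

end Cfsg.Agent.S1981
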