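import Cfsg.Statements.S1990
import Cfsg.Agent.Lib.Loc.H6Fin

set_option autoImplicit false
universe u
open Cfsg

set_option linter.unusedVariables false
set_option linter.unusedSimpArgs false
set_option linter.style.haveILetI false

namespace Cfsg.Agent.S1990

open CA CA.H6Fin CA.H6Con CA.H6W CA.H6Off CA.H6NPC CA.H6Stab CA.H6PSolv CA.H6ZJ CA.H6Op CA.Amb CA.AmbSyl CA.AmbCore CA.AmbRes CA.AmbChar Subgroup
open CA.H6J hiding Z


/-- Let p be an odd prime, G a finite group with Sylow p-subgroup S, and W an isomorphism-invariant p-group functor (W assigns to every group Q a subgroup W(Q), nontrivial whenever Q is a nontrivial finite p-group, and every isomorphism from a finite p-group Q onto a group R carries W(Q) onto W(R)). Suppose N_G(W(S)) has a normal p-complement, and W(T) controls strong fusion in every section G* = K/R of G all of whose sections are p-stable in the normalizer form, for every Sylow p-subgroup T of G*. Then G has a normal p-complement. -/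
theorem result {G : Type u} [Group G] [Finite G] {p : ℕ} [Fact p.Prime] (hp : p ≠ 2) (W : ∀ (Q : Type u) [Group Q], Subgroup Q) (hW : Cfsg.IsCharPFunctor.{u} p W) (S : Sylow p G) (hN : Cfsg.HasNormalPComplement p ↥(Subgroup.normalizer ((Cfsg.inducedFunctor (G := G) W (S : Subgroup G) : Subgroup G) : Set G))) (hctl : ∀ (K R : Subgroup G) [hR : (R.subgroupOf K).Normal], (∀ (K' R' : Subgroup (↥K ⧸ R.subgroupOf K)) [hR' : (R'.subgroupOf K').Normal], Cfsg.IsNormalizerPStable p (↥K' ⧸ R'.subgroupOf K')) → ∀ T : Sylow p (↥K ⧸ R.subgroupOf K), Cfsg.ControlsStrongFusion p (Cfsg.inducedFunctor (G := (↥K ⧸ R.subgroupOf K)) W (T : Subgroup (↥K ⧸ R.subgroupOf K)))) : Cfsg.HasNormalPComplement p G := by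
  refine npc_of_sections (fn_induced hW) S hN fun K R _ T hT a b c => ?_
  have h2 := abSyl_of_coatom hT c b hp.symm
  obtain ⟨T', h3, h4⟩ := hctl K R (fun K' R' _ => isNormalizerPStable_iff.2 fun V hV => by
    refine stab_of_abSyl hp hV le_rfl (AbSyl.mono ?_ le_top)
    rw [← map_top_of_surjective _ (QuotientGroup.mk'_surjective (R'.subgroupOf K'))]
    exact (abSyl_top_iff.2 (h2.mono le_top)).map _) hT.toSylowTop
  refine normal_of_top_le fun g _ => ?_
  have hO := pCore_le_sylow T'
  obtain ⟨x, hx, h5⟩ := (h4 ((Cfsg.pCore p (K ⧸ R.subgroupOf K) : Subgroup _) : Set _) hO).2 g (by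
    rintro _ ⟨y, hy, rfl⟩; exact hO (Normal.conj_mem (H := Cfsg.pCore p _) inferInstance y hy g))
  have h6 : x⁻¹ * g ∈ T := by
    refine pCoreOf_le_syl hT ?_
    rw [pCoreOf_top]
    refine charP_top_iff.1 a fun y hy => ?_
    calc y * (x⁻¹ * g) = x⁻¹ * (x * y * x⁻¹) * g := by group
      _ = _ := by rw [← h5 y hy]; group
  have := mul_mem hx ((fn_induced hW).norm hT.pg (le_normalizer h6))
  rwa [mul_inv_cancel_left] at this

end Cfsg.Agent.S1990
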