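import Cfsg.Statements.S2795
import Cfsg.Agent.Lib.Loc.H6QdA

set_option autoImplicit false
open Cfsg

set_option linter.unusedVariables false
set_option linter.unusedSimpArgs false
set_option linter.style.haveILetI false

namespace Cfsg.Agent.S2795

open CA CA.H6QdA CA.H6Qd CA.H6Stab CA.H6ZJ CA.H6Op CA.Amb CA.AmbSyl CA.AmbCore CA.AmbRes CA.AmbChar Subgroup
open CA.H6J hiding Z
open scoped MatrixGroups

/-- For an odd prime p and a finite group G, the group Qd(p) is not involved in G if and only if every section of G is p-stable in the normalizer form (for every p-subgroup P of the section and every g in its normalizer acting quadratically on P, the image of g in N(P)/C(P) lies in O_p(N(P)/C(P))). -/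
theorem result {G : Type*} [Group G] [Finite G] {p : ℕ} [Fact p.Prime] (hp : p ≠ 2) : ¬ Cfsg.Involves ↥(Cfsg.qd p) G ↔ ∀ (K R : Subgroup G) [hR : (R.subgroupOf K).Normal], Cfsg.IsNormalizerPStable p (K ⧸ R.subgroupOf K) := by
  rw [involves_iff]
  refine ⟨fun h K R _ => isNormalizerPStable_iff.2 fun V hV =>
    stab_of_not_qd_top hp (fun h' => h (sec_quot h')) hV le_rfl, fun h h' => ?_⟩
  obtain ⟨K, R, _, ⟨e⟩⟩ := sec_top_iff'.1 h'
  have : Finite (qd p) := Finite.of_surjective e e.surjective
  have h1 := (isNormalizerPStable_iff.1 (h K R) ((V (ZMod p)).map e.symm.toMonoidHom)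
    ((isPGroup_V (F := ZMod p)).map _)).mono
    (norm_map e.symm.toMonoidHom (L := ⊤) (normal_iff_top_le.1 (inferInstanceAs (V (ZMod p)).Normal)))
  exact not_stab (F := ZMod p) (Stab.of_map_injective e.symm.injective h1)

end Cfsg.Agent.S2795
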