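import Cfsg.Statements.S1989
import Cfsg.Agent.Lib.Grp.L0K4
import Cfsg.Agent.Lib.Grp.L0Qd
import Cfsg.Agent.Lib.Loc.H6Stab
import Cfsg.Agent.S1987
import Cfsg.Agent.S2795
import Cfsg.Agent.S2763

set_option autoImplicit false
universe u
open Cfsg

namespace Cfsg.Agent.S1989

open CA.L0K CA.L0Qd CA.H6Stab Subgroup

/-- Let p be an odd prime and G a finite group. Then Qd(p) (the natural semidirect product of an elementary abelian group of order p² by SL₂(p)) is not involved in G if and only if, in every section K/R of G and for every Sylow p-subgroup T of K/R, the lower K-infinity subgroup of T controls strong fusion in K/R. -/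
theorem result {G : Type u} [Group G] [Finite G] {p : ℕ} [Fact p.Prime] (hp : p ≠ 2) : ¬ Cfsg.Involves ↥(Cfsg.qd p) G ↔ ∀ (K R : Subgroup G) [hR : (R.subgroupOf K).Normal], ∀ T : Sylow p (↥K ⧸ R.subgroupOf K), Cfsg.ControlsStrongFusion p (Cfsg.inducedFunctor (G := (↥K ⧸ R.subgroupOf K)) Cfsg.kInfLower (T : Subgroup (↥K ⧸ R.subgroupOf K))) := by
  refine ⟨fun h K R _ T => Cfsg.Agent.S1987.result hp ((Cfsg.Agent.S2795.result hp).1 fun h' => h ?_) T, ?_⟩
  · exact involves_iff.2 ((involves_iff.1 ⟨K, R, ‹_›, ⟨MulEquiv.refl _⟩⟩).trans (involves_iff.1 h'))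
  rintro h ⟨K, R, _, ⟨e⟩⟩
  obtain ⟨T⟩ : Nonempty (Sylow p (K ⧸ R.subgroupOf K)) := inferInstance
  have : Finite (qd p) := Finite.of_surjective e e.surjective
  have h1 := csf_map e (h K R T)
  rw [induced_KL, ← KL_map e.injective] at h1
  set S : Sylow p (qd p) := T.mapSurjective (f := e.toMonoidHom) e.surjective
  change ControlsStrongFusion p (KL (S : Subgroup (qd p))) at h1
  obtain ⟨T', -, h2⟩ := h1
  have hV : ∀ X : Sylow p (qd p), (blk p).ker ≤ X := fun X =>
    (CA.AmbCore.le_pCore inferInstance isPGroup_ker).trans (CA.AmbCore.pCore_le_sylow X)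
  have hS : (S : Subgroup (qd p)) ≠ ⊥ := fun h => by
    have := congrArg (fun X : qd p => mx X.1 0 2) (mem_bot.1 (h.le (hV S (tr_mem 1 0))))
    simp [mx_tr, mx_one] at this
  have hc : (KL (⊤ : Subgroup (S : Subgroup (qd p)))).Characteristic :=
    characteristic_iff_map_eq.2 fun φ => by rw [← KL_map φ.injective, map_top_equiv]
  have e1 : (KL (⊤ : Subgroup (S : Subgroup (qd p)))).map (S : Subgroup (qd p)).subtype = KL S := by
    rw [← KL_map (subtype_injective _), top_map_subtype]
  obtain ⟨h3, h4⟩ := Cfsg.Agent.S2763.result S _ (fun h => CA.AmbSyl.center_ne_bot S.isPGroup' hS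
    (eq_bot_iff.2 (Z_le_K.1.trans (by rw [← e1, h, Subgroup.map_bot])))) hc
  rw [e1] at h3
  refine h4 (eq_top_iff.2 fun g _ => ?_)
  obtain ⟨x, hx, hx'⟩ := (h2 (blk p).ker (hV T')).2 g (by
    rintro _ ⟨a, ha, rfl⟩
    exact hV T' (Subgroup.Normal.conj_mem inferInstance a ha g))
  rw [h3] at hx
  have : x⁻¹ * g ∈ centralizer ((blk p).ker : Set (qd p)) := mem_centralizer_iff.2 fun a ha => by
    have := hx' a ha
    calc a * (x⁻¹ * g) = x⁻¹ * (x * a * x⁻¹) * g := by group
      _ = x⁻¹ * g * a := by rw [← this]; group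
  have := mul_mem hx (le_normalizer (hV S (cent_le this)))
  rwa [mul_inv_cancel_left] at this

end Cfsg.Agent.S1989
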