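import Cfsg.Statements.S2004
import Cfsg.Agent.Lib.Loc.H6Fin

set_option autoImplicit false
open Cfsg

set_option linter.unusedVariables false
set_option linter.unusedSimpArgs false
set_option linter.style.haveILetI false

namespace Cfsg.Agent.S2004

open CA CA.H6Fin CA.H6Con CA.H6W CA.H6Off CA.H6NPC CA.H6Stab CA.H6PSolv CA.H6ZJ CA.H6Op CA.Amb CA.AmbSyl CA.AmbCore CA.AmbRes CA.AmbChar Subgroup
open CA.H6J hiding Z


/-- Let p be an odd prime and G a finite group such that SL₂(p) is not involved in N_G(P) for any nonidentity p-subgroup P of G. Then every section of G is p-stable in the normalizer form: in each section, whenever an element of the normalizer of a p-subgroup Q acts quadratically on Q, its image in N(Q)/C(Q) lies in O_p(N(Q)/C(Q)). -/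
theorem result {G : Type*} [Group G] [Finite G] {p : ℕ} [Fact p.Prime] (hp : p ≠ 2) (h : ∀ P : Subgroup G, IsPGroup p ↥P → P ≠ ⊥ → ¬ Cfsg.Involves (Matrix.SpecialLinearGroup (Fin 2) (ZMod p)) ↥(Subgroup.normalizer ((P : Subgroup G) : Set G))) : ∀ (K R : Subgroup G) [hR : (R.subgroupOf K).Normal], Cfsg.IsNormalizerPStable p (↥K ⧸ R.subgroupOf K) := by
  intro K R _
  refine isNormalizerPStable_iff.2 fun V hV => ?_
  by_cases h0 : V = ⊥
  · exact stab_of_res_le (by rw [h0, centralizer_bot]; exact le_top)
  refine stab_of_not_sec hp hV le_rfl fun k => ?_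
  obtain ⟨P, hP⟩ := exists_sylIn p (V.comap (QuotientGroup.mk' (R.subgroupOf K)))
  obtain ⟨h1, h2⟩ := normalizer_le_map (QuotientGroup.mk'_surjective _) hP hV
  refine h (P.map K.subtype) (hP.pg.map _) (fun e => h0 ?_) (involves_iff.2 (sec_top_iff.2 ?_))
  · rw [← h1, (map_eq_bot_iff_of_injective _ K.subtype_injective).1 e, Subgroup.map_bot]
  · exact (((k.mono h2 le_rfl).of_map.bot.map_injective K.subtype_injective).mono
      (norm_map _ le_rfl) bot_le)

end Cfsg.Agent.S2004
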