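import Cfsg.Statements.S2009
import Cfsg.Agent.Lib.Grp.SEmb

set_option autoImplicit false
open Cfsg

namespace Cfsg.Agent.S2009

open Subgroup CA.H13Inv

/-- Let H be a finite group and z an involution such that every proper normal subgroup of H meets the centralizer of z trivially, and suppose z lies in a Klein four-subgroup E of H all three of whose involutions are conjugate to z in H. Then H is simple. -/
theorem result {H : Type*} [Group H] [Finite H] (z : H) (hz : orderOf z = 2) (hN : ∀ N : Subgroup H, N.Normal → N ≠ ⊤ → N ⊓ Subgroup.centralizer ({z} : Set H) = ⊥) (E : Subgroup H) (hE : IsKleinFour ↥E) (hzE : z ∈ E) (hc : ∀ e ∈ E, e ≠ 1 → IsConj z e) : IsSimpleGroup H := by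
  have hz2 := mul_self hz
  have hz1 := ne_one hz
  obtain ⟨e, he, he1, hez⟩ : ∃ e ∈ E, e ≠ 1 ∧ e ≠ z := by
    by_contra h
    push Not at h
    have : E ≤ zpowers z := fun e he => by
      by_cases h1 : e = 1
      · rw [h1]; exact one_mem _
      · rw [h e he h1]; exact mem_zpowers z
    have := card_le_of_le this
    rw [hE.card_four, Nat.card_zpowers, hz] at this
    omega
  have sq : ∀ e ∈ E, e * e = 1 := fun e he =>
    congrArg Subtype.val (IsKleinFour.mul_self (⟨e, he⟩ : E))
  haveI : Nontrivial H := ⟨z, 1, hz1⟩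
  refine ⟨fun N hNn => ?_⟩
  by_cases hT : N = ⊤
  · exact Or.inr hT
  left
  have inv : ∀ e ∈ E, e ≠ 1 → ∀ n ∈ N, e * n * e⁻¹ = n⁻¹ := by
    intro e he h1 n hn
    refine CA.SEmb.inv_of_fpf (sq e he) (fun k hk => hNn.conj_mem k hk e) (fun k hk h => ?_) hn
    obtain ⟨g, rfl⟩ := isConj_iff.1 (hc e he h1)
    have : g⁻¹ * k * g ∈ N ⊓ centralizer ({z} : Set H) := by
      refine ⟨by simpa using hNn.conj_mem k hk g⁻¹, mem_centralizer_singleton_iff.2 ?_⟩
      calc g⁻¹ * k * g * z = g⁻¹ * (g * z * g⁻¹ * k * (g * z * g⁻¹)⁻¹) * g * z := by rw [h]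
        _ = z * (g⁻¹ * k * g) := by group
    rw [hN N hNn hT, mem_bot] at this
    calc k = g * (g⁻¹ * k * g) * g⁻¹ := by group
      _ = 1 := by rw [this]; group
  have hez' : e * z ≠ 1 := fun h => hez (by
    rw [← inv_inv e, inv_eq_of_mul_eq_one_right h, inv_eq hz])
  refine eq_bot_iff.2 fun n hn => ?_
  have h1 := inv _ (E.mul_mem he hzE) hez' n hn
  have h2 : e * z * n * (e * z)⁻¹ = n := by
    rw [show e * z * n * (e * z)⁻¹ = e * (z * n * z⁻¹) * e⁻¹ by group, inv z hzE hz1 n hn,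
      inv e he he1 _ (N.inv_mem hn), inv_inv]
  have h3 := inv z hzE hz1 n hn
  rw [← h1, h2] at h3
  rw [← hN N hNn hT]
  exact ⟨hn, mem_centralizer_singleton_iff.2 (mul_inv_eq_iff_eq_mul.1 h3).symm⟩

end Cfsg.Agent.S2009
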