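import Cfsg.Statements.S2051
import Cfsg.Agent.Lib.Spor.RuLink
import Cfsg.Agent.Lib.Spor.RuU

set_option autoImplicit false
open Cfsg

namespace Cfsg.Agent.S2051

open scoped commutatorElement

open CA.SchurPc CA.SchurLow in
theorem st_of {Γ G : Type} [Group Γ] [Group G] [Finite Γ] (φ : Γ →* G) (hs : Function.Surjective φ)
    (hc : φ.ker ≤ Subgroup.center Γ) (h2 : IsPGroup 2 φ.ker) (hG : commutator G = ⊤)
    (hb : Bd G 2 2) {z : Γ} (hz : z ∈ commutator Γ) (hz1 : φ z = 1) (hz2 : z ≠ 1) :
    St G (Multiplicative (ZMod 2)) := by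
  have hsurj : ∀ g : G, ∃ k ∈ commutator Γ, φ k = g := by
    intro g
    have : g ∈ (commutator Γ).map φ := by
      rw [commutator_def, Subgroup.map_commutator, Subgroup.map_top_of_surjective φ hs,
        ← commutator_def, hG]
      trivial
    exact this
  have hK : commutator Γ ≤ ⁅commutator Γ, commutator Γ⁆ := by
    rw [commutator_def Γ, Subgroup.commutator_le]
    intro a _ b _
    obtain ⟨k, hk, e1⟩ := hsurj (φ a)
    obtain ⟨l, hl, e2⟩ := hsurj (φ b)
    have c1 := Subgroup.mem_center_iff.1 (hc (show k⁻¹ * a ∈ φ.ker by simp [MonoidHom.mem_ker, e1]))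
    have c2 := Subgroup.mem_center_iff.1 (hc (show l⁻¹ * b ∈ φ.ker by simp [MonoidHom.mem_ker, e2]))
    obtain ⟨x, rfl⟩ : ∃ x, a = k * x := ⟨k⁻¹ * a, by group⟩
    obtain ⟨y, rfl⟩ : ∃ y, b = l * y := ⟨l⁻¹ * b, by group⟩
    rw [inv_mul_cancel_left] at c1 c2
    have e : ⁅k * x, l * y⁆ = ⁅k, l⁆ := by
      simp only [commutatorElement_def, mul_inv_rev]
      calc k * x * (l * y) * (x⁻¹ * k⁻¹) * (y⁻¹ * l⁻¹)
          = k * (x * (l * y)) * x⁻¹ * (k⁻¹ * y⁻¹) * l⁻¹ := by group
        _ = k * l * (y * (k⁻¹ * y⁻¹)) * l⁻¹ := by rw [← c1]; group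
        _ = k * l * k⁻¹ * l⁻¹ := by rw [← c2]; group
    rw [e]
    exact Subgroup.commutator_mem_commutator hk hl
  have hX : commutator (commutator Γ) = ⊤ := by
    apply Subgroup.map_injective (commutator Γ).subtype_injective
    rw [commutator_def (commutator Γ), Subgroup.map_commutator, ← MonoidHom.range_eq_map,
      Subgroup.range_subtype]
    exact le_antisymm (Subgroup.commutator_mono le_top le_top) hK
  let σ := φ.comp (commutator Γ).subtype
  have hσ : IsStemExtension σ := by
    refine ⟨fun g => ?_, fun x hx => ?_, hX ▸ le_top⟩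
    · obtain ⟨k, hk, e⟩ := hsurj g
      exact ⟨⟨k, hk⟩, e⟩
    · rw [Subgroup.mem_center_iff]
      exact fun y => Subtype.ext (Subgroup.mem_center_iff.1 (hc hx) y)
  have hp : IsPGroup 2 σ.ker := by
    intro x
    obtain ⟨n, hn⟩ := h2 ⟨x.1.1, x.2⟩
    have hn' : x.1.1 ^ 2 ^ n = 1 := congrArg Subtype.val hn
    exact ⟨n, Subtype.ext (Subtype.ext hn')⟩
  have hd := hb _ σ hσ hp
  have hcard : Nat.card σ.ker = 2 := by
    refine ((Nat.dvd_prime Nat.prime_two).1 hd).resolve_left fun h1 => hz2 ?_
    have := Subgroup.card_eq_one.1 h1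
    have hm : (⟨z, hz⟩ : commutator Γ) ∈ σ.ker := hz1
    rw [this] at hm
    exact congrArg Subtype.val (Subgroup.mem_bot.1 hm)
  exact ⟨_, _, σ, hσ, ⟨mulEquivOfPrimeCardEq hcard (card_mz 2)⟩⟩

open CA.RuTab CA.RuAct CA.RuLink Cfsg.Spor in
theorem mono_aut {M : List (List GaussianInt)} {c : RuIdx → GaussianInt} {π : RuIdx → RuIdx}
    (h : ∀ x, mv M x = (4 : GaussianInt) • mono c π x) {w : CA.CWord.Word} {a b : ℕ}
    (ha : actOK C2 w M a b = true) (hπ : Function.Involutive π) (hc : ∀ q, (c q).norm = 1) :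
    ∃ g : fourRu, ∀ x ∈ ruLattice, ap g x = mono c π x := by
  obtain ⟨g, hg⟩ := exists_aut (σ := C2.ev w) (actOK_spec hC2 ha) fun x => by
    rw [h, norm_smul, show (4 : GaussianInt).norm = 16 from rfl]
    congr 1
    simp only [ruNorm, mono, Zsqrtd.norm_mul, hc, one_mul]
    exact Equiv.sum_comp hπ.toPerm fun q => (x q).norm
  exact ⟨g, fun x hx => cancel4 (by rw [hg x hx, h])⟩

open CA.RuTab CA.RuAct CA.RuLink Cfsg.Spor in
theorem neg_mem : iota ^ 2 ∈ commutator fourRu := by
  obtain ⟨a, ha⟩ := mono_aut mv0 act0 (by intro q; revert q; decide) (by decide)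
  obtain ⟨b, hb⟩ := mono_aut mv1 act1 (by intro q; revert q; decide) (by decide)
  have e : a * b = iota ^ 2 * (b * a) := by
    refine ap_ext fun x hx => funext fun q => ?_
    rw [ap_mul, ap_mul, ap_mul, ap_iota_pow _ (ap_mem b (ap_mem a hx)), ha _ (ap_mem b hx),
      hb _ (ap_mem a hx), ha x hx, hb x hx]
    have h1 : ∀ q, CA.RuAct.c0 q * CA.RuAct.c1 (π0 q) =
      gI ^ 2 * (CA.RuAct.c1 q * CA.RuAct.c0 (π1 q)) := by decide
    have h2 : ∀ q, π1 (π0 q) = π0 (π1 q) := by decide
    simp only [mono, Pi.smul_apply, smul_eq_mul, ← mul_assoc, h1, h2]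
  have : iota ^ 2 = ⁅a, b⁆ := by rw [commutatorElement_def, e]; group
  rw [this]
  exact Subgroup.commutator_mem_commutator (Subgroup.mem_top _) (Subgroup.mem_top _)

/-- The Schur multiplier of the Rudvalis group (the unitary automorphism group of the rank-28 Gaussian lattice modulo its centre) is cyclic of order 2; here the Schur multiplier is described through stem extensions, as in the definitions: surjective homomorphisms onto the group from a finite group, whose kernel is central in that finite group and contained in that finite group's commutator subgroup. -/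
theorem result : Cfsg.HasCyclicSchurMultiplier Cfsg.Spor.Ru 2 := by
  open CA.SchurHopf CA.SchurLow CA.RuLink Cfsg.Spor in
  have hs := G_simple
  have hfin : Finite fourRu := by
    have h1 : Finite φ.ker := by
      rw [← center_eq]; exact Nat.finite_of_card_ne_zero (by rw [card_center]; decide)
    exact finite_of_ker φ
  have hG : commutator G = ⊤ := by
    refine (Subgroup.Normal.eq_bot_or_eq_top inferInstance).resolve_left fun h => ?_
    have h1 : Subgroup.center G = ⊤ := by
      rw [eq_top_iff]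
      intro x _
      rw [Subgroup.mem_center_iff]
      intro y
      have : ⁅y, x⁆ ∈ commutator G := Subgroup.commutator_mem_commutator (Subgroup.mem_top _) (Subgroup.mem_top _)
      rw [h, Subgroup.mem_bot, commutatorElement_eq_one_iff_mul_comm] at this
      exact this
    rw [center_G] at h1
    exact bot_ne_top h1
  have hk : (φ.codRestrict G φ_mem).ker = Subgroup.center fourRu := by
    rw [MonoidHom.ker_codRestrict, center_eq]
  have st : St G (Multiplicative (ZMod 2)) := st_of (φ.codRestrict G φ_mem)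
    (fun g => by
      obtain ⟨a, ha⟩ : g.1 ∈ φ.range := by rw [range_eq]; exact g.2
      exact ⟨a, Subtype.ext ha⟩) hk.le
    (IsPGroup.of_card (n := 2) (by rw [hk, card_center]; rfl)) hG (CA.RuU.bd 2 Nat.prime_two) neg_mem
    (show _ ∈ MonoidHom.ker _ by rw [hk]; exact iota_central 2)
    (pow_ne_one_of_lt_orderOf (by decide) (by rw [order_iota]; decide))
  exact congr_left (St.cyc (G := CA.RuPerm.C.grp CA.RuPerm.gens) st CA.RuU.bd) e.symm

end Cfsg.Agent.S2051
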