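import Cfsg.Statements.S2057
import Cfsg.Agent.Lib.Spor.ThO
import Cfsg.Agent.Lib.Spor.ThH
import Cfsg.Agent.Lib.Spor.ThT
import Cfsg.Agent.Lib.Spor.ThL4
-- import your own Cfsg.Agent.* helpers here

set_option autoImplicit false
open Cfsg

namespace Cfsg.Agent.S2057

open CA CA.CWord CA.CTodd CA.CPres Cfsg.Spor in
theorem fin : Finite Th := by
  have e : ThRel.rels = ThM.RH ++ ThM.RU := by decide +kernel
  have hr := ThRel.enc.hold
  exact ThO.fin ⟨(by decide +kernel : ThRel.rels.take 27 = ThM.RH) ▸ ThH.bound, fun r h => hr r (e ▸ List.mem_append_left _ h),
    fun r h => hr r (e ▸ List.mem_append_right _ h), ThT.tw hr⟩ (ThRel.enc.top _ (by decide))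

/-- The Schur multiplier of the Thompson group (the finitely presented group of the definitions) is trivial; here the Schur multiplier is described through stem extensions, as in the definitions: surjective homomorphisms onto the group from a finite group, whose kernel is central in that finite group and contained in that finite group's commutator subgroup. -/
theorem result : Cfsg.HasCyclicSchurMultiplier Cfsg.Spor.Th 1 := by
  haveI := fin
  exact CA.ThL4.mult

end Cfsg.Agent.S2057
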