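import Cfsg.Statements.S2087
import Cfsg.Agent.Lib.Grp.SchurCov
import Cfsg.Agent.Lib.Lin.SLnCard
import Cfsg.Agent.S2117
import Cfsg.Agent.S0255

set_option autoImplicit false
open Cfsg

namespace Cfsg.Agent.S2087

/-- Exceptional Schur multiplier: over the field with 2 elements, PSL₃ has Schur multiplier cyclic of order 2 (here the Schur multiplier is described through stem extensions, as in the definitions). -/
theorem result {F : Type*} [Field F] [Fintype F] (hF : Fintype.card F = 2) : Cfsg.HasCyclicSchurMultiplier (Matrix.ProjectiveSpecialLinearGroup (Fin 3) F) 2 := by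
  have a1 : (2 : ZMod 7) ≠ 0 := by decide
  have a2 : (2 : ZMod 7) ^ 2 ≠ 1 := by decide
  haveI : Fact (Nat.Prime 7) := ⟨by decide⟩
  haveI : Fact (Nat.Prime 2) := ⟨Nat.prime_two⟩
  obtain ⟨e⟩ := Cfsg.Agent.S0255.result (F := ZMod 7) (ZMod.card 7) hF
  have hp := Matrix.SL2.commutator_eq_top (F := ZMod 7) (a := 2) a1 a2
  refine CA.SchurHopf.congr_left (CA.SchurCov.has_of_cover (CA.SchurCov.stem_mk_center hp)
    (Cfsg.Agent.S2117.result (by rw [ZMod.card]; decide) (by rw [ZMod.card]; decide))
    (mulEquivOfPrimeCardEq (p := 2) ?_ (Nat.card_zmod 2))) e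
  rw [QuotientGroup.ker_mk', CA.SLnCard.card_center_SL, Nat.card_zmod]
  rfl

end Cfsg.Agent.S2087
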