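import Cfsg.Statements.S2094
import Cfsg.Agent.Lib.Lie.H22ModZ

set_option autoImplicit false
open Cfsg

namespace Cfsg.Agent.S2094

open CA.Chev CA.SchurFilt CA.CForm CA.CForm.Form

/-- Schur multipliers of the odd-dimensional orthogonal groups: for m ≥ 3 and a field F of odd order q with (m, q) ≠ (3, 3), the Schur multiplier of PΩ_(2m+1)(F) (for the form x₀² + Σ xᵢyᵢ) is cyclic of order 2 = gcd(2, q − 1); here the Schur multiplier is described through stem extensions, as in the definitions. -/
theorem result {F : Type*} [Field F] [Fintype F] {q : ℕ} (hF : Fintype.card F = q) (hq : Odd q) (m : ℕ) (hm : 3 ≤ m) (hexc : ¬ (m = 3 ∧ q = 3)) : Cfsg.HasCyclicSchurMultiplier (Cfsg.POmega F (Cfsg.quadFormOdd m F)) 2 := by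
  subst hF
  have hl : 2 ≤ m := by omega
  have hΦ := fun v => (clB m hl).mem_Φ.trans (ro_B (v := v))
  have h := Nat.card_eq_fintype_card (α := F)
  have h2 : (2 : F) ≠ 0 := Ring.two_ne_zero fun e => by
    have := FiniteField.even_card_of_char_two e
    obtain ⟨n, hn⟩ := hq; omega
  have e := rootsEquiv F 2
  rw [CA.SLnCard.gcd_two_of_odd hq] at e
  exact (clB m hl).has_orth (fits_B hl h2) (fun _ => rfl) (by simp; omega)
    (cc_of_lifts fun _ _ _ hc hs => Model.lifts_B hc hs rfl hΦ hm stC_G h2 (by omega))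
    (Model.perfect_B hΦ hm stC_G (by obtain ⟨n, hn⟩ := hq; omega)) (((clB m hl).ker_B rfl).map (·.trans e))

end Cfsg.Agent.S2094
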