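import Cfsg.Statements.S2096
import Cfsg.Agent.Lib.Lie.H22ModZ

set_option autoImplicit false
open Cfsg

namespace Cfsg.Agent.S2096

open CA.Chev CA.SchurFilt CA.CForm CA.CForm.Form

/-- Schur multipliers of the even-dimensional orthogonal groups of plus type and odd rank: for odd l ≥ 5 and a field F with q elements, the Schur multiplier of PΩ⁺_2l(F) (for the form Σ xᵢyᵢ) is cyclic of order gcd(4, q^l − 1); here the Schur multiplier is described through stem extensions, as in the definitions. -/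
theorem result {F : Type*} [Field F] [Fintype F] {q : ℕ} (hF : Fintype.card F = q) (l : ℕ) (hl : 5 ≤ l) (hodd : Odd l) : Cfsg.HasCyclicSchurMultiplier (Cfsg.POmega F (Cfsg.quadFormPlus l F)) (Nat.gcd 4 (q ^ l - 1)) := by
  subst hF
  have h3 : 3 ≤ l := by omega
  have hΦ := fun v => (clD l h3).mem_Φ.trans (ro_D (v := v))
  have e := rootsEquiv F 4
  have : Nat.gcd 4 (Fintype.card F - 1) = Nat.gcd 4 (Fintype.card F ^ l - 1) := by
    obtain ⟨q, hq⟩ : ∃ q, Fintype.card F = q + 1 := ⟨Fintype.card F - 1, by have := Fintype.card_pos (α := F); omega⟩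
    obtain ⟨n, rfl⟩ := hodd
    have h1 : (q + 1) ^ (2 * n + 1) % 4 = if q % 2 = 0 then (q + 1) % 4 else 0 := by
      obtain ⟨n, rfl⟩ : ∃ k, n = k + 1 := ⟨n - 1, by omega⟩
      obtain h | h | h | h : (q + 1) % 4 = 0 ∨ (q + 1) % 4 = 1 ∨ (q + 1) % 4 = 2 ∨ (q + 1) % 4 = 3 := by omega
      all_goals simp [pow_succ, pow_mul, Nat.mul_mod, Nat.pow_mod, h] <;> omega
    have h2 := Nat.one_le_pow (2 * n + 1) (q + 1) q.succ_pos
    rw [hq, Nat.gcd_rec, Nat.gcd_rec 4 (_ - 1)]
    split_ifs at h1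
    · congr 1; omega
    · obtain h | h : (q + 1 - 1) % 4 = 1 ∨ (q + 1 - 1) % 4 = 3 := by omega
      all_goals rw [h, show ((q + 1) ^ (2 * n + 1) - 1) % 4 = 3 by omega]
      rfl
  rw [this] at e
  exact (clD l h3).has_orth (fits_D h3) (fun _ => rfl) (by simp; omega)
    (cc_of_lifts fun _ _ _ hc hs => Model.lifts_D hc hs hΦ stC_G fun _ => hl)
    (perfect_sl (Model.hl_of fun v hv => ((hΦ v).1 hv).self) stC_G) (((clD l h3).ker_D1 rfl hodd).map (·.trans e))

end Cfsg.Agent.S2096
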