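import Cfsg.Statements.S2097
import Cfsg.Agent.Lib.Lie.H22ModZ

set_option autoImplicit false
open Cfsg

namespace Cfsg.Agent.S2097

open CA.Chev CA.SchurFilt CA.CForm CA.CForm.Form

/-- Schur multipliers of the even-dimensional orthogonal groups of plus type and even rank: for even l ≥ 4 and a field F with q elements, (l, q) ≠ (4, 2), the Schur multiplier of PΩ⁺_2l(F) (for the form Σ xᵢyᵢ) is the product of two cyclic groups of order gcd(2, q^l − 1) (so trivial for q even and a four-group for q odd; here the Schur multiplier is described through stem extensions, as in the definitions). -/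
theorem result {F : Type*} [Field F] [Fintype F] {q : ℕ} (hF : Fintype.card F = q) (l : ℕ) (hl : 4 ≤ l) (heven : Even l) (hexc : ¬ (l = 4 ∧ q = 2)) : Cfsg.HasSchurMultiplier (Cfsg.POmega F (Cfsg.quadFormPlus l F)) (Multiplicative (ZMod (Nat.gcd 2 (q ^ l - 1)) × ZMod (Nat.gcd 2 (q ^ l - 1)))) := by
  subst hF
  have h3 : 3 ≤ l := by omega
  have hΦ := fun v => (clD l h3).mem_Φ.trans (ro_D (v := v))
  have h := Nat.card_eq_fintype_card (α := F)
  have e := rootsEquiv F 2
  have : Nat.gcd 2 (Fintype.card F - 1) = Nat.gcd 2 (Fintype.card F ^ l - 1) := by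
    rcases Nat.even_or_odd (Fintype.card F) with h | h
    · rw [CA.SLnCard.gcd_two_of_even h Fintype.card_ne_zero, CA.SLnCard.gcd_two_of_even (h.pow_of_ne_zero (by omega))
        (pow_ne_zero _ Fintype.card_ne_zero)]
    · rw [CA.SLnCard.gcd_two_of_odd h, CA.SLnCard.gcd_two_of_odd h.pow]
  rw [this] at e
  exact (clD l h3).has_orth (fits_D h3) (fun _ => rfl) (by simp; omega)
    (cc_of_lifts fun _ _ _ hc hs => Model.lifts_D hc hs hΦ stC_G (by omega))
    (perfect_sl (Model.hl_of fun v hv => ((hΦ v).1 hv).self) stC_G)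
    (((clD l h3).ker_D2 rfl heven).map (·.trans ((e.prodCongr e).trans (MulEquiv.prodMultiplicative _ _).symm)))

end Cfsg.Agent.S2097
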