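import Cfsg.Statements.S2104
import Cfsg.Agent.Lib.Lie.H22F4a
import Cfsg.Agent.Lib.Lie.H22F4b
import Cfsg.Agent.Lib.Lie.H22St3
import Cfsg.Agent.S1062

set_option autoImplicit false
open Cfsg

namespace Cfsg.Agent.S2104

open CA.Chev CA.SchurFilt CA.SchurPc CA.SchurLow CA.PcEx CA.H22F4 CA.CNet CA.CWord Cfsg.Lie CA.BNBasic

/-- the positive roots ordered by height -/
def ρ (i : ℕ) : Rt chevF4 := show Fin 48 from Fin.ofNat 48
  ([24, 25, 27, 33, 26, 28, 34, 29, 30, 35, 31, 36, 37, 32, 38, 41, 39, 42, 40, 43, 44, 45, 46, 47].getD i 0)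
/-- the nodes -/
def nd (i : ℕ) : Nd chevF4 := show Fin 4 from Fin.ofNat 4 i

/-- the table agrees with the commutator formula -/
def Ck1 (C : PC) (i j : ℕ) : Prop := ((C.tab (C.idx i j)).filter (· < 24)).map ρ =
  (if i = j ∨ 24 ≤ j then [] else ρ j :: ((cT (ρ i) (ρ j)).filter (·.2.1 % 2 = 1)).map Prod.fst) ∧
  (i < j → j < 24 → ρ j ≠ ρ i ∧ ρ j ≠ ng (ρ i))
noncomputable instance (C : PC) (i j : ℕ) : Decidable (Ck1 C i j) := inferInstanceAs (Decidable (_ ∧ _))
/-- the whole table -/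
abbrev Ck (C : PC) : Prop := ∀ j < C.K, ∀ i ≤ j, Ck1 C i j

/-- a simple reflection maps the root `a` to `b` -/
def Fk (g a b : ℕ) : Prop := a < 24 ∧ b < 24 ∧ wt (ρ b) = wt (ρ a) - pr (sim (nd g)) (ρ a) • wt (sim (nd g))
instance (g a b : ℕ) : Decidable (Fk g a b) := inferInstanceAs (Decidable (_ ∧ _))

theorem ck2 : Ck c2 := by decide +kernel
theorem ck3 : Ck c3 := by decide +kernel
theorem fk2 : ∀ e ∈ c2.F, e.2.1 = [e.2.1.headD 0] ∧ e.2.2 = [e.2.2.headD 0] ∧
    Fk (e.1 + 1) (e.2.1.headD 0) (e.2.2.headD 0) := by decide +kernel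
theorem fk3 : ∀ s < 4, (∀ c < c3.K, 24 ≤ c → nth (nth c3_w [] s) [] c = [c]) ∧ ∀ c < 24, c ≠ 3 - s →
    nth (nth c3_w [] s) [] c = [(nth (nth c3_w [] s) [] c).headD 0] ∧ Fk s ((nth (nth c3_w [] s) [] c).headD 0) c := by
  decide +kernel
theorem pos_ρ : (∀ j < 24, Pos (ρ j)) ∧ (∀ r, Pos r → ∃ j < 24, ρ j = r) ∧ ∀ i, nd i.val = i ∧ i.val < 4 := by
  decide +kernel

theorem rowOK_of {C : PC} {chk : List ℕ → List ℕ → Bool} {i : ℕ} (hi : i < C.K)
    (h : C.rowOK (fun _ _ => true) i = true)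
    (h' : ∀ j, i ≤ j → j < C.K → chk (C.lhs i j) (C.rhs i j) = true) : C.rowOK chk i = true := by
  have h3 : i + Nat.sub C.K i ≤ C.K := by show i + (C.K - i) ≤ _; omega
  unfold PC.rowOK at h ⊢
  generalize Nat.sub C.K i = n at h h3
  induction n with
  | zero => rfl
  | succ n ih =>
    have h4 := band_iff.1 ((force_eq _ _).symm.trans h)
    exact (force_eq _ _).trans (band_iff.2 ⟨band_iff.2 ⟨(band_iff.1 h4.1).1, h' (i + n) (by omega) (by omega)⟩,
      ih h4.2 (by omega)⟩)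

variable {K Γ : Type*} [Field K] [Group Γ] (A : Sys chevF4 K Γ)

/-- the generators -/
def Y (z : ℕ → Γ) (a : ℕ) : Γ := if a < 24 then A.x (ρ a) 1 else z a

theorem pv_Y (z : ℕ → Γ) (w : List ℕ) (h : ∀ a ∈ w, 24 ≤ a → z a = 1) :
    pv (Y A z) w = (((w.filter (· < 24)).map ρ).map (A.x · 1)).prod := by
  induction w with
  | nil => rfl
  | cons a w ih =>
    rw [pv_cons, ih fun b hb => h b (List.mem_cons_of_mem _ hb)]
    by_cases e : a < 24
    · simp [Y, e]
    · simp [Y, e, h a List.mem_cons_self (not_lt.1 e)]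

variable (h2 : ∀ t : K, t = 0 ∨ t = 1)
include h2

theorem two0 : (1 : K) + 1 = 0 := (h2 _).resolve_right (by simp)

theorem cw2 (r s : Rt chevF4) :
    cw A.x r s 1 1 = ((((cT r s).filter (·.2.1 % 2 = 1)).map Prod.fst).map (A.x · 1)).prod := by
  have e1 : (-1 : K) = 1 := neg_eq_of_add_eq_zero_left (two0 h2)
  have e2 : ∀ c : ℤ, (c : K) = ((c % 2 : ℤ) : K) := fun c => by
    conv_lhs => rw [← Int.emod_add_mul_ediv c 2]
    push_cast
    rw [show (2 : K) = 0 from one_add_one_eq_two.symm.trans (two0 h2)]; simp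
  unfold CA.Chev.cw
  induction cT r s with
  | nil => rfl
  | cons c l ih =>
    rw [List.map_cons, List.prod_cons, ih, e1, e2]
    rcases Int.emod_two_eq_zero_or_one c.2.1 with e | e <;> simp [e]

theorem on_of {C : PC} (W : wf C = true) (hl : C.l = 2) (h : Ck C) (z : ℕ → Γ)
    (hz : ∀ a, 24 ≤ a → a < C.K → z a = 1) : On C (Y A z) id C.K := by
  intro i j hij hj
  have e := pv_Y A z (C.tab (C.idx i j)) fun a ha h => hz a h (rng W hij hj a ha).2
  rw [(h j hj i hij).1] at e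
  show pv _ (C.lhs i j) = pv _ (C.rhs i j)
  rcases hij.eq_or_lt with rfl | hlt
  · rw [C.lhs_self, C.rhs_self, e, hl, pv_replicate, if_pos (Or.inl rfl), sq, Y]
    split_ifs with a
    · rw [← A.add, two0 h2, A.x_zero]; rfl
    · rw [hz i (not_lt.1 a) hj]; simp
  · rw [C.lhs_lt hlt, C.rhs_lt hlt, pv_cons, pv_cons, pv_cons, pv_nil, mul_one, e]
    by_cases a : j < 24
    · obtain ⟨b, c⟩ := (h j hj i hij).2 hlt a
      rw [if_neg (by omega), List.map_cons, List.prod_cons, ← cw2 A h2, Y, Y, if_pos a, if_pos (hlt.trans a),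
        A.comm b c, mul_assoc]
    · rw [if_pos (Or.inr (not_lt.1 a)), Y, if_neg a, hz j (not_lt.1 a) hj]; simp

theorem fus (z : ℕ → Γ) {g a b : ℕ} (h : Fk g a b) :
    A.n (sim (nd g)) 1 * Y A z a = Y A z b * A.n (sim (nd g)) 1 := by
  obtain ⟨c, hc⟩ := (A.act_n (sim (nd g)) 1).conj_x (ρ a)
  have e : refl (sim (nd g)) (ρ a) = ρ b := wt_injective (by rw [wt_refl, h.2.2])
  rw [Y, Y, if_pos h.1, if_pos h.2.1, ← mul_inv_eq_iff_eq_mul, hc, e, (h2 c).resolve_left c.ne_zero, mul_one]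

theorem gnU (z : ℕ → Γ) : gn (Y A z) id 24 = A.U := by
  refine le_antisymm ((Subgroup.closure_le _).2 ?_) (A.X_le.2 fun r hr t => ?_)
  · rintro _ ⟨j, hj, rfl⟩
    show Y A z j ∈ A.U
    rw [Y, if_pos (show j < 24 from hj)]
    exact A.x_mem (pos_ρ.1 j hj) 1
  · rcases h2 t with rfl | rfl
    · exact A.x_zero r ▸ one_mem _
    · obtain ⟨j, hj, rfl⟩ := pos_ρ.2.1 r hr
      exact Subgroup.subset_closure ⟨j, hj, if_pos hj⟩

theorem cardU (hK : Nat.card K = 2) (z : ℕ → Γ) : 2 ^ 24 ≤ Nat.card (gn (Y A z) id 24) := by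
  rw [gnU A h2, A.card_U, hK]; exact le_rfl

include A in
theorem grp (hK : Nat.card K = 2) (hn : ¬ 2 ^ 25 ∣ Nat.card Γ) : Grp c2 Γ := by
  classical
  let z : ℕ → Γ := fun a => A.n (sim (nd (a - 23))) 1
  have o := on_of A h2 c2_wf rfl ck2 z fun a h h' => absurd h (not_le.2 h')
  refine ⟨Nat.prime_two, hn, Y A z, fun u v => decide (pv (Y A z) u = pv (Y A z) v), fun _ _ => of_decide_eq_true,
    fun i hi => rowOK_of hi (allN_spec (band_iff.1 c2_wf).2 (Nat.zero_le i) (by omega)) fun j a b =>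
      decide_eq_true (o i j a b), lall_iff.2 fun e he => decide_eq_true ?_, cardU A h2 hK z⟩
  obtain ⟨a, b, c⟩ := fk2 e he
  have : Y A z (c2.K + e.1) = A.n (sim (nd (e.1 + 1))) 1 := by
    show Y A z (24 + e.1) = _
    rw [Y, if_neg (by omega), show e.1 + 1 = 24 + e.1 - 23 by omega]
  rw [a, b, lapp_eq]
  simpa [this] using fus A h2 z c

theorem st [Finite Γ] (hG : A.G = ⊤) (hK : Nat.card K = 2) (hn : ¬ 2 ^ 25 ∣ Nat.card Γ) :
    St Γ (Multiplicative (ZMod 2)) := by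
  have u := gnU A h2 fun _ => 1
  refine st_of_pc (K0 := 24) (a0 := 1) c3_wf rfl c3_l rfl c3_cen _ c3_ab
    (on_of A h2 c3_wf rfl ck3 (fun _ => 1) fun _ _ _ => rfl) (fun a ha => if_neg (not_lt.2 ha)) (cardU A h2 hK _) hn
    (A.bn hG) (u ▸ A.U_le_B) (fun n d => d = 1 ∧ ∃ s < 4, n = A.n (sim (nd s)) 1) ?_ ?_ ?_ fun Z _ h _ => ?_
  · rintro _ _ ⟨rfl, s, hs, rfl⟩
    refine ⟨3 - s, _, by omega, c3_f s hs, (fk3 s hs).1, fun c hc h => ?_⟩
    obtain ⟨a, b⟩ := (fk3 s hs).2 c hc (by omega)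
    rw [a, pv_cons, pv_nil, mul_one, fus A h2 _ b]
  · refine le_sup_of_le_left (u ▸ sup_le le_rfl (A.H_le.2 fun r t => ?_))
    rw [show t = 1 from Units.ext ((h2 t).resolve_left t.ne_zero), A.h_one]
    exact one_mem _
  · rintro ⟨_, i, rfl⟩
    refine ⟨_, 1, inCell_sr _, ⟨rfl, i.val, (pos_ρ.2.2 i).2, by rw [(pos_ρ.2.2 i).1]⟩, ?_⟩
    rw [u]
    refine (Nat.two_le_iff _).2 ⟨Subgroup.index_ne_zero_of_finite, fun h => ?_⟩
    obtain ⟨c, hc⟩ := (A.act_n (sim i) 1).inv.conj_x (sim i)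
    have := Subgroup.relIndex_eq_one.1 h (A.x_mem (pos_sim i) 1)
    rw [Subgroup.mem_comap] at this
    exact (pos_ng _).1 (A.pos_of_mem_U (c := c * 1) (by simp) (by
      rw [← refl_self, ← refl_inv, ← hc]; exact this)) (pos_sim i)
  · haveI := Fact.mk Nat.prime_two
    exact ⟨mulEquivOfPrimeCardEq h (card_mz 2)⟩

omit h2

/-- Exceptional Schur multiplier: over the field with 2 elements the Chevalley group of type F₄ has Schur multiplier cyclic of order 2 (here the Schur multiplier is described through stem extensions, as in the definitions). -/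
theorem result {F : Type*} [Field F] [Fintype F] (hF : Fintype.card F = 2) : Cfsg.HasCyclicSchurMultiplier ↥(Cfsg.Lie.chevF4.group F) 2 := by
  have hK : Nat.card F = 2 := Nat.card_eq_fintype_card.trans hF
  have h2 : ∀ t : F, t = 0 ∨ t = 1 := fun t => by
    have := FiniteField.pow_card t
    rw [hF] at this
    have : t * (t - 1) = 0 := by linear_combination this
    simpa [sub_eq_zero] using this
  have hc := Cfsg.Agent.S1062.result hF
  have hn : ¬ 2 ^ 25 ∣ Nat.card (chevF4.group F) := by rw [hc]; decide +kernel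
  haveI : Finite (chevF4.group F) := Nat.finite_of_card_ne_zero (by rw [hc]; decide +kernel)
  refine (st (adjG chevF4 F) h2 adjG_G hK hn).cyc fun p hp => ?_
  by_cases e : p = 2
  · subst e
    exact (bd_of (a := 1) c2_lin (grp (adjG chevF4 F) h2 hK hn)).2
  intro Δ _ _ τ hτ hk
  haveI := Fact.mk hp
  haveI := Fact.mk Nat.prime_two
  haveI := charP_of_card_eq_prime hF
  obtain ⟨n, h1⟩ := hk.exists_card_eq
  obtain ⟨φ, hφ⟩ := lifts_coprime (A := adjG chevF4 F) hτ.2.1 hτ.1 (l := 2) (m := p ^ n)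
    (fun z hz => congrArg Subtype.val (h1 ▸ pow_card_eq_one' (x := (⟨z, hz⟩ : τ.ker))))
    (((Nat.coprime_primes Nat.prime_two hp).2 (Ne.symm e)).pow_right n)
  have hi : Function.Injective ((stC chevF4 F).θG stC_G) := by
    rw [← MonoidHom.ker_eq_bot_iff, Sys0.θG_ker, (Sys.r3_of_finite _).ker_eq stC_G,
      (MonoidHom.ker_eq_bot_iff _).2 tor_injective_F4, Subgroup.map_bot]
  let e := MulEquiv.ofBijective _ ⟨hi, Sys0.θG_surjective _ stC_G⟩
  have h3 : τ.comp φ = (stC chevF4 F).θG stC_G := (stC chevF4 F).hom_ext stC_G fun r t =>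
    (hφ r t).trans (Sys0.θG_x _ _ r t).symm
  rw [ker_eq_bot_of_split hτ (φ.comp e.symm.toMonoidHom) (MonoidHom.ext fun g =>
    (DFunLike.congr_fun h3 _).trans (e.apply_symm_apply g))]
  simp

end Cfsg.Agent.S2104
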