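import Cfsg.Statements.S2106
import Cfsg.Agent.Lib.Lie.H22St3

set_option autoImplicit false
open Cfsg

namespace Cfsg.Agent.S2106

open CA.Chev CA.SchurFilt

/-- Schur multipliers of the (adjoint, simple) Chevalley groups of type E₇: over a field with q elements the Schur multiplier is cyclic of order gcd(2, q − 1) (here the Schur multiplier is described through stem extensions, as in the definitions). -/
theorem result {F : Type*} [Field F] [Fintype F] {q : ℕ} (hF : Fintype.card F = q) : Cfsg.HasCyclicSchurMultiplier ↥(Cfsg.Lie.chevE7.group F) (Nat.gcd 2 (q - 1)) := by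
  refine OK.has (Or.inl (by simp)) (by rw [card_ker_E7, Nat.card_eq_fintype_card, hF]) ?_
  exact ((Nat.dvd_prime Nat.prime_two).1 (Nat.gcd_dvd_left _ _)).imp_right fun h => by rw [h]; exact Nat.prime_two

end Cfsg.Agent.S2106
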