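import Cfsg.Statements.S2108
import Cfsg.Agent.Lib.Lie.TwM5

set_option autoImplicit false
open Cfsg

namespace Cfsg.Agent.S2108

open CA.Chev in
/-- Schur multipliers of the twisted groups of type ²E₆: for a prime power q ≠ 2, with the group realised over the field with q² elements, the Schur multiplier of ²E₆(q) is cyclic of order gcd(3, q + 1) (here the Schur multiplier is described through stem extensions, as in the definitions); q = 2 is exceptional. -/
theorem result {K : Type*} [Field K] [Fintype K] {q : ℕ} (hq : IsPrimePow q) (hK : Fintype.card K = q ^ 2) (h2 : q ≠ 2) : Cfsg.HasCyclicSchurMultiplier ↥(Cfsg.Lie.twistedE6 K q) (Nat.gcd 3 (q + 1)) := by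
  obtain ⟨α, h1, h3, h4, h5⟩ := exists_tE6 hq hK
  exact CA.TwM.E6.has h1 h3 h5 (by omega)

end Cfsg.Agent.S2108
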