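import Cfsg.Statements.S2109
import Cfsg.Agent.Lib.Lie.H22E6b
import Cfsg.Agent.Lib.Lie.H22E6c
import Cfsg.Agent.Lib.Lie.H22E6d
import Cfsg.Agent.Lib.Lie.H22E6h
import Cfsg.Agent.Lib.Lie.TwM5

set_option autoImplicit false
open Cfsg

namespace Cfsg.Agent.S2109

open CA.Chev CA.SchurPc CA.SchurLow CA.H22E6 Cfsg.Lie

theorem lin : Lin c2 (2 ^ 2) := c2_lin' fun i hi => by
  have hi : i < 36 := hi
  interval_cases i
  exacts [r0, r1, r2, r3, r4, r5, r6, r7, r8, r9, r10, r11, r12, r13, r14, r15, r16, r17, r18, r19, r20, r21, r22, r23,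
    r24, r25, r26, r27, r28, r29, r30, r31, r32, r33, r34, r35]

/-- Exceptional Schur multiplier: ²E₆(2), realised over the field with 4 elements, has Schur multiplier isomorphic to the product of cyclic groups of orders 3, 2 and 2 (order 12, not cyclic; here the Schur multiplier is described through stem extensions, as in the definitions). -/
theorem result {K : Type*} [Field K] [Fintype K] (hK : Fintype.card K = 4) : Cfsg.HasSchurMultiplier ↥(Cfsg.Lie.twistedE6 K 2) (Multiplicative (ZMod 3 × ZMod 2 × ZMod 2)) := by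
  obtain ⟨α, hq, hα, -, hc⟩ := exists_tE6 (K := K) (q := 2) Nat.prime_two.isPrimePow hK
  have h2 : (1 : K) + 1 = 0 := one_add_one_eq_two.trans (two_eq_zero hc)
  haveI := Fact.mk Nat.prime_two
  haveI : CharP K 2 := (CharP.charP_iff_prime_eq_zero Nat.prime_two).2 (by exact_mod_cast two_eq_zero hc)
  obtain ⟨u, hu⟩ := IsCyclic.exists_generator (α := Kˣ)
  have ho : orderOf u = 3 := by rw [orderOf_eq_card_of_forall_mem_zpowers hu, Nat.card_units, hc]; rfl
  have h4 : ∀ t : K, t = 0 ∨ ∃ k : ℕ, t = u ^ k := fun t => (eq_or_ne t 0).imp_right fun h => by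
    obtain ⟨k, hk⟩ := mem_powers_iff_mem_zpowers.2 (hu (Units.mk0 t h))
    exact ⟨k, by simpa using (congrArg Units.val hk).symm⟩
  have h5 : (u : K) ^ 2 = 1 + u := by
    have a : (u : K) ^ 3 = 1 := by rw [← Units.val_pow_eq_pow_val, ← ho, pow_orderOf_eq_one]; rfl
    have b : (u : K) - 1 ≠ 0 := fun e => by
      rw [show u = 1 from Units.ext (sub_eq_zero.1 e), orderOf_one] at ho; omega
    exact mul_left_cancel₀ b (by linear_combination a - (u ^ 2 - 1) * h2)
  have R := TE6.real hq hα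
  have c := TE6.card_G hq hα le_rfl hc
  rw [← R.card_eq] at c
  have hn : ¬ 2 ^ 37 ∣ Nat.card (twistedE6 K 2) := fun h => absurd (c ▸ Dvd.dvd.mul_left h _) (by decide +kernel)
  haveI : Finite (twistedE6 K 2) := Nat.finite_of_card_ne_zero fun h => absurd (h ▸ c) (by decide +kernel)
  obtain ⟨Γ, _, _, σ, h6, ⟨f⟩, h7⟩ := CA.TwM.E6.cover hq hα le_rfl hc 2
  obtain ⟨Δ, _, _, σ', h8, ⟨f'⟩⟩ := CA.SchurHopf.stem_univ.{0} h6
  refine St.cyc3 (n := 12) ⟨Δ, _, σ', h8, ⟨f'.trans f⟩⟩ (st hq hα hc h2 h5 h4 R.e_inj R.e_range hn) fun p hp => ?_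
  by_cases e : p = 2
  · subst e
    exact (bd_of (a := 2) lin (grp hq hα hc h2 h5 h4 R.e_inj R.e_range hn)).2
  · exact fun Δ _ _ τ a b => (h7 p hp e Δ τ a b).trans (by decide)

end Cfsg.Agent.S2109
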