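import Cfsg.Statements.S2129
import Cfsg.Agent.Lib.Lie.H23Aut7

set_option autoImplicit false
open Cfsg

namespace Cfsg.Agent.S2129

open CA.Chev

/-- Outer automorphisms of the triality-twisted groups: for q = p^f (p prime), with the group realised over the field with q³ elements, the outer automorphism group of ³D₄(q) has order 3f (the field automorphisms of the cubic extension). -/
theorem result {K : Type*} [Field K] [Fintype K] (p f : ℕ) [Fact p.Prime] [CharP K p] (hK : Fintype.card K = p ^ (3 * f)) (hf : 1 ≤ f) : Nat.card (Cfsg.Out ↥(Cfsg.Lie.twistedD4 K (p ^ f))) = 3 * f := by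
  obtain ⟨α, h1, h2, h3, h4⟩ := exists_tD4 (K := K) (q := p ^ f) ((Fact.out : p.Prime).isPrimePow.pow (by omega))
    (by rw [hK, mul_comm, pow_mul])
  rw [out_3D4 h1 h2 h3 h4, CA.AutFld.card_ringAut hK]

end Cfsg.Agent.S2129
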