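import Cfsg.Statements.S2131
import Cfsg.Agent.Lib.Walt.J1F

set_option autoImplicit false
open Cfsg

namespace Cfsg.Agent.S2131



/-- The Janko group J₁ (the group generated by two explicit 7 × 7 matrices over the integers modulo 11) has an involution whose centraliser is isomorphic to the direct product of a group of order 2 with the alternating group of degree 5. -/
theorem result : ∃ t : ↥Cfsg.Spor.J1, orderOf t = 2 ∧ Nonempty (↥(Subgroup.centralizer ({t} : Set ↥Cfsg.Spor.J1)) ≃* Multiplicative (ZMod 2) × ↥(alternatingGroup (Fin 5))) := by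
  obtain ⟨t, ht⟩ := CA.J1.jt_J1.ex
  obtain ⟨c⟩ := CA.J1.jt_J1.ch t ht
  exact ⟨t, ht, CA.J1.equiv_of_ch c⟩

end Cfsg.Agent.S2131
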