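import Cfsg.Statements.S2140
import Cfsg.Agent.Lib.Lin.SLIdx
-- import your own Cfsg.Agent.* helpers here

set_option autoImplicit false
open Cfsg

namespace Cfsg.Agent.S2140

/-- Minimal index of a proper subgroup of the linear groups: for n ≥ 3 and a field F with q elements, (n, q) ≠ (4, 2), every proper subgroup of PSL_n(F) has index at least (q^n − 1)/(q − 1), and some subgroup has exactly that index (the stabiliser of a point of the projective space). -/
theorem result {F : Type*} [Field F] [Fintype F] {q : ℕ} (hF : Fintype.card F = q) (n : ℕ) (hn : 3 ≤ n) (hexc : ¬ (n = 4 ∧ q = 2)) : (∀ H : Subgroup (Matrix.ProjectiveSpecialLinearGroup (Fin n) F), H ≠ ⊤ → (q ^ n - 1) / (q - 1) ≤ H.index) ∧ (∃ H : Subgroup (Matrix.ProjectiveSpecialLinearGroup (Fin n) F), H.index = (q ^ n - 1) / (q - 1)) := by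
  classical
  subst hF
  rw [CA.SLDeg.div_eq _ _ Fintype.one_lt_card]
  refine ⟨fun H hH => ?_, ?_⟩
  · rw [← H.index_comap_of_surjective (QuotientGroup.mk'_surjective _)]
    refine CA.SLIdx.index_ge hn hexc fun e => hH ?_
    rw [← Subgroup.map_comap_eq_self_of_surjective (QuotientGroup.mk'_surjective _) H, e]
    exact Subgroup.map_top_of_surjective _ (QuotientGroup.mk'_surjective _)
  · have hc := CA.SLDeg.card_proj (F := F) (n := n)
    have : Nonempty (Fin n) := ⟨⟨0, by omega⟩⟩
    obtain ⟨x⟩ : Nonempty (Projectivization F (Fin n → F)) := inferInstance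
    exact ⟨MulAction.stabilizer _ x, by rw [MulAction.index_stabilizer_of_transitive, hc]⟩

end Cfsg.Agent.S2140
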