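import Cfsg.Statements.S2141
import Cfsg.Agent.Lib.Lin.Coop2
-- import your own Cfsg.Agent.* helpers here

set_option autoImplicit false
open Cfsg

namespace Cfsg.Agent.S2141

open CA.CForm CA.Coop

/-- Minimal index of a proper subgroup of the symplectic groups over fields with at least 3 elements: for m ≥ 2 and a field F with q ≥ 3 elements, (m, q) ≠ (2, 3), every proper subgroup of PSp_2m(F) has index at least (q^(2m) − 1)/(q − 1), and that index is attained. -/
theorem result {F : Type*} [Field F] [Fintype F] {q : ℕ} (hF : Fintype.card F = q) (m : ℕ) (hm : 2 ≤ m) (hq : 3 ≤ q) (hexc : ¬ (m = 2 ∧ q = 3)) : (∀ H : Subgroup (Cfsg.PSp m F), H ≠ ⊤ → (q ^ (2 * m) - 1) / (q - 1) ≤ H.index) ∧ (∃ H : Subgroup (Cfsg.PSp m F), H.index = (q ^ (2 * m) - 1) / (q - 1)) := by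
  subst hF
  obtain ⟨n, rfl⟩ : ∃ n, m = n + 1 := ⟨m - 1, by omega⟩
  rw [← Nat.card_eq_fintype_card] at *
  have hf := sympStd_nondeg F (n + 1)
  have hn : Module.finrank F (Fin (n + 1) ⊕ Fin (n + 1) → F) = 2 * n + 2 := by simp; omega
  have e := NN_mul (a := Nat.card F) Nat.card_pos (n + 1)
  rw [← e, Nat.add_sub_cancel, Nat.mul_div_cancel_left _ (by omega)]
  refine transfer (spEquiv F (n + 1)) (fun K hK => sp_min hf hn hq (by omega) (by omega) (stab_quot_ne hK)) ?_
  obtain ⟨x, h0⟩ := exists_ne (0 : Fin (n + 1) ⊕ Fin (n + 1) → F)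
  have hx := (sympStd F (n + 1)).symp_Q x
  refine ⟨MulAction.stabilizer _ (Form.pt _ x h0 hx), fun g hg => Form.smul_eq_of_mem_scalars _
    (hf.center_isom (Form.symp_prim _).rich hx h0 ▸ hg) _, Nat.eq_of_mul_eq_mul_right (by omega : 0 < Nat.card F - 1) ?_⟩
  rw [← Subgroup.relIndex_top_right, idx_pt (Γ := ⊤) h0 hx fun v hv _ => (hf.witt_one h0 hv (by simp only [Form.symp_Q])).imp
    fun _ h => ⟨trivial, h⟩, show {v | v ≠ 0 ∧ (sympStd F (n + 1)).Q v = 0} = {0}ᶜ from Set.ext fun v => by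
      simp [Form.symp_Q], Set.ncard_compl, Set.ncard_singleton, Module.natCard_eq_pow_finrank (K := F), hn, ← mul_add_one,
    ← e, Nat.add_sub_cancel, mul_comm]

end Cfsg.Agent.S2141
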