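import Cfsg.Statements.S2142
import Cfsg.Agent.Lib.Lin.CoopSp5
import Cfsg.Agent.Lib.Lin.CFormClass
-- import your own Cfsg.Agent.* helpers here

set_option autoImplicit false
open Cfsg

namespace Cfsg.Agent.S2142

open CA.CForm CA.Coop

/-- Minimal index of a proper subgroup of the symplectic groups over the field with 2 elements: for m ≥ 3, every proper subgroup of Sp_2m(2) has index at least 2^(m−1)(2^m − 1), and that index is attained. -/
theorem result {F : Type*} [Field F] [Fintype F] (hF : Fintype.card F = 2) (m : ℕ) (hm : 3 ≤ m) : (∀ H : Subgroup (Cfsg.PSp m F), H ≠ ⊤ → 2 ^ (m - 1) * (2 ^ m - 1) ≤ H.index) ∧ (∃ H : Subgroup (Cfsg.PSp m F), H.index = 2 ^ (m - 1) * (2 ^ m - 1)) := by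
  obtain ⟨n, rfl⟩ : ∃ n, m = n + 1 := ⟨m - 1, by omega⟩
  have hq := Nat.card_eq_fintype_card.trans hF
  have t := two_eq hq
  obtain ⟨a, b, hab⟩ := exists_aniso (F := F)
  have hf : ((minusForm n a b).toSymp t).Nondeg := minusForm_nondeg n hab
  have hn := finrank_minus (F := F) n
  obtain ⟨e, he⟩ := (sympStd_nondeg F (n + 1)).symp_equivalent hf (by rw [hn]; simp; omega)
  obtain ⟨c, hc⟩ : ∃ c, 2 ^ (n + 1) = c + 1 := ⟨2 ^ (n + 1) - 1, by have := Nat.two_pow_pos (n + 1); omega⟩
  rw [Nat.add_sub_cancel]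
  refine transfer ((spEquiv F (n + 1)).trans (Form.isomCongr e he)) (fun K hK => ?_)
    ⟨(minusForm n a b).Isom.subgroupOf _, ?_, ?_⟩
  · have := sp2_min hf hn hq (by omega) (stab_quot_ne hK)
    rw [Nat.mul_sub_one, pow_succ, Subgroup.index]
    rw [two_mul n, pow_add] at this
    exact Nat.sub_le_of_le_add (by linarith)
  · have : Nontrivial ((Fin n ⊕ Fin n) ⊕ Fin 2 → F) := inferInstance
    rw [Subgroup.card_eq_one.1 (hf.symp_card_center.trans (by simp [hF]))]
    exact bot_le
  · have h1 := ((minusForm n a b).Isom.subgroupOf ((minusForm n a b).toSymp t).Isom).card_mul_index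
    rw [Nat.card_congr (Subgroup.subgroupOfEquivOfLe (H := (minusForm n a b).Isom) (K := ((minusForm n a b).toSymp t).Isom)
      fun g hg => (Form.symp_mem_Isom _).2 hg.1).toEquiv,
      (minusForm_isIndex n hab).card_isom_minus (minusForm_nondeg n hab) hn, hf.card_isom_symp (n + 1) hn, hq,
      Finset.prod_range_succ, ← Form.sq_sub_one_eq] at h1
    refine Nat.eq_of_mul_eq_mul_left ?_ (h1.trans ?_)
    · refine Nat.mul_pos (by positivity) (Finset.prod_pos fun i _ => ?_)
      have := Nat.one_lt_two_pow (n := 2 * (i + 1)) (by omega)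
      omega
    · ring

end Cfsg.Agent.S2142
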