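import Cfsg.Statements.S2143
import Cfsg.Agent.Lib.Lin.H12Om8

set_option autoImplicit false
open Cfsg

namespace Cfsg.Agent.S2143

open CA.CForm CA.CForm.Form CA.H12Om in

/-- Minimal index of a proper subgroup of the odd-dimensional orthogonal groups: for m ≥ 3 and a field F with q elements, q odd and q ≥ 5, every proper subgroup of PΩ_(2m+1)(F) (for the form x₀² + Σ xᵢyᵢ) has index at least (q^(2m) − 1)/(q − 1), and that index is attained. -/
theorem result {F : Type*} [Field F] [Fintype F] {q : ℕ} (hF : Fintype.card F = q) (hodd : Odd q) (h5 : 5 ≤ q) (m : ℕ) (hm : 3 ≤ m) : (∀ H : Subgroup (Cfsg.POmega F (Cfsg.quadFormOdd m F)), H ≠ ⊤ → (q ^ (2 * m) - 1) / (q - 1) ≤ H.index) ∧ (∃ H : Subgroup (Cfsg.POmega F (Cfsg.quadFormOdd m F)), H.index = (q ^ (2 * m) - 1) / (q - 1)) := by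
  obtain ⟨ν, rfl⟩ : ∃ ν, m = ν + 1 := ⟨m - 1, by omega⟩
  rw [← Nat.card_eq_fintype_card] at hF
  subst hF
  have h2 : (2 : F) ≠ 0 := fun h => Nat.not_even_iff_odd.2 hodd (CA.H12Om.two_eq_zero_iff.1 h)
  exact sing_result (f := oddForm F (ν + 1)) (d := 1) (oddForm_isIndex h2 _) (oddForm_nondeg h2 _) (finrank_odd _)
    (by omega) (by omega) (Or.inl (by omega)) (sq_sub_one_eq _ _).symm

end Cfsg.Agent.S2143
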