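import Cfsg.Statements.S2144
import Cfsg.Agent.Lib.Lin.H12Om8

set_option autoImplicit false
open Cfsg

namespace Cfsg.Agent.S2144

open CA.CForm CA.CForm.Form CA.H12Om in

/-- Minimal index of a proper subgroup of the odd-dimensional orthogonal groups over the field with 3 elements: for m ≥ 3, every proper subgroup of PΩ_(2m+1)(3) (for the form x₀² + Σ xᵢyᵢ) has index at least 3^m(3^m − 1)/2, and that index is attained. -/
theorem result {F : Type*} [Field F] [Fintype F] (hF : Fintype.card F = 3) (m : ℕ) (hm : 3 ≤ m) : (∀ H : Subgroup (Cfsg.POmega F (Cfsg.quadFormOdd m F)), H ≠ ⊤ → 3 ^ m * (3 ^ m - 1) / 2 ≤ H.index) ∧ (∃ H : Subgroup (Cfsg.POmega F (Cfsg.quadFormOdd m F)), H.index = 3 ^ m * (3 ^ m - 1) / 2) := by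
  obtain ⟨ν, rfl⟩ : ∃ ν, m = ν + 1 := ⟨m - 1, by omega⟩
  have h3 : ¬ IsSquare (-1 : F) := by rw [FiniteField.isSquare_neg_one_iff, hF]; simp
  rw [← Nat.card_eq_fintype_card] at hF
  have h2 : (2 : F) ≠ 0 := fun h => by have := CA.H12Om.two_eq_zero_iff.1 h; rw [hF] at this; exact absurd this (by decide)
  obtain ⟨c, hc, hn⟩ := cnt_odd (oddForm_isIndex h2 (ν + 1)) (oddForm_nondeg h2 _) (finrank_odd _) h3
  refine ns_result (f := oddForm F (ν + 1)) (d := 1) (oddForm_isIndex h2 _) (oddForm_nondeg h2 _) (finrank_odd _)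
    (by omega) (by omega) (by omega) le_rfl hc hn ?_
  rw [hF, show 2 * ν + 1 + 1 = (ν + 1) + (ν + 1) by omega, pow_add 3 (ν + 1) (ν + 1)]
  have k : Odd (3 ^ (ν + 1)) := Odd.pow (by decide)
  generalize 3 ^ (ν + 1) = x at k
  obtain ⟨y, rfl⟩ := k
  rw [Nat.add_sub_cancel, Nat.mul_div_assoc _ (Dvd.intro _ rfl), Nat.mul_div_cancel_left _ (by omega)]
  ring

end Cfsg.Agent.S2144
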