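import Cfsg.Statements.S2145
import Cfsg.Agent.Lib.Lin.H12Om8

set_option autoImplicit false
open Cfsg

namespace Cfsg.Agent.S2145

open CA.CForm CA.CForm.Form CA.H12Om in

/-- Minimal index of a proper subgroup of the even-dimensional orthogonal groups of plus type: for m ≥ 4 and a field F with q ≥ 4 elements, every proper subgroup of PΩ⁺_2m(F) (for the form Σ xᵢyᵢ) has index at least (q^m − 1)(q^(m−1) + 1)/(q − 1), and that index is attained (the singular points). -/
theorem result {F : Type*} [Field F] [Fintype F] {q : ℕ} (hF : Fintype.card F = q) (hq : 4 ≤ q) (m : ℕ) (hm : 4 ≤ m) : (∀ H : Subgroup (Cfsg.POmega F (Cfsg.quadFormPlus m F)), H ≠ ⊤ → (q ^ m - 1) * (q ^ (m - 1) + 1) / (q - 1) ≤ H.index) ∧ (∃ H : Subgroup (Cfsg.POmega F (Cfsg.quadFormPlus m F)), H.index = (q ^ m - 1) * (q ^ (m - 1) + 1) / (q - 1)) := by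
  obtain ⟨ν, rfl⟩ : ∃ ν, m = ν + 1 := ⟨m - 1, by omega⟩
  rw [← Nat.card_eq_fintype_card] at hF
  subst hF
  exact sing_result (f := plusForm F (ν + 1)) (d := 0) (plusForm_isIndex F _) (plusForm_nondeg F _) (finrank_plus _)
    (by omega) (by omega) (Or.inl hq) rfl

end Cfsg.Agent.S2145
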