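import Cfsg.Statements.S2146
import Cfsg.Agent.Lib.Lin.H12Om8

set_option autoImplicit false
open Cfsg

namespace Cfsg.Agent.S2146

open CA.CForm CA.CForm.Form CA.H12Om in

/-- Minimal index of a proper subgroup of the even-dimensional orthogonal groups of plus type over the field with 2 elements: for m ≥ 4, every proper subgroup of Ω⁺_2m(2) (for the form Σ xᵢyᵢ) has index at least 2^(m−1)(2^m − 1), and that index is attained. -/
theorem result {F : Type*} [Field F] [Fintype F] (hF : Fintype.card F = 2) (m : ℕ) (hm : 4 ≤ m) : (∀ H : Subgroup (Cfsg.POmega F (Cfsg.quadFormPlus m F)), H ≠ ⊤ → 2 ^ (m - 1) * (2 ^ m - 1) ≤ H.index) ∧ (∃ H : Subgroup (Cfsg.POmega F (Cfsg.quadFormPlus m F)), H.index = 2 ^ (m - 1) * (2 ^ m - 1)) := by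
  obtain ⟨ν, rfl⟩ : ∃ ν, m = ν + 1 := ⟨m - 1, by omega⟩
  rw [← Nat.card_eq_fintype_card] at hF
  have hn := cnt_plus (plusForm_isIndex F (ν + 1)) (plusForm_nondeg F _) (finrank_plus _) (c := 1) one_ne_zero
  refine ns_result (f := plusForm F (ν + 1)) (d := 0) (plusForm_isIndex F _) (plusForm_nondeg F _) (finrank_plus _)
    (by omega) (by omega) (by omega) (by omega) one_ne_zero hn ?_
  rw [hF, show 2 * ν + 0 + 1 = ν + (ν + 1) by omega, pow_add 2 ν (ν + 1), Nat.add_sub_cancel, add_zero]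
  have k : 1 ≤ 2 ^ (ν + 1) := Nat.one_le_two_pow
  generalize 2 ^ (ν + 1) = x at k
  obtain ⟨y, rfl⟩ := Nat.exists_eq_add_of_le' k
  rw [Nat.add_sub_cancel]
  ring

end Cfsg.Agent.S2146
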