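import Cfsg.Statements.S2147
import Cfsg.Agent.Lib.Lin.H12Om8

set_option autoImplicit false
open Cfsg

namespace Cfsg.Agent.S2147

open CA.CForm CA.CForm.Form CA.H12Om in

/-- Minimal index of a proper subgroup of the even-dimensional orthogonal groups of minus type: for m ≥ 4 and a field F with q elements, every proper subgroup of PΩ⁻_2m(F) (for the form Σ_{i<m−1} xᵢyᵢ + z₁² + a z₁z₂ + b z₂² with anisotropic binary part) has index at least (q^m + 1)(q^(m−1) − 1)/(q − 1), and that index is attained. -/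
theorem result {F : Type*} [Field F] [Fintype F] {q : ℕ} (hF : Fintype.card F = q) (m : ℕ) (hm : 4 ≤ m) (a b : F) (hab : ∀ z₁ z₂ : F, z₁ ^ 2 + a * z₁ * z₂ + b * z₂ ^ 2 = 0 → z₁ = 0 ∧ z₂ = 0) : (∀ H : Subgroup (Cfsg.POmega F (Cfsg.quadFormMinus (m - 1) F a b)), H ≠ ⊤ → (q ^ m + 1) * (q ^ (m - 1) - 1) / (q - 1) ≤ H.index) ∧ (∃ H : Subgroup (Cfsg.POmega F (Cfsg.quadFormMinus (m - 1) F a b)), H.index = (q ^ m + 1) * (q ^ (m - 1) - 1) / (q - 1)) := by
  obtain ⟨ν, rfl⟩ : ∃ ν, m = ν + 1 + 1 := ⟨m - 2, by omega⟩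
  rw [← Nat.card_eq_fintype_card] at hF
  subst hF
  rw [Nat.add_sub_cancel]
  have h1 : (minusForm (ν + 1) a b).IsIndex (ν + 1) := minusForm_isIndex _ hab
  have h2 : (minusForm (ν + 1) a b).Nondeg := minusForm_nondeg _ hab
  have h3 := sing_result (ν := ν) (d := 2) h1 h2 (finrank_minus _) (by omega) (by omega) (Or.inr rfl)
    (N := (Nat.card F ^ (ν + 1 + 1) + 1) * (Nat.card F ^ (ν + 1) - 1)) (by rw [mul_comm])
  rw [minusForm_Q] at h3
  exact h3

end Cfsg.Agent.S2147
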