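import Cfsg.Statements.S2149
import Cfsg.Agent.Lib.Lin.CoopV3
import Cfsg.Agent.Lib.Lin.QuadExt
import Cfsg.Agent.Lib.Lin.SmallF
import Cfsg.Agent.Lib.Lin.SnPres
import Cfsg.Agent.S0280
-- import your own Cfsg.Agent.* helpers here

set_option autoImplicit false
open Cfsg

namespace Cfsg.Agent.S2149

open Matrix CA.SmallF

instance : Fact (Nat.Prime 5) := ⟨by norm_num⟩
instance : Fact (∀ r : ZMod 5, r ^ 2 ≠ 2 + 0 * r) := ⟨by decide⟩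

abbrev F25 : Type := QuadraticAlgebra (ZMod 5) 2 0

def M : Fin 7 → Matrix (Fin 3) (Fin 3) F25 := ![
  !![⟨0, 0⟩, ⟨0, 0⟩, ⟨1, 0⟩; ⟨1, 0⟩, ⟨0, 0⟩, ⟨0, 0⟩; ⟨0, 0⟩, ⟨1, 0⟩, ⟨0, 0⟩],
  !![⟨0, 0⟩, ⟨4, 0⟩, ⟨0, 0⟩; ⟨0, 0⟩, ⟨0, 0⟩, ⟨1, 0⟩; ⟨4, 0⟩, ⟨0, 0⟩, ⟨0, 0⟩],
  !![⟨2, 0⟩, ⟨1, 0⟩, ⟨4, 0⟩; ⟨4, 0⟩, ⟨4, 0⟩, ⟨2, 0⟩; ⟨1, 0⟩, ⟨2, 0⟩, ⟨4, 0⟩],
  !![⟨4, 4⟩, ⟨1, 0⟩, ⟨3, 2⟩; ⟨3, 2⟩, ⟨3, 3⟩, ⟨2, 0⟩; ⟨1, 0⟩, ⟨4, 1⟩, ⟨3, 3⟩],
  !![⟨4, 1⟩, ⟨1, 0⟩, ⟨3, 3⟩; ⟨3, 3⟩, ⟨3, 2⟩, ⟨2, 0⟩; ⟨1, 0⟩, ⟨4, 4⟩, ⟨3, 2⟩], 1, 1]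

theorem hM : ∀ i, (M i).det = 1 ∧ (M i)ᴴ * M i = 1 := by simp only [det_fin_three]; decide +kernel

def y (i : Fin 7) : Cfsg.SU 3 F25 5 := ⟨⟨M i, (hM i).1⟩, (CA.QuadExt.mem_SU_iff (by decide +kernel)).2 (hM i).2⟩

theorem h3 : ∀ i, M i * (M i * M i) = (M i * (M i * M i)) 0 0 • 1 := by decide +kernel
theorem h2 : ∀ i j, i ≠ j → i.1 < 5 → j.1 < 5 → M i * M j * (M i * M j) = (M i * M j * (M i * M j)) 0 0 • 1 := by decide +kernel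
theorem hn : M 1 * M 0 ≠ M 0 * M 1 := by decide +kernel

/-- Minimal index of a proper subgroup of PSU₃(5), realised over the field with 25 elements: every proper subgroup has index at least 50, and that index is attained. -/
theorem result {F : Type*} [Field F] [Fintype F] (hF : Fintype.card F = 25) : (∀ H : Subgroup (Cfsg.PSU 3 F 5), H ≠ ⊤ → 50 ≤ H.index) ∧ (∃ H : Subgroup (Cfsg.PSU 3 F 5), H.index = 50) := by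
  have hF' : Fintype.card F = 5 ^ 2 := hF
  refine ⟨fun H hH => by have := CA.Coop.psu3 hF' (by omega) H hH; omega, ?_⟩
  obtain ⟨e⟩ := CA.QuadExt.nonempty_equiv (F := ZMod 5) (a := 2) (b := 0) (K := F) (by rw [hF, ZMod.card]; rfl)
  let π := (CA.FieldIso.psuEquiv e 3 5).toMonoidHom.comp (QuotientGroup.mk' (Subgroup.center (Cfsg.SU 3 F25 5)))
  have k : ∀ g : Cfsg.SU 3 F25 5, g.1.1 = g.1.1 0 0 • 1 → π g = 1 := fun g h =>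
    (map_eq_one_iff _ (CA.FieldIso.psuEquiv e 3 5).injective).2 ((QuotientGroup.eq_one_iff _).2
      (Subgroup.mem_center_iff.2 fun a => Subtype.ext (Subtype.ext (show a.1.1 * g.1.1 = g.1.1 * a.1.1 by rw [h]; simp))))
  obtain ⟨φ, hφ, -⟩ := CA.SnPres.exists_inj_alt (α := Fin 7) (by simp) (p := 5) (q := 6) (by decide) (fun i => π (y i))
    (fun i _ _ => by rw [← map_pow, pow_three]; exact k _ (h3 i))
    (fun i j a b c d h => by rw [← map_mul, ← map_pow, sq]; exact k _ (h2 i j h (by omega) (by omega))) (i := 0) (by decide) (by decide) fun h =>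
      hn (congrArg (·.1.1) (Subgroup.mem_center_iff.1 ((QuotientGroup.eq_one_iff _).1
        ((map_eq_one_iff _ (CA.FieldIso.psuEquiv e 3 5).injective).1 h)) (y 1)))
  have h1 := φ.range.card_mul_index
  have h2 := Cfsg.Agent.S0280.result hF' 3 (by omega)
  rw [← Nat.card_congr (MonoidHom.ofInjective hφ).toEquiv, nat_card_alternatingGroup] at h1
  norm_num [Finset.prod_range_succ, Nat.even_add_one, Nat.factorial] at h1 h2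
  exact ⟨φ.range, by omega⟩

end Cfsg.Agent.S2149
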