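import Cfsg.Statements.S2153
import Cfsg.Agent.Lib.Lin.CoopU7
-- import your own Cfsg.Agent.* helpers here

set_option autoImplicit false
open Cfsg

namespace Cfsg.Agent.S2153

open CA.CForm CA.Coop

/-- Minimal index of a proper subgroup of the unitary groups PSU_n(2) with n divisible by 6, realised over the field with 4 elements: every proper subgroup has index at least 2^(n−1)(2^n − 1)/3, and that index is attained. -/
theorem result {F : Type*} [Field F] [Fintype F] (hF : Fintype.card F = 4) (n : ℕ) (hn : 6 ∣ n) (hpos : 6 ≤ n) : (∀ H : Subgroup (Cfsg.PSU n F 2), H ≠ ⊤ → 2 ^ (n - 1) * (2 ^ n - 1) / 3 ≤ H.index) ∧ (∃ H : Subgroup (Cfsg.PSU n F 2), H.index = 2 ^ (n - 1) * (2 ^ n - 1) / 3) := by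
  have hF' : Fintype.card F = 2 ^ 2 := hF
  have hf := hermStd_nondeg hF' n
  obtain ⟨m, rfl⟩ : ∃ m, n = 2 * m := (dvd_trans (by norm_num) hn : 2 ∣ n)
  refine su_transfer (by omega) (fun K hK => le_trans ?_ (degBn (2 * m - 5) hf (by simp; omega) K hK))
    (ex_NA hf rfl (by simp) (by omega) (even_two_mul m))
  have h1 := NA_two m
  have h2 := NI_NA (q := 2) (by omega) (2 * m)
  have h3 := Nat.one_le_two_pow (n := 2 * m)
  rw [Nat.sub_add_cancel (by omega), two_mul (2 * m), pow_add] at *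
  have h4 : 2 ^ (2 * m) = 2 * 2 ^ (2 * m - 1) := by rw [← pow_succ', Nat.sub_add_cancel (by omega)]
  rw [show 2 ^ (2 * m - 1) * (2 ^ (2 * m) - 1) = 3 * NA 2 (2 * m) by zify [h3] at *; nlinarith]
  omega

end Cfsg.Agent.S2153
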