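import Cfsg.Statements.S2154
import Cfsg.Agent.Lib.Lie.H12BT
import Cfsg.Agent.Lib.Lie.ChevAll

set_option autoImplicit false
open Cfsg

namespace Cfsg.Agent.S2154

open CA.Chev

/-- The Borel–Tits property of the finite Chevalley groups of types G₂, B₂, D₄, F₄, E₆, E₇, E₈ over a finite field of characteristic p: for every non-trivial p-subgroup U of the group G there are an element g of G and a proper set J of fundamental roots such that the normaliser of U in G lies in the conjugate by g of the standard parabolic subgroup P_J and U lies in the conjugate by g of its unipotent radical U_J. -/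
theorem result {F : Type*} [Field F] [Fintype F] (p : ℕ) [Fact p.Prime] [CharP F p] (D : Cfsg.Lie.ChevalleyDatum) (hD : D ∈ [Cfsg.Lie.chevG2, Cfsg.Lie.chevB2, Cfsg.Lie.chevD4, Cfsg.Lie.chevF4, Cfsg.Lie.chevE6, Cfsg.Lie.chevE7, Cfsg.Lie.chevE8]) (U : Subgroup (GL D.Idx F)) (hUG : U ≤ D.group F) (hU : IsPGroup p ↥U) (hne : U ≠ ⊥) : ∃ g ∈ D.group F, ∃ J : Set ℕ, (∃ i, i < D.rank ∧ i ∉ J) ∧ Subgroup.normalizer (U : Set (GL D.Idx F)) ⊓ D.group F ≤ (D.parabolicSubgroup F J).map (MulAut.conj g).toMonoidHom ∧ U ≤ (D.unipotentRadical F J).map (MulAut.conj g).toMonoidHom := by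
  have := good_of_mem hD
  obtain ⟨g, J, hJ, h1, h2⟩ := CA.H12BT.borel_tits_p (adjG D F) adjG_G Twist.adjG_R3
    (X := U.subgroupOf (D.group F)) (hU.of_equiv (Subgroup.subgroupOfEquivOfLe hUG).symm)
    (fun e => hne (by rw [Subgroup.subgroupOf_eq_bot] at e; exact e.eq_bot_of_le hUG))
  obtain ⟨i, hi⟩ := (Set.ne_univ_iff_exists_notMem J).1 hJ
  have e : {i : Nd D | i.val ∈ Fin.val '' J} = J := Set.preimage_image_eq J Fin.val_injective
  refine ⟨g⁻¹, inv_mem g.2, Fin.val '' J, ⟨i, i.2, fun h => hi (e.le h)⟩, fun y hy => ?_, fun y hy => ?_⟩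
  · refine ⟨g * y * g⁻¹, ?_, by simp [mul_assoc]⟩
    have := h2 ⟨y, hy.2⟩ (Subgroup.mem_normalizer_iff.2 fun x => Subgroup.mem_normalizer_iff.1 hy.1 x)
    rw [CA.H12Chev.adjG_PJ] at this
    rw [parabolicSubgroup_eq, e]
    exact this
  · refine ⟨g * y * g⁻¹, ?_, by simp [mul_assoc]⟩
    have := h1 ⟨y, hUG hy⟩ hy
    rw [unipotentRadical_eq, e]
    exact ((adj D F).res_X _ xG_mem_group _).le this

end Cfsg.Agent.S2154
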