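import Cfsg.Statements.S2155
import Cfsg.Agent.Lib.Lie.H12BT
import Cfsg.Agent.Lib.Lie.ChevAll
import Cfsg.Agent.Lib.Grp.Fstar

set_option autoImplicit false
open Cfsg

namespace Cfsg.Agent.S2155

open CA.Chev

/-- In a Chevalley group of type G₂, B₂, D₄, F₄, E₆, E₇ or E₈ over a finite field of characteristic p (for types G₂ and B₂ the field is assumed to have at least 3 elements, so that the group is simple), the generalized Fitting subgroup of every proper standard parabolic subgroup P_J is a p-group (P_J is p-constrained with trivial largest normal subgroup of order prime to p). -/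
theorem result {F : Type*} [Field F] [Fintype F] (p : ℕ) [Fact p.Prime] [CharP F p] (D : Cfsg.Lie.ChevalleyDatum) (hD : D ∈ [Cfsg.Lie.chevG2, Cfsg.Lie.chevB2, Cfsg.Lie.chevD4, Cfsg.Lie.chevF4, Cfsg.Lie.chevE6, Cfsg.Lie.chevE7, Cfsg.Lie.chevE8]) (hq : (D = Cfsg.Lie.chevG2 ∨ D = Cfsg.Lie.chevB2) → 3 ≤ Fintype.card F) (J : Set ℕ) (hJ : ∃ i, i < D.rank ∧ i ∉ J) : IsPGroup p ↥(Cfsg.generalizedFittingSubgroup ↥(D.parabolicSubgroup F J)) := by
  have := good_of_mem hD
  obtain ⟨i, hi, hi'⟩ := hJ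
  rw [parabolicSubgroup_eq]
  generalize hJ' : {i : Nd D | i.val ∈ J} = J'
  have hJ : J' ≠ Set.univ := fun e => hi' ((hJ'.trans e).ge (Set.mem_univ (⟨i, hi⟩ : Nd D)))
  let A := adj D F
  have hn : ((A.UJ J').subgroupOf (A.PJ J')).Normal := Subgroup.normal_subgroupOf_of_le_normalizer (A.PJ_le_normalizer J')
  have hU : IsPGroup p A.U := CA.H12Chev.isP_X A p nil_pos
  have hc : IsPGroup p (Subgroup.centralizer (((A.UJ J').subgroupOf (A.PJ J') : Subgroup (A.PJ J')) : Set (A.PJ J'))) := by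
    refine (hU.comap_of_injective (A.PJ J').subtype (Subgroup.subtype_injective _)).to_le fun g hg => ?_
    obtain ⟨u, hu, k, -, hk, e⟩ := CA.H12BT.cent_UJ A hJ (A.PJ_le_G _ g.2) fun y hy => by
      have := congrArg Subtype.val (hg ⟨y, A.UJ_sup_LJ J' ▸ Subgroup.mem_sup_left hy⟩ hy)
      simp only [Subgroup.coe_mul] at this
      rw [← this, mul_inv_cancel_right]
    change (g : GL D.Idx F) ∈ A.U
    rwa [e, show k = 1 from hk, mul_one]
  exact CA.Fstar.isPGroup_fstar_iff.2 (CA.Fstar.fstar_eq_pCore_of_centralizer (Q := (A.UJ J').subgroupOf (A.PJ J'))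
    ((CA.H12Chev.isP_X A p (Sys.nil_UJ' J')).comap_of_injective _ (Subgroup.subtype_injective _))
    (CA.Fstar.fstar_eq_pCore_of_isPGroup (hc.to_subgroup _)))

end Cfsg.Agent.S2155
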