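import Cfsg.Statements.S2157
import Cfsg.Agent.Lib.Lie.ChevAll
import Cfsg.Agent.Lib.Lie.ChevAdj

set_option autoImplicit false
open Cfsg

namespace Cfsg.Agent.S2157

open CA.Chev Cfsg.Lie Cfsg.Lie.ChevalleyDatum

theorem exists_ch {F : Type*} [Field F] {D : Lie.ChevalleyDatum} [Good D] {χ : ℕ → Fˣ} (hχ : D.IsRootCharacter χ) :
    ∃ ψ : Ch D F, (∀ r : Rt D, ψ (rt r) = χ r) ∧ D.charDiag F χ = dg ψ := by
  let ψ : Ch D F := ∏ i : Nd D, zp (χ (D.simple i)) (LinearMap.proj i)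
  have hs : ∀ i : Nd D, ψ (rt (sim i)) = χ (D.simple i) := by
    intro i
    simp only [ψ, AddChar.prod_apply, zp_apply, rt_sim, LinearMap.coe_proj, Function.eval]
    rw [Finset.prod_eq_single i]
    · simp
    · intro j _ hj; simp [Pi.single_eq_of_ne hj]
    · simp
  have key : ∀ s < D.nroots, ∀ h : s < D.nroots, ψ (rt ⟨s, h⟩) = χ s := by
    refine (pre D).gen (fun s => ∀ h : s < D.nroots, ψ (rt ⟨s, h⟩) = χ s) ?_ ?_ ?_
    · intro i hi _; exact hs ⟨i, hi⟩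
    · intro i hi h
      have e : (⟨D.neg (D.simple i), h⟩ : Rt D) = ng (sim ⟨i, hi⟩) := rfl
      rw [e, rt_ng, AddChar.map_neg_eq_inv, hs, hχ.1 _ ((pre D).simple_lt i hi)]
      simp
    · intro r hr s hs k _ hk h1 h2 h
      obtain ⟨k', e1, e2, -⟩ := chainRoot_spec (r := ⟨r, hr⟩) (s := ⟨s, hs⟩) le_rfl hk
      have e : (⟨k, h⟩ : Rt D) = k' := Fin.ext e1.symm
      rw [e, e2, AddChar.map_add_eq_mul, hχ.2 r s k hr hs hk]
      simp [h1 hr, h2 hs]
  refine ⟨ψ, fun r => key r r.2 r.2, ?_⟩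
  change Matrix.diagonal _ = Matrix.diagonal _
  congr 1
  funext a
  rcases a with i | r
  · simp
  · simpa using (key r r.2 r.2).symm

/-- In a Chevalley group of type G₂, B₂, D₄, F₄, E₆, E₇ or E₈, for every character `χ` of the root lattice with values in `Fˣ` the diagonal matrix `ĥ(χ)` (identity on the coroot coordinates, `χ(s)` on the coordinate of `e_s`) conjugates each root element `x_r(t)` to `x_r(χ(r) t)`: `ĥ(χ) x_r(t) ĥ(χ)⁻¹ = x_r(χ(r) t)` as matrices, with `ĥ(χ)⁻¹` written as `ĥ(χ⁻¹)`. -/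
theorem result {F : Type*} [Field F] (D : Cfsg.Lie.ChevalleyDatum) (hD : D ∈ [Cfsg.Lie.chevG2, Cfsg.Lie.chevB2, Cfsg.Lie.chevD4, Cfsg.Lie.chevF4, Cfsg.Lie.chevE6, Cfsg.Lie.chevE7, Cfsg.Lie.chevE8]) (χ : ℕ → Fˣ) (hχ : D.IsRootCharacter χ) (r : ℕ) (hr : r < D.nroots) (t : F) :
    D.charDiag F χ * D.x F r t * D.charDiag F (fun s => (χ s)⁻¹) = D.x F r ((χ r : F) * t) := by
  have := good_of_mem hD
  obtain ⟨ψ, h1, h2⟩ := exists_ch hχ
  have e : D.charDiag F (fun s => (χ s)⁻¹) = dg ψ⁻¹ := by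
    change Matrix.diagonal _ = Matrix.diagonal _
    congr 1
    funext a
    rcases a with i | r
    · simp
    · simp [AddChar.map_neg_eq_inv, h1]
  have e1 := x_eq (D := D) (F := F) ⟨r, hr⟩ t
  have e2 := x_eq (D := D) (F := F) ⟨r, hr⟩ ((χ r : F) * t)
  simp only at e1 e2
  rw [h2, e, e1, e2, dg_xR, h1, mul_assoc, ← dg_mul, mul_inv_cancel, dg_one, mul_one]

end Cfsg.Agent.S2157
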