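import Cfsg.Statements.S2158
import Cfsg.Agent.S2157
import Cfsg.Agent.Lib.Lie.ChevAdj

set_option autoImplicit false
open Cfsg

namespace Cfsg.Agent.S2158

open CA.Chev

/-- In a Chevalley group of type G₂, B₂, D₄, F₄, E₆, E₇ or E₈ over any field, an element of the group whose matrix is the diagonal matrix `ĥ(χ)` of a character `χ` of the root lattice already lies in the diagonal subgroup H (the non-trivial inclusion of the statement that the group meets the group of all such diagonal matrices in H). -/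
theorem result {F : Type*} [Field F] (D : Cfsg.Lie.ChevalleyDatum) (hD : D ∈ [Cfsg.Lie.chevG2, Cfsg.Lie.chevB2, Cfsg.Lie.chevD4, Cfsg.Lie.chevF4, Cfsg.Lie.chevE6, Cfsg.Lie.chevE7, Cfsg.Lie.chevE8]) (χ : ℕ → Fˣ) (hχ : D.IsRootCharacter χ) (g : GL D.Idx F) (hg : g ∈ D.group F)
    (hgχ : (g : Matrix D.Idx D.Idx F) = D.charDiag F χ) : g ∈ D.diagonalSubgroup F := by
  have := good_of_mem hD
  obtain ⟨ψ, h1, h2⟩ := Cfsg.Agent.S2157.exists_ch hχ
  have e : g = dgG ψ := Units.ext (by rw [hgχ, h2, dgG_val])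
  rw [group_eq] at hg
  rw [diagonalSubgroup_eq]
  let A := adj D F
  have hc : ∀ (S : Set (Rt D)), ∀ y ∈ A.X S, g * y * g⁻¹ ∈ A.X S := fun S y hy =>
    A.conj_mem_of (fun s hs u => by rw [e, adj_x, dgG_conj]; exact A.x_mem hs _) hy
  have hb : g ∈ A.B := A.mem_B_of_conj hg (hc _)
  obtain ⟨u, hu, h, hh, rfl⟩ := A.mem_B.1 hb
  obtain ⟨χ', h3⟩ := A.θ_H hh
  have h4 : u = 1 := by
    refine A.eq_one_of_θ_eq_dg nil_pos hu (χ := ψ * χ'⁻¹) ?_
    rw [map_mul, map_inv, ← e, ← h3]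
    simp [A]
  rw [h4, one_mul]; exact hh

end Cfsg.Agent.S2158
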