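import Cfsg.Statements.S2159
import Cfsg.Agent.Lib.Lie.H23Aut5

set_option autoImplicit false
open Cfsg

namespace Cfsg.Agent.S2159

open CA.Chev

/-- Structure of the outer automorphism group of the Chevalley group `G` of type G₂, B₂, D₄, F₄, E₆, E₇ or E₈ over a finite field. Let `D̄` be the image in `Out(G)` of the subgroup generated by the diagonal automorphisms and `F̄` the image of the subgroup generated by the field automorphisms. Then `D̄` is a normal abelian subgroup of `Out(G)`, `F̄` is cyclic, `D̄F̄` is a normal subgroup, and the quotient of `Out(G)` by `D̄F̄` is trivial, of order 2, or non-abelian of order 6 (so isomorphic to the symmetric group on three letters): its index is 1 or 2, or it is 6 with the commutator subgroup of `Out(G)` not inside `D̄F̄`. -/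
theorem result {F : Type*} [Field F] [Finite F] (D : Cfsg.Lie.ChevalleyDatum) (hD : D ∈ [Cfsg.Lie.chevG2, Cfsg.Lie.chevB2, Cfsg.Lie.chevD4, Cfsg.Lie.chevF4, Cfsg.Lie.chevE6, Cfsg.Lie.chevE7, Cfsg.Lie.chevE8])
    (Dbar Fbar : Subgroup (Cfsg.Out ↥(D.group F)))
    (hDbar : Dbar = (Subgroup.closure {φ : MulAut ↥(D.group F) | D.IsDiagonalAut φ}).map (QuotientGroup.mk' (Cfsg.Inn ↥(D.group F))))
    (hFbar : Fbar = (Subgroup.closure {φ : MulAut ↥(D.group F) | D.IsFieldAut φ}).map (QuotientGroup.mk' (Cfsg.Inn ↥(D.group F)))) :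
    Dbar.Normal ∧ IsMulCommutative ↥Dbar ∧ IsCyclic ↥Fbar ∧ (Dbar ⊔ Fbar).Normal ∧
      ((Dbar ⊔ Fbar).index = 1 ∨ (Dbar ⊔ Fbar).index = 2 ∨
        ((Dbar ⊔ Fbar).index = 6 ∧ ¬ commutator (Cfsg.Out ↥(D.group F)) ≤ Dbar ⊔ Fbar)) := by
  haveI := good_of_mem hD
  obtain ⟨L, h, hL⟩ := typ_of_mem (K := F) hD
  have e1 : {φ : MulAut ↥(D.group F) | D.IsDiagonalAut φ} = Dg D F := Set.ext fun _ => isDiag_iff
  have e2 : {φ : MulAut ↥(D.group F) | D.IsFieldAut φ} = Fd D F := Set.ext fun _ => isField_iff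
  rw [e1, Subgroup.closure_eq] at hDbar
  rw [e2, Subgroup.closure_eq] at hFbar
  obtain ⟨P, h1, h2, h3⟩ := exists_outHom (D := D) (K := F)
  rw [← hDbar, ← hFbar] at h3
  have h4 : (Dbar ⊔ Fbar).index = L.length := by rw [← h3, Subgroup.index_ker, h2, h.card]
  refine ⟨⟨?_⟩, ⟨⟨?_⟩⟩, ?_, h3 ▸ inferInstance, ?_⟩
  · subst hDbar
    rintro _ ⟨d, hd, rfl⟩ z
    obtain ⟨θ, hθ, rfl⟩ := (mod0 D F).mk_surj z
    exact ⟨_, conj_mem_Dg hθ hd, rfl⟩
  · subst hDbar
    rintro ⟨_, a, ha, rfl⟩ ⟨_, b, hb, rfl⟩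
    exact Subtype.ext (by simp only [Subgroup.coe_mul, ← map_mul, Dg_comm ha hb])
  · obtain ⟨φ, hφ⟩ := exists_fdHom (D := D) (K := F)
    rw [hFbar, ← hφ, MonoidHom.map_range]
    exact isCyclic_of_surjective _ (MonoidHom.rangeRestrict_surjective _)
  · rw [h4]
    refine hL.imp_right (Or.imp_right (And.imp_right fun ⟨a, b, hab⟩ hc => hab ?_))
    have := hc (Subgroup.commutator_mem_commutator (Subgroup.mem_top (QuotientGroup.mk a.1))
      (Subgroup.mem_top (QuotientGroup.mk b.1)))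
    rw [← h3, MonoidHom.mem_ker, map_commutatorElement, h1, h1] at this
    exact commutatorElement_eq_one_iff_commute.1 this

end Cfsg.Agent.S2159
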