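import Cfsg.Statements.S2298
import Cfsg.Agent.Lib.Lin.GL2Char

set_option autoImplicit false
open Cfsg

namespace Cfsg.Agent.S2298

/-- Over a finite field F with q elements, every irreducible complex character of GL₂ has degree 1, q − 1, q or q + 1; and when q ≥ 3 (so that these four numbers are distinct) there are exactly q − 1 irreducible characters of degree 1, exactly q − 1 of degree q, exactly (q − 1)(q − 2)/2 of degree q + 1 and exactly q(q − 1)/2 of degree q − 1. -/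
theorem result {F : Type*} [Field F] [Fintype F] :
    (∀ χ : Matrix.GeneralLinearGroup (Fin 2) F → ℂ, Cfsg.IsIrrCharacter (Matrix.GeneralLinearGroup (Fin 2) F) χ →
      χ 1 = 1 ∨ χ 1 = (Fintype.card F : ℂ) - 1 ∨ χ 1 = (Fintype.card F : ℂ) ∨ χ 1 = (Fintype.card F : ℂ) + 1) ∧
    (3 ≤ Fintype.card F →
      Nat.card {χ : Cfsg.IrrCharacter (Matrix.GeneralLinearGroup (Fin 2) F) // (χ : Matrix.GeneralLinearGroup (Fin 2) F → ℂ) 1 = 1} = Fintype.card F - 1 ∧
      Nat.card {χ : Cfsg.IrrCharacter (Matrix.GeneralLinearGroup (Fin 2) F) // (χ : Matrix.GeneralLinearGroup (Fin 2) F → ℂ) 1 = (Fintype.card F : ℂ)} = Fintype.card F - 1 ∧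
      Nat.card {χ : Cfsg.IrrCharacter (Matrix.GeneralLinearGroup (Fin 2) F) // (χ : Matrix.GeneralLinearGroup (Fin 2) F → ℂ) 1 = (Fintype.card F : ℂ) + 1} = (Fintype.card F - 1) * (Fintype.card F - 2) / 2 ∧
      Nat.card {χ : Cfsg.IrrCharacter (Matrix.GeneralLinearGroup (Fin 2) F) // (χ : Matrix.GeneralLinearGroup (Fin 2) F → ℂ) 1 = (Fintype.card F : ℂ) - 1} = Fintype.card F * (Fintype.card F - 1) / 2) := by
  classical
  open CA.GL2Char CA.Ch2Gen in
  obtain ⟨g0, hg0⟩ := exists_aniso_GL F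
  have hall : ∀ χ : Matrix.GeneralLinearGroup (Fin 2) F → ℂ,
      Cfsg.IsIrrCharacter (Matrix.GeneralLinearGroup (Fin 2) F) χ →
      χ 1 = 1 ∨ χ 1 = (Fintype.card F : ℂ) - 1 ∨ χ 1 = (Fintype.card F : ℂ) ∨
        χ 1 = (Fintype.card F : ℂ) + 1 := by
    intro χ hχ
    rcases irr_cases hg0 hχ with ⟨α, rfl⟩ | ⟨α, rfl⟩ | ⟨α, β, hne, rfl⟩ | ⟨θ, hne, rfl⟩
    · simp [lin1_one]
    · simp [St_one]
    · simp [ps_one]
    · simp [cu_one hg0]
  refine ⟨hall, fun h3 => ?_⟩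
  have d1 : (1 : ℂ) ≠ Fintype.card F - 1 := fun h => by
    have : (1 : ℤ) = Fintype.card F - 1 := by exact_mod_cast h
    omega
  have d2 : (1 : ℂ) ≠ Fintype.card F := fun h => by
    have : (1 : ℤ) = Fintype.card F := by exact_mod_cast h
    omega
  have d3 : (1 : ℂ) ≠ Fintype.card F + 1 := fun h => by
    have : (1 : ℤ) = Fintype.card F + 1 := by exact_mod_cast h
    omega
  have d4 : (Fintype.card F - 1 : ℂ) ≠ Fintype.card F := fun h => by
    have : (Fintype.card F - 1 : ℤ) = Fintype.card F := by exact_mod_cast h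
    omega
  have d5 : (Fintype.card F - 1 : ℂ) ≠ Fintype.card F + 1 := fun h => by
    have : (Fintype.card F - 1 : ℤ) = Fintype.card F + 1 := by exact_mod_cast h
    omega
  have d6 : (Fintype.card F : ℂ) ≠ Fintype.card F + 1 := fun h => by
    have : (Fintype.card F : ℤ) = Fintype.card F + 1 := by exact_mod_cast h
    omega
  have n1 := card_irr_of_bij (fun χ => χ 1 = 1) (lin1 (F := F)) (fun _ _ => lin1_inj) (by
    intro χ
    refine ⟨fun ⟨hχ, h⟩ => ?_, by rintro ⟨α, rfl⟩; exact ⟨irr_lin1 α, lin1_one α⟩⟩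
    rcases irr_cases hg0 hχ with ⟨α, rfl⟩ | ⟨α, rfl⟩ | ⟨α, β, hne, rfl⟩ | ⟨θ, hne, rfl⟩
    · exact ⟨α, rfl⟩
    · exact absurd ((St_one α).symm.trans h).symm d2
    · exact absurd ((ps_one α β).symm.trans h).symm d3
    · exact absurd ((cu_one hg0 θ).symm.trans h).symm d1)
  have n2 := card_irr_of_bij (fun χ => χ 1 = Fintype.card F) (St (F := F)) (fun _ _ => St_inj) (by
    intro χ
    refine ⟨fun ⟨hχ, h⟩ => ?_, by rintro ⟨α, rfl⟩; exact ⟨irr_St α, St_one α⟩⟩
    rcases irr_cases hg0 hχ with ⟨α, rfl⟩ | ⟨α, rfl⟩ | ⟨α, β, hne, rfl⟩ | ⟨θ, hne, rfl⟩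
    · exact absurd ((lin1_one α).symm.trans h) d2
    · exact ⟨α, rfl⟩
    · exact absurd ((ps_one α β).symm.trans h).symm d6
    · exact absurd ((cu_one hg0 θ).symm.trans h) d4)
  have n3 := two_mul_card_irr (fun χ => χ 1 = Fintype.card F + 1)
    (fun x : {p : MulChar F ℂ × MulChar F ℂ // p.1 ≠ p.2} => ps x.1.1 x.1.2)
    (fun x => ⟨(x.1.2, x.1.1), x.2.symm⟩)
    (fun x e => x.2 (congrArg (fun z => z.1.2) e)) (by
      rintro ⟨⟨a, b⟩, h⟩ ⟨⟨c, d⟩, h'⟩
      simp only [ps_eq_iff, Subtype.mk.injEq, Prod.mk.injEq]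
      tauto) (by
    intro χ
    refine ⟨fun ⟨hχ, h⟩ => ?_, by rintro ⟨x, rfl⟩; exact ⟨irr_ps x.2, ps_one _ _⟩⟩
    rcases irr_cases hg0 hχ with ⟨α, rfl⟩ | ⟨α, rfl⟩ | ⟨α, β, hne, rfl⟩ | ⟨θ, hne, rfl⟩
    · exact absurd ((lin1_one α).symm.trans h) d3
    · exact absurd ((St_one α).symm.trans h) d6
    · exact ⟨⟨(α, β), hne⟩, rfl⟩
    · exact absurd ((cu_one hg0 θ).symm.trans h) d5)
  have n4 := card_eq_sum_fibers
    (fun χ : Cfsg.IrrCharacter (Matrix.GeneralLinearGroup (Fin 2) F) => χ.1 1)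
    [1, (Fintype.card F : ℂ) - 1, Fintype.card F, Fintype.card F + 1]
    (by simp [d1, d2, d3, d4, d5, d6]) (fun χ => by simpa using hall χ.1 χ.2)
  have n5 : Nat.card {p : MulChar F ℂ × MulChar F ℂ // p.1 ≠ p.2} =
      (Fintype.card F - 1) * (Fintype.card F - 2) := by
    have := Fintype.ofFinite (MulChar F ℂ)
    have h := card_mulChar (F := F)
    rw [Nat.card_eq_fintype_card] at h
    rw [Nat.card_eq_fintype_card, Fintype.card_subtype]
    have : (Finset.univ.filter fun p : MulChar F ℂ × MulChar F ℂ => p.1 ≠ p.2) =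
        Finset.univ.offDiag := by
      ext p; simp
    rw [this, Finset.offDiag_card, Finset.card_univ, h, ← Nat.mul_sub_one]
    rfl
  rw [CChar.CharOrth.card_irr, CA.SL2Reps.card_conjClasses_GL2, Nat.card_eq_fintype_card] at n4
  simp only [List.map_cons, List.sum_cons, List.map_nil, List.sum_nil] at n4
  rw [card_mulChar] at n1 n2
  rw [n5] at n3
  rw [n1, n2] at n4
  refine ⟨n1, n2, by omega, ?_⟩
  obtain ⟨m, hm⟩ : ∃ m, Fintype.card F = m + 2 := ⟨Fintype.card F - 2, by omega⟩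
  have e1 : Fintype.card F ^ 2 - 1 = m * m + 4 * m + 3 := by
    rw [hm]; apply Nat.sub_eq_of_eq_add; ring
  have e2 : (Fintype.card F - 1) * (Fintype.card F - 2) = m * m + m := by
    rw [hm]; simp; ring
  have e3 : Fintype.card F * (Fintype.card F - 1) = m * m + 3 * m + 2 := by
    rw [hm]; simp; ring
  rw [e3]
  rw [e1] at n4
  rw [e2] at n3
  omega

end Cfsg.Agent.S2298
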