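import Cfsg.Statements.S2299
import Cfsg.Agent.Lib.Lin.SL2Char

set_option autoImplicit false
open Cfsg

namespace Cfsg.Agent.S2299

/-- Over a finite field F with q elements, q odd, every irreducible complex character of SL₂ has degree 1, q, q + 1, q − 1, (q + 1)/2 or (q − 1)/2; and when q ≥ 5 (so that these six numbers are distinct) there are exactly one irreducible character of degree 1, one of degree q, (q − 3)/2 of degree q + 1, (q − 1)/2 of degree q − 1, two of degree (q + 1)/2 and two of degree (q − 1)/2. -/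
theorem result {F : Type*} [Field F] [Fintype F] (hodd : Odd (Fintype.card F)) :
    (∀ χ : Matrix.SpecialLinearGroup (Fin 2) F → ℂ, Cfsg.IsIrrCharacter (Matrix.SpecialLinearGroup (Fin 2) F) χ →
      χ 1 = 1 ∨ χ 1 = (Fintype.card F : ℂ) ∨ χ 1 = (Fintype.card F : ℂ) + 1 ∨ χ 1 = (Fintype.card F : ℂ) - 1 ∨
        χ 1 = (((Fintype.card F + 1) / 2 : ℕ) : ℂ) ∨ χ 1 = (((Fintype.card F - 1) / 2 : ℕ) : ℂ)) ∧
    (5 ≤ Fintype.card F →
      Nat.card {χ : Cfsg.IrrCharacter (Matrix.SpecialLinearGroup (Fin 2) F) // (χ : Matrix.SpecialLinearGroup (Fin 2) F → ℂ) 1 = 1} = 1 ∧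
      Nat.card {χ : Cfsg.IrrCharacter (Matrix.SpecialLinearGroup (Fin 2) F) // (χ : Matrix.SpecialLinearGroup (Fin 2) F → ℂ) 1 = (Fintype.card F : ℂ)} = 1 ∧
      Nat.card {χ : Cfsg.IrrCharacter (Matrix.SpecialLinearGroup (Fin 2) F) // (χ : Matrix.SpecialLinearGroup (Fin 2) F → ℂ) 1 = (Fintype.card F : ℂ) + 1} = (Fintype.card F - 3) / 2 ∧
      Nat.card {χ : Cfsg.IrrCharacter (Matrix.SpecialLinearGroup (Fin 2) F) // (χ : Matrix.SpecialLinearGroup (Fin 2) F → ℂ) 1 = (Fintype.card F : ℂ) - 1} = (Fintype.card F - 1) / 2 ∧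
      Nat.card {χ : Cfsg.IrrCharacter (Matrix.SpecialLinearGroup (Fin 2) F) // (χ : Matrix.SpecialLinearGroup (Fin 2) F → ℂ) 1 = (((Fintype.card F + 1) / 2 : ℕ) : ℂ)} = 2 ∧
      Nat.card {χ : Cfsg.IrrCharacter (Matrix.SpecialLinearGroup (Fin 2) F) // (χ : Matrix.SpecialLinearGroup (Fin 2) F → ℂ) 1 = (((Fintype.card F - 1) / 2 : ℕ) : ℂ)} = 2) := by
  classical
  open CA.SL2Char CA.Ch2Gen in
  obtain ⟨g0, hg0⟩ := CA.SL2Torus.exists_aniso_SL F
  have h2 : (2 : F) ≠ 0 := CA.SL2Basic.two_ne_zero_of_odd (by rwa [Nat.card_eq_fintype_card])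
  obtain ⟨e, he⟩ := exists_nonsq h2
  have hall : ∀ χ : Matrix.SpecialLinearGroup (Fin 2) F → ℂ,
      Cfsg.IsIrrCharacter (Matrix.SpecialLinearGroup (Fin 2) F) χ →
      χ 1 = 1 ∨ χ 1 = (Fintype.card F : ℂ) ∨ χ 1 = (Fintype.card F : ℂ) + 1 ∨
        χ 1 = (Fintype.card F : ℂ) - 1 ∨ χ 1 = (((Fintype.card F + 1) / 2 : ℕ) : ℂ) ∨
        χ 1 = (((Fintype.card F - 1) / 2 : ℕ) : ℂ) := by
    intro χ hχ
    rcases irr_cases_odd hg0 h2 he hχ with rfl | rfl | ⟨α, -, rfl⟩ | ⟨θ, -, rfl⟩ |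
      ⟨α, ψ, -, -, H⟩ | ⟨θ, ψ, -, -, H⟩
    · simp
    · simp [St_one]
    · simp [ps_one]
    · simp [cu_one hg0]
    · simp only [half_ps_one h2 H, true_or, or_true]
    · simp only [half_cu_one hg0 h2 H, or_true]
  refine ⟨hall, fun h5 => ?_⟩
  have ho := Nat.odd_iff.1 hodd
  have n1 := card_one (F := F) (by omega)
  have n2 := card_St (F := F)
  have n3 := two_mul_card_ps (F := F)
  have n5 := card_hp hodd h5
  have n6 := card_hc hodd h5
  obtain ⟨α, hα, hα1⟩ := exists_mulChar_odd h2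
  rw [card_sq_ne_one hα hα1 (fun b b1 b2 => mulChar_sq_one_eq b1 hα b2 hα1), card_mulChar] at n3
  have n4 := card_eq_sum_fibers
    (fun χ : Cfsg.IrrCharacter (Matrix.SpecialLinearGroup (Fin 2) F) => χ.1 1)
    [1, (Fintype.card F : ℂ), Fintype.card F + 1, Fintype.card F - 1,
      (((Fintype.card F + 1) / 2 : ℕ) : ℂ), (((Fintype.card F - 1) / 2 : ℕ) : ℂ)]
    (by
      have : [(1 : ℂ), (Fintype.card F : ℂ), Fintype.card F + 1, Fintype.card F - 1,
        (((Fintype.card F + 1) / 2 : ℕ) : ℂ), (((Fintype.card F - 1) / 2 : ℕ) : ℂ)] =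
        List.map (Nat.cast : ℕ → ℂ) [1, Fintype.card F, Fintype.card F + 1, Fintype.card F - 1,
          (Fintype.card F + 1) / 2, (Fintype.card F - 1) / 2] := by
        simp only [List.map_cons, List.map_nil, cast_pred, Nat.cast_one, Nat.cast_add]
      rw [this]
      refine List.Nodup.map Nat.cast_injective ?_
      simp only [List.nodup_cons, List.mem_cons, List.not_mem_nil, List.nodup_nil, or_false,
        not_false_eq_true, and_true]
      omega)
    (fun χ => by simpa only [List.mem_cons, List.not_mem_nil, or_false] using hall χ.1 χ.2)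
  rw [CChar.CharOrth.card_irr, CA.SL2Reps.card_conjClasses_SL2_odd h2,
    Nat.card_eq_fintype_card] at n4
  simp only [List.map_cons, List.sum_cons, List.map_nil, List.sum_nil] at n4
  rw [n1, n2, n5, n6] at n4
  exact ⟨n1, n2, by omega, by omega, n5, n6⟩

end Cfsg.Agent.S2299
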