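import Cfsg.Statements.S2300
import Cfsg.Agent.Lib.Lin.SL2Char

set_option autoImplicit false
open Cfsg

namespace Cfsg.Agent.S2300

/-- Over a finite field F with q elements, q even, every irreducible complex character of SL₂ has degree 1, q − 1, q or q + 1; and when q ≥ 4 (so that these four numbers are distinct) there are exactly one irreducible character of degree 1, one of degree q, (q − 2)/2 of degree q + 1 and q/2 of degree q − 1. -/
theorem result {F : Type*} [Field F] [Fintype F] [CharP F 2] :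
    (∀ χ : Matrix.SpecialLinearGroup (Fin 2) F → ℂ, Cfsg.IsIrrCharacter (Matrix.SpecialLinearGroup (Fin 2) F) χ →
      χ 1 = 1 ∨ χ 1 = (Fintype.card F : ℂ) - 1 ∨ χ 1 = (Fintype.card F : ℂ) ∨ χ 1 = (Fintype.card F : ℂ) + 1) ∧
    (4 ≤ Fintype.card F →
      Nat.card {χ : Cfsg.IrrCharacter (Matrix.SpecialLinearGroup (Fin 2) F) // (χ : Matrix.SpecialLinearGroup (Fin 2) F → ℂ) 1 = 1} = 1 ∧
      Nat.card {χ : Cfsg.IrrCharacter (Matrix.SpecialLinearGroup (Fin 2) F) // (χ : Matrix.SpecialLinearGroup (Fin 2) F → ℂ) 1 = (Fintype.card F : ℂ)} = 1 ∧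
      Nat.card {χ : Cfsg.IrrCharacter (Matrix.SpecialLinearGroup (Fin 2) F) // (χ : Matrix.SpecialLinearGroup (Fin 2) F → ℂ) 1 = (Fintype.card F : ℂ) + 1} = (Fintype.card F - 2) / 2 ∧
      Nat.card {χ : Cfsg.IrrCharacter (Matrix.SpecialLinearGroup (Fin 2) F) // (χ : Matrix.SpecialLinearGroup (Fin 2) F → ℂ) 1 = (Fintype.card F : ℂ) - 1} = Fintype.card F / 2) := by
  classical
  open CA.SL2Char CA.Ch2Gen in
  obtain ⟨g0, hg0⟩ := CA.SL2Torus.exists_aniso_SL F
  have h2 : (2 : F) = 0 := by exact_mod_cast CharP.cast_eq_zero F 2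
  have hall : ∀ χ : Matrix.SpecialLinearGroup (Fin 2) F → ℂ,
      Cfsg.IsIrrCharacter (Matrix.SpecialLinearGroup (Fin 2) F) χ →
      χ 1 = 1 ∨ χ 1 = (Fintype.card F : ℂ) - 1 ∨ χ 1 = (Fintype.card F : ℂ) ∨
        χ 1 = (Fintype.card F : ℂ) + 1 := by
    intro χ hχ
    rcases irr_cases_even hg0 h2 hχ with rfl | rfl | ⟨α, -, rfl⟩ | ⟨θ, -, rfl⟩
    · simp
    · simp [St_one]
    · simp [ps_one]
    · simp [cu_one hg0]
  refine ⟨hall, fun h4 => ?_⟩
  have ho := CA.SL2Basic.even_card_of_two_eq_zero h2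
  rw [Nat.card_eq_fintype_card, Nat.even_iff] at ho
  have n1 := card_one (F := F) h4
  have n2 := card_St (F := F)
  have n3 := two_mul_card_ps (F := F)
  have n5 : Nat.card {α : MulChar F ℂ // α ^ 2 ≠ 1} = Fintype.card F - 2 := by
    have := Fintype.ofFinite (MulChar F ℂ)
    have h := card_mulChar (F := F)
    rw [Nat.card_eq_fintype_card] at h ⊢
    rw [Fintype.card_subtype_compl, h, (Fintype.card_eq_one_iff
      (α := {α : MulChar F ℂ // α ^ 2 = 1})).2 ⟨⟨1, one_pow _⟩,
      fun a => Subtype.ext (mulChar_even h2 a.2)⟩]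
    omega
  have n4 := card_eq_sum_fibers
    (fun χ : Cfsg.IrrCharacter (Matrix.SpecialLinearGroup (Fin 2) F) => χ.1 1)
    [1, (Fintype.card F : ℂ) - 1, Fintype.card F, Fintype.card F + 1]
    (by
      have : [(1 : ℂ), (Fintype.card F : ℂ) - 1, Fintype.card F, Fintype.card F + 1] =
        List.map (Nat.cast : ℕ → ℂ) [1, Fintype.card F - 1, Fintype.card F, Fintype.card F + 1] := by
        simp only [List.map_cons, List.map_nil, cast_pred, Nat.cast_one, Nat.cast_add]
      rw [this]
      refine List.Nodup.map Nat.cast_injective ?_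
      simp only [List.nodup_cons, List.mem_cons, List.not_mem_nil, List.nodup_nil, or_false,
        not_false_eq_true, and_true]
      omega)
    (fun χ => by simpa only [List.mem_cons, List.not_mem_nil, or_false] using hall χ.1 χ.2)
  rw [CChar.CharOrth.card_irr, CA.SL2Reps.card_conjClasses_SL2_even h2,
    Nat.card_eq_fintype_card] at n4
  simp only [List.map_cons, List.sum_cons, List.map_nil, List.sum_nil] at n4
  rw [n1, n2] at n4
  exact ⟨n1, n2, by omega, by omega⟩

end Cfsg.Agent.S2300
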