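import Cfsg.Statements.S2301
import Cfsg.Agent.Lib.Lin.SL2Reps

set_option autoImplicit false
open Cfsg

namespace Cfsg.Agent.S2301

/-- Over a finite field with q elements of odd characteristic p, the elements of order p of SL₂ (the non-identity unipotent elements) fall into exactly two conjugacy classes, each of size (q² − 1)/2; two upper unitriangular matrices with non-zero off-diagonal entries b and b′ are conjugate exactly when bb′ is a square. -/
theorem result {F : Type*} [Field F] [Fintype F] (p : ℕ) [Fact p.Prime] [CharP F p] (hp : p ≠ 2) :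
    Nat.card {C : ConjClasses (Matrix.SpecialLinearGroup (Fin 2) F) // ∃ g : Matrix.SpecialLinearGroup (Fin 2) F, orderOf g = p ∧ ConjClasses.mk g = C} = 2 ∧
    (∀ g : Matrix.SpecialLinearGroup (Fin 2) F, orderOf g = p → Nat.card (ConjClasses.mk g).carrier = (Fintype.card F ^ 2 - 1) / 2) ∧
    ∀ g h : Matrix.SpecialLinearGroup (Fin 2) F, (g : Matrix (Fin 2) (Fin 2) F) 0 0 = 1 → (g : Matrix (Fin 2) (Fin 2) F) 1 1 = 1 → (g : Matrix (Fin 2) (Fin 2) F) 1 0 = 0 → (g : Matrix (Fin 2) (Fin 2) F) 0 1 ≠ 0 →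
      (h : Matrix (Fin 2) (Fin 2) F) 0 0 = 1 → (h : Matrix (Fin 2) (Fin 2) F) 1 1 = 1 → (h : Matrix (Fin 2) (Fin 2) F) 1 0 = 0 → (h : Matrix (Fin 2) (Fin 2) F) 0 1 ≠ 0 →
      (IsConj g h ↔ IsSquare ((g : Matrix (Fin 2) (Fin 2) F) 0 1 * (h : Matrix (Fin 2) (Fin 2) F) 0 1)) := by
  open CA.SL2Unip CA.Mat2 CA.SL2Torus CA.SL2Class CA.SL2Reps CA.SL2Basic in
  have h2 : (2 : F) ≠ 0 := two_ne_zero_of_char p hp
  obtain ⟨ε, hε⟩ := CA.CForm.exists_not_isSquare h2
  have hε0 : ε ≠ 0 := by rintro rfl; exact hε IsSquare.zero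
  have key : ∀ g : Matrix.SpecialLinearGroup (Fin 2) F, orderOf g = p → ∃ b, b ≠ 0 ∧ IsConj g (u b) := by
    intro g hg
    have h1 : g ^ p ^ 1 = 1 := by rw [pow_one, ← hg, pow_orderOf_eq_one]
    obtain ⟨x, b, hx⟩ := exists_conj_u (trace_of_pow_char p h1)
    refine ⟨b, ?_, isConj_iff.2 ⟨x, hx⟩⟩
    rintro rfl
    have : g = 1 := by simpa using hx
    rw [this, orderOf_one] at hg
    exact (Fact.out : p.Prime).one_lt.ne hg
  have ho : ∀ b : F, b ≠ 0 → orderOf (u b) = p := fun b hb =>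
    orderOf_of_trace p (trace_u b) (fun h => hb (u_eq_one_iff.1 h))
  refine ⟨?_, fun g hg => ?_, fun g h g0 g1 g2 g3 h0 h1 h2 h3 => ?_⟩
  · rw [Nat.card_eq_two_iff]
    refine ⟨⟨_, u 1, ho 1 one_ne_zero, rfl⟩, ⟨_, u ε, ho ε hε0, rfl⟩, fun h => ?_, ?_⟩
    · have := ConjClasses.mk_eq_mk_iff_isConj.1 (congrArg Subtype.val h)
      rw [isConj_u_iff' one_ne_zero hε0] at this
      exact hε (by simpa using this)
    · rw [Set.eq_univ_iff_forall]
      rintro ⟨_, g, hg, rfl⟩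
      obtain ⟨b, hb, hc⟩ := key g hg
      rcases isConj_u_one_or hε hb with h | h
      · exact Or.inl (Subtype.ext (ConjClasses.mk_eq_mk_iff_isConj.2 (hc.trans h)))
      · exact Or.inr (Subtype.ext (ConjClasses.mk_eq_mk_iff_isConj.2 (hc.trans h)))
  · obtain ⟨b, hb, hc⟩ := key g hg
    have := card_carrier_mul g
    rw [card_C_conj hc, card_C_u_odd h2 hb, CA.SLnCard.card_SL2] at this
    rw [← Nat.card_eq_fintype_card]
    have h3 : Nat.card F * (2 * Nat.card (ConjClasses.mk g).carrier) = Nat.card F * (Nat.card F ^ 2 - 1) := by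
      rw [← this]; ring
    have := Nat.eq_of_mul_eq_mul_left Nat.card_pos h3
    omega
  · have e1 : g = u (g.1 0 1) := sl_ext4 g0 rfl g2 g1
    have e2 : h = u (h.1 0 1) := sl_ext4 h0 rfl h2 h1
    rw [← isConj_u_iff' g3 h3, ← e1, ← e2]

end Cfsg.Agent.S2301
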