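import Cfsg.Statements.S2302
import Cfsg.Agent.Lib.Lin.SL2Unip

set_option autoImplicit false
open Cfsg

namespace Cfsg.Agent.S2302

/-- Over a finite field with q elements of characteristic 2, the involutions of SL₂ (the non-identity unipotent elements) form a single conjugacy class, of size q² − 1. -/
theorem result {F : Type*} [Field F] [Fintype F] [CharP F 2] (g h : Matrix.SpecialLinearGroup (Fin 2) F) (hg : orderOf g = 2) (hh : orderOf h = 2) :
    IsConj g h ∧ Nat.card (ConjClasses.mk g).carrier = Fintype.card F ^ 2 - 1 := by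
  open CA.SL2Unip CA.Mat2 CA.SL2Torus CA.SL2Class in
  have h2 : (2 : F) = 0 := by exact_mod_cast CharP.cast_eq_zero F 2
  have key : ∀ g : Matrix.SpecialLinearGroup (Fin 2) F, orderOf g = 2 → IsConj g (u 1) := by
    intro g hg
    have h1 : g ^ 2 ^ 1 = 1 := by simpa [hg] using pow_orderOf_eq_one g
    obtain ⟨x, b, hx⟩ := exists_conj_u (trace_of_pow_char 2 h1)
    have hb : b ≠ 0 := by
      rintro rfl
      have : g = 1 := by simpa using hx
      simp [this] at hg
    refine (isConj_iff.2 ⟨x, hx⟩).trans ((isConj_u_iff' hb one_ne_zero).2 ?_)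
    obtain ⟨r, hr⟩ := isSquare_of_two_eq_zero h2 (b * 1)
    exact ⟨r, by rw [hr, sq]⟩
  refine ⟨(key g hg).trans (key h hh).symm, ?_⟩
  have := card_carrier_mul g
  rw [card_C_conj (key g hg), C_u_even h2 one_ne_zero, card_U, CA.SLnCard.card_SL2, mul_comm] at this
  rw [← Nat.card_eq_fintype_card]
  exact Nat.eq_of_mul_eq_mul_left Nat.card_pos this

end Cfsg.Agent.S2302
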