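import Cfsg.Statements.S2303
import Cfsg.Agent.Lib.Lin.Mat2

set_option autoImplicit false
open Cfsg

namespace Cfsg.Agent.S2303

/-- Over a finite field with q elements: a diagonal element of GL₂ with two distinct diagonal entries has centralizer of order (q − 1)² (so q(q + 1) conjugates), and an element of GL₂ with no eigenvector in F² has centralizer of order q² − 1 (so q(q − 1) conjugates). -/
theorem result {F : Type*} [Field F] [Fintype F] (g : Matrix.GeneralLinearGroup (Fin 2) F) :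
    ((g : Matrix (Fin 2) (Fin 2) F) 0 1 = 0 → (g : Matrix (Fin 2) (Fin 2) F) 1 0 = 0 → (g : Matrix (Fin 2) (Fin 2) F) 0 0 ≠ (g : Matrix (Fin 2) (Fin 2) F) 1 1 →
      Nat.card (Subgroup.centralizer ({g} : Set (Matrix.GeneralLinearGroup (Fin 2) F))) = (Fintype.card F - 1) ^ 2) ∧
    ((∀ (c : F) (v : Fin 2 → F), v ≠ 0 → (g : Matrix (Fin 2) (Fin 2) F).mulVec v ≠ c • v) →
      Nat.card (Subgroup.centralizer ({g} : Set (Matrix.GeneralLinearGroup (Fin 2) F))) = Fintype.card F ^ 2 - 1) := by
  rw [← Nat.card_eq_fintype_card]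
  refine ⟨fun h1 h2 h3 => ?_, fun h => ?_⟩
  · apply CA.Mat2.Split.card_centralizer_GL
    refine ⟨_, _, h3, Matrix.trace_fin_two _, ?_⟩
    rw [Matrix.det_fin_two, h1]; ring
  · exact CA.Mat2.Aniso.card_centralizer_GL ((CA.Mat2.aniso_iff _).2 h)

end Cfsg.Agent.S2303
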