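import Cfsg.Statements.S2308
import Cfsg.Agent.Lib.Lin.GL2Char

set_option autoImplicit false
open Cfsg

namespace Cfsg.Agent.S2308

/-- Values of the permutation character of GL₂ over a finite field F with q elements on the cosets of its upper triangular subgroup (equivalently, the number of lines of F² that an element maps to themselves): q + 1 at a scalar matrix, 2 at a diagonal matrix with two different diagonal entries, 0 at an element with no eigenvector in F², and 1 at an upper triangular matrix with equal diagonal entries and non-zero upper right entry. -/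
theorem result {F : Type*} [Field F] [Fintype F] (g : Matrix.GeneralLinearGroup (Fin 2) F) :
    ((∃ a : F, (g : Matrix (Fin 2) (Fin 2) F) = a • (1 : Matrix (Fin 2) (Fin 2) F)) → Cfsg.fixedPointCharacter (Cfsg.upperTriangularGL 2 F) g = Fintype.card F + 1) ∧
    ((g : Matrix (Fin 2) (Fin 2) F) 0 1 = 0 → (g : Matrix (Fin 2) (Fin 2) F) 1 0 = 0 → (g : Matrix (Fin 2) (Fin 2) F) 0 0 ≠ (g : Matrix (Fin 2) (Fin 2) F) 1 1 →
      Cfsg.fixedPointCharacter (Cfsg.upperTriangularGL 2 F) g = 2) ∧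
    ((∀ (c : F) (v : Fin 2 → F), v ≠ 0 → (g : Matrix (Fin 2) (Fin 2) F).mulVec v ≠ c • v) → Cfsg.fixedPointCharacter (Cfsg.upperTriangularGL 2 F) g = 0) ∧
    ((g : Matrix (Fin 2) (Fin 2) F) 1 0 = 0 → (g : Matrix (Fin 2) (Fin 2) F) 0 0 = (g : Matrix (Fin 2) (Fin 2) F) 1 1 → (g : Matrix (Fin 2) (Fin 2) F) 0 1 ≠ 0 →
      Cfsg.fixedPointCharacter (Cfsg.upperTriangularGL 2 F) g = 1) := by
  classical
  have e : Cfsg.fixedPointCharacter (Cfsg.upperTriangularGL 2 F) g = CA.GL2Char.ps 1 1 g := by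
    rw [Cfsg.fixedPointCharacter, ← CA.Ind.indFun_one_eq_card_fixedBy, CA.GL2Char.ps]
    congr 1
    funext b
    obtain ⟨a, c, d, h⟩ := CA.GL2Char.exists_tri (CA.SL2Unip.mem_BG.1 b.2)
    simp [h]
  rw [e]
  refine ⟨?_, fun h1 h2 h3 => ?_, fun h => ?_, fun h1 h2 h3 => ?_⟩
  · rintro ⟨a, ha⟩
    obtain ⟨c, rfl⟩ := CA.SL2Reps.exists_scalar ((CA.Mat2.not_NS_iff _).2 ⟨a, ha⟩)
    rw [← CA.GL2Char.tri_scalar, CA.GL2Char.ps_scalar]
    simp
  · obtain ⟨a, c, d, rfl⟩ := CA.GL2Char.exists_tri h2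
    rw [CA.GL2Char.ps_split _ _ (fun e => h3 (congrArg Units.val e))]
    simp
    norm_num
  · exact CA.GL2Char.ps_aniso _ _ ((CA.Mat2.aniso_iff _).2 h)
  · obtain ⟨a, c, d, rfl⟩ := CA.GL2Char.exists_tri h1
    obtain rfl : a = d := Units.ext h2
    rw [CA.GL2Char.ps_unip _ _ _ (show c ≠ 0 from h3)]
    simp

end Cfsg.Agent.S2308
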