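import Cfsg.Statements.S2309
import Cfsg.Agent.Lib.Lin.GL2Char

set_option autoImplicit false
open Cfsg

namespace Cfsg.Agent.S2309

/-- Over a finite field F with q elements: every irreducible complex character of GL₂ of degree q − 1 vanishes at every diagonal matrix with two distinct entries, and every irreducible complex character of degree q + 1 vanishes at every element with no eigenvector in F². -/
theorem result {F : Type*} [Field F] [Fintype F] (χ : Matrix.GeneralLinearGroup (Fin 2) F → ℂ) (hχ : Cfsg.IsIrrCharacter (Matrix.GeneralLinearGroup (Fin 2) F) χ) (g : Matrix.GeneralLinearGroup (Fin 2) F) :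
    (χ 1 = (Fintype.card F : ℂ) - 1 → (g : Matrix (Fin 2) (Fin 2) F) 0 1 = 0 → (g : Matrix (Fin 2) (Fin 2) F) 1 0 = 0 → (g : Matrix (Fin 2) (Fin 2) F) 0 0 ≠ (g : Matrix (Fin 2) (Fin 2) F) 1 1 → χ g = 0) ∧
    (χ 1 = (Fintype.card F : ℂ) + 1 → (∀ (c : F) (v : Fin 2 → F), v ≠ 0 → (g : Matrix (Fin 2) (Fin 2) F).mulVec v ≠ c • v) → χ g = 0) := by
  classical
  open CA.GL2Char in
  obtain ⟨g0, hg0⟩ := exists_aniso_GL F
  have h2 := Fintype.one_lt_card (α := F)
  refine ⟨fun h h1 h2 h3 => ?_, fun h ha => ?_⟩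
  · obtain ⟨a, c, d, rfl⟩ := exists_tri h2
    have had : a ≠ d := fun e => h3 (congrArg Units.val e)
    have h4 : 1 < Fintype.card Fˣ := Fintype.one_lt_card_iff.2 ⟨a, d, had⟩
    rw [Fintype.card_units] at h4
    rcases irr_cases hg0 hχ with ⟨α, rfl⟩ | ⟨α, rfl⟩ | ⟨α, β, hne, rfl⟩ | ⟨θ, hne, rfl⟩
    · rw [lin1_one] at h
      have : (1 : ℤ) = Fintype.card F - 1 := by exact_mod_cast h
      omega
    · rw [St_one] at h
      have : (Fintype.card F : ℤ) = Fintype.card F - 1 := by exact_mod_cast h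
      omega
    · rw [ps_one] at h
      have : (Fintype.card F + 1 : ℤ) = Fintype.card F - 1 := by exact_mod_cast h
      omega
    · exact cu_split hg0 θ had c
  · rcases irr_cases hg0 hχ with ⟨α, rfl⟩ | ⟨α, rfl⟩ | ⟨α, β, hne, rfl⟩ | ⟨θ, hne, rfl⟩
    · rw [lin1_one] at h
      have : (1 : ℤ) = Fintype.card F + 1 := by exact_mod_cast h
      omega
    · rw [St_one] at h
      have : (Fintype.card F : ℤ) = Fintype.card F + 1 := by exact_mod_cast h
      omega
    · exact ps_aniso _ _ ((CA.Mat2.aniso_iff _).2 ha)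
    · rw [cu_one hg0] at h
      have : (Fintype.card F - 1 : ℤ) = Fintype.card F + 1 := by exact_mod_cast h
      omega

end Cfsg.Agent.S2309
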