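import Cfsg.Statements.S2310
import Cfsg.Agent.Lib.Lin.GL2Char

set_option autoImplicit false
open Cfsg

namespace Cfsg.Agent.S2310

/-- Over a finite field F with q ≥ 3 elements, let u be the upper unitriangular matrix of GL₂ with off-diagonal entry 1. An irreducible complex character χ of GL₂ takes at u the value 1 if χ has degree 1 or q + 1, the value −1 if χ has degree q − 1, and the value 0 if χ has degree q. -/
theorem result {F : Type*} [Field F] [Fintype F] (hq : 3 ≤ Fintype.card F) (χ : Matrix.GeneralLinearGroup (Fin 2) F → ℂ) (hχ : Cfsg.IsIrrCharacter (Matrix.GeneralLinearGroup (Fin 2) F) χ)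
    (u : Matrix.GeneralLinearGroup (Fin 2) F) (hu : (u : Matrix (Fin 2) (Fin 2) F) = !![1, 1; 0, 1]) :
    (χ 1 = 1 → χ u = 1) ∧ (χ 1 = (Fintype.card F : ℂ) + 1 → χ u = 1) ∧
    (χ 1 = (Fintype.card F : ℂ) - 1 → χ u = -1) ∧ (χ 1 = (Fintype.card F : ℂ) → χ u = 0) := by
  classical
  open CA.GL2Char in
  obtain ⟨g0, hg0⟩ := exists_aniso_GL F
  obtain rfl : u = tri 1 1 1 := Units.ext hu
  rcases irr_cases hg0 hχ with ⟨α, rfl⟩ | ⟨α, rfl⟩ | ⟨α, β, hne, rfl⟩ | ⟨θ, hne, rfl⟩
  · rw [lin1_one, lin1_tri]
    refine ⟨fun _ => by simp, fun _ => by simp, fun h => ?_, fun h => ?_⟩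
    · have : (1 : ℤ) = Fintype.card F - 1 := by exact_mod_cast h
      omega
    · have : (1 : ℤ) = Fintype.card F := by exact_mod_cast h
      omega
  · rw [St_one, St_unip _ _ one_ne_zero]
    refine ⟨fun h => ?_, fun h => ?_, fun h => ?_, fun h => rfl⟩
    · have : (Fintype.card F : ℤ) = 1 := by exact_mod_cast h
      omega
    · have : (Fintype.card F : ℤ) = Fintype.card F + 1 := by exact_mod_cast h
      omega
    · have : (Fintype.card F : ℤ) = Fintype.card F - 1 := by exact_mod_cast h
      omega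
  · rw [ps_one, ps_unip _ _ _ one_ne_zero]
    refine ⟨fun _ => by simp, fun _ => by simp, fun h => ?_, fun h => ?_⟩
    · have : (Fintype.card F + 1 : ℤ) = Fintype.card F - 1 := by exact_mod_cast h
      omega
    · have : (Fintype.card F + 1 : ℤ) = Fintype.card F := by exact_mod_cast h
      omega
  · rw [cu_one hg0, cu_unip hg0 _ _ one_ne_zero]
    refine ⟨fun h => ?_, fun h => ?_, fun h => by simp, fun h => ?_⟩
    · have : (Fintype.card F - 1 : ℤ) = 1 := by exact_mod_cast h
      omega
    · have : (Fintype.card F - 1 : ℤ) = Fintype.card F + 1 := by exact_mod_cast h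
      omega
    · have : (Fintype.card F - 1 : ℤ) = Fintype.card F := by exact_mod_cast h
      omega

end Cfsg.Agent.S2310
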