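import Cfsg.Statements.S2313
import Cfsg.Agent.Lib.Lie.H12Chev
import Cfsg.Agent.Lib.Lie.ChevAll

set_option autoImplicit false
open Cfsg

namespace Cfsg.Agent.S2313

open CA.Chev CA.H12Chev CA.H12Split CA.H12Par

/-- In a Chevalley group of type G₂, B₂, D₄, F₄, E₆, E₇ or E₈ over a finite field, the restriction of the Steinberg character to the subgroup B = UH is the permutation character of B on the cosets of the diagonal subgroup H: at b ∈ B its value is the number of cosets xH, x ∈ B, with bxH = xH. -/
theorem result {F : Type*} [Field F] [Fintype F] (D : Cfsg.Lie.ChevalleyDatum) (hD : D ∈ [Cfsg.Lie.chevG2, Cfsg.Lie.chevB2, Cfsg.Lie.chevD4, Cfsg.Lie.chevF4, Cfsg.Lie.chevE6, Cfsg.Lie.chevE7, Cfsg.Lie.chevE8]) (b : ↥((D.borelSubgroup F).subgroupOf (D.group F))) :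
    D.steinbergCharacter F ((((D.borelSubgroup F).subgroupOf (D.group F)).subtype) b) =
      Cfsg.fixedPointCharacter (((D.diagonalSubgroup F).subgroupOf (D.group F)).subgroupOf ((D.borelSubgroup F).subgroupOf (D.group F))) b := by
  have := good_of_mem hD
  obtain ⟨p, hp⟩ := CharP.exists F
  have := Fact.mk (CharP.char_is_prime F p)
  have h := (splitG D F p).StG_B (sg_surj _ _)
  change ∀ b : (adjG D F).B, StG _ (b : D.group F) = fixedPointCharacter ((adjG D F).H.subgroupOf (adjG D F).B) b at h
  rw [adjG_B, adjG_H] at h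
  rw [st_eq]; exact h b

end Cfsg.Agent.S2313
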