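import Cfsg.Statements.S2314
import Cfsg.Agent.Lib.Lie.H12Chev
import Cfsg.Agent.Lib.Lie.ChevAll

set_option autoImplicit false
open Cfsg

namespace Cfsg.Agent.S2314

open CA.Chev CA.H12Chev CA.H12Split CA.H12Par

/-- Steinberg's count of unipotent elements: in a Chevalley group of type G₂, B₂, D₄, F₄, E₆, E₇ or E₈ over a finite field of characteristic p with q elements, the number of elements of p-power order is q^(2N), N the number of positive roots — the square of the order of a Sylow p-subgroup. -/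
theorem result {F : Type*} [Field F] [Fintype F] (p : ℕ) [Fact p.Prime] [CharP F p] (D : Cfsg.Lie.ChevalleyDatum) (hD : D ∈ [Cfsg.Lie.chevG2, Cfsg.Lie.chevB2, Cfsg.Lie.chevD4, Cfsg.Lie.chevF4, Cfsg.Lie.chevE6, Cfsg.Lie.chevE7, Cfsg.Lie.chevE8]) :
    Nat.card {g : ↥(D.group F) // ∃ k : ℕ, orderOf g = p ^ k} = Fintype.card F ^ (2 * (D.nroots / 2)) := by
  have := good_of_mem hD
  rw [(splitG D F p).card_p_elements (sg_surj _ _)]
  change Nat.card (adjG D F).U ^ 2 = _
  rw [Sys0.card_U, Nat.card_eq_fintype_card, ← pow_mul, mul_comm]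

end Cfsg.Agent.S2314
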