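import Cfsg.Statements.S2315
import Cfsg.Agent.Lib.Lin.Rcf3

set_option autoImplicit false
open Cfsg

namespace Cfsg.Agent.S2315

section
open Module CA.Rcf

theorem card_of_act {H X Y : Type*} (act : H → X → X) (Φ : X → Y)
    (h1 : ∀ x, Function.Injective fun h => act h x) (h2 : ∀ x x', Φ x = Φ x' ↔ ∃ h, act h x = x') :
    Nat.card X = Nat.card H * Nat.card (Set.range Φ) := by
  rw [← Nat.card_prod]
  refine (Nat.card_eq_of_bijective (fun p : H × Set.range Φ => act p.1 p.2.2.choose) ⟨?_, fun x => ?_⟩).symm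
  · rintro ⟨a, y⟩ ⟨b, z⟩ h
    obtain rfl : y = z := Subtype.ext (by
      rw [← y.2.choose_spec, ← z.2.choose_spec, (h2 _ _).2 ⟨a, h⟩]
      exact ((h2 _ _).2 ⟨b, rfl⟩).symm)
    exact Prod.ext (h1 _ h) rfl
  · obtain ⟨a, ha⟩ := (h2 _ _).1 (Set.mem_range_self (f := Φ) x).choose_spec
    exact ⟨(a, ⟨_, Set.mem_range_self x⟩), ha⟩

variable {F U W V : Type*} [Field F] [AddCommGroup U] [Module F U] [AddCommGroup W] [Module F W]
  [AddCommGroup V] [Module F V] [FiniteDimensional F U] [FiniteDimensional F W]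
  [FiniteDimensional F V]

omit [FiniteDimensional F U] [FiniteDimensional F W] in
theorem pm_pow (N : End F U) (B : End F W) (j : ℕ) (x : U × W) :
    ((N.prodMap B : End F (U × W)) ^ j) x = ((N ^ j) x.1, (B ^ j) x.2) := by
  induction j with
  | zero => rfl
  | succ j ih => simp [pow_succ', ih]

omit [FiniteDimensional F U] [FiniteDimensional F V] in
theorem pow_comm' {A : End F U} {B : End F V} (e : U →ₗ[F] V) (h : ∀ x, e (A x) = B (e x)) (j : ℕ)
    (x : U) : e ((A ^ j) x) = (B ^ j) (e x) := by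
  induction j with
  | zero => rfl
  | succ j ih => simp [pow_succ', ih, h]

theorem block (c : (U × W) ≃ₗ[F] (U × W)) {N N' : End F U} (hN : IsNilpotent N) (hN' : IsNilpotent N')
    (B B' : W ≃ₗ[F] W) (h : ∀ x, c (N.prodMap (B : End F W) x) = N'.prodMap (B' : End F W) (c x)) :
    ∃ (a : U ≃ₗ[F] U) (b : W ≃ₗ[F] W), c = a.prodCongr b := by
  have h1 : ∀ u, (c (u, 0)).2 = 0 := fun u => by
    obtain ⟨j, hj⟩ := hN
    have := congrArg Prod.snd (pow_comm' c.toLinearMap h j (u, 0))
    rw [pm_pow, pm_pow, hj, ← coe_pow' B'] at this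
    exact (B' ^ j).injective (by simpa [Prod.mk_zero_zero] using this.symm)
  have h2 : ∀ w, (c (0, w)).1 = 0 := fun w => by
    obtain ⟨j, hj⟩ := hN'
    obtain ⟨w, rfl⟩ := (B ^ j).surjective w
    have := congrArg Prod.fst (pow_comm' c.toLinearMap h j (0, w))
    rw [pm_pow, pm_pow, hj, ← coe_pow' B] at this
    simpa using this
  refine ⟨LinearEquiv.ofInjectiveEndo (LinearMap.fst F U W ∘ₗ c.toLinearMap ∘ₗ LinearMap.inl F U W)
    ((injective_iff_map_eq_zero _).2 fun u hu => ?_),
    LinearEquiv.ofInjectiveEndo (LinearMap.snd F U W ∘ₗ c.toLinearMap ∘ₗ LinearMap.inr F U W)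
    ((injective_iff_map_eq_zero _).2 fun w hw => ?_), LinearEquiv.ext fun x => ?_⟩
  · exact congrArg Prod.fst (c.map_eq_zero_iff.1 (Prod.ext hu (h1 u)))
  · exact congrArg Prod.snd (c.map_eq_zero_iff.1 (Prod.ext (h2 w) hw))
  · show _ = ((c (x.1, 0)).1, (c (0, x.2)).2)
    rw [show c x = c (x.1, 0) + c (0, x.2) by rw [← map_add]; simp]
    ext <;> simp [h1, h2]

theorem nil_pow {N : End F U} (h : IsNilpotent N) {j : ℕ} (hj : finrank F U ≤ j) : N ^ j = 0 :=
  pow_eq_zero_of_le hj (by
    have := sub_one_pow_finrank (A := N + 1) (by simpa using h)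
    rwa [add_sub_cancel_right] at this)

theorem step (hd : finrank F U + finrank F W = finrank F V) :
    Nat.card (V ≃ₗ[F] V) * (Nat.card {N : End F U // IsNilpotent N} * Nat.card (W ≃ₗ[F] W)) =
      Nat.card (U ≃ₗ[F] U) * Nat.card (W ≃ₗ[F] W) *
        Nat.card {T : End F V // finrank F (LinearMap.ker (T ^ finrank F V)) = finrank F U} := by
  have e0 : (U × W) ≃ₗ[F] V := LinearEquiv.ofFinrankEq _ _ (by rw [finrank_prod, hd])
  have := card_of_act (H := (U ≃ₗ[F] U) × (W ≃ₗ[F] W))
    (X := ((U × W) ≃ₗ[F] V) × {N : End F U // IsNilpotent N} × (W ≃ₗ[F] W))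
    (fun h x => ((h.1.prodCongr h.2).symm.trans x.1, ⟨h.1.conjRingEquiv x.2.1.1, x.2.1.2.map _⟩,
      h.2.symm.trans (x.2.2.trans h.2)))
    (fun x => x.1.conj (x.2.1.1.prodMap (x.2.2 : End F W))) (by
      rintro ⟨e, N, B⟩ ⟨a, b⟩ ⟨a', b'⟩ h
      have h1 := fun x => e.injective (LinearEquiv.congr_fun (congrArg Prod.fst h) x)
      exact Prod.ext (LinearEquiv.symm_bijective.1 (LinearEquiv.ext fun u => congrArg Prod.fst (h1 (u, 0))))
        (LinearEquiv.symm_bijective.1 (LinearEquiv.ext fun w => congrArg Prod.snd (h1 (0, w))))) (by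
      rintro ⟨e, N, B⟩ ⟨e', N', B'⟩
      constructor
      · intro h
        have h1 : ∀ x, (e.trans e'.symm) (N.1.prodMap (B : End F W) x) =
            N'.1.prodMap (B' : End F W) ((e.trans e'.symm) x) := fun x => by
          have := LinearMap.congr_fun h (e x)
          simp only [LinearEquiv.conj_apply_apply, LinearEquiv.symm_apply_apply] at this
          simp only [LinearEquiv.trans_apply, this, LinearEquiv.symm_apply_apply]
        obtain ⟨a, b, h2⟩ := block _ N.2 N'.2 B B' h1
        refine ⟨(a, b), Prod.ext ?_ (Prod.ext (Subtype.ext (LinearMap.ext fun u => ?_))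
          (LinearEquiv.ext fun w => ?_))⟩
        · simp only [← h2]; ext x <;> simp
        · simpa [h2] using congrArg Prod.fst (h1 (a.symm u, 0))
        · simpa [h2] using congrArg Prod.snd (h1 (0, b.symm w))
      · rintro ⟨⟨a, b⟩, h⟩
        rw [← h]
        ext x
        simp [LinearEquiv.conj_apply_apply, Prod.map])
  rw [Nat.card_prod, Nat.card_prod, Nat.card_prod] at this
  rw [Nat.card_congr (β := (U × W) ≃ₗ[F] V)
    ⟨e0.trans, e0.symm.trans, fun _ => by ext; simp, fun _ => by ext <;> simp⟩, this]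
  congr 1
  refine Nat.card_congr (Equiv.subtypeEquivRight fun T => ⟨?_, fun hT => ?_⟩)
  · rintro ⟨⟨e, N, B⟩, rfl⟩
    have h1 := ((sim_conj e (N.1.prodMap (B : End F W))).aeval (Polynomial.X ^ finrank F V)).finrank_ker
    rw [map_pow, map_pow, Polynomial.aeval_X, Polynomial.aeval_X] at h1
    rw [← h1, ← LinearMap.finrank_range_of_inj (f := LinearMap.inl F U W) LinearMap.inl_injective]
    refine congrArg (fun S : Submodule F (U × W) => finrank F S) ?_
    ext x
    rw [LinearMap.mem_ker, pm_pow, nil_pow N.2 (by omega), ← coe_pow', LinearMap.range_inl]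
    simp
  · have h1 := (T ^ finrank F V).finrank_range_add_finrank_ker
    have hdis : Disjoint (LinearMap.ker (T ^ finrank F V)) (LinearMap.range (T ^ finrank F V)) := by
      rw [Submodule.disjoint_def]
      rintro _ h ⟨x, rfl⟩
      rwa [LinearMap.mem_ker, ← End.mul_apply, ← pow_add, ← LinearMap.mem_ker,
        End.ker_pow_eq_ker_pow_finrank_of_le (Nat.le_add_right _ _)] at h
    have hc : IsCompl (LinearMap.ker (T ^ finrank F V)) (LinearMap.range (T ^ finrank F V)) :=
      ⟨hdis, codisjoint_iff.2 (Submodule.eq_top_of_disjoint _ _ (by omega) hdis)⟩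
    have hK : ∀ x ∈ LinearMap.ker (T ^ finrank F V), T x ∈ LinearMap.ker (T ^ finrank F V) :=
      fun x hx => by
      rw [LinearMap.mem_ker] at hx ⊢
      rw [← End.mul_apply, ← pow_succ, pow_succ', End.mul_apply, hx, map_zero]
    have hR : ∀ x ∈ LinearMap.range (T ^ finrank F V), T x ∈ LinearMap.range (T ^ finrank F V) := by
      rintro _ ⟨x, rfl⟩
      exact ⟨T x, by rw [← End.mul_apply, ← pow_succ, pow_succ', End.mul_apply]⟩
    have a : LinearMap.ker (T ^ finrank F V) ≃ₗ[F] U := LinearEquiv.ofFinrankEq _ _ hT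
    have b : LinearMap.range (T ^ finrank F V) ≃ₗ[F] W := LinearEquiv.ofFinrankEq _ _ (by omega)
    have hinj : Function.Injective (T.restrict hR) := (injective_iff_map_eq_zero _).2 fun x hx =>
      Subtype.ext (Submodule.disjoint_def.1 hdis _ (by
        simpa using End.ker_pow_le_ker_pow_finrank T 1 (show x.1 ∈ _ by simpa using congrArg Subtype.val hx)) x.2)
    obtain ⟨e, he⟩ := (((sim_conj a (T.restrict hK)).symm.prodMap (sim_conj b (T.restrict hR)).symm).trans
      (sim_prodMap_restrict hc hK hR)).eq_conj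
    refine ⟨(e, ⟨a.conjRingEquiv (T.restrict hK), IsNilpotent.map ⟨finrank F V, ?_⟩ _⟩,
      b.symm.trans ((LinearEquiv.ofInjectiveEndo _ hinj).trans b)), he.symm⟩
    ext x
    rw [Module.End.pow_restrict]
    exact x.2

variable (F) in
/-- the order of `GL_n` -/
noncomputable def gl (n : ℕ) : ℕ := Nat.card ((Fin n → F) ≃ₗ[F] (Fin n → F))

variable (F) in
/-- the number of nilpotent endomorphisms -/
noncomputable def nil (n : ℕ) : ℕ := Nat.card {N : End F (Fin n → F) // IsNilpotent N}

variable [Fintype F]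

theorem gl_pos (n : ℕ) : 0 < gl F n := by
  have := CA.CForm.finite_linearEquiv (F := F) (V := Fin n → F)
  exact Nat.card_pos

theorem gl_succ (n : ℕ) :
    gl F (n + 1) = (Fintype.card F ^ (n + 1) - 1) * (Fintype.card F ^ n * gl F n) := by
  rw [gl, gl, CA.CForm.card_linearEquiv (finrank_fin_fun F),
    CA.CForm.card_linearEquiv (finrank_fin_fun F), Fin.prod_univ_succ]
  simp only [Fin.val_zero, pow_zero, Fin.val_succ, pow_succ' (Fintype.card F) (_ : Fin n),
    pow_succ' (Fintype.card F) n, ← Nat.mul_sub, Finset.prod_mul_distrib, Finset.prod_const,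
    Finset.card_univ, Fintype.card_fin]

theorem sum_eq (n : ℕ) : ((Fintype.card F : ℚ) ^ (n * n)) / gl F n =
    ∑ k ∈ Finset.range (n + 1), (nil F k : ℚ) / gl F k := by
  classical
  have : Finite (End F (Fin n → F)) := Module.finite_of_finite F
  have := Fintype.ofFinite (End F (Fin n → F))
  have h1 : Fintype.card F ^ (n * n) = ∑ k ∈ Finset.range (n + 1),
      Nat.card {T : End F (Fin n → F) // finrank F (LinearMap.ker (T ^ n)) = k} := by
    have h2 : Fintype.card (End F (Fin n → F)) = Fintype.card F ^ (n * n) := by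
      rw [Module.card_eq_pow_finrank (K := F), finrank_linearMap, finrank_fin_fun]
    rw [← h2, ← Finset.card_univ, Finset.card_eq_sum_card_fiberwise (t := Finset.range (n + 1))
      (f := fun T => finrank F (LinearMap.ker (T ^ n))) fun T _ => by
        simpa [Nat.lt_succ_iff] using (LinearMap.ker (T ^ n)).finrank_le]
    simp only [Nat.card_eq_fintype_card, Fintype.card_subtype]
  rw [← Nat.cast_pow, h1, Nat.cast_sum, Finset.sum_div]
  refine Finset.sum_congr rfl fun k hk => ?_
  have := step (F := F) (U := Fin k → F) (W := Fin (n - k) → F) (V := Fin n → F) (by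
    have := Finset.mem_range.1 hk
    simp; omega)
  rw [finrank_fin_fun, finrank_fin_fun] at this
  change gl F n * (nil F k * gl F (n - k)) = gl F k * gl F (n - k) * _ at this
  rw [div_eq_div_iff (Nat.cast_ne_zero.2 (gl_pos n).ne') (Nat.cast_ne_zero.2 (gl_pos k).ne')]
  norm_cast
  apply Nat.eq_of_mul_eq_mul_left (gl_pos (F := F) (n - k))
  linarith

theorem nil_eq : ∀ n, nil F n = Fintype.card F ^ (n * (n - 1))
  | 0 => by
    have := sum_eq (F := F) 0
    simp only [mul_zero, pow_zero, zero_add, Finset.sum_range_one] at this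
    rw [div_left_inj' (Nat.cast_ne_zero.2 (gl_pos 0).ne')] at this
    exact_mod_cast this.symm
  | n + 1 => by
    have h := sum_eq (F := F) (n + 1)
    rw [Finset.sum_range_succ, ← sum_eq, gl_succ] at h
    have h1 : (gl F n : ℚ) ≠ 0 := Nat.cast_ne_zero.2 (gl_pos n).ne'
    have h2 : 1 < Fintype.card F ^ (n + 1) :=
      Nat.one_lt_pow n.succ_ne_zero (Fintype.one_lt_card (α := F))
    have h3 : (Fintype.card F : ℚ) ≠ 0 := Nat.cast_ne_zero.2 Fintype.card_ne_zero
    have h4 : (Fintype.card F : ℚ) ^ (n + 1) - 1 ≠ 0 := by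
      rw [sub_ne_zero]; exact_mod_cast h2.ne'
    push_cast [Nat.cast_sub h2.le] at h
    field_simp at h
    have : (nil F (n + 1) : ℚ) = (Fintype.card F : ℚ) ^ ((n + 1) * n) := by linear_combination -h
    exact_mod_cast this

end

/-- Steinberg's count of unipotent elements for the general linear group: over a finite field with q elements of characteristic p, the number of elements of GL_n of p-power order (the unipotent matrices) is q^(n(n−1)). -/
theorem result {F : Type*} [Field F] [Fintype F] (p : ℕ) [Fact p.Prime] [CharP F p] (n : ℕ) :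
    Nat.card {g : Matrix.GeneralLinearGroup (Fin n) F // ∃ k : ℕ, orderOf g = p ^ k} = Fintype.card F ^ (n * (n - 1)) := by
  rw [← nil_eq, nil]
  refine Nat.card_eq_of_bijective (fun g => ⟨(CA.CForm.glEquiv g.1 : Module.End F _) - 1,
    (CA.Rcf.isNilpotent_iff_orderOf p _).2 (by simpa using g.2)⟩) ⟨fun g h e => ?_, fun N => ?_⟩
  · exact Subtype.ext (CA.CForm.glEquiv.injective (LinearEquiv.toLinearMap_injective
      (sub_left_injective (congrArg Subtype.val e))))
  · obtain ⟨u, hu⟩ := N.2.isUnit_add_one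
    obtain ⟨g, hg⟩ := CA.CForm.glEquiv.surjective (LinearMap.GeneralLinearGroup.generalLinearEquiv F _ u)
    have : (CA.CForm.glEquiv g : Module.End F _) - 1 = N.1 := by
      rw [hg, sub_eq_iff_eq_add, ← hu]; rfl
    refine ⟨⟨g, ?_⟩, Subtype.ext this⟩
    rw [← CA.CForm.glEquiv.orderOf_eq]
    exact (CA.Rcf.isNilpotent_iff_orderOf p _).1 (this ▸ N.2)

end Cfsg.Agent.S2315
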