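import Cfsg.Statements.S2316
import Cfsg.Agent.Lib.Lie.H23St
import Cfsg.Agent.S2315
import Cfsg.Agent.S0245

set_option autoImplicit false
open Cfsg

namespace Cfsg.Agent.S2316

open CA.Chev Matrix

/-- Steinberg's count of unipotent elements for the symplectic group: over a finite field with q elements of characteristic p, the number of elements of Sp_{2m} of p-power order is q^(2m²). -/
theorem result {F : Type*} [Field F] [Fintype F] (p : ℕ) [Fact p.Prime] [CharP F p] (m : ℕ) :
    Nat.card {g : ↥(Matrix.symplecticGroup (Fin m) F) // ∃ k : ℕ, orderOf g = p ^ k} = Fintype.card F ^ (2 * m ^ 2) := by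
  have hp : p.Prime := Fact.out
  obtain ⟨n, -, hn⟩ := FiniteField.card F p
  rcases m with _ | _ | m
  · have : Unique (Matrix.symplecticGroup (Fin 0) F) := ⟨⟨1⟩, fun g => Subtype.ext (Subsingleton.elim _ _)⟩
    exact Nat.card_eq_one_iff_unique.2 ⟨inferInstance, ⟨1, 0, by simp⟩⟩
  · let f := SpecialLinearGroup.toGL.comp (sp1 F).toMonoidHom
    have hf : Function.Injective f := SpecialLinearGroup.toGL_injective.comp (sp1 F).injective
    rw [← show _ = Fintype.card F ^ (2 * (0 + 1) ^ 2) from Cfsg.Agent.S2315.result (F := F) p 2]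
    refine Nat.card_eq_of_bijective (fun g => ⟨f g.1, orderOf_injective f hf g.1 ▸ g.2⟩) ⟨fun a b e =>
      Subtype.ext (hf (congrArg Subtype.val e)), fun ⟨g, k, hk⟩ => ?_⟩
    have h1 : g.1.det = 1 := by
      have : g.1.det ^ p ^ k = 1 := by rw [← det_pow, ← Units.val_pow_eq_pow_val, ← hk, pow_orderOf_eq_one]; simp
      exact iterateFrobenius_inj F p k (by rw [map_one]; exact this)
    have h2 : f ((sp1 F).symm ⟨g, h1⟩) = g := Units.ext (congrArg Subtype.val ((sp1 F).apply_symm_apply ⟨g, h1⟩))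
    exact ⟨⟨(sp1 F).symm ⟨g, h1⟩, k, by rw [← orderOf_injective f hf, h2, hk]⟩, Subtype.ext h2⟩
  obtain ⟨A, hA⟩ := exists_sysC (F := F) (m := m + 2) (by omega)
  rw [(CA.H12Dual.split3 A hA p).card_p_elements (CA.H12Chev.sg_surj _ _), CA.H12Split.Split.card_U,
    Cfsg.Agent.S0245.result rfl, Nat.factorization_mul (by positivity) (Finset.prod_ne_zero_iff.2 fun i _ =>
      (Nat.sub_pos_of_lt (Nat.one_lt_pow (by omega) Fintype.one_lt_card)).ne'), Finsupp.add_apply,
    Nat.factorization_eq_zero_of_not_dvd (n := ∏ _ ∈ _, _) fun h => ?_, hn, ← pow_mul p n, Nat.factorization_pow_self hp]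
  · ring
  obtain ⟨i, -, h⟩ := (Prime.dvd_finsetProd_iff hp.prime _).1 h
  exact hp.not_dvd_one ((Nat.dvd_sub_iff_right (Nat.one_le_pow _ _ Fintype.card_pos)
    (hn ▸ (dvd_pow_self p n.ne_zero).trans (dvd_pow_self _ (by omega)))).1 h)

end Cfsg.Agent.S2316
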