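import Cfsg.Statements.S2320
import Cfsg.Agent.Lib.Lin.GL2Char

set_option autoImplicit false
open Cfsg

namespace Cfsg.Agent.S2320

/-- Over a finite field F with q elements, every irreducible complex character of GL₂ of degree q takes a value of absolute value 1 at every diagonal matrix with two different diagonal entries and at every element with no eigenvector in F². -/
theorem result {F : Type*} [Field F] [Fintype F] (χ : Matrix.GeneralLinearGroup (Fin 2) F → ℂ) (hχ : Cfsg.IsIrrCharacter (Matrix.GeneralLinearGroup (Fin 2) F) χ) (hdeg : χ 1 = (Fintype.card F : ℂ)) (g : Matrix.GeneralLinearGroup (Fin 2) F) :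
    ((g : Matrix (Fin 2) (Fin 2) F) 0 1 = 0 → (g : Matrix (Fin 2) (Fin 2) F) 1 0 = 0 → (g : Matrix (Fin 2) (Fin 2) F) 0 0 ≠ (g : Matrix (Fin 2) (Fin 2) F) 1 1 → ‖χ g‖ = 1) ∧
    ((∀ (c : F) (v : Fin 2 → F), v ≠ 0 → (g : Matrix (Fin 2) (Fin 2) F).mulVec v ≠ c • v) → ‖χ g‖ = 1) := by
  classical
  open CA.GL2Char in
  obtain ⟨g0, hg0⟩ := exists_aniso_GL F
  have h2 := Fintype.one_lt_card (α := F)
  rcases irr_cases hg0 hχ with ⟨α, rfl⟩ | ⟨α, rfl⟩ | ⟨α, β, hne, rfl⟩ | ⟨θ, hne, rfl⟩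
  · rw [lin1_one] at hdeg
    have : (1 : ℤ) = Fintype.card F := by exact_mod_cast hdeg
    omega
  · refine ⟨fun h1 h2 h3 => ?_, fun ha => ?_⟩
    · obtain ⟨a, c, d, rfl⟩ := exists_tri h2
      rw [St_split _ (fun e => h3 (congrArg Units.val e)), norm_mul,
        CA.Ch2Gen.norm_mulChar _ a.ne_zero, CA.Ch2Gen.norm_mulChar _ d.ne_zero, mul_one]
    · rw [St_aniso _ ((CA.Mat2.aniso_iff _).2 ha), norm_neg, CA.Ch2Gen.norm_mulChar _ g.det_ne_zero]
  · rw [ps_one] at hdeg
    have : (Fintype.card F + 1 : ℤ) = Fintype.card F := by exact_mod_cast hdeg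
    omega
  · rw [cu_one hg0] at hdeg
    have : (Fintype.card F - 1 : ℤ) = Fintype.card F := by exact_mod_cast hdeg
    omega

end Cfsg.Agent.S2320
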