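import Cfsg.Statements.S2322
import Cfsg.Agent.Lib.Lin.SL2Char

set_option autoImplicit false
open Cfsg

namespace Cfsg.Agent.S2322

/-- Over a finite field F with q elements, q odd: every irreducible complex character of SL₂ of degree q − 1 or (q − 1)/2 vanishes at every diagonal matrix whose diagonal entry a has a² ≠ 1, and every irreducible complex character of degree q + 1 or (q + 1)/2 vanishes at every element with no eigenvector in F². -/
theorem result {F : Type*} [Field F] [Fintype F] (hodd : Odd (Fintype.card F)) (χ : Matrix.SpecialLinearGroup (Fin 2) F → ℂ) (hχ : Cfsg.IsIrrCharacter (Matrix.SpecialLinearGroup (Fin 2) F) χ) (g : Matrix.SpecialLinearGroup (Fin 2) F) :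
    ((χ 1 = (Fintype.card F : ℂ) - 1 ∨ χ 1 = (((Fintype.card F - 1) / 2 : ℕ) : ℂ)) →
      (g : Matrix (Fin 2) (Fin 2) F) 0 1 = 0 → (g : Matrix (Fin 2) (Fin 2) F) 1 0 = 0 → (g : Matrix (Fin 2) (Fin 2) F) 0 0 ^ 2 ≠ 1 → χ g = 0) ∧
    ((χ 1 = (Fintype.card F : ℂ) + 1 ∨ χ 1 = (((Fintype.card F + 1) / 2 : ℕ) : ℂ)) →
      (∀ (c : F) (v : Fin 2 → F), v ≠ 0 → (g : Matrix (Fin 2) (Fin 2) F).mulVec v ≠ c • v) → χ g = 0) := by
  classical
  open CA.SL2Char CA.SL2Torus in
  have ho := Nat.odd_iff.1 hodd
  refine ⟨fun h h1 h2 h3 => ?_, fun h ha => ?_⟩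
  · obtain ⟨g0, hg0⟩ := exists_aniso_SL F
    obtain ⟨a, b, rfl⟩ := exists_tr h2
    have ha := sq_ne_one_of h3
    have h4 := four_le_of_sq_ne ha
    rcases h with h | h
    · obtain ⟨θ, -, rfl⟩ := eq_cu hg0 h4 hχ h
      exact cu_split hg0 θ ha b
    · obtain ⟨-, e, θ, ψ, -, -, -, H⟩ := hc_of_deg hg0 hodd (by omega) hχ h
      have := half_val H (Or.inl (SS_tr ha b))
      rw [cu_split hg0 θ ha b] at this
      simpa using this
  · have hg := (CA.Mat2.aniso_iff _).2 ha
    rcases h with h | h
    · obtain ⟨α, -, rfl⟩ := eq_ps hχ h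
      exact ps_aniso α hg
    · have h1 := Fintype.one_lt_card (α := F)
      rcases irr_deg hg hχ h with h | h | h | ⟨h, θ, hθ, rfl⟩ | ⟨-, -, e, α, ψ, -, -, -, H⟩ | h
      · have := h.1; omega
      · have := h.1; omega
      · have := h.1; omega
      · have h3 : Fintype.card F = 3 := by omega
        have hc : Nat.card (C g) = 4 := by rw [card_C_aniso hg, Nat.card_eq_fintype_card, h3]
        have := isCyclic_C_aniso hg
        let t : C g := ⟨g, self_mem_C g⟩
        rw [cu_T hg θ t hg.ns]
        have ht4 : t ^ 4 = 1 := by rw [← hc, pow_card_eq_one']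
        have ht2 : t ^ 2 ≠ 1 := fun e => (SS.of_aniso hg).inv_ne
          (congrArg Subtype.val (grp_sq_one_iff.1 e)).symm
        have hot : orderOf t = 4 := orderOf_eq_prime_pow (p := 2) (n := 1) ht2 ht4
        have htop : Subgroup.zpowers t = ⊤ := by
          apply Subgroup.eq_top_of_card_eq
          rw [Nat.card_zpowers, hot, hc]
        have h5 : θ t ^ 2 ≠ 1 := fun e => hθ (by
          ext x
          obtain ⟨k, rfl⟩ := (htop ▸ Subgroup.mem_top x : x ∈ Subgroup.zpowers t)
          simp only [MonoidHom.pow_apply, map_zpow, MonoidHom.one_apply]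
          first | rw [e, one_zpow, one_zpow] | simp [e])
        have h6 : (θ t ^ 2) ^ 2 = 1 := by rw [← pow_mul, ← map_pow, ht4, map_one]
        have h7 := congrArg Units.val ((CA.Ch2Gen.units_sq_one h6).resolve_left h5)
        simp only [Units.val_pow_eq_pow_val, Units.val_neg, Units.val_one] at h7
        have h8 := (θ t).ne_zero
        rw [Units.val_inv_eq_inv_val]
        field_simp
        linear_combination -h7
      · have := half_val H (Or.inl (SS.of_aniso hg))
        rw [ps_aniso α hg] at this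
        simpa using this
      · have := h.1; omega

end Cfsg.Agent.S2322
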