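import Cfsg.Statements.S2329
import Cfsg.Agent.Lib.Lin.SL2Unip

set_option autoImplicit false
open Cfsg

namespace Cfsg.Agent.S2329

/-- Over a finite field of characteristic p, any two elements of order p of GL₂ are conjugate: there is a single conjugacy class of non-identity unipotent elements. -/
theorem result {F : Type*} [Field F] [Fintype F] (p : ℕ) [Fact p.Prime] [CharP F p] (g h : Matrix.GeneralLinearGroup (Fin 2) F)
    (hg : orderOf g = p) (hh : orderOf h = p) : IsConj g h := by
  open CA.SL2Unip CA.Mat2 in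
  have hp := (Fact.out : p.Prime).one_lt
  have h1 : g ^ p ^ 1 = 1 := by rw [pow_one, ← hg, pow_orderOf_eq_one]
  have h2 : h ^ p ^ 1 = 1 := by rw [pow_one, ← hh, pow_orderOf_eq_one]
  refine isConj_GL (NS_of_pow_char_GL p h1 ?_) (NS_of_pow_char_GL p h2 ?_) ?_ ?_
  · rintro rfl; simp at hg; omega
  · rintro rfl; simp at hh; omega
  · rw [trace_of_pow_char_GL p h1, trace_of_pow_char_GL p h2]
  · rw [det_of_pow_char p h1, det_of_pow_char p h2]

end Cfsg.Agent.S2329
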