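import Cfsg.Statements.S2363
import Cfsg.Agent.S0243
import Cfsg.Agent.S0245
import Cfsg.Agent.S0246
import Cfsg.Agent.S0280
import Cfsg.Agent.S0292
import Cfsg.Agent.S0293
import Cfsg.Agent.S0294
import Cfsg.Agent.S1059
import Cfsg.Agent.S1062
import Cfsg.Agent.S1063
import Cfsg.Agent.S1064
import Cfsg.Agent.S1065
import Cfsg.Agent.S1066
import Cfsg.Agent.S1067
import Cfsg.Agent.S1068
import Cfsg.Agent.S1069
import Cfsg.Agent.S1163

set_option autoImplicit false
open Cfsg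

namespace Cfsg.Agent.S2363

theorem fact_eq {p f d g N M : ℕ} (hp : p.Prime) (h : d * g = (p ^ f) ^ N * M) (hd : ¬ p ∣ d)
    (hM : ¬ p ∣ M) : g.factorization p = f * N := by
  have hd0 : d ≠ 0 := by rintro rfl; exact hd (dvd_zero _)
  have hM0 : M ≠ 0 := by rintro rfl; exact hM (dvd_zero _)
  have hq : (p ^ f) ^ N ≠ 0 := pow_ne_zero _ (pow_ne_zero _ hp.ne_zero)
  have hg0 : g ≠ 0 := by
    rintro rfl
    exact mul_ne_zero hq hM0 (by rw [← h, mul_zero])
  rw [← pow_mul] at h hq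
  have := congrArg (fun n => n.factorization p) h
  simp only [Nat.factorization_mul hd0 hg0, Nat.factorization_mul hq hM0, Finsupp.add_apply,
    Nat.factorization_eq_zero_of_not_dvd hd, Nat.factorization_eq_zero_of_not_dvd hM,
    Nat.factorization_pow_self hp] at this
  omega

theorem key1 {p f d g N M e : ℕ} (hp : p.Prime) (h : d * g = (p ^ f) ^ N * M) (hd : ¬ p ∣ d)
    (hM : ¬ p ∣ M) (hMe : M < (p ^ f) ^ e) (he : e ≤ 2 * N) : g < p ^ (3 * g.factorization p) := by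
  rw [fact_eq hp h hd hM]
  have hd0 : 0 < d := Nat.pos_of_ne_zero (by rintro rfl; exact hd (dvd_zero _))
  have hq : 0 < p ^ f := pow_pos hp.pos _
  calc g ≤ d * g := Nat.le_mul_of_pos_left _ hd0
    _ = _ := h
    _ < (p ^ f) ^ N * (p ^ f) ^ e := Nat.mul_lt_mul_of_pos_left hMe (pow_pos hq _)
    _ = (p ^ f) ^ (N + e) := by rw [pow_add]
    _ ≤ (p ^ f) ^ (3 * N) := Nat.pow_le_pow_right hq (by omega)
    _ = _ := by rw [← pow_mul]; congr 1; ring

theorem key {p f d g N M e : ℕ} (hp : p.Prime) (h : d * g = (p ^ f) ^ N * M) (hd : ¬ p ∣ d)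
    (hM : ¬ p ∣ M) (hMe : M < (p ^ f) ^ e) (he : 3 * e ≤ 5 * N) (P : Prop) :
    g < p ^ (3 * g.factorization p) ∧ (P → g ^ 3 < p ^ (8 * g.factorization p)) := by
  refine ⟨key1 hp h hd hM hMe (by omega), fun _ => ?_⟩
  rw [fact_eq hp h hd hM]
  have hd0 : 0 < d := Nat.pos_of_ne_zero (by rintro rfl; exact hd (dvd_zero _))
  have hq : 0 < p ^ f := pow_pos hp.pos _
  have h1 : g < (p ^ f) ^ (N + e) := by
    calc g ≤ d * g := Nat.le_mul_of_pos_left _ hd0
      _ = _ := h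
      _ < (p ^ f) ^ N * (p ^ f) ^ e := Nat.mul_lt_mul_of_pos_left hMe (pow_pos hq _)
      _ = (p ^ f) ^ (N + e) := by rw [pow_add]
  calc g ^ 3 < ((p ^ f) ^ (N + e)) ^ 3 := Nat.pow_lt_pow_left h1 (by norm_num)
    _ = (p ^ f) ^ ((N + e) * 3) := by rw [← pow_mul]
    _ ≤ (p ^ f) ^ (8 * N) := Nat.pow_le_pow_right hq (by omega)
    _ = _ := by rw [← pow_mul]; congr 1; ring

theorem nd_sub {p q i : ℕ} (hp : p.Prime) (hq : p ∣ q) (hq0 : 0 < q) (hi : i ≠ 0) : ¬ p ∣ q ^ i - 1 := by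
  intro h
  have h1 : p ∣ q ^ i := dvd_pow hq hi
  have h2 : 1 ≤ q ^ i := Nat.one_le_pow _ _ hq0
  have := Nat.dvd_sub h1 h
  rw [Nat.sub_sub_self h2] at this
  exact hp.one_lt.ne' (Nat.dvd_one.mp this)

theorem nd_add {p a : ℕ} (hp : p.Prime) (hq : p ∣ a) : ¬ p ∣ a + 1 := fun h =>
  hp.one_lt.ne' (Nat.dvd_one.mp ((Nat.dvd_add_right hq).mp h))

theorem nd_mul {p a b : ℕ} (hp : p.Prime) (ha : ¬ p ∣ a) (hb : ¬ p ∣ b) : ¬ p ∣ a * b := fun h =>
  (hp.dvd_mul.mp h).elim ha hb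

theorem nd_gcd {p a b : ℕ} (hb : ¬ p ∣ b) : ¬ p ∣ Nat.gcd a b := fun h => hb (h.trans (Nat.gcd_dvd_right _ _))

theorem nd_prod {p : ℕ} (hp : p.Prime) {s : Finset ℕ} {a : ℕ → ℕ} (h : ∀ i ∈ s, ¬ p ∣ a i) :
    ¬ p ∣ ∏ i ∈ s, a i := by
  intro h1
  obtain ⟨i, hi, h2⟩ := (Prime.dvd_finset_prod_iff hp.prime _).mp h1
  exact h i hi h2

theorem lt_mul {q a b i j : ℕ} (ha : a < q ^ i) (hb : b ≤ q ^ j) (hq : 0 < q) : a * b < q ^ (i + j) := by
  rw [pow_add]
  exact Nat.mul_lt_mul_of_lt_of_le ha hb (pow_pos hq _)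

theorem sub_lt' {q i : ℕ} (hq : 0 < q) : q ^ i - 1 < q ^ i := Nat.sub_lt (pow_pos hq _) one_pos

theorem add_le' {q i : ℕ} (hq : 2 ≤ q) : q ^ i + 1 ≤ q ^ (i + 1) := by
  have : 1 ≤ q ^ i := Nat.one_le_pow _ _ (by omega)
  rw [pow_succ]; nlinarith

theorem prod_even_le {q : ℕ} (hq : 0 < q) (m : ℕ) :
    ∏ i ∈ Finset.range m, (q ^ (2 * (i + 1)) - 1) ≤ q ^ (m * (m + 1)) := by
  induction m with
  | zero => simp
  | succ m ih =>
    rw [Finset.prod_range_succ, show (m + 1) * (m + 1 + 1) = m * (m + 1) + 2 * (m + 1) by ring, pow_add]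
    exact Nat.mul_le_mul ih (Nat.sub_le _ _)

theorem prod_even_lt {q : ℕ} (hq : 0 < q) (m : ℕ) (hm : 1 ≤ m) :
    ∏ i ∈ Finset.range m, (q ^ (2 * (i + 1)) - 1) < q ^ (m * (m + 1)) := by
  obtain ⟨m, rfl⟩ := Nat.exists_eq_add_of_le' hm
  rw [Finset.prod_range_succ, show (m + 1) * (m + 1 + 1) = 2 * (m + 1) + m * (m + 1) by ring, mul_comm]
  exact lt_mul (sub_lt' hq) (prod_even_le hq m) hq

theorem pair_lt {q i j : ℕ} (hq : 0 < q) (hij : i ≤ j) : (q ^ i - 1) * (q ^ j + 1) < q ^ (i + j) := by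
  have h1 : 1 ≤ q ^ i := Nat.one_le_pow _ _ hq
  have h2 : q ^ i ≤ q ^ j := Nat.pow_le_pow_right hq hij
  rw [pow_add]
  obtain ⟨a, ha⟩ := Nat.exists_eq_add_of_le' h1
  rw [ha] at h2 ⊢
  simp only [Nat.add_sub_cancel]
  nlinarith

/-- triangular numbers -/
def T : ℕ → ℕ
  | 0 => 0
  | n + 1 => T n + (n + 1)

theorem T_eq (n : ℕ) : 2 * T n = n * (n + 1) := by
  induction n with
  | zero => rfl
  | succ n ih => show 2 * (T n + (n + 1)) = _; rw [mul_add, ih]; ring

theorem gl_prod {q : ℕ} (n : ℕ) : ∏ i ∈ Finset.range (n + 1), (q ^ (n + 1) - q ^ i) =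
    q ^ T n * ∏ i ∈ Finset.range (n + 1), (q ^ (i + 1) - 1) := by
  induction n with
  | zero => simp [T]
  | succ n ih =>
    rw [Finset.prod_range_succ', Finset.prod_range_succ (fun i => q ^ (i + 1) - 1) (n + 1)]
    have : ∀ i ∈ Finset.range (n + 1), q ^ (n + 1 + 1) - q ^ (i + 1) = q * (q ^ (n + 1) - q ^ i) := by
      intro i _
      rw [Nat.mul_sub, pow_succ', pow_succ' q i]
    rw [Finset.prod_congr rfl this, Finset.prod_mul_distrib, ih]
    simp only [Finset.prod_const, Finset.card_range, pow_zero]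
    rw [show T (n + 1) = T n + (n + 1) from rfl, pow_add]
    ring

theorem sl_lt {q : ℕ} (hq : 0 < q) (n : ℕ) :
    ∏ i ∈ Finset.range (n + 1), (q ^ (i + 1 + 1) - 1) < q ^ (T (n + 2) - 1) := by
  induction n with
  | zero => simpa [T] using sub_lt' (i := 2) hq
  | succ n ih =>
    rw [Finset.prod_range_succ, show T (n + 1 + 2) - 1 = (T (n + 2) - 1) + (n + 1 + 1 + 1) by
      have : T (n + 1 + 2) = T (n + 2) + (n + 2 + 1) := rfl
      have : T (n + 2) = T (n + 1) + (n + 1 + 1) := rfl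
      omega]
    exact lt_mul ih (Nat.sub_le _ _) hq

theorem su_le {q : ℕ} (hq : 0 < q) (k : ℕ) :
    ∏ i ∈ Finset.range (2 * k), (if Even (i + 1) then q ^ (i + 1 + 1) + 1 else q ^ (i + 1 + 1) - 1) ≤
      q ^ (T (2 * k + 1) - 1) := by
  induction k with
  | zero => simp [T]
  | succ k ih =>
    rw [show 2 * (k + 1) = 2 * k + 1 + 1 by ring, Finset.prod_range_succ, Finset.prod_range_succ,
      if_neg (by simp [parity_simps]), if_pos (by simp [parity_simps]), mul_assoc,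
      show T (2 * k + 1 + 1 + 1) - 1 = (T (2 * k + 1) - 1) + ((2 * k + 1 + 1) + (2 * k + 1 + 1 + 1)) by
      have : T (2 * k + 1 + 1 + 1) = T (2 * k + 1 + 1) + (2 * k + 1 + 1 + 1) := rfl
      have : T (2 * k + 1 + 1) = T (2 * k + 1) + (2 * k + 1 + 1) := rfl
      have : T (2 * k + 1) = T (2 * k) + (2 * k + 1) := rfl
      omega, pow_add q (T (2 * k + 1) - 1)]
    exact Nat.mul_le_mul ih (pair_lt hq (by omega)).le

theorem su_lt {q : ℕ} (hq : 0 < q) (n : ℕ) :
    ∏ i ∈ Finset.range (n + 1), (if Even (i + 1) then q ^ (i + 1 + 1) + 1 else q ^ (i + 1 + 1) - 1) <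
      q ^ (T (n + 2) - 1) := by
  obtain ⟨k, rfl | rfl⟩ := Nat.even_or_odd' n
  · rw [Finset.prod_range_succ, if_neg (by simp [parity_simps]), mul_comm,
      show T (2 * k + 2) - 1 = (2 * k + 1 + 1) + (T (2 * k + 1) - 1) by
      have : T (2 * k + 2) = T (2 * k + 1) + (2 * k + 1 + 1) := rfl
      have : T (2 * k + 1) = T (2 * k) + (2 * k + 1) := rfl
      omega]
    exact lt_mul (sub_lt' hq) (su_le hq k) hq
  · rw [Finset.prod_range_succ, Finset.prod_range_succ,
      if_neg (by simp [parity_simps]), if_pos (by simp [parity_simps]), mul_assoc, mul_comm,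
      show T (2 * k + 1 + 2) - 1 = ((2 * k + 1 + 1) + (2 * k + 1 + 1 + 1)) + (T (2 * k + 1) - 1) by
      have : T (2 * k + 1 + 2) = T (2 * k + 1 + 1) + (2 * k + 1 + 1 + 1) := rfl
      have : T (2 * k + 1 + 1) = T (2 * k + 1) + (2 * k + 1 + 1) := rfl
      have : T (2 * k + 1) = T (2 * k) + (2 * k + 1) := rfl
      omega]
    exact lt_mul (pair_lt hq (by omega)) (su_le hq k) hq

theorem card_pow (F : Type) [Field F] [Fintype F] (p : ℕ) (hp : p.Prime) [CharP F p] :
    ∃ f : ℕ, f ≠ 0 ∧ Fintype.card F = p ^ f := by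
  haveI : Fact p.Prime := ⟨hp⟩
  obtain ⟨n, -, hn⟩ := FiniteField.card F p
  exact ⟨n, n.ne_zero, hn⟩

theorem root_pow {p q f k : ℕ} (hp : p.Prime) (hf : f ≠ 0) (hk : k ≠ 0) (h : q ^ k = p ^ f) :
    ∃ j, j ≠ 0 ∧ q = p ^ j := by
  obtain ⟨j, -, hj⟩ := (Nat.dvd_prime_pow hp).mp (show q ∣ p ^ f by rw [← h]; exact dvd_pow_self _ hk)
  refine ⟨j, ?_, hj⟩
  rintro rfl
  rw [hj] at h
  simp only [pow_zero, one_pow] at h
  exact absurd h.symm (Nat.one_lt_pow hf hp.one_lt).ne'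


/-- Let G be a finite simple group of Lie type in characteristic p and let p^k be the exact power of p dividing the order of G. Then the order of G is less than p^(3k); and unless G is isomorphic to PSL(2, F) for the field F with p^k elements, the cube of the order of G is less than p^(8k) (that is, the order is below p^(8k/3)). -/
theorem result {G : Type*} [Group G] [Finite G] (p : ℕ) (hp : p.Prime) (hG : Cfsg.IsLieTypeChar p G) :
    Nat.card G < p ^ (3 * (Nat.card G).factorization p) ∧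
      ((¬ ∃ (F : Type) (_ : Field F) (_ : Fintype F), Fintype.card F = p ^ (Nat.card G).factorization p ∧
          Nonempty (G ≃* Matrix.ProjectiveSpecialLinearGroup (Fin 2) F)) →
        Nat.card G ^ 3 < p ^ (8 * (Nat.card G).factorization p)) := by
  have two_le : ∀ f, f ≠ 0 → 2 ≤ p ^ f := fun f hf => Nat.one_lt_pow hf hp.one_lt
  have hdv : ∀ f, f ≠ 0 → p ∣ p ^ f := fun f hf => dvd_pow_self _ hf
  have hpos : ∀ f, 0 < p ^ f := fun f => pow_pos hp.pos _
  have ns : ∀ f i, f ≠ 0 → i ≠ 0 → ¬ p ∣ (p ^ f) ^ i - 1 := fun f i hf hi =>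
    nd_sub hp (hdv f hf) (hpos f) hi
  have ns1 : ∀ f, f ≠ 0 → ¬ p ∣ (p ^ f) - 1 := fun f hf => by simpa using ns f 1 hf one_ne_zero
  have na : ∀ f i, f ≠ 0 → i ≠ 0 → ¬ p ∣ (p ^ f) ^ i + 1 := fun f i hf hi =>
    nd_add hp (dvd_pow (hdv f hf) hi)
  have n1 : ¬ p ∣ 1 := fun h => hp.one_lt.ne' (Nat.dvd_one.mp h)
  rcases hG with ⟨F, _, _, _, n, hn, -, ⟨e⟩⟩ | ⟨F, _, _, _, m, hm, -, ⟨e⟩⟩ |
    ⟨F, _, _, _, n, q, hq, hn, -, ⟨e⟩⟩ | ⟨F, _, _, _, m, hm, hodd, ⟨e⟩⟩ | ⟨F, _, _, _, m, hm, ⟨e⟩⟩ |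
    ⟨F, _, _, _, m, a, b, hm, hab, ⟨e⟩⟩ | ⟨F, _, _, _, h⟩ | ⟨F, _, _, _, q, hq, h⟩ |
    ⟨rfl, F, _, _, m, hm, hF, ⟨e⟩⟩ | ⟨rfl, F, _, _, m, hm, hF, ⟨e⟩⟩ | ⟨rfl, F, _, _, m, hm, hF, ⟨e⟩⟩
  · obtain ⟨f, hf, hF⟩ := card_pow F p hp
    have h := Cfsg.Agent.S0243.result hF n hn
    obtain ⟨n, rfl⟩ := Nat.exists_eq_add_of_le' hn
    rw [Fin.prod_univ_eq_prod_range (fun i => (p ^ f) ^ (n + 2) - (p ^ f) ^ i), gl_prod,
      Finset.prod_range_succ', ← Nat.card_congr e.toEquiv] at h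
    have h' : Nat.gcd (n + 2) (p ^ f - 1) * Nat.card G = (p ^ f) ^ T (n + 1) *
        ∏ i ∈ Finset.range (n + 1), ((p ^ f) ^ (i + 1 + 1) - 1) := by
      have h0 : 0 < p ^ f - 1 := by have := two_le f hf; omega
      refine Nat.eq_of_mul_eq_mul_left h0 ?_
      simp only [zero_add, pow_one] at h
      linarith
    have hd := nd_gcd (a := n + 2) (ns1 f hf)
    have hM : ¬ p ∣ ∏ i ∈ Finset.range (n + 1), ((p ^ f) ^ (i + 1 + 1) - 1) :=
      nd_prod hp fun i _ => ns f _ hf (by omega)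
    have t1 := T_eq (n + 1)
    have t2 : T (n + 2) = T (n + 1) + (n + 1 + 1) := rfl
    rcases Nat.eq_zero_or_pos n with rfl | hn0
    · refine ⟨key1 hp h' hd hM (sl_lt (hpos f) 0) (by decide), fun hcon => ?_⟩
      refine absurd ⟨F, inferInstance, inferInstance, ?_, ⟨e⟩⟩ hcon
      rw [fact_eq hp h' hd hM, hF]; simp [T]
    · refine key hp h' hd hM (sl_lt (hpos f) n) ?_ _
      have : n + 1 + 1 ≤ T (n + 1) + 0 ∧ 3 * (n + 1) ≤ 2 * T (n + 1) := by constructor <;> nlinarith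
      omega
  · obtain ⟨f, hf, hF⟩ := card_pow F p hp
    have h := Cfsg.Agent.S0245.result hF m
    have h2 := Cfsg.Agent.S0246.result hF m (by omega)
    rw [Subgroup.card_eq_card_quotient_mul_card_subgroup (Subgroup.center _), h2,
      ← Nat.card_congr e.toEquiv, mul_comm] at h
    exact key hp h (nd_gcd (ns1 f hf)) (nd_prod hp fun i _ => ns f _ hf (by omega))
      (prod_even_lt (hpos f) m (by omega)) (by nlinarith) _
  · obtain ⟨f0, hf0, hF⟩ := card_pow F p hp
    obtain ⟨f, hf, rfl⟩ := root_pow hp hf0 two_ne_zero (hq.symm.trans hF)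
    have h := Cfsg.Agent.S0280.result hq n (by omega)
    obtain ⟨n, rfl⟩ := Nat.exists_eq_add_of_le' (show 2 ≤ n by omega)
    have t1 := T_eq (n + 1)
    rw [Finset.prod_range_succ', ← Nat.card_congr e.toEquiv,
      show (n + 2) * (n + 2 - 1) / 2 = T (n + 1) by
        rw [show n + 2 - 1 = n + 1 from rfl, mul_comm, ← t1]; simp] at h
    have h' : Nat.gcd (n + 2) (p ^ f + 1) * Nat.card G = (p ^ f) ^ T (n + 1) *
        ∏ i ∈ Finset.range (n + 1),
          (if Even (i + 1) then (p ^ f) ^ (i + 1 + 1) + 1 else (p ^ f) ^ (i + 1 + 1) - 1) := by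
      refine Nat.eq_of_mul_eq_mul_left (Nat.succ_pos (p ^ f)) ?_
      simp only [zero_add, pow_one, Even.zero, if_true] at h
      simp only [Nat.succ_eq_add_one]
      linarith
    have t2 : T (n + 2) = T (n + 1) + (n + 1 + 1) := rfl
    refine key hp h' (nd_gcd (nd_add hp (hdv f hf))) (nd_prod hp fun i _ => ?_) (su_lt (hpos f) n) ?_ _
    · split_ifs
      · exact na f _ hf (by omega)
      · exact ns f _ hf (by omega)
    · have : n + 1 + 1 ≤ T (n + 1) + 0 ∧ 3 * (n + 1) ≤ 2 * T (n + 1) := by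
        have : 1 ≤ n := by omega
        constructor <;> nlinarith
      omega
  · obtain ⟨f, hf, hF⟩ := card_pow F p hp
    rw [hF] at hodd
    have h := Cfsg.Agent.S0292.result hF hodd m hm
    rw [← Nat.card_congr e.toEquiv] at h
    refine key hp h ?_ (nd_prod hp fun i _ => ns f _ hf (by omega))
      (prod_even_lt (hpos f) m (by omega)) (by nlinarith) _
    intro h2
    have := (Nat.prime_dvd_prime_iff_eq hp Nat.prime_two).mp h2
    subst this
    exact (Nat.not_even_iff_odd.mpr hodd) (even_iff_two_dvd.mpr (hdv f hf))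
  · obtain ⟨f, hf, hF⟩ := card_pow F p hp
    have h := Cfsg.Agent.S0293.result hF m hm
    rw [← Nat.card_congr e.toEquiv, mul_assoc] at h
    obtain ⟨m, rfl⟩ := Nat.exists_eq_add_of_le' (show 1 ≤ m by omega)
    refine key hp h (nd_gcd (ns f _ hf (by omega))) (nd_mul hp (ns f _ hf (by omega))
      (nd_prod hp fun i _ => ns f _ hf (by omega)))
      (lt_mul (sub_lt' (hpos f)) (prod_even_le (hpos f) _) (hpos f)) ?_ _
    simp only [Nat.add_sub_cancel]; nlinarith
  · obtain ⟨f, hf, hF⟩ := card_pow F p hp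
    have h := Cfsg.Agent.S0294.result hF m hm a b hab
    rw [← Nat.card_congr e.toEquiv, mul_assoc, mul_comm ((p ^ f) ^ m + 1)] at h
    obtain ⟨m, rfl⟩ := Nat.exists_eq_add_of_le' (show 1 ≤ m by omega)
    refine key hp h (nd_gcd (na f _ hf (by omega))) (nd_mul hp
      (nd_prod hp fun i _ => ns f _ hf (by omega)) (na f _ hf (by omega)))
      (lt_mul (prod_even_lt (hpos f) _ (by omega)) (add_le' (two_le f hf)) (hpos f)) ?_ _
    simp only [Nat.add_sub_cancel]; nlinarith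
  · obtain ⟨f, hf, hF⟩ := card_pow F p hp
    have s := fun i => sub_lt' (i := i) (hpos f)
    have l := fun {a b i j : ℕ} (ha : a < (p ^ f) ^ i) (hb : b < (p ^ f) ^ j) => lt_mul ha hb.le (hpos f)
    have z := fun i (hi : i ≠ 0) => ns f i hf hi
    rcases h with ⟨-, ⟨e⟩⟩ | ⟨⟨e⟩⟩ | ⟨⟨e⟩⟩ | ⟨⟨e⟩⟩ | ⟨⟨e⟩⟩
    · have h := Cfsg.Agent.S1059.result hF
      rw [← Nat.card_congr e.toEquiv, ← one_mul (Nat.card G)] at h
      simp only [mul_assoc] at h
      exact key hp h n1 (nd_mul hp (z _ (by decide)) (z _ (by decide))) (l (s _) (s _)) (by decide) _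
    · have h := Cfsg.Agent.S1062.result hF
      rw [← Nat.card_congr e.toEquiv, ← one_mul (Nat.card G)] at h
      simp only [mul_assoc] at h
      exact key hp h n1 (nd_mul hp (z _ (by decide)) (nd_mul hp (z _ (by decide)) (nd_mul hp
        (z _ (by decide)) (z _ (by decide))))) (l (s _) (l (s _) (l (s _) (s _)))) (by decide) _
    · have h := Cfsg.Agent.S1063.result hF
      rw [← Nat.card_congr e.toEquiv] at h
      simp only [mul_assoc] at h
      exact key hp h (nd_gcd (ns1 f hf)) (nd_mul hp (z _ (by decide)) (nd_mul hp (z _ (by decide))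
        (nd_mul hp (z _ (by decide)) (nd_mul hp (z _ (by decide)) (nd_mul hp
        (z _ (by decide)) (z _ (by decide))))))) (l (s _) (l (s _) (l (s _) (l (s _) (l (s _) (s _))))))
        (by decide) _
    · have h := Cfsg.Agent.S1064.result hF
      rw [← Nat.card_congr e.toEquiv] at h
      simp only [mul_assoc] at h
      exact key hp h (nd_gcd (ns1 f hf)) (nd_mul hp (z _ (by decide)) (nd_mul hp (z _ (by decide))
        (nd_mul hp (z _ (by decide))
        (nd_mul hp (z _ (by decide)) (nd_mul hp (z _ (by decide)) (nd_mul hp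
        (z _ (by decide)) (z _ (by decide))))))))
        (l (s _) (l (s _) (l (s _) (l (s _) (l (s _) (l (s _) (s _))))))) (by decide) _
    · have h := Cfsg.Agent.S1065.result hF
      rw [← Nat.card_congr e.toEquiv, ← one_mul (Nat.card G)] at h
      simp only [mul_assoc] at h
      exact key hp h n1 (nd_mul hp (z _ (by decide)) (nd_mul hp (z _ (by decide))
        (nd_mul hp (z _ (by decide)) (nd_mul hp (z _ (by decide))
        (nd_mul hp (z _ (by decide)) (nd_mul hp (z _ (by decide)) (nd_mul hp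
        (z _ (by decide)) (z _ (by decide)))))))))
        (l (s _) (l (s _) (l (s _) (l (s _) (l (s _) (l (s _) (l (s _) (s _)))))))) (by decide) _
  · obtain ⟨f0, hf0, hF⟩ := card_pow F p hp
    rcases h with ⟨hK, ⟨e⟩⟩ | ⟨hK, ⟨e⟩⟩
    · obtain ⟨f, hf, rfl⟩ := root_pow hp hf0 two_ne_zero (hK.symm.trans hF)
      have s := fun i => sub_lt' (i := i) (hpos f)
      have z := fun i (hi : i ≠ 0) => ns f i hf hi
      have y := fun i (hi : i ≠ 0) => na f i hf hi
      have h := Cfsg.Agent.S1066.result hq hK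
      rw [← Nat.card_congr e.toEquiv] at h
      simp only [mul_assoc] at h
      have m := fun {a b i j : ℕ} (ha : a ≤ (p ^ f) ^ i) (hb : b ≤ (p ^ f) ^ j) =>
        (Nat.mul_le_mul ha hb).trans (pow_add (p ^ f) i j).symm.le
      exact key hp h (nd_gcd (nd_add hp (hdv f hf))) (nd_mul hp (z _ (by decide))
        (nd_mul hp (y _ (by decide))
        (nd_mul hp (z _ (by decide)) (nd_mul hp (z _ (by decide)) (nd_mul hp
        (y _ (by decide)) (z _ (by decide)))))))
        (lt_mul (s _) (m (add_le' (two_le f hf)) (m (s _).le (m (s _).le (m (add_le' (two_le f hf))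
          (s _).le)))) (hpos f)) (by decide) _
    · obtain ⟨f, hf, rfl⟩ := root_pow hp hf0 three_ne_zero (hK.symm.trans hF)
      have s := fun i => sub_lt' (i := i) (hpos f)
      have z := fun i (hi : i ≠ 0) => ns f i hf hi
      have h := Cfsg.Agent.S1067.result hq hK
      rw [← Nat.card_congr e.toEquiv, ← one_mul (Nat.card G)] at h
      simp only [mul_assoc] at h
      have h9 : (p ^ f) ^ 8 + (p ^ f) ^ 4 + 1 ≤ (p ^ f) ^ 9 := by
        have h2 := two_le f hf
        generalize p ^ f = q at h2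
        have h3 : q ^ 4 + 1 ≤ q ^ 8 := (add_le' h2).trans (Nat.pow_le_pow_right (by omega) (by decide))
        have : q ^ 8 * 2 ≤ q ^ 8 * q := Nat.mul_le_mul_left _ h2
        rw [pow_succ q 8]; omega
      exact key hp h n1 (nd_mul hp (z _ (by decide)) (nd_mul hp (z _ (by decide)) (nd_add hp
        (dvd_add (dvd_pow (hdv f hf) (by decide)) (dvd_pow (hdv f hf) (by decide))))))
        (lt_mul (s _) (lt_mul (s _) h9 (hpos f)).le (hpos f)) (by decide) _
  · have h := (Cfsg.Agent.S1163.result hm hF).1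
    rw [← Nat.card_congr e.toEquiv, ← one_mul (Nat.card G), mul_assoc] at h
    refine key (e := 1 + 2) hp h n1 (nd_mul hp (ns1 _ (by omega)) (na _ _ (by omega) (by decide))) ?_
      (by decide) _
    simpa using pair_lt (i := 1) (j := 2) (hpos (2 * m + 1)) (by decide)
  · have h := Cfsg.Agent.S1068.result hF
    rw [← Nat.card_congr e.toEquiv, ← one_mul (Nat.card G), mul_assoc, mul_assoc, mul_assoc,
      ← mul_assoc (2 ^ (2 * m + 1) - 1)] at h
    refine key (e := (1 + 3) + (4 + 6)) hp h n1 (nd_mul hp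
      (nd_mul hp (ns1 _ (by omega)) (na _ _ (by omega) (by decide)))
      (nd_mul hp (ns _ _ (by omega) (by decide)) (na _ _ (by omega) (by decide))))
      (lt_mul ?_ (pair_lt (hpos _) (by decide)).le (hpos _)) (by decide) _
    simpa using pair_lt (i := 1) (j := 3) (hpos (2 * m + 1)) (by decide)
  · have h := Cfsg.Agent.S1069.result hF
    rw [← Nat.card_congr e.toEquiv, ← one_mul (Nat.card G), mul_assoc] at h
    refine key (e := 1 + 3) hp h n1 (nd_mul hp (ns1 _ (by omega)) (na _ _ (by omega) (by decide))) ?_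
      (by decide) _
    simpa using pair_lt (i := 1) (j := 3) (hpos (2 * m + 1)) (by decide)

end Cfsg.Agent.S2363
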