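import Cfsg.Statements.S2364
import Cfsg.Agent.Lib.Lin.PSLOrd

set_option autoImplicit false
open Cfsg

namespace Cfsg.Agent.S2364

/-- Let F be a finite field of characteristic p, n ≥ 4, and let a, b be commuting elements of PSL(n, F) with a of order p. Then every prime divisor of the order of b divides the order of SL(n − 2, F). -/
theorem result {F : Type*} [Field F] [Fintype F] (p : ℕ) [Fact p.Prime] [CharP F p] (n : ℕ) (hn : 4 ≤ n)
    (a b : Matrix.ProjectiveSpecialLinearGroup (Fin n) F) (ha : orderOf a = p) (hab : Commute a b) :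
    (orderOf b).primeFactors ⊆ (Nat.card (Matrix.SpecialLinearGroup (Fin (n - 2)) F)).primeFactors := by
  open Polynomial CA.Rcf CA.PSLOrd in
  classical
  have hq : 2 ≤ Fintype.card F := Fintype.one_lt_card
  have hp : p.Prime := Fact.out
  intro r hr0
  obtain ⟨hr, hrb, -⟩ := Nat.mem_primeFactors.1 hr0
  clear hr0
  refine Nat.mem_primeFactors.2 ⟨hr, ?_, Nat.card_pos.ne'⟩
  obtain ⟨m, rfl⟩ : ∃ m, n = m + 2 + 2 := ⟨n - 4, by omega⟩
  rw [show m + 2 + 2 - 2 = m + 2 from rfl]
  have h1 := CA.SLnCard.card_SL (F := F) (m + 2) (by omega)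
  rw [Nat.card_eq_fintype_card, Fin.prod_univ_castSucc] at h1
  simp only [Fin.val_castSucc, Fin.val_last] at h1
  rw [show Fintype.card F ^ (m + 2) - Fintype.card F ^ (m + 1) =
    (Fintype.card F - 1) * Fintype.card F ^ (m + 1) by rw [Nat.sub_mul, pow_succ', one_mul],
    mul_comm (∏ _ : Fin (m + 1), _), mul_assoc, Nat.mul_right_inj (by omega)] at h1
  rw [h1]
  have key : ∀ k, 2 ≤ k → k ≤ m + 2 → r ∣ Fintype.card F ^ k - 1 → r ∣ Fintype.card F ^ (m + 1) *
      ∏ i : Fin (m + 1), (Fintype.card F ^ (m + 2) - Fintype.card F ^ (i : ℕ)) := fun k h2 h3 h => by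
    refine Dvd.dvd.mul_left (Dvd.dvd.trans ?_ (Finset.dvd_prod_of_mem _
      (Finset.mem_univ (⟨m + 2 - k, by omega⟩ : Fin (m + 1))))) _
    refine h.trans ⟨Fintype.card F ^ (m + 2 - k), ?_⟩
    rw [Nat.sub_mul, one_mul, ← pow_add, Nat.add_sub_cancel' h3]
  by_cases hrp : r = p
  · subst hrp
    refine Dvd.dvd.mul_right (Dvd.dvd.pow ?_ (by omega)) _
    rw [← CharP.cast_eq_zero_iff F r]; exact FiniteField.cast_card_eq_zero F
  have hF : (r : F) ≠ 0 := fun h =>
    hrp ((Nat.prime_dvd_prime_iff_eq hp hr).1 ((CharP.cast_eq_zero_iff F p r).1 h)).symm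
  have hk0 := orderOf_card_pos' hF
  rw [Nat.card_eq_fintype_card] at hk0
  rcases Nat.lt_or_ge 1 (orderOf ((Fintype.card F : ℕ) : ZMod r)) with h2 | h2
  · have h3 := orderOf_pow_orderOf_div (orderOf_pos b).ne' hrb
    have h4 : orderOf (a * b ^ (orderOf b / r)) = p * r := by
      rw [(hab.pow_right _).orderOf_mul_eq_mul_orderOf_of_coprime, ha, h3]
      rw [ha, h3]
      exact (Nat.coprime_primes hp hr).2 (Ne.symm hrp)
    have := ord_add_two_le p hr hF _ (h4 ▸ dvd_mul_left _ _) (h4 ▸ dvd_mul_right _ _) h2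
    exact key _ h2 (by omega) ((orderOf_dvd_iff_dvd (by omega)).1 dvd_rfl)
  · exact key 2 le_rfl (by omega) ((orderOf_dvd_iff_dvd (by omega)).1
      (by rw [show orderOf ((Fintype.card F : ℕ) : ZMod r) = 1 by omega]; exact one_dvd _))

end Cfsg.Agent.S2364
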