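import Cfsg.Statements.S2365
import Cfsg.Agent.Lib.Lin.PSUOrd

set_option autoImplicit false
open Cfsg

namespace Cfsg.Agent.S2365

open CA.CForm CA.CForm.Form CA.Rcf Module Polynomial CA.PSUOrd in
/-- Let q be a power of the prime p, F the field with q² elements, m ≥ 4, and let a, b be commuting elements of PSU(m, q) with a of order p. Then every prime divisor of the order of b divides the order of SU(m − 2, q). -/
theorem result {F : Type*} [Field F] [Fintype F] (p : ℕ) [Fact p.Prime] [CharP F p] (m q : ℕ) (hm : 4 ≤ m) (hF : Fintype.card F = q ^ 2)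
    (a b : Cfsg.PSU m F q) (ha : orderOf a = p) (hab : Commute a b) :
    (orderOf b).primeFactors ⊆ (Nat.card ↥(Cfsg.SU (m - 2) F q)).primeFactors := by
  classical
  have hq := two_le_of_card_sq hF
  have hp : p.Prime := Fact.out
  have : Finite (PSU m F q) := Finite.of_equiv _ (quotCenterCongr (suEquiv hF m).symm).toEquiv
  intro r hr0
  obtain ⟨hr, hrb, -⟩ := Nat.mem_primeFactors.1 hr0
  clear hr0
  refine Nat.mem_primeFactors.2 ⟨hr, ?_, Nat.card_pos.ne'⟩
  obtain ⟨n, rfl⟩ : ∃ n, m = n + 2 + 2 := ⟨m - 4, by omega⟩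
  rw [show n + 2 + 2 - 2 = n + 2 from rfl]
  have h1 := card_SU hF (n := n + 2) (by omega)
  rw [Finset.prod_range_succ', U_one, ← mul_assoc, mul_comm _ (q + 1), Nat.mul_right_inj (by omega)] at h1
  rw [h1]
  have key : ∀ k, 2 ≤ k → k ≤ n + 2 → orderOf (-(q : ZMod r)) ∣ k → r ∣ q ^ ((n + 2) * (n + 2 - 1) / 2) *
      ∏ i ∈ Finset.range (n + 1), U q (i + 1 + 1) := fun k h2 h3 h => by
    refine Dvd.dvd.mul_left (Dvd.dvd.trans ?_ (Finset.dvd_prod_of_mem _
      (Finset.mem_range.2 (show k - 2 < n + 1 by omega)))) _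
    rwa [show k - 2 + 1 + 1 = k by omega, dvd_U_iff (by omega)]
  by_cases hrp : r = p
  · subst hrp
    refine Dvd.dvd.mul_right (Dvd.dvd.pow (hr.dvd_of_dvd_pow (n := 2) ?_) (Nat.div_pos ?_ two_pos).ne') _
    · rw [← hF, ← CharP.cast_eq_zero_iff F r]; exact FiniteField.cast_card_eq_zero F
    · exact (Nat.le_add_left 2 n).trans (Nat.le_mul_of_pos_right _ (by omega))
  have hrF : (r : F) ≠ 0 := fun h =>
    hrp ((Nat.prime_dvd_prime_iff_eq hp hr).1 ((CharP.cast_eq_zero_iff F p r).1 h)).symm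
  have hk0 := ord_pos hF hrF
  rcases Nat.lt_or_ge 1 (orderOf (-(q : ZMod r))) with h2 | h2
  swap
  · exact key 2 le_rfl (by omega) (by rw [show orderOf (-(q : ZMod r)) = 1 by omega]; exact one_dvd _)
  refine key _ h2 ?_ dvd_rfl
  have h3 := orderOf_pow_orderOf_div (orderOf_pos b).ne' hrb
  have h4 : orderOf (a * b ^ (orderOf b / r)) = p * r := by
    rw [(hab.pow_right _).orderOf_mul_eq_mul_orderOf_of_coprime, ha, h3]
    rw [ha, h3]
    exact (Nat.coprime_primes hp hr).2 (Ne.symm hrp)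
  obtain ⟨s, k1, k2, -, k3⟩ := (psu_iff hF (by omega)).1 ⟨_, h4⟩
  obtain ⟨N, e, φ, l1, l2, l3, l4⟩ := exists_of_prime_dvd p k1.1 k1.2.1 hr fun M h =>
    (dvd_mul_left _ _).trans ((k3 M).2 h)
  obtain ⟨N', e', φ', l5, l6, l7, l8⟩ := exists_of_prime_dvd p k1.1 k1.2.1 hp fun M h =>
    (dvd_mul_right _ _).trans ((k3 M).2 h)
  have l9 := (l8.resolve_left fun h => l5 ((CharP.cast_eq_zero_iff F p _).2 h)).2
  have l10 := Nat.le_of_dvd (ord_pos hF l1) ((dvd_U_iff (by omega)).1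
    ((l4.resolve_right fun h => hrp h.1).trans ((dvd_U_iff (by omega)).2 dvd_rfl)))
  obtain ⟨s', rfl, l11⟩ := exists_cl_add (conj_conj hF) k1.2.2 l7 (k1.1 _ l7).monic
  rw [dg, Multiset.map_add, Multiset.sum_add, ← dg, dg_cl_pow hF l5 l6] at k2
  have l12 := Nat.mul_le_mul_right (orderOf (-(q : ZMod N'))) (show 2 ≤ e' + 1 by omega)
  have l13 := ord_pos hF l5
  rcases Multiset.mem_add.1 l3 with h | h
  · obtain ⟨ψ, h5, h6⟩ := mem_cl_pow hF h
    have h7 : ψ ∈ cycT F N' := by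
      rcases mem_cl.1 h5 with rfl | rfl
      exacts [l6, dual_mem_cyc (conj_conj hF) l5 l6]
    obtain rfl := CA.PSLOrd.eq_of_pow_eq l2 h7 h6
    obtain rfl := cyc_unique l1 l2 l5 h7
    omega
  · obtain ⟨s'', rfl, -⟩ := exists_cl_add (conj_conj hF) l11 h (k1.1 _ l3).monic
    rw [Multiset.map_add, Multiset.sum_add, ← dg, dg_cl_pow hF l1 l2] at k2
    have := Nat.le_mul_of_pos_left (orderOf (-(q : ZMod N))) e.add_one_pos
    omega

end Cfsg.Agent.S2365
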