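import Cfsg.Statements.S2367

set_option autoImplicit false
open Cfsg

namespace Cfsg.Agent.S2367

theorem fin {N a p : ℕ} (h0 : N ≠ 0) (h : 2 ^ a ∣ N) (k : p ^ 3 < 2 ^ a) : p ^ 3 < 2 ^ N.factorization 2 :=
  k.trans_le (Nat.pow_le_pow_right two_pos ((Nat.prime_two.pow_dvd_iff_le_factorization h0).1 h))

theorem spor {N p : ℕ} (a : ℕ) (hp : p.Prime) (hodd : p ≠ 2) (h3 : N.factorization p = 3)
    (h : N ≠ 0 ∧ N ∣ Nat.factorial 71 ∧ 2 ^ a ∣ N ∧ ∀ p < 72, p.Prime → p ≠ 2 → p ^ 3 ∣ N → p ^ 4 ∣ N ∨ p ^ 3 < 2 ^ a) :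
    p ^ 3 < 2 ^ N.factorization 2 := by
  have h1 := (hp.pow_dvd_iff_le_factorization h.1).2 h3.ge
  have h2 := hp.dvd_factorial.1 (((dvd_pow_self p three_ne_zero).trans h1).trans h.2.1)
  refine fin h.1 h.2.2.1 ((h.2.2.2 p (by omega) hp hodd h1).resolve_left fun e => ?_)
  have := (hp.pow_dvd_iff_le_factorization h.1).1 e
  omega

theorem cube (p : ℕ) (h : 5 ≤ p) : 2 * p ^ 3 < 2 ^ (2 * p) := by
  induction p, h using Nat.le_induction with
  | base => norm_num
  | succ p h ih =>
    have : (p + 1) ^ 3 ≤ 4 * p ^ 3 := by nlinarith [Nat.mul_le_mul h h, Nat.mul_le_mul (Nat.mul_le_mul h h) (le_refl p)]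
    rw [mul_add, pow_add]
    omega

/-- Let G be an alternating group of degree at least 5 or a simple group with the order of one of the 26 sporadic groups, and let p be an odd prime such that p³ is the exact power of p dividing the order of G. Then p³ is less than the 2-part of the order of G. -/
theorem result {G : Type*} [Group G] [Finite G] (hG : Cfsg.IsAlternating G ∨ Cfsg.IsSporadic G)
    (p : ℕ) (hp : p.Prime) (hodd : p ≠ 2) (h3 : (Nat.card G).factorization p = 3) :
    p ^ 3 < 2 ^ (Nat.card G).factorization 2 := by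
  rcases hG with ⟨n, hn, ⟨e⟩⟩ | hG
  · haveI : Nontrivial (Fin n) := Fin.nontrivial_iff_two_le.2 (by omega)
    have h1 : 2 * Nat.card G = n.factorial := by
      rw [Nat.card_congr e.toEquiv, two_mul_nat_card_alternatingGroup, Nat.card_perm, Nat.card_fin]
    have h0 : Nat.card G ≠ 0 := Nat.card_pos.ne'
    have p3 : 3 ≤ p := by have := hp.two_le; omega
    have h2 : 3 * p ≤ n := by
      by_contra! q
      have := (hp.pow_dvd_factorial_iff (Nat.log_lt_of_lt_pow (by omega) (show n < p ^ 2 by nlinarith))).1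
        (h1 ▸ ((hp.pow_dvd_iff_le_factorization h0).2 h3.ge).mul_left 2)
      simp only [Nat.Ico_succ_singleton, Finset.sum_singleton, pow_one] at this
      have := (Nat.le_div_iff_mul_le hp.pos).1 this
      omega
    have p5 : 5 ≤ p := by
      by_contra! q
      obtain rfl : p = 3 := by interval_cases p <;> simp_all (config := {decide := true})
      have : 3 ^ 4 ∣ Nat.card G := (Nat.Coprime.pow_left 4 (by norm_num)).dvd_of_dvd_mul_left
        (h1 ▸ (show 3 ^ 4 ∣ Nat.factorial 9 by decide).trans (Nat.factorial_dvd_factorial h2))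
      have := (hp.pow_dvd_iff_le_factorization h0).1 this
      omega
    have h4 : 2 ^ (2 * p) ∣ n.factorial := (Nat.prime_two.pow_dvd_factorial_iff (b := Nat.log 2 n + 3) (by omega)).2
      (le_trans (by simp; omega) (Finset.sum_le_sum_of_subset (s := {1, 2}) (by simp [Finset.subset_iff])))
    have h5 := cube p p5
    obtain ⟨k, hk⟩ : ∃ k, 2 * p = k + 1 := ⟨2 * p - 1, by omega⟩
    rw [hk, pow_succ' 2 k] at h4 h5
    exact fin h0 ((Nat.mul_dvd_mul_iff_left two_pos).1 (h1 ▸ h4)) (Nat.lt_of_mul_lt_mul_left h5)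
  rcases hG with h | h | h | h | h | h | h | h | h | h | h | h | h | h | h | h | h | h | h | h | h | h | h | h | h | h <;>
    rw [h.2] at h3 ⊢
  exacts [spor 4 hp hodd h3 (by decide +kernel), spor 6 hp hodd h3 (by decide +kernel), spor 7 hp hodd h3 (by decide +kernel),
    spor 7 hp hodd h3 (by decide +kernel), spor 10 hp hodd h3 (by decide +kernel), spor 3 hp hodd h3 (by decide +kernel),
    spor 7 hp hodd h3 (by decide +kernel), spor 7 hp hodd h3 (by decide +kernel), spor 21 hp hodd h3 (by decide +kernel),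
    spor 21 hp hodd h3 (by decide +kernel), spor 18 hp hodd h3 (by decide +kernel), spor 10 hp hodd h3 (by decide +kernel),
    spor 17 hp hodd h3 (by decide +kernel), spor 18 hp hodd h3 (by decide +kernel), spor 21 hp hodd h3 (by decide +kernel),
    spor 9 hp hodd h3 (by decide +kernel), spor 7 hp hodd h3 (by decide +kernel), spor 10 hp hodd h3 (by decide +kernel),
    spor 14 hp hodd h3 (by decide +kernel), spor 13 hp hodd h3 (by decide +kernel), spor 9 hp hodd h3 (by decide +kernel),
    spor 14 hp hodd h3 (by decide +kernel), spor 8 hp hodd h3 (by decide +kernel), spor 15 hp hodd h3 (by decide +kernel),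
    spor 41 hp hodd h3 (by decide +kernel), spor 46 hp hodd h3 (by decide +kernel)]

end Cfsg.Agent.S2367
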