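import Cfsg.Statements.S2368
import Cfsg.Agent.Lib.Lin.Rcf2

set_option autoImplicit false
open Cfsg

namespace Cfsg.Agent.S2368

open CA.CForm CA.Rcf Polynomial in
/-- Let F be a finite field of characteristic p and m ≥ 1. Every element of GL(m, F) of p-power order has order less than p·m, and GL(m, F) has an element of p-power order at least m; so the largest order of a p-element of GL(m, F) is the least power of p that is at least m. -/
theorem result {F : Type*} [Field F] [Fintype F] (p : ℕ) [Fact p.Prime] [CharP F p] (m : ℕ) (hm : 1 ≤ m) :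
    (∀ g : Matrix.GeneralLinearGroup (Fin m) F, (∃ j : ℕ, orderOf g = p ^ j) → orderOf g < p * m) ∧
      ∃ g : Matrix.GeneralLinearGroup (Fin m) F, (∃ j : ℕ, orderOf g = p ^ j) ∧ m ≤ orderOf g := by
  have hp : p.Prime := Fact.out
  constructor
  · rintro g ⟨j, hj⟩
    have h1 := (isNilpotent_iff_orderOf p (glEquiv g)).2 ⟨j, by rwa [MulEquiv.orderOf_eq]⟩
    rcases j with _ | j
    · have := hp.two_le
      rw [hj]; nlinarith
    rw [hj, pow_succ']
    refine Nat.mul_lt_mul_of_pos_left ?_ hp.pos
    by_contra! H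
    have := orderOf_dvd_of_pow_eq_one ((pow_char_pow_eq_one_iff p _ j).2
      ((sub_one_pow_eq_zero_iff' h1 _).2 fun a ha =>
        (Multiset.le_sum_of_mem ha).trans (by rw [sum_jt]; simpa using H)))
    rw [MulEquiv.orderOf_eq, hj, Nat.pow_dvd_pow_iff_le_right hp.one_lt] at this
    omega
  · obtain ⟨u, h1, h2⟩ := exists_unip (F := F) (V := Fin m → F) (μ := {m}) (by simp; omega)
      (by simp)
    obtain ⟨j, hj⟩ := (isNilpotent_iff_orderOf p u).1 h1
    refine ⟨glEquiv.symm u, ⟨j, by rwa [MulEquiv.orderOf_eq]⟩, ?_⟩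
    rw [MulEquiv.orderOf_eq, hj]
    exact (sub_one_pow_eq_zero_iff' h1 _).1
      ((pow_char_pow_eq_one_iff p u j).1 (hj ▸ pow_orderOf_eq_one u)) m (by simp [h2])

end Cfsg.Agent.S2368
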