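import Cfsg.Statements.S2369
import Cfsg.Agent.Lib.Lie.SSF4b
import Cfsg.Agent.Lib.Lie.ChevTwF4
-- import your own Cfsg.Agent.* helpers here

set_option autoImplicit false
open Cfsg

namespace Cfsg.Agent.S2369

open CA.Chev Cfsg.Lie Matrix

theorem mem_TW {D : ChevalleyDatum} [Good D] {K Γ : Type*} [Field K] [Group Γ] {A : Sys D K Γ} (τ : Twist A) {q : ℕ}
    {e : Nd D → ℕ} (hq : ∀ i t, τ.T.α (sim i) t = (t ^ q) ^ e i) {w : Equiv.Perm (Rt D)} {c : Nd D → Kˣ} (h : c ∈ τ.TW w) :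
    mact (Matrix.of fun i j => e i * cor (w (sim (τ.ι i))) j) c ^ q = c := by
  refine (funext fun j => ?_).trans (τ.mem_TW.1 h)
  rw [Pi.pow_apply, mact_apply, mact_apply, ← Equiv.prod_comp τ.ν fun i => τ.σT c i ^ _, ← Finset.prod_pow]
  refine Finset.prod_congr rfl fun i _ => ?_
  rw [τ.σT_apply, ← zpow_natCast, ← _root_.zpow_mul, mul_comm, of_apply, ← mul_assoc, _root_.zpow_mul, _root_.zpow_mul,
    zpow_natCast, zpow_natCast]
  exact congrArg (· ^ _) (Units.ext (hq i _).symm)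

/-- Let q = 2^(2m+1) with m ≥ 1 and let a, b be commuting elements of the large Ree group ²F₄(q) with a an involution. Then every prime divisor of the order of b divides q(q⁴ − 1). -/
theorem result {K : Type*} [Field K] [Fintype K] (m : ℕ) (hm : 1 ≤ m) (hK : Fintype.card K = 2 ^ (2 * m + 1))
    (a b : ↥(Cfsg.Lie.twistedF4 K (2 ^ m))) (ha : orderOf a = 2) (hab : Commute a b) :
    (orderOf b).primeFactors ⊆ (2 ^ (2 * m + 1) * ((2 ^ (2 * m + 1)) ^ 4 - 1)).primeFactors := by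
  obtain ⟨_, θ, h1, hθ, -⟩ := exists_theta 2 hK
  have R := TF4.real h1 hθ
  let τ := tF4 (iterateFrobenius (AlgebraicClosure K) 2 m)
  obtain ⟨j, hj⟩ := (Tw.field chevF4 (algebraMap K (AlgebraicClosure K))).exists_hom Function.surjective_id (adjG _ K)
    adjG_G (adjG _ _) adjG_θ_injective
  have e : τ.σ.comp j = j.comp (tF4 θ).σ := (adjG _ K).hom_ext adjG_G fun r t => by
    simp only [MonoidHom.comp_apply]
    rw [hj, τ.σ_x, Twist.σ_x, hj, TF4.f_eq, TF4.f_eq, Tw.field_f, Tw.field_f, h1, map_pow, map_pow]; rfl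
  have hi : Function.Injective ((adjG _ _).θ.comp (j.comp R.e)) := (injective_iff_map_eq_one _).2 fun g h =>
    R.e_inj (adjG_θ_injective ((hj.ker_le (fun _ => Iff.rfl) (adjG_G.ge trivial) h).trans (by simp)))
  have hσ : (adjG chevF4 _).Frob 2 τ.σ := ⟨fun r => ⟨_, 1, 2 ^ m * eF4 r, fun t => (τ.σ_x r t).trans (by
    rw [TF4.f_eq, one_mul, pow_mul]; rfl)⟩, fun _ => τ.is.mem_H, fun _ => τ.is.mem_N, 2, 2 * m + 1, two_pos,
    by omega, fun r t => by
      obtain ⟨e1, e2⟩ := (by decide +kernel : ∀ r : Rt chevF4, φF4 (φF4 r) = r ∧ eF4 r * eF4 (φF4 r) = 2) r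
      change τ.σ (τ.σ _) = _
      rw [τ.σ_x, τ.σ_x, show τ.ρ (τ.ρ r) = r from Fin.ext e1, TF4.f_eq, TF4.f_eq, map_pow, ← pow_mul, TF4.ρ_val, e2]
      simp only [iterateFrobenius_def, ← pow_mul, ← pow_succ, ← pow_add, two_mul]⟩
  intro s hs
  obtain ⟨h2, h3, h4⟩ := Nat.mem_primeFactors.1 hs
  have h5 : 1 < (2 ^ (2 * m + 1)) ^ 4 := Nat.one_lt_pow (by omega) (Nat.one_lt_pow (by omega) one_lt_two)
  refine Nat.mem_primeFactors.2 ⟨h2, ?_, mul_ne_zero (by positivity) (by omega)⟩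
  by_cases s2 : s = 2
  · rw [s2]; exact (dvd_pow_self 2 (by omega)).mul_right _
  have h6 : orderOf (a * b ^ (orderOf b / s)) = 2 * s := by
    have := orderOf_pow_orderOf_div h4 h3
    rw [(hab.pow_right _).orderOf_mul_eq_mul_orderOf_of_coprime (by
      rw [ha, this]; exact (Nat.coprime_primes Nat.prime_two h2).2 (Ne.symm s2)), ha, this]
  obtain ⟨w, hw, c, hc, v, -, h7, h8, ⟨k, h9⟩, h10⟩ := τ.ord_typ (sc_adj (by simp) K tor_injective_F4) hσ
    (g := j (R.e (a * b ^ (orderOf b / s)))) ((DFunLike.congr_fun e _).trans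
      (congrArg j ((tF4 θ).G1_le_F (R.e_range.le ⟨_, rfl⟩)))) ((j.comp R.e).isOfFinOrder (by
        rw [← orderOf_pos_iff, h6]; have := h2.pos; omega))
  replace h7 := h6.symm.trans ((orderOf_injective _ hi _).symm.trans h7)
  obtain ⟨t, -, ht⟩ := h10 (by
    rintro rfl
    rw [orderOf_one, Nat.lcm_one_right] at h7
    simpa using h8.symm.eq_one_of_dvd (h7 ▸ dvd_mul_right 2 s))
  have h11 : s ∣ orderOf c := ((h2.dvd_lcm.1 (h7 ▸ dvd_mul_left s 2)).resolve_right fun h =>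
    s2 ((Nat.prime_dvd_prime_iff_eq h2 Nat.prime_two).1 (h2.dvd_of_dvd_pow (h9 ▸ h)))).trans (orderOf_map_dvd _ _)
  obtain ⟨w, hw, hc, hd⟩ : ∃ w ∈ W chevF4, c ∈ τ.TW w ∧ (wM w).det ≠ 1 := by
    by_cases h : (wM w).det = 1
    · exact ⟨_, mul_mem (refl_mem t) hw, τ.TW_mul (refl_mem_RA t) (mact_refl ht) hc, by
        rw [wM_mul (refl_mem_RA t), det_mul, h, det_wM_refl]; decide⟩
    exact ⟨w, hw, hc, h⟩
  have := (Int.natCast_dvd_natCast.2 h11).trans (orderOf_dvd_iff_zpow_eq_one.2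
    (exp_2F4 (W_le_RA hw) hd (mem_TW τ (fun i => TF4.α_eq _) hc)))
  refine Dvd.dvd.mul_left (Int.natCast_dvd_natCast.1 (this.trans (dvd_of_eq ?_))) _
  push_cast [h5.le]; ring

end Cfsg.Agent.S2369
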