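import Cfsg.Statements.S2370
import Cfsg.Agent.Lib.Lie.H12BT
import Cfsg.Agent.Lib.Lie.H12BG1
import Cfsg.Agent.Lib.Lie.ChevTwF4

set_option autoImplicit false
open Cfsg

namespace Cfsg.Agent.S2370

open CA.Chev Cfsg.Lie

variable {D : ChevalleyDatum} [Good D] {K : Type*} [Field K]

/-- the matrix raises heights by at least `k` -/
def Up (k : ℤ) (M : Matrix D.Idx D.Idx K) : Prop := ∀ a b, M a b ≠ 0 → ∑ i, wI b i + k ≤ ∑ i, wI a i

theorem Up.mul {k l : ℤ} {M N : Matrix D.Idx D.Idx K} (h : Up k M) (h' : Up l N) : Up (k + l) (M * N) := by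
  intro a b hab
  rw [Matrix.mul_apply] at hab
  obtain ⟨c, -, hc⟩ := Finset.exists_ne_zero_of_sum_ne_zero hab
  have := h a c (left_ne_zero_of_mul hc)
  have := h' c b (right_ne_zero_of_mul hc)
  omega

theorem Up.add {k : ℤ} {M N : Matrix D.Idx D.Idx K} (h : Up k M) (h' : Up k N) : Up k (M + N) := by
  intro a b hab
  by_cases e : M a b = 0
  · exact h' a b fun e' => hab (by rw [Matrix.add_apply, e, e', add_zero])
  · exact h a b e

theorem Up.mono {k l : ℤ} {M : Matrix D.Idx D.Idx K} (h : Up k M) (hl : l ≤ k) : Up l M :=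
  fun a b hab => by have := h a b hab; omega

theorem up_of_hmg {v : Nd D → ℤ} {M : Matrix D.Idx D.Idx K} (h : Hmg v M) (hv : 1 ≤ ∑ i, v i) (c : K) :
    Up 1 (c • M) := fun a b hab => by
  rw [h a b (right_ne_zero_of_mul hab)]
  simp only [Pi.add_apply, Finset.sum_add_distrib]
  omega

theorem Up.pow {M : Matrix D.Idx D.Idx K} (h : Up 1 M) (n : ℕ) : Up (n + 1 : ℕ) (M ^ (n + 1)) := by
  induction n with
  | zero => simpa using h
  | succ n ih => rw [pow_succ]; exact (ih.mul h).mono (by push_cast; rfl)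

theorem up_U {g : D.group K} (hg : g ∈ (adjG D K).U) : Up 1 ((g.1 : Matrix D.Idx D.Idx K) - 1) := by
  refine (adjG D K).X_induction (P := fun g => Up 1 ((g.1 : Matrix D.Idx D.Idx K) - 1)) (fun a b h => by simp at h)
    (fun r hr t g _ ih => ?_) hg
  have h0 : 0 < ∑ i, rt r i := Pos.ht_pos hr
  have h1 : Up 1 (xR r t - 1) := by
    rw [xR, add_assoc, add_assoc, add_sub_cancel_left]
    refine (up_of_hmg (hmg_EM r).cz h0 _).add ((up_of_hmg (hmg_X2 r).cz ?_ _).add (up_of_hmg (hmg_X3 r).cz ?_ _)) <;>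
      simp only [Pi.add_apply, Finset.sum_add_distrib] <;> omega
  change Up 1 (xR r t * g.1.1 - 1)
  rw [show xR r t * g.1.1 - 1 = (xR r t - 1) * (g.1.1 - 1) + ((xR r t - 1) + (g.1.1 - 1)) by noncomm_ring]
  exact ((h1.mul ih).mono (by omega)).add (h1.add ih)

theorem ht_le (a : chevF4.Idx) : -11 ≤ ∑ i, wI a i ∧ ∑ i, wI a i ≤ 11 := by
  rcases a with a | a
  · simp
  · simp only [wI_inr, CA.H12BG1.rt_of_pre pre_F4]
    revert a; decide +kernel

/-- Let q = 2^(2m+1) with m ≥ 1. Every element of 2-power order of the large Ree group ²F₄(q) has order at most 32. -/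
theorem result {K : Type*} [Field K] [Fintype K] (m : ℕ) (hm : 1 ≤ m) (hK : Fintype.card K = 2 ^ (2 * m + 1))
    (x : ↥(Cfsg.Lie.twistedF4 K (2 ^ m))) (hx : ∃ j : ℕ, orderOf x = 2 ^ j) : orderOf x ≤ 32 := by
  obtain ⟨_, -⟩ := exists_theta 2 hK
  obtain ⟨y, -, hy⟩ := (genSubgroup_eq _).le x.2
  obtain ⟨j, hj⟩ := hx
  have e : orderOf x = orderOf y := by
    rw [← Subgroup.orderOf_coe, ← Subgroup.orderOf_coe y]; exact congrArg _ hy.symm
  obtain ⟨g, hg⟩ := CA.H12BT.exists_conj_U (adjG chevF4 K) (p := 2) adjG_G (Sys.r3_of_inj _ adjG_θ_injective) (X := Subgroup.zpowers y)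
    (IsPGroup.of_card (n := j) (by rw [Nat.card_zpowers, ← e, hj]))
  have h1 := (up_U (hg y (Subgroup.mem_zpowers y))).pow 31
  have h2 : (g * y * g⁻¹) ^ 32 = 1 := by
    refine Subtype.ext (Units.ext (sub_eq_zero.1 ?_))
    haveI : Nonempty chevF4.Idx := ⟨.inl ⟨0, by decide⟩⟩
    have := sub_pow_char_pow_of_commute 2 5 (Commute.one_right ((g * y * g⁻¹).1 : Matrix chevF4.Idx chevF4.Idx K))
    rw [one_pow] at this
    refine this.symm.trans (Matrix.ext fun a b => by_contra fun h => ?_)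
    have := h1 a b h
    have := ht_le a
    have := ht_le b
    omega
  rw [conj_pow, conj_eq_one_iff] at h2
  exact e ▸ Nat.le_of_dvd (by omega) (orderOf_dvd_of_pow_eq_one h2)

end Cfsg.Agent.S2370
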