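import Cfsg.Statements.S2372
import Cfsg.Agent.Lib.Lie.LangTor
-- import your own Cfsg.Agent.* helpers here

set_option autoImplicit false
open Cfsg

namespace Cfsg.Agent.S2372

open CA.Chev

/-- The group F₄(q) contains a cyclic subgroup of order q⁴ + 1 which is its own centralizer. -/
theorem result {F : Type*} [Field F] [Fintype F] (q : ℕ) (hF : Fintype.card F = q) :
    ∃ H : Subgroup ↥(Cfsg.Lie.chevF4.group F), IsCyclic ↥H ∧ Nat.card ↥H = q ^ 4 + 1 ∧
      Subgroup.centralizer (H : Set ↥(Cfsg.Lie.chevF4.group F)) = H := by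
  subst hF
  obtain ⟨H, a, b, c⟩ := cyc_untw (by simp) F tab_F4 ([2, 1, 2, 0, 3, 1] : List (Fin 4))
    (S := getN [27, 10, 46, 15]) (Y := (tb8 [0x1, 0x1800100, 0x1800001, 0x800100, 0x80]))
    (B := (tb8 [0x1, 0x800101, 0x80800101, 0x80000100]))
    (f := (([1, 0, 0, 0, 1] : List ℤ).getD · 0)) (by decide +kernel) (reg_of (by decide +kernel) Fintype.one_lt_card)
  refine ⟨H, a, ?_, c⟩
  change _ = ev 5 _ _ at b
  rw [card_ker_F4] at b
  have h2 := Fintype.one_lt_card (α := F)
  generalize Fintype.card F = q at b h2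
  simp [ev_eq, Finset.sum_range_succ] at b
  zify; simpa using b.trans (by ring)

end Cfsg.Agent.S2372
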