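import Cfsg.Statements.S2373
import Cfsg.Agent.Lib.Lie.LangTor
-- import your own Cfsg.Agent.* helpers here

set_option autoImplicit false
open Cfsg

namespace Cfsg.Agent.S2373

open CA.Chev

/-- The group E₆(q) (the simple Chevalley group of type E₆) contains a cyclic subgroup of order (q⁴ − q² + 1)(q² + q + 1)/gcd(3, q − 1) which is its own centralizer. -/
theorem result {F : Type*} [Field F] [Fintype F] (q : ℕ) (hF : Fintype.card F = q) :
    ∃ H : Subgroup ↥(Cfsg.Lie.chevE6.group F), IsCyclic ↥H ∧ Nat.card ↥H = (q ^ 4 - q ^ 2 + 1) * (q ^ 2 + q + 1) / Nat.gcd 3 (q - 1) ∧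
      Subgroup.centralizer (H : Set ↥(Cfsg.Lie.chevE6.group F)) = H := by
  subst hF
  obtain ⟨H, a, b, c⟩ := cyc_untw (by simp) F tab_E6 ([4, 3, 5, 1, 2, 0] : List (Fin 6))
    (S := getN [12, 23, 56, 51, 41, 33]) (Y := (tb8 [0x800100, 0x18080, 0x800100800001, 0x10000000080, 0x800001008000, 0x180000100, 0x18001008000]))
    (B := (tb8 [0x8080, 0x10100808000, 0x10100808080, 0x10201808180, 0x10101008080, 0x1008080]))
    (f := (([1, 1, 0, -1, 0, 1, 1] : List ℤ).getD · 0)) (by decide +kernel) (reg_of (by decide +kernel) Fintype.one_lt_card)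
  refine ⟨H, a, ?_, c⟩
  change _ = ev 7 _ _ at b
  rw [card_ker_E6, Nat.card_eq_fintype_card (α := F)] at b
  have h2 := Fintype.one_lt_card (α := F)
  generalize Fintype.card F = q at b h2
  simp [ev_eq, Finset.sum_range_succ] at b
  refine (Nat.div_eq_of_eq_mul_left (Nat.gcd_pos_of_pos_left _ three_pos) ?_).symm
  have : q ^ 2 ≤ q ^ 4 := Nat.pow_le_pow_right (by omega) (by norm_num)
  zify [this]; simpa using (b.trans (by ring)).symm

end Cfsg.Agent.S2373
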