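import Cfsg.Statements.S2374
import Cfsg.Agent.Lib.Lie.LangTor
-- import your own Cfsg.Agent.* helpers here

set_option autoImplicit false
open Cfsg

namespace Cfsg.Agent.S2374

open CA.Chev

/-- The group E₇(q) (the simple Chevalley group of type E₇) contains a cyclic subgroup of order (q⁴ − q² + 1)(q³ + 1)/gcd(2, q − 1) which is its own centralizer. -/
theorem result {F : Type*} [Field F] [Fintype F] (q : ℕ) (hF : Fintype.card F = q) :
    ∃ H : Subgroup ↥(Cfsg.Lie.chevE7.group F), IsCyclic ↥H ∧ Nat.card ↥H = (q ^ 4 - q ^ 2 + 1) * (q ^ 3 + 1) / Nat.gcd 2 (q - 1) ∧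
      Subgroup.centralizer (H : Set ↥(Cfsg.Lie.chevE7.group F)) = H := by
  subst hF
  obtain ⟨H, a, b, c⟩ := cyc_untw (by simp) F tab_E7 ([3, 4, 5, 6, 0, 2, 3, 4, 5, 1, 3, 4, 2, 3, 0, 2, 1, 3, 4, 5, 6, 2, 3, 4, 5, 1, 3, 4, 2, 3, 0, 2, 1, 3, 4, 5, 2, 3, 0, 2, 1, 3, 4, 0, 2, 1, 3] : List (Fin 7))
    (S := getN [65, 91, 109, 12, 46, 49, 85]) (Y := (tb8 [0x1000000000000, 0x80010180, 0x800100000000, 0x18080, 0x80000000000001, 0x1008001008000, 0x80018000000100, 0x1800001800000]))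
    (B := (tb8 [0x100000001, 0x1000000010001, 0x1000101010002, 0x2000001028002, 0x1800001018002, 0x1800001008002, 0x1]))
    (f := (([1, 0, -1, 1, 1, -1, 0, 1] : List ℤ).getD · 0)) (by decide +kernel) (reg_of (by decide +kernel) Fintype.one_lt_card)
  refine ⟨H, a, ?_, c⟩
  change _ = ev 8 _ _ at b
  rw [card_ker_E7, Nat.card_eq_fintype_card (α := F)] at b
  have h2 := Fintype.one_lt_card (α := F)
  generalize Fintype.card F = q at b h2
  simp [ev_eq, Finset.sum_range_succ] at b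
  refine (Nat.div_eq_of_eq_mul_left (Nat.gcd_pos_of_pos_left _ two_pos) ?_).symm
  have : q ^ 2 ≤ q ^ 4 := Nat.pow_le_pow_right (by omega) (by norm_num)
  zify [this]; simpa using (b.trans (by ring)).symm

end Cfsg.Agent.S2374
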