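import Cfsg.Statements.S2375
import Cfsg.Agent.Lib.Lie.LangTor
-- import your own Cfsg.Agent.* helpers here

set_option autoImplicit false
open Cfsg

namespace Cfsg.Agent.S2375

open CA.Chev

/-- The group E₈(q) contains a cyclic subgroup of order q⁸ + q⁷ − q⁵ − q⁴ − q³ + q + 1 which is its own centralizer. -/
theorem result {F : Type*} [Field F] [Fintype F] (q : ℕ) (hF : Fintype.card F = q) :
    ∃ H : Subgroup ↥(Cfsg.Lie.chevE8.group F), IsCyclic ↥H ∧ Nat.card ↥H = q ^ 8 + q ^ 7 - q ^ 5 - q ^ 4 - q ^ 3 + q + 1 ∧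
      Subgroup.centralizer (H : Set ↥(Cfsg.Lie.chevE8.group F)) = H := by
  subst hF
  obtain ⟨H, a, b, c⟩ := cyc_untw (by simp) F tab_E8 ([1, 4, 3, 7, 2, 1, 5, 0, 6, 1] : List (Fin 8))
    (S := getN [69, 131, 162, 135, 144, 122, 110, 128]) (Y := (tb8 [0x800101808000, 0x80010080010180, 0x100800100800001, 0x8000010000000080, 0x100800000000100, 0x8000000100008000, 0x180018000000100, 0x1800100008000, 0x8000018000000100]))
    (B := (tb8 [0x1020100008080, 0x1020201008080, 0x102030200808080, 0x103040301808180, 0x102030201008080, 0x102020101008080, 0x101010101008080, 0x101000000000000]))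
    (f := (([1, 1, 0, -1, -1, -1, 0, 1, 1] : List ℤ).getD · 0)) (by decide +kernel) (reg_of (by decide +kernel) Fintype.one_lt_card)
  refine ⟨H, a, ?_, c⟩
  change _ = ev 9 _ _ at b
  rw [card_ker_E8] at b
  have h2 := Fintype.one_lt_card (α := F)
  generalize Fintype.card F = q at b h2
  simp [ev_eq, Finset.sum_range_succ] at b
  have h3 : q ^ 3 ≤ q ^ 4 := Nat.pow_le_pow_right (by omega) (by norm_num)
  have h4 : q ^ 4 ≤ q ^ 5 := Nat.pow_le_pow_right (by omega) (by norm_num)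
  have h5 : 4 * q ^ 5 ≤ q ^ 7 := by rw [show q ^ 7 = q ^ 2 * q ^ 5 by ring]; exact Nat.mul_le_mul_right _ (by nlinarith)
  zify [show q ^ 5 ≤ q ^ 8 + q ^ 7 by omega, show q ^ 4 ≤ q ^ 8 + q ^ 7 - q ^ 5 by omega,
    show q ^ 3 ≤ q ^ 8 + q ^ 7 - q ^ 5 - q ^ 4 by omega]
  linear_combination b

end Cfsg.Agent.S2375
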