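import Cfsg.Statements.S2376
import Cfsg.Agent.Lib.Lie.LangTor
-- import your own Cfsg.Agent.* helpers here

set_option autoImplicit false
open Cfsg

namespace Cfsg.Agent.S2376

open CA.Chev

/-- The group ³D₄(q) contains a cyclic subgroup of order (q³ − 1)(q + 1) which is its own centralizer. -/
theorem result {K : Type*} [Field K] [Fintype K] (q : ℕ) (hq : IsPrimePow q) (hK : Fintype.card K = q ^ 3) :
    ∃ H : Subgroup ↥(Cfsg.Lie.twistedD4 K q), IsCyclic ↥H ∧ Nat.card ↥H = (q ^ 3 - 1) * (q + 1) ∧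
      Subgroup.centralizer (H : Set ↥(Cfsg.Lie.twistedD4 K q)) = H := by
  obtain ⟨H, a, b, c⟩ := cyc_3D4 K hq hK ([0, 1, 0, 2, 0, 3, 0, 1, 0] : List (Fin 4))
    (S := getN [15, 9, 16, 1]) (Y := (tb8 [0x1018000, 0x80000180, 0x18001, 0x180, 0x18000]))
    (B := (tb8 [0x1018080, 0x2018080, 0x1010000, 0x1008000]))
    (f := (([-1, -1, 0, 1, 1] : List ℤ).getD · 0)) (by decide +kernel) (reg_of (by decide +kernel) hq.two_le)
  refine ⟨H, a, ?_, c⟩
  have := Nat.one_le_pow 3 q hq.pos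
  zify [this]
  rw [b]
  simp [ev_eq, Finset.sum_range_succ]
  ring

end Cfsg.Agent.S2376
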