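import Cfsg.Statements.S2380
import Cfsg.Agent.Lib.Lin.PSLOrd
import Cfsg.Agent.Lib.Grp.Zsig

set_option autoImplicit false
open scoped MatrixGroups
open Cfsg

namespace Cfsg.Agent.S2380

section
open Polynomial CA.Rcf CA.PSLOrd Module

theorem val_pow {q r : ℕ} [hr : Fact r.Prime] (hq : 2 ≤ q) (hrq : ¬r ∣ q) {i : ℕ} (h0 : 0 < i)
    (hi : i < r) : padicValNat r (q ^ i - 1) =
      if orderOf (q : ZMod r) ∣ i then padicValNat r (q ^ orderOf (q : ZMod r) - 1) else 0 := by
  split_ifs with h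
  · obtain ⟨j, hj⟩ := h
    have h1 : r ∣ q ^ orderOf (q : ZMod r) - 1 := (orderOf_dvd_iff_dvd (by omega)).1 dvd_rfl
    generalize orderOf (q : ZMod r) = d at *
    subst hj
    have hd : 0 < d := Nat.pos_of_mul_pos_right h0 |> fun _ => Nat.pos_of_ne_zero (by rintro rfl; simp at h0)
    have hj : 0 < j := Nat.pos_of_ne_zero (by rintro rfl; simp at h0)
    rcases hr.1.eq_two_or_odd' with rfl | ho
    · obtain rfl : j = 1 := by nlinarith
      rw [mul_one]
    · have := padicValNat.pow_sub_pow (p := r) ho (x := q ^ d) (y := 1) (Nat.one_lt_pow hd.ne' hq) h1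
        (fun h => hrq (hr.1.dvd_of_dvd_pow h)) hj.ne'
      rw [one_pow, ← pow_mul] at this
      rw [this, padicValNat.eq_zero_of_not_dvd (n := j) (Nat.not_dvd_of_pos_of_lt hj (by nlinarith)),
        add_zero]
  · exact padicValNat.eq_zero_of_not_dvd fun h1 => h ((orderOf_dvd_iff_dvd (by omega)).2 h1)

theorem val_prod {q r : ℕ} [hr : Fact r.Prime] (hq : 2 ≤ q) (hrq : ¬r ∣ q) : ∀ n, n < r →
    padicValNat r (∏ i : Fin n, (q ^ n - q ^ (i : ℕ))) =
      n / orderOf (q : ZMod r) * padicValNat r (q ^ orderOf (q : ZMod r) - 1)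
  | 0, _ => by simp
  | n + 1, h => by
    have h1 : ∏ i : Fin (n + 1), (q ^ (n + 1) - q ^ (i : ℕ)) =
        (q ^ (n + 1) - 1) * (q ^ n * ∏ i : Fin n, (q ^ n - q ^ (i : ℕ))) := by
      rw [Fin.prod_univ_succ]
      simp only [Fin.val_zero, pow_zero, Fin.val_succ, pow_succ' q (_ : Fin n), pow_succ' q n,
        ← Nat.mul_sub, Finset.prod_mul_distrib, Finset.prod_const, Finset.card_univ, Fintype.card_fin]
    have h2 : ∏ i : Fin n, (q ^ n - q ^ (i : ℕ)) ≠ 0 := Finset.prod_ne_zero_iff.2 fun i _ =>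
      (Nat.sub_pos_of_lt (Nat.pow_lt_pow_right hq i.2)).ne'
    have h3 : q ^ (n + 1) - 1 ≠ 0 := (Nat.sub_pos_of_lt (Nat.one_lt_pow n.succ_ne_zero hq)).ne'
    rw [h1, padicValNat.mul h3 (by positivity), padicValNat.mul (by positivity) h2,
      val_prod hq hrq n (by omega), val_pow hq hrq n.succ_pos h, Nat.succ_div,
      padicValNat.eq_zero_of_not_dvd (n := q ^ n) (fun h => hrq (hr.1.dvd_of_dvd_pow h))]
    split_ifs <;> ring

theorem val_cyc {q r : ℕ} [hr : Fact r.Prime] (hq : 2 ≤ q) (h0 : 0 < orderOf (q : ZMod r)) :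
    padicValNat r ((cyclotomic (orderOf (q : ZMod r)) ℤ).eval (q : ℤ)).natAbs =
      padicValNat r (q ^ orderOf (q : ZMod r) - 1) := by
  have key : ∀ e ∈ (orderOf (q : ZMod r)).properDivisors, ¬(r : ℤ) ∣ (cyclotomic e ℤ).eval (q : ℤ) :=
    fun e he h => by
    have h1 := h.trans (CA.Zsig.phi_dvd e q)
    have h2 : r ∣ q ^ e - 1 := by
      rw [← Int.natCast_dvd_natCast, Nat.cast_sub (Nat.one_le_pow _ _ (by omega))]
      simpa using h1
    have h3 := Nat.le_of_dvd (Nat.pos_of_mem_properDivisors he) ((orderOf_dvd_iff_dvd (by omega)).2 h2)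
    have := (Nat.mem_properDivisors.1 he).2
    omega
  generalize orderOf (q : ZMod r) = d at *
  have h1 := congrArg (fun f => (eval (q : ℤ) f).natAbs) (prod_cyclotomic_eq_X_pow_sub_one h0 ℤ)
  rw [← Nat.cons_self_properDivisors h0.ne', Finset.prod_cons] at h1
  simp only [eval_mul, Int.natAbs_mul, eval_sub, eval_pow, eval_X, eval_one] at h1
  have h2 : ((q : ℤ) ^ d - 1).natAbs = q ^ d - 1 := by
    rw [← Nat.cast_pow, ← Nat.cast_one (R := ℤ), ← Nat.cast_sub (Nat.one_le_pow _ _ (by omega)),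
      Int.natAbs_natCast]
  have h3 : q ^ d - 1 ≠ 0 := (Nat.sub_pos_of_lt (Nat.one_lt_pow h0.ne' hq)).ne'
  rw [h2] at h1
  rw [← h1] at h3 ⊢
  rw [padicValNat.mul (left_ne_zero_of_mul h3) (right_ne_zero_of_mul h3),
    padicValNat.eq_zero_of_not_dvd (p := r)
      (n := (eval (q : ℤ) (∏ x ∈ d.properDivisors, cyclotomic x ℤ)).natAbs), add_zero]
  rw [← Int.natCast_dvd, eval_prod, (Nat.prime_iff_prime_int.1 hr.1).dvd_finset_prod_iff]
  rintro ⟨e, he, h⟩
  exact key e he h

theorem exists_hom {G : Type*} [Group G] [Fintype G] [IsCyclic G] {m : ℕ} (h : m ∣ Fintype.card G) :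
    ∃ χ : Multiplicative (ZMod m) →* G, Function.Injective χ := by
  obtain ⟨a, ha⟩ := IsCyclic.exists_ofOrder_eq_natCard (α := G)
  rw [← Nat.card_eq_fintype_card, ← ha] at h
  have := orderOf_pow_orderOf_div (orderOf_pos a).ne' h
  generalize a ^ (orderOf a / m) = x at this
  subst this
  rw [← Nat.card_zpowers]
  exact ⟨(Subgroup.zpowers x).subtype.comp (zmodCyclicMulEquiv inferInstance).toMonoidHom,
    Subtype.val_injective.comp (zmodCyclicMulEquiv _).injective⟩

theorem sylow_equiv {G A : Type*} [Group G] [Finite G] [Group A] {r : ℕ} [Fact r.Prime]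
    (P : Sylow r G) (ψ : A →* G) (hψ : Function.Injective ψ)
    (h : Nat.card A = r ^ padicValNat r (Nat.card G)) : Nonempty (↥(P : Subgroup G) ≃* A) := by
  have e := MonoidHom.ofInjective hψ
  exact ⟨(P.equiv (Sylow.ofCard ψ.range (by
    rw [← Nat.card_congr e.toEquiv, h, Nat.factorization_def _ Fact.out]))).trans e.symm⟩

theorem exists_GL {F : Type*} [Field F] [Fintype F] (n : ℕ) {r : ℕ} [hr : Fact r.Prime]
    (hrq : ¬r ∣ Fintype.card F) {m : ℕ}
    (hm : m ∣ Fintype.card F ^ orderOf ((Fintype.card F : ℕ) : ZMod r) - 1) :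
    ∃ ψ : (Fin (n / orderOf ((Fintype.card F : ℕ) : ZMod r)) → Multiplicative (ZMod m)) →*
      GL (Fin n) F, Function.Injective ψ := by
  classical
  have hF : (r : F) ≠ 0 := fun h => hrq (by
    obtain ⟨p, _, f, hp, hK⟩ := FiniteField.card' F
    obtain rfl := (Nat.prime_dvd_prime_iff_eq hp hr.1).1 ((CharP.cast_eq_zero_iff F p r).1 h)
    rw [hK]; exact dvd_pow_self _ f.ne_zero)
  obtain ⟨φ, hφ⟩ := exists_mem_cycT (F := F) hr.1.ne_zero
  have h1 := (mem_cycT.1 hφ).1
  have := Fact.mk h1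
  have := finite_adjoinRoot h1.ne_zero
  have : Finite (AdjoinRoot φ) := Module.finite_of_finite F
  have := Fintype.ofFinite (AdjoinRoot φ)
  have hd := natDegree_cyc hF hφ
  rw [Nat.card_eq_fintype_card] at hd
  rw [← hd] at hm ⊢
  obtain ⟨χ, hχ⟩ := exists_hom (G := (AdjoinRoot φ)ˣ) (m := m) (by
    rwa [Fintype.card_units, ← Nat.card_eq_fintype_card, natCard_adjoinRoot h1.ne_zero,
      Nat.card_eq_fintype_card])
  let V := (Fin (n / φ.natDegree) → AdjoinRoot φ) × (Fin (n % φ.natDegree) → F)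
  have hV : finrank F V = n := by
    simp [V, finrank_pi_fintype, finrank_adjoinRoot, Nat.div_add_mod']
  let μ : (Fin (n / φ.natDegree) → AdjoinRoot φ) →* End F V :=
    { toFun := fun x => (LinearMap.mulLeft F x).prodMap LinearMap.id
      map_one' := LinearMap.ext fun v => by simp [V]
      map_mul' := fun x y => LinearMap.ext fun v => by simp [V, mul_assoc] }
  have hμ : Function.Injective μ := fun x y h => by
    simpa [μ, V] using congrArg Prod.fst (LinearMap.congr_fun h (1, 0))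
  let ν := (LinearMap.toMatrixAlgEquiv (finBasisOfFinrankEq F V hV)).toMulEquiv.toMonoidHom.comp
    (μ.comp (((Units.coeHom _).comp χ).compLeft (Fin (n / φ.natDegree))))
  refine ⟨ν.toHomUnits, fun x y h => ?_⟩
  have h2 := hμ ((LinearMap.toMatrixAlgEquiv _).injective (congrArg Units.val h))
  exact funext fun i => hχ (Units.ext (congrFun h2 i))

end

/-- Sylow subgroups of `GL_n(q)` for large primes. Let `F` be a field with `q` elements and `r` a prime with `r > n` and `r ∤ q`. Let `d` be the multiplicative order of `q` modulo `r` and `m` the `r`-part of the value at `q` of the `d`-th cyclotomic polynomial. Then every Sylow `r`-subgroup of `GL_n(q)` is a direct product of `⌊n/d⌋` cyclic groups of order `m` (the degrees of the Weyl group being `1, …, n`). -/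
theorem result {F : Type*} [Field F] [Fintype F] {q : ℕ} (hq : Fintype.card F = q) (n : ℕ)
    (r : ℕ) [Fact r.Prime] (hrn : n < r) (hrq : ¬ r ∣ q) (P : Sylow r (GL (Fin n) F)) :
    Nonempty (↥(P : Subgroup (GL (Fin n) F)) ≃*
      (Fin (n / orderOf (q : ZMod r)) →
        Multiplicative (ZMod (r ^ padicValNat r ((Polynomial.cyclotomic (orderOf (q : ZMod r)) ℤ).eval (q : ℤ)).natAbs)))) := by
  subst hq
  have hq : 2 ≤ Fintype.card F := Fintype.one_lt_card
  have h0 : 0 < orderOf ((Fintype.card F : ℕ) : ZMod r) := by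
    have : ((Fintype.card F : ℕ) : ZMod r) ≠ 0 := mt (ZMod.natCast_eq_zero_iff _ _).1 hrq
    exact (isOfFinOrder_iff_pow_eq_one.2 ⟨r - 1, Nat.sub_pos_of_lt (Fact.out : r.Prime).one_lt,
      ZMod.pow_card_sub_one_eq_one this⟩).orderOf_pos
  rw [val_cyc hq h0]
  obtain ⟨ψ, hψ⟩ := exists_GL n hrq (m := r ^ padicValNat r _) pow_padicValNat_dvd
  refine sylow_equiv P ψ hψ ?_
  rw [CA.SLnCard.card_GL, Nat.card_eq_fintype_card (α := F), val_prod hq hrq n hrn, Nat.card_fun,
    Nat.card_congr Multiplicative.toAdd, Nat.card_zmod, Nat.card_fin, ← pow_mul, mul_comm]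

end Cfsg.Agent.S2380
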