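import Cfsg.Statements.S2379
import Cfsg.Agent.S2380

set_option autoImplicit false
open Cfsg

namespace Cfsg.Agent.S2379

/-- Sylow subgroups of `SL_n(q)` for large primes. Let `F` be a field with `q` elements and `r` a prime with `r > n` and `r ∤ q` (so `r` does not divide the order `n!` of the Weyl group). Let `d` be the multiplicative order of `q` modulo `r`, `a` the number of integers `i` with `2 ≤ i ≤ n` divisible by `d` (the degrees of the Weyl group are `2, …, n`), and `m` the `r`-part of the value at `q` of the `d`-th cyclotomic polynomial. Then every Sylow `r`-subgroup of `SL_n(q)` is a direct product of `a` cyclic groups of order `m`. -/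
theorem result {F : Type*} [Field F] [Fintype F] {q : ℕ} (hq : Fintype.card F = q) (n : ℕ)
    (r : ℕ) [Fact r.Prime] (hrn : n < r) (hrq : ¬ r ∣ q) (P : Sylow r (Matrix.SpecialLinearGroup (Fin n) F)) :
    Nonempty (↥(P : Subgroup (Matrix.SpecialLinearGroup (Fin n) F)) ≃*
      (Fin ((Finset.Icc 2 n).filter (fun i => orderOf (q : ZMod r) ∣ i)).card →
        Multiplicative (ZMod (r ^ padicValNat r ((Polynomial.cyclotomic (orderOf (q : ZMod r)) ℤ).eval (q : ℤ)).natAbs)))) := by
  open Cfsg.Agent.S2380 in
  classical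
  subst hq
  have hq : 2 ≤ Fintype.card F := Fintype.one_lt_card
  have h0 : 0 < orderOf ((Fintype.card F : ℕ) : ZMod r) := by
    have : ((Fintype.card F : ℕ) : ZMod r) ≠ 0 := mt (ZMod.natCast_eq_zero_iff _ _).1 hrq
    exact (isOfFinOrder_iff_pow_eq_one.2 ⟨r - 1, Nat.sub_pos_of_lt (Fact.out : r.Prime).one_lt,
      ZMod.pow_card_sub_one_eq_one this⟩).orderOf_pos
  rw [val_cyc hq h0]
  rcases n with _ | n
  · refine sylow_equiv P 1 (fun x y _ => funext fun i => absurd i.2 (by simp)) ?_
    rw [Nat.card_unique (α := Matrix.SpecialLinearGroup _ _), Nat.card_fun]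
    simp
  have h1 := congrArg (padicValNat r) (CA.SLnCard.card_SL (F := F) (n + 1) (by omega))
  rw [Nat.card_eq_fintype_card (α := F), val_prod hq hrq _ hrn,
    padicValNat.mul (by omega) Nat.card_pos.ne'] at h1
  rcases Nat.lt_or_ge 1 (orderOf ((Fintype.card F : ℕ) : ZMod r)) with h2 | h2
  · have h3 : ¬r ∣ Fintype.card F - 1 := fun h => by
      have := Nat.le_of_dvd one_pos ((CA.PSLOrd.orderOf_dvd_iff_dvd (k := 1) (x := Fintype.card F)
        (by omega)).2 (by simpa using h))
      omega
    rw [padicValNat.eq_zero_of_not_dvd h3, zero_add] at h1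
    have h4 : ((Finset.Icc 2 (n + 1)).filter
        (fun i => orderOf ((Fintype.card F : ℕ) : ZMod r) ∣ i)).card =
        (n + 1) / orderOf ((Fintype.card F : ℕ) : ZMod r) := by
      rw [← Nat.Ioc_filter_dvd_card_eq_div]
      congr 1
      ext i
      simp only [Finset.mem_filter, Finset.mem_Icc, Finset.mem_Ioc]
      exact ⟨fun h => ⟨by omega, h.2⟩, fun h => ⟨by have := Nat.le_of_dvd h.1.1 h.2; omega, h.2⟩⟩
    rw [h4]
    obtain ⟨ψ, hψ⟩ := exists_GL (n + 1) hrq (m := r ^ padicValNat r _) pow_padicValNat_dvd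
    have hc : Nat.card (Fin ((n + 1) / orderOf ((Fintype.card F : ℕ) : ZMod r)) → Multiplicative
        (ZMod (r ^ padicValNat r (Fintype.card F ^ orderOf ((Fintype.card F : ℕ) : ZMod r) - 1)))) =
        r ^ padicValNat r (Nat.card (Matrix.SpecialLinearGroup (Fin (n + 1)) F)) := by
      rw [h1, Nat.card_fun, Nat.card_congr Multiplicative.toAdd, Nat.card_zmod, Nat.card_fin,
        ← pow_mul, mul_comm]
    have h5 : ∀ x, ψ x ∈ (Matrix.GeneralLinearGroup.det : GL (Fin (n + 1)) F →* Fˣ).ker := fun x => by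
      rw [MonoidHom.mem_ker, ← orderOf_eq_one_iff]
      refine Nat.eq_one_of_dvd_coprimes (((Nat.Prime.coprime_iff_not_dvd Fact.out).2 h3).pow_left _)
        ((orderOf_map_dvd _ _).trans ((orderOf_map_dvd _ _).trans (hc ▸ orderOf_dvd_natCard x))) ?_
      rw [← Fintype.card_units]
      exact orderOf_dvd_card
    exact sylow_equiv P (CA.SLnCard.slEquivKer.symm.toMonoidHom.comp (ψ.codRestrict _ h5))
      (CA.SLnCard.slEquivKer.symm.injective.comp fun x y h => hψ (congrArg Subtype.val h)) hc
  · have h3 : orderOf ((Fintype.card F : ℕ) : ZMod r) = 1 := by omega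
    rw [h3] at h1 ⊢
    have h4 : ((Finset.Icc 2 (n + 1)).filter (fun i => 1 ∣ i)).card = n := by simp
    rw [h4]
    rw [pow_one] at h1 ⊢
    obtain ⟨χ, hχ⟩ := exists_hom (G := Fˣ) (m := r ^ padicValNat r (Fintype.card F - 1))
      (by rw [Fintype.card_units]; exact pow_padicValNat_dvd)
    let f : (Fin n → Fˣ) → Fin (n + 1) → F := fun x =>
      Fin.cons ((∏ i, x i)⁻¹ : Fˣ) fun i => x i
    let δ : (Fin n → Fˣ) →* Matrix.SpecialLinearGroup (Fin (n + 1)) F := MonoidHom.mk'
      (fun x => ⟨Matrix.diagonal (f x), by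
        simp [f, Fin.prod_univ_succ, Finset.prod_ne_zero_iff]⟩)
      (fun x y => Subtype.ext (by
        show Matrix.diagonal (f (x * y)) = Matrix.diagonal (f x) * Matrix.diagonal (f y)
        rw [Matrix.diagonal_mul_diagonal]
        congr 1
        ext i
        cases i using Fin.cases <;> simp [f, Finset.prod_mul_distrib, mul_comm]))
    refine sylow_equiv P (δ.comp (χ.compLeft (Fin n))) (fun x y h => funext fun i => hχ ?_) ?_
    · have := congrArg (fun g : Matrix.SpecialLinearGroup (Fin (n + 1)) F => g.1 i.succ i.succ) h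
      change Matrix.diagonal (f _) i.succ i.succ = Matrix.diagonal (f _) i.succ i.succ at this
      simpa [f, Units.ext_iff] using this
    · rw [Nat.card_fun, Nat.card_congr Multiplicative.toAdd, Nat.card_zmod, Nat.card_fin, ← pow_mul]
      congr 1
      rw [Nat.div_one] at h1
      nlinarith

end Cfsg.Agent.S2379
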