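import Cfsg.Statements.S2381
import Cfsg.Agent.S2380
import Cfsg.Agent.S0245
import Cfsg.Agent.Lib.Lin.H22Embed

set_option autoImplicit false
open Cfsg

namespace Cfsg.Agent.S2381

open Cfsg.Agent.S2380 CA.PSLOrd

theorem val_pow' {q r : ℕ} [hr : Fact r.Prime] (hr2 : r ≠ 2) (hq : 2 ≤ q) (hrq : ¬r ∣ q) {i : ℕ} (h0 : 0 < i)
    (hi : ∀ j, i = orderOf (q : ZMod r) * j → ¬ r ∣ j) : padicValNat r (q ^ i - 1) =
      if orderOf (q : ZMod r) ∣ i then padicValNat r (q ^ orderOf (q : ZMod r) - 1) else 0 := by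
  split_ifs with h
  · obtain ⟨j, hj⟩ := h
    have h1 : r ∣ q ^ orderOf (q : ZMod r) - 1 := (orderOf_dvd_iff_dvd (by omega)).1 dvd_rfl
    have h2 := hi j hj
    generalize orderOf (q : ZMod r) = d at *
    subst hj
    have hd : 0 < d := Nat.pos_of_ne_zero (by rintro rfl; simp at h0)
    have hj : 0 < j := Nat.pos_of_ne_zero (by rintro rfl; simp at h0)
    have := padicValNat.pow_sub_pow (p := r) (hr.1.odd_of_ne_two hr2) (x := q ^ d) (y := 1)
      (Nat.one_lt_pow hd.ne' hq) h1 (fun h => hrq (hr.1.dvd_of_dvd_pow h)) hj.ne'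
    rw [one_pow, ← pow_mul] at this
    rw [this, padicValNat.eq_zero_of_not_dvd h2, add_zero]
  · exact padicValNat.eq_zero_of_not_dvd fun h1 => h ((orderOf_dvd_iff_dvd (by omega)).2 h1)

theorem val_prod' {q r : ℕ} [hr : Fact r.Prime] (hr2 : r ≠ 2) (hq : 2 ≤ q) (hrq : ¬r ∣ q)
    (hd : 2 ≤ orderOf (q : ZMod r)) : ∀ n, n < 2 * r → padicValNat r (∏ i : Fin n, (q ^ n - q ^ (i : ℕ))) =
      n / orderOf (q : ZMod r) * padicValNat r (q ^ orderOf (q : ZMod r) - 1)
  | 0, _ => by simp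
  | n + 1, h => by
    have h1 : ∏ i : Fin (n + 1), (q ^ (n + 1) - q ^ (i : ℕ)) =
        (q ^ (n + 1) - 1) * (q ^ n * ∏ i : Fin n, (q ^ n - q ^ (i : ℕ))) := by
      rw [Fin.prod_univ_succ]
      simp only [Fin.val_zero, pow_zero, Fin.val_succ, pow_succ' q (_ : Fin n), pow_succ' q n,
        ← Nat.mul_sub, Finset.prod_mul_distrib, Finset.prod_const, Finset.card_univ, Fintype.card_fin]
    have h2 : ∏ i : Fin n, (q ^ n - q ^ (i : ℕ)) ≠ 0 := Finset.prod_ne_zero_iff.2 fun i _ =>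
      (Nat.sub_pos_of_lt (Nat.pow_lt_pow_right hq i.2)).ne'
    have h3 : q ^ (n + 1) - 1 ≠ 0 := (Nat.sub_pos_of_lt (Nat.one_lt_pow n.succ_ne_zero hq)).ne'
    rw [h1, padicValNat.mul h3 (by positivity), padicValNat.mul (by positivity) h2,
      val_prod' hr2 hq hrq hd n (by omega), val_pow' hr2 hq hrq n.succ_pos (fun j hj hr => by
        have := Nat.le_of_dvd (Nat.pos_of_ne_zero (by rintro rfl; simp at hj)) hr
        have := Nat.mul_le_mul hd this
        omega), Nat.succ_div,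
      padicValNat.eq_zero_of_not_dvd (n := q ^ n) (fun h => hrq (hr.1.dvd_of_dvd_pow h))]
    split_ifs <;> ring

theorem val_sp {q r : ℕ} [hr : Fact r.Prime] (hr2 : r ≠ 2) (hq : 2 ≤ q) (hrq : ¬r ∣ q) :
    ∀ n, n < r → padicValNat r (∏ i ∈ Finset.range n, (q ^ (2 * (i + 1)) - 1)) =
      ((Finset.Icc 1 n).filter (fun i => orderOf (q : ZMod r) ∣ 2 * i)).card *
        padicValNat r (q ^ orderOf (q : ZMod r) - 1)
  | 0, _ => by simp
  | n + 1, h => by
    have h2 : ∏ i ∈ Finset.range n, (q ^ (2 * (i + 1)) - 1) ≠ 0 := Finset.prod_ne_zero_iff.2 fun i _ =>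
      (Nat.sub_pos_of_lt (Nat.one_lt_pow (by omega) hq)).ne'
    have h3 : q ^ (2 * (n + 1)) - 1 ≠ 0 := (Nat.sub_pos_of_lt (Nat.one_lt_pow (by omega) hq)).ne'
    rw [Finset.prod_range_succ, padicValNat.mul h2 h3, val_sp hr2 hq hrq n (by omega),
      val_pow' (i := 2 * (n + 1)) hr2 hq hrq (by omega) (fun j hj hj' => by
        have h4 : r ∣ 2 * (n + 1) := hj ▸ hj'.mul_left _
        rcases (hr.1.dvd_mul).1 h4 with h5 | h5
        · exact hr2 ((Nat.prime_dvd_prime_iff_eq hr.1 Nat.prime_two).1 h5)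
        · exact absurd (Nat.le_of_dvd n.succ_pos h5) (by omega)),
      ← Finset.insert_Icc_right_eq_Icc_add_one (by omega), Finset.filter_insert]
    split_ifs
    · rw [Finset.card_insert_of_notMem (by simp)]; ring
    · rfl

theorem card_filter (n d e : ℕ) (h : ∀ i, d ∣ 2 * i ↔ e ∣ i) :
    ((Finset.Icc 1 n).filter (fun i => d ∣ 2 * i)).card = n / e := by
  rw [← Nat.Ioc_filter_dvd_card_eq_div]
  congr 1
  ext i
  simp only [Finset.mem_filter, Finset.mem_Icc, Finset.mem_Ioc, h]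
  exact ⟨fun h => ⟨by omega, h.2⟩, fun h => ⟨by omega, h.2⟩⟩


/-- Sylow subgroups of `Sp_{2n}(q)` for large primes. Let `F` be a field with `q` elements and `r` an odd prime with `r > n` and `r ∤ q` (so `r` does not divide the order `2^n n!` of the Weyl group). Let `d` be the multiplicative order of `q` modulo `r`, `a` the number of `i` with `1 ≤ i ≤ n` and `d ∣ 2i` (the degrees being `2, 4, …, 2n`), and `m` the `r`-part of the value at `q` of the `d`-th cyclotomic polynomial. Then every Sylow `r`-subgroup of the symplectic group `Sp_{2n}(q)` is a direct product of `a` cyclic groups of order `m`. -/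
theorem result {F : Type*} [Field F] [Fintype F] {q : ℕ} (hq : Fintype.card F = q) (n : ℕ)
    (r : ℕ) [Fact r.Prime] (hr2 : r ≠ 2) (hrn : n < r) (hrq : ¬ r ∣ q) (P : Sylow r ↥(Matrix.symplecticGroup (Fin n) F)) :
    Nonempty (↥(P : Subgroup ↥(Matrix.symplecticGroup (Fin n) F)) ≃*
      (Fin ((Finset.Icc 1 n).filter (fun i => orderOf (q : ZMod r) ∣ 2 * i)).card →
        Multiplicative (ZMod (r ^ padicValNat r ((Polynomial.cyclotomic (orderOf (q : ZMod r)) ℤ).eval (q : ℤ)).natAbs)))) := by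
  classical
  subst hq
  have hq : 2 ≤ Fintype.card F := Fintype.one_lt_card
  have h0 : 0 < orderOf ((Fintype.card F : ℕ) : ZMod r) := by
    have : ((Fintype.card F : ℕ) : ZMod r) ≠ 0 := mt (ZMod.natCast_eq_zero_iff _ _).1 hrq
    exact (isOfFinOrder_iff_pow_eq_one.2 ⟨r - 1, Nat.sub_pos_of_lt (Fact.out : r.Prime).one_lt,
      ZMod.pow_card_sub_one_eq_one this⟩).orderOf_pos
  rw [val_cyc hq h0]
  have hc := Cfsg.Agent.S0245.result (F := F) rfl n
  have h2 : ∏ i ∈ Finset.range n, (Fintype.card F ^ (2 * (i + 1)) - 1) ≠ 0 := Finset.prod_ne_zero_iff.2 fun i _ =>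
    (Nat.sub_pos_of_lt (Nat.one_lt_pow (by omega) hq)).ne'
  haveI : Finite (Matrix.symplecticGroup (Fin n) F) := Nat.finite_of_card_ne_zero (hc ▸ by positivity)
  have hv := congrArg (padicValNat r) hc
  rw [padicValNat.mul (by positivity) h2, val_sp hr2 hq hrq n hrn, padicValNat.eq_zero_of_not_dvd
    (n := Fintype.card F ^ _) (fun h => hrq ((Fact.out : r.Prime).dvd_of_dvd_pow h)), zero_add] at hv
  rcases Nat.even_or_odd (orderOf ((Fintype.card F : ℕ) : ZMod r)) with ⟨e, he⟩ | ho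
  · have h3 : ((Finset.Icc 1 n).filter (fun i => orderOf ((Fintype.card F : ℕ) : ZMod r) ∣ 2 * i)).card =
        (n + n) / orderOf ((Fintype.card F : ℕ) : ZMod r) := by
      rw [card_filter n _ e fun i => by rw [he, ← two_mul]; exact Nat.mul_dvd_mul_iff_left two_pos, he,
        ← two_mul, ← two_mul, Nat.mul_div_mul_left _ _ two_pos]
    rw [h3] at hv ⊢
    obtain ⟨ψ, hψ⟩ := exists_GL (n + n) hrq (m := r ^ padicValNat r _) pow_padicValNat_dvd
    have h4 : padicValNat r (Nat.card (GL (Fin (n + n)) F)) = padicValNat r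
        (Nat.card (Matrix.symplecticGroup (Fin n) F)) := by
      rw [CA.SLnCard.card_GL, Nat.card_eq_fintype_card (α := F), val_prod' hr2 hq hrq (by omega) _ (by omega), hv]
    let ρ : Matrix.symplecticGroup (Fin n) F →* GL (Fin (n + n)) F :=
      ((Matrix.reindexAlgEquiv F F finSumFinEquiv).toMulEquiv.toMonoidHom.comp
        (Matrix.symplecticGroup (Fin n) F).subtype).toHomUnits
    have hρ : Function.Injective ρ := fun x y h =>
      Subtype.ext ((Matrix.reindexAlgEquiv F F finSumFinEquiv).injective (congrArg Units.val h))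
    have e1 := (P : Subgroup _).equivMapOfInjective ρ hρ
    obtain ⟨e2⟩ := sylow_equiv (r := r) (Sylow.ofCard ((P : Subgroup _).map ρ) (by
      rw [← Nat.card_congr e1.toEquiv, P.card_eq_multiplicity, Nat.factorization_def _ Fact.out,
        Nat.factorization_def _ Fact.out, h4])) ψ hψ (by
      rw [h4, hv, Nat.card_fun, Nat.card_congr Multiplicative.toAdd, Nat.card_zmod, Nat.card_fin, ← pow_mul,
        mul_comm])
    exact ⟨e1.trans e2⟩
  · rw [card_filter n _ _ fun i => (Nat.Coprime.dvd_mul_left (Nat.coprime_two_right.2 ho))] at hv ⊢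
    obtain ⟨ψ, hψ⟩ := exists_GL n hrq (m := r ^ padicValNat r _) pow_padicValNat_dvd
    refine sylow_equiv P ((CA.H22Embed.leviSp (Fin n) F).comp ψ) ((CA.H22Embed.leviSp_injective _).comp hψ) ?_
    rw [hv, Nat.card_fun, Nat.card_congr Multiplicative.toAdd, Nat.card_zmod, Nat.card_fin, ← pow_mul, mul_comm]

end Cfsg.Agent.S2381
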