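import Cfsg.Statements.S2387
import Cfsg.Agent.Lib.Lin.Rcf3

set_option autoImplicit false
open scoped MatrixGroups
open Cfsg

namespace Cfsg.Agent.S2387

open CA.CForm CA.CForm.Form CA.Rcf Polynomial in
/-- In `GL_n(q)` with `n ≥ 1`, `q` a power of the prime `p`, the number of conjugacy classes of elements of order prime to `p` (diagonalisable over the algebraic closure; determined by the characteristic polynomial) is `(q - 1) q^(n-1)`. -/
theorem result {F : Type*} [Field F] [Fintype F] {q : ℕ} (hq : Fintype.card F = q) (p : ℕ) [Fact p.Prime] [CharP F p] (n : ℕ) (hn : 1 ≤ n) :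
    Nat.card {c : ConjClasses (GL (Fin n) F) // ∃ g : GL (Fin n) F, ConjClasses.mk g = c ∧ (orderOf g).Coprime p} = (q - 1) * q ^ (n - 1) := by
  obtain ⟨n, rfl⟩ := Nat.exists_eq_add_of_le' hn
  rw [card_ss_classes p (glEquiv (ι := Fin (n + 1)) (F := F)).toMonoidHom glEquiv.injective
    (fun g h _ _ => (isConj_congr glEquiv).1)
    (fun χ => (χ.Monic ∧ χ.natDegree = n + 1) ∧ χ.coeff 0 ≠ 0) fun χ => ⟨fun h => ?_, ?_⟩,
    card_monic_coeff_zero n (· ≠ 0), ← Nat.card_congr unitsEquivNeZero, Nat.card_units,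
    Nat.card_eq_fintype_card, hq, Nat.add_sub_cancel]
  · obtain ⟨g, hg⟩ := exists_ss_equiv (V := Fin (n + 1) → F) h.1.1 (by simpa using h.1.2) h.2
    exact ⟨glEquiv.symm g, by simpa using hg⟩
  · rintro ⟨g, -, rfl⟩
    refine ⟨⟨LinearMap.charpoly_monic _, by simp [LinearMap.charpoly_natDegree]⟩, ?_⟩
    rw [coeff_zero_charpoly]
    exact mul_ne_zero (by simp) (LinearEquiv.isUnit_det' _).ne_zero

end Cfsg.Agent.S2387
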