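import Cfsg.Statements.S2388
import Cfsg.Agent.Lib.Lin.Rcf2

set_option autoImplicit false
open Cfsg

namespace Cfsg.Agent.S2388

open CA.CForm CA.Rcf Polynomial in
/-- In `SL_n(q)`, `q` a power of the prime `p`, two elements of order prime to `p` with the same characteristic polynomial are conjugate in `SL_n(q)` (not merely in `GL_n`). -/
theorem result {F : Type*} [Field F] [Fintype F] (p : ℕ) [Fact p.Prime] [CharP F p] (n : ℕ)
    (g h : Matrix.SpecialLinearGroup (Fin n) F) (hg : (orderOf g).Coprime p) (hh : (orderOf h).Coprime p)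
    (hc : (g : Matrix (Fin n) (Fin n) F).charpoly = (h : Matrix (Fin n) (Fin n) F).charpoly) : IsConj g h := by
  have key : ∀ g : Matrix.SpecialLinearGroup (Fin n) F, (orderOf g).Coprime p → IsSS (Matrix.toLin' g.1) := fun g hg =>
    (isSS_iff_coprime p (glEquiv (Matrix.SpecialLinearGroup.toGL g))).2 (by
      rwa [MulEquiv.orderOf_eq, orderOf_injective _ Matrix.SpecialLinearGroup.toGL_injective])
  rcases n with _ | n
  · rw [Subsingleton.elim g h]
  exact isConj_SL (sim_of_charpoly_eq (key g hg) (key h hh) (by simpa using hc))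
    fun a ha => (key g hg).exists_commute_det (by simp) ha

end Cfsg.Agent.S2388
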