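import Cfsg.Statements.S2389
import Cfsg.Agent.Lib.Lin.CFormConj

set_option autoImplicit false
open Cfsg

namespace Cfsg.Agent.S2389

open CA.CForm CA.CForm.Form CA.Rcf Polynomial in
/-- In the symplectic group `Sp_{2n}(q)`, `q` a power of the prime `p`, two elements of order prime to `p` with the same characteristic polynomial are conjugate in `Sp_{2n}(q)`. -/
theorem result {F : Type*} [Field F] [Fintype F] (p : ℕ) [Fact p.Prime] [CharP F p] (n : ℕ)
    (g h : ↥(Matrix.symplecticGroup (Fin n) F)) (hg : (orderOf g).Coprime p) (hh : (orderOf h).Coprime p)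
    (hc : (g : Matrix (Fin n ⊕ Fin n) (Fin n ⊕ Fin n) F).charpoly = (h : Matrix (Fin n ⊕ Fin n) (Fin n ⊕ Fin n) F).charpoly) :
    IsConj g h := by
  have key : ∀ g : ↥(Matrix.symplecticGroup (Fin n) F), (orderOf g).Coprime p →
      IsSS (Matrix.toLin' g.1) := fun g hg => (isSS_iff_coprime p (spEquiv F n g).1).2
        (by rwa [Subgroup.orderOf_coe, MulEquiv.orderOf_eq])
  rw [← isConj_congr (spEquiv F n), isConj_iff_isoSim]
  exact (sympStd_nondeg F n).symp_isoSim_of_ss (sympStd_nondeg F n) (key g hg)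
    (sim_of_charpoly_eq (key g hg) (key h hh) ((charpoly_toLin'' g.1).trans (hc.trans (charpoly_toLin'' h.1).symm)))

end Cfsg.Agent.S2389
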