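import Cfsg.Statements.S2390
import Cfsg.Agent.Lib.Lin.CFormConj2

set_option autoImplicit false
open Cfsg

namespace Cfsg.Agent.S2390

open CA.CForm CA.CForm.Form CA.Rcf Polynomial in
/-- In the special unitary group `SU_n(q)` (inside `SL_n` over the field with `q²` elements), `q` a power of the prime `p`, two elements of order prime to `p` with the same characteristic polynomial are conjugate in `SU_n(q)`. -/
theorem result {F : Type*} [Field F] [Fintype F] {q : ℕ} (hF : Fintype.card F = q ^ 2) (p : ℕ) [Fact p.Prime] [CharP F p] (n : ℕ)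
    (g h : ↥(Cfsg.SU n F q)) (hg : (orderOf g).Coprime p) (hh : (orderOf h).Coprime p)
    (hc : ((g : Matrix.SpecialLinearGroup (Fin n) F) : Matrix (Fin n) (Fin n) F).charpoly =
      ((h : Matrix.SpecialLinearGroup (Fin n) F) : Matrix (Fin n) (Fin n) F).charpoly) : IsConj g h := by
  have key : ∀ g : ↥(SU n F q), (orderOf g).Coprime p →
      IsSS (Matrix.toLin' g.1.1) := fun g hg => (isSS_iff_coprime p (suEquiv hF n g).1.1).2
        (by rwa [Subgroup.orderOf_coe, Subgroup.orderOf_coe, MulEquiv.orderOf_eq])
  exact (isConj_congr (suEquiv hF n)).1 ((hermStd_nondeg hF n).herm_ss_isConj_SIsom (key g hg)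
    (isConj_iff_sim.2 (sim_of_charpoly_eq (key g hg) (key h hh)
      ((charpoly_toLin'' g.1.1).trans (hc.trans (charpoly_toLin'' h.1.1).symm)))))

end Cfsg.Agent.S2390
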