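import Cfsg.Statements.S2391
import Cfsg.Agent.Lib.Lin.AutLin

set_option autoImplicit false
open Cfsg

namespace Cfsg.Agent.S2391

open Matrix

variable {F : Type*} [Field F] {n : ℕ}

/-- The ascending series of fixed spaces. -/
def W (U : Subgroup (Matrix.SpecialLinearGroup (Fin n) F)) : ℕ → Submodule F (Fin n → F)
  | 0 => ⊥
  | i + 1 => ⨅ u : U, (W U i).comap (Matrix.mulVecLin u.1.1 - LinearMap.id)

theorem mem_succ {U : Subgroup (Matrix.SpecialLinearGroup (Fin n) F)} {i : ℕ} {v : Fin n → F} :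
    v ∈ W U (i + 1) ↔ ∀ u ∈ U, u.1 *ᵥ v - v ∈ W U i := by
  simp [W]

theorem inv {U : Subgroup (Matrix.SpecialLinearGroup (Fin n) F)} (i : ℕ) :
    ∀ g ∈ Subgroup.normalizer (U : Set (Matrix.SpecialLinearGroup (Fin n) F)), ∀ v ∈ W U i,
      g.1 *ᵥ v ∈ W U i := by
  induction i with
  | zero => intro g _ v hv; rw [show v = 0 from hv, mulVec_zero]; exact zero_mem _
  | succ i ih =>
    intro g hg v hv
    rw [mem_succ] at hv ⊢
    intro u hu
    have := ih g hg _ (hv (g⁻¹ * u * g) ((Subgroup.mem_normalizer_iff''.1 hg u).1 hu))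
    rwa [mulVec_sub, mulVec_mulVec, ← Matrix.SpecialLinearGroup.coe_mul, ← mul_assoc, ← mul_assoc,
      mul_inv_cancel, one_mul, Matrix.SpecialLinearGroup.coe_mul, ← mulVec_mulVec] at this

/-- The Borel–Tits property of `SL_n(q)` in flag form: for a field `F` of characteristic `p` with finitely many elements and a non-trivial `p`-subgroup `U` of `SL_n(F)`, there is a flag `0 = V₀ < V₁ < ⋯ < V_{k+1} = F^n` with at least one proper non-zero member such that every element of the normaliser of `U` maps each `V_i` onto itself and every element of `U` acts trivially on each quotient `V_{i+1}/V_i` (so the normaliser lies in the parabolic subgroup of the flag and `U` in its unipotent radical). -/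
theorem result {F : Type*} [Field F] [Fintype F] (p : ℕ) [Fact p.Prime] [CharP F p] (n : ℕ)
    (U : Subgroup (Matrix.SpecialLinearGroup (Fin n) F)) (hU : IsPGroup p ↥U) (hne : U ≠ ⊥) :
    ∃ (k : ℕ) (V : Fin (k + 2) → Submodule F (Fin n → F)), 1 ≤ k ∧ StrictMono V ∧ V 0 = ⊥ ∧ V (Fin.last (k + 1)) = ⊤ ∧
      (∀ g ∈ Subgroup.normalizer (U : Set (Matrix.SpecialLinearGroup (Fin n) F)), ∀ i, (V i).map (Matrix.mulVecLin (g : Matrix (Fin n) (Fin n) F)) = V i) ∧
      (∀ u ∈ U, ∀ i : Fin (k + 1), ∀ v ∈ V i.succ, (u : Matrix (Fin n) (Fin n) F).mulVec v - v ∈ V (Fin.castSucc i)) := by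
  have hlt : ∀ i, W U i ≠ ⊤ → W U i < W U (i + 1) := fun i hi => by
    refine lt_of_le_of_ne (fun v hv => mem_succ.2 fun u hu =>
      sub_mem (inv i u (Subgroup.le_normalizer hu) v hv) hv) fun e => ?_
    obtain ⟨v, -, h1, h2⟩ := CA.AutLin.exists_fixed_mod (hU.map Matrix.SpecialLinearGroup.toLin') ⊤
      (W U i) (fun h => hi (top_le_iff.1 h)) (fun _ _ _ _ => trivial) (by
        rintro _ ⟨u, hu, rfl⟩ v hv
        exact inv i u (Subgroup.le_normalizer hu) v hv)
    exact h1 (e ▸ mem_succ.2 fun u hu => h2 _ ⟨u, hu, rfl⟩)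
  have hex : ∃ N, W U N = ⊤ := by
    by_contra h
    push Not at h
    have : Finite (Submodule F (Fin n → F)) :=
      Finite.of_injective _ (SetLike.coe_injective (A := Submodule F (Fin n → F)))
    exact not_injective_infinite_finite _ (strictMono_nat_of_lt_succ fun i => hlt i (h i)).injective
  classical
  have h1 : W U 1 ≠ ⊤ := fun h => hne (eq_bot_iff.2 fun u hu => Subtype.ext (by
    apply Matrix.ext_of_mulVec_single
    intro i
    have := mem_succ.1 (h ▸ Submodule.mem_top : Pi.single i 1 ∈ W U 1) u hu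
    rw [sub_eq_zero.1 this]; ext j; simp [Matrix.one_apply, Pi.single_apply]))
  have h0 : W U 0 ≠ ⊤ := fun h => h1 (top_le_iff.1 (h ▸ fun v hv => mem_succ.2 fun u hu =>
      sub_mem (inv 0 u (Subgroup.le_normalizer hu) v hv) hv))
  have hN := Nat.find_spec hex
  have hN' := fun m => Nat.find_min hex (m := m)
  obtain ⟨k, hk⟩ : ∃ k, Nat.find hex = k + 1 := ⟨Nat.find hex - 1, by
    have : Nat.find hex ≠ 0 := fun e => h0 (e ▸ hN)
    omega⟩
  rw [hk] at hN hN'
  refine ⟨k, fun i => W U i, Nat.pos_of_ne_zero fun e => h1 (by rwa [e] at hN),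
    Fin.strictMono_iff_lt_succ.2 fun i => hlt _ (hN' _ i.2), rfl, hN, fun g hg i => ?_,
    fun u hu i v hv => mem_succ.1 hv u hu⟩
  refine le_antisymm ?_ fun v hv => ⟨_, inv i g⁻¹ (inv_mem hg) v hv, ?_⟩
  · rintro _ ⟨v, hv, rfl⟩
    exact inv i g hg v hv
  · rw [mulVecLin_apply, mulVec_mulVec, ← Matrix.SpecialLinearGroup.coe_mul, mul_inv_cancel]
    simp

end Cfsg.Agent.S2391
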