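import Cfsg.Statements.S2392
import Cfsg.Agent.Lib.Lin.SLTr

set_option autoImplicit false
open scoped MatrixGroups
open Cfsg

namespace Cfsg.Agent.S2392

open Matrix CA.SLTr

variable {F : Type*} [Field F] [Fintype F] {m : ℕ} {L : Type*} [Field L]

def c (v : Fin m → F) : Fin (m + 1) → F := Fin.cons 0 v

omit [Fintype F] in
theorem c_dot (u : Fin m → F) (v : Fin (m + 1) → F) : c u ⬝ᵥ v = u ⬝ᵥ Fin.tail v := by
  simp [c, dotProduct, Fin.sum_univ_succ, Fin.tail]

omit [Fintype F] in
theorem c_e (u : Fin m → F) : c u ⬝ᵥ Pi.single 0 1 = 0 := by simp [c]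

def t (v : Fin m → F) : SpecialLinearGroup (Fin (m + 1)) F := tv (Pi.single 0 1) (c v) (c_e v)

omit [Fintype F] in
theorem t_add (u v : Fin m → F) : t (u + v) = t u * t v := by
  rw [t, t, t, ← tv_add _ _ _ _ _ (by rw [add_dotProduct, c_e, c_e, add_zero])]
  congr 1; ext i; refine Fin.cases ?_ (fun _ => ?_) i <;> simp [c]

theorem sum_dot [DecidableEq F] {ψ : AddChar F L} (hψ : ψ ≠ 1) (a : Fin m → F) :
    ∑ v, ψ (v ⬝ᵥ a) = if a = 0 then (Fintype.card (Fin m → F) : L) else 0 := by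
  split_ifs with h
  · simp [h]
  obtain ⟨i, hi⟩ := Function.ne_iff.1 h
  obtain ⟨b, hb⟩ := AddChar.ne_one_iff.1 hψ
  exact AddChar.sum_eq_zero_of_ne_one (ψ := ψ.compAddMonoidHom ((dotProductBilin F F).flip a).toAddMonoidHom)
    (AddChar.ne_one_iff.2 ⟨Pi.single i (b / a i), by simpa [div_mul_cancel₀ b (show a i ≠ 0 from hi)]⟩)

theorem main (hm : 2 ≤ m) {ψ : AddChar F L} (hψ : ψ ≠ 1) (hL : (Fintype.card F : L) ≠ 0) {d : ℕ}
    (ρ : SpecialLinearGroup (Fin (m + 1)) F →* Matrix (Fin d) (Fin d) L) (h : ∃ v, ρ (t v) ≠ 1) :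
    Fintype.card F ^ m - 1 ≤ d := by
  classical
  let E : (Fin m → F) → Matrix (Fin d) (Fin d) L := fun a => ∑ v, ψ (-(v ⬝ᵥ a)) • ρ (t v)
  have hN : (Fintype.card (Fin m → F) : L) ≠ 0 := by simp [hL]
  have h1 : ∀ u a, ρ (t u) * E a = ψ (u ⬝ᵥ a) • E a := fun u a => by
    simp only [E, Finset.mul_sum, Finset.smul_sum, mul_smul_comm, ← map_mul, ← t_add, smul_smul, ← AddChar.map_add_eq_mul]
    exact Fintype.sum_equiv (Equiv.addLeft u) _ _ fun v => by simp
  have h2 : ∀ a b, E b * E a = if a = b then (Fintype.card (Fin m → F) : L) • E a else 0 := fun a b => by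
    conv_lhs => rw [show E b = ∑ v, ψ (-(v ⬝ᵥ b)) • ρ (t v) from rfl]
    simp only [Finset.sum_mul, smul_mul_assoc, h1, smul_smul, ← AddChar.map_add_eq_mul, ← Finset.sum_smul,
      neg_add_eq_sub, ← dotProduct_sub, sum_dot hψ, sub_eq_zero]
    split_ifs <;> simp
  have h3 : ∑ a, E a = (Fintype.card (Fin m → F) : L) • 1 := by
    simp only [E]
    rw [Finset.sum_comm]
    have : ∀ v a : Fin m → F, -(v ⬝ᵥ a) = a ⬝ᵥ -v := fun v a => by rw [dotProduct_neg, dotProduct_comm]
    simp only [← Finset.sum_smul, this, sum_dot hψ, neg_eq_zero, ite_smul, zero_smul,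
      Finset.sum_ite_eq', Finset.mem_univ, if_true]
    rw [show t (0 : Fin m → F) = 1 by simpa using t_add (0 : Fin m → F) 0, map_one]
  have hc : ∀ a : Fin m → F, a ≠ 0 → c a ∉ F ∙ (Pi.single 0 1 : Fin (m + 1) → F) := fun a ha h => by
    obtain ⟨x, hx⟩ := Submodule.mem_span_singleton.1 h
    exact ha (funext fun i => by simpa [c] using (congrFun hx i.succ).symm)
  have h4 : ∀ a b, a ≠ 0 → b ≠ 0 → E a = 0 → E b = 0 := fun a b ha hb h0 => by
    obtain ⟨g, g1, g2⟩ := exists_fix_one (by simpa) (hc a ha) (hc b hb)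
    have e1 : ∀ (g : SpecialLinearGroup (Fin (m + 1)) F), g.1 *ᵥ Pi.single 0 1 = Pi.single 0 1 →
        ∀ v, c (Fin.tail (c v ᵥ* (g⁻¹).1)) = c v ᵥ* (g⁻¹).1 := fun g hg v => by
      have := dot_conj g (c v) (Pi.single 0 1)
      rw [hg, c_e, dotProduct_single, mul_one] at this
      rw [c, ← this, Fin.cons_self_tail]
    have g3 : (g⁻¹).1 *ᵥ Pi.single 0 1 = Pi.single 0 1 := by conv_lhs => rw [← g1, inv_mulVec]
    have : ρ g * E a * ρ g⁻¹ = E b := by
      simp only [E, Finset.mul_sum, Finset.sum_mul, mul_smul_comm, smul_mul_assoc, ← map_mul]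
      refine Fintype.sum_bijective (fun v => Fin.tail (c v ᵥ* (g⁻¹).1)) (Finite.injective_iff_bijective.1 fun u v h => ?_)
        _ _ fun v => ?_
      · have := congrArg (fun x => Fin.tail (c x ᵥ* g.1)) h
        simp only [e1 g g1, vecMul_vecMul, ← Matrix.SpecialLinearGroup.coe_mul, inv_mul_cancel] at this
        simpa [c] using this
      · congr 3
        · have := dot_conj g (c v) (c a)
          rw [g2, ← e1 g g1, c_dot, c_dot] at this
          exact this.symm
        · rw [t, tv_conj, t]; congr 1; exact (e1 g g1 v).symm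
    rw [← this, h0, mul_zero, zero_mul]
  have h5 : ∀ a : {a : Fin m → F // a ≠ 0}, ∃ x, E a *ᵥ x ≠ 0 := fun a => by
    by_contra! H
    have h0 : E a = 0 := toLin'.injective (LinearMap.ext fun x => by simpa using H x)
    obtain ⟨v, hv⟩ := h
    rw [Finset.sum_eq_single 0 (fun b _ hb => h4 a b a.2 hb h0) (by simp)] at h3
    have := h1 v 0
    rw [h3, dotProduct_zero, AddChar.map_zero_eq_one, one_smul, mul_smul_comm, mul_one] at this
    exact hv (smul_right_injective _ hN this)
  choose x hx using h5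
  have li : LinearIndependent L fun a : {a : Fin m → F // a ≠ 0} => E a *ᵥ x a := by
    refine Fintype.linearIndependent_iff.2 fun g hg b => ?_
    have := congrArg (E b *ᵥ ·) hg
    simp only [mulVec_sum, mulVec_smul, mulVec_mulVec, h2, mulVec_zero] at this
    rw [Finset.sum_eq_single b (fun a _ ha => by rw [if_neg (Subtype.ext_iff.not.1 ha), zero_mulVec, smul_zero]) (by simp),
      if_pos rfl, smul_mulVec, smul_eq_zero, smul_eq_zero] at this
    exact this.resolve_right (not_or.2 ⟨hN, hx b⟩)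
  simpa using li.fintype_card_le_finrank

/-- A lower bound for representations in cross characteristic: for `n ≥ 3` and a field `F` with `q` elements, every homomorphism from `SL_n(F)` to `GL_d(K)`, `K` a field of characteristic different from that of `F`, whose kernel is central has `d ≥ q^(n-1) - 1`. -/
theorem result {F : Type*} [Field F] [Fintype F] {q : ℕ} (hq : Fintype.card F = q) (n : ℕ) (hn : 3 ≤ n)
    {K : Type*} [Field K] (hK : ringChar K ≠ ringChar F) {d : ℕ}
    (ρ : Matrix.SpecialLinearGroup (Fin n) F →* GL (Fin d) K) (hker : ρ.ker ≤ Subgroup.center (Matrix.SpecialLinearGroup (Fin n) F)) :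
    q ^ (n - 1) - 1 ≤ d := by
  obtain ⟨m, rfl⟩ : ∃ m, n = m + 1 := ⟨n - 1, by omega⟩
  obtain ⟨N, ψ, hψ⟩ := AddChar.FiniteField.primitiveChar F K hK
  let f := algebraMap K (CyclotomicField N K)
  refine hq ▸ main (by omega) (ψ := ψ) (by simpa using hψ one_ne_zero) (fun h => ?_)
    (f.mapMatrix.toMonoidHom.comp ((Units.coeHom _).comp ρ)) ⟨Pi.single ⟨0, by omega⟩ 1, fun h => ?_⟩
  · obtain ⟨k, hp, hk⟩ := FiniteField.card F (ringChar F)
    rw [← map_natCast f, map_eq_zero, hk, Nat.cast_pow, pow_eq_zero_iff k.ne_zero, ringChar.spec] at h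
    rcases (Nat.dvd_prime hp).1 h with h | h
    exacts [CharP.ringChar_ne_one h, hK h]
  · have h1 : ρ (t (Pi.single ⟨0, by omega⟩ 1)) = 1 := Units.ext (Matrix.map_injective f.injective (by
      simpa using h))
    obtain ⟨x, hx⟩ := mem_center_iff'.1 (hker h1)
    have := congrFun (congrFun hx 0) (Fin.succ ⟨0, by omega⟩)
    rw [Matrix.smul_apply, t, tv_coe, Matrix.add_apply, one_apply_ne (Fin.succ_ne_zero _).symm, vecMulVec_apply, c,
      Fin.cons_succ] at this
    simp at this

end Cfsg.Agent.S2392
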