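import Cfsg.Statements.S2393
import Cfsg.Agent.S2392
-- import your own Cfsg.Agent.* helpers here

set_option autoImplicit false
open scoped MatrixGroups
open Cfsg

namespace Cfsg.Agent.S2393

open Matrix

variable {F : Type*} [Field F] {L : Type*} [Field L] {G : Type*} [Group G] {m d : ℕ}

/-- weight projectors -/
noncomputable def E [Fintype F] (ψ : AddChar F L) (ρ : G →* Matrix (Fin d) (Fin d) L) (t : (Fin m → F) → G)
    (a : Fin m → F) : Matrix (Fin d) (Fin d) L := ∑ v, ψ (-(v ⬝ᵥ a)) • ρ (t v)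

section
variable [Fintype F] {ψ : AddChar F L} {ρ : G →* Matrix (Fin d) (Fin d) L} {t : (Fin m → F) → G}

theorem E_mul (ht : ∀ u v, t (u + v) = t u * t v) (u a : Fin m → F) : ρ (t u) * E ψ ρ t a = ψ (u ⬝ᵥ a) • E ψ ρ t a := by
  simp only [E, Finset.mul_sum, Finset.smul_sum, mul_smul_comm, ← map_mul, ← ht, smul_smul, ← AddChar.map_add_eq_mul]
  exact Fintype.sum_equiv (Equiv.addLeft u) _ _ fun v => by simp

theorem card_le (ht : ∀ u v, t (u + v) = t u * t v) (hψ : ψ ≠ 1) (hL : (Fintype.card F : L) ≠ 0)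
    (S : Finset (Fin m → F)) (hS : ∀ a ∈ S, E ψ ρ t a ≠ 0) : S.card ≤ d := by
  classical
  have hN : (Fintype.card (Fin m → F) : L) ≠ 0 := by simp [hL]
  have h2 : ∀ a b, E ψ ρ t b * E ψ ρ t a = if a = b then (Fintype.card (Fin m → F) : L) • E ψ ρ t a else 0 := fun a b => by
    conv_lhs => rw [show E ψ ρ t b = ∑ v, ψ (-(v ⬝ᵥ b)) • ρ (t v) from rfl]
    simp only [Finset.sum_mul, smul_mul_assoc, E_mul ht, smul_smul, ← AddChar.map_add_eq_mul, ← Finset.sum_smul,
      neg_add_eq_sub, ← dotProduct_sub, Cfsg.Agent.S2392.sum_dot hψ, sub_eq_zero]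
    split_ifs <;> simp
  have h5 : ∀ a : S, ∃ x, E ψ ρ t a *ᵥ x ≠ 0 := fun a => by
    by_contra! H
    exact hS a a.2 (toLin'.injective (LinearMap.ext fun x => by simpa using H x))
  choose x hx using h5
  have li : LinearIndependent L fun a : S => E ψ ρ t a *ᵥ x a := by
    refine Fintype.linearIndependent_iff.2 fun g hg b => ?_
    have := congrArg (E ψ ρ t b *ᵥ ·) hg
    simp only [mulVec_sum, mulVec_smul, mulVec_mulVec, h2, mulVec_zero] at this
    rw [Finset.sum_eq_single b (fun a _ ha => by rw [if_neg (Subtype.ext_iff.not.1 ha), zero_mulVec, smul_zero]) (by simp),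
      if_pos rfl, smul_mulVec, smul_eq_zero, smul_eq_zero] at this
    exact this.resolve_right (not_or.2 ⟨hN, hx b⟩)
  simpa using li.fintype_card_le_finrank

theorem exists_E (ht : ∀ u v, t (u + v) = t u * t v) (hψ : ψ ≠ 1) (hL : (Fintype.card F : L) ≠ 0) {v : Fin m → F}
    (hv : ρ (t v) ≠ 1) : ∃ a, E ψ ρ t a ≠ 0 ∧ v ⬝ᵥ a ≠ 0 := by
  classical
  have hN : (Fintype.card (Fin m → F) : L) ≠ 0 := by simp [hL]
  have h3 : ∑ a, E ψ ρ t a = (Fintype.card (Fin m → F) : L) • 1 := by
    simp only [E]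
    rw [Finset.sum_comm]
    have : ∀ v a : Fin m → F, -(v ⬝ᵥ a) = a ⬝ᵥ -v := fun v a => by rw [dotProduct_neg, dotProduct_comm]
    simp only [← Finset.sum_smul, this, Cfsg.Agent.S2392.sum_dot hψ, neg_eq_zero, ite_smul, zero_smul,
      Finset.sum_ite_eq', Finset.mem_univ, if_true]
    rw [show t (0 : Fin m → F) = 1 by simpa using ht (0 : Fin m → F) 0, map_one]
  by_contra! H
  have : ρ (t v) * ∑ a, E ψ ρ t a = ∑ a, E ψ ρ t a := by
    rw [Finset.mul_sum]
    refine Finset.sum_congr rfl fun a _ => ?_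
    by_cases h : E ψ ρ t a = 0
    · rw [h, mul_zero]
    · rw [E_mul ht, H a h, AddChar.map_zero_eq_one, one_smul]
  rw [h3, mul_smul_comm, mul_one] at this
  exact hv (smul_right_injective _ hN this)

theorem E_conj {g : G} {f : (Fin m → F) → Fin m → F} (hf : Function.Injective f) (hg : ∀ v, g * t v * g⁻¹ = t (f v))
    {a b : Fin m → F} (h : ∀ v, f v ⬝ᵥ b = v ⬝ᵥ a) (ha : E ψ ρ t a ≠ 0) : E ψ ρ t b ≠ 0 := by
  have : ρ g * E ψ ρ t a * ρ g⁻¹ = E ψ ρ t b := by
    simp only [E, Finset.mul_sum, Finset.sum_mul, mul_smul_comm, smul_mul_assoc, ← map_mul]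
    exact Fintype.sum_bijective f (Finite.injective_iff_bijective.1 hf) _ _ fun v => by rw [h, hg]
  intro h0
  rw [h0] at this
  have h2 := congrArg (fun x => ρ g⁻¹ * x * ρ g) this
  simp only [← mul_assoc, ← map_mul, inv_mul_cancel, map_one, one_mul, mul_zero, zero_mul] at h2
  rw [mul_assoc, ← map_mul, inv_mul_cancel, map_one, mul_one] at h2
  exact ha h2
end

/-- first basis vector -/
def e0 : Fin (m + 1) → F := Pi.single 0 1

/-- symmetric matrix -/
def Sm (v : Fin (m + 1) → F) : Matrix (Fin (m + 1)) (Fin (m + 1)) F := vecMulVec e0 v + vecMulVec v e0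

/-- unipotent elements -/
def t (v : Fin (m + 1) → F) : symplecticGroup (Fin (m + 1)) F := ⟨fromBlocks 1 (Sm v) 0 1, by
  rw [SymplecticGroup.mem_iff, J, fromBlocks_transpose, fromBlocks_multiply, fromBlocks_multiply]
  simp [Sm, transpose_vecMulVec, add_comm]
  abel⟩

theorem t_add (u v : Fin (m + 1) → F) : t (u + v) = t u * t v := Subtype.ext (by
  change fromBlocks _ _ _ _ = fromBlocks _ _ _ _ * fromBlocks _ _ _ _
  rw [fromBlocks_multiply]
  simp [Sm, vecMulVec_add, add_vecMulVec, add_comm, add_left_comm, add_assoc])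

/-- Levi elements -/
def lv (g h : Matrix (Fin m) (Fin m) F) (hgh : g * h = 1) : symplecticGroup (Fin m) F := ⟨fromBlocks g 0 0 hᵀ, by
  rw [SymplecticGroup.mem_iff, J, fromBlocks_transpose, fromBlocks_multiply, fromBlocks_multiply]
  simp [hgh, ← transpose_mul]⟩

theorem lv_conj {g h : Matrix (Fin (m + 1)) (Fin (m + 1)) F} (hgh : g * h = 1) {c : F} (hc : g *ᵥ e0 = c • e0)
    (v : Fin (m + 1) → F) : lv g h hgh * t v * (lv g h hgh)⁻¹ = t (c • g *ᵥ v) := by
  rw [mul_inv_eq_iff_eq_mul]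
  refine Subtype.ext ?_
  change fromBlocks _ _ _ _ * fromBlocks _ _ _ _ = fromBlocks _ _ _ _ * fromBlocks _ _ _ _
  have h1 : ∀ x, h *ᵥ (g *ᵥ x) = x := fun x => by rw [mulVec_mulVec, mul_eq_one_comm.1 hgh, one_mulVec]
  have h2 : c • h *ᵥ e0 = e0 := by rw [← mulVec_smul, ← hc, h1]
  have h3 : g * Sm v = Sm (c • g *ᵥ v) * hᵀ := by
    rw [Sm, Sm, Matrix.mul_add, Matrix.add_mul, mul_vecMulVec, mul_vecMulVec, vecMulVec_mul, vecMulVec_mul,
      vecMul_transpose, vecMul_transpose, mulVec_smul, h1, hc, smul_vecMulVec, vecMulVec_smul, smul_vecMulVec,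
      ← vecMulVec_smul c (g *ᵥ v), h2]
  rw [fromBlocks_multiply, fromBlocks_multiply]
  simp [h3]

theorem main [Fintype F] (h2 : (2 : F) ≠ 0) {ψ : AddChar F L} (hψ : ψ ≠ 1) (hL : (Fintype.card F : L) ≠ 0)
    (ρ : symplecticGroup (Fin (m + 1)) F →* Matrix (Fin d) (Fin d) L) (h : ρ (t e0) ≠ 1) :
    Fintype.card F ^ m * (Fintype.card F - 1) ≤ 2 * d := by
  classical
  obtain ⟨a, ha, h0⟩ := exists_E t_add hψ hL h
  have h0 : a 0 ≠ 0 := by simpa [e0] using h0
  let φ : Fˣ × (Fin m → F) → Fin (m + 1) → F := fun x => Fin.cons (a 0 * (x.1 : F) ^ 2) x.2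
  have hS := card_le (ρ := ρ) t_add hψ hL (Finset.univ.image φ) fun b hb => by
    obtain ⟨⟨s, y⟩, -, hb⟩ := Finset.mem_image.1 hb
    have hb0 : b 0 = a 0 * (s : F) ^ 2 := by rw [← hb]; rfl
    let w : Fin (m + 1) → F := ((s : F) / b 0) • (a - ((s : F)⁻¹ ^ 2) • b)
    have hw : w ⬝ᵥ e0 = 0 := by simp [w, e0, hb0]; right; field_simp; ring
    have hg : ((s : F)⁻¹ • (1 : Matrix (Fin (m + 1)) (Fin (m + 1)) F) + vecMulVec e0 w) * ((s : F) • (1 : Matrix (Fin (m + 1)) (Fin (m + 1)) F) - (s : F) ^ 2 • vecMulVec e0 w) = 1 := by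
      simp only [Matrix.add_mul, Matrix.mul_sub, Matrix.mul_smul, Matrix.smul_mul, Matrix.mul_one, Matrix.one_mul,
        vecMulVec_mul_vecMulVec, hw, zero_smul, vecMulVec_zero, smul_add, smul_smul, smul_zero, add_zero]
      rw [mul_inv_cancel₀ s.ne_zero, one_smul, sq, mul_inv_cancel_right₀ s.ne_zero, add_sub_cancel_right]
    refine E_conj (fun u v huv => ?_) (lv_conj hg (c := (s : F)⁻¹) (by
      rw [add_mulVec, vecMulVec_mulVec, hw]; simp [smul_mulVec])) (fun v => ?_) ha
    · have := congrArg (fun x => ((s : F) • (1 : Matrix (Fin (m + 1)) (Fin (m + 1)) F) - (s : F) ^ 2 • vecMulVec e0 w) *ᵥ x)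
        (smul_right_injective _ (inv_ne_zero s.ne_zero) huv)
      simpa only [mulVec_mulVec, mul_eq_one_comm.1 hg, one_mulVec] using this
    · have hb1 : b 0 ≠ 0 := by rw [hb0]; exact mul_ne_zero h0 (pow_ne_zero _ s.ne_zero)
      rw [add_mulVec, vecMulVec_mulVec, smul_mulVec, one_mulVec]
      simp only [smul_dotProduct, add_dotProduct, op_smul_eq_smul, smul_eq_mul, w, sub_dotProduct, e0, single_dotProduct,
        one_mul, dotProduct_comm b v, dotProduct_comm a v]
      field_simp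
      ring
  have := Finset.card_le_mul_card_image (f := φ) Finset.univ 2 fun b hb => by
    obtain ⟨⟨s, y⟩, -, rfl⟩ := Finset.mem_image.1 hb
    refine (Finset.card_le_card (t := {(s, y), (-s, y)}) fun x hx => ?_).trans (Finset.card_le_two)
    obtain ⟨e1, e2⟩ := Fin.cons_injective2 (Finset.mem_filter.1 hx).2
    have := sq_eq_sq_iff_eq_or_eq_neg.1 (mul_left_cancel₀ h0 e1)
    simp only [Finset.mem_insert, Finset.mem_singleton, Prod.ext_iff, e2, and_true, Units.ext_iff, Units.val_neg]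
    exact this
  rw [Finset.card_univ, Fintype.card_prod, Fintype.card_units, Fintype.card_fun, Fintype.card_fin, mul_comm] at this
  omega

/-- A lower bound for representations in cross characteristic: for `n ≥ 2` and a field `F` with `q` elements, `q` odd, every homomorphism from the symplectic group `Sp_{2n}(F)` to `GL_d(K)`, `K` a field of characteristic different from that of `F`, whose kernel is central has `d ≥ q^(n-1)(q-1)/2`. -/
theorem result {F : Type*} [Field F] [Fintype F] {q : ℕ} (hq : Fintype.card F = q) (hodd : Odd q) (n : ℕ) (hn : 2 ≤ n)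
    {K : Type*} [Field K] (hK : ringChar K ≠ ringChar F) {d : ℕ}
    (ρ : ↥(Matrix.symplecticGroup (Fin n) F) →* GL (Fin d) K) (hker : ρ.ker ≤ Subgroup.center ↥(Matrix.symplecticGroup (Fin n) F)) :
    q ^ (n - 1) * (q - 1) / 2 ≤ d := by
  obtain ⟨m, rfl⟩ : ∃ m, n = m + 1 := ⟨n - 1, by omega⟩
  obtain ⟨N, ψ, hψ⟩ := AddChar.FiniteField.primitiveChar F K hK
  let f := algebraMap K (CyclotomicField N K)
  have h2 : (2 : F) ≠ 0 := Ring.two_ne_zero fun h => by
    have := FiniteField.even_card_iff_char_two.1 h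
    rw [hq] at this
    have := Nat.odd_iff.1 hodd
    omega
  refine Nat.div_le_of_le_mul (hq ▸ main h2 (ψ := ψ) (by simpa using hψ one_ne_zero) (fun h => ?_)
    (f.mapMatrix.toMonoidHom.comp ((Units.coeHom _).comp ρ)) fun h => ?_)
  · obtain ⟨k, hp, hk⟩ := FiniteField.card F (ringChar F)
    rw [← map_natCast f, map_eq_zero, hk, Nat.cast_pow, pow_eq_zero_iff k.ne_zero, ringChar.spec] at h
    rcases (Nat.dvd_prime hp).1 h with h | h
    exacts [CharP.ringChar_ne_one h, hK h]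
  · have h1 : ρ (t e0) = 1 := Units.ext (Matrix.map_injective f.injective (by simpa using h))
    have h3 := Subgroup.mem_center_iff.1 (hker h1) ⟨_, SymplecticGroup.J_mem _ _⟩
    have := congrFun (congrFun (congrArg Subtype.val h3) (Sum.inl 0)) (Sum.inl 0)
    rw [Submonoid.coe_mul, Submonoid.coe_mul, t] at this
    simp only at this
    rw [Matrix.J, Matrix.fromBlocks_multiply, Matrix.fromBlocks_multiply] at this
    simp [Sm, e0, Matrix.vecMulVec_apply, one_add_one_eq_two, h2] at this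
    exact h2 this.symm

end Cfsg.Agent.S2393
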