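import Cfsg.Statements.S2394
import Cfsg.Agent.S0245
import Cfsg.Agent.Lib.Lin.SLnCard

set_option autoImplicit false
open scoped MatrixGroups
open Cfsg

namespace Cfsg.Agent.S2394

open Finset

theorem prod_GL (q d : ℕ) : ∏ i : Fin d, (q ^ d - q ^ (i : ℕ)) = (∏ i ∈ range d, q ^ i) * ∏ j ∈ range d, (q ^ (j + 1) - 1) := by
  rw [Fin.prod_univ_eq_prod_range (fun i => q ^ d - q ^ i), ← prod_range_reflect (fun j => q ^ (j + 1) - 1), ← prod_mul_distrib]
  refine prod_congr rfl fun i hi => ?_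
  rw [Nat.mul_sub_one, ← pow_add]; congr 2; have := mem_range.1 hi; omega

theorem split (f : ℕ → ℕ) (n : ℕ) : ∏ j ∈ range (2 * n + 1), f (j + 1) =
    (∏ i ∈ range n, f (2 * (i + 1))) * ∏ i ∈ range (n + 1), f (2 * i + 1) := by
  induction n with
  | zero => simp
  | succ n ih => rw [show 2 * (n + 1) + 1 = 2 * n + 1 + 1 + 1 by ring, prod_range_succ, prod_range_succ, ih,
      prod_range_succ (fun i => f (2 * (i + 1))) n, prod_range_succ _ (n + 1),
      show 2 * n + 1 + 1 + 1 = 2 * (n + 1) + 1 by ring, show 2 * n + 1 + 1 = 2 * (n + 1) by ring]; ac_rfl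

theorem two_part (f : ℕ → ℕ) (h : ∀ i, f i % 4 = 2) (n : ℕ) : ∃ m, Odd m ∧ ∏ i ∈ range n, f i = 2 ^ n * m := by
  induction n with
  | zero => exact ⟨1, odd_one, rfl⟩
  | succ n ih =>
    obtain ⟨m, h1, h2⟩ := ih
    refine ⟨m * (f n / 2), h1.mul (Nat.odd_iff.2 (by have := h n; omega)), ?_⟩
    rw [prod_range_succ, h2]; conv_lhs => rw [show f n = 2 * (f n / 2) by have := h n; omega]
    ring

theorem arith {q n : ℕ} (hq : 2 ≤ q) (hn : n ≠ 0) : ¬ q ^ n + 1 ∣ ∏ i ∈ range n, (q ^ (2 * i + 1) - 1) := fun h => by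
  have h1 : ∀ r, r.Prime → r ∣ q ^ n + 1 → r = 2 := fun r hr hd => by
    obtain ⟨i, -, hi⟩ := (hr.prime.dvd_finsetProd_iff _).1 (hd.trans h)
    have := Fact.mk hr
    have e1 : (q : ZMod r) ^ (2 * i + 1) = 1 := by
      have := (ZMod.natCast_eq_zero_iff _ r).2 hi
      rwa [Nat.cast_sub (Nat.one_le_pow _ _ (by omega)), Nat.cast_pow, Nat.cast_one, sub_eq_zero] at this
    have e2 : (q : ZMod r) ^ n = -1 := by
      have := (ZMod.natCast_eq_zero_iff _ r).2 hd
      push_cast at this; exact eq_neg_of_add_eq_zero_left this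
    have : (2 : ZMod r) = 0 := by
      have : _ ^ n = _ ^ n := congrArg (· ^ n) e1
      rw [pow_right_comm, e2, (odd_two_mul_add_one i).neg_one_pow, one_pow] at this
      linear_combination -this
    exact (Nat.prime_dvd_prime_iff_eq hr Nat.prime_two).1 ((ZMod.natCast_eq_zero_iff 2 r).1 (by simpa))
  have h2 := Nat.eq_prime_pow_of_unique_prime_dvd (by positivity) fun {r} => h1 r
  generalize (q ^ n + 1).primeFactorsList.length = k at h2
  have h3 : n < k := (Nat.pow_lt_pow_iff_right one_lt_two).1 (by have := Nat.pow_le_pow_left hq n; omega)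
  obtain ⟨k, rfl⟩ : ∃ j, k = j + 2 := ⟨k - 2, by omega⟩
  have h4 : q % 4 = 3 := by
    have e : q ^ n % 4 = 3 := by rw [pow_add] at h2; omega
    rw [Nat.pow_mod] at e
    have : q % 4 < 4 := Nat.mod_lt _ (by omega)
    interval_cases q % 4
    · simp [hn] at e
    · simp at e
    · obtain ⟨m, rfl⟩ := Nat.exists_eq_succ_of_ne_zero hn
      rw [pow_succ] at e; omega
    · rfl
  obtain ⟨m, m1, m2⟩ := two_part (fun i => q ^ (2 * i + 1) - 1) (fun i => by
    have : q ^ (2 * i + 1) % 4 = 3 := by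
      rw [pow_succ, pow_mul, Nat.mul_mod, Nat.pow_mod, Nat.pow_mod q 2, h4]; simp
    omega) n
  rw [m2, h2] at h
  have := (pow_dvd_pow 2 h3).trans h
  rw [Nat.succ_eq_add_one, pow_succ, Nat.mul_dvd_mul_iff_left (by positivity)] at this
  exact m1.not_two_dvd_nat this

/-- The smallest degree of a faithful representation of the symplectic group `Sp_{2n}(q)` over its own field `F_q` is `2n`: every injective homomorphism from `Sp_{2n}(F)` to `GL_d(F)`, `F` the field with `q` elements, has `d ≥ 2n`. -/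
theorem result {F : Type*} [Field F] [Fintype F] (n : ℕ) {d : ℕ}
    (ρ : ↥(Matrix.symplecticGroup (Fin n) F) →* GL (Fin d) F) (hρ : Function.Injective ρ) : 2 * n ≤ d := by
  by_contra! hd
  obtain ⟨n, rfl⟩ : ∃ m, n = m + 1 := ⟨n - 1, by omega⟩
  have h1 := Subgroup.card_dvd_of_injective ρ hρ
  have hq := CA.SLnCard.two_le_card F
  rw [Cfsg.Agent.S0245.result rfl, CA.SLnCard.card_GL, prod_GL, ← Nat.card_eq_fintype_card] at h1
  generalize Nat.card F = q at *
  have h2 := (Nat.Coprime.dvd_of_dvd_mul_left (Nat.Coprime.prod_left fun i _ => Nat.Coprime.prod_right fun j _ =>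
    ((Nat.coprime_self_sub_left (Nat.one_le_pow _ _ (by omega))).2 (by simp) :
      Nat.Coprime (q ^ (2 * (i + 1)) - 1) (q ^ (2 * (i + 1)))).coprime_dvd_right (dvd_pow_self q (by omega)) |>.pow_right j)
    ((dvd_mul_left _ _).trans h1)).trans
    (prod_dvd_prod_of_subset _ (range (2 * n + 1)) (fun j => q ^ (j + 1) - 1) (range_subset_range.2 (by omega)))
  rw [split (fun j => q ^ j - 1), prod_range_succ, Nat.mul_dvd_mul_iff_left (prod_pos fun i _ =>
    Nat.sub_pos_of_lt (Nat.one_lt_pow (by omega) hq))] at h2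
  refine arith hq n.succ_ne_zero (Dvd.dvd.trans ?_ h2)
  rw [mul_comm, pow_mul, CA.SLnCard.sq_sub_one]; exact dvd_mul_right _ _

end Cfsg.Agent.S2394
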