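import Cfsg.Statements.S2399
import Cfsg.Agent.Lib.Lie.H22St3

set_option autoImplicit false
open scoped MatrixGroups
open Cfsg

namespace Cfsg.Agent.S2399

open CA.Chev CA.SchurFilt

/-- Projective representations in the natural characteristic lift: for each of the types G₂, B₂, D₄, F₄, E₆, E₇, E₈ over any field `K` (for types B₂ and G₂ the field must have more than two elements — the cases where the Chevalley group is not simple are set aside), every homomorphism from the Chevalley group to `PGL_n(L) = GL_n(L)/Z`, `L` a field of the same characteristic as `K`, lifts uniquely to a homomorphism from the group Δ presented by (R1), (R2) to `GL_n(L)`, compatibly with the projection Δ → Chevalley group sending x̄_r(t) to x_r(t). -/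
theorem result {K : Type*} [Field K] (D : Cfsg.Lie.ChevalleyDatum) (hD : D ∈ [Cfsg.Lie.chevG2, Cfsg.Lie.chevB2, Cfsg.Lie.chevD4, Cfsg.Lie.chevF4, Cfsg.Lie.chevE6, Cfsg.Lie.chevE7, Cfsg.Lie.chevE8]) (hK : D ∈ [Cfsg.Lie.chevB2, Cfsg.Lie.chevG2] → ∃ x : K, x ≠ 0 ∧ x ≠ 1)
    (θ : D.SteinbergCover K →* ↥(D.group K))
    (hθ : ∀ (r : ℕ) (t : K), r < D.nroots → ((θ (D.scGen K r t) : GL D.Idx K) : Matrix D.Idx D.Idx K) = D.x K r t)
    {L : Type*} [Field L] (hL : ringChar L = ringChar K) {n : ℕ}
    (φ : ↥(D.group K) →* GL (Fin n) L ⧸ Subgroup.center (GL (Fin n) L)) :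
    ∃! ψ : D.SteinbergCover K →* GL (Fin n) L, (QuotientGroup.mk' (Subgroup.center (GL (Fin n) L))).comp ψ = φ.comp θ := by
  have := good_of_mem hD
  have hp := perfect_of_mem hD (stC D K) stC_G fun h => hK (by rcases h with rfl | rfl <;> simp)
  have hs := QuotientGroup.mk'_surjective (Subgroup.center (GL (Fin n) L))
  have hc := (QuotientGroup.ker_mk' (Subgroup.center (GL (Fin n) L))).le
  by_cases hb : ∃ s : Finset K, 4 < s.card
  · exact (OK.of_big hD hb).cc.lift hp hs hc _
  have := (card_cases hb).1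
  obtain ⟨e, -⟩ := exists_equiv_st (D := D) (K := K)
  have := finite_stG (K := K) hD
  have := Finite.of_equiv _ e.toEquiv.symm
  obtain ⟨h1, h2, h3⟩ := res_comm (pbp_cen hc (φ.comp θ)) (pbp_surj hs _) hp
  have hl : Fact (ringChar K).Prime := ⟨CharP.char_is_prime K _⟩
  have : CharP L (ringChar K) := hL ▸ ringChar.charP L
  refine (lifts_coprime (A := stC D K) (l := ringChar K) h2 h1
    (m := ordCompl[ringChar K] (Nat.card (D.SteinbergCover K))) (fun z hz => ?_)
    (Nat.coprime_ordCompl hl.out Nat.card_pos.ne')).elim fun ψ hψ => ?_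
  swap
  · have := lift_of_pb (τ := (commutator _).subtype.comp ψ) ((stC D K).hom_ext stC_G hψ)
    exact ⟨_, this, fun τ h => lift_unique hp hc (h.trans this.symm)⟩
  · have h4 := h3 z hz
    rw [← Nat.ordProj_mul_ordCompl_eq_self (Nat.card _) (ringChar K), mul_comm, pow_mul] at h4
    obtain ⟨h5, h6⟩ := pbp_ker (pow_mem hz (ordCompl[ringChar K] (Nat.card (D.SteinbergCover K))))
    generalize z ^ (ordCompl[ringChar K] (Nat.card (D.SteinbergCover K))) = w at *
    refine Subtype.ext (Subtype.ext (Prod.ext ?_ h5))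
    obtain ⟨a, ha⟩ := Matrix.GeneralLinearGroup.center_eq_range_scalar.le (hc h6)
    have h8 := congrArg (fun x => x.1.1.1) h4
    change w.1.1.1 ^ _ = 1 at h8
    change w.1.1.1 = 1
    change _ = w.1.1.1 at ha
    rw [← ha] at h8 ⊢
    rcases Nat.eq_zero_or_pos n with rfl | hn
    · exact Subsingleton.elim _ _
    have h9 := congrArg (fun g : GL (Fin n) L => g ⟨0, hn⟩ ⟨0, hn⟩) ((map_pow _ _ _).trans h8)
    generalize (Nat.card (D.SteinbergCover K)).factorization (ringChar K) = k at h9
    have h9 : (a : L) ^ ringChar K ^ k = 1 := by simpa [Matrix.GeneralLinearGroup.scalar, Matrix.diagonal_pow] using h9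
    have : ((a : L) - 1) ^ ringChar K ^ k = 0 := by rw [sub_pow_char_pow, h9, one_pow, sub_self]
    rw [show a = 1 from Units.ext (sub_eq_zero.1 (pow_eq_zero_iff (pow_ne_zero _ hl.out.ne_zero) |>.1 this)), map_one]

end Cfsg.Agent.S2399
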