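import Cfsg.Statements.S2402
import Cfsg.Agent.Lib.Lin.SLCyc

set_option autoImplicit false
open Cfsg

namespace Cfsg.Agent.S2402

open Matrix CA.SLCyc

/-- Explicit two-element generation of `PSL_{n+1}(K)` for a finite field `K` with more than three elements: let `k` generate the multiplicative group of `K`, `h = diag(k, k⁻¹, 1, …, 1)`, `x = 1 + E₁₂` (the elementary transvection) and `w` the monomial matrix with entries `1` in positions `(i, i+1)` and `(−1)^n` in position `(n+1, 1)`. Then `h` and `x·w` generate `SL_{n+1}(K)` modulo its centre: the subgroup they generate together with the centre is everything. -/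
theorem result {K : Type*} [Field K] [Fintype K] (hK : 3 < Fintype.card K) (n : ℕ) (hn : 1 ≤ n)
    (k : Kˣ) (hk : ∀ u : Kˣ, u ∈ Subgroup.zpowers k)
    (h x w : Matrix.SpecialLinearGroup (Fin (n + 1)) K)
    (hh : (h : Matrix (Fin (n + 1)) (Fin (n + 1)) K) =
      Matrix.diagonal (fun i => if i.val = 0 then (k : K) else if i.val = 1 then ((k⁻¹ : Kˣ) : K) else 1))
    (hx : (x : Matrix (Fin (n + 1)) (Fin (n + 1)) K) = Matrix.transvection (0 : Fin (n + 1)) (1 : Fin (n + 1)) 1)
    (hw : (w : Matrix (Fin (n + 1)) (Fin (n + 1)) K) =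
      Matrix.of (fun i j => if j.val = i.val + 1 then 1 else if i.val = n ∧ j.val = 0 then (-1) ^ n else 0)) :
    Subgroup.closure ({h, x * w} : Set (Matrix.SpecialLinearGroup (Fin (n + 1)) K)) ⊔
      Subgroup.center (Matrix.SpecialLinearGroup (Fin (n + 1)) K) = ⊤ := by
  set H := Subgroup.closure ({h, x * w} : Set (Matrix.SpecialLinearGroup (Fin (n + 1)) K))
  refine top_unique (le_trans (ge_of_eq ?_) le_sup_left)
  have hH : h ∈ H := Subgroup.subset_closure (by simp)
  have gH : x * w ∈ H := Subgroup.subset_closure (by simp)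
  have v1 : ((1 : Fin (n + 1)) : ℕ) = 1 := by rw [Fin.val_one', Nat.mod_eq_of_lt (by omega)]
  have h01 : (0 : Fin (n + 1)) ≠ 1 := by rw [Ne, Fin.ext_iff, v1]; simp
  have ex : x = SpecialLinearGroup.transvection h01 1 := Subtype.ext hx
  have k2 : (k : K) * k ≠ 1 := fun e => by
    have h1 : orderOf k ∣ 2 := orderOf_dvd_of_pow_eq_one (by ext; simpa [sq] using e)
    rw [orderOf_eq_card_of_forall_mem_zpowers hk, Nat.card_units, Nat.card_eq_fintype_card] at h1
    have := Nat.le_of_dvd two_pos h1
    omega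
  have k1 : (k : K) ≠ 1 := fun e => k2 (by rw [e, mul_one])
  set d : Fin (n + 1) → K := fun i => if i.val = 0 then (k : K) else if i.val = 1 then ((k⁻¹ : Kˣ) : K) else 1
  have hw' := cyc_entry hn hw
  have hc : ∀ c : K, h * SpecialLinearGroup.transvection h01 c * h⁻¹ =
      SpecialLinearGroup.transvection h01 (k * c * k) := fun c => by
    rw [diag_conj hh]; simp [d, show n ≠ 0 by omega, show 0 < n by omega]
  have hd : (w * h * w⁻¹).1 = diagonal fun i => d (i + 1) := by
    have : w.1 * h.1 = (diagonal fun i => d (i + 1)) * w.1 := by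
      ext i j
      rw [hh, mul_diagonal, diagonal_mul, hw']
      by_cases e : j = i + 1
      · simp [e, mul_comm]
      · simp [e]
    rw [Matrix.SpecialLinearGroup.coe_mul, Matrix.SpecialLinearGroup.coe_mul, this, mul_assoc,
      ← Matrix.SpecialLinearGroup.coe_mul, mul_inv_cancel, Matrix.SpecialLinearGroup.coe_one, mul_one]
  set h' := w * h * w⁻¹ with hh'
  have hcm : h * h' = h' * h := Subtype.ext (by
    rw [Matrix.SpecialLinearGroup.coe_mul, Matrix.SpecialLinearGroup.coe_mul h', hd, hh, diagonal_mul_diagonal,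
      diagonal_mul_diagonal]; simp only [mul_comm])
  have hy : x * h' * x⁻¹ ∈ H := by
    have := H.mul_mem (H.mul_mem gH hH) (H.inv_mem gH)
    convert this using 1; rw [hh']; group
  obtain ⟨c, c0, cH⟩ : ∃ c : K, c ≠ 0 ∧ SpecialLinearGroup.transvection h01 c ∈ H := by
    have := H.mul_mem (H.mul_mem (H.mul_mem hH hy) (H.inv_mem hH)) (H.inv_mem hy)
    have e : h * (x * h' * x⁻¹) * h⁻¹ * (x * h' * x⁻¹)⁻¹ =
        h * x * h⁻¹ * (h' * (h * x⁻¹ * h⁻¹ * x) * h'⁻¹) * x⁻¹ := by
      have : h' = h * h' * h⁻¹ := by rw [hcm]; group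
      nth_rw 3 [this]; group
    rw [e, ex, SpecialLinearGroup.transvection_inv, hc, hc, ← SpecialLinearGroup.transvection_add,
      diag_conj hd, ← SpecialLinearGroup.transvection_add, ← SpecialLinearGroup.transvection_add] at this
    refine ⟨_, ?_, this⟩
    have e2 : (k : K) * 1 * k + d (0 + 1) * (k * -1 * k + 1) * (d (1 + 1))⁻¹ + -1 =
        (d (0 + 1) * (d (1 + 1))⁻¹ - 1) * (1 - k * k) := by ring
    rw [e2]
    refine mul_ne_zero (sub_ne_zero.2 ?_) (sub_ne_zero.2 k2.symm)
    have d1 : d (0 + 1) = (k : K)⁻¹ := by simp [d, show n ≠ 0 by omega, show 0 < n by omega]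
    rw [d1, ← _root_.mul_inv_rev, Ne, inv_eq_one]
    rcases hn.eq_or_lt with rfl | hn2
    · exact k2
    · have : ((1 + 1 : Fin (n + 1)) : ℕ) = 2 := by
        rw [Fin.val_add, v1, Nat.mod_eq_of_lt (by omega)]
      simp only [d, this]
      simpa using k1
  have hsq : ∀ a : K, SpecialLinearGroup.transvection h01 (a ^ 2 * c) ∈ H := fun a => by
    by_cases a0 : a = 0
    · simp [a0, SpecialLinearGroup.transvection_coeff_zero]
    obtain ⟨m, hm⟩ := (Submonoid.mem_powers_iff _ _).1 (mem_powers_iff_mem_zpowers.2 (hk (Units.mk0 a a0)))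
    have : a = (k : K) ^ m := by simpa using congrArg Units.val hm.symm
    rw [this]; clear this hm
    induction m with
    | zero => simpa using cH
    | succ m ih =>
      have := H.mul_mem (H.mul_mem hH ih) (H.inv_mem hH)
      rw [hc] at this
      convert this using 2; ring
  have hR : Rt H 0 1 := fun _ a => by
    obtain ⟨u, v, huv⟩ : ∃ u v : K, u ^ 2 - v ^ 2 = a * c⁻¹ := by
      by_cases h2 : ringChar K = 2
      · obtain ⟨u, hu⟩ := FiniteField.isSquare_of_char_two h2 (a * c⁻¹)
        exact ⟨u, 0, by rw [hu]; ring⟩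
      · have := Ring.two_ne_zero h2
        exact ⟨(a * c⁻¹ + 1) / 2, (a * c⁻¹ - 1) / 2, by field_simp; ring⟩
    have := H.mul_mem (hsq u) (H.inv_mem (hsq v))
    rwa [SpecialLinearGroup.transvection_inv, ← SpecialLinearGroup.transvection_add, ← sub_eq_add_neg,
      ← sub_mul, huv, inv_mul_cancel_right₀ c0] at this
  exact eq_top_of_cyc' hn hw ((H.mul_mem_cancel_left (ex ▸ hR h01 1)).1 gH) hR

end Cfsg.Agent.S2402
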