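import Cfsg.Statements.S2403
import Cfsg.Agent.Lib.Lin.SLCyc

set_option autoImplicit false
open Cfsg

namespace Cfsg.Agent.S2403

open Matrix CA.SLCyc

/-- Explicit two-element generation of `PSL_{n+1}(K)` over the fields with two or three elements: with `x = 1 + E₁₂` and `w` the monomial matrix with entries `1` in positions `(i, i+1)` and `(−1)^n` in position `(n+1, 1)`, the elements `x` and `w` generate `SL_{n+1}(K)` modulo its centre. -/
theorem result {K : Type*} [Field K] [Fintype K] (hK : Fintype.card K ≤ 3) (n : ℕ) (hn : 1 ≤ n)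
    (x w : Matrix.SpecialLinearGroup (Fin (n + 1)) K)
    (hx : (x : Matrix (Fin (n + 1)) (Fin (n + 1)) K) = Matrix.transvection (0 : Fin (n + 1)) (1 : Fin (n + 1)) 1)
    (hw : (w : Matrix (Fin (n + 1)) (Fin (n + 1)) K) =
      Matrix.of (fun i j => if j.val = i.val + 1 then 1 else if i.val = n ∧ j.val = 0 then (-1) ^ n else 0)) :
    Subgroup.closure ({x, w} : Set (Matrix.SpecialLinearGroup (Fin (n + 1)) K)) ⊔
      Subgroup.center (Matrix.SpecialLinearGroup (Fin (n + 1)) K) = ⊤ := by
  refine eq_top_of_cyc' hn hw (Subgroup.mem_sup_left (Subgroup.subset_closure (by simp))) fun h c => ?_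
  refine Subgroup.mem_sup_left ?_
  have h1 : SpecialLinearGroup.transvection h (1 : K) ∈ Subgroup.closure ({x, w} : Set _) := by
    rw [show SpecialLinearGroup.transvection h (1 : K) = x from Subtype.ext hx.symm]
    exact Subgroup.subset_closure (by simp)
  classical
  by_cases h0 : c = 0
  · rw [h0, SpecialLinearGroup.transvection_coeff_zero]; exact one_mem _
  by_cases h2 : c = 1
  · rwa [h2]
  have h3 : c = -1 := by
    by_contra h3
    have : c * c ≠ 1 := fun e => (mul_self_eq_one_iff.1 e).elim h2 h3
    have h4 : ({0, 1, c, c⁻¹} : Finset K).card = 4 := by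
      refine Finset.card_eq_four.2 ⟨0, 1, c, c⁻¹, zero_ne_one, Ne.symm h0, (inv_ne_zero h0).symm,
        Ne.symm h2, fun e => h2 (inv_eq_one.1 e.symm), fun e => this ?_, rfl⟩
      nth_rw 2 [e]; exact mul_inv_cancel₀ h0
    have := Finset.card_le_univ ({0, 1, c, c⁻¹} : Finset K)
    omega
  rw [h3, ← SpecialLinearGroup.transvection_inv]
  exact inv_mem h1

end Cfsg.Agent.S2403
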