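import Cfsg.Statements.S2405
import Mathlib
import Cfsg.Agent.Lib.Lie.H14Gen

set_option autoImplicit false
open Cfsg

namespace Cfsg.Agent.S2405

/-- Each Chevalley group of type G₂, B₂, D₄, F₄, E₆, E₇ or E₈ over a finite field is generated by two of its elements (types B₂ and G₂ over the field with two elements, where the group is not simple, excepted). -/
theorem result {F : Type*} [Field F] [Finite F] (D : Cfsg.Lie.ChevalleyDatum) (hD : D ∈ [Cfsg.Lie.chevG2, Cfsg.Lie.chevB2, Cfsg.Lie.chevD4, Cfsg.Lie.chevF4, Cfsg.Lie.chevE6, Cfsg.Lie.chevE7, Cfsg.Lie.chevE8])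
    (hF : D ∈ [Cfsg.Lie.chevB2, Cfsg.Lie.chevG2] → ∃ x : F, x ≠ 0 ∧ x ≠ 1) :
    ∃ a b : ↥(D.group F), Subgroup.closure ({a, b} : Set ↥(D.group F)) = ⊤ := by
  open CA.Chev CA.Chev.H14 Cfsg.Lie in
  have hj : Function.Surjective fun v : F => v ^ 1 := fun v => ⟨v, pow_one v⟩
  simp only [List.mem_cons, List.not_mem_nil, or_false] at hD hF
  rcases hD with rfl | rfl | rfl | rfl | rfl | rfl | rfl
  · by_cases h3 : (3 : F) = 0
    · have hi : Function.Injective fun v : F => v ^ 3 := by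
        intro a b e
        have : (a - b) ^ 3 = 0 := by
          simp only at e
          linear_combination e + (a * b ^ 2 - a ^ 2 * b) * h3
        exact sub_eq_zero.1 (pow_eq_zero_iff three_ne_zero |>.1 this)
      refine two_gen (adjG _ F) adjG_G (Sys.r3_of_inj _ adjG_θ_injective) tab_G2
        ⟨[1, 0], true, 0, 5, 2, 3, 3, true⟩ 9
        [(0, 7, 0, 0), (2, 9, 0, 0), (0, 3, 0, 0), (0, 2, 0, 0), (1, 4, 9, 0), (3, 4, 0, 3), (3, 8, 0, 3), (0, 1, 0, 0)]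
        (by decide +kernel) ?_ (by simpa using h3) (Finite.surjective_of_injective hi) (fun _ => hF (Or.inr rfl))
      intro h2
      have : (1 : F) = 0 := by push_cast at h2; linear_combination h3 - h2
      exact one_ne_zero this
    · exact two_gen (adjG _ F) adjG_G (Sys.r3_of_inj _ adjG_θ_injective) tab_G2
        ⟨[0, 1], false, 0, 0, 3, 0, 1, false⟩ 4
        [(0, 2, 0, 0), (0, 3, 0, 0), (2, 4, 0, 0), (2, 8, 0, 0), (1, 2, 3, 0), (1, 2, 4, 0), (1, 2, 7, 2), (1, 2, 8, 2)]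
        (by decide +kernel) (by simpa using h3) (by simp) hj (by simp)
  · exact two_gen (adjG _ F) adjG_G (Sys.r3_of_inj _ adjG_θ_injective) tab_B2
        ⟨[0, 1], true, 1, 4, 1, 0, 1, true⟩ 0
        [(2, 0, 0, 0), (3, 3, 0, 0), (2, 4, 0, 0), (0, 3, 0, 0), (0, 7, 0, 1)]
        (by decide +kernel) (by simp) (by simp) hj (fun _ => hF (Or.inl rfl))
  · exact two_gen (adjG _ F) adjG_G (Sys.r3_of_inj _ adjG_θ_injective) tab_D4
        ⟨[3, 2, 0, 1], true, 7, 3, 1, 0, 1, false⟩ 2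
        [(2, 2, 0, 0), (0, 8, 0, 0), (2, 11, 0, 0), (1, 2, 11, 0), (1, 8, 12, 0), (0, 9, 0, 0), (2, 14, 0, 0), (1, 11, 22, 0), (1, 12, 14, 0), (1, 14, 22, 0), (0, 12, 0, 1), (0, 15, 0, 1), (0, 22, 0, 1), (0, 23, 0, 1), (2, 5, 0, 0), (2, 13, 0, 0)]
        (by decide +kernel) (by simp) (by simp) hj (by simp)
  · exact two_gen (adjG _ F) adjG_G (Sys.r3_of_inj _ adjG_θ_injective) tab_F4
        ⟨[0, 1, 2, 3], true, 37, 0, 1, 0, 1, false⟩ 22
        [(2, 22, 0, 0), (0, 23, 0, 0), (0, 42, 0, 0), (2, 16, 0, 0), (0, 30, 0, 0), (0, 43, 0, 0), (2, 4, 0, 0), (2, 17, 0, 0), (0, 31, 0, 0), (1, 4, 25, 0), (1, 17, 31, 0), (1, 23, 42, 0), (1, 30, 42, 0), (0, 5, 0, 1), (0, 25, 0, 1), (0, 33, 0, 0), (0, 38, 0, 0), (1, 5, 38, 0), (1, 17, 28, 0)]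
        (by decide +kernel) (by simp) (by simp) hj (by simp)
  · exact two_gen (adjG _ F) adjG_G (Sys.r3_of_inj _ adjG_θ_injective) tab_E6
        ⟨[3, 4, 1, 2, 0, 5], false, 0, 67, 1, 0, 1, false⟩ 45
        [(2, 45, 0, 0), (2, 48, 0, 0), (2, 58, 0, 0), (0, 61, 0, 0), (2, 15, 0, 0), (2, 29, 0, 0), (0, 37, 0, 0), (2, 22, 0, 0), (0, 36, 0, 0), (2, 12, 0, 0), (2, 21, 0, 0), (1, 12, 58, 0), (1, 15, 21, 0), (1, 15, 29, 0), (1, 21, 61, 0), (1, 22, 48, 0), (1, 30, 45, 0), (1, 36, 37, 0), (1, 37, 61, 0), (1, 10, 58, 0), (1, 12, 62, 0), (1, 14, 58, 0), (1, 30, 38, 0)]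
        (by decide +kernel) (by simp) (by simp) hj (by simp)
  · exact two_gen (adjG _ F) adjG_G (Sys.r3_of_inj _ adjG_θ_injective) tab_E7
        ⟨[1, 2, 3, 4, 0, 5, 6], false, 0, 120, 1, 0, 1, false⟩ 95
        [(0, 80, 0, 0), (2, 95, 0, 0), (0, 76, 0, 0), (2, 86, 0, 0), (0, 102, 0, 0), (2, 62, 0, 0), (0, 69, 0, 0), (2, 61, 0, 0), (0, 66, 0, 0), (2, 59, 0, 0), (0, 64, 0, 0), (2, 56, 0, 0), (0, 63, 0, 0), (2, 23, 0, 0), (0, 39, 0, 0), (2, 49, 0, 0), (1, 23, 56, 0), (1, 23, 86, 0), (1, 30, 39, 0), (1, 39, 102, 0), (1, 49, 62, 0), (1, 63, 76, 0), (1, 69, 102, 0), (1, 86, 95, 0), (1, 14, 105, 0), (1, 20, 111, 0), (1, 39, 77, 0), (1, 48, 86, 0)]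
        (by decide +kernel) (by simp) (by simp) hj (by simp)
  · exact two_gen (adjG _ F) adjG_G (Sys.r3_of_inj _ adjG_θ_injective) tab_E8
        ⟨[2, 7, 1, 0, 6, 5, 4, 3], false, 0, 224, 1, 0, 1, false⟩ 96
        [(2, 96, 0, 0), (0, 103, 0, 0), (2, 73, 0, 0), (0, 77, 0, 0), (2, 85, 0, 0), (0, 163, 0, 0), (2, 59, 0, 0), (0, 146, 0, 0), (2, 54, 0, 0), (2, 82, 0, 0), (0, 139, 0, 0), (0, 171, 0, 0), (2, 57, 0, 0), (0, 158, 0, 0), (0, 186, 0, 0), (2, 53, 0, 0), (2, 81, 0, 0), (0, 182, 0, 0), (2, 68, 0, 0), (2, 100, 0, 0), (0, 157, 0, 0), (0, 185, 0, 0), (2, 93, 0, 0), (0, 180, 0, 0), (2, 76, 0, 0), (0, 154, 0, 0), (2, 162, 0, 0), (1, 53, 185, 0), (1, 54, 186, 0), (1, 57, 180, 0), (1, 59, 182, 0), (1, 68, 100, 0), (1, 68, 166, 0), (1, 73, 85, 0), (1, 73, 171, 0), (1, 76, 162, 0), (1, 77, 163, 0), (1, 81, 157, 0), (1, 82, 154, 0), (1, 82, 158, 0), (1, 85, 157, 0), (1, 139, 171,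 0), (1, 154, 166, 0), (1, 42, 191, 0), (1, 48, 197, 0)]
        (by decide +kernel) (by simp) (by simp) hj (by simp)

end Cfsg.Agent.S2405
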