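import Cfsg.Statements.S2408
import Cfsg.Agent.Lib.Lie.H25Gen2

set_option autoImplicit false
open Cfsg

namespace Cfsg.Agent.S2408

/-- The large Ree group ²F₄(2^(2m+1)) with `m ≥ 1` is generated by two of its elements. -/
theorem result {K : Type*} [Field K] [Fintype K] {m : ℕ} (hm : 1 ≤ m) (hK : Fintype.card K = 2 ^ (2 * m + 1)) :
    ∃ a b : ↥(Cfsg.Lie.twistedF4 K (2 ^ m)), Subgroup.closure ({a, b} : Set ↥(Cfsg.Lie.twistedF4 K (2 ^ m))) = ⊤ := by
  obtain ⟨_, θ, h1, h2, h3⟩ := CA.Chev.exists_theta (K := K) 2 hK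
  refine CA.Chev.TF4.two_gen25 h1 h2 ?_
  rw [h3]
  exact (by norm_num : 2 < 2 ^ 3).trans_le (Nat.pow_le_pow_right (by norm_num) (by omega))

end Cfsg.Agent.S2408
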