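import Cfsg.Statements.S2410
import Cfsg.Agent.Lib.Lie.SzSub

set_option autoImplicit false
open Cfsg

namespace Cfsg.Agent.S2410

/-- The Suzuki group over the field with `2^(2m+1)` elements, `m ≥ 1` (realised as the stabiliser in `SL₄` of the Suzuki–Tits ovoid), is generated by two of its elements. -/
theorem result {F : Type*} [Field F] [Fintype F] {m : ℕ} (hm : 1 ≤ m) (hF : Fintype.card F = 2 ^ (2 * m + 1)) :
    ∃ a b : ↥(Cfsg.Sz F m), Subgroup.closure ({a, b} : Set ↥(Cfsg.Sz F m)) = ⊤ := by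
  have : CA.SzBasic.Hyp F m := ⟨hm, hF⟩
  open CA.SzBasic CA.SzGroup CA.SzSub in
  obtain ⟨μ, hμ⟩ := IsCyclic.exists_generator (α := Fˣ)
  refine ⟨D μ, T 1 0 * J F, ?_⟩
  set M := Subgroup.closure ({D μ, T 1 0 * J F} : Set (G F))
  have h1 : D μ ∈ M := Subgroup.subset_closure (Set.mem_insert _ _)
  have h2 : T 1 0 * J F ∈ M := Subgroup.subset_closure (Set.mem_insert_of_mem _ rfl)
  have hH : H F ≤ M := by
    rintro _ ⟨ν, rfl⟩
    obtain ⟨n, rfl⟩ := hμ ν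
    rw [map_zpow]
    exact zpow_mem h1 n
  have hμ1 : μ ≠ 1 := by
    obtain ⟨ν, hν⟩ := exists_unit_ne_one (F := F)
    rintro rfl
    obtain ⟨n, rfl⟩ := hμ ν
    simp at hν
  have h3 := mul_mem h1 (mul_mem (mul_mem h2 h1) (inv_mem h2))
  rw [show D μ * (T 1 0 * J F * D μ * (T 1 0 * J F)⁻¹) = D μ * T 1 0 * (J F * D μ * (J F)⁻¹) * (T 1 0)⁻¹ by group,
    J_conj_D, D_conj_T, T_inv, T_mul] at h3
  have h4 : th F μ * 1 + 1 ≠ 0 := fun e => hμ1 (Units.ext (eq_one_of_th_eq_one (by grind)))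
  refine eq_top_of_le split U_ne_bot (U_le_of_H_le hH h4 h3) fun h => ?_
  have h5 : (T 1 0 * J F) • (inf : Ov F) = inf := h h2
  rw [mul_smul, J_inf, T_pt_zero] at h5
  exact pt_ne_inf _ _ h5

end Cfsg.Agent.S2410
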