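import Cfsg.Statements.S2414
import Cfsg.Agent.Lib.Lin.Gen4

set_option autoImplicit false
open Cfsg

namespace Cfsg.Agent.S2414

open CA.Gen2 CA.CForm CA.CForm.Form

/-- The simple orthogonal group `PΩ⁺_{2m}(q)` (commutator subgroup of the orthogonal group of `Σ x_i y_i` modulo its centre) with `m ≥ 4` is generated by two of its elements. -/
theorem result {F : Type*} [Field F] [Fintype F] (m : ℕ) (hm : 4 ≤ m) :
    ∃ a b : Cfsg.POmega F (Cfsg.quadFormPlus m F), Subgroup.closure ({a, b} : Set (Cfsg.POmega F (Cfsg.quadFormPlus m F))) = ⊤ := by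
  obtain ⟨j, rfl⟩ := Nat.exists_eq_add_of_le' hm
  exact tg_omega (plusForm_nondeg F _) (by rw [finrank_plus]; omega) fun _ =>
    ⟨j + 1, by rw [finrank_plus]; omega, .inr ⟨plusForm_isIndex F _, by omega⟩⟩

end Cfsg.Agent.S2414
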