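import Cfsg.Statements.S2416
import Cfsg.Agent.Lib.Lie.SSCox
-- import your own Cfsg.Agent.* helpers here

set_option autoImplicit false
open scoped MatrixGroups
open Cfsg

namespace Cfsg.Agent.S2416

open CA.Chev CA.Chev.Cox Cfsg.Lie

section
variable {K : Type*} [Field K] {Γ : Type*} [Group Γ]
theorem lD4 {A : Sys chevD4 K Γ} {M : Subgroup Γ} (hN : A.N ≤ M) {i : ℕ} (hi : i < chevD4.rank)
    (h : Ok A M (chevD4.simple i)) : A.G ≤ M :=
  all_of_laced hN tab_D4 (fun j => ([[], [1, 0], [1, 2, 0, 1], [1, 3, 0, 1]] : List (List ℕ)).getD j [])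
    (by decide +kernel) hi h
theorem lE6 {A : Sys chevE6 K Γ} {M : Subgroup Γ} (hN : A.N ≤ M) {i : ℕ} (hi : i < chevE6.rank)
    (h : Ok A M (chevE6.simple i)) : A.G ≤ M :=
  all_of_laced hN tab_E6 (fun j => ([[], [2, 3, 0, 2, 1, 3], [2, 0], [2, 3, 0, 2], [2, 3, 4, 0, 2, 3], [2, 3, 4, 5, 0, 2, 3, 4]] : List (List ℕ)).getD j [])
    (by decide +kernel) hi h
theorem lE7 {A : Sys chevE7 K Γ} {M : Subgroup Γ} (hN : A.N ≤ M) {i : ℕ} (hi : i < chevE7.rank)
    (h : Ok A M (chevE7.simple i)) : A.G ≤ M :=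
  all_of_laced hN tab_E7 (fun j => ([[], [2, 3, 0, 2, 1, 3], [2, 0], [2, 3, 0, 2], [2, 3, 4, 0, 2, 3], [2, 3, 4, 5, 0, 2, 3, 4], [2, 3, 4, 5, 6, 0, 2, 3, 4, 5]] : List (List ℕ)).getD j [])
    (by decide +kernel) hi h
theorem lE8 {A : Sys chevE8 K Γ} {M : Subgroup Γ} (hN : A.N ≤ M) {i : ℕ} (hi : i < chevE8.rank)
    (h : Ok A M (chevE8.simple i)) : A.G ≤ M :=
  all_of_laced hN tab_E8 (fun j => ([[], [2, 3, 0, 2, 1, 3], [2, 0], [2, 3, 0, 2], [2, 3, 4, 0, 2, 3], [2, 3, 4, 5, 0, 2, 3, 4], [2, 3, 4, 5, 6, 0, 2, 3, 4, 5], [2, 3, 4, 5, 6, 7, 0, 2, 3, 4, 5, 6]] : List (List ℕ)).getD j [])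
    (by decide +kernel) hi h
theorem lB2 {A : Sys chevB2 K Γ} {M : Subgroup Γ} (hN : A.N ≤ M) (hp : ((2 : ℤ) : K) ≠ 0)
    (h : Ok A M (chevB2.simple 0)) : A.G ≤ M := by
  refine G_le_of_ok hN fun j hj => ?_
  have hj' : j < 2 := hj
  interval_cases j
  · exact h
  · exact Ok.wit tab_B2 (j := 1) (r := apW tabB2 [0] (chevB2.simple 0)) (s := apW tabB2 [1] (chevB2.simple 0)) (by decide) (C := -2) (by decide +kernel) (by rw [Int.cast_neg]; exact neg_ne_zero.2 hp)
      (h.ap hN tab_B2 _ (by decide +kernel)) (h.ap hN tab_B2 _ (by decide +kernel))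
theorem lG2 {A : Sys chevG2 K Γ} {M : Subgroup Γ} (hN : A.N ≤ M) (hp : ((3 : ℤ) : K) ≠ 0)
    (h : Ok A M (chevG2.simple 0)) : A.G ≤ M := by
  refine G_le_of_ok hN fun j hj => ?_
  have hj' : j < 2 := hj
  interval_cases j
  · exact h
  · exact Ok.wit tab_G2 (j := 1) (r := apW tabG2 [0] (chevG2.simple 0)) (s := apW tabG2 [1] (chevG2.simple 0)) (by decide) (C := -3) (by decide +kernel) (by rw [Int.cast_neg]; exact neg_ne_zero.2 hp)
      (h.ap hN tab_G2 _ (by decide +kernel)) (h.ap hN tab_G2 _ (by decide +kernel))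
theorem lF4 {A : Sys chevF4 K Γ} {M : Subgroup Γ} (hN : A.N ≤ M) (hp : ((2 : ℤ) : K) ≠ 0)
    (h1 : Ok A M (chevF4.simple 1)) : A.G ≤ M := by
  have h : Ok A M (chevF4.simple 2) :=
    Ok.wit tab_F4 (j := 2) (r := apW tabF4 [1] (chevF4.simple 1)) (s := apW tabF4 [2] (chevF4.simple 1)) (by decide) (C := -2) (by decide +kernel) (by rw [Int.cast_neg]; exact neg_ne_zero.2 hp)
      (h1.ap hN tab_F4 _ (by decide +kernel)) (h1.ap hN tab_F4 _ (by decide +kernel))
  refine G_le_of_ok hN fun j hj => ?_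
  have hj' : j < 4 := hj
  interval_cases j
  · exact h1.mv hN tab_F4 [1, 0] (by decide +kernel)
  · exact h1
  · exact h
  · exact h.mv hN tab_F4 [2, 3] (by decide +kernel)
theorem cast_ne {p : ℕ} (hp : p.Prime) (h : ringChar K ≠ p) : (((p : ℕ) : ℤ) : K) ≠ 0 := by
  rw [Int.cast_natCast]
  intro e
  rcases (Nat.dvd_prime hp).1 (ringChar.dvd e) with h1 | h1
  · exact CharP.ringChar_ne_one h1
  · exact h h1
end

/-- A Chevalley group of type G₂, B₂, D₄, F₄, E₆, E₇ or E₈ over a finite field lies in (indeed equals) the subgroup generated by its monomial subgroup `N` and a single fundamental root subgroup `X_p`, where `p` is a short fundamental root if there are two root lengths (any fundamental root otherwise), provided the characteristic is not 2 for types B₂, F₄ and not 3 for type G₂ (and the field has more than two elements for B₂, G₂). -/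
theorem result {K : Type*} [Field K] [Finite K] (D : Cfsg.Lie.ChevalleyDatum) (hD : D ∈ [Cfsg.Lie.chevG2, Cfsg.Lie.chevB2, Cfsg.Lie.chevD4, Cfsg.Lie.chevF4, Cfsg.Lie.chevE6, Cfsg.Lie.chevE7, Cfsg.Lie.chevE8])
    (hK : D ∈ [Cfsg.Lie.chevB2, Cfsg.Lie.chevG2] → ∃ x : K, x ≠ 0 ∧ x ≠ 1)
    (h2 : D ∈ [Cfsg.Lie.chevB2, Cfsg.Lie.chevF4] → ringChar K ≠ 2) (h3 : D = Cfsg.Lie.chevG2 → ringChar K ≠ 3)
    (i : ℕ) (hi : i < D.rank) (hshort : D.isLong (D.simple i) = false) :
    D.group K ≤ D.monomialSubgroup K ⊔ D.rootSubgroup K (D.simple i) := by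
  haveI := good_of_mem hD
  rw [group_eq, monomialSubgroup_eq]
  have hN : (adj D K).N ≤ (adj D K).N ⊔ D.rootSubgroup K (D.simple i) := le_sup_left
  have h := ok_of_le (K := K) hi (le_sup_right : _ ≤ (adj D K).N ⊔ D.rootSubgroup K (D.simple i))
  generalize (adj D K).N ⊔ D.rootSubgroup K (D.simple i) = M at hN h ⊢
  simp only [List.mem_cons, List.not_mem_nil, or_false] at hD
  rcases hD with rfl | rfl | rfl | rfl | rfl | rfl | rfl
  · have hi' : i < 2 := hi
    interval_cases i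
    · exact lG2 hN (cast_ne Nat.prime_three (h3 rfl)) h
    · exact absurd hshort (by decide +kernel)
  · have hi' : i < 2 := hi
    interval_cases i
    · exact lB2 hN (cast_ne Nat.prime_two (h2 (by simp))) h
    · exact absurd hshort (by decide +kernel)
  · exact lD4 hN hi h
  · have hi' : i < 4 := hi
    interval_cases i
    · exact lF4 hN (cast_ne Nat.prime_two (h2 (by simp))) (h.mv hN tab_F4 [0, 1] (by decide +kernel))
    · exact lF4 hN (cast_ne Nat.prime_two (h2 (by simp))) h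
    · exact absurd hshort (by decide +kernel)
    · exact absurd hshort (by decide +kernel)
  · exact lE6 hN hi h
  · exact lE7 hN hi h
  · exact lE8 hN hi h

end Cfsg.Agent.S2416
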