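import Cfsg.Statements.S2417
import Cfsg.Agent.Lib.Lie.SSCox
-- import your own Cfsg.Agent.* helpers here

set_option autoImplicit false
open scoped MatrixGroups
open Cfsg

namespace Cfsg.Agent.S2417

open CA.Chev CA.Chev.Cox Cfsg.Lie

theorem aux {K : Type*} [Field K] (D : ChevalleyDatum) [Good D] {i j : ℕ} (hi : i < D.rank) (hj : j < D.rank)
    (h : ∀ M : Subgroup (GL D.Idx K), (adj D K).N ≤ M → Ok (adj D K) M (D.simple i) → Ok (adj D K) M (D.simple j) →
      ∀ k < D.rank, Ok (adj D K) M (D.simple k)) :
    D.group K ≤ D.monomialSubgroup K ⊔ D.rootSubgroup K (D.simple i) ⊔ D.rootSubgroup K (D.simple j) := by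
  rw [group_eq, monomialSubgroup_eq]
  have hN : (adj D K).N ≤ (adj D K).N ⊔ D.rootSubgroup K (D.simple i) ⊔ D.rootSubgroup K (D.simple j) :=
    le_sup_left.trans le_sup_left
  exact G_le_of_ok hN (h _ hN (ok_of_le hi (le_sup_right.trans le_sup_left)) (ok_of_le hj le_sup_right))

/-- In the characteristics with an exceptional graph symmetry — type B₂ or F₄ in characteristic 2 (field of more than two elements for B₂) and type G₂ in characteristic 3 — the Chevalley group lies in the subgroup generated by its monomial subgroup `N` and the two fundamental root subgroups `X_a`, `X_b` of a short root `a` and a long root `b` joined in the Dynkin diagram. -/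
theorem result {K : Type*} [Field K] [Finite K] (e : Cfsg.Lie.ChevalleyDatum × ℕ)
    (he : e ∈ [(Cfsg.Lie.chevB2, 2), (Cfsg.Lie.chevF4, 2), (Cfsg.Lie.chevG2, 3)]) [CharP K e.2]
    (hK : e.1 = Cfsg.Lie.chevB2 → ∃ x : K, x ≠ 0 ∧ x ≠ 1)
    (i j : ℕ) (hi : i < e.1.rank) (hj : j < e.1.rank) (hshort : e.1.isLong (e.1.simple i) = false)
    (hlong : e.1.isLong (e.1.simple j) = true) (hbond : e.1.bonds i j ≠ 0) :
    e.1.group K ≤ e.1.monomialSubgroup K ⊔ e.1.rootSubgroup K (e.1.simple i) ⊔ e.1.rootSubgroup K (e.1.simple j) := by
  simp only [List.mem_cons, List.not_mem_nil, or_false] at he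
  rcases he with rfl | rfl | rfl
  · refine aux chevB2 hi hj fun M hN h1 h2 k hk => ?_
    have hne : i ≠ j := by rintro rfl; rw [hshort] at hlong; exact Bool.false_ne_true hlong
    have hi' : i < 2 := hi
    have hj' : j < 2 := hj
    have hk' : k < 2 := hk
    rcases (by omega : k = i ∨ k = j) with rfl | rfl
    · exact h1
    · exact h2
  · refine aux chevF4 hi hj fun M hN h1 h2 k hk => ?_
    have hi' : i < 4 := hi
    have hj' : j < 4 := hj
    have hk' : k < 4 := hk
    have a2 : Ok (adj chevF4 K) M (chevF4.simple 2) := by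
      interval_cases j
      · exact absurd hlong (by decide +kernel)
      · exact absurd hlong (by decide +kernel)
      · exact h2
      · exact h2.mv hN tab_F4 [3, 2] (by decide +kernel)
    have a1 : Ok (adj chevF4 K) M (chevF4.simple 1) := by
      interval_cases i
      · exact h1.mv hN tab_F4 [0, 1] (by decide +kernel)
      · exact h1
      · exact absurd hshort (by decide +kernel)
      · exact absurd hshort (by decide +kernel)
    interval_cases k
    · exact a1.mv hN tab_F4 [1, 0] (by decide +kernel)
    · exact a1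
    · exact a2
    · exact a2.mv hN tab_F4 [2, 3] (by decide +kernel)
  · refine aux chevG2 hi hj fun M hN h1 h2 k hk => ?_
    have hne : i ≠ j := by rintro rfl; rw [hshort] at hlong; exact Bool.false_ne_true hlong
    have hi' : i < 2 := hi
    have hj' : j < 2 := hj
    have hk' : k < 2 := hk
    rcases (by omega : k = i ∨ k = j) with rfl | rfl
    · exact h1
    · exact h2

end Cfsg.Agent.S2417
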