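import Cfsg.Statements.S2418
import Cfsg.Agent.Lib.Lie.SSCox
-- import your own Cfsg.Agent.* helpers here

set_option autoImplicit false
open Cfsg

namespace Cfsg.Agent.S2418

open CA.Chev CA.Chev.Cox Cfsg.Lie

/-- For the Coxeter groups of types B₂, G₂, D₄, F₄, E₇, E₈ the centre has order 2 (the element acting as −1 on the root system) and is generated by a power of the Coxeter element `s₁ s₂ ⋯ s_l`; the Coxeter group of type E₆ has trivial centre. -/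
theorem result (c : (Σ n : ℕ, CoxeterMatrix (Fin n)) × ℕ)
    (hc : c ∈ [(⟨2, CoxeterMatrix.B 2⟩, 2), (⟨2, CoxeterMatrix.G₂⟩, 2), (⟨4, Cfsg.Lie.coxeterD4⟩, 2), (⟨4, CoxeterMatrix.F₄⟩, 2),
      (⟨6, CoxeterMatrix.E₆⟩, 1), (⟨7, CoxeterMatrix.E₇⟩, 2), (⟨8, CoxeterMatrix.E₈⟩, 2)]) :
    Nat.card (Subgroup.center c.1.2.Group) = c.2 ∧
      Subgroup.center c.1.2.Group ≤ Subgroup.zpowers ((List.finRange c.1.1).map c.1.2.simple).prod := by
  simp only [List.mem_cons, List.not_mem_nil, or_false] at hc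
  rcases hc with rfl | rfl | rfl | rfl | rfl | rfl | rfl
  · exact center_two tab_B2 cox_B2 2 (by decide +kernel)
  · exact center_two tab_G2 cox_G2 3 (by decide +kernel)
  · exact center_two tab_D4 cox_D4 3 (by decide +kernel)
  · exact center_two tab_F4 cox_F4 6 (by decide +kernel)
  · have := center_one tab_E6 cox_E6 (([0, 1, 2, 0, 3, 1, 2, 0, 3, 2, 4, 3, 1, 2, 0, 3, 2, 4, 3, 1, 5, 4, 3, 1, 2, 0, 3, 2, 4, 3, 1, 5, 4, 3, 2, 0] : List (Fin 6))) (0 : Fin 6)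
      (show allLt tabE6.l (fun i => decide (apW tabE6 [0, 1, 2, 0, 3, 1, 2, 0, 3, 2, 4, 3, 1, 2, 0, 3, 2, 4, 3, 1, 5, 4, 3, 1, 2, 0, 3, 2, 4, 3, 1, 5, 4, 3, 2, 0] (tabE6.simple i) < tabE6.n / 2)) = true by decide +kernel)
      (show apW tabE6 [0, 1, 2, 0, 3, 1, 2, 0, 3, 2, 4, 3, 1, 2, 0, 3, 2, 4, 3, 1, 5, 4, 3, 1, 2, 0, 3, 2, 4, 3, 1, 5, 4, 3, 2, 0] (tabE6.simple 0) ≠ tabE6.neg (tabE6.simple 0) by decide +kernel)
    change Nat.card (Subgroup.center (CoxeterMatrix.E₆).Group) = 1 ∧ Subgroup.center (CoxeterMatrix.E₆).Group ≤ _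
    rw [show Subgroup.center (CoxeterMatrix.E₆).Group = ⊥ from this]
    exact ⟨Subgroup.card_bot, bot_le⟩
  · exact center_two tab_E7 cox_E7 9 (by decide +kernel)
  · exact center_two tab_E8 cox_E8 15 (by decide +kernel)

end Cfsg.Agent.S2418
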