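import Cfsg.Statements.S2419
import Cfsg.Agent.Lib.Lie.SSCox
-- import your own Cfsg.Agent.* helpers here

set_option autoImplicit false
open Cfsg

namespace Cfsg.Agent.S2419

open CA.Chev CA.Chev.Cox Cfsg.Lie

theorem one {n : ℕ} (M : CoxeterMatrix (Fin n)) (i : Fin n)
    (h : ∀ H : Subgroup M.Group, ((List.finRange n).map M.simple).prod ∈ H → M.simple i ∈ H → H = ⊤) :
    ∃ T : Finset M.Group, T.card = 1 ∧ (∀ t ∈ T, ∃ (g : M.Group) (i : Fin n), t = g * M.simple i * g⁻¹) ∧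
      Subgroup.closure (({((List.finRange n).map M.simple).prod} : Set M.Group) ∪ ↑T) = ⊤ :=
  ⟨{M.simple i}, Finset.card_singleton _, fun t ht => ⟨1, i, by simpa using ht⟩,
    h _ (Subgroup.subset_closure (Or.inl rfl)) (Subgroup.subset_closure (Or.inr (by simp)))⟩

theorem two {n : ℕ} (M : CoxeterMatrix (Fin n)) (i j : Fin n) (hij : M.simple i ≠ M.simple j)
    (h : ∀ H : Subgroup M.Group, ((List.finRange n).map M.simple).prod ∈ H → M.simple i ∈ H → M.simple j ∈ H → H = ⊤) :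
    ∃ T : Finset M.Group, T.card = 2 ∧ (∀ t ∈ T, ∃ (g : M.Group) (i : Fin n), t = g * M.simple i * g⁻¹) ∧
      Subgroup.closure (({((List.finRange n).map M.simple).prod} : Set M.Group) ∪ ↑T) = ⊤ := by
  classical
  refine ⟨{M.simple i, M.simple j}, Finset.card_pair hij, fun t ht => ?_,
    h _ (Subgroup.subset_closure (Or.inl rfl)) (Subgroup.subset_closure (Or.inr (by simp)))
      (Subgroup.subset_closure (Or.inr (by simp)))⟩
  rcases Finset.mem_insert.1 ht with rfl | ht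
  · exact ⟨1, i, by simp⟩
  · exact ⟨1, j, by simpa using ht⟩

/-- The Coxeter groups of types B₂, G₂, E₆, E₇, E₈ are generated by the Coxeter element `s₁ s₂ ⋯ s_l` together with one suitable reflection (a conjugate of a simple reflection); for types D₄ and F₄ the Coxeter element together with two suitable reflections suffices. -/
theorem result (c : (Σ n : ℕ, CoxeterMatrix (Fin n)) × ℕ)
    (hc : c ∈ [(⟨2, CoxeterMatrix.B 2⟩, 1), (⟨2, CoxeterMatrix.G₂⟩, 1), (⟨4, Cfsg.Lie.coxeterD4⟩, 2), (⟨4, CoxeterMatrix.F₄⟩, 2),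
      (⟨6, CoxeterMatrix.E₆⟩, 1), (⟨7, CoxeterMatrix.E₇⟩, 1), (⟨8, CoxeterMatrix.E₈⟩, 1)]) :
    ∃ T : Finset c.1.2.Group, T.card = c.2 ∧ (∀ t ∈ T, ∃ (g : c.1.2.Group) (i : Fin c.1.1), t = g * c.1.2.simple i * g⁻¹) ∧
      Subgroup.closure (({((List.finRange c.1.1).map c.1.2.simple).prod} : Set c.1.2.Group) ∪ ↑T) = ⊤ := by
  simp only [List.mem_cons, List.not_mem_nil, or_false] at hc
  rcases hc with rfl | rfl | rfl | rfl | rfl | rfl | rfl
  · refine one (CoxeterMatrix.B 2) 0 fun H h1 h2 => ?_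
    have h3 : (CoxeterMatrix.B 2).simple 1 ∈ H := by
      have := mul_mem (inv_mem h2) h1
      simpa [List.finRange_succ] using this
    exact gen_of_chk tab_B2 cox_B2 (([0, 1] : List (Fin 2))) (st := id) (us := fun _ => [])
      (show genChk tabB2 [0, 1] id (fun _ => []) = true by decide +kernel) h1
      (show ∀ i ∈ ([0, 1] : List (Fin 2)), (CoxeterMatrix.B 2).simple i ∈ H by simp [h2, h3])
  · refine one CoxeterMatrix.G₂ 0 fun H h1 h2 => ?_
    have h3 : CoxeterMatrix.G₂.simple 1 ∈ H := by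
      have := mul_mem (inv_mem h2) h1
      simpa [List.finRange_succ] using this
    exact gen_of_chk tab_G2 cox_G2 (([0, 1] : List (Fin 2))) (st := id) (us := fun _ => [])
      (show genChk tabG2 [0, 1] id (fun _ => []) = true by decide +kernel) h1
      (show ∀ i ∈ ([0, 1] : List (Fin 2)), CoxeterMatrix.G₂.simple i ∈ H by simp [h2, h3])
  · refine two coxeterD4 0 2 (simple_ne cox_D4 (show (0 : Fin 4) ≠ 2 by decide)) fun H h1 h2 h3 => ?_
    exact gen_of_chk tab_D4 cox_D4 (([0, 2] : List (Fin 4))) (st := (getN [0, 0, 2, 0])) (us := (fun j => ([[], [4], [], [4, 2, 4]] : List (List ℕ)).getD j []))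
      (show genChk tabD4 [0, 2] (getN [0, 0, 2, 0]) (fun j => ([[], [4], [], [4, 2, 4]] : List (List ℕ)).getD j []) = true by decide +kernel) h1
      (show ∀ i ∈ ([0, 2] : List (Fin 4)), coxeterD4.simple i ∈ H by simp [h2, h3])
  · refine two CoxeterMatrix.F₄ 0 2 (simple_ne cox_F4 (show (0 : Fin 4) ≠ 2 by decide)) fun H h1 h2 h3 => ?_
    exact gen_of_chk tab_F4 cox_F4 (([0, 2] : List (Fin 4))) (st := (getN [0, 0, 2, 2])) (us := (fun j => ([[], [4], [], [4]] : List (List ℕ)).getD j []))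
      (show genChk tabF4 [0, 2] (getN [0, 0, 2, 2]) (fun j => ([[], [4], [], [4]] : List (List ℕ)).getD j []) = true by decide +kernel) h1
      (show ∀ i ∈ ([0, 2] : List (Fin 4)), CoxeterMatrix.F₄.simple i ∈ H by simp [h2, h3])
  · refine one CoxeterMatrix.E₆ 3 fun H h1 h2 => ?_
    exact gen_of_chk tab_E6 cox_E6 (([3] : List (Fin 6))) (st := (getN [3, 3, 3, 3, 3, 3])) (us := (fun j => ([[6, 6, 6, 6, 6, 6, 6], [6, 6, 6, 3, 6, 6, 6], [3, 6, 6, 6, 6, 3], [], [6], [6, 6]] : List (List ℕ)).getD j []))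
      (show genChk tabE6 [3] (getN [3, 3, 3, 3, 3, 3]) (fun j => ([[6, 6, 6, 6, 6, 6, 6], [6, 6, 6, 3, 6, 6, 6], [3, 6, 6, 6, 6, 3], [], [6], [6, 6]] : List (List ℕ)).getD j []) = true by decide +kernel) h1
      (show ∀ i ∈ ([3] : List (Fin 6)), CoxeterMatrix.E₆.simple i ∈ H by simp [h2])
  · refine one CoxeterMatrix.E₇ 3 fun H h1 h2 => ?_
    exact gen_of_chk tab_E7 cox_E7 (([3] : List (Fin 7))) (st := (getN [3, 3, 3, 3, 3, 3, 3])) (us := (fun j => ([[7, 7, 7, 7, 3, 7, 7, 7, 7], [3, 7, 3, 7, 7, 7, 7, 7, 3], [3, 7, 7, 7, 7, 7, 3], [], [7], [7, 7], [7, 7, 7]] : List (List ℕ)).getD j []))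
      (show genChk tabE7 [3] (getN [3, 3, 3, 3, 3, 3, 3]) (fun j => ([[7, 7, 7, 7, 3, 7, 7, 7, 7], [3, 7, 3, 7, 7, 7, 7, 7, 3], [3, 7, 7, 7, 7, 7, 3], [], [7], [7, 7], [7, 7, 7]] : List (List ℕ)).getD j []) = true by decide +kernel) h1
      (show ∀ i ∈ ([3] : List (Fin 7)), CoxeterMatrix.E₇.simple i ∈ H by simp [h2])
  · refine one CoxeterMatrix.E₈ 3 fun H h1 h2 => ?_
    exact gen_of_chk tab_E8 cox_E8 (([3] : List (Fin 8))) (st := (getN [3, 3, 3, 3, 3, 3, 3, 3])) (us := (fun j => ([[8, 8, 8, 8, 8, 3, 8, 8, 8, 8, 8, 8, 8, 8, 8], [3, 8, 3, 8, 8, 8, 8, 8, 8, 3], [3, 8, 8, 8, 8, 8, 8, 3], [], [8], [8, 8], [8, 8, 8], [8, 8, 8, 8]] : List (List ℕ)).getD j []))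
      (show genChk tabE8 [3] (getN [3, 3, 3, 3, 3, 3, 3, 3]) (fun j => ([[8, 8, 8, 8, 8, 3, 8, 8, 8, 8, 8, 8, 8, 8, 8], [3, 8, 3, 8, 8, 8, 8, 8, 8, 3], [3, 8, 8, 8, 8, 8, 8, 3], [], [8], [8, 8], [8, 8, 8], [8, 8, 8, 8]] : List (List ℕ)).getD j []) = true by decide +kernel) h1
      (show ∀ i ∈ ([3] : List (Fin 8)), CoxeterMatrix.E₈.simple i ∈ H by simp [h2])

end Cfsg.Agent.S2419
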