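import Cfsg.Statements.S2425
import Mathlib
import Cfsg.Agent.Lib.Lin.GLUnip
import Cfsg.Agent.Lib.Lin.GLPar
import Cfsg.Agent.Lib.Lin.Rcf2

set_option autoImplicit false
open scoped MatrixGroups
open Cfsg

namespace Cfsg.Agent.S2425

section
open Finset

section A
variable {R : Type*} [Ring R] (h : ℕ → R)

def Mx (a : ℕ) {m : ℕ} (i j : Fin m) : R :=
  if j.1 = 0 then h (a + i) else if j.1 ≤ i + 1 then h (i + 1 - j) else 0

def D (m a : ℕ) : R :=
  ∑ κ : Equiv.Perm (Fin m), (Equiv.Perm.sign κ : ℤ) • (List.ofFn fun i => Mx h a i (κ i)).prod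

theorem D_succ (h0 : h 0 = 1) (m a : ℕ) :
    D h (m + 1) a = h a * D h m 1 - if m = 0 then 0 else D h m (a + 1) := by
  simp only [D, univ_perm_fin_succ, ← univ_product_univ, sum_map, Equiv.toEmbedding_apply, sum_product,
    Equiv.Perm.decomposeFin.symm_sign, List.ofFn_succ, List.prod_cons,
    Equiv.Perm.decomposeFin_symm_apply_zero, Equiv.Perm.decomposeFin_symm_apply_succ]
  rw [Fin.sum_univ_succ, mul_sum, sub_eq_add_neg]
  congr 1
  · refine sum_congr rfl fun e _ => ?_
    rw [mul_smul_comm]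
    congr 3
    · simp
    · congr 1; funext i; simp [Mx, add_comm]; grind
  rcases m with _ | m
  · simp
  rw [Fin.sum_univ_succ, sum_eq_zero (s := univ) fun (i : Fin m) _ => sum_eq_zero fun e _ => by simp [Mx],
    add_zero, if_neg (Nat.succ_ne_zero m), ← sum_neg_distrib]
  refine sum_congr rfl fun e _ => ?_
  rw [← neg_smul, show Mx h a 0 (Fin.succ 0) = 1 by simp [Mx, h0], one_mul]
  congr 2
  · simp
  · congr 1; funext i
    by_cases e0 : e i = 0
    · simp [Mx, e0, add_assoc, add_comm 1]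
    · rw [Equiv.swap_apply_of_ne_of_ne (Fin.succ_ne_zero _) (mt (Fin.succ_injective _ ·) e0)]
      simp [Mx, e0]

theorem D_eq (h0 : h 0 = 1) (m : ℕ) : ∀ a,
    D h (m + 1) a = ∑ k ∈ range (m + 1), (-1 : ℤ) ^ k • (h (a + k) * D h (m - k) 1) := by
  induction m with
  | zero => intro a; simp [D_succ h h0]
  | succ m ih =>
    intro a
    rw [D_succ h h0, if_neg (by omega), ih (a + 1), sum_range_succ' _ (m + 1), sub_eq_neg_add,
      ← sum_neg_distrib]
    simp [pow_succ', add_assoc, add_comm 1]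

theorem D_sum (h0 : h 0 = 1) (m : ℕ) :
    ∑ k ∈ range (m + 2), (-1 : ℤ) ^ (m + 1 - k) • (h k * D h (m + 1 - k) 1) = 0 := by
  rw [sum_range_succ', Nat.sub_zero, D_eq h h0, h0, one_mul, smul_sum, ← sum_add_distrib]
  refine sum_eq_zero fun k hk => ?_
  obtain ⟨j, rfl⟩ := Nat.exists_eq_add_of_le (mem_range_succ_iff.1 hk)
  rw [show k + j + 1 - (k + 1) = j by omega, show k + j - k = j by omega, smul_smul,
    ← pow_add, show k + j + 1 + k = 2 * k + j + 1 by omega, add_comm 1, ← add_smul]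
  simp [pow_add]
end A

section B
open Classical
variable {L : Type*} [Fintype L] [PartialOrder L] [OrderTop L] (d : L → ℕ)

noncomputable def H (a : ℕ) : Module.End ℂ (L → ℂ) where
  toFun f U := ∑ W with U ≤ W ∧ d W = d U + a, f W
  map_add' f g := by ext; simp [sum_add_distrib]
  map_smul' f g := by ext; simp [mul_sum]

def Ch {m : ℕ} (μ : Fin m → ℕ) (U : L) : Set (ℕ → L) := {W | W 0 = U ∧ (∀ i, W i ≤ W (i + 1)) ∧
  (∀ i : Fin m, d (W (i + 1)) = d (W i) + μ i) ∧ ∀ i, m ≤ i → W i = ⊤}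

theorem card_Ch {m : ℕ} (μ : Fin m → ℕ) (U : L) : Finite (Ch d μ U) ∧ (Nat.card (Ch d μ U) : ℂ) =
    (List.ofFn fun i => H d (μ i)).prod (Pi.single ⊤ 1) U := by
  induction m generalizing U with
  | zero =>
    by_cases h : U = ⊤
    · rw [show Ch d μ U = {fun _ => ⊤} by ext; simp [Ch, h, funext_iff]; grind]
      exact ⟨inferInstance, by simp [h]⟩
    · rw [show Ch d μ U = ∅ by ext; simp [Ch]; grind]
      exact ⟨inferInstance, by simp [h]⟩
  | succ m ih =>
    have e : Ch d μ U ≃ Σ W : {W // U ≤ W ∧ d W = d U + μ 0}, Ch d (Fin.tail μ) W.1 :=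
      { toFun W := ⟨⟨W.1 1, W.2.1.ge.trans (W.2.2.1 0), (W.2.2.2.1 0).trans (by simp [W.2.1])⟩, fun i => W.1 (i + 1), rfl,
          fun i => W.2.2.1 _, fun i => W.2.2.2.1 i.succ, fun i hi => W.2.2.2.2 _ (by omega)⟩
        invFun W := ⟨fun i => Nat.casesOn i U W.2.1, rfl,
          fun i => Nat.casesOn i (W.1.2.1.trans W.2.2.1.ge) W.2.2.2.1,
          Fin.cases ((congrArg d W.2.2.1).trans W.1.2.2) W.2.2.2.2.1,
          fun i hi => by
            obtain ⟨i, rfl⟩ : ∃ j, i = j + 1 := ⟨i - 1, by omega⟩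
            exact W.2.2.2.2.2 i (by omega)⟩
        left_inv W := Subtype.ext (funext fun i => by cases i; exacts [W.2.1.symm, rfl])
        right_inv := by
          rintro ⟨⟨_, _⟩, W, h, _⟩
          dsimp only at h
          subst h; rfl }
    have := fun W => (ih (Fin.tail μ) W).1
    refine ⟨Finite.of_equiv _ e.symm, ?_⟩
    rw [Nat.card_congr e, Nat.card_sigma, Nat.cast_sum, List.ofFn_succ, List.prod_cons, Module.End.mul_apply]
    simp only [(ih _ _).2]
    exact (sum_subtype _ (by simp) fun W => (List.ofFn fun i => H d (Fin.tail μ i)).prod _ W).symm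

theorem mob (hd : StrictMono d) (U : L) : ∑ W with U ≤ W ∧ W ≤ ⊤,
    (-1) ^ (d ⊤ - d W) * D (H d) (d ⊤ - d W) 1 (Pi.single ⊤ 1) W = if U = ⊤ then 1 else 0 := by
  split_ifs with h
  · rw [h, show (univ.filter fun W : L => ⊤ ≤ W ∧ W ≤ ⊤) = {⊤} by ext; simp, sum_singleton, Nat.sub_self]
    simp [D]
  obtain ⟨m, hm⟩ := Nat.exists_eq_add_of_lt (hd (lt_top_iff_ne_top.2 h))
  have h0 : H d 0 = 1 := LinearMap.ext fun f => funext fun U => by
    have : (univ.filter fun W => U ≤ W ∧ d W = d U + 0) = {U} := by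
      ext W
      simp only [mem_filter, mem_univ, true_and, mem_singleton]
      exact ⟨fun h => (h.1.eq_of_not_lt fun e => (hd e).ne' h.2).symm, by rintro rfl; simp⟩
    simp only [H, LinearMap.coe_mk, AddHom.coe_mk, this, sum_singleton, Module.End.one_apply]
  rw [← show _ = (0 : ℂ) from congrFun (LinearMap.congr_fun (D_sum (H d) h0 m) (Pi.single ⊤ 1)) U,
    ← sum_fiberwise_of_maps_to (t := range (m + 2)) (g := fun W => d W - d U) fun W _ => by
      have := hd.monotone (le_top (a := W)); rw [mem_range]; omega]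
  simp only [LinearMap.sum_apply, Finset.sum_apply]
  refine sum_congr rfl fun k hk => ?_
  simp only [LinearMap.smul_apply, Module.End.mul_apply, Pi.smul_apply, H, LinearMap.coe_mk,
    AddHom.coe_mk, smul_sum, filter_filter]
  refine sum_congr (filter_congr fun W _ => ⟨fun e => ⟨e.1.1, by have := hd.monotone e.1.1; omega⟩,
    fun e => ⟨⟨e.1, le_top⟩, by omega⟩⟩) fun W hW => ?_
  rw [show d ⊤ - d W = m + 1 - k by have := (mem_filter.1 hW).2.2; omega]
  simp [H]
end B

section C
open Module Polynomial Submodule Classical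
variable {F : Type*} [Field F] {V : Type*} [AddCommGroup V] [Module F V]

theorem step [FiniteDimensional F V] {X Y Y' : Submodule F V} (h : X ≤ Y) (h' : X ≤ Y')
    (e : finrank F Y = finrank F Y') : ∃ g : V ≃ₗ[F] V, (∀ x ∈ X, g x = x) ∧ Y.map g.toLinearMap = Y' := by
  let f := LinearEquiv.ofFinrankEq _ _ e
  obtain ⟨k, hk⟩ := exists_linearEquiv_restrict_eq ((f.submoduleMap (X.comap Y.subtype)).symm.trans
    ((comapSubtypeEquivOfLe h).trans (comapSubtypeEquivOfLe h').symm))
  obtain ⟨g, hg⟩ := exists_linearEquiv_restrict_eq (f.trans k)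
  refine ⟨g, fun x hx => ?_, eq_of_le_of_finrank_eq ?_ ((g.finrank_map_eq _).trans e)⟩
  · rw [← hg ⟨x, h hx⟩, LinearEquiv.trans_apply, ← hk ⟨f ⟨x, h hx⟩, mem_map_of_mem hx⟩]
    simp
  · rintro _ ⟨y, hy, rfl⟩
    exact hg ⟨y, hy⟩ ▸ (f.trans k ⟨y, hy⟩).2

theorem trans [FiniteDimensional F V] {U W : ℕ → Submodule F V} (hU : Monotone U) (hW : Monotone W)
    (e : ∀ i, finrank F (U i) = finrank F (W i)) (m : ℕ) :
    ∃ g : V ≃ₗ[F] V, ∀ i ≤ m, (U i).map g.toLinearMap = W i := by
  induction m with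
  | zero =>
    obtain ⟨g, -, hg⟩ := step bot_le bot_le (e 0)
    exact ⟨g, fun i hi => by rwa [Nat.le_zero.1 hi]⟩
  | succ m ih =>
    obtain ⟨g, hg⟩ := ih
    obtain ⟨k, h1, h2⟩ := step (hg m le_rfl ▸ map_mono (hU m.le_succ) : W m ≤ _) (hW m.le_succ)
      ((g.finrank_map_eq _).trans (e _))
    refine ⟨g.trans k, fun i hi => ?_⟩
    rw [LinearEquiv.coe_trans, Submodule.map_comp]
    obtain rfl | hi := hi.eq_or_lt
    · exact h2
    rw [hg i (by omega)]
    exact eq_of_le_of_finrank_eq (by rintro _ ⟨y, hy, rfl⟩; exact (h1 y (hW (by omega) hy)).symm ▸ hy)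
      (k.finrank_map_eq _)

variable [Fintype F] [Module F[X] V] [IsScalarTower F F[X] V] [IsSemisimpleModule F[X] V]
  [Fintype (Submodule F[X] V)]

theorem weis [Finite V] (S : Finset F[X]) (hS : ∀ f ∈ S, f.Monic ∧ Irreducible f)
    (hS' : ∀ f : F[X], f.Monic → Irreducible f → ∀ v : V, v ≠ 0 → f • v = 0 → f ∈ S)
    (a : Submodule F[X] V) : ∃ m : F[X] → ℕ,
      (∀ f ∈ S, Nat.card ↥(a ⊓ torsionBy F[X] V f) = Fintype.card F ^ (f.natDegree * m f)) ∧
      ∀ s : Submodule F[X] V → ℂ, (∀ u ≤ a, ∑ w with u ≤ w ∧ w ≤ a, s w = if u = a then 1 else 0) →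
        s ⊥ = ∏ f ∈ S, (-1) ^ m f * (Fintype.card F : ℂ) ^ (f.natDegree * (m f).choose 2) := by
  induction a using WellFoundedLT.induction with
  | ind a ih =>
  obtain rfl | h := eq_or_ne a ⊥
  · exact ⟨0, by simp, fun s hs => by simpa [filter_eq'] using hs ⊥ le_rfl⟩
  obtain ⟨b, -, hb⟩ := exists_le_covBy_of_lt (bot_lt_iff_ne_bot.2 h)
  obtain ⟨m, h1, h2⟩ := ih b hb.lt
  have cp : ∀ c ≤ a, c ⊓ b = ⊥ → c ≠ ⊥ → c ⊔ b = a ∧ IsAtom c := fun c hc e0 e1 => by
    have := (hb.eq_or_eq le_sup_right (sup_le hc hb.le)).resolve_left fun e =>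
      e1 (by rw [← e0, inf_eq_left.2 (sup_eq_right.1 e)])
    exact ⟨this, bot_covBy_iff.1 (e0 ▸ inf_covBy_of_covBy_sup_right (this ▸ hb))⟩
  obtain ⟨c, c1, c2⟩ := IsModularLattice.exists_disjoint_and_sup_eq hb.le
  have c3 : c ≠ ⊥ := by rintro rfl; exact hb.ne (by simpa using c2)
  have ca : c ≤ a := c2 ▸ le_sup_right
  obtain ⟨v, hv, v0⟩ := c.exists_mem_ne_zero_of_ne_bot c3
  have cv := (cp c ca c1.symm.eq_bot c3).2.le_iff_eq (span_singleton_eq_bot.not.2 v0) |>.1
    ((span_singleton_le_iff_mem v c).2 hv)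
  have : IsSimpleModule F[X] (span F[X] {v}) := isSimpleModule_iff_isAtom.2 (cv ▸ (cp c ca c1.symm.eq_bot c3).2)
  have hI : Ideal.IsMaximal (LinearMap.ker (LinearMap.toSpanSingleton F[X] V v)) := by
    rw [Ideal.isMaximal_def, ← isSimpleModule_iff_isCoatom]
    exact (LinearMap.quotKerEquivRange _).isSimpleModule_iff.2 (LinearMap.span_singleton_eq_range F[X] V v ▸ this)
  obtain ⟨f, f1, f2⟩ := exists_monic_span _ (Ring.ne_bot_of_isMaximal_of_not_isField hI (not_isField F))
  have f3 : Irreducible f := Ideal.irreducible_of_isMaximal_span_singleton f1.ne_zero (f2 ▸ hI)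
  have f4 : ∀ r, r • v = 0 ↔ f ∣ r := fun r => by
    rw [← Ideal.mem_span_singleton, ← f2]; rfl
  have fS := hS' f f1 f3 v v0 ((f4 f).2 dvd_rfl)
  have dec : ∀ x ∈ a, ∃ r : F[X], x - r • v ∈ b := fun x hx => by
    obtain ⟨y, hy, z, hz, rfl⟩ := mem_sup.1 (c2.ge hx)
    obtain ⟨r, rfl⟩ := mem_span_singleton.1 (cv.ge hz)
    exact ⟨r, by simpa⟩
  have dj : ∀ r : F[X], r • v ∈ b → f ∣ r := fun r hr => (f4 r).1 (disjoint_def.1 c1 _ hr (c.smul_mem r hv))
  have vb : v ∉ b := fun e => v0 (disjoint_def.1 c1 _ e hv)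
  refine ⟨Function.update m f (m f + 1), fun g hg => ?_, fun s hs => ?_⟩
  · obtain rfl | e := eq_or_ne g f
    · have k : Nat.card c = Fintype.card F ^ g.natDegree := by
        rw [← cv, LinearMap.span_singleton_eq_range, ← Nat.card_congr (LinearMap.quotKerEquivRange _).toEquiv,
          f2, ← finrank_quotient_span_eq_natDegree, ← Nat.card_eq_fintype_card]
        have := f1.finite_quotient
        exact Module.natCard_eq_pow_finrank
      have cK : c ≤ torsionBy F[X] V g := cv ▸ (span_singleton_le_iff_mem _ _).2 ((f4 g).2 dvd_rfl)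
      rw [Function.update_self, mul_add_one, pow_add, ← h1 g hg, ← k, ← Nat.card_prod, eq_comm]
      refine Nat.card_eq_of_bijective (fun x => ⟨x.1 + x.2, add_mem (hb.le x.1.2.1) (ca x.2.2),
        add_mem x.1.2.2 (cK x.2.2)⟩) ⟨fun x y e => ?_, fun x => ?_⟩
      · have := (disjoint_iff_add_eq_zero.1 c1) (sub_mem x.1.2.1 y.1.2.1) (sub_mem x.2.2 y.2.2)
          (by rw [sub_add_sub_comm, Subtype.mk.inj e, sub_self])
        exact Prod.ext (Subtype.ext (sub_eq_zero.1 this.1)) (Subtype.ext (sub_eq_zero.1 this.2))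
      · obtain ⟨r, hr⟩ := dec x x.2.1
        exact ⟨(⟨_, hr, sub_mem x.2.2 (cK (c.smul_mem r hv))⟩, ⟨_, c.smul_mem r hv⟩), by simp⟩
    rw [Function.update_of_ne e, ← h1 g hg, le_antisymm (fun x hx => ⟨?_, hx.2⟩ :
      a ⊓ torsionBy F[X] V g ≤ b ⊓ torsionBy F[X] V g) (inf_le_inf_right _ hb.le)]
    obtain ⟨r, hr⟩ := dec x hx.1
    have := b.smul_mem g hr
    rw [smul_sub, show g • x = 0 from hx.2, zero_sub, neg_mem_iff, smul_smul] at this
    rwa [(f4 r).2 ((CA.Rcf.isCoprime_of_ne f1 f3 (hS g hg).1 (hS g hg).2 e.symm).dvd_of_dvd_mul_left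
      (dj _ this)), sub_zero] at hr
  have w : ∀ u ≤ b, ∑ c with c ≤ a ∧ c ⊓ b = u, s c = 0 := fun u => by
    induction u using WellFoundedGT.induction with
    | ind u ih =>
    intro hu
    have := hs u (hu.trans hb.le)
    rw [if_neg (hu.trans_lt hb.lt).ne, ← sum_fiberwise_of_maps_to (t := univ) (g := (· ⊓ b))
      fun _ _ => mem_univ _, sum_eq_single u (fun u' _ e => ?_) (by simp), filter_filter] at this
    · rw [← this]
      exact sum_congr (filter_congr fun c _ => ⟨fun e => ⟨⟨e.2.ge.trans inf_le_left, e.1⟩, e.2⟩,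
        fun e => ⟨e.1.2, e.2⟩⟩) fun _ _ => rfl
    by_cases e' : u ≤ u' ∧ u' ≤ b
    · rw [← ih u' (e'.1.lt_of_ne' e) e'.2, filter_filter]
      exact sum_congr (filter_congr fun c _ => ⟨fun e => ⟨e.1.2, e.2⟩,
        fun e => ⟨⟨e'.1.trans (e.2.ge.trans inf_le_left), e.1⟩, e.2⟩⟩) fun _ _ => rfl
    · refine sum_eq_zero fun c hc => (e' ?_).elim
      simp only [mem_filter] at hc
      exact hc.2 ▸ ⟨le_inf hc.1.2.1 hu, inf_le_right⟩
  have w0 := w ⊥ bot_le
  have w1 : ∀ c ∈ (univ.filter fun c => c ≤ a ∧ c ⊓ b = ⊥).erase ⊥, s c = ∏ f ∈ S, (-1) ^ m f *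
      (Fintype.card F : ℂ) ^ (f.natDegree * (m f).choose 2) := fun c hc => by
    obtain ⟨k0, k1⟩ := mem_erase.1 hc
    obtain ⟨k1, k2⟩ := (mem_filter.1 k1).2
    have k3 := (cp c k1 k2 k0).1
    have k4 : ∀ u ≤ b, (u ⊔ c) ⊓ b = u := fun u hu => by rw [sup_inf_assoc_of_le _ hu, k2, sup_bot_eq]
    refine (congrArg s (bot_sup_eq c).symm).trans (h2 (fun u => s (u ⊔ c)) fun u hu => ?_)
    refine (sum_bij' (fun w _ => w ⊔ c) (fun w _ => w ⊓ b) ?_ ?_ ?_ ?_ (fun _ _ => rfl)).trans
      ((hs (u ⊔ c) (sup_le (hu.trans hb.le) k1)).trans (if_congr ⟨fun e => ?_, fun e => ?_⟩ rfl rfl))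
    · simp only [mem_filter, mem_univ, true_and]
      exact fun w hw => ⟨sup_le_sup_right hw.1 _, sup_le (hw.2.trans hb.le) k1⟩
    · simp only [mem_filter, mem_univ, true_and]
      exact fun w hw => ⟨le_inf (le_sup_left.trans hw.1) hu, inf_le_right⟩
    · exact fun w hw => k4 w (mem_filter.1 hw).2.2
    · intro w hw
      rw [inf_sup_assoc_of_le _ (le_sup_right.trans (mem_filter.1 hw).2.1), sup_comm, k3,
        inf_eq_left.2 (mem_filter.1 hw).2.2]
    · rw [← k4 u hu, e, inf_eq_right.2 hb.le]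
    · rw [e, sup_comm, k3]
  have k : Nat.card ↥(b ⊓ torsionBy F[X] V f) = ((univ.filter fun c => c ≤ a ∧ c ⊓ b = ⊥).erase ⊥).card := by
    rw [← Nat.card_eq_finsetCard]
    refine Nat.card_eq_of_bijective (fun x => ⟨span F[X] {v + x}, mem_erase.2 ⟨fun e => vb ?_,
      mem_filter.2 ⟨mem_univ _, (span_singleton_le_iff_mem _ _).2 (add_mem (ca hv) (hb.le x.2.1)),
        eq_bot_iff.2 fun y hy => ?_⟩⟩⟩) ⟨fun x y e => ?_, fun ⟨c', hc⟩ => ?_⟩
    · rw [eq_neg_of_add_eq_zero_left (span_singleton_eq_bot.1 e)]; exact neg_mem x.2.1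
    · obtain ⟨r, rfl⟩ := mem_span_singleton.1 hy.1
      obtain ⟨t, rfl⟩ := dj r (by simpa using sub_mem hy.2 (b.smul_mem r x.2.1))
      rw [mul_comm, mul_smul, smul_add, (f4 f).2 dvd_rfl, show f • x.1 = 0 from x.2.2]; simp
    · obtain ⟨r, hr⟩ := mem_span_singleton.1 ((Subtype.mk.inj e).le (mem_span_singleton_self _))
      obtain ⟨t, ht⟩ := dj (r - 1) (by
        rw [show (r - 1) • v = x - r • y.1 by
          rw [smul_add] at hr; rw [sub_smul, one_smul, sub_eq_sub_iff_add_eq_add, hr, add_comm]]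
        exact sub_mem x.2.1 (b.smul_mem r y.2.1))
      rw [eq_add_of_sub_eq ht, add_smul, mul_comm, mul_smul, smul_add, (f4 f).2 dvd_rfl,
        show f • y.1 = 0 from y.2.2] at hr
      exact Subtype.ext (by simpa using hr.symm)
    · obtain ⟨k0, k1⟩ := mem_erase.1 hc
      obtain ⟨k1, k2⟩ := (mem_filter.1 k1).2
      obtain ⟨k3, k4⟩ := cp c' k1 k2 k0
      obtain ⟨y, hy, z, hz, e⟩ := mem_sup.1 (k3.ge (ca hv))
      have e1 : f • y = -(f • z) := by rw [eq_neg_iff_add_eq_zero, ← smul_add, e, (f4 f).2 dvd_rfl]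
      have e2 : f • y = 0 := k2.le ⟨c'.smul_mem f hy, e1 ▸ neg_mem (b.smul_mem f hz)⟩
      refine ⟨⟨-z, neg_mem hz, neg_mem (show f • z = 0 from neg_eq_zero.1 (e1 ▸ e2))⟩, Subtype.ext ?_⟩
      simp only [← e, add_neg_cancel_right]
      exact (k4.le_iff_eq (span_singleton_eq_bot.not.2 fun e' => vb (by simpa [← e, e']))).1
        ((span_singleton_le_iff_mem _ _).2 hy)
  rw [← add_sum_erase _ _ (a := ⊥) (by simp), sum_congr rfl w1, sum_const, ← k, h1 f fS, nsmul_eq_mul, ← mul_prod_erase _ _ fS] at w0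
  rw [eq_neg_of_add_eq_zero_left w0, ← mul_prod_erase _ _ fS, Function.update_self, eq_comm,
    prod_congr rfl fun g hg => by rw [Function.update_of_ne (mem_erase.1 hg).1], Nat.choose_succ_succ]
  push_cast
  simp only [Nat.choose_one_right]
  ring
end C

section E
open Module Polynomial Submodule Classical Matrix CA.CForm CA.GLPar CA.GLUnip
variable {F : Type*} [Field F] {n : ℕ}

noncomputable def St (F : Type*) [Field F] (μ : Fin n → ℕ) (g : GL (Fin n) F) (i : ℕ) : Submodule F (Fin n → F) :=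
  (cw F fun k => i ≤ compLabel μ k).map (glEquiv g).toLinearMap

theorem St_mul (μ : Fin n → ℕ) (g h : GL (Fin n) F) (i : ℕ) :
    St F μ (g * h) i = (St F μ h i).map (glEquiv g).toLinearMap := by
  rw [St, St, ← Submodule.map_comp, map_mul]; rfl

theorem St_eq {μ : Fin n → ℕ} {g h : GL (Fin n) F} :
    (g : GL (Fin n) F ⧸ parabolicGL n F μ) = h ↔ St F μ g = St F μ h := by
  have k : ∀ i, St F μ 1 i = cw F fun k => i ≤ compLabel μ k := fun i => by
    rw [St, map_one]; exact Submodule.map_id _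
  rw [QuotientGroup.eq, show St F μ g = St F μ h ↔ St F μ 1 = St F μ (g⁻¹ * h) from
    ⟨fun e => funext fun i => by rw [St_mul, ← e, ← St_mul, inv_mul_cancel], fun e => funext fun i => by
      rw [← mul_one g, St_mul, e, ← St_mul, mul_inv_cancel_left]⟩]
  generalize g⁻¹ * h = g
  refine ⟨fun e => funext fun i => (eq_of_le_of_finrank_eq ?_ ?_).symm, fun e a b hb => ?_⟩
  · rw [k]
    rintro _ ⟨v, hv, rfl⟩ a ha
    refine (show ∑ b, g.1 a b * v b = 0 from sum_eq_zero fun b _ => ?_)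
    by_cases hb : i ≤ compLabel μ b
    · simp [hv b hb]
    · simp [e (show compLabel μ b < compLabel μ a by omega)]
  · rw [k]; exact LinearEquiv.finrank_map_eq _ _
  · have := (congrFun e (compLabel μ b + 1)).ge ⟨Pi.single b 1, fun j hj =>
      Pi.single_eq_of_ne (by rintro rfl; omega) _, rfl⟩
    rw [k] at this
    simpa [glEquiv_apply] using this a hb

theorem fpc [Fintype F] (x : GL (Fin n) F) {μ : Fin n → ℕ} (hμ : ∑ i, μ i = n) :
    fixedPointCharacter (parabolicGL n F μ) x = Nat.card (Ch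
      (fun W : Submodule F[X] (AEval' (toLin' x.1)) => finrank F W) μ ⊥) := by
  let u : Submodule F[X] (AEval' (toLin' x.1)) → Submodule F (Fin n → F) := fun W => W.restrictScalars F
  obtain ⟨L, h1, h2⟩ := exists_label μ hμ
  have k1 : ∀ g i, finrank F (St F μ g i) = #{k | (L k).1 < i} := fun g i => by
    rw [St, LinearEquiv.finrank_map_eq, finrank_cw, Fintype.card_subtype]; simp [h1]
  have k2 : ∀ i : Fin n, #{k | (L k).1 < i + 1} = #{k | (L k).1 < i} + μ i := fun i => by
    rw [← h2, ← card_union_of_disjoint (disjoint_filter.2 fun k _ h e => by simp [e] at h), ← filter_or]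
    exact congrArg _ (filter_congr fun k _ => by rw [Fin.ext_iff]; omega)
  have k3 : ∀ g, Monotone (St F μ g) := fun g i j h => map_mono fun v hv k hk => hv k (h.trans hk)
  have k4 : ∀ g i, n ≤ i → St F μ g i = ⊤ := fun g i hi => eq_top_of_finrank_eq (by
    rw [k1, filter_true_of_mem fun k _ => (L k).2.trans_le hi]; simp)
  have k5 : ∀ W : Ch (fun W : Submodule F[X] (AEval' (toLin' x.1)) => finrank F W) μ ⊥,
      ∃ g, ∀ i, St F μ g i = u (W.1 i) := fun ⟨W, w1, w2, w3, w4⟩ => by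
    have e : ∀ i, finrank F (St F μ 1 i) = finrank F (u (W i)) := fun i => by
      induction i with
      | zero => rw [k1, w1]; exact (by simp : _ = 0).trans (finrank_bot F (Fin n → F)).symm
      | succ i ih =>
        by_cases hi : i < n
        · rw [k1, k2 ⟨i, hi⟩, ← k1 1, ih]; exact (w3 ⟨i, hi⟩).symm
        · rw [k4 _ _ (by omega), w4 _ (by omega)]; rfl
    obtain ⟨g, hg⟩ := trans (k3 1) (monotone_nat_of_le_succ w2) e n
    refine ⟨glEquiv.symm g * 1, fun i => ?_⟩
    by_cases hi : i ≤ n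
    · rw [St_mul, MulEquiv.apply_symm_apply, hg i hi]
    · exact (k4 _ _ (by omega)).trans (congrArg u (w4 i (by omega))).symm
  choose f hf using k5
  rw [fixedPointCharacter, Nat.cast_inj, eq_comm]
  refine Nat.card_eq_of_bijective (fun W => ⟨f W, St_eq.2 (funext fun i => ?_)⟩)
    ⟨fun W W' e => Subtype.ext (funext fun i => restrictScalars_injective F _ _ ((hf W i).symm.trans
      ((congrFun (St_eq.1 (Subtype.mk.inj e)) i).trans (hf W' i)))), ?_⟩
  · refine eq_of_le_of_finrank_eq ?_ ((k1 _ _).trans (k1 _ _).symm)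
    refine (St_mul ..).trans_le ?_
    rw [hf]
    rintro _ ⟨v, hv, rfl⟩
    have := (W.1 i).smul_mem X (show AEval'.of _ v ∈ W.1 i from hv)
    rwa [AEval'.X_smul_of] at this
  rintro ⟨⟨g⟩, hg⟩
  have hg := St_eq.1 hg
  let W : ℕ → Submodule F[X] (AEval' (toLin' x.1)) := fun i => AEval.mapSubmodule F _ _ ⟨St F μ g i,
    fun v hv => (congrFun hg i).le ((St_mul ..).ge (mem_map_of_mem hv))⟩
  have e : ∀ i, u (W i) = St F μ g i := fun i => Submodule.ext fun v => AEval.mem_mapSubmodule_apply ..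
  have e' : ∀ i, finrank F (W i) = #{k | (L k).1 < i} := fun i => by rw [← k1 g, ← e]; rfl
  refine ⟨⟨W, Submodule.finrank_eq_zero.1 (show finrank F (u (W 0)) = 0 from (e' 0).trans (by simp)) |>
    (restrictScalars_eq_bot_iff ..).1, fun i => (restrictScalars_le ..).1 ((e i).trans_le
      ((k3 g i.le_succ).trans (e _).ge)), fun i => by simp only [e', k2], fun i hi =>
        (restrictScalars_eq_top_iff ..).1 ((e i).trans (k4 g i hi))⟩,
    Subtype.ext (St_eq.2 (funext fun i => (hf _ i).trans (e i)))⟩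
end E
end

/-- Values of the Steinberg character of `GL_n(q)` (the partition-indexed character for `ν = (1,…,1)`, of degree `q^(n(n−1)/2)`) at elements of order prime to the characteristic: if the characteristic polynomial of such an element is `∏ f^(m_f)` over distinct monic irreducible `f`, the value is `∏_f (−1)^((deg f − 1) m_f) q^(deg f · m_f (m_f − 1)/2)`. (At elements of order divisible by the characteristic the value is 0; that is not part of this statement.) -/
theorem result {F : Type*} [Field F] [Fintype F] [DecidableEq F] {q : ℕ} (hq : Fintype.card F = q) (p : ℕ) [Fact p.Prime] [CharP F p]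
    {n : ℕ} (x : GL (Fin n) F) (hx : (orderOf x).Coprime p) :
    Cfsg.unipotentCharacterGL n F (fun _ => 1) x =
      ∏ f ∈ (UniqueFactorizationMonoid.normalizedFactors (x : Matrix (Fin n) (Fin n) F).charpoly).toFinset,
        (-1 : ℂ) ^ ((f.natDegree - 1) * (UniqueFactorizationMonoid.normalizedFactors (x : Matrix (Fin n) (Fin n) F).charpoly).count f) *
          (q : ℂ) ^ (f.natDegree * (UniqueFactorizationMonoid.normalizedFactors (x : Matrix (Fin n) (Fin n) F).charpoly).count f *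
            ((UniqueFactorizationMonoid.normalizedFactors (x : Matrix (Fin n) (Fin n) F).charpoly).count f - 1) / 2) := by
  classical
  open Module Polynomial CA.Rcf Finset in
  set A := Matrix.toLin' x.1
  have hs : IsSS A := (isSS_iff_coprime p (CA.CForm.glEquiv x)).2 (by rwa [MulEquiv.orderOf_eq])
  have : IsSemisimpleModule F[X] (AEval' A) := End.isSemisimple_of_squarefree_aeval_eq_zero
    (p := X ^ orderOf x - 1) (X_pow_sub_one_separable_iff.2 (by
      rw [Ne, CharP.cast_eq_zero_iff F p, ← (Fact.out : p.Prime).coprime_iff_not_dvd]; exact hx.symm)).squarefree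
    (by rw [aeval_toLin']; simp [← Units.val_pow_eq_pow_val])
  have : Finite (AEval' A) := inferInstanceAs (Finite (Fin n → F))
  have := Fintype.ofFinite (Submodule F[X] (AEval' A))
  rw [← Matrix.charpoly_toLin', ← edivs_eq_normalizedFactors hs]
  have hm : ∀ f ∈ (edivs A).toFinset, f.Monic ∧ Irreducible f := fun f hf =>
    ⟨(isPrim_of_mem_edivs (Multiset.mem_toFinset.1 hf)).monic, hs f (Multiset.mem_toFinset.1 hf)⟩
  obtain ⟨m, h1, h2⟩ := weis (V := AEval' A) _ hm (fun f f1 f2 v v0 hv => by_contra fun h => v0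
    ((injective_aeval_iff A f).2 (fun d hd => isCoprime_of_ne (hm d (by simpa)).1 (hs d hd) f1 f2
      (by rintro rfl; simp [hd] at h)) (hv.trans (map_zero _).symm))) ⊤
  have hd : StrictMono fun W : Submodule F[X] (AEval' A) => finrank F W := fun a b h =>
    Submodule.finrank_lt_finrank_of_lt ((Submodule.restrictScalars_lt F).2 h)
  have h3 := h2 _ fun u _ => mob _ hd u
  have h4 : ∀ f ∈ (edivs A).toFinset, m f = (edivs A).count f := fun f hf => by
    have e := h1 f hf
    rw [top_inf_eq, show Nat.card (Submodule.torsionBy F[X] (AEval' A) f) = Nat.card (LinearMap.ker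
      (aeval A f)) from rfl, natCard_eq_pow_finrank (K := F), Nat.card_eq_fintype_card, finrank_ker_aeval,
      Nat.pow_right_inj Fintype.one_lt_card, Finset.sum_multiset_map_count, sum_eq_single f (fun d hd e => by
        rw [kd_of_isCoprime (hm d hd).1.ne_zero (isCoprime_of_ne (hm d hd).1 (hm d hd).2 (hm f hf).1
          (hm f hf).2 e), smul_zero]) (by simp [hf]), kd_of_dvd (hm f hf).1.ne_zero dvd_rfl, smul_eq_mul,
      mul_comm] at e
    exact (Nat.eq_of_mul_eq_mul_left (hm f hf).2.natDegree_pos e).symm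
  have h5 : finrank F (⊤ : Submodule F[X] (AEval' A)) - finrank F (⊥ : Submodule F[X] (AEval' A)) = n :=
    (congrArg₂ _ (finrank_top F (Fin n → F)) (finrank_bot F (Fin n → F))).trans (by simp)
  have h6 := sum_natDegree_edivs A
  rw [Finset.sum_multiset_map_count, finrank_fin_fun] at h6
  simp only [h5] at h3
  have h7 : unipotentCharacterGL n F (fun _ => 1) x = D (H fun W : Submodule F[X] (AEval' A) =>
      finrank F W) n 1 (Pi.single ⊤ 1) ⊥ := by
    simp only [unipotentCharacterGL, D, LinearMap.sum_apply, Finset.sum_apply, LinearMap.smul_apply,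
      Pi.smul_apply]
    refine sum_congr rfl fun κ _ => ?_
    split_ifs with h
    · rw [fpc x (CA.GLUnip.sum_sub (by simp) h), (card_Ch _ _ _).2, zsmul_eq_mul]
      refine congrArg (fun l : Fin n → End ℂ (Submodule F[X] (AEval' A) → ℂ) =>
        _ * (List.ofFn l).prod _ _) (funext fun i => ?_)
      have := h i
      unfold Mx
      split_ifs with e1 e2
      · rw [e1]; rfl
      · rw [add_comm]
      · omega
    · obtain ⟨i, hi⟩ := not_forall.1 h
      rw [List.prod_eq_zero (List.mem_ofFn.2 ⟨i, by rw [Mx, if_neg (by omega), if_neg (by omega)]⟩)]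
      simp
  replace h3 := (congrArg _ (h7.trans (by congr))).trans h3
  rw [← one_mul (unipotentCharacterGL ..), ← (Even.add_self n).neg_one_pow, pow_add, mul_assoc, h3]
  conv_lhs => lhs; rw [← h6]
  rw [← prod_pow_eq_pow_sum, ← prod_mul_distrib]
  refine prod_congr rfl fun f hf => ?_
  obtain ⟨k, hk⟩ := Nat.exists_eq_add_of_lt (hm f hf).2.natDegree_pos
  rw [h4 f hf, hq, mul_assoc f.natDegree, Nat.mul_div_assoc _ (Nat.even_mul_pred_self _).two_dvd,
    Nat.choose_two_right, ← mul_assoc, ← pow_add, hk]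
  congr 1
  simp [mul_add, pow_add, mul_assoc, ← mul_pow, mul_comm k]

end Cfsg.Agent.S2425
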