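import Cfsg.Statements.S2426
import Cfsg.Agent.Lib.Lin.SL2Unip

set_option autoImplicit false
open Cfsg

namespace Cfsg.Agent.S2426

open CA.SL2Unip CA.SL2Embed

/-- rank one Steinberg relations -/
structure St1 (K Γ : Type*) [Field K] [Group Γ] where
  x : K → Γ
  y : K → Γ
  xa : ∀ t u, x (t + u) = x t * x u
  ya : ∀ t u, y (t + u) = y t * y u
  rel : ∀ t u, t ≠ 0 → x t * y (-t⁻¹) * x t * x u * (x t * y (-t⁻¹) * x t)⁻¹ = y (-(t⁻¹ ^ 2 * u))
  gen : ∀ H : Subgroup Γ, (∀ t, x t ∈ H) → (∀ t, y t ∈ H) → H = ⊤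

namespace St1
variable {K Γ : Type*} [Field K] [Group Γ] (A : St1 K Γ)

theorem x0 : A.x 0 = 1 := by simpa using A.xa 0 0
theorem y0 : A.y 0 = 1 := by simpa using A.ya 0 0
theorem xn (t : K) : A.x (-t) = (A.x t)⁻¹ := eq_inv_of_mul_eq_one_left (by rw [← A.xa, neg_add_cancel, x0])
theorem yn (t : K) : A.y (-t) = (A.y t)⁻¹ := eq_inv_of_mul_eq_one_left (by rw [← A.ya, neg_add_cancel, y0])
theorem xc (t u : K) : A.x t * A.x u = A.x u * A.x t := by rw [← A.xa, ← A.xa, add_comm]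
def n (t : Kˣ) : Γ := A.x t * A.y (-(t : K)⁻¹) * A.x t
def h (t : Kˣ) : Γ := A.n t * (A.n 1)⁻¹
theorem nn (t : Kˣ) : A.n (-t) = (A.n t)⁻¹ := by
  simp only [n, Units.val_neg, inv_neg, neg_neg, xn, yn]; group
theorem nx (t : Kˣ) (u : K) : A.n t * A.x u * (A.n t)⁻¹ = A.y (-((t : K) ^ 2)⁻¹ * u) := by
  rw [n, A.rel _ _ t.ne_zero, inv_pow, neg_mul]
theorem ny (t : Kˣ) (u : K) : A.n t * A.y u * (A.n t)⁻¹ = A.x (-(t : K) ^ 2 * u) := by
  have := A.nx (-t) (-(t : K) ^ 2 * u)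
  rw [nn, show -(((-t : Kˣ) : K) ^ 2)⁻¹ * (-(t : K) ^ 2 * u) = u by simp] at this
  rw [← this]; group
theorem hx (t : Kˣ) (u : K) : A.h t * A.x u * (A.h t)⁻¹ = A.x ((t : K) ^ 2 * u) := by
  have h1 := A.nx (-1) u
  have h2 := A.ny t (-u)
  simp only [nn, Units.val_neg, Units.val_one, neg_one_sq, inv_one, neg_mul, one_mul, mul_neg, neg_neg] at h1 h2
  rw [← h2, ← h1, h]; group
theorem hy (t : Kˣ) (u : K) : A.h t * A.y u * (A.h t)⁻¹ = A.y (((t : K) ^ 2)⁻¹ * u) := by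
  have h1 := A.ny (-1) u
  have h2 := A.nx t (-u)
  simp only [nn, Units.val_neg, Units.val_one, neg_one_sq, inv_one, neg_mul, one_mul, mul_neg, neg_neg] at h1 h2
  rw [← h2, ← h1, h]; group
theorem conj3 (g a b c : Γ) : g * (a * b * c) * g⁻¹ = (g * a * g⁻¹) * (g * b * g⁻¹) * (g * c * g⁻¹) := by group
theorem n' (t : Kˣ) : A.n t = A.y (-(t : K)⁻¹) * A.x t * A.y (-(t : K)⁻¹) := by
  have := conj3 (A.n t) (A.x t) (A.y (-(t : K)⁻¹)) (A.x t)
  rw [nx, ny, show A.x t * _ * _ = A.n t from rfl, mul_inv_cancel_right] at this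
  rw [this]; congr 2 <;> [congr 1; skip; skip] <;> field_simp
theorem hn (t u : Kˣ) : A.h t * A.n u * (A.h t)⁻¹ = A.n (t ^ 2 * u) := by
  rw [n, conj3, hx, hy, n]; simp [mul_comm]
theorem y_eq (t : Kˣ) : A.y t = A.x (t⁻¹ : Kˣ) * A.n (-t⁻¹) * A.x (t⁻¹ : Kˣ) := by
  rw [n]; simp only [Units.val_neg, inv_neg, neg_neg, Units.val_inv_eq_inv_val, inv_inv, xn]; group

theorem h_st (t u : Kˣ) (h : (t : K)⁻¹ + (u : K)⁻¹ = 1) : A.h (t * u) = A.h t * A.h u := by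
  have ht := t.ne_zero
  have hu := u.ne_zero
  have e : (t : K) + u = t * u := by field_simp at h; rw [add_comm]; exact h
  have h1 := A.ya (t : K)⁻¹ (u : K)⁻¹
  have h2 := A.y_eq t⁻¹
  have h3 := A.y_eq u⁻¹
  have h4 := A.y_eq 1
  have h5 := A.n' (t * u)
  have h6 := A.ny (-t) ((t : K) * u)⁻¹
  have h7 := A.ny u ((t : K) * u)⁻¹
  have h8 := A.xa (-(t : K) ^ 2 * ((t : K) * u)⁻¹) t
  have h9 := A.xa (-(u : K) ^ 2 * ((t : K) * u)⁻¹) u
  rw [show -(t : K) ^ 2 * ((t : K) * u)⁻¹ + t = 1 by field_simp; linear_combination -e, xc] at h8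
  rw [show -(u : K) ^ 2 * ((t : K) * u)⁻¹ + u = 1 by field_simp; linear_combination -e] at h9
  simp only [Units.val_neg, inv_inv, Units.val_one, inv_one, Units.val_mul, Units.val_inv_eq_inv_val, nn, yn,
    neg_sq] at h2 h3 h4 h5 h6
  rw [h, h2, h3, h4] at h1
  have h10 := A.xa t u
  rw [e] at h10
  rw [← h6] at h8
  rw [← h7] at h9
  have : (A.n 1)⁻¹ = (A.x 1)⁻¹ * (A.x 1 * (A.n 1)⁻¹ * A.x 1) * (A.x 1)⁻¹ := by group
  rw [h1] at this
  nth_rw 1 [h8] at this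
  rw [h9] at this
  rw [St1.h, St1.h, St1.h, h5, h10, this]
  group

theorem h1 : A.h 1 = 1 := mul_inv_cancel _

theorem h_pow (g : Kˣ) (k : ℕ) (u : K) : A.h g ^ k * A.x u * (A.h g ^ k)⁻¹ = A.x (((g ^ k : Kˣ) : K) ^ 2 * u) ∧
    A.h g ^ k * A.y u * (A.h g ^ k)⁻¹ = A.y ((((g ^ k : Kˣ) : K) ^ 2)⁻¹ * u) := by
  induction k with
  | zero => simp
  | succ k ih =>
    have e : ∀ z, A.h g ^ (k + 1) * z * (A.h g ^ (k + 1))⁻¹ = A.h g * (A.h g ^ k * z * (A.h g ^ k)⁻¹) * (A.h g)⁻¹ :=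
      fun z => by group
    rw [e, e, ih.1, ih.2, hx, hy]
    constructor <;> congr 1 <;> simp <;> field_simp <;> ring

theorem h_mul [Finite K] (t u : Kˣ) : A.h (t * u) = A.h t * A.h u := by
  obtain ⟨g, hg⟩ := IsCyclic.exists_monoid_generator (α := Kˣ)
  have c1 : ∀ t, ∃ k : ℕ, ∀ y, Commute ((A.h g ^ k)⁻¹ * A.h t) y := by
    intro t
    obtain ⟨k, rfl⟩ := hg t
    refine ⟨k, fun y => ?_⟩
    have := A.gen (Subgroup.centralizer {(A.h g ^ k)⁻¹ * A.h (g ^ k)}) (fun v => ?_) fun v => ?_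
    · exact (Subgroup.mem_centralizer_singleton_iff.1 (this ▸ Subgroup.mem_top y)).symm
    · rw [Subgroup.mem_centralizer_singleton_iff, mul_assoc, eq_mul_of_mul_inv_eq (A.hx _ v).symm.symm,
        ← (A.h_pow g k v).1]; group
    · rw [Subgroup.mem_centralizer_singleton_iff, mul_assoc, eq_mul_of_mul_inv_eq (A.hy _ v).symm.symm,
        ← (A.h_pow g k v).2]; group
  have c2 : ∀ t u, Commute (A.h t) (A.h u) := by
    have c3 : ∀ t, Commute (A.h g) (A.h t) := fun t => by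
      obtain ⟨k, hk⟩ := c1 t
      rw [← mul_inv_cancel_left (A.h g ^ k) (A.h t)]
      exact (Commute.pow_self _ _).symm.mul_right (hk _).symm
    intro t u
    obtain ⟨k, hk⟩ := c1 t
    rw [← mul_inv_cancel_left (A.h g ^ k) (A.h t)]
    exact ((c3 u).pow_left k).mul_left (hk _)
  have sq : ∀ t u, A.h (t ^ 2 * u) = A.h (t ^ 2) * A.h u := fun t u => by
    have h1 := A.hn t u
    have h2 := A.hn t 1
    have h3 : A.h t * A.h u * (A.h t)⁻¹ = A.h u := by rw [(c2 t u).eq, mul_inv_cancel_right]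
    rw [(c2 _ u).eq, ← h3, h.eq_1 _ u, h.eq_1 _ (_ * _), h.eq_1 _ (t ^ 2), ← h1, ← mul_one (t ^ 2), ← h2]
    group
  by_cases ht : IsSquare t
  · obtain ⟨v, rfl⟩ := ht
    rw [← pow_two, sq]
  by_cases hu : IsSquare u
  · obtain ⟨v, rfl⟩ := hu
    rw [← pow_two, mul_comm, sq, (c2 _ _).eq]
  have := Fintype.ofFinite K
  have h2 : Fintype.card K % 2 = 1 := by
    by_contra h
    obtain ⟨v, hv⟩ := FiniteField.isSquare_of_char_two
      (FiniteField.even_card_iff_char_two.2 (by omega)) (t : K)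
    have : v ≠ 0 := by rintro rfl; simp at hv
    exact ht ⟨Units.mk0 v this, Units.ext hv⟩
  obtain ⟨a, b, hab⟩ := FiniteField.exists_root_sum_quadratic (R := K)
    (f := Polynomial.C (t : K)⁻¹ * Polynomial.X ^ 2) (g := Polynomial.C (u : K)⁻¹ * Polynomial.X ^ 2 - Polynomial.C 1)
    (Polynomial.degree_C_mul_X_pow 2 (by simp)) (by
      rw [Polynomial.degree_sub_C] <;> rw [Polynomial.degree_C_mul_X_pow 2 (by simp)] <;> norm_num) h2
  simp only [Polynomial.eval_mul, Polynomial.eval_C, Polynomial.eval_pow, Polynomial.eval_X,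
    Polynomial.eval_sub] at hab
  have hq : ∀ (w : Kˣ) (c : K), (w : K)⁻¹ * c ^ 2 = 1 → IsSquare w := fun w c h => by
    have : c ≠ 0 := by rintro rfl; simp at h
    exact ⟨Units.mk0 c this, Units.ext (by field_simp at h; simp [← h, pow_two])⟩
  have ha : a ≠ 0 := by rintro rfl; exact hu (hq u b (by linear_combination hab))
  have hb : b ≠ 0 := by rintro rfl; exact ht (hq t a (by linear_combination hab))
  set α := (Units.mk0 a ha)⁻¹
  set β := (Units.mk0 b hb)⁻¹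
  have h3 := A.h_st (α ^ 2 * t) (β ^ 2 * u) (by simp [α, β]; linear_combination hab)
  rw [show α ^ 2 * t * (β ^ 2 * u) = α ^ 2 * (β ^ 2 * (t * u)) by ac_rfl, sq, sq, sq, sq,
    mul_assoc, mul_right_inj, ← mul_assoc, (c2 t _).eq, mul_assoc, mul_right_inj] at h3
  exact h3

def P (g : Γ) : Prop := (∃ a t, g = A.x a * A.h t) ∨ ∃ a t b, g = A.x a * A.h t * A.n 1 * A.x b

theorem P_x {g : Γ} (hg : A.P g) (c : K) : A.P (g * A.x c) := by
  rcases hg with ⟨a, t, rfl⟩ | ⟨a, t, b, rfl⟩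
  · exact .inl ⟨a + t ^ 2 * c, t, by rw [xa, ← hx]; group⟩
  · exact .inr ⟨a, t, b + c, by rw [xa]; group⟩

theorem P_y0 [Finite K] (a : K) (t : Kˣ) (c : K) : A.P (A.x a * A.h t * A.y c) := by
  rcases eq_or_ne c 0 with rfl | hc
  · exact .inl ⟨a, t, by rw [y0, mul_one]⟩
  lift c to Kˣ using hc.isUnit
  refine .inr ⟨a + t ^ 2 * (c⁻¹ : Kˣ), t * -c⁻¹, (c⁻¹ : Kˣ), ?_⟩
  rw [y_eq, xa, ← hx, h_mul, h.eq_1 _ (-c⁻¹)]; group

theorem P_y [Finite K] {g : Γ} (hg : A.P g) (c : K) : A.P (g * A.y c) := by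
  rcases hg with ⟨a, t, rfl⟩ | ⟨a, t, b, rfl⟩
  · exact A.P_y0 a t c
  rcases eq_or_ne b 0 with rfl | hb
  · refine .inr ⟨a + t ^ 2 * (-(1 : Kˣ) ^ 2 * c), t, 0, ?_⟩
    rw [xa, ← hx, ← ny, x0]; group
  lift b to Kˣ using hb.isUnit
  have h2 := A.h_mul (-b)⁻¹ (-b)
  rw [inv_mul_cancel, h1, h.eq_1 _ (-b), nn, n', yn, eq_comm, mul_eq_one_iff_eq_inv] at h2
  convert A.P_y0 (a + t ^ 2 * (-(1 : Kˣ) ^ 2 * (b : K)⁻¹)) (t * (-b)⁻¹) ((b : K)⁻¹ + c) using 1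
  rw [xa, ← hx, ← ny, ya, h_mul, h2]; group

theorem P_all [Finite K] (g : Γ) : A.P g := by
  have := A.gen (Subgroup.closure (Set.range A.x ∪ Set.range A.y))
    (fun t => Subgroup.subset_closure (.inl ⟨t, rfl⟩)) fun t => Subgroup.subset_closure (.inr ⟨t, rfl⟩)
  refine Subgroup.closure_induction_right (p := fun g _ => A.P g) (.inl ⟨0, 1, by simp [x0, h1]⟩) ?_ ?_
    (this ▸ Subgroup.mem_top g)
  · rintro g - _ (⟨c, rfl⟩ | ⟨c, rfl⟩) hg
    exacts [A.P_x hg c, A.P_y hg c]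
  · rintro g - _ (⟨c, rfl⟩ | ⟨c, rfl⟩) hg
    exacts [A.xn c ▸ A.P_x hg _, A.yn c ▸ A.P_y hg _]

theorem inj [Finite K] (π : Γ →* Matrix.SpecialLinearGroup (Fin 2) K) (hx : ∀ t, π (A.x t) = u t)
    (hy : ∀ t, π (A.y t) = l t) : Function.Injective π := by
  refine (injective_iff_map_eq_one π).2 fun g hg => ?_
  rcases A.P_all g with ⟨a, t, rfl⟩ | ⟨a, t, b, rfl⟩
  all_goals
    simp only [h, n, map_mul, map_inv, hx, hy, u, l, mk2_mul, mk2_inv, one_eq_mk2, mk2_eq_iff] at hg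
    simp at hg
  · obtain ⟨rfl, h4, -⟩ := hg
    rw [h4, x0, h1, mul_one]
end St1

/-- The rank-one Steinberg presentation of `SL₂` over a finite field `K`: generators `x(t)`, `y(t)` (`t ∈ K`; the two opposite root subgroups) subject to additivity `x(t)x(u) = x(t+u)`, `y(t)y(u) = y(t+u)` and, with `w(t) = x(t) y(−t⁻¹) x(t)` and `w'(t) = y(t) x(−t⁻¹) y(t)` for `t ≠ 0`, the relations `w(t) x(u) w(t)⁻¹ = y(−t⁻² u)` and `w'(t) y(u) w'(t)⁻¹ = x(−t⁻² u)`, present `SL₂(K)`, with `x(t) ↦ (1 t; 0 1)` and `y(t) ↦ (1 0; t 1)`. -/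
theorem result {K : Type*} [Field K] [Finite K] :
    ∃ e : PresentedGroup
        ({g : FreeGroup (Bool × K) | ∃ (b : Bool) (t u : K), g = FreeGroup.of (b, t) * FreeGroup.of (b, u) * (FreeGroup.of (b, t + u))⁻¹} ∪
          {g | ∃ (b : Bool) (t u : K), t ≠ 0 ∧
            g = (FreeGroup.of (b, t) * FreeGroup.of (!b, -t⁻¹) * FreeGroup.of (b, t)) * FreeGroup.of (b, u) *
                  (FreeGroup.of (b, t) * FreeGroup.of (!b, -t⁻¹) * FreeGroup.of (b, t))⁻¹ * (FreeGroup.of (!b, -(t⁻¹ ^ 2 * u)))⁻¹})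
        ≃* Matrix.SpecialLinearGroup (Fin 2) K,
      (∀ t : K, ((e (PresentedGroup.of (true, t)) : Matrix (Fin 2) (Fin 2) K)) = !![1, t; 0, 1]) ∧
      (∀ t : K, ((e (PresentedGroup.of (false, t)) : Matrix (Fin 2) (Fin 2) K)) = !![1, 0; t, 1]) := by
  set R : Set (FreeGroup (Bool × K)) := _ ∪ _ with hR
  have r1 : ∀ (b : Bool) (t u : K), (PresentedGroup.of (b, t + u) : PresentedGroup R) =
      PresentedGroup.of (b, t) * PresentedGroup.of (b, u) := fun b t u =>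
    (mul_inv_eq_one.1 (PresentedGroup.one_of_mem (rels := R) (.inl ⟨b, t, u, rfl⟩))).symm
  let A : St1 K (PresentedGroup R) :=
    ⟨fun t => .of (true, t), fun t => .of (false, t), r1 true, r1 false, fun t u ht =>
      mul_inv_eq_one.1 (PresentedGroup.one_of_mem (rels := R) (.inr ⟨true, t, u, ht, rfl⟩)),
      fun H h1 h2 => top_unique fun g _ => PresentedGroup.generated_by R H (by rintro ⟨_ | _, t⟩; exacts [h2 t, h1 t]) g⟩
  let f : Bool × K → Matrix.SpecialLinearGroup (Fin 2) K := fun z => bif z.1 then u z.2 else l z.2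
  have hf : ∀ r ∈ R, FreeGroup.lift f r = 1 := by
    rintro _ (⟨b, t, s, rfl⟩ | ⟨b, t, s, ht, rfl⟩)
    · cases b <;> simp [f, u_add, l_add]
    · cases b <;> simp only [map_mul, map_inv, FreeGroup.lift_apply_of, f, Bool.not_true, Bool.not_false, cond_true, cond_false,
        u, l, mk2_mul, mk2_inv, one_eq_mk2, mk2_eq_iff] <;> refine ⟨?_, ?_, ?_, ?_⟩ <;> field_simp <;> ring
  have h1 : ∀ t, PresentedGroup.toGroup hf (.of (true, t)) = u t := fun t => PresentedGroup.toGroup.of hf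
  have h2 : ∀ t, PresentedGroup.toGroup hf (.of (false, t)) = l t := fun t => PresentedGroup.toGroup.of hf
  refine ⟨MulEquiv.ofBijective (PresentedGroup.toGroup hf) ⟨A.inj _ h1 h2, MonoidHom.range_eq_top.1
    (eq_top_of_u_l _ (fun t => ⟨_, h1 t⟩) fun t => ⟨_, h2 t⟩)⟩, fun t => ?_, fun t => ?_⟩
  · exact congrArg Subtype.val (h1 t)
  · exact congrArg Subtype.val (h2 t)

end Cfsg.Agent.S2426
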