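import Cfsg.Statements.S2428
import Cfsg.Agent.Lib.Lin.SL2Class

set_option autoImplicit false
open Cfsg

namespace Cfsg.Agent.S2428

/-- Let F be a finite field with q elements, q odd, and let d be a diagonal element of SL₂ over F whose diagonal entry a has a² ≠ 1 (such d exist exactly when q > 3). Then the centraliser of d is precisely the diagonal subgroup T; the normaliser of T has order 2(q − 1) and exactly (q + 5)/2 conjugacy classes; and every element of that normaliser outside T has square equal to −1. -/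
theorem result {F : Type*} [Field F] [Fintype F] (hodd : Odd (Fintype.card F))
    (d : Matrix.SpecialLinearGroup (Fin 2) F) (hd01 : (d : Matrix (Fin 2) (Fin 2) F) 0 1 = 0) (hd10 : (d : Matrix (Fin 2) (Fin 2) F) 1 0 = 0) (hda : (d : Matrix (Fin 2) (Fin 2) F) 0 0 ^ 2 ≠ 1) :
    (∀ g : Matrix.SpecialLinearGroup (Fin 2) F, g ∈ Subgroup.centralizer ({d} : Set (Matrix.SpecialLinearGroup (Fin 2) F)) ↔ ((g : Matrix (Fin 2) (Fin 2) F) 0 1 = 0 ∧ (g : Matrix (Fin 2) (Fin 2) F) 1 0 = 0)) ∧
    Nat.card (Subgroup.normalizer ((Subgroup.centralizer ({d} : Set (Matrix.SpecialLinearGroup (Fin 2) F))) : Set (Matrix.SpecialLinearGroup (Fin 2) F))) = 2 * (Fintype.card F - 1) ∧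
    Nat.card (ConjClasses (Subgroup.normalizer ((Subgroup.centralizer ({d} : Set (Matrix.SpecialLinearGroup (Fin 2) F))) : Set (Matrix.SpecialLinearGroup (Fin 2) F)))) = (Fintype.card F + 5) / 2 ∧
    ∀ g : Matrix.SpecialLinearGroup (Fin 2) F, g ∈ Subgroup.normalizer ((Subgroup.centralizer ({d} : Set (Matrix.SpecialLinearGroup (Fin 2) F))) : Set (Matrix.SpecialLinearGroup (Fin 2) F)) →
      g ∉ Subgroup.centralizer ({d} : Set (Matrix.SpecialLinearGroup (Fin 2) F)) → ((g * g) : Matrix (Fin 2) (Fin 2) F) = -1 := by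
  open CA.SL2Torus CA.Mat2 CA.SL2Class CA.SL2Basic in
  rw [← Nat.card_eq_fintype_card] at hodd ⊢
  have h2 := two_ne_zero_of_odd hodd
  have hdet := det_eq d
  rw [hd01, zero_mul, sub_zero] at hdet
  have hne : d.1 0 0 ≠ d.1 1 1 := fun h => hda (by rw [sq]; nth_rewrite 2 [h]; exact hdet)
  have hs : Split d.1 := ⟨_, _, hne, Matrix.trace_fin_two _, by rw [d.2, hdet]⟩
  have hss := SS.of_split hs
  refine ⟨fun g => ?_, ?_, ?_, fun g h1 h3 => ?_⟩
  · rw [mem_C hs.ns]
    constructor
    · rintro ⟨x, y, h⟩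
      rw [h]; simp [lin, hd01, hd10]
    · rintro ⟨h1, h3⟩
      rw [← hs.ns.comm_iff]
      apply ext4 <;> simp [Matrix.mul_apply, Fin.sum_univ_two, h1, h3, hd01, hd10, mul_comm]
  · rw [hss.normalizer_C, hss.card_D, card_C_split hs]
  · rw [hss.normalizer_C]
    have := card_conjClasses_D h2 hss
    rw [card_C_split hs] at this
    have := CA.SLnCard.two_le_card F
    omega
  · rw [hss.normalizer_C] at h1
    exact sl_ext_iff.1 (hss.sq_of_mem_D h1 h3)

end Cfsg.Agent.S2428
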