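import Cfsg.Statements.S2429
import Cfsg.Agent.Lib.Lin.SL2Class

set_option autoImplicit false
open Cfsg

namespace Cfsg.Agent.S2429

/-- Let F be a finite field with q elements, q odd. Then SL₂ over F contains a cyclic subgroup T′ of order q + 1 (a non-split torus) with the following properties: T′ is its own centraliser, and indeed the centraliser of each element of T′ other than 1 and −1 is exactly T′; every element of SL₂ having no eigenvector in F² is conjugate to an element of T′; the normaliser of T′ has order 2(q + 1) and exactly (q + 7)/2 conjugacy classes; and every element of that normaliser outside T′ has square −1. -/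
theorem result {F : Type*} [Field F] [Fintype F] (hodd : Odd (Fintype.card F)) :
    ∃ T' : Subgroup (Matrix.SpecialLinearGroup (Fin 2) F), IsCyclic T' ∧ Nat.card T' = Fintype.card F + 1 ∧
      Subgroup.centralizer ((T' : Set (Matrix.SpecialLinearGroup (Fin 2) F))) = T' ∧
      (∀ g : Matrix.SpecialLinearGroup (Fin 2) F, g ∈ T' → (g : Matrix (Fin 2) (Fin 2) F) ≠ 1 → (g : Matrix (Fin 2) (Fin 2) F) ≠ -1 → Subgroup.centralizer ({g} : Set (Matrix.SpecialLinearGroup (Fin 2) F)) = T') ∧
      (∀ g : Matrix.SpecialLinearGroup (Fin 2) F, (∀ (c : F) (v : Fin 2 → F), v ≠ 0 → (g : Matrix (Fin 2) (Fin 2) F).mulVec v ≠ c • v) → ∃ h : Matrix.SpecialLinearGroup (Fin 2) F, h * g * h⁻¹ ∈ T') ∧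
      Nat.card (Subgroup.normalizer (T' : Set (Matrix.SpecialLinearGroup (Fin 2) F))) = 2 * (Fintype.card F + 1) ∧
      Nat.card (ConjClasses (Subgroup.normalizer (T' : Set (Matrix.SpecialLinearGroup (Fin 2) F)))) = (Fintype.card F + 7) / 2 ∧
      ∀ g : Matrix.SpecialLinearGroup (Fin 2) F, g ∈ Subgroup.normalizer (T' : Set (Matrix.SpecialLinearGroup (Fin 2) F)) → g ∉ T' → ((g * g) : Matrix (Fin 2) (Fin 2) F) = -1 := by
  open CA.SL2Torus CA.Mat2 CA.SL2Class CA.SL2Basic in
  rw [← Nat.card_eq_fintype_card] at hodd ⊢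
  have h2 := two_ne_zero_of_odd hodd
  obtain ⟨d, hd⟩ := exists_aniso_SL F
  have hss := SS.of_aniso hd
  refine ⟨C d, isCyclic_C_aniso hd, card_C_aniso hd,
    centralizer_eq hd.ns le_rfl (self_mem_C d) hd.ns, fun g hg h1 h3 => ?_, fun g hg => ?_, ?_, ?_,
    fun g h1 h3 => ?_⟩
  · refine C_eq_of_mem hd.ns hg ((NS_iff_ne g).2 ⟨?_, ?_⟩)
    · rintro rfl; exact h1 rfl
    · rintro rfl; exact h3 rfl
  · exact exists_conj_mem_aniso hd ((aniso_iff _).2 hg)
  · rw [hss.normalizer_C, hss.card_D, card_C_aniso hd]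
  · rw [hss.normalizer_C]
    have := card_conjClasses_D h2 hss
    rw [card_C_aniso hd] at this
    omega
  · rw [hss.normalizer_C] at h1
    exact sl_ext_iff.1 (hss.sq_of_mem_D h1 h3)

end Cfsg.Agent.S2429
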