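import Cfsg.Statements.S2430
import Cfsg.Agent.Lib.Lin.SL2Class

set_option autoImplicit false
open Cfsg

namespace Cfsg.Agent.S2430

/-- Let F be a finite field with q elements, q odd, ℓ an odd prime, and P a Sylow ℓ-subgroup of SL₂ over F. If ℓ divides q − 1, the centraliser of P is cyclic of order q − 1 (a split torus) and the normaliser of P has order 2(q − 1); if ℓ divides q + 1, the centraliser of P is cyclic of order q + 1 (a non-split torus) and the normaliser of P has order 2(q + 1). -/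
theorem result {F : Type*} [Field F] [Fintype F] (hodd : Odd (Fintype.card F)) (ℓ : ℕ) [Fact ℓ.Prime] (hℓ : ℓ ≠ 2)
    (P : Sylow ℓ (Matrix.SpecialLinearGroup (Fin 2) F)) :
    (ℓ ∣ Fintype.card F - 1 →
      Nat.card (Subgroup.centralizer ((P : Subgroup (Matrix.SpecialLinearGroup (Fin 2) F)) : Set (Matrix.SpecialLinearGroup (Fin 2) F))) = Fintype.card F - 1 ∧
      IsCyclic (Subgroup.centralizer ((P : Subgroup (Matrix.SpecialLinearGroup (Fin 2) F)) : Set (Matrix.SpecialLinearGroup (Fin 2) F))) ∧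
      Nat.card (Subgroup.normalizer ((P : Subgroup (Matrix.SpecialLinearGroup (Fin 2) F)) : Set (Matrix.SpecialLinearGroup (Fin 2) F))) = 2 * (Fintype.card F - 1)) ∧
    (ℓ ∣ Fintype.card F + 1 →
      Nat.card (Subgroup.centralizer ((P : Subgroup (Matrix.SpecialLinearGroup (Fin 2) F)) : Set (Matrix.SpecialLinearGroup (Fin 2) F))) = Fintype.card F + 1 ∧
      IsCyclic (Subgroup.centralizer ((P : Subgroup (Matrix.SpecialLinearGroup (Fin 2) F)) : Set (Matrix.SpecialLinearGroup (Fin 2) F))) ∧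
      Nat.card (Subgroup.normalizer ((P : Subgroup (Matrix.SpecialLinearGroup (Fin 2) F)) : Set (Matrix.SpecialLinearGroup (Fin 2) F))) = 2 * (Fintype.card F + 1)) := by
  open CA.SL2Torus CA.Mat2 CA.SL2Class CA.SL2Basic in
  rw [← Nat.card_eq_fintype_card] at hodd ⊢
  have hl2 : ¬ ℓ ∣ 2 := fun h => hℓ ((Nat.prime_dvd_prime_iff_eq Fact.out Nat.prime_two).1 h)
  have key : (ℓ ∣ Nat.card F - 1 ∨ ℓ ∣ Nat.card F + 1) → ∃ g ∈ P, SS g ∧ orderOf g = ℓ ∧
      (P : Subgroup (Matrix.SpecialLinearGroup (Fin 2) F)) ≤ C g := by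
    intro h
    refine sylow_le_torus ℓ hℓ (cast_ne_zero_of_dvd h) _ P.isPGroup' (P.ne_bot_of_dvd_card ?_)
    rw [CA.SLnCard.card_SL2, CA.SLnCard.sq_sub_one]
    rcases h with h | h
    · exact Dvd.dvd.mul_left (Dvd.dvd.mul_left h _) _
    · exact Dvd.dvd.mul_left (Dvd.dvd.mul_right h _) _
  constructor
  · intro h
    obtain ⟨g, hg, hs, ho, hle⟩ := key (Or.inl h)
    have := split_of_dvd hs hl2 (ho ▸ orderOf_dvd_card_C g) h
    rw [centralizer_eq hs.ns hle hg hs.ns, hs.normalizer_eq hle hg hs.ns, hs.card_D, card_C_split this]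
    exact ⟨rfl, hs.isCyclic_C, rfl⟩
  · intro h
    obtain ⟨g, hg, hs, ho, hle⟩ := key (Or.inr h)
    have := aniso_of_dvd hs hl2 (ho ▸ orderOf_dvd_card_C g) h
    rw [centralizer_eq hs.ns hle hg hs.ns, hs.normalizer_eq hle hg hs.ns, hs.card_D, card_C_aniso this]
    exact ⟨rfl, hs.isCyclic_C, rfl⟩

end Cfsg.Agent.S2430
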