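import Cfsg.Statements.S2434
import Cfsg.Agent.Lib.Lin.SL2Char

set_option autoImplicit false
open Cfsg

namespace Cfsg.Agent.S2434

/-- Let F be a finite field with q elements, q odd, and C a cyclic subgroup of order q + 1 of SL₂ over F (a non-split torus; it contains the centre). For every homomorphism θ from C to the non-zero complex numbers with θ² ≠ 1 there is an irreducible complex character χ of degree q − 1 such that χ(c) = −θ(c) − θ(c)⁻¹ for every non-central c in C, χ(zg) = θ(z)χ(g) for central z in C, χ vanishes at diagonal elements with entry a, a² ≠ 1, and χ takes the value −1 at every upper unitriangular element other than 1. Conversely every irreducible character of degree q − 1 has, for some such θ, the values −θ(c) − θ(c)⁻¹ at the non-central elements c of C (for q ≥ 5 these are exactly the cuspidal characters of degree q − 1). -/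
theorem result {F : Type*} [Field F] [Fintype F] (hodd : Odd (Fintype.card F))
    (C : Subgroup (Matrix.SpecialLinearGroup (Fin 2) F)) (hC : IsCyclic C) (hcard : Nat.card C = Fintype.card F + 1) :
    (∀ θ : C →* ℂˣ, (∃ c : C, θ c ^ 2 ≠ 1) →
      ∃ χ : Matrix.SpecialLinearGroup (Fin 2) F → ℂ, Cfsg.IsIrrCharacter (Matrix.SpecialLinearGroup (Fin 2) F) χ ∧ χ 1 = (Fintype.card F : ℂ) - 1 ∧
        (∀ c : C, (c : Matrix.SpecialLinearGroup (Fin 2) F) ∉ Subgroup.center (Matrix.SpecialLinearGroup (Fin 2) F) → χ c = -((θ c).val + (θ c)⁻¹.val)) ∧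
        (∀ c : C, (c : Matrix.SpecialLinearGroup (Fin 2) F) ∈ Subgroup.center (Matrix.SpecialLinearGroup (Fin 2) F) → ∀ g : Matrix.SpecialLinearGroup (Fin 2) F, χ ((c : Matrix.SpecialLinearGroup (Fin 2) F) * g) = (θ c).val * χ g) ∧
        (∀ g : Matrix.SpecialLinearGroup (Fin 2) F, (g : Matrix (Fin 2) (Fin 2) F) 0 1 = 0 → (g : Matrix (Fin 2) (Fin 2) F) 1 0 = 0 → (g : Matrix (Fin 2) (Fin 2) F) 0 0 ^ 2 ≠ 1 → χ g = 0) ∧
        (∀ g : Matrix.SpecialLinearGroup (Fin 2) F, (g : Matrix (Fin 2) (Fin 2) F) 1 0 = 0 → (g : Matrix (Fin 2) (Fin 2) F) 0 0 = 1 → (g : Matrix (Fin 2) (Fin 2) F) 1 1 = 1 → (g : Matrix (Fin 2) (Fin 2) F) 0 1 ≠ 0 → χ g = -1)) ∧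
    (∀ χ : Matrix.SpecialLinearGroup (Fin 2) F → ℂ, Cfsg.IsIrrCharacter (Matrix.SpecialLinearGroup (Fin 2) F) χ → χ 1 = (Fintype.card F : ℂ) - 1 →
      ∃ θ : C →* ℂˣ, (∃ c : C, θ c ^ 2 ≠ 1) ∧
        ∀ c : C, (c : Matrix.SpecialLinearGroup (Fin 2) F) ∉ Subgroup.center (Matrix.SpecialLinearGroup (Fin 2) F) → χ c = -((θ c).val + (θ c)⁻¹.val)) := by
  classical
  open CA.SL2Char CA.SL2Torus CA.Mat2 in
  have ho := Nat.odd_iff.1 hodd
  have h1 := Fintype.one_lt_card (α := F)
  obtain ⟨g0, hg0, rfl⟩ : ∃ g0 : Matrix.SpecialLinearGroup (Fin 2) F, Aniso g0.1 ∧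
      C = CA.SL2Torus.C g0 := by
    obtain ⟨c, hc⟩ := IsCyclic.exists_generator (α := C)
    have hoc : orderOf c.1 = Fintype.card F + 1 := by
      rw [Subgroup.orderOf_coe, orderOf_eq_card_of_forall_mem_zpowers hc, hcard]
    have hn : NS c.1.1 := by
      by_contra hn
      have : orderOf c.1 ∣ 2 := by
        rcases (not_NS_iff_eq _).1 hn with e | e <;> rw [e, orderOf_dvd_iff_pow_eq_one] <;> simp
      have := Nat.le_of_dvd two_pos this
      omega
    have hs : SS c.1 := SS_of_pow hn (n := Fintype.card F + 1) (by simp)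
      (Or.inl (by rw [← hoc, pow_orderOf_eq_one]))
    have hle : C ≤ CA.SL2Torus.C c.1 := by
      intro x hx
      obtain ⟨k, hk⟩ := hc ⟨x, hx⟩
      have : x = c.1 ^ k := (congrArg Subtype.val hk).symm
      rw [this]
      exact Subgroup.zpow_mem _ (self_mem_C _) k
    have hcl := Subgroup.card_le_of_le hle
    rcases hs.cases with h | h
    · rw [card_C_split h, Nat.card_eq_fintype_card (α := F), hcard] at hcl
      omega
    · refine ⟨c.1, h, Subgroup.eq_of_le_of_card_ge hle ?_⟩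
      rw [card_C_aniso h, Nat.card_eq_fintype_card (α := F), hcard]
  have key : ∀ θ : CA.SL2Torus.C g0 →* ℂˣ, (∃ c, θ c ^ 2 ≠ 1) ↔ θ ^ 2 ≠ 1 := by
    intro θ
    simp only [ne_eq, MonoidHom.ext_iff, not_forall, MonoidHom.pow_apply, MonoidHom.one_apply]
  refine ⟨fun θ hθ => ⟨cu θ, irr_cu hg0 ((key θ).1 hθ), cu_one hg0 θ,
    fun c hc => cu_T hg0 θ c ((NS_iff_not_center _).2 hc), fun c hc => cu_mul_central θ c hc,
    fun g h1 h2 h3 => ?_, fun g h1 h2 h3 h4 => ?_⟩, fun χ hχ h => ?_⟩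
  · obtain ⟨a, b, rfl⟩ := exists_tr h2
    exact cu_split hg0 θ (sq_ne_one_of h3) b
  · obtain ⟨a, b, rfl⟩ := exists_tr h1
    obtain rfl : a = 1 := Units.ext h2
    rw [tr_one]
    exact cu_u hg0 θ h4
  · rcases irr_deg hg0 hχ (h.trans cast_pred) with h | h | h | ⟨-, θ, hθ, rfl⟩ |
      ⟨h3, h2, e, α, ψ, -, -, -, H⟩ | h
    · have := h.1; omega
    · have := h.1; omega
    · have := h.1; omega
    · exact ⟨θ, (key θ).2 hθ, fun c hc => cu_T hg0 θ c ((NS_iff_not_center _).2 hc)⟩
    · have h3 : Fintype.card F = 3 := by omega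
      have hc : Nat.card (CA.SL2Torus.C g0) = 4 := by rw [hcard, h3]
      obtain ⟨θ0, a1, a2⟩ := exists_T_odd hg0 h2
      have : Finite (CA.SL2Torus.C g0 →* ℂˣ) := Nat.finite_of_card_ne_zero (by
        rw [CA.Ch2Gen.card_hom (T_comm hg0), hc]; norm_num)
      have hk := card_sq_ne_one a1 a2 (fun b b1 b2 => CA.Ch2Gen.sq_one_cases b1 a1 b2 a2)
      rw [CA.Ch2Gen.card_hom (T_comm hg0), hc] at hk
      obtain ⟨⟨θ, hθ⟩⟩ := (Nat.card_pos_iff.1 (hk ▸ (by norm_num : 0 < 4 - 2))).1
      refine ⟨θ, (key θ).2 hθ, fun t ht => ?_⟩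
      have hn := (NS_iff_not_center _).2 ht
      have hg := aniso_of_mem hg0 t.2 hn
      have h0 := half_val H (Or.inl (SS.of_aniso hg))
      rw [ps_aniso α hg] at h0
      rw [(mul_eq_zero.1 h0).resolve_left two_ne_zero]
      have ht4 : t ^ 4 = 1 := by rw [← hc, pow_card_eq_one']
      have ht2 : t ^ 2 ≠ 1 := fun e => (SS.of_aniso hg).inv_ne
        (congrArg Subtype.val (grp_sq_one_iff.1 e)).symm
      have hot : orderOf t = 4 := orderOf_eq_prime_pow (p := 2) (n := 1) ht2 ht4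
      have htop : Subgroup.zpowers t = ⊤ := by
        apply Subgroup.eq_top_of_card_eq
        rw [Nat.card_zpowers, hot, hc]
      have h5 : θ t ^ 2 ≠ 1 := fun e => hθ (by
        ext x
        obtain ⟨k, rfl⟩ := (htop ▸ Subgroup.mem_top x : x ∈ Subgroup.zpowers t)
        simp only [MonoidHom.pow_apply, map_zpow, MonoidHom.one_apply]
        first | rw [e, one_zpow, one_zpow] | simp [e])
      have h6 : (θ t ^ 2) ^ 2 = 1 := by rw [← pow_mul, ← map_pow, ht4, map_one]
      have h7 := congrArg Units.val ((CA.Ch2Gen.units_sq_one h6).resolve_left h5)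
      simp only [Units.val_pow_eq_pow_val, Units.val_neg, Units.val_one] at h7
      have h8 := (θ t).ne_zero
      rw [Units.val_inv_eq_inv_val]
      field_simp
      linear_combination h7
    · have := h.1; omega

end Cfsg.Agent.S2434
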