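import Cfsg.Statements.S2435
import Cfsg.Agent.Lib.Lin.SL2Char

set_option autoImplicit false
open Cfsg

namespace Cfsg.Agent.S2435

/-- Let F be a finite field with q elements, q odd and q ≥ 5, and χ an irreducible complex character of SL₂ over F. If χ has degree (q + 1)/2, then at a diagonal element with entry a, a² ≠ 1, χ takes the value 1 when a is a square in F and −1 otherwise. If χ has degree (q − 1)/2, then at an element g with no eigenvector in F² (so g has order dividing q + 1), χ takes the value −1 when g raised to the power (q + 1)/2 is the identity and the value 1 otherwise. -/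
theorem result {F : Type*} [Field F] [Fintype F] (hodd : Odd (Fintype.card F)) (hq : 5 ≤ Fintype.card F)
    (χ : Matrix.SpecialLinearGroup (Fin 2) F → ℂ) (hχ : Cfsg.IsIrrCharacter (Matrix.SpecialLinearGroup (Fin 2) F) χ) (g : Matrix.SpecialLinearGroup (Fin 2) F) :
    (χ 1 = (((Fintype.card F + 1) / 2 : ℕ) : ℂ) → (g : Matrix (Fin 2) (Fin 2) F) 0 1 = 0 → (g : Matrix (Fin 2) (Fin 2) F) 1 0 = 0 → (g : Matrix (Fin 2) (Fin 2) F) 0 0 ^ 2 ≠ 1 →
      (IsSquare ((g : Matrix (Fin 2) (Fin 2) F) 0 0) → χ g = 1) ∧ (¬ IsSquare ((g : Matrix (Fin 2) (Fin 2) F) 0 0) → χ g = -1)) ∧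
    (χ 1 = (((Fintype.card F - 1) / 2 : ℕ) : ℂ) → (∀ (c : F) (v : Fin 2 → F), v ≠ 0 → (g : Matrix (Fin 2) (Fin 2) F).mulVec v ≠ c • v) →
      (((g ^ ((Fintype.card F + 1) / 2)) : Matrix (Fin 2) (Fin 2) F) = 1 → χ g = -1) ∧ (((g ^ ((Fintype.card F + 1) / 2)) : Matrix (Fin 2) (Fin 2) F) ≠ 1 → χ g = 1)) := by
  classical
  open CA.SL2Char CA.SL2Torus in
  refine ⟨fun h h1 h2 h3 => ?_, fun h ha => ?_⟩
  · obtain ⟨a, b, rfl⟩ := exists_tr h2
    have ha := sq_ne_one_of h3
    obtain ⟨-, e, α, ψ, -, hα, hα1, H⟩ := hp_of_deg hodd hq hχ h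
    have h4 := half_val H (Or.inl (SS_tr ha b))
    rw [ps_split α ha, Units.val_inv_eq_inv_val, ← MulChar.inv_apply', ← grp_sq_one_iff.1 hα] at h4
    have h5 : χ (tr a b) = α a := by linear_combination (1 / 2) * h4
    rw [h5]
    exact mulChar_sq_one_apply hα hα1 a
  · have hg := (CA.Mat2.aniso_iff _).2 ha
    obtain ⟨h2, e, θ, ψ, -, hθ, hθ1, H⟩ := hc_of_deg hg hodd hq hχ h
    have h4 := half_val H (Or.inl (SS.of_aniso hg))
    rw [cu_T hg θ ⟨g, self_mem_C g⟩ hg.ns] at h4
    have h5 := theta_apply hg h2 hθ hθ1 ⟨g, self_mem_C g⟩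
    refine ⟨fun h6 => ?_, fun h6 => ?_⟩
    · rw [h5.1 (Subtype.ext (by simpa using h6))] at h4
      simp only [inv_one, Units.val_one] at h4
      linear_combination (1 / 2) * h4
    · rw [h5.2 (fun e => h6 (by simpa using congrArg Subtype.val e))] at h4
      simp only [inv_neg, inv_one, Units.val_neg, Units.val_one] at h4
      linear_combination (1 / 2) * h4

end Cfsg.Agent.S2435
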