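import Cfsg.Statements.S2436
import Cfsg.Agent.S0261
import Cfsg.Agent.S2431
import Cfsg.Agent.S2299
import Cfsg.Agent.Lib.Char.H10Ker
import Cfsg.Agent.Lib.Char.H10Kn
import Cfsg.Agent.Lib.Char.H10L2
import Cfsg.Agent.Lib.Grp.MC3
import Cfsg.Agent.Lib.Lin.SL2Reps

set_option autoImplicit false
open Cfsg

namespace Cfsg.Agent.S2436

open Subgroup CChar.CharFun CChar.CharOrth CChar.CharInt CChar.CharKer CA.SL2Basic CA.SL2Torus CA.SL2Class CA.SL2Unip
open scoped MatrixGroups commutatorElement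

noncomputable abbrev cn (X : Type*) [Group X] (P : ℕ → Prop) : ℕ :=
  Nat.card {χ : IrrCharacter X // P (charDegree χ.1)}

section gen
variable {X Y : Type*} [Group X] [Group Y] {p : ℕ}

theorem trans (e : X ≃* Y) (P : ℕ → Prop) : cn X P = cn Y P := Nat.card_congr
  { toFun χ := ⟨⟨fun y => χ.1.1 (e.symm y), irr_comp_mulEquiv χ.1.2 e.symm⟩, by
      simpa [charDegree] using χ.2⟩
    invFun ψ := ⟨⟨fun x => ψ.1.1 (e x), irr_comp_mulEquiv ψ.1.2 e⟩, by
      simpa [charDegree] using ψ.2⟩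
    left_inv χ := by ext; simp
    right_inv ψ := by ext; simp }

theorem of_top {N : Subgroup X} (h : N = ⊤) (P : ℕ → Prop) : cn X P = cn N P :=
  h ▸ (trans topEquiv P).symm

variable [Finite X]

theorem ab (V : Subgroup X) [V.Normal] (h : ¬p ∣ V.index) (hab : ∀ a ∈ V, ∀ b ∈ V, a * b = b * a) :
    cn X (¬p ∣ ·) = Nat.card (ConjClasses X) := by
  rw [← card_irr]
  exact Nat.card_congr (Equiv.subtypeUnivEquiv (CA.H10Kn.not_dvd_deg V h hab))

theorem ab' [Fact p.Prime] (S : Sylow p X) (hab : ∀ a ∈ S, ∀ b ∈ S, a * b = b * a) :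
    cn (normalizer ((S : Subgroup X) : Set X)) (¬p ∣ ·) =
      Nat.card (ConjClasses (normalizer ((S : Subgroup X) : Set X))) :=
  haveI := normal_subgroupOf_of_le_normalizer (le_refl (normalizer ((S : Subgroup X) : Set X)))
  ab ((S : Subgroup X).subgroupOf _) (S.subtype le_normalizer).not_dvd_index
    fun a ha b hb => Subtype.ext (hab _ ha _ hb)

theorem four (P : Sylow 2 X) [hP : (P : Subgroup X).Normal]
    (h4 : Nat.card P = 4 * Nat.card ↥⁅(P : Subgroup X), (P : Subgroup X)⁆)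
    (h : (P : Subgroup X) = ⊤ ∨
      (P : Subgroup X).index = 3 ∧ ¬commutator X ≤ ⁅(P : Subgroup X), (P : Subgroup X)⁆) :
    cn X (¬2 ∣ ·) = 4 := by
  classical
  have := Fintype.ofFinite X
  obtain ⟨D, hD⟩ : ∃ D, D = ⁅(P : Subgroup X), (P : Subgroup X)⁆ := ⟨_, rfl⟩
  haveI : D.Normal := hD ▸ inferInstance
  rw [← hD] at h4 h
  have l : D ≤ P := hD ▸ commutator_le_left _ _
  haveI := hP.map _ (QuotientGroup.mk'_surjective D)
  have od : ∀ ψ : IrrCharacter (X ⧸ D), ¬2 ∣ charDegree ψ.1 :=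
    CA.H10Kn.not_dvd_deg ((P : Subgroup X).map (QuotientGroup.mk' D))
      (fun c => P.not_dvd_index (c.trans (index_map_dvd _ (QuotientGroup.mk'_surjective D)))) (by
        rintro _ ⟨a, ha, rfl⟩ _ ⟨b, hb, rfl⟩
        rw [← commutatorElement_eq_one_iff_mul_comm, ← map_commutatorElement]
        exact (QuotientGroup.eq_one_iff _).2 (hD ▸ commutator_mem_commutator ha hb))
  have e : cn X (¬2 ∣ ·) = Nat.card (IrrCharacter (X ⧸ D)) := by
    refine Nat.card_congr ((Equiv.subtypeEquivRight fun χ => ⟨fun c g hg => ?_, fun c => ?_⟩).trans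
      (irrQuotientEquiv D).symm)
    · refine (mem_charKer (char_of_irr χ.2)).2 ((CA.PF.irr_mem_cfker (CA.PF.mem_irr_top.2 χ.2)).1
        (CA.H10Ker.core_le (N := ⊥) P (bot_inf_eq _) (CA.PF.mem_irr_top.2 χ.2) c ?_))
      rw [bot_sup_eq, ← hD, normalCore_eq_self]
      exact hg
    · exact fun d => od ⟨_, irr_deflate χ.2 c⟩ (by
        change 2 ∣ ⌊(deflate D χ.1 (1 : X)).re⌋₊
        rwa [deflate_mk c])
  have c : Nat.card (X ⧸ D) = 4 * (P : Subgroup X).index := by
    have h1 := D.card_mul_index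
    rw [← (P : Subgroup X).card_mul_index, h4, mul_comm 4, mul_assoc] at h1
    exact Nat.eq_of_mul_eq_mul_left Nat.card_pos h1
  have cm : (∀ a b : X ⧸ D, a * b = b * a) ↔ commutator X ≤ D := by
    rw [_root_.commutator_def, commutator_le]
    refine ⟨fun h a _ b _ => (QuotientGroup.eq_one_iff _).1 ?_, fun h a b => ?_⟩
    · exact (map_commutatorElement (QuotientGroup.mk' D) a b).trans
        (commutatorElement_eq_one_iff_mul_comm.2 (h _ _))
    obtain ⟨a, rfl⟩ := QuotientGroup.mk'_surjective D a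
    obtain ⟨b, rfl⟩ := QuotientGroup.mk'_surjective D b
    rw [← commutatorElement_eq_one_iff_mul_comm, ← map_commutatorElement]
    exact (QuotientGroup.eq_one_iff _).2 (h a trivial b trivial)
  rw [e]
  rcases h with h | ⟨h, h'⟩
  · rw [card_irr_of_comm (cm.2 (by rw [hD, h]; rfl)), c, h, index_top]
  rw [h] at c
  have s := sum_charDegree_sq (G := X ⧸ D)
  have d : ∀ ψ : IrrCharacter (X ⧸ D),
      charDegree ψ.1 ^ 2 = 1 + if charDegree ψ.1 = 3 then 8 else 0 := fun ψ => by
    have h1 := charDegree_dvd_card ψ.2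
    have h2 := od ψ
    rw [c] at h1
    have h3 := Nat.le_of_dvd (by omega) h1
    generalize charDegree ψ.1 = n at *
    interval_cases n <;> first | rfl | omega
  obtain ⟨χ, h1, h2⟩ : ∃ χ, IsIrrCharacter (X ⧸ D) χ ∧ χ 1 ≠ 1 := by
    simpa using mt (cm.1 ∘ comm_iff_irr_apply_one.2) h'
  have h3 : charDegree χ = 3 := by
    by_contra c3
    have := d ⟨χ, h1⟩
    rw [if_neg c3] at this
    exact h2 (by rw [irr_apply_one_eq h1, show charDegree χ = 1 from (Nat.pow_eq_one.1 this).resolve_right (by simp), Nat.cast_one])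
  simp only [d, Finset.sum_add_distrib, c, ← Finset.sum_filter, Finset.sum_const, smul_eq_mul,
    mul_one, Finset.card_univ] at s
  have := Finset.card_pos.2 ⟨⟨χ, h1⟩, (Finset.mem_filter (p := fun ψ : IrrCharacter (X ⧸ D) =>
      charDegree ψ.1 = 3)).2 ⟨Finset.mem_univ _, h3⟩⟩
  rw [Nat.card_eq_fintype_card]
  omega

theorem cnt (s : Finset ℕ) (h : ∀ χ : IrrCharacter X, charDegree χ.1 ∈ s) (P : ℕ → Prop)
    [DecidablePred P] : cn X P = ∑ d ∈ s, if P d then cn X (· = d) else 0 := by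
  classical
  simp only [cn, Nat.card_eq_fintype_card, Fintype.card_subtype]
  rw [Finset.card_eq_sum_card_fiberwise (t := s) (f := fun χ => charDegree χ.1) fun χ _ => h χ]
  refine Finset.sum_congr rfl fun d _ => ?_
  rw [Finset.filter_filter]
  split_ifs with c
  · exact congrArg _ (Finset.filter_congr fun χ _ => ⟨And.right, fun e => ⟨e ▸ c, e⟩⟩)
  · exact Finset.card_eq_zero.2 (Finset.filter_false_of_mem fun χ _ e => c (e.2 ▸ e.1))

theorem cv (d : ℕ) {z : ℂ} (h : z = d) :
    Nat.card {χ : IrrCharacter X // χ.1 1 = z} = cn X (· = d) :=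
  Nat.card_congr (Equiv.subtypeEquivRight fun χ => by rw [irr_apply_one_eq χ.2, h, Nat.cast_inj])

end gen

theorem lhs {F : Type*} [Field F] [Fintype F] {m : ℕ} (hm : Fintype.card F = 2 * m + 1) (h2 : 2 ≤ m)
    (P : ℕ → Prop) [DecidablePred P] : cn SL(2, F) P = (if P 1 then 1 else 0) +
      ((if P (2 * m + 1) then 1 else 0) + ((if P (2 * m + 2) then m - 1 else 0) +
      ((if P (2 * m) then m else 0) + ((if P (m + 1) then 2 else 0) + if P m then 2 else 0)))) := by
  obtain ⟨h, h'⟩ := S2299.result (F := F) ⟨m, hm⟩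
  obtain ⟨c1, c2, c3, c4, c5, c6⟩ := h' (by omega)
  have e1 : (2 * m + 1 + 1) / 2 = m + 1 := by omega
  have e2 : (2 * m + 1 - 1) / 2 = m := by omega
  have e3 : (2 * m + 1 - 3) / 2 = m - 1 := by omega
  have e4 : ((2 * m + 1 : ℕ) : ℂ) + 1 = (2 * m + 2 : ℕ) := by push_cast; ring
  have e5 : ((2 * m + 1 : ℕ) : ℂ) - 1 = (2 * m : ℕ) := by push_cast; ring
  simp only [hm, e1, e2, e3, e4, e5] at h c2 c3 c4 c5 c6
  rw [cv 1 Nat.cast_one.symm] at c1
  rw [cv _ rfl] at c2 c3 c4 c5 c6
  rw [cnt {1, 2 * m + 1, 2 * m + 2, 2 * m, m + 1, m} (fun χ => by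
      have := h _ χ.2
      rw [irr_apply_one_eq χ.2] at this
      simp only [Finset.mem_insert, Finset.mem_singleton]
      exact_mod_cast this),
    Finset.sum_insert (by simp; omega), Finset.sum_insert (by simp; omega),
    Finset.sum_insert (by simp; omega), Finset.sum_insert (by simp; omega),
    Finset.sum_insert (by simp), Finset.sum_singleton, c1, c2, c3, c4, c5, c6]

/-- Let F be a finite field with q elements, q odd, ℓ any prime and S a Sylow ℓ-subgroup of SL₂ over F with normaliser N. Then SL₂ and N have the same number of irreducible complex characters of degree not divisible by ℓ (the McKay equality holds for SL₂ over F at every prime). -/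
theorem result {F : Type*} [Field F] [Fintype F] (hodd : Odd (Fintype.card F)) (ℓ : ℕ) [Fact ℓ.Prime] (S : Sylow ℓ (Matrix.SpecialLinearGroup (Fin 2) F)) :
    Nat.card {χ : Cfsg.IrrCharacter (Matrix.SpecialLinearGroup (Fin 2) F) // ¬ ℓ ∣ Cfsg.charDegree (χ : Matrix.SpecialLinearGroup (Fin 2) F → ℂ)} =
      Nat.card {ψ : Cfsg.IrrCharacter (Subgroup.normalizer ((S : Subgroup (Matrix.SpecialLinearGroup (Fin 2) F)) : Set (Matrix.SpecialLinearGroup (Fin 2) F))) //
        ¬ ℓ ∣ Cfsg.charDegree (ψ : Subgroup.normalizer ((S : Subgroup (Matrix.SpecialLinearGroup (Fin 2) F)) : Set (Matrix.SpecialLinearGroup (Fin 2) F)) → ℂ)} := by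
  classical
  have hp : ℓ.Prime := Fact.out
  have hq := Nat.card_eq_fintype_card (α := F)
  have h2 := two_ne_zero_of_odd (hq ▸ hodd)
  have q2 := CA.SLnCard.two_le_card F
  obtain ⟨m, hm⟩ := id hodd
  change cn _ (¬ℓ ∣ ·) = cn _ (¬ℓ ∣ ·)
  by_cases h0 : (S : Subgroup SL(2, F)) = ⊥
  · exact of_top (by rw [h0]; exact normalizer_eq_top _) _
  by_cases hl : ℓ = 2
  · subst hl
    obtain ⟨hC, h1, h3⟩ := S2431.result hodd S
    have c8 : Fintype.card F % 8 = 3 ∨ Fintype.card F % 8 = 5 → Nat.card S = 2 ^ 3 := fun h => by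
      obtain ⟨k, k1, k2⟩ := CA.PSL2Four.exists_sq_sub_one h
      exact CA.PSL2Four.card_sylow_of_odd S (m := Fintype.card F * k)
        (by rw [CA.SLnCard.card_SL2, hq, k2]; ring) (hodd.mul k1)
    by_cases m1 : m = 1
    · refine of_top (eq_top_of_card_eq _ ?_) _
      rw [h3 (by omega), c8 (by omega), CA.SLnCard.card_SL2, hq, hm, m1]
      rfl
    obtain ⟨k, -, ⟨φ⟩⟩ := S0261.result hodd S
    obtain ⟨a, y, mc, e⟩ := CA.MC3.exists_of_quaternion φ
    have c4 : Nat.card S = 4 * Nat.card ↥⁅(S : Subgroup SL(2, F)), (S : Subgroup SL(2, F))⁆ := by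
      change Nat.card (S : Subgroup SL(2, F)) = _
      rw [← e, mc.commutator_eq, mc.card, Nat.card_zpowers, ← pow_one (2 : ℤ),
        mc.ord_pow (add_comm 1 k)]
      ring
    have l := le_normalizer (H := (S : Subgroup SL(2, F)))
    have em : (⁅(S.subtype l).1, (S.subtype l).1⁆).map (Subgroup.subtype _) = ⁅S.1, S.1⁆ := by
      rw [map_commutator, Sylow.coe_subtype, subgroupOf_map_subtype, inf_eq_left.2 l]
    have cs : Nat.card (S.subtype l) = Nat.card S := Nat.card_congr (subgroupOfEquivOfLe l).toEquiv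
    haveI : (S.subtype l).1.Normal := normal_subgroupOf_of_le_normalizer le_rfl
    rw [lhs hm (by omega), four (S.subtype l) (by
      rw [cs, c4, ← em, card_map_of_injective (subtype_injective _)]) ?_]
    · split_ifs <;> omega
    by_cases h8 : Fintype.card F % 8 = 1 ∨ Fintype.card F % 8 = 7
    · exact Or.inl (subgroupOf_eq_top.2 (h1 h8).le)
    have h8' : Fintype.card F % 8 = 3 ∨ Fintype.card F % 8 = 5 := by omega
    have c := (S.subtype l).1.card_mul_index
    rw [h3 h8', c8 h8'] at c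
    change Nat.card (S.subtype l) * _ = _ at c
    rw [cs, c8 h8'] at c
    refine Or.inr ⟨by omega, fun hc => ?_⟩
    obtain ⟨x, hx⟩ := exists_prime_orderOf_dvd_card' 3 (Dvd.intro _ (h3 h8').symm)
    have x3 : x.1 ^ 3 = 1 := by rw [← SubgroupClass.coe_pow, ← hx, pow_orderOf_eq_one]; rfl
    have : x.1 ∈ center SL(2, F) := hC ▸ mem_centralizer_iff.2 fun s hs => by
      have m := em.le (mem_map_of_mem _ (hc (commutator_mem_commutator (mem_top x)
        (mem_top ⟨s, l hs⟩))))
      have m2 := pow_card_eq_one' (x := (⟨_, m⟩ : ↥⁅S.1, S.1⁆))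
      rw [show Nat.card ↥⁅S.1, S.1⁆ = 2 by have := c8 h8'; omega, Subtype.ext_iff, sq] at m2
      by_contra c
      have n : x.1 * s * x.1⁻¹ * s⁻¹ = -1 := eq_neg_one_of_mul_self h2 _
        (fun e => c (commutatorElement_eq_one_iff_mul_comm.1 e).symm) m2
      have n' : x.1 * s = -(s * x.1) := by
        rw [mul_inv_eq_iff_eq_mul, mul_inv_eq_iff_eq_mul, neg_one_mul, neg_mul] at n
        exact n
      have n3 : x.1 ^ 3 * s = -(s * x.1 ^ 3) := by
        rw [pow_three', mul_assoc, n', mul_neg, mul_assoc, ← mul_assoc _ s, n', neg_mul, mul_neg,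
          neg_neg, ← mul_assoc, ← mul_assoc, n', neg_mul, neg_mul, ← mul_assoc, ← mul_assoc]
      rw [x3, one_mul, mul_one, ← neg_one_mul, right_eq_mul] at n3
      exact neg_one_ne_one h2 n3
    have := Subgroup.orderOf_dvd_natCard _ this
    rw [card_center_odd h2, orderOf_coe, hx] at this
    omega
  by_cases hF : (ℓ : F) = 0
  · haveI : CharP F ℓ := (CharP.charP_iff_prime_eq_zero hp).2 hF
    obtain ⟨x, hx⟩ := exists_sylow_conj ℓ S
    have e := map_equiv_normalizer_eq (U F) (MulAut.conj x)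
    rw [← hx, normalizer_U] at e
    have r := ab' (sylowU F ℓ) fun a ha b hb => U_comm ha hb
    rw [sylowU_coe, normalizer_U, CA.SL2Reps.card_conjClasses_B_odd h2] at r
    rw [← e]
    refine Eq.trans ?_ (r.symm.trans (trans ((MulAut.conj x).subgroupMap (B F)) _))
    have d : ℓ ∣ Nat.card F := by
      obtain ⟨n, n0, hn⟩ := exists_card_eq_pow (F := F) ℓ
      exact hn ▸ dvd_pow_self _ n0.ne'
    have c := CA.SL2Char.card_St (F := F)
    have k := CA.SL2Reps.card_conjClasses_SL2_odd h2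
    rw [← card_irr, Nat.card_eq_fintype_card] at k
    have : cn SL(2, F) (ℓ ∣ ·) = 1 := c ▸ Nat.card_congr (Equiv.subtypeEquivRight fun χ => by
      rw [irr_apply_one_eq χ.2, Nat.cast_inj]
      refine ⟨fun h => ?_, fun h => h ▸ hq ▸ d⟩
      rcases CA.H10L2.degs_SL ⟨χ, rfl⟩ with e | e | e | e
      · exact (hp.not_dvd_one (e ▸ h)).elim
      · exact e
      · exact (not_dvd_add_one ℓ (hq ▸ h.trans e)).elim
      · exact (not_dvd_sub_one ℓ (hq ▸ h.trans e)).elim)
    simp only [cn, Nat.card_eq_fintype_card, Fintype.card_subtype_compl] at this ⊢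
    omega
  obtain ⟨g, hg, hs, ho, hle⟩ := sylow_le_torus ℓ hl hF _ S.isPGroup' h0
  have k := card_conjClasses_D h2 hs
  have d := ho ▸ orderOf_dvd_card_C g
  have n2 : ¬ℓ ∣ 2 := fun h => hl ((Nat.prime_dvd_prime_iff_eq hp Nat.prime_two).1 h)
  have co : ∀ n, ℓ ∣ 2 * n → ℓ ∣ n := fun n h => ((Nat.Prime.dvd_mul hp).1 h).resolve_left n2
  have n1 : ∀ n, ℓ ∣ n → ¬ℓ ∣ n + 1 := fun n h h' => hp.not_dvd_one ((Nat.dvd_add_right h).1 h')
  rw [ab' S fun a ha b hb => C_comm hs.ns (hle ha) (hle hb), hs.normalizer_eq hle hg hs.ns]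
  rcases hs.card_C with c | c <;> rw [c, hq, hm] at k d
  · rw [Nat.add_sub_cancel] at d
    have d1 := co m d
    have := (Nat.le_of_dvd (by omega) d1).trans' hp.two_le
    have a3 : ¬ℓ ∣ 2 * m + 2 := fun h => n1 _ d1 (co (m + 1) h)
    rw [lhs hm this]
    simp only [hp.not_dvd_one, n1 _ d, a3, d, n1 _ d1, d1, not_true, not_false_iff, if_true, if_false]
    omega
  · have d1 := co (m + 1) d
    have := Nat.le_of_dvd (by omega) d1
    have := hp.two_le
    have a1 : ¬ℓ ∣ 2 * m + 1 := fun h => n1 _ h d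
    have a2 : ¬ℓ ∣ m := fun h => n1 _ h d1
    have a3 : ¬ℓ ∣ 2 * m := fun h => a2 (co m h)
    have a4 : ℓ ∣ 2 * m + 2 := d
    rw [lhs hm (by omega)]
    simp only [hp.not_dvd_one, a1, a2, a3, a4, d1, not_true, not_false_iff, if_true, if_false]
    omega

end Cfsg.Agent.S2436
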