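import Cfsg.Statements.S2441
import Cfsg.Agent.Lib.Lie.H12Dual
import Cfsg.Agent.Lib.Lie.ChevAll

set_option autoImplicit false
open Cfsg

namespace Cfsg.Agent.S2441

open CA.Chev

theorem aux (p : ℕ) [Fact p.Prime] (M : Ideal AlgInt) (hM : IsPModular p M) (D : Lie.ChevalleyDatum) [Good D] :
    Nat.card {B : Set (IrrCharacter (D.group (ZMod p))) // IsPBlock M B} = 2 := by
  rw [CA.H12Dual.card_blocks_eq (adjG D (ZMod p)) adjG_G hM, (adjG D (ZMod p)).center_eq adjG_G,
    (MonoidHom.ker_eq_bot_iff _).2 adjG_θ_injective, Subgroup.card_bot]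

/-- For a prime p, the Chevalley groups of types G₂, F₄ and E₈ over the field with p elements (types for which the simply connected and adjoint groups coincide, so the group has trivial centre) each have exactly two p-blocks relative to any maximal ideal of the algebraic integers containing p (only the count is asserted; it arises as the defect-zero block of the Steinberg character plus a single block of maximal defect). -/
theorem result (p : ℕ) [Fact p.Prime] (M : Ideal Cfsg.AlgInt) (hM : Cfsg.IsPModular p M) :
    Nat.card {B : Set (Cfsg.IrrCharacter (Cfsg.Lie.chevG2.group (ZMod p))) // Cfsg.IsPBlock M B} = 2 ∧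
    Nat.card {B : Set (Cfsg.IrrCharacter (Cfsg.Lie.chevF4.group (ZMod p))) // Cfsg.IsPBlock M B} = 2 ∧
    Nat.card {B : Set (Cfsg.IrrCharacter (Cfsg.Lie.chevE8.group (ZMod p))) // Cfsg.IsPBlock M B} = 2 := by
  have h1 := good_of_mem (D := Lie.chevG2) (by simp)
  have h2 := good_of_mem (D := Lie.chevF4) (by simp)
  have h3 := good_of_mem (D := Lie.chevE8) (by simp)
  exact ⟨aux p M hM _, aux p M hM _, aux p M hM _⟩

end Cfsg.Agent.S2441
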