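import Cfsg.Statements.S2500
import Cfsg.Agent.Lib.Lin.Cov2
import Cfsg.Agent.Lib.Lin.Cov5

set_option autoImplicit false
open Cfsg

namespace Cfsg.Agent.S2500

open CA.Cov CA.CForm CA.CForm.Form

/-- The infinite families of simple groups with normal covering number 2. For a finite field F: each of PSL_2(F) (|F| ≥ 4), PSL_3(F), PSL_4(F), PSU_4 over F (|F| = q²), PSU_3 over F when |F| = q² with q a power of 3, PSp_{2m}(F) for |F| even, m ≥ 2 and (m, |F|) ≠ (2, 2), PSp_6(F) for |F| a power of 3, and G_2(F) (automorphisms of the split octonions) for |F| = 2^a ≥ 4 is the union of the conjugates of two proper subgroups: there are proper subgroups H, K such that every element is conjugate into H or into K. -/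
theorem result {F : Type} [Field F] [Fintype F] :
    (4 ≤ Fintype.card F → (∃ H K : Subgroup (Matrix.ProjectiveSpecialLinearGroup (Fin 2) F), H ≠ ⊤ ∧ K ≠ ⊤ ∧ ∀ g : (Matrix.ProjectiveSpecialLinearGroup (Fin 2) F), ∃ x : (Matrix.ProjectiveSpecialLinearGroup (Fin 2) F), x * g * x⁻¹ ∈ H ∨ x * g * x⁻¹ ∈ K)) ∧
    (∃ H K : Subgroup (Matrix.ProjectiveSpecialLinearGroup (Fin 3) F), H ≠ ⊤ ∧ K ≠ ⊤ ∧ ∀ g : (Matrix.ProjectiveSpecialLinearGroup (Fin 3) F), ∃ x : (Matrix.ProjectiveSpecialLinearGroup (Fin 3) F), x * g * x⁻¹ ∈ H ∨ x * g * x⁻¹ ∈ K) ∧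
    (∃ H K : Subgroup (Matrix.ProjectiveSpecialLinearGroup (Fin 4) F), H ≠ ⊤ ∧ K ≠ ⊤ ∧ ∀ g : (Matrix.ProjectiveSpecialLinearGroup (Fin 4) F), ∃ x : (Matrix.ProjectiveSpecialLinearGroup (Fin 4) F), x * g * x⁻¹ ∈ H ∨ x * g * x⁻¹ ∈ K) ∧
    (∀ q : ℕ, Fintype.card F = q ^ 2 → (∃ H K : Subgroup (Cfsg.PSU 4 F q), H ≠ ⊤ ∧ K ≠ ⊤ ∧ ∀ g : (Cfsg.PSU 4 F q), ∃ x : (Cfsg.PSU 4 F q), x * g * x⁻¹ ∈ H ∨ x * g * x⁻¹ ∈ K)) ∧
    (∀ q a : ℕ, Fintype.card F = q ^ 2 → 1 ≤ a → q = 3 ^ a → (∃ H K : Subgroup (Cfsg.PSU 3 F q), H ≠ ⊤ ∧ K ≠ ⊤ ∧ ∀ g : (Cfsg.PSU 3 F q), ∃ x : (Cfsg.PSU 3 F q), x * g * x⁻¹ ∈ H ∨ x * g * x⁻¹ ∈ K)) ∧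
    (∀ m : ℕ, 2 ≤ m → ¬ Odd (Fintype.card F) → ¬ (m = 2 ∧ Fintype.card F = 2) → (∃ H K : Subgroup (Cfsg.PSp m F), H ≠ ⊤ ∧ K ≠ ⊤ ∧ ∀ g : (Cfsg.PSp m F), ∃ x : (Cfsg.PSp m F), x * g * x⁻¹ ∈ H ∨ x * g * x⁻¹ ∈ K)) ∧
    (∀ a : ℕ, 1 ≤ a → Fintype.card F = 3 ^ a → (∃ H K : Subgroup (Cfsg.PSp 3 F), H ≠ ⊤ ∧ K ≠ ⊤ ∧ ∀ g : (Cfsg.PSp 3 F), ∃ x : (Cfsg.PSp 3 F), x * g * x⁻¹ ∈ H ∨ x * g * x⁻¹ ∈ K)) ∧
    (∀ a : ℕ, 2 ≤ a → Fintype.card F = 2 ^ a → (∃ H K : Subgroup (Cfsg.Lie.G2 F), H ≠ ⊤ ∧ K ≠ ⊤ ∧ ∀ g : (Cfsg.Lie.G2 F), ∃ x : (Cfsg.Lie.G2 F), x * g * x⁻¹ ∈ H ∨ x * g * x⁻¹ ∈ K)) := by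
  have k : ∀ {p n : ℕ}, p.Prime → 1 ≤ n → Fintype.card F = p ^ n → CharP F p := fun {p n} hp hn h =>
    (CharP.charP_iff_prime_eq_zero hp).2 (pow_eq_zero_iff (by omega : n ≠ 0) |>.1 (by
      rw [← Nat.cast_pow, ← h, FiniteField.cast_card_eq_zero]))
  refine ⟨fun h => cov_PSL (r := 2) le_rfl le_rfl (.inr (by simpa using h)) fun d _ _ _ => by omega,
    cov_PSL (r := 3) (by omega) (by omega) (by omega) fun d _ _ _ => by omega,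
    cov_PSL (r := 2) (by omega) (by omega) (by omega) fun d _ _ _ => by omega, fun q => cov_PSU4, fun q a h1 h2 h3 => ?_,
    fun m h1 h2 h3 => cov_PSp_two (not_not.1 (mt two_ne_zero_iff_odd.1 h2)) h1 fun a b => h3 ⟨a, b⟩, fun a h1 h2 => ?_,
    fun a h1 h2 => ?_⟩
  · have := k Nat.prime_three (n := a * 2) (by omega) (by rw [h1, h3, pow_mul])
    exact cov_PSU3 h1 (by have := Nat.pow_le_pow_right (n := 3) (by omega) h2; omega)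
  · have := k Nat.prime_three h1 h2
    exact cov_PSp6
  · have := k Nat.prime_two (by omega) h2
    exact cov_G2 (CharP.ofNat_eq_zero F 2)

end Cfsg.Agent.S2500
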