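import Cfsg.Statements.S2531
import Mathlib

set_option autoImplicit false
open Cfsg

namespace Cfsg.Agent.S2531

open Finset Projectivization in
theorem card_sub {F V : Type*} [Field F] [Finite F] [AddCommGroup V] [Module F V] [Finite V]
    (W : Submodule F V) (h : W ≠ ⊥) :
    (Nat.card {x : Projectivization F V | x.submodule ≤ W} : F) = 1 := by
  have e : Nat.card {x : Projectivization F V | x.submodule ≤ W} = Nat.card (Projectivization F W) :=
    (Nat.card_congr (.ofBijective (fun x : Projectivization F W =>
      (⟨Projectivization.map W.subtype W.subtype_injective x, by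
      induction x using ind; simp [map_mk]⟩ : {x : Projectivization F V | x.submodule ≤ W}))
      ⟨fun x y e => Projectivization.map_injective _ W.subtype_injective (congrArg Subtype.val e), fun ⟨x, hx⟩ => by
      induction x using ind with | _ v hv
      exact ⟨mk F ⟨v, by simpa using hx⟩ (by simpa using hv), rfl⟩⟩)).symm
  obtain ⟨k, hk⟩ := Nat.exists_eq_succ_of_ne_zero (mt Submodule.finrank_eq_zero.1 h)
  have := Fintype.ofFinite F
  rw [e, card_of_finrank F W hk, sum_range_succ']
  simp [Nat.card_eq_fintype_card, FiniteField.cast_card_eq_zero]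

/-- Let `F` be a finite field and `n ≥ 3`. No set of permutations of the points of the projective space of `Fⁿ`, each induced by an invertible semilinear transformation of `Fⁿ` (so a subset of the full projective semilinear group), is sharply 2-transitive on the points: it is impossible that for all pairs of distinct points `(a, b)` and `(c, d)` exactly one member of the set sends `a` to `c` and `b` to `d`. -/
theorem result {F : Type*} [Field F] [Finite F]
    (n : ℕ) (hn : 3 ≤ n) (S : Set (Equiv.Perm (Projectivization F (Fin n → F))))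
    (hS : ∀ s ∈ S, ∃ (σ : F ≃+* F) (f : (Fin n → F) →ₛₗ[(σ : F →+* F)] (Fin n → F)) (hf : Function.Injective f),
      ∀ x, s x = Projectivization.map f hf x) :
    ¬ (∀ a b c d : Projectivization F (Fin n → F), a ≠ b → c ≠ d →
        ∃! s, s ∈ S ∧ s a = c ∧ s b = d) := by
  intro H
  classical
  have := Fintype.ofFinite (Projectivization F (Fin n → F))
  let i : Fin n := ⟨0, by omega⟩
  let x := Projectivization.mk F (Pi.single i 1 : Fin n → F) (by simp)
  let B := LinearMap.ker (LinearMap.proj (R := F) (φ := fun _ : Fin n => F) i)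
  have hx : ¬ x.submodule ≤ B := by simp [x, B]
  have hB : Module.finrank F B + 1 = n := by
    have := LinearMap.finrank_range_add_finrank_ker (LinearMap.proj (R := F) (φ := fun _ : Fin n => F) i)
    rw [LinearMap.range_eq_top.2 (Function.surjective_eval i)] at this
    simpa [add_comm] using this
  have b0 : B ≠ ⊥ := fun e => by rw [e, finrank_bot] at hB; omega
  let T := Finset.univ.filter fun s => s ∈ S ∧ s x = x
  let P := Finset.univ.filter fun y : Projectivization F (Fin n → F) => y.submodule ≤ B
  have c : ∀ W : Submodule F (Fin n → F), W ≠ ⊥ → ((Finset.univ.filter fun y : Projectivization F _ =>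
      y.submodule ≤ W).card : F) = 1 := fun W h => by simpa [Fintype.card_subtype] using card_sub W h
  have h1 : ∀ a c, a ≠ x → c ≠ x → (T.filter fun s => s a = c).card = 1 := fun a c h1 h2 => by
    obtain ⟨s, hs, u⟩ := H x a x c h1.symm h2.symm
    exact Finset.card_eq_one.2 ⟨s, Finset.eq_singleton_iff_unique_mem.2 ⟨by simpa [T, and_assoc] using hs,
      fun t ht => u t (by simpa [T, and_assoc] using ht)⟩⟩
  have h2 : ∀ a, a ≠ x → ∀ Q : Finset _, x ∉ Q → (T.filter fun s => s a ∈ Q).card = Q.card := fun a ha Q hQ => by
    rw [Finset.card_eq_sum_card_fiberwise (f := fun s => s a) (t := Q) fun s hs => by simp_all,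
      Finset.card_eq_sum_ones Q]
    refine Finset.sum_congr rfl fun c hc => (h1 a c ha fun e => hQ (e ▸ hc)) ▸ ?_
    congr 1; ext s; simp +contextual [hc]
  have hP : x ∉ P := by simpa [P] using hx
  obtain ⟨a, ha⟩ : P.Nonempty := Finset.card_pos.1 (Nat.pos_of_ne_zero fun e => by simpa [P, e] using c B b0)
  have h3 : (T.card : F) = 0 := by
    have := h2 a (fun e => hP (e ▸ ha)) (Finset.univ.erase x) (by simp)
    rw [Finset.filter_true_of_mem fun s hs => by
      simpa using fun e : s a = x => hP ((s.injective (e.trans (Finset.mem_filter.1 hs).2.2.symm)) ▸ ha)] at this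
    have h4 := c ⊤ fun e => b0 (eq_bot_iff.2 (e ▸ le_top))
    rw [this, Finset.card_erase_of_mem (Finset.mem_univ _), Nat.cast_sub (Finset.card_pos.2 ⟨x, by simp⟩)]
    simpa [sub_eq_zero] using h4
  have h4 : ∑ s ∈ T, (P.filter fun y => s y ∈ P).card = ∑ y ∈ P, (T.filter fun s => s y ∈ P).card := by
    simp only [Finset.card_filter]; exact Finset.sum_comm
  rw [Finset.sum_congr rfl fun y hy => h2 y (fun e => hP (e ▸ hy)) P hP] at h4
  have h5 := congrArg (Nat.cast (R := F)) h4
  rw [Nat.cast_sum, Finset.sum_congr rfl (g := fun _ => 1) fun s hs => ?_] at h5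
  · simp [h3, P, c B b0] at h5
  obtain ⟨σ, f, hf, e⟩ := hS s (Finset.mem_filter.1 hs).2.1
  have : RingHomSurjective (σ : F →+* F) := ⟨σ.surjective⟩
  rw [← c (B ⊓ B.comap f) fun e => ?_]
  · congr 2; ext y; induction y using Projectivization.ind; simp [P, e, Projectivization.map_mk]
  have h6 := Submodule.finrank_sup_add_finrank_inf_eq B (B.comap f)
  have h7 := Submodule.finrank_le (B ⊔ B.comap f)
  have h8 : Nat.card (B.comap f) = Nat.card B := Nat.card_congr (Equiv.subtypeEquiv
    (.ofBijective f (Finite.injective_iff_bijective.1 hf)) fun _ => Iff.rfl)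
  rw [Module.natCard_eq_pow_finrank (K := F), Module.natCard_eq_pow_finrank (K := F) (V := B),
    Nat.pow_right_inj Finite.one_lt_card] at h8
  rw [e, finrank_bot] at h6
  simp at h7
  omega

end Cfsg.Agent.S2531
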