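import Cfsg.Statements.S2532

set_option autoImplicit false
open Cfsg

namespace Cfsg.Agent.S2532

/-- There is a function `f` of two natural-number arguments such that, whenever `m ≥ f(n, r)`, every subgroup of order `n` of the alternating group of degree `m` centralizes some subgroup of that alternating group isomorphic to the alternating group of degree `r`. -/
theorem result :
    ∃ f : ℕ → ℕ → ℕ, ∀ (m r : ℕ) (H : Subgroup ↥(alternatingGroup (Fin m))), f (Nat.card H) r ≤ m →
      ∃ K : Subgroup ↥(alternatingGroup (Fin m)), Nonempty (↥K ≃* ↥(alternatingGroup (Fin r))) ∧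
        K ≤ Subgroup.centralizer (H : Set ↥(alternatingGroup (Fin m))) := by
  classical
  refine ⟨fun n r => n * (2 ^ n * r), fun m r H hm => ?_⟩
  let Q := MulAction.orbitRel.Quotient H (Fin m)
  have h1 : m ≤ Nat.card H * Nat.card Q := by
    have := Nat.card_le_card_of_surjective (fun x : H × Q => x.1 • x.2.out) fun x => by
      obtain ⟨h, hh⟩ : x ∈ MulAction.orbit H (Quotient.mk'' x : Q).out :=
        (MulAction.orbitRel_apply.1 (Quotient.exact (Quotient.out_eq (Quotient.mk'' x : Q)).symm))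
      exact ⟨(h, Quotient.mk'' x), hh⟩
    simpa using this
  have h2 : Nat.card (Subgroup H) ≤ 2 ^ Nat.card H := by
    have := Nat.card_le_card_of_injective _ (SetLike.coe_injective (A := Subgroup H))
    have _ := Fintype.ofFinite H
    rwa [Nat.card_eq_fintype_card (α := Set H), Fintype.card_set, ← Nat.card_eq_fintype_card] at this
  have _ := Fintype.ofFinite Q
  have _ := Fintype.ofFinite (Subgroup H)
  obtain ⟨K, hK⟩ := Fintype.exists_le_card_fiber_of_mul_le_card
    (fun o : Q => MulAction.stabilizer H o.out) (n := r) (by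
      rw [← Nat.card_eq_fintype_card, ← Nat.card_eq_fintype_card]
      exact (Nat.mul_le_mul_right r h2).trans (Nat.le_of_mul_le_mul_left (hm.trans h1) Nat.card_pos))
  obtain ⟨e, he⟩ := Function.Embedding.exists_of_card_le_finset (α := Fin r) (by simpa using hK)
  have he' : ∀ i, MulAction.stabilizer H (e i).out = K := fun i => by
    simpa using he ⟨i, rfl⟩
  let ι : (H ⧸ K) × Fin r ↪ Fin m := ⟨fun x => x.1.out • (e x.2).out, by
    rintro ⟨c, i⟩ ⟨d, j⟩ h
    simp only at h
    obtain rfl : i = j := e.injective (by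
      rw [← Quotient.out_eq (e i), ← Quotient.out_eq (e j)]
      exact Quotient.sound ⟨c.out⁻¹ * d.out, by simp only [mul_smul, ← h, inv_smul_smul]⟩)
    rw [← QuotientGroup.out_eq' c, ← QuotientGroup.out_eq' d, QuotientGroup.eq.2]
    refine (he' i).le ?_
    rw [MulAction.mem_stabilizer_iff, mul_smul, ← h, inv_smul_smul]⟩
  have hι : ∀ (h : H) c i, ι (h • c, i) = h • ι (c, i) := fun h c i => by
    obtain ⟨k, hk⟩ := QuotientGroup.mk_out_eq_mul K (h * c.out)
    have h3 : (k : H) • (e i).out = (e i).out := (he' i).ge k.2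
    show (h • c).out • (e i).out = h • c.out • (e i).out
    rw [← MulAction.Quotient.mk_smul_out, smul_eq_mul, hk, mul_smul, h3, mul_smul]
  have _ := Fintype.ofFinite (H ⧸ K)
  let ρ : Equiv.Perm (Fin r) →* Equiv.Perm ((H ⧸ K) × Fin r) :=
    MonoidHom.mk' (fun σ => Equiv.prodCongrRight fun _ => σ) fun _ _ => rfl
  let θ := ((Equiv.Perm.viaEmbeddingHom ι).comp ρ).comp (alternatingGroup (Fin r)).subtype
  have hθ : ∀ σ, θ σ ∈ alternatingGroup (Fin m) := fun σ => by
    rw [Equiv.Perm.mem_alternatingGroup]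
    have h3 := @Equiv.Perm.sign_extendDomain _ _ _ _ _ _ (ρ σ) _ (Classical.decPred _)
      (Equiv.ofInjective ι.1 ι.2)
    have h4 := Equiv.Perm.sign_prodCongrRight (fun _ : H ⧸ K => σ.1)
    rw [Finset.prod_eq_one fun _ _ => σ.2] at h4
    refine h3.trans ?_
    exact h4
  have hinj : Function.Injective (θ.codRestrict _ hθ) := fun σ τ h => by
    have := Equiv.Perm.viaEmbeddingHom_injective ι (congrArg Subtype.val h)
    exact Subtype.ext (Equiv.ext fun i => congrArg Prod.snd (Equiv.congr_fun this ((1 : H), i)))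
  refine ⟨(θ.codRestrict _ hθ).range, ⟨(MonoidHom.ofInjective hinj).symm⟩, ?_⟩
  rintro _ ⟨σ, rfl⟩ h hh
  refine Subtype.ext (Equiv.ext fun y => ?_)
  show (⟨h, hh⟩ : H) • (ρ σ).viaEmbedding ι y = (ρ σ).viaEmbedding ι ((⟨h, hh⟩ : H) • y)
  by_cases hy : y ∈ Set.range ι
  · obtain ⟨⟨c, i⟩, rfl⟩ := hy
    rw [← hι, Equiv.Perm.viaEmbedding_apply, Equiv.Perm.viaEmbedding_apply]
    exact (hι _ _ _).symm
  · rw [Equiv.Perm.viaEmbedding_apply_of_notMem _ _ _ hy, Equiv.Perm.viaEmbedding_apply_of_notMem]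
    rintro ⟨⟨c, i⟩, h4⟩
    exact hy ⟨((⟨h, hh⟩ : H)⁻¹ • c, i), by rw [hι, h4, inv_smul_smul]⟩

end Cfsg.Agent.S2532
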