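import Cfsg.Statements.S2533
import Mathlib

set_option autoImplicit false
open Cfsg

namespace Cfsg.Agent.S2533

open Matrix
set_option maxHeartbeats 400000

@[ext] structure Hg (p : ℕ) where
  v : Fin 3 → ZMod p
  e : ℤˣ

section
variable {p : ℕ}
instance : Mul (Hg p) := ⟨fun a b => ⟨a.v + a.e • b.v, a.e * b.e⟩⟩
instance : One (Hg p) := ⟨⟨0, 1⟩⟩
instance : Inv (Hg p) := ⟨fun a => ⟨-(a.e⁻¹ • a.v), a.e⁻¹⟩⟩
theorem mul_v (a b : Hg p) : (a * b).v = a.v + a.e • b.v := rfl
theorem mul_e (a b : Hg p) : (a * b).e = a.e * b.e := rfl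
instance : Group (Hg p) := Group.ofLeftAxioms
  (fun a b c => Hg.ext (by simp only [mul_v, mul_e, smul_add, mul_smul, add_assoc]) (mul_assoc _ _ _))
  (fun a => Hg.ext (show 0 + (1 : ℤˣ) • a.v = a.v by rw [one_smul, zero_add]) (one_mul _))
  (fun a => Hg.ext (neg_add_cancel _) (inv_mul_cancel a.e))

def eqv : Hg p ≃ (Fin 3 → ZMod p) × ℤˣ := ⟨fun a => (a.v, a.e), fun a => ⟨a.1, a.2⟩, fun _ => rfl, fun _ => rfl⟩

def A (k : ℕ) (v : Fin 3 → ZMod p) : Matrix (Fin (k + 1)) (Fin k) (ZMod p) := of fun i j =>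
  (if i = j.castSucc then v 0 else 0) + (if i = j.succ then v 1 else 0) + (if (i : ℕ) = j + 2 then v 2 else 0)

def M (k : ℕ) (h : Hg p) : Matrix (Fin k ⊕ Fin (k + 1)) (Fin k ⊕ Fin (k + 1)) (ZMod p) :=
  fromBlocks 1 0 (A k h.v) (h.e • 1)

theorem A_zero (k : ℕ) : A k (0 : Fin 3 → ZMod p) = 0 := by ext i j; simp [A]

theorem M_mul (k : ℕ) (a b : Hg p) : M k (a * b) = M k a * M k b := by
  have : A k (a * b).v = A k a.v + a.e • A k b.v := by
    ext i j
    simp only [A, mul_v, of_apply, Matrix.add_apply, Matrix.smul_apply, Pi.add_apply, Pi.smul_apply, smul_add]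
    split_ifs <;> (try simp only [smul_zero]) <;> abel
  simp [M, fromBlocks_multiply, this, mul_e, smul_smul, mul_comm]

theorem M_det {k : ℕ} (hk : Odd k) (a : Hg p) : (M k a).det = 1 := by
  rw [M, det_fromBlocks_zero₁₂, det_one, one_mul]
  rcases Int.units_eq_one_or a.e with e | e <;> rw [e]
  · simp
  · rw [Units.neg_smul, one_smul, det_neg, det_one, Fintype.card_fin, hk.add_one.neg_one_pow, one_mul]

abbrev re (p k : ℕ) := reindexAlgEquiv (ZMod p) (ZMod p) (finSumFinEquiv (m := k) (n := k + 1))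

def ψ {k : ℕ} (hk : Odd k) : Hg p →* Matrix.SpecialLinearGroup (Fin (k + (k + 1))) (ZMod p) :=
  MonoidHom.mk' (fun h => ⟨re p k (M k h), by rw [det_reindexAlgEquiv, M_det hk]⟩) fun a b =>
    Subtype.ext (by simp only [M_mul, map_mul]; rfl)

theorem re_scalar {k : ℕ} (r : ZMod p) : (re p k).symm (scalar _ r) = r • 1 := by
  rw [← map_one (re p k).symm, ← map_smul, scalar_apply, smul_one_eq_diagonal]

variable [Fact p.Prime]

theorem scal {k : ℕ} {B : Matrix (Fin k) (Fin k) (ZMod p)} {C : Matrix (Fin (k + 1)) (Fin (k + 1)) (ZMod p)}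
    (h : ∀ v i j, ∑ l, C i l * A k v l j = ∑ l, A k v i l * B l j) : ∃ c : ZMod p, B = c • 1 ∧ C = c • 1 := by
  have a0 : ∀ i j, C i (Fin.castSucc j) = ∑ l, if i = Fin.castSucc l then B l j else 0 := fun i j => by
    simpa [A] using h (Pi.single 0 1) i j
  have a1 : ∀ i j, C i (Fin.succ j) = ∑ l, if i = Fin.succ l then B l j else 0 := fun i j => by
    simpa [A] using h (Pi.single 1 1) i j
  have h1 : ∀ a j, C (Fin.castSucc a) (Fin.castSucc j) = B a j := fun a j => by simp [a0]
  have h2 : ∀ j, C (Fin.last k) (Fin.castSucc j) = 0 := fun j => by simp [a0, (Fin.castSucc_lt_last _).ne']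
  have h3 : ∀ a j, C (Fin.succ a) (Fin.succ j) = B a j := fun a j => by simp [a1]
  have h4 : ∀ j, C 0 (Fin.succ j) = 0 := fun j => by simp [a1, (Fin.succ_ne_zero _).symm]
  have sh : ∀ m i j (hi : i + m < k + 1) (hj : j + m < k + 1),
      C ⟨i + m, hi⟩ ⟨j + m, hj⟩ = C ⟨i, by omega⟩ ⟨j, by omega⟩ := by
    intro m
    induction m with
    | zero => intros; rfl
    | succ m ih =>
      intro i j hi hj
      rw [← ih i j (by omega) (by omega)]
      exact (h3 ⟨i + m, by omega⟩ ⟨j + m, by omega⟩).trans (h1 ⟨i + m, by omega⟩ ⟨j + m, by omega⟩).symm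
  have hC : C = C 0 0 • 1 := by
    ext ⟨i, hi⟩ ⟨j, hj⟩
    rw [Matrix.smul_apply, one_apply, smul_eq_mul]
    rcases lt_trichotomy i j with l | rfl | l
    · rw [if_neg (by simp; omega), mul_zero]
      obtain ⟨d, rfl⟩ : ∃ d, j = d + 1 + i := ⟨j - i - 1, by omega⟩
      have := sh i 0 (d + 1) (by omega) hj
      simp only [zero_add] at this
      exact this.trans (h4 ⟨d, by omega⟩)
    · rw [if_pos rfl, mul_one]
      have := sh i 0 0 (by omega) (by omega)
      simp only [zero_add] at this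
      exact this
    · rw [if_neg (by simp; omega), mul_zero, ← sh (k - i) i j (by omega) (by omega), ← h2 ⟨j + (k - i), by omega⟩]
      congr 1
      exact Fin.ext (by simp; omega)
  refine ⟨C 0 0, ?_, hC⟩
  ext a j
  rw [← h1, hC]
  simp [one_apply]

theorem two_ne (hp : p ≠ 2) : (2 : ZMod p) ≠ 0 := fun h =>
  hp ((Nat.prime_dvd_prime_iff_eq Fact.out Nat.prime_two).1 ((ZMod.natCast_eq_zero_iff 2 p).1 h))

theorem cent (hp : p ≠ 2) {k : ℕ} {G G' : Matrix (Fin k ⊕ Fin (k + 1)) (Fin k ⊕ Fin (k + 1)) (ZMod p)} (h1 : G * G' = 1)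
    (h : ∀ a : Hg p, ∃ r : ZMod p, G * M k a = r • (M k a * G)) : ∃ c : ZMod p, G = c • 1 := by
  have h2 := two_ne hp
  obtain ⟨r, hr⟩ := h ⟨0, -1⟩
  have : r = 1 := by
    have e := congrArg (fun X => trace (X * G')) hr
    simp only [smul_mul_assoc, trace_smul] at e
    rw [trace_mul_cycle, mul_eq_one_comm.1 h1, mul_assoc, h1, one_mul, mul_one] at e
    have t : trace (M k (⟨0, -1⟩ : Hg p)) = -1 := by simp [M, trace, one_apply]
    rw [t] at e
    simpa using e.symm
  subst this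
  rw [← fromBlocks_toBlocks G, ← fromBlocks_toBlocks G'] at *
  generalize G.toBlocks₁₁ = B at *
  generalize G.toBlocks₁₂ = X at *
  generalize G.toBlocks₂₁ = Y at *
  generalize G.toBlocks₂₂ = C at *
  simp only [M, A_zero, fromBlocks_multiply, one_smul, fromBlocks_inj, Units.neg_smul, Matrix.mul_one, Matrix.one_mul,
    Matrix.mul_zero, Matrix.zero_mul, add_zero, zero_add, Matrix.mul_neg, Matrix.neg_mul] at hr
  have hX : X = 0 := (smul_eq_zero.1 (by rw [two_smul]; exact add_eq_zero_iff_neg_eq.2 hr.2.1)).resolve_left h2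
  have hY : Y = 0 := (smul_eq_zero.1 (by rw [two_smul]; exact add_eq_zero_iff_eq_neg.2 hr.2.2.1)).resolve_left h2
  subst hX hY
  rw [fromBlocks_multiply, ← fromBlocks_one, fromBlocks_inj] at h1
  simp only [Matrix.zero_mul, zero_add] at h1
  obtain ⟨c, rfl, rfl⟩ := scal (B := B) (C := C) fun v i j => by
    obtain ⟨r, hr⟩ := h ⟨v, 1⟩
    simp only [M, fromBlocks_multiply, one_smul, fromBlocks_smul, fromBlocks_inj, Matrix.mul_one, Matrix.one_mul,
      Matrix.mul_zero, Matrix.zero_mul, add_zero, zero_add] at hr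
    have e := h1.2.2.2
    rw [hr.2.2.2, smul_mul_assoc, h1.2.2.2] at e
    have : r = 1 := by simpa using congrFun (congrFun e 0) 0
    simp only [this, one_smul] at hr
    exact congrFun (congrFun hr.2.2.1 i) j
  exact ⟨c, by rw [← fromBlocks_one, fromBlocks_smul, smul_zero, smul_zero]⟩
end

/-- For every odd prime `p` there is a finite group `H` of order `2p³` which, for infinitely many `n`, embeds in the projective special linear group `PSL(n, p)` as a subgroup with trivial centralizer. -/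
theorem result
    (p : ℕ) [Fact p.Prime] (hp : p ≠ 2) :
    ∃ (H : Type) (_ : Group H) (_ : Finite H), Nat.card H = 2 * p ^ 3 ∧
      ∀ N : ℕ, ∃ n, N ≤ n ∧ ∃ φ : H →* Matrix.ProjectiveSpecialLinearGroup (Fin n) (ZMod p),
        Function.Injective φ ∧ Subgroup.centralizer (φ.range : Set (Matrix.ProjectiveSpecialLinearGroup (Fin n) (ZMod p))) = ⊥ := by
  haveI : NeZero p := ⟨(Fact.out : p.Prime).ne_zero⟩
  refine ⟨Hg p, inferInstance, Finite.of_equiv _ eqv.symm, ?_, fun N => ?_⟩
  · rw [Nat.card_congr eqv, Nat.card_prod, Nat.card_fun, Nat.card_zmod, Nat.card_eq_fintype_card (α := ℤˣ)]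
    simp [mul_comm]
  obtain ⟨k, hk, h2, hN⟩ : ∃ k, Odd k ∧ 2 ≤ k ∧ N ≤ k := ⟨2 * N + 3, ⟨N + 1, rfl⟩, by omega, by omega⟩
  refine ⟨k + (k + 1), by omega, (QuotientGroup.mk' _).comp (ψ hk), (injective_iff_map_eq_one _).2 fun a ha => ?_,
    eq_bot_iff.2 fun g hg => ?_⟩
  · obtain ⟨r, -, hr⟩ := Matrix.SpecialLinearGroup.mem_center_iff.1 ((QuotientGroup.eq_one_iff _).1 ha)
    have := congrArg (re p k).symm hr
    rw [re_scalar, ← fromBlocks_one, fromBlocks_smul] at this
    obtain ⟨e1, -, e2, e3⟩ := fromBlocks_inj.1 (this.trans ((re p k).symm_apply_apply _))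
    obtain rfl : r = 1 := by simpa using congrFun (congrFun e1 ⟨0, by omega⟩) ⟨0, by omega⟩
    refine Hg.ext (funext fun i => ?_) ?_
    · have := congrFun (congrFun e2 ⟨i, by omega⟩) ⟨0, by omega⟩
      show a.v i = 0
      fin_cases i <;> simpa [A, Fin.ext_iff] using this.symm
    · refine (Int.units_eq_one_or a.e).resolve_right fun e => two_ne hp ?_
      have := congrFun (congrFun e3 0) 0
      simp [e] at this
      linear_combination this
  · obtain ⟨g, rfl⟩ := QuotientGroup.mk'_surjective _ g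
    obtain ⟨c, hc⟩ := cent hp (G := (re p k).symm g.1) (G' := (re p k).symm (g⁻¹).1)
      (by rw [← map_mul, ← Matrix.SpecialLinearGroup.coe_mul, mul_inv_cancel, Matrix.SpecialLinearGroup.coe_one, map_one]) fun a => by
        have := hg _ ⟨a, rfl⟩
        rw [MonoidHom.comp_apply, ← map_mul, ← map_mul, QuotientGroup.mk'_eq_mk'] at this
        obtain ⟨z, hz, e⟩ := this
        obtain ⟨r, -, hr⟩ := Matrix.SpecialLinearGroup.mem_center_iff.1 hz
        have : (re p k).symm ((ψ hk a).1 * g.1 * z.1) = (re p k).symm (g.1 * (ψ hk a).1) :=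
          congrArg (fun x : Matrix.SpecialLinearGroup _ _ => (re p k).symm x.1) e
        rw [map_mul, map_mul, map_mul, ← hr, re_scalar] at this
        have e : (re p k).symm (ψ hk a).1 = M k a := (re p k).symm_apply_apply _
        rw [e, Matrix.mul_smul, Matrix.mul_one] at this
        exact ⟨r, this.symm⟩
    refine Subgroup.mem_bot.2 ((QuotientGroup.eq_one_iff _).2 (Subgroup.mem_center_iff.2 fun b => Subtype.ext ?_))
    have : g.1 = c • 1 := by rw [← (re p k).apply_symm_apply g.1, hc, map_smul, map_one]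
    simp [this]

end Cfsg.Agent.S2533
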