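import Cfsg.Statements.S2534
import Cfsg.Agent.Lib.Perm.HallSn5

set_option autoImplicit false
open Cfsg

namespace Cfsg.Agent.S2534

open CA.HallSn Equiv Equiv.Perm

/-- For `n ≥ 5` and a set of primes `π`, the alternating group of degree `n` satisfies the full Sylow analogue for `π` (its maximal `π`-subgroups are pairwise conjugate; for a finite group this says Hall `π`-subgroups exist, are all conjugate, and contain every `π`-subgroup up to conjugacy) if and only if either at most one prime of `π` divides its order or every prime dividing its order lies in `π`. -/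
theorem result (n : ℕ) (hn : 5 ≤ n) (π : Set ℕ) :
    Cfsg.IsDPiGroup π ↥(alternatingGroup (Fin n)) ↔
      ((∀ r s : ℕ, r.Prime → s.Prime → r ∈ π → s ∈ π → r ∣ Nat.card ↥(alternatingGroup (Fin n)) → s ∣ Nat.card ↥(alternatingGroup (Fin n)) → r = s) ∨
        ∀ r : ℕ, r.Prime → r ∣ Nat.card ↥(alternatingGroup (Fin n)) → r ∈ π) := by
  refine ⟨fun hD => ?_, fun h => (h.elim DS.of_one DS.of_all).D⟩
  by_cases hN : NT π (Fintype.card (Fin n))
  swap
  · exact DS_sub hN _
  exfalso
  obtain ⟨H, hH, h⟩ := DS.of_D hD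
  obtain ⟨B, h1, rfl⟩ := alt_hall hN hH
  have key : ∀ K : Subgroup (Perm (Fin n)), IsPiSubgroup π K → ∃ B' : Finset (Fin n),
      B'.card = B.card ∧ ∀ k ∈ K, sign k = 1 →
        ∀ x y, (x ∈ B' ↔ y ∈ B') ↔ (k x ∈ B' ↔ k y ∈ B') := by
    intro K hK
    obtain ⟨g, hg⟩ := h (K.subgroupOf _) fun p hp hd => hK p hp (hd.trans (by
      rw [← Subgroup.card_map_of_injective (alternatingGroup (Fin n)).subtype_injective,
        Subgroup.subgroupOf_map_subtype]
      exact Subgroup.card_dvd_of_le inf_le_left))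
    refine ⟨B.map g.1.toEmbedding, Finset.card_map _, fun k hk hs x y => ?_⟩
    have := mem_W.1 (Subgroup.mem_subgroupOf.1 (mem_cj.1 (hg (x := ⟨k, hs⟩) hk))) (g.1⁻¹ x) (g.1⁻¹ y)
    simpa [Finset.mem_map_equiv, Perm.inv_def] using this
  rw [Fintype.card_fin] at h1
  rcases h1 with ⟨h1, -, h2⟩ | ⟨⟨rfl, h1⟩ | ⟨rfl, h1⟩, h2⟩
  · have ex : ∀ s : Finset (Fin n), s.card ≤ 4 → ∃ c, c ∉ s := fun s hs => by
      obtain ⟨c, -, hc⟩ := Finset.exists_mem_notMem_of_card_lt_card (s := s) (t := Finset.univ)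
        (by simp; omega)
      exact ⟨c, hc⟩
    obtain ⟨a, -⟩ := ex ∅ (by simp)
    obtain ⟨b, hb⟩ := ex {a} (by simp)
    have hba : b ≠ a := by simpa using hb
    have hab : ({a, b} : Finset (Fin n)).card = 2 := Finset.card_pair hba.symm
    obtain ⟨B', h3, h4⟩ := key (W {a, b}) fun p hp hd => by
      have := prime_W (by omega) (by rw [Fintype.card_fin]; omega) hp hd
      rw [Fintype.card_fin] at this
      exact (h2 p hp (by omega)).2 (by omega)
    obtain ⟨x, rfl⟩ := Finset.card_eq_one.1 (h3.trans h1)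
    obtain ⟨c, hc, hx⟩ : ∃ c, c ∉ ({a, b} : Finset (Fin n)) ∧ (x = a ∨ x = b ∨ x = c) := by
      by_cases hx : x ∈ ({a, b} : Finset (Fin n))
      · obtain ⟨c, hc⟩ := ex {a, b} (by omega)
        exact ⟨c, hc, by simp at hx; tauto⟩
      · exact ⟨x, hx, by simp⟩
    obtain ⟨d, hd⟩ := ex {a, b, c} (Finset.card_le_three.trans (by omega))
    obtain ⟨e, he⟩ := ex {a, b, c, d} Finset.card_le_four
    simp only [Finset.mem_insert, Finset.mem_singleton, not_or] at hc hd he
    obtain ⟨c1, c2⟩ := hc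
    obtain ⟨d1, d2, d3⟩ := hd
    obtain ⟨e1, e2, e3, e4⟩ := he
    have h5 := h4 (swap a b * swap c d) (Subgroup.mul_mem _
      (CA.PartStab.swap_mem (by simp)) (CA.PartStab.swap_mem (by simp [*])))
      (by rw [Perm.sign_mul, sign_swap hba.symm, sign_swap (Ne.symm d3)]; rfl) x e
    have h6 : (swap a b * swap c d) e = e := by simp [swap_apply_of_ne_of_ne, *]
    have h7 : (swap a b * swap c d) x ≠ x := by
      rcases hx with rfl | rfl | rfl
      · simp [swap_apply_of_ne_of_ne, Ne.symm c1, Ne.symm d1, hba]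
      · simp [swap_apply_of_ne_of_ne, Ne.symm c2, Ne.symm d2, hba.symm]
      · simp [swap_apply_of_ne_of_ne, d1, d2, d3]
    have h8 : e ≠ x := by rcases hx with rfl | rfl | rfl <;> assumption
    rw [h6] at h5
    simp only [Finset.mem_singleton, h7, h8] at h5
    tauto
  · obtain ⟨B', h3, h4⟩ := key (CA.PartStab.P (![0, 0, 0, 1, 1, 1, 2] : Fin 7 → Fin 3))
      fun p hp hd => by
        have h5 : p ≤ 3 := (prime_P _ (by decide) hp hd).elim (by simp) fun ⟨i, hi⟩ =>
          hi.trans (by clear hi; revert i; decide)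
        have := hp.two_le
        exact (h2 p hp (by omega)).2 (by omega)
    have h5 := h4 (swap 0 1 * swap 0 2) (CA.PartStab.mem_P.2 (by decide)) (by decide)
    have h6 := h4 (swap 3 4 * swap 3 5) (CA.PartStab.mem_P.2 (by decide)) (by decide)
    have h7 := h4 (swap 0 1 * swap 0 3 * swap 1 4 * swap 2 5) (CA.PartStab.mem_P.2 (by decide))
      (by decide)
    rw [h1] at h3
    clear h4 key
    revert B'
    decide +kernel
  · obtain ⟨B', h3, h4⟩ := key (CA.PartStab.P (![0, 0, 0, 1, 1, 1, 2, 2] : Fin 8 → Fin 3))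
      fun p hp hd => by
        have h5 : p ≤ 3 := (prime_P _ (by decide) hp hd).elim (by simp) fun ⟨i, hi⟩ =>
          hi.trans (by clear hi; revert i; decide)
        have := hp.two_le
        exact (h2 p hp (by omega)).2 (by omega)
    have h5 := h4 (swap 0 1 * swap 0 2) (CA.PartStab.mem_P.2 (by decide)) (by decide)
    have h6 := h4 (swap 3 4 * swap 3 5) (CA.PartStab.mem_P.2 (by decide)) (by decide)
    have h7 := h4 (swap 0 1 * swap 6 7) (CA.PartStab.mem_P.2 (by decide)) (by decide)
    rw [h1] at h3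
    clear h4 key
    revert B'
    decide +kernel

end Cfsg.Agent.S2534
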