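import Cfsg.Statements.S2535
import Cfsg.Agent.Lib.Perm.HallSn5

set_option autoImplicit false
open Cfsg

namespace Cfsg.Agent.S2535

open CA.HallSn

/-- For every `n` and every set of primes `π`, the following are equivalent for the symmetric group `S` of degree `n` and its alternating subgroup `A`: `S` has a Hall `π`-subgroup; `S` has a Hall `π`-subgroup and all of them are conjugate; `A` has a Hall `π`-subgroup; `A` has a Hall `π`-subgroup and all of them are conjugate. -/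
theorem result (n : ℕ) (π : Set ℕ) :
    (Cfsg.IsEPiGroup π (Equiv.Perm (Fin n)) ↔ Cfsg.IsCPiGroup π (Equiv.Perm (Fin n))) ∧
    (Cfsg.IsEPiGroup π (Equiv.Perm (Fin n)) ↔ Cfsg.IsEPiGroup π ↥(alternatingGroup (Fin n))) ∧
    (Cfsg.IsEPiGroup π ↥(alternatingGroup (Fin n)) ↔ Cfsg.IsCPiGroup π ↥(alternatingGroup (Fin n))) := by
  by_cases hN : NT π (Fintype.card (Fin n))
  · refine ⟨⟨fun h => ⟨h, fun H K hH hK => ?_⟩, fun h => h.1⟩,
      ⟨fun ⟨M, hM⟩ => ⟨_, hall_sub hM _⟩, fun ⟨M, hM⟩ => ?_⟩,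
      ⟨fun h => ⟨h, fun H K hH hK => ?_⟩, fun h => h.1⟩⟩
    · obtain ⟨B, h1, rfl⟩ := perm_hall hN hH
      obtain ⟨B', h2, rfl⟩ := perm_hall hN hK
      obtain ⟨g, -, hg⟩ := exists_conj_W (h1.uniq h2) (h1.bd hN.five)
      exact ⟨g, hg⟩
    · obtain ⟨B, h1, -⟩ := alt_hall hN hM
      exact ⟨_, W_hall hN.five h1⟩
    · obtain ⟨B, h1, rfl⟩ := alt_hall hN hH
      obtain ⟨B', h2, rfl⟩ := alt_hall hN hK
      obtain ⟨g, hgA, hg⟩ := exists_conj_W (h1.uniq h2) (h1.bd hN.five)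
      refine ⟨⟨g, hgA⟩, ?_⟩
      ext x
      rw [mem_cj, Subgroup.mem_subgroupOf, Subgroup.mem_subgroupOf, hg, mem_cj]
      rfl
  · exact ⟨iff_of_true (DS_perm hN).E (DS_perm hN).C, iff_of_true (DS_perm hN).E (DS_alt hN).E,
      iff_of_true (DS_alt hN).E (DS_alt hN).C⟩

end Cfsg.Agent.S2535
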