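import Cfsg.Statements.S2537
import Cfsg.Agent.Lib.Lin.PSL2Sub
import Cfsg.Agent.Lib.Grp.H1Hall

set_option autoImplicit false
open Cfsg

namespace Cfsg.Agent.S2537

open CA.PSL2Sub CA.PSL2Struct CA.SL2Torus CA.Mat2 CA.SL2Unip
open scoped MatrixGroups

theorem fac {q M I a b : ℕ} (h2 : ¬ 2 ∣ q) (h3 : ¬ 3 ∣ q) (hM : M ≠ 0) (h : 2 ^ a * 3 ^ b * I = q * M) :
    (¬ 2 ∣ I ∧ ¬ 3 ∣ I) ↔ 2 ^ M.factorization 2 * 3 ^ M.factorization 3 = 2 ^ a * 3 ^ b := by
  have hq : q ≠ 0 := by rintro rfl; simp at h2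
  have hI : I ≠ 0 := by rintro rfl; simp [hq, hM] at h
  have e : ∀ x y : ℕ, (2 ^ x * 3 ^ y).factorization 2 = x ∧ (2 ^ x * 3 ^ y).factorization 3 = y := fun x y => by
    simp [Nat.factorization_mul, Nat.prime_two.factorization, Nat.prime_three.factorization]
  have h1 := congrArg Nat.factorization h
  rw [Nat.factorization_mul (by positivity) hI, Nat.factorization_mul hq hM] at h1
  have a2 := DFunLike.congr_fun h1 2
  have a3 := DFunLike.congr_fun h1 3
  simp only [Finsupp.add_apply, e, Nat.factorization_eq_zero_of_not_dvd h2, Nat.factorization_eq_zero_of_not_dvd h3] at a2 a3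
  rw [Nat.prime_two.dvd_iff_one_le_factorization hI, Nat.prime_three.dvd_iff_one_le_factorization hI]
  refine ⟨fun h => by congr 2 <;> omega, fun h => ?_⟩
  have b2 := (e _ _).1.symm.trans ((congrArg (·.factorization 2) h).trans (e _ _).1)
  have b3 := (e _ _).2.symm.trans ((congrArg (·.factorization 3) h).trans (e _ _).2)
  omega

theorem hall_iff {G : Type*} [Group G] {H : Subgroup G} : IsPiHall ({2, 3} : Set ℕ) H ↔
    (∀ r : ℕ, r.Prime → r ∣ Nat.card H → r = 2 ∨ r = 3) ∧ ¬ 2 ∣ H.index ∧ ¬ 3 ∣ H.index := by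
  simp only [IsPiHall, Set.mem_insert_iff, Set.mem_singleton_iff]
  exact and_congr_right' ⟨fun h => ⟨h 2 Nat.prime_two (.inl rfl), h 3 Nat.prime_three (.inr rfl)⟩,
    by rintro h _ - (rfl | rfl); exacts [h.1, h.2]⟩

/-- Let `F` be a finite field with `q` elements of characteristic `p ≥ 5`, and `ε = 1` if `q ≡ 1 (mod 4)`, `ε = -1` otherwise. Then `PSL(2, F)` has a Hall `{2, 3}`-subgroup if and only if `3` divides `q − ε`, or the `{2,3}`-part of `q² − 1` is 24, or the `{2,3}`-part of `q² − 1` is 48 (the `{2,3}`-part of `m` being the largest divisor of `m` with no prime factor other than 2 and 3). -/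
theorem result {F : Type*} [Field F] [Fintype F] {p : ℕ} [Fact p.Prime] [CharP F p]
    (hp : 5 ≤ p) (q : ℕ) (hq : Fintype.card F = q) :
    (∃ H : Subgroup (Matrix.ProjectiveSpecialLinearGroup (Fin 2) F), Cfsg.IsPiHall ({2, 3} : Set ℕ) H) ↔
      (3 ∣ q - 1 ∧ q % 4 = 1) ∨ (3 ∣ q + 1 ∧ q % 4 = 3) ∨
        2 ^ (q ^ 2 - 1).factorization 2 * 3 ^ (q ^ 2 - 1).factorization 3 = 24 ∨
        2 ^ (q ^ 2 - 1).factorization 2 * 3 ^ (q ^ 2 - 1).factorization 3 = 48 := by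
  have hc := Nat.card_eq_fintype_card.trans hq
  obtain ⟨n, hn, hpn⟩ := exists_card_eq_pow (F := F) p
  have hr : ∀ r, r.Prime → r ∣ q → r = p := fun r hr h =>
    (Nat.prime_dvd_prime_iff_eq hr Fact.out).1 (hr.dvd_of_dvd_pow (hpn ▸ hc ▸ h))
  have q2 : ¬ 2 ∣ q := fun h => by have := hr 2 Nat.prime_two h; omega
  have q3 : ¬ 3 ∣ q := fun h => by have := hr 3 Nat.prime_three h; omega
  have pq : p ∣ q := hc ▸ hpn ▸ dvd_pow_self p hn.ne'
  have q5 := hp.trans (Nat.le_of_dvd (hq ▸ Fintype.card_pos) pq)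
  have ho : Odd (Nat.card F) := by rw [hc, Nat.odd_iff]; omega
  have h2 := CA.SL2Basic.two_ne_zero_of_odd ho
  have hG := CA.SLnCard.card_PSL2_odd ho
  have hM : q ^ 2 - 1 ≠ 0 := by have := Nat.pow_le_pow_left q5 2; omega
  rw [hc] at hG
  have hI : ∀ H : Subgroup PSL(2, F), 2 * Nat.card H * H.index = q * (q ^ 2 - 1) := fun H => by
    rw [mul_assoc, H.card_mul_index, hG]
  have hD : ∀ g : SL(2, F), SS g → Nat.card (Db g) = Nat.card (C g) := fun g hg => by
    rw [card_Db hg, ← card_Tb g, dd_odd h2]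
  constructor
  · rintro ⟨H, hH⟩
    obtain ⟨k1, k2, k3⟩ := hall_iff.1 hH
    have h12 : 12 ∣ Nat.card H := by
      have : 24 ∣ q ^ 2 - 1 := by
        have : q ^ 2 % 24 = 1 := by
          rw [Nat.pow_mod]
          exact (by decide : ∀ r < 24, r % 2 ≠ 0 → r % 3 ≠ 0 → r ^ 2 % 24 = 1) _ (Nat.mod_lt _ (by norm_num)) (by omega) (by omega)
        omega
      have := Nat.Coprime.dvd_of_dvd_mul_right (k := 24) (((Nat.prime_two.coprime_iff_not_dvd.2 k2).pow_left 3).mul_left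
        (Nat.prime_three.coprime_iff_not_dvd.2 k3)) (hI H ▸ this.mul_left q)
      omega
    have dih : ∀ g : SL(2, F), SS g → H ≤ Db g → (3 ∣ q - 1 ∧ q % 4 = 1) ∨ (3 ∣ q + 1 ∧ q % 4 = 3) := fun g hg hle => by
      have := h12.trans (Subgroup.card_dvd_of_le hle)
      rw [hD g hg] at this
      rcases hg.card_C with h | h <;> rw [h, hc] at this <;> omega
    have np : ¬ p ∣ Nat.card H := fun h => by have := k1 p Fact.out h; omega
    rcases dickson_PSL H with ⟨a, b⟩ | ⟨a, -⟩ | ⟨m, a, b, ⟨e⟩⟩ | ⟨-, ⟨e⟩⟩ | ⟨-, ⟨e⟩⟩ | ⟨-, ⟨e⟩⟩ | ⟨K, _, _, m, a, b, c, d⟩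
    · obtain ⟨g, hg, h⟩ := le_Tb_of_cyclic a b
      exact (dih g hg (h.trans (Tb_le_Db g))).imp_right .inl
    · exact (np ((CharP.cast_eq_zero_iff F p _).1 a)).elim
    · obtain ⟨g, hg, -, -, h⟩ := le_Db_of_dihedral a b e
      exact (dih g hg h).imp_right .inl
    · have := hI H
      rw [Nat.card_congr e.toEquiv, card_A4] at this
      exact .inr (.inr (.inl ((fac (a := 3) (b := 1) q2 q3 hM this).1 ⟨k2, k3⟩)))
    · have := hI H
      rw [Nat.card_congr e.toEquiv, card_S4] at this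
      exact .inr (.inr (.inr ((fac (a := 4) (b := 1) q2 q3 hM this).1 ⟨k2, k3⟩)))
    · have := k1 5 (by norm_num) (by rw [Nat.card_congr e.toEquiv, card_A5]; norm_num); omega
    · have pK : p ∣ Nat.card K := (Fact.out : p.Prime).dvd_of_dvd_pow (c ▸ hc ▸ pq)
      refine (np ?_).elim
      rcases d with ⟨⟨e⟩⟩ | ⟨d, ⟨e⟩⟩ <;> rw [Nat.card_congr e.toEquiv]
      · rw [CA.SLnCard.card_PGL2]; exact pK.mul_right _
      · refine (Nat.Coprime.dvd_mul_left ((Nat.coprime_primes Fact.out Nat.prime_two).2 (by omega))).1 ?_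
        rw [CA.SLnCard.card_PSL2_odd d]; exact pK.mul_right _
  have dih : ∀ g : SL(2, F), SS g → ¬ 2 ∣ (Db g).index → ¬ 3 ∣ (Db g).index →
      ∃ H : Subgroup PSL(2, F), IsPiHall {2, 3} H := fun g hg a b => by
    have := isSolvable_Db hg
    obtain ⟨H, -, h1, h3, h4⟩ := CA.H1Hall.exists_hall_ge_in {2, 3} (Db g) ⊥ bot_le (by simp +contextual [Nat.Prime.ne_one])
    refine ⟨H, h3, fun r hr hm h => ?_⟩
    rw [← Subgroup.relIndex_mul_index h1, hr.dvd_mul] at h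
    refine h4 r hr hm (h.resolve_right ?_)
    rcases hm with rfl | rfl <;> assumption
  have sub : ∀ {Γ : Type} [Group Γ] (a : ℕ), (∃ φ : Γ →* PSL(2, F), Function.Injective φ) → 2 * Nat.card Γ = 2 ^ a * 3 ^ 1 →
      2 ^ (q ^ 2 - 1).factorization 2 * 3 ^ (q ^ 2 - 1).factorization 3 = 2 ^ a * 3 ^ 1 →
      ∃ H : Subgroup PSL(2, F), IsPiHall {2, 3} H := fun a h h1 h3 => by
    obtain ⟨H, ⟨e⟩⟩ := exists_sub_iff.2 h
    rw [← Nat.card_congr e.toEquiv] at h1
    refine ⟨H, hall_iff.2 ⟨fun r hr h => ?_, (fac q2 q3 hM (h1 ▸ hI H)).2 h3⟩⟩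
    exact (hr.dvd_mul.1 (h1 ▸ h.mul_left 2)).imp (fun h => (Nat.prime_dvd_prime_iff_eq hr Nat.prime_two).1 (hr.dvd_of_dvd_pow h))
      fun h => (Nat.prime_dvd_prime_iff_eq hr Nat.prime_three).1 (hr.dvd_of_dvd_pow h)
  rintro (⟨a, b⟩ | ⟨a, b⟩ | a | a)
  · obtain ⟨g, hg⟩ := exists_split_SL F (by omega)
    have := hI (Db g)
    rw [hD g (.of_split hg), card_C_split hg, hc, CA.SLnCard.sq_sub_one, mul_right_comm, ← mul_assoc,
      Nat.mul_left_inj (by omega)] at this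
    obtain ⟨k, rfl⟩ : ∃ k, q = 12 * k + 1 := ⟨q / 12, by omega⟩
    refine dih g (.of_split hg) ?_ ?_ <;> rw [show (Db g).index = 6 * (12 * k ^ 2 + 3 * k) + 1 by linarith] <;> omega
  · obtain ⟨g, hg⟩ := exists_aniso_SL F
    have := hI (Db g)
    rw [hD g (.of_aniso hg), card_C_aniso hg, hc, CA.SLnCard.sq_sub_one, mul_comm (q + 1), mul_right_comm, ← mul_assoc,
      Nat.mul_left_inj (by omega)] at this
    obtain ⟨k, rfl⟩ : ∃ k, q = 12 * k + 11 := ⟨q / 12, by omega⟩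
    rw [show 12 * k + 11 - 1 = 12 * k + 10 by omega] at this
    refine dih g (.of_aniso hg) ?_ ?_ <;> rw [show (Db g).index = 6 * (12 * k ^ 2 + 21 * k + 9) + 1 by linarith] <;> omega
  · exact sub 3 (exists_A4 fun h => (h2 h).elim) (by rw [card_A4]; rfl) a
  · refine sub 4 (exists_S4 h2 (FiniteField.isSquare_two_iff.2 ?_)) (by rw [card_S4]; rfl) a
    have h16 : 2 ^ 4 ∣ q ^ 2 - 1 := (Nat.prime_two.pow_dvd_iff_le_factorization hM).2 (by
      have := congrArg (·.factorization 2) a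
      simp [Nat.factorization_mul, Nat.prime_three.factorization, show 48 = 2 ^ 4 * 3 from rfl, -Nat.reducePow, -Nat.reduceMul,
        Nat.prime_two.factorization] at this
      omega)
    rw [hq]
    have : q ^ 2 % 16 = 1 := by omega
    rw [Nat.pow_mod] at this
    rw [← Nat.mod_mod_of_dvd q (show 8 ∣ 16 by norm_num)]
    exact (by decide : ∀ r < 16, r ^ 2 % 16 = 1 → r % 8 ≠ 3 ∧ r % 8 ≠ 5) _ (Nat.mod_lt _ (by norm_num)) this

end Cfsg.Agent.S2537
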