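import Cfsg.Statements.S2538
import Cfsg.Agent.Lib.Perm.HallSn5

set_option autoImplicit false
open Cfsg

namespace Cfsg.Agent.S2538

open CA.HallSn

/-- For every `n` and every set of primes `π`, a subgroup of the alternating group of degree `n` is a Hall `π`-subgroup of it if and only if it is the intersection with the alternating group of some Hall `π`-subgroup of the symmetric group of degree `n`. -/
theorem result (n : ℕ) (π : Set ℕ)
    (M : Subgroup ↥(alternatingGroup (Fin n))) :
    Cfsg.IsPiHall π M ↔ ∃ M₀ : Subgroup (Equiv.Perm (Fin n)), Cfsg.IsPiHall π M₀ ∧ M = M₀.subgroupOf (alternatingGroup (Fin n)) := by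
  refine ⟨fun hM => ?_, by rintro ⟨M₀, h, rfl⟩; exact hall_sub h _⟩
  by_cases hN : NT π (Fintype.card (Fin n))
  · obtain ⟨B, h1, h2⟩ := alt_hall hN hM
    exact ⟨_, W_hall hN.five h1, h2⟩
  · obtain ⟨H, hH, h⟩ := DS_perm hN
    obtain ⟨g, hg⟩ := h _ (hallOf_iff.2 hM).2.1
    exact ⟨_, hall_cj hH g, hall_eq hM (hall_sub (hall_cj hH g) _) fun x hx => hg ⟨x, hx, rfl⟩⟩

end Cfsg.Agent.S2538
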