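import Cfsg.Statements.S2540
import Cfsg.Agent.Lib.Lin.SLnCard
import Cfsg.Agent.Lib.Lin.SLnGen

set_option autoImplicit false
open Cfsg

namespace Cfsg.Agent.S2540

/-- Let F be a finite field and n ≥ 1, excluding the case n = 2 with #F ≤ 3. A subgroup of GL_n(F) that is normalized by every element of SL_n(F) either consists of scalar matrices or contains SL_n(F). -/
theorem result {F : Type*} [Field F] [Fintype F] (n : ℕ) (hn : 1 ≤ n) (hex : ¬ (n = 2 ∧ Fintype.card F ≤ 3)) (G : Subgroup (Matrix.GeneralLinearGroup (Fin n) F)) (hG : ∀ s : Matrix.SpecialLinearGroup (Fin n) F, ∀ g ∈ G, (Matrix.SpecialLinearGroup.toGL s) * g * (Matrix.SpecialLinearGroup.toGL s)⁻¹ ∈ G) : (∀ g ∈ G, ∃ c : F, (g : Matrix (Fin n) (Fin n) F) = c • (1 : Matrix (Fin n) (Fin n) F)) ∨ (Matrix.SpecialLinearGroup.toGL : Matrix.SpecialLinearGroup (Fin n) F →* _).range ≤ G := by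
  open Matrix Matrix.SpecialLinearGroup in
  by_cases h1 : n = 1
  · subst h1
    refine Or.inl fun g _ => ⟨g.1 0 0, ?_⟩
    ext i j
    simp [Subsingleton.elim i 0, Subsingleton.elim j 0]
  have h : 3 ≤ Fintype.card (Fin n) ∨ ∃ a : F, a ≠ 0 ∧ a ^ 2 ≠ 1 := by
    by_cases h3 : 3 ≤ n
    · exact Or.inl (by simpa using h3)
    · refine Or.inr (CA.SLnGen.exists_sq_ne_one ?_)
      rw [Nat.card_eq_fintype_card]
      omega
  have hN : (G.comap (toGL : SpecialLinearGroup (Fin n) F →* _)).Normal :=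
    ⟨fun x hx s => by simpa using hG s _ hx⟩
  rcases CA.SLnGen.normal_le_center_or_eq_top h (G.comap (toGL : SpecialLinearGroup (Fin n) F →* _))
    with h2 | h2
  · refine Or.inl fun g hg => ?_
    have hc : ∀ s : SpecialLinearGroup (Fin n) F, toGL s * g * (toGL s)⁻¹ * g⁻¹ ∈
        Subgroup.center (GL (Fin n) F) := by
      intro s
      have : toGL s * g * (toGL s)⁻¹ * g⁻¹ ∈ (GeneralLinearGroup.det : GL (Fin n) F →* Fˣ).ker := by
        simp [MonoidHom.mem_ker]
      rw [← CA.SLnCard.toGL_range] at this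
      obtain ⟨t, ht⟩ := this
      rw [← ht, toGL_mem_center_iff]
      refine h2 ?_
      rw [Subgroup.mem_comap, ht]
      exact G.mul_mem (hG s g hg) (G.inv_mem hg)
    let f : SpecialLinearGroup (Fin n) F →* Subgroup.center (GL (Fin n) F) :=
      MonoidHom.mk' (fun s => ⟨_, hc s⟩) fun s t => Subtype.ext (by
        have := Subgroup.mem_center_iff.1 (hc t) (toGL s)
        have h3 := Subgroup.mem_center_iff.1 (hc t) (toGL s * g * (toGL s)⁻¹ * g⁻¹)
        simp only [map_mul, Subgroup.coe_mul, h3]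
        calc _ = toGL s * (toGL t * g * (toGL t)⁻¹ * g⁻¹) * (g * (toGL s)⁻¹ * g⁻¹) := by group
          _ = _ := by rw [this]; group)
    have h4 : ∀ s, s ∈ f.ker := fun s => by
      have : commutator _ ≤ f.ker := by
        rw [commutator, Subgroup.commutator_le]
        intro a _ b _
        rw [MonoidHom.mem_ker, map_commutatorElement, commutatorElement_eq_one_iff_mul_comm]
        exact Subtype.ext (Subgroup.mem_center_iff.1 (f b).2 _)
      exact this (by rw [CA.SLnGen.commutator_eq_top h]; trivial)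
    have h5 : ∀ s : SpecialLinearGroup (Fin n) F, s.1 * g.1 = g.1 * s.1 := fun s => by
      have h6 : toGL s * g * (toGL s)⁻¹ * g⁻¹ = 1 := congrArg Subtype.val (MonoidHom.mem_ker.1 (h4 s))
      rw [mul_inv_eq_one, mul_inv_eq_iff_eq_mul] at h6
      exact congrArg Units.val h6
    obtain ⟨c, hc⟩ := mem_range_scalar_of_commute_transvectionStruct (M := g.1)
      fun t => h5 t.toSpecialLinearGroup
    exact ⟨c, by rw [← hc, scalar_apply, smul_one_eq_diagonal]⟩
  · right
    rintro _ ⟨s, rfl⟩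
    exact (h2.ge (Subgroup.mem_top s) : _)

end Cfsg.Agent.S2540
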