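import Cfsg.Statements.S2541
import Cfsg.Agent.Lib.Lin.PGL2Act

set_option autoImplicit false
open Cfsg

namespace Cfsg.Agent.S2541

/-- Let F be a field with 9 elements. The symmetric group S_6 is not isomorphic to PGL_2(F) (although both have index-2 subgroups isomorphic to A_6). -/
theorem result {F : Type*} [Field F] [Fintype F] (hF : Fintype.card F = 9) : ¬ Nonempty (Equiv.Perm (Fin 6) ≃* Matrix.ProjGenLinGroup (Fin 2) F) := by
  classical
  rintro ⟨e⟩
  obtain ⟨a, ha⟩ := IsCyclic.exists_ofOrder_eq_natCard (α := Fˣ)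
  rw [Nat.card_units, Nat.card_eq_fintype_card, hF] at ha
  have h1 : ∀ n : ℕ, CA.PGL2Act.A a (0 : F) ^ n = CA.PGL2Act.A (a ^ n) 0 := fun n => by
    induction n with
    | zero => simp [CA.PGL2Act.A_one]
    | succ n ih => rw [pow_succ, ih, CA.PGL2Act.A_mul, pow_succ]; simp
  have h2 : ∀ σ : Equiv.Perm (Fin 6), σ ^ 60 = 1 := fun σ => by
    rw [← orderOf_dvd_iff_pow_eq_one, ← Equiv.Perm.lcm_cycleType, Multiset.lcm_dvd]
    intro n hn
    have h3 := (Multiset.le_sum_of_mem hn).trans σ.sum_cycleType_le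
    have h4 := Equiv.Perm.two_le_of_mem_cycleType hn
    rw [Fintype.card_fin] at h3
    interval_cases n <;> norm_num
  have h := h2 (e.symm (CA.PGL2Act.A a 0))
  rw [← map_pow, map_eq_one_iff _ e.symm.injective, h1, CA.PGL2Act.A_eq_one_iff] at h
  exact absurd (ha ▸ orderOf_dvd_of_pow_eq_one h.1) (by decide)

end Cfsg.Agent.S2541
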