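import Cfsg.Statements.S2542
import Cfsg.Agent.S0675
import Cfsg.Agent.Lib.Lin.PSL2Sub
import Cfsg.Agent.Lib.Lin.SLnGen

set_option autoImplicit false
open Cfsg

namespace Cfsg.Agent.S2542

open CA.PSL2Sub CA.PSL2Struct MulAction

theorem two_trans {G : Type*} [Group G] [Finite G] [IsSimpleGroup G] (hG : ¬ Group.IsSolvable G) (H : Subgroup G)
    (h : H.index.Prime) : IsMultiplyPretransitive G (G ⧸ H) 2 := by
  classical
  have := Fintype.ofFinite (G ⧸ H)
  let φ := toPermHom G (G ⧸ H)
  have : IsPretransitive φ.range (G ⧸ H) := ⟨fun x y => by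
    obtain ⟨g, hg⟩ := exists_smul_eq G x y
    exact ⟨⟨φ g, g, rfl⟩, hg⟩⟩
  rcases Cfsg.Agent.S0675.result (by rwa [← Nat.card_eq_fintype_card]) φ.range with h1 | h1
  · refine (hG (solvable_of_solvable_injective (f := φ.rangeRestrict) (φ.rangeRestrict_injective_iff.2 ?_))).elim
    rw [← MonoidHom.ker_eq_bot_iff, ← Subgroup.normalCore_eq_ker]
    refine (H.normalCore_normal.eq_bot_or_eq_top).resolve_right fun e => h.ne_one ?_
    exact Subgroup.index_eq_one.2 (top_unique (e ▸ H.normalCore_le))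
  · refine ⟨fun x y => ?_⟩
    obtain ⟨⟨_, g, rfl⟩, hg⟩ := h1.exists_smul_eq x y
    exact ⟨g, by ext i; exact DFunLike.congr_fun hg i⟩

/-- Let F be a field with 11 elements. PSL_2(F) has a subgroup H of index 11 isomorphic to the alternating group A_5, and the action of PSL_2(F) on the cosets of H is 2-transitive (of degree 11). -/
theorem result {F : Type*} [Field F] [Fintype F] (hF : Fintype.card F = 11) : ∃ H : Subgroup (Matrix.ProjectiveSpecialLinearGroup (Fin 2) F), H.index = 11 ∧ Nonempty (H ≃* alternatingGroup (Fin 5)) ∧ MulAction.IsMultiplyPretransitive (Matrix.ProjectiveSpecialLinearGroup (Fin 2) F) ((Matrix.ProjectiveSpecialLinearGroup (Fin 2) F) ⧸ H) 2 := by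
  have hc := Nat.card_eq_fintype_card.trans hF
  obtain ⟨H, ⟨e⟩⟩ := exists_sub_iff.2 (exists_A5 (F := F) (by rw [hc]; decide))
  have h1 := CA.SLnCard.card_PSL2_odd (F := F) (by rw [hc]; decide)
  have h2 := H.index_mul_card
  rw [Nat.card_congr e.toEquiv, card_A5] at h2
  rw [hc] at h1
  have h3 : H.index = 11 := by omega
  have := CA.SLnGen.isSimpleGroup_PSL (ι := Fin 2) (F := F) (.inr (CA.SLnGen.exists_sq_ne_one (by omega)))
  refine ⟨H, h3, ⟨e⟩, two_trans (fun h => ?_) H (by rw [h3]; norm_num)⟩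
  have := solvable_of_surjective (f := e.toMonoidHom) e.surjective
  have := IsSimpleGroup.comm_iff_isSolvable.2 this CA.TriPres.a5 CA.TriPres.b5
  revert this; decide

end Cfsg.Agent.S2542
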