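import Cfsg.Statements.S2543
import Cfsg.Agent.S0253
import Cfsg.Agent.Lib.Lin.PSL2Sub
import Cfsg.Agent.Lib.Lin.PSL2Four
import Cfsg.Agent.Lib.Lin.SLnGen

set_option autoImplicit false
open scoped Pointwise
open Cfsg

namespace Cfsg.Agent.S2543

open CA.PSL2Sub CA.PSL2Struct CA.PSL2Four CA.Mat2 CA.SL2Torus CA.SL2Unip CA.SL2Embed CA.TriPres MulAction Matrix
open scoped MatrixGroups

abbrev T (G : Type*) [Group G] := {p : G × G // p.1 ≠ 1 ∧ p.1 ^ 2 = 1 ∧ p.2 ^ 3 = 1 ∧ (p.1 * p.2) ^ 5 = 1}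

theorem card_T {G H : Type*} [Group G] [Group H] (e : G ≃* H) : Nat.card (T G) = Nat.card (T H) :=
  Nat.card_congr (Equiv.subtypeEquiv (e.toEquiv.prodCongr e.toEquiv) fun p => by
    simp [← map_mul, ← map_pow])

variable {F : Type*} [Field F] [Finite F]

omit [Finite F] in
theorem cond (Y : SL(2, F)) : (pr F Y ^ 3 = 1 ∧ (pr F w0 * pr F Y) ^ 5 = 1) ↔
    Y.1.trace ^ 2 - 1 = 0 ∧ (w0 * Y).1.trace ^ 4 - 3 * (w0 * Y).1.trace ^ 2 + 1 = 0 := by
  have a : ∀ Z : SL(2, F), pr F Z = 1 ↔ ¬ NS Z.1 := fun Z => by rw [← pr_ne_one_iff, not_not]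
  rw [← map_mul, ← map_pow, ← map_pow, a, a, pow_three_coe, pow_five_coe]
  refine ⟨fun ⟨h1, h2⟩ => ?_, fun ⟨h1, h2⟩ => by
    rw [h1, h2, lin_zero_right, lin_zero_right, not_NS_iff, not_NS_iff]; exact ⟨⟨_, rfl⟩, _, rfl⟩⟩
  have b := pr_w0_sq (F := F)
  rw [← pow_three_coe, ← a, map_pow] at h1
  rw [← pow_five_coe, ← a, map_pow, map_mul] at h2
  have n1 : pr F Y ≠ 1 := fun h => pr_w0_ne_one (F := F) (by
    rw [h, mul_one, show 5 = 2 * 2 + 1 from rfl, pow_succ, pow_mul, b] at h2; simpa using h2)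
  have n2 : pr F (w0 * Y) ≠ 1 := fun h => pr_w0_ne_one (F := F) (by
    rw [map_mul, mul_eq_one_iff_inv_eq] at h
    rw [← h, inv_pow, inv_eq_one, pow_succ, b] at h1; simpa using h1)
  rw [← map_pow, a, pow_three_coe, (pr_ne_one_iff.1 n1).lin_iff, not_not] at h1
  rw [← map_mul, ← map_pow, a, pow_five_coe, (pr_ne_one_iff.1 n2).lin_iff, not_not] at h2
  exact ⟨h1, h2⟩

theorem count (h2 : (2 : F) ≠ 0) : 2 * Nat.card (T PSL(2, F)) = Nat.card {a : PSL(2, F) // a ≠ 1 ∧ a * a = 1} *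
    Nat.card {z : F × F × F × F // z.1 * z.2.2.2 - z.2.1 * z.2.2.1 = 1 ∧ (z.1 + z.2.2.2) ^ 2 - 1 = 0 ∧
      (z.2.2.1 - z.2.1) ^ 4 - 3 * (z.2.2.1 - z.2.1) ^ 2 + 1 = 0} := by
  have h1 := card_eq_mul_of_fibers (fun p : T PSL(2, F) => (⟨p.1.1, p.2.1, sq p.1.1 ▸ p.2.2.1⟩ : {a : PSL(2, F) // a ≠ 1 ∧ a * a = 1}))
    (Nat.card {y : PSL(2, F) // y ^ 3 = 1 ∧ (pr F w0 * y) ^ 5 = 1}) fun a => by
      obtain ⟨c, hc⟩ := isConj_iff.1 (isConj_involution a.2.1 a.2.2 pr_w0_ne_one (sq (pr F w0) ▸ pr_w0_sq))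
      refine Nat.card_congr ⟨fun p => ⟨c * p.1.1.2 * c⁻¹, by rw [conj_pow, p.1.2.2.2.1]; simp, by
        rw [← hc, ← show p.1.1.1 = a from congrArg Subtype.val p.2, conj_mul, conj_pow, p.1.2.2.2.2]; simp⟩,
        fun y => ⟨⟨(a, c⁻¹ * y * c), a.2.1, (sq _).trans a.2.2, ?_, ?_⟩, rfl⟩, ?_, fun y => Subtype.ext (by simp [mul_assoc])⟩
      · simpa [y.2.1] using conj_pow (i := 3) (a := c⁻¹) (b := y.1)
      · have := conj_pow (i := 5) (a := c⁻¹) (b := pr F w0 * y.1)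
        rw [y.2.2, show c⁻¹ * (pr F w0 * y.1) * c⁻¹⁻¹ = a * (c⁻¹ * y * c) by generalize y.1 = z; rw [← hc]; group] at this
        simpa using this
      · rintro ⟨⟨⟨x, y⟩, h⟩, rfl⟩; simp [mul_assoc]
  have h3 := card_eq_mul_of_fibers (fun Y : {Y : SL(2, F) // pr F Y ^ 3 = 1 ∧ (pr F w0 * pr F Y) ^ 5 = 1} =>
    (⟨pr F Y, Y.2⟩ : {y : PSL(2, F) // y ^ 3 = 1 ∧ (pr F w0 * y) ^ 5 = 1})) 2 fun ⟨y, hy⟩ => by
      obtain ⟨Y, rfl⟩ := pr_surj y
      have e : pr F (-Y) = pr F Y := pr_eq_iff.2 (.inr rfl)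
      refine Nat.card_eq_two_iff.2 ⟨⟨⟨Y, hy⟩, rfl⟩, ⟨⟨-Y, e ▸ hy⟩, Subtype.ext e⟩, fun h => ?_, Set.eq_univ_of_forall ?_⟩
      · have : Y = -Y := congrArg (·.1.1) h
        exact CA.SL2Basic.neg_one_ne_one h2 (mul_left_cancel (a := Y) (by simpa using this.symm))
      · rintro ⟨⟨Z, hZ⟩, h⟩
        rcases pr_eq_iff.1 (congrArg Subtype.val h) with rfl | rfl
        exacts [.inl rfl, .inr rfl]
  rw [h1, mul_left_comm, mul_comm 2, ← h3]
  congr 1
  refine Nat.card_congr ⟨fun Y => ⟨(Y.1.1 0 0, Y.1.1 0 1, Y.1.1 1 0, Y.1.1 1 1), CA.SL2Basic.det_eq _, ?_⟩,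
    fun z => ⟨mk2 _ _ _ _ z.2.1, (cond _).2 ?_⟩, fun Y => Subtype.ext (sl_ext4 rfl rfl rfl rfl), fun z => rfl⟩
  · have := (cond _).1 Y.2
    simp only [trace_fin_two, sl_mul_apply] at this
    simpa [w0, mk2, sub_eq_add_neg] using this
  · simpa [w0, mk2_mul, trace_mk2, sub_eq_add_neg] using z.2.2

theorem inv_count (h : Nat.card F = 5 ∨ Nat.card F = 11) :
    2 * Nat.card {a : PSL(2, F) // a ≠ 1 ∧ a * a = 1} = if Nat.card F = 5 then 30 else 110 := by
  have ho : Odd (Nat.card F) := by rcases h with h | h <;> rw [h] <;> decide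
  have h1 := card_involutions (CA.SL2Basic.two_ne_zero_of_odd ho)
  have h2 := CA.SLnCard.card_PSL2_odd ho
  have h3 := card_Tb_w0 (F := F)
  rcases h with h | h <;> rw [h] at h2 h3 ⊢ <;> [rw [h3.1 rfl] at h1; rw [h3.2 rfl] at h1] <;>
    [rw [if_pos rfl]; rw [if_neg (by decide)]] <;> omega

instance instFact5 : Fact (Nat.Prime 5) := ⟨by norm_num⟩
instance instFact11 : Fact (Nat.Prime 11) := ⟨by norm_num⟩

theorem T5 : Nat.card (T (alternatingGroup (Fin 5))) = 120 := by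
  obtain ⟨e⟩ := Cfsg.Agent.S0253.result (ZMod.card 5)
  have h1 := count (F := ZMod 5) (by decide)
  have h2 := inv_count (F := ZMod 5) (.inl (Nat.card_zmod 5))
  rw [Nat.card_eq_fintype_card (α := {z : _ × _ × _ × _ // _}), show Fintype.card _ = 16 by decide +kernel, card_T e] at h1
  rw [Nat.card_zmod, if_pos rfl] at h2; omega

theorem T11 : Nat.card (T PSL(2, ZMod 11)) = 2640 := by
  have h1 := count (F := ZMod 11) (by decide)
  have h2 := inv_count (F := ZMod 11) (.inr (Nat.card_zmod 11))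
  rw [Nat.card_eq_fintype_card (α := {z : _ × _ × _ × _ // _}), show Fintype.card _ = 96 by decide +kernel] at h1
  rw [Nat.card_zmod, if_neg (by decide)] at h2; omega

theorem card_sub (G : Type*) [Group G] [Finite G] :
    Nat.card (T G) = Nat.card {H : Subgroup G // Nonempty (H ≃* alternatingGroup (Fin 5))} * 120 := by
  choose φ h1 h2 h3 using fun p : T G => exists_inj_A5 p.2.2.1 p.2.2.2.1 p.2.2.2.2 p.2.1
  refine card_eq_mul_of_fibers (fun p => ⟨(φ p).range, ⟨(MonoidHom.ofInjective (h1 p)).symm⟩⟩) _ fun ⟨H, ⟨e⟩⟩ => ?_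
  rw [← T5, ← card_T e]
  have key : ∀ p : T G, p.1.1 ∈ H → p.1.2 ∈ H → (φ p).range = H := fun p m1 m2 => by
    obtain ⟨θ, t1, -⟩ := exists_inj_A5 (G := Subgroup.closure {a5, b5}) (x := ⟨a5, Subgroup.subset_closure (by simp)⟩)
      (y := ⟨b5, Subgroup.subset_closure (by simp)⟩) (Subtype.ext (by decide)) (Subtype.ext (by decide))
      (Subtype.ext (by decide)) (fun h => absurd (congrArg Subtype.val h) (by decide))
    have ht := Subgroup.eq_top_of_le_card _ (Nat.card_le_card_of_injective θ t1)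
    refine Subgroup.eq_of_le_of_card_ge ?_ ?_
    · rw [MonoidHom.range_eq_map, ← ht, MonoidHom.map_closure, Subgroup.closure_le]
      rintro _ ⟨_, rfl | rfl, rfl⟩
      exacts [(h2 p).symm ▸ m1, (h3 p).symm ▸ m2]
    · rw [Nat.card_congr e.toEquiv, Nat.card_congr (MonoidHom.ofInjective (h1 _)).toEquiv]
  have m : ∀ p : T G, (φ p).range = H → p.1.1 ∈ H ∧ p.1.2 ∈ H := by
    rintro p rfl; exact ⟨⟨_, h2 p⟩, ⟨_, h3 p⟩⟩
  exact Nat.card_congr ⟨fun p => ⟨(⟨p.1.1.1, (m _ (congrArg Subtype.val p.2)).1⟩, ⟨p.1.1.2, (m _ (congrArg Subtype.val p.2)).2⟩),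
      fun h => p.1.2.1 (congrArg Subtype.val h), Subtype.ext p.1.2.2.1, Subtype.ext p.1.2.2.2.1, Subtype.ext p.1.2.2.2.2⟩,
    fun p => ⟨⟨(p.1.1, p.1.2), fun h => p.2.1 (Subtype.ext h), congrArg Subtype.val p.2.2.1, congrArg Subtype.val p.2.2.2.1,
      congrArg Subtype.val p.2.2.2.2⟩, Subtype.ext (key _ p.1.1.2 p.1.2.2)⟩, fun _ => rfl, fun _ => rfl⟩

/-- Let F be a field with 11 elements. PSL_2(F) has exactly 22 subgroups isomorphic to the alternating group A_5, and they form two conjugacy classes: there are two such subgroups that are not conjugate, and every such subgroup is conjugate to one of these two. -/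
theorem result {F : Type*} [Field F] [Fintype F] (hF : Fintype.card F = 11) : Nat.card {H : Subgroup (Matrix.ProjectiveSpecialLinearGroup (Fin 2) F) // Nonempty (H ≃* alternatingGroup (Fin 5))} = 22 ∧ ∃ H K : Subgroup (Matrix.ProjectiveSpecialLinearGroup (Fin 2) F), Nonempty (H ≃* alternatingGroup (Fin 5)) ∧ Nonempty (K ≃* alternatingGroup (Fin 5)) ∧ (∀ g : Matrix.ProjectiveSpecialLinearGroup (Fin 2) F, MulAut.conj g • H ≠ K) ∧ ∀ L : Subgroup (Matrix.ProjectiveSpecialLinearGroup (Fin 2) F), Nonempty (L ≃* alternatingGroup (Fin 5)) → ∃ g : Matrix.ProjectiveSpecialLinearGroup (Fin 2) F, MulAut.conj g • L = H ∨ MulAut.conj g • L = K := by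
  have hc := Nat.card_eq_fintype_card.trans hF
  obtain ⟨i⟩ := CA.FieldIso.nonempty_zmod (F := F) 11 hc
  have h0 := card_sub PSL(2, F)
  rw [card_T (CA.FieldIso.pslEquiv i), T11] at h0
  have h1 := CA.SLnCard.card_PSL2_odd (F := F) (by rw [hc]; decide)
  rw [hc] at h1
  have := CA.SLnGen.isSimpleGroup_PSL (ι := Fin 2) (F := F) (.inr (CA.SLnGen.exists_sq_ne_one (by omega)))
  let S := {H : Subgroup PSL(2, F) | Nonempty (H ≃* alternatingGroup (Fin 5))}
  have hS : S.ncard = 22 := by change 2640 = S.ncard * 120 at h0; omega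
  have hO : ∀ H ∈ S, orbit (ConjAct PSL(2, F)) H ⊆ S ∧ (orbit (ConjAct PSL(2, F)) H).ncard = 11 := by
    rintro H ⟨e⟩
    refine ⟨?_, ?_⟩
    · rintro _ ⟨g, rfl⟩
      exact ⟨(Subgroup.equivSMul g H).symm.trans e⟩
    have h2 := H.index_mul_card
    rw [Nat.card_congr e.toEquiv, card_A5] at h2
    have h3 : H.index = 11 := by omega
    have h4 := Subgroup.index_dvd_of_le (H.le_normalizer)
    rw [← index_stabilizer, ← (stabilizer (ConjAct PSL(2, F)) H).index_comap_of_surjective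
      (f := (ConjAct.toConjAct (G := PSL(2, F))).toMonoidHom) ConjAct.toConjAct.surjective,
      show (stabilizer (ConjAct PSL(2, F)) H).comap (ConjAct.toConjAct (G := PSL(2, F))).toMonoidHom = Subgroup.normalizer H from
        Subgroup.ext fun g => Subgroup.conjAct_pointwise_smul_iff]
    refine ((Nat.dvd_prime (by norm_num)).1 (h3 ▸ h4)).resolve_left fun h => ?_
    rcases (Subgroup.normalizer_eq_top_iff.1 (Subgroup.index_eq_one.1 h)).eq_bot_or_eq_top with rfl | rfl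
    · rw [Subgroup.index_bot] at h3; omega
    · simp at h3
  obtain ⟨H, hH⟩ := Set.nonempty_of_ncard_ne_zero (s := S) (by omega)
  obtain ⟨K, hK, hK'⟩ := Set.exists_mem_notMem_of_ncard_lt_ncard (s := orbit (ConjAct PSL(2, F)) H) (t := S)
    (by rw [(hO H hH).2]; omega)
  have hd : Disjoint (orbit (ConjAct PSL(2, F)) H) (orbit (ConjAct PSL(2, F)) K) :=
    (orbit.eq_or_disjoint H K).resolve_left fun h => hK' (h ▸ mem_orbit_self K)
  have hu := Set.eq_of_subset_of_ncard_le (Set.union_subset (hO H hH).1 (hO K hK).1)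
    (by rw [Set.ncard_union_eq hd, (hO H hH).2, (hO K hK).2, hS])
  refine ⟨hS, H, K, hH, hK, fun g h => hK' ⟨ConjAct.toConjAct g, h⟩, fun L hL => ?_⟩
  rcases hu.ge hL with ⟨g, rfl⟩ | ⟨g, rfl⟩
  · exact ⟨ConjAct.ofConjAct g⁻¹, .inl (inv_smul_smul g H)⟩
  · exact ⟨ConjAct.ofConjAct g⁻¹, .inr (inv_smul_smul g K)⟩

end Cfsg.Agent.S2543
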