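import Cfsg.Statements.S2551
import Cfsg.Agent.Lib.Lin.A8GL4

set_option autoImplicit false
open Cfsg

namespace Cfsg.Agent.S2551

open Matrix MulAction

section
variable {F : Type*} [Field F] [Fintype F]

theorem trans2 (hF : Fintype.card F = 2) {v w v' w' : Fin 4 → F} (hv : v ≠ 0) (hw : w ≠ 0)
    (hvw : v ≠ w) (hv' : v' ≠ 0) (hw' : w' ≠ 0) (hvw' : v' ≠ w') :
    ∃ g : GL (Fin 4) F, g • v = v' ∧ g • w = w' := by
  have h1 : Subsingleton Fˣ := by
    rw [← Finite.card_le_one_iff_subsingleton, Nat.card_units, Nat.card_eq_fintype_card, hF]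
  have h2 : ∀ (a b : Fin 4 → F) ha hb, Projectivization.mk F a ha = Projectivization.mk F b hb → a = b := by
    intro a b ha hb h
    obtain ⟨u, hu⟩ := (Projectivization.mk_eq_mk_iff F _ _ _ _).1 h
    rw [← hu, Subsingleton.elim u 1, one_smul]
  obtain ⟨g, h3, h4⟩ := (is_two_pretransitive_iff (G := SpecialLinearGroup (Fin 4) F)).1 inferInstance
    (fun h => hvw (h2 v w hv hw h)) (fun h => hvw' (h2 v' w' hv' hw' h))
  exact ⟨SpecialLinearGroup.toGL g, h2 _ _ _ _ h3, h2 _ _ _ _ h4⟩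

theorem card_G (hF : Fintype.card F = 2) : Nat.card (GL (Fin 4) F) = 20160 := by
  rw [CA.SLnCard.card_GL, Nat.card_eq_fintype_card, hF]; decide

theorem orbit2 (hF : Fintype.card F = 2) {v w : Fin 4 → F} (hv : v ≠ 0) (hw : w ≠ 0) (hvw : v ≠ w) :
    (orbit (GL (Fin 4) F) (v, w)).ncard = 210 := by
  classical
  have : orbit (GL (Fin 4) F) (v, w) = ((Finset.univ.erase (0 : Fin 4 → F)).offDiag : Finset _) := by
    ext ⟨a, b⟩
    simp only [Finset.coe_offDiag, Set.mem_offDiag, Finset.coe_erase, Finset.coe_univ, Set.mem_sdiff,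
      Set.mem_univ, Set.mem_singleton_iff, true_and]
    constructor
    · rintro ⟨g, hg⟩
      obtain ⟨rfl, rfl⟩ := Prod.ext_iff.1 hg
      exact ⟨(smul_ne_zero_iff_ne g).2 hv, (smul_ne_zero_iff_ne g).2 hw,
        fun h => hvw (smul_left_cancel g h)⟩
    · rintro ⟨ha, hb, hab⟩
      obtain ⟨g, h1, h2⟩ := trans2 hF hv hw hvw ha hb hab
      exact ⟨g, Prod.ext h1 h2⟩
  rw [this, Set.ncard_coe_finset, Finset.offDiag_card, Finset.card_erase_of_mem (Finset.mem_univ _)]
  simp [hF]

theorem not_fix5 (hF : Fintype.card F = 2) {v : Fin 4 → F} (hv : v ≠ 0) {g : GL (Fin 4) F}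
    (hg : orderOf g = 5) : g • v ≠ v := by
  classical
  intro h
  have hne : ∀ a : Fin 4 → F, ∃ b, b ≠ 0 ∧ a ≠ b := fun a => by
    by_cases h : a = Pi.single 0 1
    · exact ⟨Pi.single 1 1, by simp, by rw [h]; intro h; simpa using congrFun h 0⟩
    · exact ⟨_, by simp, h⟩
  have : orbit (GL (Fin 4) F) v = (Finset.univ.erase (0 : Fin 4 → F) : Finset _) := by
    ext a
    simp only [Finset.coe_erase, Finset.coe_univ, Set.mem_sdiff,
      Set.mem_univ, Set.mem_singleton_iff, true_and]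
    constructor
    · rintro ⟨g, rfl⟩
      exact (smul_ne_zero_iff_ne g).2 hv
    · intro ha
      obtain ⟨w, hw, hvw⟩ := hne v
      obtain ⟨b, hb, hab⟩ := hne a
      obtain ⟨g, h1, -⟩ := trans2 hF hv hw hvw ha hb hab
      exact ⟨g, h1⟩
  have h1 := index_stabilizer (GL (Fin 4) F) v
  rw [this, Set.ncard_coe_finset, Finset.card_erase_of_mem (Finset.mem_univ _)] at h1
  have h2 := (stabilizer (GL (Fin 4) F) v).card_mul_index
  have h3 := Subgroup.orderOf_dvd_natCard _ (mem_stabilizer_iff.2 h)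
  rw [h1, card_G hF, Finset.card_univ, Fintype.card_fun, hF, Fintype.card_fin] at h2
  rw [hg] at h3
  clear h1
  omega

theorem rank_le (hF : Fintype.card F = 2) {v w : Fin 4 → F} (hv : v ≠ 0) (hw : w ≠ 0) (hvw : v ≠ w)
    {g : GL (Fin 4) F} (h4 : g ^ 4 = 1) (h1 : g • v = v) (h2 : g • w = w) :
    3 ≤ Module.finrank F (LinearMap.ker (Matrix.toLin' ((g * g).1 - 1))) := by
  have hc : (2 : F) = 0 := by simpa [hF] using Nat.cast_card_eq_zero F
  have hc' : (2 : Matrix (Fin 4) (Fin 4) F) = 0 := by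
    rw [← map_ofNat (algebraMap F (Matrix (Fin 4) (Fin 4) F)), hc, map_zero]
  let N := Matrix.toLin' (g.1 - 1)
  have hsq : ∀ a : Matrix (Fin 4) (Fin 4) F, (a - 1) * (a - 1) = a * a - 1 := fun a => by
    have : (a - 1) * (a - 1) = a * a - 1 + 2 * (1 - a) := by noncomm_ring
    rw [this, hc', zero_mul, add_zero]
  have hN : Matrix.toLin' ((g * g).1 - 1) = N ∘ₗ N := by
    rw [← Matrix.toLin'_mul, hsq]; rfl
  have hN4 : (N ∘ₗ N) ∘ₗ (N ∘ₗ N) = 0 := by
    rw [← hN, ← Matrix.toLin'_mul, hsq, ← Units.val_mul, ← mul_assoc, ← pow_two, ← pow_succ,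
      ← pow_succ, h4]
    simp
  have hk : 2 ≤ Module.finrank F (LinearMap.ker N) := by
    have hli : LinearIndependent F ![v, w] := by
      rw [LinearIndependent.pair_iff' hv]
      intro a ha
      have : Subsingleton Fˣ := by
        rw [← Finite.card_le_one_iff_subsingleton, Nat.card_units, Nat.card_eq_fintype_card, hF]
      by_cases h0 : a = 0
      · exact hw (by rw [← ha, h0, zero_smul])
      · have : a = 1 := congrArg Units.val (Subsingleton.elim (Units.mk0 a h0) 1)
        exact hvw (by rw [← ha, this, one_smul])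
    have := Submodule.finrank_mono (show Submodule.span F (Set.range ![v, w]) ≤ LinearMap.ker N by
      rw [Submodule.span_le]
      rintro _ ⟨i, rfl⟩
      fin_cases i
      · simpa [N, Matrix.sub_mulVec, sub_eq_zero] using! h1
      · simpa [N, Matrix.sub_mulVec, sub_eq_zero] using! h2)
    rwa [finrank_span_eq_card hli] at this
  rw [hN]
  by_contra hlt
  have hle : LinearMap.ker N ≤ LinearMap.ker (N ∘ₗ N) := LinearMap.ker_le_ker_comp N N
  have heq := Submodule.eq_of_le_of_finrank_le hle (by omega)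
  have htop : LinearMap.ker N = ⊤ := by
    rw [eq_top_iff]
    intro x _
    have step : ∀ y, N (N y) = 0 → N y = 0 := fun y hy => by
      have : y ∈ LinearMap.ker (N ∘ₗ N) := hy
      rwa [← heq] at this
    exact step _ (step _ (step _ (LinearMap.congr_fun hN4 x)))
  rw [← heq, htop] at hlt
  simp at hlt

end

def g0 : alternatingGroup (Fin 7) :=
  ⟨Equiv.swap 0 1 * Equiv.swap 1 2 * Equiv.swap 2 3 * Equiv.swap 4 5,
    Equiv.Perm.mem_alternatingGroup.2 (by decide)⟩
def k0 : alternatingGroup (Fin 7) :=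
  ⟨Equiv.swap 0 1 * Equiv.swap 0 4, Equiv.Perm.mem_alternatingGroup.2 (by decide)⟩

/-- Let F be the field with 2 elements. GL_4(F) (≅ A_8) has a subgroup isomorphic to the alternating group A_7, and every such subgroup acts 2-transitively on the 15 non-zero vectors of F⁴: any ordered pair of distinct non-zero vectors is carried to any other by some element of the subgroup. -/
theorem result {F : Type*} [Field F] [Fintype F] (hF : Fintype.card F = 2) : (∃ H : Subgroup (Matrix.GeneralLinearGroup (Fin 4) F), Nonempty (H ≃* alternatingGroup (Fin 7))) ∧ ∀ H : Subgroup (Matrix.GeneralLinearGroup (Fin 4) F), Nonempty (H ≃* alternatingGroup (Fin 7)) → ∀ v w v' w' : Fin 4 → F, v ≠ 0 → w ≠ 0 → v ≠ w → v' ≠ 0 → w' ≠ 0 → v' ≠ w' → ∃ g ∈ H, (g : Matrix (Fin 4) (Fin 4) F).mulVec v = v' ∧ (g : Matrix (Fin 4) (Fin 4) F).mulVec w = w' := by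
  have hF' : Nat.card F = 2 := by rw [Nat.card_eq_fintype_card, hF]
  constructor
  · obtain ⟨e⟩ := CA.FieldIso.nonempty_zmod (F := F) 2 hF'
    obtain ⟨f, hf, -⟩ := CA.SnPres.exists_inj_alt (α := Fin 7) (by simp) (p := 5) (q := 6) (by decide)
      (fun i => CA.A8GL4.y i.castSucc)
      (fun i _ _ => Subtype.ext (by rw [pow_three]; exact CA.A8GL4.ym_cube i.castSucc))
      (fun i j h1 h2 h3 h4 h5 => Subtype.ext (by
        rw [sq]
        exact CA.A8GL4.ym_rel i.castSucc j.castSucc (by clear h5; revert i; decide) (by clear h5; revert i; decide) (by clear h5; revert j; decide)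
          (by clear h5; revert j; decide) (Fin.castSucc_injective _ |>.ne h5)))
      (i := 0) (by decide) (by decide) (fun h => absurd (congrArg Subtype.val h) (by decide))
    let φ := ((CA.FieldIso.slEquiv e.symm).trans (CA.A8GL4.slEquivGL hF')).toMonoidHom.comp f
    have hφ : Function.Injective φ := 
      ((CA.FieldIso.slEquiv e.symm).trans (CA.A8GL4.slEquivGL hF')).injective.comp hf
    exact ⟨φ.range, ⟨(MonoidHom.ofInjective hφ).symm⟩⟩
  rintro H ⟨e⟩ v w v' w' hv hw hvw hv' hw' hvw'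
  have hH : Nat.card H = 2520 := by
    rw [Nat.card_congr e.toEquiv, nat_card_alternatingGroup, Nat.card_fin]; rfl
  have hK : Nat.card (stabilizer (GL (Fin 4) F) (v, w)) = 96 := by
    have := (stabilizer (GL (Fin 4) F) (v, w)).card_mul_index
    rw [index_stabilizer, orbit2 hF hv hw hvw, card_G hF] at this
    omega
  have h8 : ¬ 8 ∣ Nat.card (stabilizer H (v, w)) := by
    intro h8
    obtain ⟨Q, hQ⟩ := Sylow.exists_subgroup_card_pow_prime (G := stabilizer H (v, w)) 2 (n := 3) h8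
    have hQ' : Nat.card (Q.map (stabilizer H (v, w)).subtype) = 2 ^ (Nat.card H).factorization 2 := by
      rw [Subgroup.card_map_of_injective (Subgroup.subtype_injective _), hQ, hH]
      decide +kernel
    let P := Sylow.ofCard _ hQ'
    have hp : IsPGroup 2 (Subgroup.zpowers (e.symm g0)) := IsPGroup.of_card (n := 2) (by
      rw [Nat.card_zpowers, MulEquiv.orderOf_eq]
      exact orderOf_eq_prime_pow (by decide) (by decide))
    obtain ⟨P', hP'⟩ := hp.exists_le_sylow
    obtain ⟨y, hy⟩ := exists_smul_eq H P' P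
    have hm : y * e.symm g0 * y⁻¹ ∈ stabilizer H (v, w) := by
      refine Subgroup.map_subtype_le Q (show _ ∈ (P : Subgroup H) from ?_)
      rw [← hy]
      exact ⟨_, hP' (Subgroup.mem_zpowers _), rfl⟩
    set g := y * e.symm g0 * y⁻¹ with hg
    set k := y * e.symm k0 * y⁻¹ with hk
    have h4 : (g : GL (Fin 4) F) ^ 4 = 1 := by
      rw [← Subgroup.coe_pow, hg, conj_pow, ← map_pow, show g0 ^ 4 = 1 by decide]; simp
    have h5 : orderOf ((g * g * (k * (g * g) * k⁻¹) : H) : GL (Fin 4) F) = 5 := by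
      have : g * g * (k * (g * g) * k⁻¹) = y * e.symm (g0 * g0 * (k0 * (g0 * g0) * k0⁻¹)) * y⁻¹ := by
        simp [hg, hk, mul_assoc]
      have h5 : Fact (Nat.Prime 5) := ⟨Nat.prime_five⟩
      rw [Subgroup.orderOf_coe, this, ← MulAut.conj_apply, MulEquiv.orderOf_eq, MulEquiv.orderOf_eq]
      exact orderOf_eq_prime (by decide +kernel) (by decide +kernel)
    obtain ⟨h1, h2⟩ := Prod.ext_iff.1 (mem_stabilizer_iff.1 hm)
    have h6 := rank_le hF hv hw hvw h4 h1 h2
    have h7 := rank_le hF (g := k.1 * g.1 * k.1⁻¹) ((smul_ne_zero_iff_ne k.1).2 hv)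
      ((smul_ne_zero_iff_ne k.1).2 hw) (fun h => hvw (smul_left_cancel _ h))
      (by rw [conj_pow, h4]; simp) (by rw [mul_smul, inv_smul_smul, mul_smul]; exact congrArg _ h1)
      (by rw [mul_smul, inv_smul_smul, mul_smul]; exact congrArg _ h2)
    have h9 := Submodule.finrank_sup_add_finrank_inf_eq
      (LinearMap.ker (Matrix.toLin' ((g.1 * g.1).1 - 1)))
      (LinearMap.ker (Matrix.toLin' ((k.1 * g.1 * k.1⁻¹ * (k.1 * g.1 * k.1⁻¹)).1 - 1)))
    have h10 := Submodule.finrank_le (LinearMap.ker (Matrix.toLin' ((g.1 * g.1).1 - 1)) ⊔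
      (LinearMap.ker (Matrix.toLin' ((k.1 * g.1 * k.1⁻¹ * (k.1 * g.1 * k.1⁻¹)).1 - 1))))
    rw [Module.finrank_fin_fun] at h10
    obtain ⟨u, ⟨hu1, hu2⟩, hu0⟩ := Submodule.exists_mem_ne_zero_of_ne_bot
      (p := LinearMap.ker (Matrix.toLin' ((g.1 * g.1).1 - 1)) ⊓
        (LinearMap.ker (Matrix.toLin' ((k.1 * g.1 * k.1⁻¹ * (k.1 * g.1 * k.1⁻¹)).1 - 1))))
      (fun h => by rw [h, finrank_bot] at h9; omega)
    have hfix : ∀ a : GL (Fin 4) F, u ∈ LinearMap.ker (Matrix.toLin' (a.1 - 1)) → a • u = u :=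
      fun a ha => by simpa [Matrix.sub_mulVec, sub_eq_zero] using! ha
    refine not_fix5 hF hu0 h5 ?_
    have : ((g * g * (k * (g * g) * k⁻¹) : H) : GL (Fin 4) F) =
        g.1 * g.1 * (k.1 * g.1 * k.1⁻¹ * (k.1 * g.1 * k.1⁻¹)) := by simp [mul_assoc]
    rw [this, mul_smul, hfix _ hu2, hfix _ hu1]
  have hd1 : Nat.card (stabilizer H (v, w)) ∣ 96 := by
    rw [← hK, ← Subgroup.card_map_of_injective (K := stabilizer H (v, w)) H.subtype_injective]
    refine Subgroup.card_dvd_of_le ?_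
    rintro _ ⟨x, hx, rfl⟩
    exact hx
  have hd2 := (stabilizer H (v, w)).card_mul_index
  rw [hH, index_stabilizer] at hd2
  have hsub : orbit H (v, w) ⊆ orbit (GL (Fin 4) F) (v, w) := orbit_subgroup_subset H _
  have hge : 210 ≤ (orbit H (v, w)).ncard := by
    have hd3 : Nat.card (stabilizer H (v, w)) ∣ 24 :=
      Nat.dvd_gcd (m := 96) (n := 2520) hd1 (Dvd.intro _ hd2)
    have := Nat.le_of_dvd (by norm_num) hd3
    generalize Nat.card (stabilizer H (v, w)) = c at *
    interval_cases c <;> omega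
  have heq := Set.eq_of_subset_of_ncard_le hsub (by rwa [orbit2 hF hv hw hvw])
  obtain ⟨g, h1, h2⟩ := trans2 hF hv hw hvw hv' hw' hvw'
  obtain ⟨h, hh⟩ : (v', w') ∈ orbit H (v, w) := heq ▸ ⟨g, Prod.ext h1 h2⟩
  exact ⟨h, h.2, (Prod.ext_iff.1 hh).1, (Prod.ext_iff.1 hh).2⟩

end Cfsg.Agent.S2551
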