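import Cfsg.Statements.S2552
import Cfsg.Agent.Lib.Lin.SLnCard

set_option autoImplicit false
open Cfsg

namespace Cfsg.Agent.S2552

/-- Let F be a finite field and n ≥ 1. For every k, the special linear group SL_n(F) acts transitively on the set of k-dimensional subspaces of F^n: any two subspaces of the same dimension are carried onto each other by some matrix of determinant 1. -/
theorem result {F : Type*} [Field F] [Fintype F] (n : ℕ) (hn : 1 ≤ n) (U₁ U₂ : Submodule F (Fin n → F)) (h : Module.finrank F U₁ = Module.finrank F U₂) : ∃ g : Matrix.SpecialLinearGroup (Fin n) F, U₁.map ((Matrix.SpecialLinearGroup.toLin' g : (Fin n → F) ≃ₗ[F] (Fin n → F)) : (Fin n → F) →ₗ[F] (Fin n → F)) = U₂ := by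
  open Matrix in
  obtain ⟨f⟩ := FiniteDimensional.nonempty_linearEquiv_of_finrank_eq h
  obtain ⟨g, hg⟩ := Submodule.exists_linearEquiv_restrict_eq f
  have h1 : U₁.map (g : (Fin n → F) →ₗ[F] (Fin n → F)) = U₂ := by
    refine Submodule.eq_of_le_of_finrank_eq ?_ (by rw [LinearEquiv.finrank_map_eq, h])
    rintro _ ⟨x, hx, rfl⟩
    exact (hg ⟨x, hx⟩) ▸ (f ⟨x, hx⟩).2
  have hd : LinearMap.det (g : (Fin n → F) →ₗ[F] (Fin n → F)) ≠ 0 := g.isUnit_det'.ne_zero
  obtain ⟨k, hk1, hk2⟩ : ∃ k : (Fin n → F) →ₗ[F] (Fin n → F),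
      LinearMap.det k = (LinearMap.det (g : (Fin n → F) →ₗ[F] (Fin n → F)))⁻¹ ∧ U₁.map k ≤ U₁ := by
    obtain ⟨v, φ, h1, h2⟩ : ∃ (v : Fin n → F) (φ : Module.Dual F (Fin n → F)), φ v = 1 ∧
        ∀ x ∈ U₁, φ x • v ∈ U₁ := by
      by_cases hU : U₁ = ⊥
      · exact ⟨Pi.single ⟨0, hn⟩ 1, LinearMap.proj ⟨0, hn⟩, by simp, by simp [hU]⟩
      · obtain ⟨v, hv, hv0⟩ := (Submodule.ne_bot_iff _).1 hU
        obtain ⟨i, hi⟩ := Function.ne_iff.1 hv0
        exact ⟨v, (v i)⁻¹ • LinearMap.proj i, by simpa using inv_mul_cancel₀ hi,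
          fun x _ => U₁.smul_mem _ hv⟩
    refine ⟨LinearMap.transvection φ
      (((LinearMap.det (g : (Fin n → F) →ₗ[F] (Fin n → F)))⁻¹ - 1) • v), ?_, ?_⟩
    · simp [LinearMap.transvection.det, h1]
    · rintro _ ⟨x, hx, rfl⟩
      rw [LinearMap.transvection.apply, smul_comm]
      exact U₁.add_mem hx (U₁.smul_mem _ (h2 x hx))
  have hs : (LinearMap.toMatrix' ((g : (Fin n → F) →ₗ[F] (Fin n → F)) ∘ₗ k)).det = 1 := by
    rw [LinearMap.det_toMatrix', LinearMap.det_comp, hk1, mul_inv_cancel₀ hd]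
  let s : SpecialLinearGroup (Fin n) F := ⟨_, hs⟩
  refine ⟨s, Submodule.eq_of_le_of_finrank_eq ?_ (by rw [LinearEquiv.finrank_map_eq, h])⟩
  rw [Matrix.SpecialLinearGroup.toLin'_to_linearMap]
  dsimp only [s]
  rw [Matrix.toLin'_toMatrix', Submodule.map_comp, ← h1]
  exact Submodule.map_mono hk2

end Cfsg.Agent.S2552
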