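import Cfsg.Statements.S2564
import Cfsg.Agent.Lib.Lin.CFormConj2

set_option autoImplicit false
open Cfsg

namespace Cfsg.Agent.S2564

open CA.CForm CA.CForm.Form Module

theorem pol (m : ℕ) (u v : Fin m ⊕ Fin m → ZMod 2) : quadFormPlus m (ZMod 2) (u + v) -
    quadFormPlus m (ZMod 2) u - quadFormPlus m (ZMod 2) v = (plusForm (ZMod 2) m).B u v :=
  (orth_B_eq (plusForm (ZMod 2) m) u v).symm

/-- The form attached to a function with the right polarisation. -/
def frm {m : ℕ} (q : (Fin m ⊕ Fin m → ZMod 2) → ZMod 2)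
    (hq : ∀ u v, q (u + v) = q u + q v + (plusForm (ZMod 2) m).B u v) :
    Form (Kind.orth (ZMod 2)) (Fin m ⊕ Fin m → ZMod 2) :=
  ofFun q (plusForm (ZMod 2) m).B hq fun a x => by
    have h0 : q 0 = 0 := by simpa using hq 0 0
    have : a = 0 ∨ a = 1 := by revert a; decide
    rcases this with rfl | rfl <;> simp [h0]

theorem frm_nondeg {m : ℕ} (q : (Fin m ⊕ Fin m → ZMod 2) → ZMod 2) (hq) : (frm q hq).Nondeg :=
  plusForm_nondeg (ZMod 2) m

theorem card_ne {V : Type} [AddCommGroup V] [Module (ZMod 2) V] [FiniteDimensional (ZMod 2) V]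
    {f : Form (Kind.orth (ZMod 2)) V} (hf : f.Nondeg) {m : ℕ}
    (hm : finrank (ZMod 2) V = 2 * m) : 2 * Nat.card {v // f.Q v = 0} ≠ 2 ^ (2 * m) := by
  rcases hf.isIndex_even' hm with h | ⟨j, rfl, h⟩
  · have := IsIndex.card_singular m 0 h hf hm
    rw [Nat.card_zmod, add_zero, add_zero, pow_succ] at this
    have := Nat.one_le_two_pow (n := m)
    omega
  · have := IsIndex.card_singular j 2 h hf hm
    rw [Nat.card_zmod, show j + 2 = j + 1 + 1 from rfl, pow_succ _ (j + 1)] at this
    have h1 := Nat.one_le_two_pow (n := j + 1)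
    rw [mul_add 2 j, mul_one]
    generalize 2 ^ (2 * j + 2) = a at *
    generalize 2 ^ (j + 1) = b at *
    omega

open CA.CForm CA.CForm.Form Module in
/-- On the 2m-dimensional space over the field of two elements (m ≥ 1) let f be the alternating form obtained by polarizing the plus-type form Σ xᵢyᵢ, and let q be any quadratic form polarizing to f. For a vector w, the function q + f(·, w) again polarizes to f, and it is equivalent to q under an invertible linear map (that is, has the same type) if and only if q(w) = 0. -/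
theorem result (m : ℕ) (hm : 1 ≤ m) (q : (Fin m ⊕ Fin m → ZMod 2) → ZMod 2) (hq : (∀ u v : (Fin m ⊕ Fin m → ZMod 2), q (u + v) = q u + q v + (Cfsg.quadFormPlus m (ZMod 2) (u + v) - Cfsg.quadFormPlus m (ZMod 2) u - Cfsg.quadFormPlus m (ZMod 2) v))) (w : (Fin m ⊕ Fin m → ZMod 2)) :
    (∀ u v : (Fin m ⊕ Fin m → ZMod 2), (q (u + v) + (Cfsg.quadFormPlus m (ZMod 2) (u + v + w) - Cfsg.quadFormPlus m (ZMod 2) (u + v) - Cfsg.quadFormPlus m (ZMod 2) w)) =
        (q u + (Cfsg.quadFormPlus m (ZMod 2) (u + w) - Cfsg.quadFormPlus m (ZMod 2) u - Cfsg.quadFormPlus m (ZMod 2) w)) + (q v + (Cfsg.quadFormPlus m (ZMod 2) (v + w) - Cfsg.quadFormPlus m (ZMod 2) v - Cfsg.quadFormPlus m (ZMod 2) w)) +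
        (Cfsg.quadFormPlus m (ZMod 2) (u + v) - Cfsg.quadFormPlus m (ZMod 2) u - Cfsg.quadFormPlus m (ZMod 2) v)) ∧
    ((∃ g : (Fin m ⊕ Fin m → ZMod 2) ≃ₗ[ZMod 2] (Fin m ⊕ Fin m → ZMod 2), ∀ v, q v + (Cfsg.quadFormPlus m (ZMod 2) (v + w) - Cfsg.quadFormPlus m (ZMod 2) v - Cfsg.quadFormPlus m (ZMod 2) w) = q (g v)) ↔ q w = 0) := by
  simp only [pol] at hq ⊢
  refine ⟨fun u v => by rw [hq, B_add_left]; ring, fun ⟨g, hg⟩ => by_contra fun h => ?_, fun h => ?_⟩
  · have h1 : q w = 1 := by revert h; generalize q w = a; revert a; decide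
    refine card_ne (frm_nondeg q hq) (finrank_plus m) ?_
    have h2 : Nat.card {v // q v = 0} = Nat.card {v // ¬ q v = 0} :=
      Nat.card_congr ((g.toEquiv.symm.trans (Equiv.addRight w)).subtypeEquiv fun v => by
        have := hg (g.symm v)
        rw [g.apply_symm_apply] at this
        simp only [Equiv.trans_apply, Equiv.coe_addRight, hq, h1, ← this,
          LinearEquiv.coe_symm_toEquiv]
        generalize q (g.symm v) = a
        generalize (plusForm (ZMod 2) m).B (g.symm v) w = b
        revert a b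
        decide)
    have h3 := Nat.card_congr (Equiv.sumCompl fun v => q v = 0)
    rw [Nat.card_sum, ← h2, Nat.card_fun, Nat.card_zmod] at h3
    rw [two_mul]
    exact h3.trans (by simp [two_mul])
  · have h2 : (2 : ZMod 2) = 0 := rfl
    let t := (toSymp (plusForm (ZMod 2) m) h2).qrefl w 1 (by simp [QreflCond, symp_Q])
    refine ⟨t.1, fun v => ?_⟩
    rw [show t.1 v = _ from qrefl_apply _ _ _ _ v, hq, show q _ = _ from (frm q hq).orth_Q_smul _ w, show (frm q hq).Q w = 0 from h,
      map_smul, one_mul, show (toSymp (plusForm (ZMod 2) m) h2).B w v = _ from (plusForm (ZMod 2) m).orth_symm v w]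
    generalize (plusForm (ZMod 2) m).B v w = b
    generalize q v = a
    revert a b
    decide

end Cfsg.Agent.S2564
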