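import Cfsg.Statements.S2561
import Cfsg.Agent.S2564

set_option autoImplicit false
open Cfsg

namespace Cfsg.Agent.S2561

open CA.CForm CA.CForm.Form Module Cfsg.Agent.S2564 in
/-- Fix the non-singular alternating form on the 2m-dimensional space over the field of two elements obtained by polarizing the plus-type form Σ xᵢyᵢ (m ≥ 1). The functions q on the space with q(u + v) = q(u) + q(v) + f(u, v) (the quadratic forms polarizing to f) number 2^(2m); each is equivalent under an invertible linear map either to the plus-type form or to the minus-type form Σ xᵢyᵢ + (z₁² + z₁z₂ + z₂²); and those of plus type number 2^(2m−1) + 2^(m−1), those of minus type 2^(2m−1) − 2^(m−1). -/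
theorem result (m : ℕ) (hm : 1 ≤ m) :
    Nat.card {q : (Fin m ⊕ Fin m → ZMod 2) → ZMod 2 // (∀ u v : (Fin m ⊕ Fin m → ZMod 2), q (u + v) = q u + q v + (Cfsg.quadFormPlus m (ZMod 2) (u + v) - Cfsg.quadFormPlus m (ZMod 2) u - Cfsg.quadFormPlus m (ZMod 2) v))} = 2 ^ (2 * m) ∧
    (∀ q : (Fin m ⊕ Fin m → ZMod 2) → ZMod 2, (∀ u v : (Fin m ⊕ Fin m → ZMod 2), q (u + v) = q u + q v + (Cfsg.quadFormPlus m (ZMod 2) (u + v) - Cfsg.quadFormPlus m (ZMod 2) u - Cfsg.quadFormPlus m (ZMod 2) v)) →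
      (∃ g : (Fin m ⊕ Fin m → ZMod 2) ≃ₗ[ZMod 2] (Fin m ⊕ Fin m → ZMod 2), ∀ v, q v = Cfsg.quadFormPlus m (ZMod 2) (g v)) ∨
      (∃ g : (Fin m ⊕ Fin m → ZMod 2) ≃ₗ[ZMod 2] ((Fin (m - 1) ⊕ Fin (m - 1)) ⊕ Fin 2 → ZMod 2), ∀ v, q v = Cfsg.quadFormMinus (m - 1) (ZMod 2) 1 1 (g v))) ∧
    Nat.card {q : (Fin m ⊕ Fin m → ZMod 2) → ZMod 2 // (∀ u v : (Fin m ⊕ Fin m → ZMod 2), q (u + v) = q u + q v + (Cfsg.quadFormPlus m (ZMod 2) (u + v) - Cfsg.quadFormPlus m (ZMod 2) u - Cfsg.quadFormPlus m (ZMod 2) v)) ∧ ∃ g : (Fin m ⊕ Fin m → ZMod 2) ≃ₗ[ZMod 2] (Fin m ⊕ Fin m → ZMod 2), ∀ v, q v = Cfsg.quadFormPlus m (ZMod 2) (g v)} = 2 ^ (2 * m - 1) + 2 ^ (m - 1) ∧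
    Nat.card {q : (Fin m ⊕ Fin m → ZMod 2) → ZMod 2 // (∀ u v : (Fin m ⊕ Fin m → ZMod 2), q (u + v) = q u + q v + (Cfsg.quadFormPlus m (ZMod 2) (u + v) - Cfsg.quadFormPlus m (ZMod 2) u - Cfsg.quadFormPlus m (ZMod 2) v)) ∧ ∃ g : (Fin m ⊕ Fin m → ZMod 2) ≃ₗ[ZMod 2] ((Fin (m - 1) ⊕ Fin (m - 1)) ⊕ Fin 2 → ZMod 2), ∀ v, q v = Cfsg.quadFormMinus (m - 1) (ZMod 2) 1 1 (g v)} = 2 ^ (2 * m - 1) - 2 ^ (m - 1) := by
  have H := fun w => (S2564.result m hm (quadFormPlus m (ZMod 2)) (fun u v => by ring) w)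
  simp only [pol] at H ⊢
  set f := plusForm (ZMod 2) m
  have hf : f.Nondeg := plusForm_nondeg _ m
  let e : (Fin m ⊕ Fin m → ZMod 2) ≃ {q : (Fin m ⊕ Fin m → ZMod 2) → ZMod 2 //
      ∀ u v, q (u + v) = q u + q v + f.B u v} :=
    Equiv.ofBijective (fun w => ⟨fun v => f.Q v + f.B v w, (H w).1⟩) ⟨fun w w' h =>
      hf.eq_of_B_eq_right fun v => add_left_cancel (congrFun (congrArg Subtype.val h) v),
      fun ⟨q, hq⟩ => by
        obtain ⟨w, hw⟩ := hf.exists_B_eq (AddMonoidHom.toZModLinearMap 2 (AddMonoidHom.mk'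
          (fun v => q v - f.Q v) fun u v => by rw [hq, orth_Q_add]; ring))
        refine ⟨w, Subtype.ext (funext fun v => ?_)⟩
        simp [f.orth_symm w v, hw]⟩
  have hc : Nat.card (Fin m ⊕ Fin m → ZMod 2) = 2 ^ (2 * m) := by simp [two_mul]
  have h1 := (Nat.card_congr e).symm.trans hc
  obtain ⟨j, rfl⟩ : ∃ j, m = j + 1 := ⟨m - 1, by omega⟩
  have hab : Aniso (1 : ZMod 2) 1 := by unfold Aniso; decide
  have h2 : ∀ q (hq : ∀ u v, q (u + v) = q u + q v + f.B u v),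
      ((∃ g : (Fin (j + 1) ⊕ Fin (j + 1) → ZMod 2) ≃ₗ[ZMod 2] (Fin (j + 1) ⊕ Fin (j + 1) → ZMod 2),
        ∀ v, q v = quadFormPlus (j + 1) (ZMod 2) (g v)) ↔ (frm q hq).IsIndex (j + 1)) ∧
      ((∃ g : (Fin (j + 1) ⊕ Fin (j + 1) → ZMod 2) ≃ₗ[ZMod 2] ((Fin j ⊕ Fin j) ⊕ Fin 2 → ZMod 2),
        ∀ v, q v = quadFormMinus j (ZMod 2) 1 1 (g v)) ↔ ¬ (frm q hq).IsIndex (j + 1)) :=
    fun q hq => by
      refine ⟨⟨fun ⟨g, hg⟩ => Equivalent.isIndex (Equivalent.symm ⟨g, (orth_pres_iff (φ := g.toLinearMap)).2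
        fun v => (hg v).symm⟩) (plusForm_isIndex _ _), fun h => ?_⟩, fun ⟨g, hg⟩ h => ?_, fun h => ?_⟩
      · obtain ⟨g, hg⟩ := h.equivalent_plus (frm_nondeg q hq) (finrank_plus _)
        exact ⟨g, fun v => (hg.Q_eq v).symm⟩
      · have := (Equivalent.isIndex (f := frm q hq) (f' := minusForm j 1 1) ⟨g, (orth_pres_iff (φ := g.toLinearMap)).2
          fun v => (hg v).symm⟩ h).unique (minusForm_isIndex j hab)
        omega
      · obtain ⟨g, hg⟩ := (((frm_nondeg q hq).isIndex_even (finrank_plus _)).resolve_left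
          h).equivalent_minus (frm_nondeg q hq) (finrank_plus _) hab
        exact ⟨g, fun v => (hg.Q_eq v).symm⟩
  have h3 := IsIndex.card_singular (j + 1) 0 (plusForm_isIndex (ZMod 2) _) hf (finrank_plus _)
  have h4 := Nat.card_congr (Equiv.sumCompl fun v => f.Q v = 0)
  rw [Nat.card_sum, hc] at h4
  rw [Nat.card_zmod, add_zero, add_zero] at h3
  have h5 : ∀ w, (frm _ (e w).2).IsIndex (j + 1) ↔ f.Q w = 0 := fun w =>
    (h2 _ (e w).2).1.symm.trans (H w).2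
  have h6 : 2 * (j + 1) - 1 = 2 * j + 1 := by omega
  refine ⟨h1, fun q hq => ?_, ?_, ?_⟩
  · exact (em _).imp (h2 q hq).1.2 (h2 q hq).2.2
  · rw [← Nat.card_congr (((e.subtypeEquiv fun w => (h5 w).symm.trans (h2 _ (e w).2).1.symm)).trans
      (Equiv.subtypeSubtypeEquivSubtypeInter _ _)), h6, Nat.add_sub_cancel]
    change 2 * Nat.card {v // f.Q v = 0} + _ = _ at h3
    simp only [pow_succ, mul_add, pow_add] at h3 ⊢
    omega
  · rw [← Nat.card_congr (((e.subtypeEquiv fun w => (h5 w).not.symm.trans (h2 _ (e w).2).2.symm)).trans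
      (Equiv.subtypeSubtypeEquivSubtypeInter _ _)), h6, Nat.add_sub_cancel]
    change 2 * Nat.card {v // f.Q v = 0} + _ = _ at h3
    simp only [pow_succ, mul_add, pow_add] at h3 h4 ⊢
    omega

end Cfsg.Agent.S2561
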