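import Cfsg.Statements.S2563
import Cfsg.Agent.Lib.Lin.SnOrth

set_option autoImplicit false
open Cfsg

namespace Cfsg.Agent.S2563

open CA.CForm CA.CForm.Form

abbrev K := ZMod 2

def Fam {V : Type} [Add V] (Q : V → K) (n : ℕ) : Prop :=
  ∃ v : ℕ → V, (∀ i < n, Q (v i) = 1) ∧ ∀ i < n, ∀ j < n, i ≠ j → Q (v i + v j) = 1

def N (w : Fin 4 → K) : K := w 0 * w 1 + (w 2 ^ 2 + w 2 * w 3 + w 3 ^ 2)

def w (i : ℕ) : Fin 4 → K :=
  if i = 0 then ![1, 0, 0, 0] else if i = 1 then ![0, 1, 0, 0] else if i = 2 then ![1, 1, 1, 0]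
  else if i = 3 then ![1, 1, 0, 1] else ![1, 1, 1, 1]

theorem Fam.step {V W : Type} [Add V] [Add W] {Q : V → K} {Q' : W → K} {n : ℕ} (h : Fam Q (n + 1))
    (h0 : ∀ v, Q (v + v) = 0) (hc : ∀ u v, Q (u + v) = Q (v + u)) (e : V → (Fin 4 → K) → W) (h1 : ∀ u v a b, e u a + e v b = e (u + v) (a + b))
    (h2 : ∀ u a, Q' (e u a) = Q u + N a) : Fam Q' (n + 5) := by
  obtain ⟨v, v1, v2⟩ := h
  have w1 : ∀ i < 5, N (w i) = 0 := by decide
  have w2 : ∀ i < 5, ∀ j < 5, i ≠ j → N (w i + w j) = 1 := by decide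
  have w0 : N 0 = 0 := by decide
  refine ⟨fun i => if i < n then e (v i) 0 else e (v n) (w (i - n)), fun i hi => ?_, fun i hi j hj hij => ?_⟩
  · dsimp only; split_ifs with a <;> rw [h2, v1 _ (by omega)]
    · rw [w0, add_zero]
    · rw [w1 _ (by omega), add_zero]
  · dsimp only; split_ifs with a b b <;> rw [h1, h2]
    · rw [v2 i (by omega) j (by omega) hij, add_zero, w0, add_zero]
    · rw [v2 i (by omega) n (by omega) a.ne, zero_add, w1 _ (by omega), add_zero]
    · rw [hc, v2 j (by omega) n (by omega) b.ne, add_zero, w1 _ (by omega), add_zero]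
    · rw [h0, w2 _ (by omega) _ (by omega) (by omega), zero_add]

def ex {m : ℕ} (v : Fin m ⊕ Fin m → K) (a b : K) : Fin (m + 1) ⊕ Fin (m + 1) → K :=
  Sum.elim (Fin.cons a fun i => v (.inl i)) (Fin.cons b fun i => v (.inr i))

theorem ex_add {m : ℕ} (u v : Fin m ⊕ Fin m → K) (a b c d : K) : ex u a b + ex v c d = ex (u + v) (a + c) (b + d) := by
  ext (i | i) <;> refine Fin.cases ?_ (fun _ => ?_) i <;> rfl

theorem ex_Q {m : ℕ} (v : Fin m ⊕ Fin m → K) (a b : K) :
    quadFormPlus (m + 1) K (ex v a b) = quadFormPlus m K v + a * b := by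
  simp [quadFormPlus, ex, Fin.sum_univ_succ, add_comm]

theorem two {ι : Type} (v : ι → K) : v + v = 0 := funext fun i => CharTwo.add_self_eq_zero (v i)

theorem pm {m n : ℕ} (h : Fam (quadFormPlus m K) (n + 1)) : Fam (quadFormMinus (m + 1) K 1 1) (n + 5) :=
  h.step (fun v => by rw [two]; simp [quadFormPlus]) (fun u v => by rw [add_comm])
    (fun v a => Sum.elim (ex v (a 0) (a 1)) ![a 2, a 3])
    (fun u v a b => by
      ext (i | i)
      · exact congrFun (ex_add u v _ _ _ _) i
      · fin_cases i <;> rfl)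
    fun u a => by
      have := ex_Q u (a 0) (a 1)
      simp only [quadFormPlus] at this
      simp [quadFormMinus, quadFormPlus, this, N, add_assoc]

theorem mp {m n : ℕ} (h : Fam (quadFormMinus m K 1 1) (n + 1)) : Fam (quadFormPlus (m + 3) K) (n + 5) :=
  h.step (fun v => by rw [two]; simp [quadFormMinus]) (fun u v => by rw [add_comm])
    (fun v a => ex (ex (ex (fun i => v (.inl i)) (a 0) (a 1)) (v (.inr 1) + a 3) (v (.inr 1) + a 2 + a 3))
      (v (.inr 0) + a 2) (v (.inr 0) + v (.inr 1) + a 2))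
    (fun u v a b => by
      simp only [ex_add, Pi.add_apply]
      congr 1 <;> [congr 1; skip; skip] <;> first | rfl | ring)
    fun u a => by
      rw [ex_Q, ex_Q, ex_Q, quadFormMinus, quadFormPlus, N]
      have : ∀ x y z t : K, (y + t) * (y + z + t) + (x + z) * (x + y + z) =
        x ^ 2 + 1 * x * y + 1 * y ^ 2 + (z ^ 2 + z * t + t ^ 2) := by decide
      linear_combination this (u (.inr 0)) (u (.inr 1)) (a 2) (a 3)

theorem fam (j : ℕ) : Fam (quadFormMinus (4 * j) K 1 1) (8 * j + 2 + 1) := by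
  induction j with
  | zero => exact ⟨fun i => Sum.elim 0 (if i = 0 then ![1, 0] else if i = 1 then ![0, 1] else ![1, 1]), by decide, by decide⟩
  | succ j ih => exact pm (n := 8 * j + 6) (mp ih)

theorem fin {ι : Type} [Fintype ι] [DecidableEq ι] (f : Form (Kind.orth K) (ι → K)) {n : ℕ} (hn : 4 ≤ n) (h : Fam f.Q n) :
    ∃ φ : Equiv.Perm (Fin (n + 1)) →* Cfsg.isometryGroup K f.Q, Function.Injective φ := by
  obtain ⟨v, v1, v2⟩ := h
  have : ∀ i : Fin (n + 1), i ≠ Fin.last n → (i : ℕ) < n := fun i => Fin.val_lt_last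
  refine CA.SnOrth.exists_inj (by simpa) rfl f (Fin.last n) (fun i => v i) (fun i hi => v1 i (this i hi))
    fun i j hi hj hij => ?_
  have h := v2 i (this i hi) j (this j hj) (Fin.val_ne_of_ne hij)
  rw [f.Q_add, v1 i (this i hi), v1 j (this j hj)] at h
  exact (zero_add _).symm.trans h

/-- For k ≥ 1 the symmetric group of degree 4k + 4 embeds in a full orthogonal group in dimension 4k + 2 over the field of two elements: in the isometry group of the plus-type form Σ xᵢyᵢ when k is odd, and in that of the minus-type form Σ xᵢyᵢ + (z₁² + z₁z₂ + z₂²) when k is even (through its action on even partitions of a (4k+4)-set, with the form 'half the size of a part, modulo 2'). -/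
theorem result (k : ℕ) (hk : 1 ≤ k) :
    (Odd k → ∃ φ : Equiv.Perm (Fin (4 * k + 4)) →* ↥(Cfsg.isometryGroup (ZMod 2) (Cfsg.quadFormPlus (2 * k + 1) (ZMod 2))), Function.Injective φ) ∧
    (Even k → ∃ φ : Equiv.Perm (Fin (4 * k + 4)) →* ↥(Cfsg.isometryGroup (ZMod 2) (Cfsg.quadFormMinus (2 * k) (ZMod 2) 1 1)), Function.Injective φ) := by
  constructor
  · rintro ⟨j, rfl⟩
    have := mp (fam j)
    rw [show 4 * j + 3 = 2 * (2 * j + 1) + 1 by ring, show 8 * j + 2 + 5 = 4 * (2 * j + 1) + 3 by ring] at this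
    exact fin (plusForm K _) (by omega) this
  · rintro ⟨j, rfl⟩
    have := fam j
    rw [show 4 * j = 2 * (j + j) by ring, show 8 * j + 2 + 1 = 4 * (j + j) + 3 by ring] at this
    exact fin (minusForm _ 1 1) (by omega) this

end Cfsg.Agent.S2563
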