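import Cfsg.Statements.S2565
import Cfsg.Agent.S0302
import Cfsg.Agent.Lib.Lin.A8GL4

set_option autoImplicit false
open Cfsg

namespace Cfsg.Agent.S2565

open CA.CForm CA.CForm.Form

/-- The commutator subgroup of the full orthogonal group of the plus-type form Σ xᵢyᵢ in dimension 6 over the field of two elements (the group Ω⁺₆(2), of index 2) is isomorphic to the alternating group of degree 8. -/
theorem result :
    (Cfsg.Omega (ZMod 2) (Cfsg.quadFormPlus 3 (ZMod 2))).index = 2 ∧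
    Nonempty (↥(Cfsg.Omega (ZMod 2) (Cfsg.quadFormPlus 3 (ZMod 2))) ≃* alternatingGroup (Fin 8)) := by
  have hn := plusForm_nondeg (ZMod 2) 3
  have hg : (plusForm (ZMod 2) 3).Good := good_of_five_le (by simp)
  have hi := hn.index_commutator_of_two_eq_zero hg (by decide)
  have hc := (plusForm_isIndex (ZMod 2) 3).card_isom_plus hn (finrank_plus _)
  have e0 : Cfsg.isometryGroup (ZMod 2) (Cfsg.quadFormPlus 3 (ZMod 2)) ≃* _ := orthEquiv (plusForm (ZMod 2) 3)
  have e1 : Cfsg.Omega (ZMod 2) (Cfsg.quadFormPlus 3 (ZMod 2)) ≃* _ := omegaEquiv (plusForm (ZMod 2) 3)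
  have h1 := (commutator (plusForm (ZMod 2) 3).Isom).index_mul_card
  have h2 := (Cfsg.Omega (ZMod 2) (Cfsg.quadFormPlus 3 (ZMod 2))).index_mul_card
  rw [Nat.card_zmod] at hc
  norm_num [Finset.prod_range_succ] at hc
  rw [hi, hc, ← Nat.card_congr e1.toEquiv] at h1
  rw [Nat.card_congr e0.toEquiv, hc] at h2
  obtain ⟨e2⟩ := Cfsg.Agent.S0302.result (F := ZMod 2)
  obtain ⟨e3⟩ := CA.A8GL4.nonempty_PSL (F := ZMod 2) (Nat.card_zmod 2)
  have h3 := (Subgroup.center (Cfsg.Omega (ZMod 2) (Cfsg.quadFormPlus 3 (ZMod 2)))).index_mul_card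
  rw [Subgroup.index, Nat.card_congr (e2.trans e3).toEquiv, CA.A8GL4.card_A8] at h3
  have h4 : Subgroup.center (Cfsg.Omega (ZMod 2) (Cfsg.quadFormPlus 3 (ZMod 2))) = ⊥ :=
    Subgroup.eq_bot_of_card_eq _ (by omega)
  refine ⟨?_, ⟨((QuotientGroup.quotientMulEquivOfEq h4).trans QuotientGroup.quotientBot).symm.trans (e2.trans e3)⟩⟩
  have : Nat.card (Cfsg.Omega (ZMod 2) (Cfsg.quadFormPlus 3 (ZMod 2))) = 20160 := by omega
  rw [this] at h2
  exact Nat.eq_of_mul_eq_mul_right (by norm_num) (h2.trans (by norm_num))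

end Cfsg.Agent.S2565
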