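import Cfsg.Statements.S2567
import Cfsg.Agent.Lib.Lin.Rcf2

set_option autoImplicit false
open Cfsg

namespace Cfsg.Agent.S2567

open CA.CForm CA.CForm.Form CA.Rcf Polynomial in
/-- Lifting elements of prime order from PGL to GL: let F be a finite field with q elements, r a prime not dividing q − 1, and x an element of order r in GL_n(F) modulo its centre (the scalar matrices). Then x has exactly one preimage in GL_n(F) of order r. -/
theorem result {F : Type*} [Field F] [Fintype F] {q n r : ℕ} (hF : Fintype.card F = q) (hr : r.Prime) (hdiv : ¬ r ∣ q - 1) (x : GL (Fin n) F ⧸ Subgroup.center (GL (Fin n) F)) (hx : orderOf x = r) : ∃! g : GL (Fin n) F, (QuotientGroup.mk g : GL (Fin n) F ⧸ Subgroup.center (GL (Fin n) F)) = x ∧ orderOf g = r := by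
  obtain ⟨g, rfl⟩ := QuotientGroup.mk_surjective x
  have hq : Nat.card Fˣ = q - 1 := by rw [Nat.card_units, Nat.card_eq_fintype_card, hF]
  have hco : (q - 1).Coprime r := ((Nat.Prime.coprime_iff_not_dvd hr).2 hdiv).symm
  have hZ : ∀ z ∈ Subgroup.center (GL (Fin n) F), z ^ (q - 1) = 1 := fun z hz => by
    rw [Matrix.GeneralLinearGroup.center_eq_range_scalar] at hz
    obtain ⟨a, rfl⟩ := hz
    rw [← map_pow, ← hq, pow_card_eq_one', map_one]
  have h1 : g ^ r ∈ Subgroup.center (GL (Fin n) F) := by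
    rw [← QuotientGroup.eq_one_iff, QuotientGroup.mk_pow, ← hx, pow_orderOf_eq_one]
  obtain ⟨k, hk⟩ : ∃ k, (q - 1) * k % r = 1 := by
    obtain ⟨k, -, hk⟩ := Nat.exists_mul_mod_eq_one_of_coprime hco hr.one_lt
    exact ⟨k, hk⟩
  have h2 : (QuotientGroup.mk (g ^ ((q - 1) * k)) :
      GL (Fin n) F ⧸ Subgroup.center (GL (Fin n) F)) = QuotientGroup.mk g := by
    rw [QuotientGroup.mk_pow, ← pow_mod_orderOf, hx, hk, pow_one]
  haveI : Fact r.Prime := ⟨hr⟩
  refine ⟨g ^ ((q - 1) * k), ⟨h2, orderOf_eq_prime ?_ fun h => ?_⟩, fun y ⟨hy, hy'⟩ => ?_⟩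
  · rw [← pow_mul, mul_comm, pow_mul, pow_mul, hZ _ h1, one_pow]
  · rw [← h2, h, QuotientGroup.mk_one, orderOf_one] at hx
    exact hr.one_lt.ne hx
  · have h3 := QuotientGroup.eq.1 hy
    have h4 : g = y * (y⁻¹ * g) := by group
    rw [h4, Commute.mul_pow (Subgroup.mem_center_iff.1 h3 y), pow_mul (y⁻¹ * g), hZ _ h3, one_pow,
      mul_one, ← pow_mod_orderOf, hy', hk, pow_one]

end Cfsg.Agent.S2567
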