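import Cfsg.Statements.S2568
import Cfsg.Agent.Lib.Lin.Rcf3

set_option autoImplicit false
open Cfsg

namespace Cfsg.Agent.S2568

open CA.CForm CA.CForm.Form CA.Rcf Polynomial in
/-- Number of conjugacy classes of elements of a given prime order r, coprime to the characteristic, in GL_n(q): if i is the multiplicative order of q modulo r and t = (r − 1)/i, the classes correspond to the non-zero t-tuples of natural numbers (a_1, …, a_t) with i(a_1 + ⋯ + a_t) ≤ n (a_j is the multiplicity of the j-th Frobenius orbit of nontrivial r-th roots of unity among the eigenvalues), so there are exactly C(⌊n/i⌋ + t, t) − 1 of them. -/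
theorem result {F : Type*} [Field F] [Fintype F] {p q : ℕ} [Fact p.Prime] [CharP F p] (hF : Fintype.card F = q) (n r i t : ℕ) (hr : r.Prime) (hrp : r ≠ p) (hi : i = orderOf (q : ZMod r)) (ht : t * i = r - 1) : Nat.card {C : ConjClasses (GL (Fin n) F) // ∃ g : GL (Fin n) F, ConjClasses.mk g = C ∧ orderOf g = r} = Nat.choose (n / i + t) t - 1 := by
  have := Fact.mk hr
  have hr0 : (r : F) ≠ 0 := natCast_ne_zero_of_ne hrp
  rw [← hF, ← Nat.card_eq_fintype_card] at hi
  have h1 := (natDegree_cycT hr0).2
  have hi0 := orderOf_card_pos hr0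
  rw [← hi] at h1 hi0
  rw [card_order_classes hr0 (glEquiv (ι := Fin n) (F := F)).toMonoidHom glEquiv.injective
    (fun g h _ _ => (isConj_congr glEquiv).1) (fun m => m.card ∈ Finset.Icc 1 (n / i))
    (fun m h0 hm => ?_) (by simp), card_multiset, sum_Icc_multichoose,
    Nat.eq_of_mul_eq_mul_right hi0 (h1.trans ht.symm)]
  rw [Finset.mem_Icc, and_iff_right (Nat.succ_le_of_lt (Multiset.card_pos.2 h0)),
    Nat.le_div_iff_mul_le hi0, mul_comm]
  constructor
  · intro h
    obtain ⟨g, hg⟩ := exists_equiv_cycT (V := Fin n → F) hr0 hm (k := n - i * m.card)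
      (by rw [← hi, Module.finrank_fin_fun]; omega)
    exact ⟨glEquiv.symm g, _, by rw [← hg]; simp⟩
  · rintro ⟨g, k, h⟩
    have := finrank_eq_of_edivs hr0 hm h
    rw [← hi, Module.finrank_fin_fun] at this
    omega

end Cfsg.Agent.S2568
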