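import Cfsg.Statements.S2569
import Cfsg.Agent.Lib.Lin.Rcf2

set_option autoImplicit false
open Cfsg

namespace Cfsg.Agent.S2569

open CA.CForm CA.Rcf Polynomial in
/-- In GL_n over a finite field of characteristic p, the conjugacy class of a semisimple element (an element of order prime to p) under the special linear group is its whole GL-conjugacy class: for every such x and every invertible g there is h of determinant one with h x h⁻¹ = g x g⁻¹. -/
theorem result {F : Type*} [Field F] [Fintype F] {p : ℕ} [Fact p.Prime] [CharP F p] {n : ℕ} (x g : GL (Fin n) F) (hx : (orderOf x).Coprime p) : ∃ h : GL (Fin n) F, (h : Matrix (Fin n) (Fin n) F).det = 1 ∧ h * x * h⁻¹ = g * x * g⁻¹ := by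
  rcases n with _ | n
  · exact ⟨1, by simp, Subsingleton.elim _ _⟩
  obtain ⟨c, h1, h2⟩ := ((isSS_iff_coprime p (glEquiv x)).2
    (by rwa [MulEquiv.orderOf_eq])).exists_commute_det (by simp)
      (Matrix.GeneralLinearGroup.det g).ne_zero
  obtain ⟨c, rfl⟩ := glEquiv.surjective c
  have h3 : c * x = x * c := glEquiv.injective (by
    rw [map_mul, map_mul]; exact LinearEquiv.ext h1)
  have h4 : Matrix.GeneralLinearGroup.det c = Matrix.GeneralLinearGroup.det g :=
    Units.ext ((LinearMap.det_toLin' _).symm.trans h2)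
  refine ⟨g * c⁻¹, ?_, ?_⟩
  · rw [← Matrix.GeneralLinearGroup.val_det_apply, map_mul, map_inv, h4, mul_inv_cancel]; rfl
  · rw [mul_assoc g, show c⁻¹ * x = x * c⁻¹ by
      rw [inv_mul_eq_iff_eq_mul, ← mul_assoc, h3, mul_inv_cancel_right]]
    group

end Cfsg.Agent.S2569
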