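import Cfsg.Statements.S2570
import Cfsg.Agent.Lib.Lin.Rcf2

set_option autoImplicit false
open Cfsg

namespace Cfsg.Agent.S2570

open CA.CForm CA.Rcf Polynomial in
/-- Number of conjugacy classes of elements of order p in GL_n over a finite field of characteristic p: they correspond to the Jordan types, that is, to the partitions of n with all parts at most p other than the partition into ones, so there are (number of partitions of n with parts ≤ p) − 1 of them. -/
theorem result {F : Type*} [Field F] [Fintype F] {p : ℕ} [Fact p.Prime] [CharP F p] (n : ℕ) : Nat.card {C : ConjClasses (GL (Fin n) F) // ∃ g : GL (Fin n) F, ConjClasses.mk g = C ∧ orderOf g = p} = (Finset.univ.filter (fun μ : Nat.Partition n => ∀ a ∈ μ.parts, a ≤ p)).card - 1 := by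
  have hp : p.Prime := Fact.out
  rw [card_unip_classes (glEquiv (ι := Fin n) (F := F)).toMonoidHom (n := n) (by simp) _
    (fun μ => (∀ a ∈ μ, a ≤ p) ∧ ¬∀ a ∈ μ, a ≤ 1)
    (fun g => by
      rw [← orderOf_eq_char_iff p, MulEquiv.coe_toMonoidHom, MulEquiv.orderOf_eq])
    (fun g h => (isConj_congr glEquiv).1) fun u _ => ⟨glEquiv.symm u, by
      rw [MulEquiv.coe_toMonoidHom, MulEquiv.apply_symm_apply]⟩]
  exact card_partition_ne_one n (fun μ => ∀ a ∈ μ, a ≤ p) fun a ha => by
    rw [Multiset.eq_of_mem_replicate ha]; exact hp.one_le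

end Cfsg.Agent.S2570
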