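import Cfsg.Statements.S2571
import Cfsg.Agent.Lib.Lin.Rcf3

set_option autoImplicit false
open Cfsg

namespace Cfsg.Agent.S2571

open CA.CForm CA.CForm.Form CA.Rcf Polynomial in
/-- Centraliser of a regular unipotent element in GL_n(q): if u is an invertible n × n matrix over the field with q elements, n ≥ 1, with (u − 1)^n = 0 and rank(u − 1) = n − 1 (a single unipotent Jordan block), then its centraliser in GL_n(q) has order (q − 1) q^(n−1). -/
theorem result {F : Type*} [Field F] [Fintype F] {q n : ℕ} (hF : Fintype.card F = q) (hn : 1 ≤ n) (u : GL (Fin n) F) (hnil : ((u : Matrix (Fin n) (Fin n) F) - 1) ^ n = 0) (hreg : ((u : Matrix (Fin n) (Fin n) F) - 1).rank = n - 1) : Nat.card ↥(Subgroup.centralizer ({u} : Set (GL (Fin n) F))) = (q - 1) * q ^ (n - 1) := by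
  have h1 := rank_add_finrank_ker (u : Matrix (Fin n) (Fin n) F)
  rw [Fintype.card_fin] at h1
  obtain ⟨φ, -⟩ := nonempty_centralizer_equiv (g := glEquiv u) (sim_cyc_of_regular
    ⟨n, (toLin'_sub_one_pow u.1 n).2 hnil⟩ (by rw [coe_glEquiv]; omega))
  rw [card_centralizer_congr glEquiv, ← Nat.card_congr φ.toEquiv, Module.finrank_fin_fun]
  obtain ⟨e, rfl⟩ := Nat.exists_eq_add_of_le' hn
  have := card_units_adjoinRoot (irreducible_X_sub_C (1 : F)) e
  rw [natDegree_X_sub_C, mul_one, mul_one, Nat.card_eq_fintype_card (α := F), hF, C_1] at this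
  rw [Nat.add_sub_cancel, Nat.sub_mul, one_mul, ← pow_succ']
  omega

end Cfsg.Agent.S2571
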