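import Cfsg.Statements.S2572
import Cfsg.Agent.Lib.Lin.Rcf3
import Cfsg.Agent.Lib.Char.CharOrth

set_option autoImplicit false
open Cfsg

namespace Cfsg.Agent.S2572

open Matrix Module

section
variable {F : Type*} [Field F] {n : ℕ}

theorem tv_iff (t : Matrix (Fin n) (Fin n) F) : IsTransvection t ↔
    ∃ u φ : Fin n → F, (u ≠ 0 ∧ φ ≠ 0 ∧ φ ⬝ᵥ u = 0) ∧ t = 1 + vecMulVec u φ := by
  constructor
  · rintro ⟨h1, h2⟩
    obtain ⟨u, φ, h⟩ : ∃ u φ : Fin n → F, t - 1 = vecMulVec u φ := by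
      obtain ⟨u, hu⟩ := finrank_le_one_iff.1 h1.le
      choose c hc using fun j => hu ⟨_, LinearMap.mem_range_self _ (Pi.single j 1)⟩
      refine ⟨u, c, ?_⟩
      ext i j
      have := congrFun (congrArg Subtype.val (hc j)) i
      simpa [vecMulVec_apply, mul_comm, Pi.single_apply, one_apply] using this.symm
    have hu : u ≠ 0 := by rintro rfl; simp [h] at h1
    have hφ : φ ≠ 0 := by rintro rfl; simp [h] at h1
    have h3 : φ ⬝ᵥ u = 0 := by
      rw [h, vecMulVec_mul_vecMulVec, vecMulVec_eq_zero, smul_eq_zero] at h2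
      tauto
    exact ⟨u, φ, ⟨hu, hφ, h3⟩, eq_add_of_sub_eq' h⟩
  · rintro ⟨u, φ, ⟨h1, h2, h3⟩, rfl⟩
    rw [IsTransvection, add_sub_cancel_left, vecMulVec_mul_vecMulVec, h3, zero_smul]
    refine ⟨le_antisymm (rank_vecMulVec_le _ _) (Nat.one_le_iff_ne_zero.2 fun h => ?_), by simp⟩
    have := Submodule.finrank_eq_zero.1 h
    rw [LinearMap.range_eq_bot, ← Matrix.toLin'_apply', LinearEquiv.map_eq_zero_iff,
      vecMulVec_eq_zero] at this
    tauto

theorem vmv_eq {u φ u' φ' : Fin n → F} (hu : u ≠ 0) (hφ : φ ≠ 0)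
    (h : vecMulVec u' φ' = vecMulVec u φ) : ∃ c : Fˣ, u' = (c : F) • u ∧ φ' = ((c⁻¹ : Fˣ) : F) • φ := by
  obtain ⟨i, hi⟩ := Function.ne_iff.1 hu
  obtain ⟨j, hj⟩ := Function.ne_iff.1 hφ
  have H : ∀ i j, u' i * φ' j = u i * φ j := fun i j => congrFun (congrFun h i) j
  have h0 : u' i * φ' j ≠ 0 := H i j ▸ mul_ne_zero hi hj
  have h1 := left_ne_zero_of_mul h0
  have h2 := right_ne_zero_of_mul h0
  have hi' : u i ≠ 0 := hi
  refine ⟨Units.mk0 (u' i / u i) (div_ne_zero h1 hi), funext fun k => ?_, funext fun k => ?_⟩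
  · have := H k j
    have := H i j
    simp only [Units.val_mk0, Pi.smul_apply, smul_eq_mul]
    field_simp
    apply mul_right_cancel₀ h2
    grind
  · have := H i k
    simp only [Units.val_inv_eq_inv_val, Units.val_mk0, Pi.smul_apply, smul_eq_mul]
    field_simp
    grind

theorem card_ne_zero {A : Type*} [Zero A] [Finite A] : Nat.card {a : A // a ≠ 0} = Nat.card A - 1 := by
  classical
  have := Fintype.ofFinite A
  simp [Fintype.card_subtype_compl]

theorem card_perp [Finite F] {u : Fin n → F} (hu : u ≠ 0) :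
    Nat.card {φ : Fin n → F // φ ≠ 0 ∧ φ ⬝ᵥ u = 0} = Nat.card F ^ (n - 1) - 1 := by
  let l : (Fin n → F) →ₗ[F] F := (dotProductBilin F F).flip u
  have h1 : finrank F (LinearMap.range l) = 1 := by
    obtain ⟨i, hi⟩ := Function.ne_iff.1 hu
    have hi' : u i ≠ 0 := hi
    rw [LinearMap.range_eq_top.2 fun c => ⟨Pi.single i (c / u i), by simp [l, hi']⟩]
    simp
  have h2 := l.finrank_range_add_finrank_ker
  rw [h1, finrank_fin_fun] at h2
  have h3 := Module.natCard_eq_pow_finrank (K := F) (V := LinearMap.ker l)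
  rw [show finrank F (LinearMap.ker l) = n - 1 by omega] at h3
  rw [← h3, ← card_ne_zero]
  exact Nat.card_congr ⟨fun φ => ⟨⟨φ.1, φ.2.2⟩, fun h => φ.2.1 (congrArg Subtype.val h)⟩,
    fun φ => ⟨φ.1.1, fun h => φ.2 (Subtype.ext h), φ.1.2⟩, fun _ => rfl, fun _ => rfl⟩

theorem card_tv [Finite F] : Nat.card {t : GL (Fin n) F // IsTransvection t.1} * (Nat.card F - 1) =
    (Nat.card F ^ n - 1) * (Nat.card F ^ (n - 1) - 1) := by
  classical
  have := Fintype.ofFinite F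
  let P := {p : (Fin n → F) × (Fin n → F) // p.1 ≠ 0 ∧ p.2 ≠ 0 ∧ p.2 ⬝ᵥ p.1 = 0}
  have h1 : Nat.card P = (Nat.card F ^ n - 1) * (Nat.card F ^ (n - 1) - 1) := by
    rw [Nat.card_congr (show P ≃ (Σ u : {u : Fin n → F // u ≠ 0},
      {φ : Fin n → F // φ ≠ 0 ∧ φ ⬝ᵥ u.1 = 0}) from
      ⟨fun p => ⟨⟨p.1.1, p.2.1⟩, p.1.2, p.2.2⟩, fun p => ⟨(p.1.1, p.2.1), p.1.2, p.2.2⟩,
        fun _ => rfl, fun _ => rfl⟩), Nat.card_sigma,
      Finset.sum_congr rfl fun u _ => card_perp u.2, Finset.sum_const, Finset.card_univ,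
      ← Nat.card_eq_fintype_card, card_ne_zero, Nat.card_fun]
    simp
  let f : P → {t : GL (Fin n) F // IsTransvection t.1} := fun p =>
    ⟨⟨1 + vecMulVec p.1.1 p.1.2, 1 - vecMulVec p.1.1 p.1.2,
      by simp [mul_sub, add_mul, vecMulVec_mul_vecMulVec, p.2.2.2],
      by simp [sub_mul, mul_add, vecMulVec_mul_vecMulVec, p.2.2.2]⟩,
      (tv_iff _).2 ⟨_, _, p.2, rfl⟩⟩
  rw [← h1, ← Nat.card_congr (Equiv.sigmaFiberEquiv f), Nat.card_sigma,
    Finset.sum_congr rfl (g := fun _ => Nat.card F - 1) fun t _ => ?_]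
  · simp
  obtain ⟨u, φ, h, ht⟩ := (tv_iff _).1 t.2
  rw [← Nat.card_units]
  refine (Nat.card_congr (Equiv.ofBijective (fun c : Fˣ => (⟨⟨((c : F) • u, ((c⁻¹ : Fˣ) : F) • φ),
    smul_ne_zero c.ne_zero h.1, smul_ne_zero c⁻¹.ne_zero h.2.1, by simp [h.2.2]⟩,
    Subtype.ext (Units.ext ?_)⟩ : {p // f p = t})) ⟨fun c d hcd => ?_, fun p => ?_⟩)).symm
  · rw [ht]
    simp [f, smul_vecMulVec, vecMulVec_smul, smul_smul]
  · have : (c : F) • u = (d : F) • u := congrArg (fun p : {p // f p = t} => p.1.1.1) hcd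
    exact Units.ext (smul_left_injective F h.1 this)
  · have h2 : 1 + vecMulVec p.1.1.1 p.1.1.2 = t.1.1 := congrArg (fun t => t.1.1) p.2
    obtain ⟨c, h3, h4⟩ := vmv_eq h.1 h.2.1 (add_left_cancel (h2.trans ht))
    exact ⟨c, Subtype.ext (Subtype.ext (Prod.ext h3.symm h4.symm))⟩

end

open CA.CForm CA.CForm.Form CA.Rcf Module Polynomial Matrix in
/-- Centraliser of a transvection in GL_n(q), n ≥ 2: if t − 1 has rank one and square zero, the centraliser of t in GL_n(q) has order q^(2n−3) (q − 1) |GL_(n−2)(q)| (a group of order q^(2n−3) extended by GL_1(q) × GL_(n−2)(q)). -/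
theorem result {F : Type*} [Field F] [Fintype F] {q n : ℕ} (hF : Fintype.card F = q) (hn : 2 ≤ n) (t : GL (Fin n) F) (ht : Cfsg.IsTransvection (t : Matrix (Fin n) (Fin n) F)) : Nat.card ↥(Subgroup.centralizer ({t} : Set (GL (Fin n) F))) = q ^ (2 * n - 3) * (q - 1) * ∏ i : Fin (n - 2), (q ^ (n - 2) - q ^ (i : ℕ)) := by
  have k1 : ∀ a : GL (Fin n) F, IsTransvection a.1 ↔ (Matrix.toLin' a.1 - 1) ^ 2 = 0 ∧
      Module.finrank F (LinearMap.ker (Matrix.toLin' a.1 - 1)) + 1 = n := fun a => by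
    have := rank_add_finrank_ker a.1
    rw [Fintype.card_fin] at this
    rw [toLin'_sub_one_pow, IsTransvection, sq, and_comm]
    exact and_congr Iff.rfl (by omega)
  have k2 : ∀ a : GL (Fin n) F, IsConj t a ↔ IsTransvection a.1 := fun a => by
    obtain ⟨h1, h2⟩ := (k1 t).1 ht
    rw [isConj_GL_iff, k1]
    refine ⟨fun h => ⟨(h.sub_one_pow 2).eq_zero_iff.1 h1, ?_⟩,
      fun h => sim_of_sq_eq_zero h1 h.1 rfl (by omega)⟩
    have := (h.sub_one_pow 1).finrank_ker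
    rw [pow_one, pow_one] at this
    omega
  have h1 := card_tv (F := F) (n := n)
  rw [← Nat.card_congr (Equiv.subtypeEquivRight k2), CChar.CharOrth.natCard_class_eq_index,
    Nat.card_eq_fintype_card (α := F), hF] at h1
  have h2 := (Subgroup.centralizer ({t} : Set (GL (Fin n) F))).card_mul_index
  rw [card_GL_field, hF] at h2
  have hq : 2 ≤ q := hF ▸ Fintype.one_lt_card
  obtain ⟨m, rfl⟩ : ∃ m, n = m + 2 := ⟨n - 2, by omega⟩
  rw [Fin.prod_univ_succ, Fin.prod_univ_succ, Finset.prod_congr rfl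
    (g := fun i : Fin m => q ^ 2 * (q ^ m - q ^ (i : ℕ))) fun i _ => by
      simp only [Fin.val_succ, Nat.mul_sub]; congr 1 <;> ring, Finset.prod_mul_distrib] at h2
  have h3 : 0 < (q ^ (m + 2) - 1) * (q ^ (m + 2 - 1) - 1) :=
    Nat.mul_pos (Nat.sub_pos_of_lt (Nat.one_lt_pow (by omega) hq))
      (Nat.sub_pos_of_lt (Nat.one_lt_pow (by omega) hq))
  show _ = q ^ (2 * (m + 2) - 3) * (q - 1) * ∏ i : Fin m, (q ^ m - q ^ (i : ℕ))
  refine Nat.eq_of_mul_eq_mul_right h3 ?_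
  rw [← h1, ← mul_assoc, h2, h1]
  have h4 : q ^ (m + 2) - q = q * (q ^ (m + 1) - 1) := by rw [Nat.mul_sub]; congr 1 <;> ring
  simp only [Fin.val_zero, Fin.val_succ, pow_zero, zero_add, pow_one, h4, Finset.prod_const,
    Finset.card_univ, Fintype.card_fin, show m + 2 - 2 = m from rfl, show m + 2 - 1 = m + 1 from rfl,
    show 2 * (m + 2) - 3 = 2 * m + 1 by omega]
  generalize (∏ x : Fin m, (q ^ m - q ^ (x : ℕ))) = A
  generalize q ^ (m + 2) - 1 = B
  generalize q ^ (m + 1) - 1 = D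
  generalize q - 1 = E
  ring

end Cfsg.Agent.S2572
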