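import Cfsg.Statements.S2574
import Cfsg.Agent.Lib.Lin.Rcf3

set_option autoImplicit false
open Cfsg

namespace Cfsg.Agent.S2574

open CA.CForm CA.CForm.Form CA.Rcf Polynomial in
/-- A regular unipotent element of the symplectic group has totally isotropic small invariant subspaces: over a finite field, if u ∈ Sp_2m(F) satisfies (u − 1)^(2m) = 0 and rank(u − 1) = 2m − 1, and W is a u-invariant subspace with 2 dim W ≤ 2m, then the alternating form vanishes identically on W. -/
theorem result {F : Type*} [Field F] [Finite F] {m : ℕ} (u : Matrix.symplecticGroup (Fin m) F) (hnil : ((u : Matrix (Fin m ⊕ Fin m) (Fin m ⊕ Fin m) F) - 1) ^ (2 * m) = 0) (hreg : ((u : Matrix (Fin m ⊕ Fin m) (Fin m ⊕ Fin m) F) - 1).rank = 2 * m - 1) (W : Submodule F (Fin m ⊕ Fin m → F)) (hW : ∀ v ∈ W, (u : Matrix (Fin m ⊕ Fin m) (Fin m ⊕ Fin m) F).mulVec v ∈ W) (hdim : 2 * Module.finrank F W ≤ 2 * m) : ∀ v ∈ W, ∀ w ∈ W, Cfsg.sympForm m F v w = 0 := by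
  have h1 := rank_add_finrank_ker (u : Matrix (Fin m ⊕ Fin m) (Fin m ⊕ Fin m) F)
  rw [Fintype.card_sum, Fintype.card_fin] at h1
  have k := fun U => eq_ker_of_regular (A := Matrix.toLin' u.1) (U := U)
    ⟨_, (toLin'_sub_one_pow u.1 _).2 hnil⟩ (by omega)
  have h2 := (sympStd_nondeg F m).finrank_perp W
  rw [finrank_plus] at h2
  have h3 : spEquiv F m u ∈ (sympStd F m).stab ((sympStd F m).perp W) :=
    stab_le_stab_perp _ _ (mem_stab_of_le _ hW)
  have h4 : W ≤ (sympStd F m).perp W := by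
    rw [k _ fun v hv => (h3 v).1 hv]
    refine (k W hW).le.trans fun v hv => ?_
    obtain ⟨j, hj⟩ := Nat.exists_eq_add_of_le' (show Module.finrank F W ≤
      Module.finrank F ((sympStd F m).perp W) by omega)
    rw [LinearMap.mem_ker] at hv ⊢
    rw [hj, pow_add, Module.End.mul_apply, hv, map_zero]
  exact fun v hv w hw => (sympStd_B F m v w).symm.trans (h4 hw v hv)

end Cfsg.Agent.S2574
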