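import Cfsg.Statements.S2575
import Cfsg.Agent.Lib.Lin.Rcf3

set_option autoImplicit false
open Cfsg

namespace Cfsg.Agent.S2575

open CA.CForm CA.CForm.Form CA.Rcf Polynomial in
/-- Which diagonal involutions of PGL_n(q) lie in PSL_n(q), q odd: for the diagonal matrix t with i entries −1 and n − i entries 1, some non-zero scalar multiple of t has determinant one if and only if i is even or the 2-part of q − 1 exceeds the 2-part of n (that is, −1 is an n-th power in the field exactly in the latter case). -/
theorem result {F : Type*} [Field F] [Fintype F] {q : ℕ} (hF : Fintype.card F = q) (hq : Odd q) {n : ℕ} (hn : 1 ≤ n) (i : ℕ) (hi : i ≤ n) : (∃ c : F, c ≠ 0 ∧ (c • Matrix.diagonal (fun j : Fin n => if (j : ℕ) < i then (-1 : F) else 1)).det = 1) ↔ (Even i ∨ padicValNat 2 n < padicValNat 2 (q - 1)) := by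
  have h2 : (2 : F) ≠ 0 := two_ne_zero_iff_odd.2 (hF ▸ hq)
  have hq1 : q - 1 ≠ 0 := by have := Fintype.one_lt_card (α := F); omega
  have h1 : (Matrix.diagonal (fun j : Fin n => if (j : ℕ) < i then (-1 : F) else 1)).det = (-1) ^ i := by
    rw [Matrix.det_diagonal, Finset.prod_ite, Finset.prod_const_one, mul_one, Finset.prod_const,
      Fin.card_filter_val_lt, min_eq_right hi]
  simp only [Matrix.det_smul, h1, Fintype.card_fin]
  rcases Nat.even_or_odd i with h | h
  · exact iff_of_true ⟨1, one_ne_zero, by simp [h.neg_one_pow]⟩ (Or.inl h)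
  rw [h.neg_one_pow, exists_pow_eq_iff' (by simp), hF, orderOf_neg_one,
    if_neg (ringChar_ne_two_iff.2 h2), or_iff_right (Nat.not_even_iff_odd.2 h), ← pow_one 2,
    padicValNat_dvd_iff_le (Nat.div_pos (Nat.gcd_le_left _ (by omega))
      (Nat.gcd_pos_of_pos_right _ hn)).ne', pow_one, padicValNat_div_gcd 2 hq1 (by omega)]
  omega

end Cfsg.Agent.S2575
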