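import Cfsg.Statements.S2576
import Cfsg.Agent.Lib.Lin.Rcf3

set_option autoImplicit false
open Cfsg

namespace Cfsg.Agent.S2576

open CA.CForm CA.CForm.Form CA.Rcf Polynomial in
/-- Which involutions of PGL_2m(q) coming from a scalar of the quadratic extension field lie in PSL_2m(q), q odd: let μ generate the Sylow 2-subgroup of the multiplicative group of the field with q elements (μ has order the 2-part of q − 1) and let t be the block-diagonal matrix with m diagonal blocks [[0, 1], [μ, 0]] (so t² is the scalar μ and t is an involution modulo scalars). Then some non-zero scalar multiple of t has determinant one if and only if q ≡ 3 (mod 4) or the 2-part of q − 1 is less than the 2-part of 2m. -/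
theorem result {F : Type*} [Field F] [Fintype F] {q : ℕ} (hF : Fintype.card F = q) (hq : Odd q) {m : ℕ} (hm : 1 ≤ m) (μ : F) (hμ : orderOf μ = 2 ^ padicValNat 2 (q - 1)) : (∃ c : F, c ≠ 0 ∧ (c • Matrix.blockDiagonal (fun _ : Fin m => !![(0 : F), 1; μ, 0])).det = 1) ↔ (q % 4 = 3 ∨ padicValNat 2 (q - 1) < padicValNat 2 (2 * m)) := by
  have h2 : (2 : F) ≠ 0 := two_ne_zero_iff_odd.2 (hF ▸ hq)
  have hq1 : q - 1 ≠ 0 := by have := Fintype.one_lt_card (α := F); omega
  have h0 : μ ≠ 0 := by
    rintro rfl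
    rw [orderOf_zero] at hμ
    exact absurd hμ (by positivity)
  have h1 : (Matrix.blockDiagonal (fun _ : Fin m => !![(0 : F), 1; μ, 0])).det = (-μ) ^ m := by
    simp [Matrix.det_blockDiagonal]
  simp only [Matrix.det_smul, h1, Fintype.card_fin, Fintype.card_prod]
  have h3 : 1 ≤ padicValNat 2 (q - 1) := (padicValNat_dvd_iff_le hq1).1 (by
    obtain ⟨k, rfl⟩ := hq; simp)
  have h4 : 2 ≤ padicValNat 2 (q - 1) ↔ q % 4 ≠ 3 := by
    rw [← padicValNat_dvd_iff_le hq1]
    obtain ⟨k, rfl⟩ := hq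
    omega
  obtain ⟨s, hs⟩ := Nat.exists_eq_add_of_le' h3
  have h5 : μ ^ 2 ^ s = -1 := by
    refine (sq_eq_one_iff.1 ?_).resolve_left fun h => ?_
    · rw [← pow_mul, ← pow_succ, ← hs, ← hμ, pow_orderOf_eq_one]
    · have := orderOf_dvd_of_pow_eq_one h
      rw [hμ, hs, Nat.pow_dvd_pow_iff_le_right one_lt_two] at this
      omega
  by_cases h : q % 4 = 3
  · obtain rfl : s = 0 := by omega
    refine iff_of_true ⟨1, one_ne_zero, ?_⟩ (Or.inl h)
    rw [pow_zero, pow_one] at h5
    simp [h5]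
  have h6 : orderOf (-μ) = 2 ^ (s + 1) := by
    rw [← neg_one_mul, ← h5, ← pow_succ, Nat.Coprime.orderOf_pow, hμ, hs]
    rw [hμ]
    exact Nat.Coprime.pow_left _ (Nat.coprime_two_left.2 (Even.add_one
      (Nat.even_pow.2 ⟨even_two, by omega⟩)))
  have h7 := padicValNat.mul (p := 2) two_ne_zero (show m ≠ 0 by omega)
  rw [exists_pow_eq_iff' (by simp [h0]), hF, or_iff_right h, orderOf_dvd_iff_pow_eq_one, ← pow_mul,
    ← orderOf_dvd_iff_pow_eq_one, h6]
  have h8 := (Nat.div_pos (Nat.gcd_le_left (2 * m) (Nat.pos_of_ne_zero hq1))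
      (Nat.gcd_pos_of_pos_right (q - 1) (by omega))).ne'
  rw [padicValNat_dvd_iff_le (mul_ne_zero (by omega) h8), padicValNat.mul (by omega) h8,
    padicValNat_div_gcd 2 hq1 (by omega)]
  rw [padicValNat_self] at h7
  omega

end Cfsg.Agent.S2576
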