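import Cfsg.Statements.S2670
import Cfsg.Agent.Lib.Lin.PCls

set_option autoImplicit false
open Cfsg

namespace Cfsg.Agent.S2670

open CA.CForm CA.CForm.Form CA.Rcf CA.El CA.PCls Module Polynomial in
/-- Number of conjugacy classes of elements of prime order r in PGL_n(q) = GL_n(q)/scalars when r divides q − 1 (n ≥ 2): the classes of elements with a diagonalisable lift correspond to the orbits of the cyclic rotation on the r-tuples of eigenvalue multiplicities (a_0, …, a_(r−1)) summing to n with every a_j < n, and when r divides n there are r − 1 further classes (lifts acting irreducibly on blocks of size r); in all (C(n+r−1, r−1) − r − [r ∣ n])/r + r·[r ∣ n] classes. -/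
theorem result {F : Type*} [Field F] [Fintype F] {q : ℕ} (hF : Fintype.card F = q) {n r : ℕ} (hn : 2 ≤ n) (hr : r.Prime) (hrq : r ∣ q - 1) : Nat.card {C : ConjClasses (GL (Fin n) F ⧸ Subgroup.center (GL (Fin n) F)) // ∃ g : GL (Fin n) F ⧸ Subgroup.center (GL (Fin n) F), ConjClasses.mk g = C ∧ orderOf g = r} = (Nat.choose (n + r - 1) (r - 1) - r - (if r ∣ n then 1 else 0)) / r + r * (if r ∣ n then 1 else 0) := by
  refine card_classes (glEquiv (ι := Fin n) (F := F)).toMonoidHom ⊤ (fun g c h => ?_) (fun g h => ?_)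
    (fun c _ => ?_) (fun g h => (isConj_congr glEquiv).1) hr ?_ (fun u _ _ _ => ?_) (fun _ _ => trivial)
    (finrank_fin_fun F) (by omega)
  · exact Matrix.GeneralLinearGroup.mem_center_iff_val_mem_range_scalar.2
      ⟨c, (toLin'_eq_smul_iff.1 h).symm ▸ by simp [Matrix.smul_one_eq_diagonal]⟩
  · rw [Matrix.GeneralLinearGroup.center_eq_range_scalar] at h
    obtain ⟨c, rfl⟩ := h
    exact ⟨c, trivial, toLin'_eq_smul_iff.2 (by simp [Matrix.smul_one_eq_diagonal])⟩
  · exact ⟨Matrix.GeneralLinearGroup.scalar _ c, toLin'_eq_smul_iff.2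
      (by simp [Matrix.smul_one_eq_diagonal])⟩
  · rwa [Subgroup.card_top, Nat.card_units, Nat.card_eq_fintype_card, hF]
  · obtain ⟨g, rfl⟩ := glEquiv.surjective u
    exact ⟨g, IsConj.refl _⟩

end Cfsg.Agent.S2670
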