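import Cfsg.Statements.S2578
import Cfsg.Agent.Lib.Lin.Rcf3

set_option autoImplicit false
open Cfsg

namespace Cfsg.Agent.S2578

open CA.CForm CA.CForm.Form CA.Rcf Polynomial in
/-- Regular unipotent classes of SL_n(q): for n ≥ 2 over the field with q elements, the matrices u of determinant one with (u − 1)^n = 0 and rank(u − 1) = n − 1 form a single GL_n(q)-class which splits into exactly gcd(n, q − 1) conjugacy classes of SL_n(q). -/
theorem result {F : Type*} [Field F] [Fintype F] {q : ℕ} (hF : Fintype.card F = q) {n : ℕ} (hn : 2 ≤ n) : Nat.card {C : ConjClasses (Matrix.SpecialLinearGroup (Fin n) F) // ∃ u : Matrix.SpecialLinearGroup (Fin n) F, ConjClasses.mk u = C ∧ ((u : Matrix (Fin n) (Fin n) F) - 1) ^ n = 0 ∧ ((u : Matrix (Fin n) (Fin n) F) - 1).rank = n - 1} = Nat.gcd n (q - 1) := by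
  have : Nonempty (Fin n) := ⟨⟨0, by omega⟩⟩
  obtain ⟨g, hg, hg'⟩ := exists_unip (F := F) (V := Fin n → F) (μ := {n}) (by simp; omega) (by simp)
  obtain ⟨g, rfl⟩ := glEquiv.surjective g
  have h0 : edivs (Matrix.toLin' g.1) = {(X - 1) ^ n} := by
    rw [← coe_glEquiv, edivs_eq_map_jt hg, hg']; rfl
  have h1 : g.1.det = 1 := by
    rw [← LinearMap.det_toLin', det_of_isNilpotent (a := 1) (by rwa [map_one]), one_pow]
  obtain ⟨g', h3⟩ := exists_toGL_eq h1
  refine (card_classes_split (Matrix.GeneralLinearGroup.det : GL (Fin n) F →* Fˣ)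
    Matrix.GeneralLinearGroup.det_surjective CA.SLnCard.slEquivKer g'
    (fun u => (u.1 - 1) ^ n = 0 ∧ (u.1 - 1).rank = n - 1) fun u => ?_).trans ?_
  · rw [regular_iff_edivs (by omega), isConj_GL_iff, sim_iff_edivs, coe_slEquivKer, h3, h0,
      coe_slEquivKer, Matrix.SpecialLinearGroup.coe_GL_coe_matrix]
    exact eq_comm
  rw [coe_slEquivKer, h3, ← hF, ← Nat.card_eq_fintype_card, ← Nat.card_units, Nat.gcd_comm,
    ← IsCyclic.index_powMonoidHom_range]
  refine congrArg Subgroup.index (Subgroup.ext fun a => ?_)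
  constructor
  · rintro ⟨c, hc, rfl⟩
    obtain ⟨r, hr⟩ := exists_aeval_eq_of_commute (B := Matrix.toLin' c.1) (sim_cyc_of_edivs h0)
      fun v => by
        have := congrArg (fun x : GL (Fin n) F => x.1.mulVec v)
          (Subgroup.mem_centralizer_singleton_iff.1 hc)
        simp only [Units.val_mul, ← Matrix.mulVec_mulVec] at this
        exact this
    have h2 := det_aeval_of_unip hg r
    rw [coe_glEquiv, ← hr, LinearMap.det_toLin', Module.finrank_fin_fun] at h2
    exact ⟨Units.mk0 (r.eval 1) fun h => c.det_ne_zero (by rw [h2, h, zero_pow (by omega)]),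
      Units.ext h2.symm⟩
  · rintro ⟨a, rfl⟩
    exact ⟨Matrix.GeneralLinearGroup.scalar _ a, Subgroup.mem_centralizer_singleton_iff.2
      (Units.ext (Matrix.scalar_commute _ (fun _ => Commute.all _ _) _).eq), Units.ext (by simp)⟩

end Cfsg.Agent.S2578
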