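import Cfsg.Statements.S2579
import Cfsg.Agent.Lib.Lin.Rcf2

set_option autoImplicit false
open Cfsg

namespace Cfsg.Agent.S2579

open CA.CForm CA.Rcf Polynomial in
/-- In SL_n(F) with n ≥ 3, over a finite field F, any two transvections (matrices t with t − 1 of rank one and square zero) are conjugate by an element of SL_n(F). -/
theorem result {F : Type*} [Field F] [Finite F] {n : ℕ} (hn : 3 ≤ n) (s t : Matrix.SpecialLinearGroup (Fin n) F) (hs : Cfsg.IsTransvection (s : Matrix (Fin n) (Fin n) F)) (ht : Cfsg.IsTransvection (t : Matrix (Fin n) (Fin n) F)) : IsConj s t := by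
  have k1 : ∀ a : Matrix.SpecialLinearGroup (Fin n) F, IsTransvection a.1 → (Matrix.toLin' a.1 - 1) ^ 2 = 0 ∧
      Module.finrank F (LinearMap.ker (Matrix.toLin' a.1 - 1)) + 1 = n := fun a ha => by
    have := finrank_ker_toLin' (a.1 - 1)
    rw [map_sub, Matrix.toLin'_one, Fintype.card_fin, ha.1] at this
    refine ⟨?_, by rw [add_comm]; exact this⟩
    have h := congrArg Matrix.toLin' ha.2
    rwa [Matrix.toLin'_mul, map_sub, Matrix.toLin'_one, map_zero] at h
  obtain ⟨h1, h2⟩ := k1 s hs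
  obtain ⟨h3, h4⟩ := k1 t ht
  refine isConj_SL (sim_of_sq_eq_zero h1 h3 rfl (by omega)) fun c hc => ?_
  rw [finrank_ker_sub_one ⟨2, h1⟩] at h2
  have h5 := sum_jt (Matrix.toLin' s.1)
  obtain ⟨a, ha, h6⟩ : ∃ a ∈ jt (Matrix.toLin' s.1), a ≤ 1 := by
    by_contra! H
    have := Multiset.card_nsmul_le_sum (a := 2) H
    simp at h5 this
    omega
  obtain ⟨d, hd, rfl⟩ := Multiset.mem_map.1 ha
  have h7 := (isPrim_of_mem_edivs hd).natDegree_pos
  simpa [show d.natDegree = 1 by omega] using exists_commute_det_pow hd hc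

end Cfsg.Agent.S2579
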