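import Cfsg.Statements.S2581
import Mathlib
import Cfsg.Agent.Lib.Lin.GLPar

set_option autoImplicit false
open Cfsg

namespace Cfsg.Agent.S2581

section
open Finset Matrix
variable {F : Type*} [Field F] {t : ℕ} {d : Fin t → ℕ}

local notation "ι" => (k : Fin t) × Fin (d k)
local notation "J" => jordanTypeMatrix d F

def ex (A : Matrix ι ι F) (k : Fin t) (i : ℕ) (l : Fin t) (j : ℕ) : F :=
  if h : i < d k ∧ j < d l then A ⟨k, i, h.1⟩ ⟨l, j, h.2⟩ else 0

theorem J_apply (x y : ι) : J x y =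
    (if x = y then 1 else 0) + if x.1 = y.1 ∧ (x.2 : ℕ) = y.2 + 1 then 1 else 0 := by
  obtain ⟨k, i⟩ := x
  obtain ⟨l, j⟩ := y
  obtain rfl | h := eq_or_ne k l
  · simp only [jordanTypeMatrix, blockDiagonal'_apply_eq, jordanBlock, of_apply, Sigma.mk.injEq,
      heq_eq_eq, true_and, Fin.ext_iff]
    split_ifs <;> first | omega | simp
  · simp [jordanTypeMatrix, blockDiagonal'_apply_ne _ _ _ h, h]

theorem sum_at (f : ι → F) (k : Fin t) (i : ℕ) :
    ∑ z : ι, (if z.1 = k ∧ (z.2 : ℕ) = i then f z else 0) = if h : i < d k then f ⟨k, i, h⟩ else 0 := by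
  split_ifs with h
  · rw [sum_eq_single ⟨k, i, h⟩, if_pos ⟨rfl, rfl⟩]
    · rintro ⟨l, j⟩ - e
      exact if_neg (by rintro ⟨rfl, rfl⟩; exact e rfl)
    · simp
  · exact sum_eq_zero fun ⟨l, j⟩ _ => if_neg (by rintro ⟨rfl, rfl⟩; exact h j.2)

theorem comm_iff {A : Matrix ι ι F} : A * J = J * A ↔ ∀ k l i j, i < d k → j < d l →
    ex A k i l (j + 1) = if i = 0 then 0 else ex A k (i - 1) l j := by
  have h1 : ∀ x y, (A * J) x y = A x y + ex A x.1 x.2 y.1 (y.2 + 1) := fun x y => by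
    simp only [mul_apply, J_apply, mul_add, mul_ite, mul_one, mul_zero, sum_add_distrib, sum_ite_eq',
      mem_univ, if_true, sum_at, ex, x.2.2, true_and]
  have h2 : ∀ x y, (J * A) x y = A x y + if (x.2 : ℕ) = 0 then 0 else ex A x.1 (x.2 - 1) y.1 y.2 :=
    fun x y => by
      simp only [mul_apply, J_apply, add_mul, ite_mul, one_mul, zero_mul, sum_add_distrib, sum_ite_eq,
        mem_univ, if_true, add_right_inj]
      split_ifs with h
      · exact sum_eq_zero fun z _ => if_neg (by omega)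
      · rw [sum_congr rfl fun z _ => if_congr (show _ ↔ z.1 = x.1 ∧ (z.2 : ℕ) = x.2 - 1 by
          rw [eq_comm]; exact and_congr_right fun _ => by omega) rfl rfl, sum_at]
        simp only [ex, y.2.2, and_true]
  simp only [← Matrix.ext_iff, h1, h2, add_right_inj]
  exact ⟨fun h k l i j hi hj => h ⟨k, i, hi⟩ ⟨l, j, hj⟩, fun h x y => h _ _ _ _ x.2.2 y.2.2⟩

theorem ex_eq {A : Matrix ι ι F} (h : A * J = J * A) (k l : Fin t) (j : ℕ) (hj : j ≤ d l) :
    ∀ i < d k, ex A k i l j = if j ≤ i then ex A k (i - j) l 0 else 0 := by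
  induction j with
  | zero => simp
  | succ j ih =>
    intro i hi
    rw [comm_iff.1 h k l i j hi hj]
    split_ifs with h1 h2 h2
    · omega
    · rfl
    · rw [ih (by omega) _ (by omega), if_pos (by omega), Nat.sub_sub, add_comm]
    · rw [ih (by omega) _ (by omega), if_neg (by omega)]

theorem ex_zero {A : Matrix ι ι F} (h : A * J = J * A) {k l : Fin t} {i : ℕ} (hi : i + d l < d k) :
    ex A k i l 0 = 0 := by
  have := ex_eq h k l _ le_rfl _ hi
  rw [if_pos (by omega), Nat.add_sub_cancel] at this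
  rw [← this, ex, dif_neg (by omega)]

def mk (c : Fin t → Fin t → ℕ → F) : Matrix ι ι F :=
  fun x y => if (y.2 : ℕ) ≤ x.2 then c x.1 y.1 (x.2 - y.2) else 0

theorem mk_comm {c : Fin t → Fin t → ℕ → F} (h : ∀ k l i, i + d l < d k → c k l i = 0) :
    mk c * J = J * mk c := comm_iff.2 fun k l i j hi hj => by
  simp only [ex, mk]
  split_ifs <;> first | omega | rfl | exact (h _ _ _ (by omega)).symm | (congr 1; omega)

def top (A : Matrix ι ι F) : Matrix (Fin t) (Fin t) F := fun k l => ex A k 0 l 0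

theorem det_iff (hd : ∀ k, 1 ≤ d k) {A : Matrix ι ι F} (h : A * J = J * A) :
    A.det = 0 ↔ (top A).det = 0 := by
  have e : ∀ x y : ι, A x y = ex A x.1 x.2 y.1 y.2 := fun x y => by simp [ex]
  simp only [← exists_vecMul_eq_zero_iff]
  refine ⟨fun ⟨u, h0, hu⟩ => ?_, fun ⟨w, h0, hw⟩ => ⟨fun x => if (x.2 : ℕ) = 0 then w x.1 else 0,
    fun e => h0 (funext fun k => by simpa using congrFun e ⟨k, 0, hd k⟩), funext fun y => ?_⟩⟩
  · classical
    obtain ⟨x, hx, hm⟩ := exists_max_image (univ.filter fun x => u x ≠ 0) (fun x => (x.2 : ℕ))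
      (by obtain ⟨x, hx⟩ := Function.ne_iff.1 h0; exact ⟨x, by simpa using hx⟩)
    refine ⟨fun k => if h : (x.2 : ℕ) < d k then u ⟨k, x.2, h⟩ else 0,
      fun e => (mem_filter.1 hx).2 (by simpa using congrFun e x.1), funext fun l => ?_⟩
    by_cases hl : (x.2 : ℕ) < d l
    · rw [← show _ = (0 : Fin t → F) l from congrFun hu ⟨l, x.2, hl⟩]
      simp only [vecMul, dotProduct, Fintype.sum_sigma]
      refine sum_congr rfl fun k _ => ?_
      split_ifs with hk
      · rw [sum_eq_single ⟨x.2, hk⟩ (fun i _ hi => ?_) (by simp), e, ex_eq h _ _ _ hl.le _ hk]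
        · simp [top]
        rw [e, ex_eq h _ _ _ hl.le _ i.2]
        split_ifs with h1
        · rw [show u ⟨k, i⟩ = 0 from by_contra fun h2 =>
            hi (Fin.ext (h1.antisymm' (hm ⟨k, i⟩ (by simpa using h2)))), zero_mul]
        · simp
      · rw [zero_mul, eq_comm]
        exact sum_eq_zero fun i _ => by
          rw [e, ex_eq h _ _ _ hl.le _ i.2, if_neg (by have := i.2; omega), mul_zero]
    · simp only [vecMul, dotProduct]
      refine sum_eq_zero fun k _ => ?_
      split_ifs with hk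
      · rw [top, ex_zero h (by omega), mul_zero]
      · simp
  · simp only [vecMul, dotProduct, Fintype.sum_sigma]
    rw [sum_congr rfl fun k _ => sum_eq_single (⟨0, hd k⟩ : Fin (d k))
      (fun i _ hi => by rw [if_neg fun e => hi (Fin.ext e), zero_mul]) (by simp)]
    simp only [e, if_true, ex_eq h _ _ _ y.2.2.le _ (hd _)]
    split_ifs with h1
    · simpa [vecMul, dotProduct, top] using congrFun hw y.1
    · simp

theorem det_top {A : Matrix ι ι F} (h : A * J = J * A) :
    (top A).det ≠ 0 ↔ ∀ i, ((top A).toSquareBlock d i).det ≠ 0 := by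
  rw [BlockTriangular.det (M := top A) (b := d) fun k l e => ex_zero h (by simpa using e), prod_ne_zero_iff]
  refine ⟨fun h i => ?_, fun h i _ => h i⟩
  by_cases hi : i ∈ univ.image d
  · exact h i hi
  have : IsEmpty {k // d k = i} := ⟨fun k => hi (mem_image.2 ⟨k, mem_univ _, k.2⟩)⟩
  simp

def I1 (d : Fin t → ℕ) : Finset (Fin t × Fin t × ℕ) :=
  (univ ×ˢ univ ×ˢ range (univ.sup d)).filter fun x => x.2.2 < d x.1 ∧ d x.1 ≤ x.2.2 + d x.2.1 ∧
    ¬ (x.2.2 = 0 ∧ d x.1 = d x.2.1)

theorem mem_I1 {k l : Fin t} {i : ℕ} : (k, l, i) ∈ I1 d ↔ i < d k ∧ d k ≤ i + d l ∧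
    ¬ (i = 0 ∧ d k = d l) := by
  have := le_sup (f := d) (mem_univ k)
  simp only [I1, mem_filter, mem_product, mem_univ, true_and, mem_range]
  omega

theorem card_I1 (hd : ∀ k, 1 ≤ d k) {a : ℕ → ℕ} (ha : ∀ i, a i = (univ.filter fun k => d k = i).card) :
    (I1 d).card = 2 * (∑ i ∈ range (univ.sup d + 1), ∑ j ∈ range (univ.sup d + 1),
      if i < j then i * a i * a j else 0) + ∑ i ∈ range (univ.sup d + 1), (i - 1) * a i ^ 2 := by
  have k : ∀ f : ℕ → ℕ, ∑ k, f (d k) = ∑ i ∈ range (univ.sup d + 1), a i * f i := fun f => by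
    rw [← sum_fiberwise_of_maps_to (t := range (univ.sup d + 1)) (g := d) fun k hk =>
      mem_range.2 (Nat.lt_succ_of_le (le_sup hk))]
    exact sum_congr rfl fun i _ => by
      rw [ha, sum_congr rfl fun k hk => by rw [(mem_filter.1 hk).2], sum_const, smul_eq_mul]
  have h1 : (I1 d).card = ∑ k, ∑ l, (min (d k) (d l) - if d k = d l then 1 else 0) := by
    rw [I1, card_filter, sum_product]
    refine sum_congr rfl fun k _ => ?_
    rw [sum_product]
    refine sum_congr rfl fun l _ => ?_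
    have := le_sup (f := d) (mem_univ k)
    have := hd l
    rw [← card_filter, show filter _ _ = Ico (d k - d l + if d k = d l then 1 else 0) (d k) from
      Finset.ext fun i => by simp only [mem_filter, mem_range, mem_Ico]; split_ifs <;> omega, Nat.card_Ico]
    split_ifs <;> omega
  rw [h1, k fun i => ∑ l, (min i (d l) - if i = d l then 1 else 0), two_mul]
  nth_rw 2 [sum_comm]
  simp only [← sum_add_distrib]
  refine sum_congr rfl fun i hi => ?_
  rw [k fun j => min i j - if i = j then 1 else 0, mul_sum, ← sum_ite_eq_of_mem' _ i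
    (fun _ => (i - 1) * a i ^ 2) hi, ← sum_add_distrib]
  refine sum_congr rfl fun j _ => ?_
  rcases lt_trichotomy i j with h | rfl | h
  · simp [h, h.ne, h.ne', h.le, h.not_gt]; ring
  · simp; ring
  · simp [h, h.ne, h.ne', h.le, h.not_gt]; ring

theorem card_eq (hd : ∀ k, 1 ≤ d k) : Nat.card {g : GL ι F // (g : Matrix ι ι F) * J = J * g} =
    Nat.card ((I1 d → F) × ∀ i : range (univ.sup d + 1), GL {k // d k = i} F) := by
  refine Nat.card_eq_of_bijective (fun g => (fun x => ex g.1.1 x.1.1 x.1.2.2 x.1.2.1 0, fun i =>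
    GeneralLinearGroup.mkOfDetNeZero _ ((det_top g.2).1 (mt (det_iff hd g.2).2 g.1.det_ne_zero) i)))
    ⟨fun g g' e => Subtype.ext (Units.ext (Matrix.ext fun x y => ?_)), fun ⟨c, B⟩ => ?_⟩
  · have e1 : ∀ k l i, i < d k → ex g.1.1 k i l 0 = ex g'.1.1 k i l 0 := fun k l i hi => by
      by_cases h : (k, l, i) ∈ I1 d
      · exact congrFun (congrArg Prod.fst e) ⟨_, h⟩
      by_cases h1 : i + d l < d k
      · rw [ex_zero g.2 h1, ex_zero g'.2 h1]
      obtain ⟨rfl, h2⟩ : i = 0 ∧ d k = d l := by rw [mem_I1] at h; omega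
      exact congrArg (fun B : GL {k // d k = d l} F => B.1 ⟨k, h2⟩ ⟨l, rfl⟩) (congrFun
        (congrArg Prod.snd e) ⟨d l, mem_range.2 (Nat.lt_succ_of_le (le_sup (mem_univ l)))⟩)
    have e2 : ∀ A : Matrix ι ι F, A x y = ex A x.1 x.2 y.1 y.2 := fun A => by simp [ex]
    rw [e2 g.1.1, e2 g'.1.1, ex_eq g.2 _ _ _ y.2.2.le _ x.2.2, ex_eq g'.2 _ _ _ y.2.2.le _ x.2.2,
      e1 _ _ _ (by have := x.2.2; omega)]
  set c' : Fin t → Fin t → ℕ → F := fun k l i => if h : (k, l, i) ∈ I1 d then c ⟨_, h⟩ else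
    if h : i = 0 ∧ d k = d l then (B ⟨d l, mem_range.2 (Nat.lt_succ_of_le (le_sup (mem_univ l)))⟩).1
      ⟨k, h.2⟩ ⟨l, rfl⟩ else 0 with hc
  have h1 := mk_comm (d := d) (c := c') fun k l i hi => by
    rw [hc]; dsimp only; rw [dif_neg (by rw [mem_I1]; omega), dif_neg (by omega)]
  have h2 : ∀ i : range (univ.sup d + 1), (top (mk c' : Matrix ι ι F)).toSquareBlock d i = (B i).1 := by
    rintro ⟨i, hi⟩
    ext ⟨k, hk⟩ ⟨l, hl⟩
    dsimp only at hk hl
    subst hl
    simp [toSquareBlock_def, top, ex, mk, hc, mem_I1, hk, Nat.lt_of_succ_le (hd _)]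
  have h3 : (mk c' : Matrix ι ι F).det ≠ 0 := mt (det_iff hd h1).1 ((det_top h1).2 fun i => by
    by_cases hi : i ∈ range (univ.sup d + 1)
    · exact h2 ⟨i, hi⟩ ▸ (B ⟨i, hi⟩).det_ne_zero
    have : IsEmpty {k // d k = i} := ⟨fun k => hi (mem_range.2 (Nat.lt_succ_of_le
      (k.2.ge.trans (le_sup (mem_univ _)))))⟩
    simp)
  refine ⟨⟨GeneralLinearGroup.mkOfDetNeZero _ h3, h1⟩, Prod.ext (funext fun ⟨⟨k, l, i⟩, h⟩ => ?_)
    (funext fun i => Units.ext (h2 i))⟩
  simp [ex, mk, hc, h, (mem_I1.1 h).1, Nat.lt_of_succ_le (hd _)]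
end

/-- Order of the centraliser in GL of a unipotent matrix of given Jordan type over the field with q elements: if the type has a_i blocks of size i (all block sizes at least 1), the invertible matrices commuting with it number q^γ · Π_i |GL_(a_i)(q)| with γ = 2 Σ_(i<j) i a_i a_j + Σ_i (i − 1) a_i² (a group of order q^γ extended by Π GL_(a_i)(q)). -/
theorem result {F : Type*} [Field F] [Fintype F] {q : ℕ} (hF : Fintype.card F = q) {t : ℕ} (d : Fin t → ℕ) (hd : ∀ k, 1 ≤ d k) : Nat.card {g : GL ((k : Fin t) × Fin (d k)) F // (g : Matrix ((k : Fin t) × Fin (d k)) ((k : Fin t) × Fin (d k)) F) * Cfsg.jordanTypeMatrix d F = Cfsg.jordanTypeMatrix d F * (g : Matrix ((k : Fin t) × Fin (d k)) ((k : Fin t) × Fin (d k)) F)} = q ^ (2 * (∑ i ∈ Finset.range (Finset.univ.sup d + 1), ∑ j ∈ Finset.range (Finset.univ.sup d + 1), if i < j then i * (Finset.univ.filter (fun k : Fin t => d k = i)).card * (Finset.univ.filter (fun k : Fin t => d k = j)).card else 0) + ∑ i ∈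 Finset.range (Finset.univ.sup d + 1), (i - 1) * (Finset.univ.filter (fun k : Fin t => d k = i)).card ^ 2) * ∏ i ∈ Finset.range (Finset.univ.sup d + 1), ∏ j : Fin ((Finset.univ.filter (fun k : Fin t => d k = i)).card), (q ^ (Finset.univ.filter (fun k : Fin t => d k = i)).card - q ^ (j : ℕ)) := by
  rw [card_eq hd, Nat.card_prod, Nat.card_fun, Nat.card_pi, Nat.card_eq_fintype_card, hF,
    Nat.card_eq_fintype_card, Fintype.card_coe, card_I1 hd fun _ => rfl,
    ← Finset.prod_coe_sort (Finset.range _)]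
  congr 1
  refine Finset.prod_congr rfl fun i _ => ?_
  rw [CA.GLPar.card_GL', Nat.card_eq_fintype_card, hF, Fintype.card_subtype]

end Cfsg.Agent.S2581
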