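import Cfsg.Statements.S2582
import Cfsg.Agent.Lib.Lin.Unip2

set_option autoImplicit false
open Cfsg

namespace Cfsg.Agent.S2582

open CA.CForm CA.CForm.Form CA.Rcf Module Polynomial in
/-- Which unipotent Jordan types occur in the finite symplectic group: over a finite field, a unipotent matrix with Jordan block sizes d_1, …, d_t (sum 2m, all at least 1) is similar to an element of Sp_2m(F) if and only if every odd block size occurs an even number of times. -/
theorem result {F : Type*} [Field F] [Fintype F] {m t : ℕ} (d : Fin t → ℕ) (hd : ∀ k, 1 ≤ d k) (hsum : ∑ k, d k = 2 * m) : (∃ e : ((k : Fin t) × Fin (d k)) ≃ (Fin m ⊕ Fin m), ∃ A : Matrix.symplecticGroup (Fin m) F, IsConj (Matrix.reindex e e (Cfsg.jordanTypeMatrix d F)) (A : Matrix (Fin m ⊕ Fin m) (Fin m ⊕ Fin m) F)) ↔ ∀ j : ℕ, Odd j → Even (Finset.univ.filter (fun k : Fin t => d k = j)).card := by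
  have e : ((k : Fin t) × Fin (d k)) ≃ (Fin m ⊕ Fin m) := Fintype.equivOfCardEq (by simp [hsum]; ring)
  have key : (∀ j, Even j → Even (Finset.univ.filter fun i => d i = j + 1).card) ↔
      ∀ j, Odd j → Even (Finset.univ.filter fun i => d i = j).card :=
    ⟨fun h j ⟨i, hi⟩ => hi ▸ h _ (even_two_mul i), fun h j hj => h _ hj.add_one⟩
  constructor
  · rintro ⟨e, A, hA⟩
    obtain ⟨μ, h1, -, -, h4⟩ := jordan_data (k := Kind.symp F) d hd e Even
    exact key.1 (h4.1 (((sympStd_nondeg F m).symp_exists_iff).1 ⟨spEquiv F m A, (h1 _).1 hA⟩).2.1)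
  · intro h
    obtain ⟨μ, h1, h2, h3, h4⟩ := jordan_data (k := Kind.symp F) d hd e Even
    obtain ⟨g, hg⟩ := ((sympStd_nondeg F m).symp_exists_iff).2
      ⟨h2, h4.2 (key.2 h), by rw [h3, hsum, finrank_plus]⟩
    obtain ⟨A, rfl⟩ := (spEquiv F m).surjective g
    exact ⟨e, A, (h1 _).2 hg⟩

end Cfsg.Agent.S2582
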