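import Cfsg.Statements.S2584
import Cfsg.Agent.Lib.Lin.Unip2

set_option autoImplicit false
open Cfsg

namespace Cfsg.Agent.S2584

open CA.CForm CA.CForm.Form CA.Rcf Module Polynomial in
/-- Which unipotent Jordan types occur in a finite orthogonal group in characteristic two: over a finite field of characteristic 2 and in even dimension 2m, a unipotent matrix with Jordan block sizes d_1, …, d_t (sum 2m, all at least 1) is similar to an isometry of some quadratic form on F^(2m) with non-degenerate polar form if and only if every odd block size occurs an even number of times (the same condition as for the symplectic group, which contains these orthogonal groups). -/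
theorem result {F : Type*} [Field F] [Fintype F] [CharP F 2] {m t : ℕ} (d : Fin t → ℕ) (hd : ∀ k, 1 ≤ d k) (hsum : ∑ k, d k = 2 * m) : (∃ Q : QuadraticForm F (Fin (2 * m) → F), (QuadraticMap.polarBilin Q).Nondegenerate ∧ ∃ e : ((k : Fin t) × Fin (d k)) ≃ Fin (2 * m), ∃ A : ↥(Cfsg.isometryGroup F ⇑Q), IsConj (Matrix.reindex e e (Cfsg.jordanTypeMatrix d F)) ((A : Matrix.GeneralLinearGroup (Fin (2 * m)) F) : Matrix (Fin (2 * m)) (Fin (2 * m)) F)) ↔ ∀ j : ℕ, Odd j → Even (Finset.univ.filter (fun k : Fin t => d k = j)).card := by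
  have e : ((k : Fin t) × Fin (d k)) ≃ Fin (2 * m) := Fintype.equivOfCardEq (by simp [hsum])
  have h2 : (2 : F) = 0 := CharP.cast_eq_zero F 2
  have key : (∀ j, Even j → Even (Finset.univ.filter fun i => d i = j + 1).card) ↔
      ∀ j, Odd j → Even (Finset.univ.filter fun i => d i = j).card :=
    ⟨fun h j ⟨i, hi⟩ => hi ▸ h _ (even_two_mul i), fun h j hj => h _ hj.add_one⟩
  constructor
  · rintro ⟨Q, hQ, e, A, hA⟩
    obtain ⟨μ, h1, -, -, h4⟩ := jordan_data (k := Kind.orth F) d hd e Even
    exact key.1 (h4.1 fun a ha j hj => (h1 _).1 hA ▸ (ofQuad_nondeg hQ).even_count ha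
      (fun _ => rfl) (orthEquiv (ofQuad Q) A) (Or.inr ⟨h2, hj⟩))
  · intro h
    obtain ⟨μ, h1, h3, h4, h5⟩ := jordan_data (k := Kind.orth F) d hd e Even
    obtain ⟨f, g, hf, hg⟩ := ((real_orth_iff_two h2).2 ⟨h3, h5.2 (key.2 h)⟩).exists_on
      (V := Fin (2 * m) → F) (by rw [h4, hsum, finrank_fin_fun])
    obtain ⟨A, rfl⟩ := (orthEquiv f).surjective g
    exact ⟨f.toQuad, ⟨fun x h => hf x fun y => by simpa using h y,
      fun y h => hf.eq_zero_right fun x => by simpa using h x⟩, e, A, (h1 _).2 hg⟩

end Cfsg.Agent.S2584
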