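import Cfsg.Statements.S2585
import Cfsg.Agent.Lib.Lin.Rcf3

set_option autoImplicit false
open Cfsg

namespace Cfsg.Agent.S2585

open CA.CForm CA.CForm.Form CA.Rcf Polynomial in
/-- Over a finite field of characteristic two every element of the symplectic group is orthogonal for a suitable quadratic form: for each A in Sp_2m(F) there is a quadratic form Q on F^(2m) whose polar form is the alternating form defining Sp_2m(F) (so Q is non-degenerate) and which A preserves. Equivalently, for m ≥ 1, Sp_2m(F) is the union of the conjugates of its two orthogonal subgroups O⁺_2m(F) and O⁻_2m(F). -/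
theorem result {F : Type*} [Field F] [Fintype F] [CharP F 2] {m : ℕ} (A : Matrix.symplecticGroup (Fin m) F) : ∃ Q : QuadraticForm F (Fin m ⊕ Fin m → F), (∀ u v : Fin m ⊕ Fin m → F, QuadraticMap.polar ⇑Q u v = Cfsg.sympForm m F u v) ∧ ∀ v : Fin m ⊕ Fin m → F, Q ((A : Matrix (Fin m ⊕ Fin m) (Fin m ⊕ Fin m) F).mulVec v) = Q v := by
  have h2 : (2 : F) = 0 := CharTwo.two_eq_zero
  have hB : ∀ u v, (plusForm F m).B u v = (sympStd F m).B u v := fun u v => by
    rw [plusForm_B, sympStd_B, sympForm_eq]
    exact Finset.sum_congr rfl fun i _ => by rw [CharTwo.sub_eq_add, add_comm]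
  set g := spEquiv F m A
  let s := (frobeniusEquiv F 2).symm
  have hs : ∀ a, s a * s a = a := fun a => by
    rw [← sq]; exact (frobeniusEquiv F 2).apply_symm_apply a
  let l : (Fin m ⊕ Fin m → F) →ₗ[F] F :=
    { toFun := fun v => s ((plusForm F m).Q ((g : _ ≃ₗ[F] _) v) + (plusForm F m).Q v)
      map_add' := fun x y => by
        rw [← map_add, map_add g.1, orth_Q_add, orth_Q_add, hB, hB, B_coe_map]
        congr 1
        linear_combination (sympStd F m).B x y * h2
      map_smul' := fun a x => mul_self_inj_of_two h2 (by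
        rw [hs, RingHom.id_apply, smul_eq_mul, mul_mul_mul_comm, hs, map_smul, orth_Q_smul,
          orth_Q_smul]
        ring) }
  obtain ⟨u, hu⟩ := (sympStd_nondeg F m).exists_B_eq l
  obtain ⟨z, rfl⟩ : u ∈ (sympStd F m).commSub g⁻¹ := by
    rw [(sympStd_nondeg F m).commSub_inv, ← (sympStd_nondeg F m).perp_fixSub, mem_perp']
    intro x hx
    rw [hu]
    change s _ = 0
    rw [(mem_fixSub _).1 hx, CharTwo.add_self_eq_zero, map_zero]
  refine ⟨(plusForm F m).toQuad + QuadraticMap.linMulLin ((sympStd F m).B z) ((sympStd F m).B z),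
    fun u v => ?_, fun v => ?_⟩
  · rw [← sympStd_B, ← hB, QuadraticMap.polar, orth_B_eq]
    simp only [QuadraticMap.add_apply, QuadraticMap.linMulLin_apply, map_add, toQuad_apply]
    linear_combination (sympStd F m).B z u * (sympStd F m).B z v * h2
  · have h3 := hs ((plusForm F m).Q ((g : _ ≃ₗ[F] _) v) + (plusForm F m).Q v)
    have h4 : s _ = _ := (LinearMap.congr_fun hu v).symm
    rw [h4] at h3
    simp only [LinearMap.sub_apply, LinearEquiv.coe_coe, LinearMap.id_apply, B_sub_left] at h3
    rw [← spEquiv_apply]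
    simp only [QuadraticMap.add_apply, QuadraticMap.linMulLin_apply, toQuad_apply, B_isom_right]
    linear_combination h3 + ((plusForm F m).Q (g.1 v) + (sympStd F m).B (g⁻¹.1 z) v *
      (sympStd F m).B z v - (sympStd F m).B z v ^ 2) * h2

end Cfsg.Agent.S2585
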