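import Cfsg.Statements.S2587
import Cfsg.Agent.Lib.Lin.CFormConj

set_option autoImplicit false
open Cfsg

namespace Cfsg.Agent.S2587

open CA.CForm CA.CForm.Form CA.Rcf Polynomial in
/-- Conjugacy in the finite general unitary group is controlled by the general linear group: two elements of GU_n(q) (the invertible matrices over the field with q² elements preserving the Hermitian form Σ u_i v_i^q) are conjugate in GU_n(q) if and only if they are conjugate in GL_n(q²). -/
theorem result {K : Type*} [Field K] [Fintype K] {q n : ℕ} (hK : Fintype.card K = q ^ 2) (A B : ↥(Cfsg.GU n K q)) : IsConj A B ↔ IsConj (A : GL (Fin n) K) (B : GL (Fin n) K) := by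
  exact ⟨(GU n K q).subtype.map_isConj, fun h => (isConj_congr (guEquiv hK n)).1
    ((hermStd_nondeg hK n).isConj_of_sim (tame_herm (conj_ne_id hK) _)
      ((isConj_congr glEquiv).2 h))⟩

end Cfsg.Agent.S2587
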