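import Cfsg.Statements.S2588
import Cfsg.Agent.Lib.Lin.CFormConj2

set_option autoImplicit false
open Cfsg

namespace Cfsg.Agent.S2588

open CA.CForm CA.CForm.Form CA.Rcf Polynomial in
/-- An invertible matrix A over the field with q² elements is conjugate in GL_n(q²) to an element of the general unitary group GU_n(q) (isometries of the Hermitian form Σ u_i v_i^q) if and only if A is similar to the inverse transpose of its entrywise q-th power (A ~ A^(−qT), the image of A under the map sending a matrix to the inverse transpose of its entrywise q-th power — inverse transpose composed with the field automorphism — whose fixed points form GU_n(q)). -/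
theorem result {K : Type*} [Field K] [Fintype K] {q n : ℕ} (hK : Fintype.card K = q ^ 2) (A : GL (Fin n) K) : (∃ B : ↥(Cfsg.GU n K q), IsConj A (B : GL (Fin n) K)) ↔ IsConj (A : Matrix (Fin n) (Fin n) K) (((A : Matrix (Fin n) (Fin n) K).map (fun x : K => x ^ q)).transpose)⁻¹ := by
  have hf := hermStd_nondeg hK n
  set M := ((A : Matrix (Fin n) (Fin n) K).map (fun x : K => x ^ q)).transpose
  have h1 : ∀ x y, (hermStd hK n).B (M.mulVec x) y = (hermStd hK n).B x (A.1.mulVec y) :=
    fun x y => by
      simp only [hermStd_B, hermForm, M, Matrix.mulVec, dotProduct, ← conj_apply hK, map_sum, map_mul,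
        Matrix.transpose_apply, Matrix.map_apply, conj_conj, Finset.mul_sum, Finset.sum_mul]
      rw [Finset.sum_comm]
      exact Finset.sum_congr rfl fun _ _ => Finset.sum_congr rfl fun _ _ => by ring
  have h2 : Matrix.toLin' M⁻¹ = hf.pre.adj ((glEquiv A)⁻¹ : _ ≃ₗ[K] _) := by
    have : IsUnit M.det := by
      rw [Matrix.det_transpose]
      exact (RingHom.map_det (conj hK) A.1 ▸ (A.det_ne_zero.isUnit.map (conj hK)) :)
    refine (hf.pre.adj_eq fun x y => ?_).symm
    obtain ⟨y, rfl⟩ := (glEquiv A).surjective y
    refine (h1 _ _).symm.trans ?_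
    rw [Matrix.toLin'_apply, Matrix.mulVec_mulVec, Matrix.mul_nonsing_inv _ this, Matrix.one_mulVec]
    exact congrArg _ ((glEquiv A).symm_apply_apply y).symm
  rw [isConj_matrix_iff, h2, sim_iff_edivs, hf.pre.edivs_adj_inv, ← coe_glEquiv, eq_comm]
  constructor
  · rintro ⟨B, hB⟩
    rw [isConj_iff_edivs.1 ((isConj_congr glEquiv).2 hB)]
    exact hf.edivs_dual (guEquiv hK n B)
  · intro h
    obtain ⟨g, hg⟩ := hf.herm_exists_conj (conj_ne_id hK) h
    obtain ⟨B, rfl⟩ := (guEquiv hK n).surjective g
    exact ⟨B, (isConj_congr glEquiv).1 hg⟩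

end Cfsg.Agent.S2588
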