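import Cfsg.Statements.S2590
import Cfsg.Agent.Lib.Lin.CFormConj

set_option autoImplicit false
open Cfsg

namespace Cfsg.Agent.S2590

open CA.CForm CA.CForm.Form CA.Rcf Polynomial in
/-- Two semisimple elements of odd order of a finite orthogonal group (isometry group of a quadratic form on F^n with non-degenerate polar form, F finite of characteristic p; the elements have odd order prime to p) are conjugate in the orthogonal group if and only if they are conjugate in GL_n(F). -/
theorem result {F : Type*} [Field F] [Fintype F] {p : ℕ} [Fact p.Prime] [CharP F p] {n : ℕ} (Q : QuadraticForm F (Fin n → F)) (hQ : (QuadraticMap.polarBilin Q).Nondegenerate) (A B : ↥(Cfsg.isometryGroup F ⇑Q)) (hodd : Odd (orderOf A)) (hA : (orderOf A).Coprime p) : IsConj A B ↔ IsConj ((A : Matrix.GeneralLinearGroup (Fin n) F) : Matrix (Fin n) (Fin n) F) ((B : Matrix.GeneralLinearGroup (Fin n) F) : Matrix (Fin n) (Fin n) F) := by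
  let e : isometryGroup F ⇑Q ≃* (ofQuad Q).Isom := orthEquiv (ofQuad Q)
  rw [← isConj_GL_iff_matrix, ← isConj_congr glEquiv, ← isConj_congr e]
  exact ⟨(ofQuad Q).Isom.subtype.map_isConj, (ofQuad_nondeg hQ).isConj_of_ss_odd (g := e A) (g' := e B)
    ((isSS_iff_coprime p (e A).1).2 (by rwa [Subgroup.orderOf_coe, MulEquiv.orderOf_eq]))
    (by rwa [MulEquiv.orderOf_eq])⟩

end Cfsg.Agent.S2590
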