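import Cfsg.Statements.S2591
import Cfsg.Agent.Lib.Lin.Unip3

set_option autoImplicit false
open Cfsg

namespace Cfsg.Agent.S2591

open CA.CForm CA.Rcf Module Polynomial in
theorem regular_iff {F : Type*} [Field F] {ι : Type} [Fintype ι] [DecidableEq ι] {n : ℕ}
    (hn : 1 ≤ n) (hι : Fintype.card ι = n) (u : Matrix ι ι F) :
    (u - 1) ^ n = 0 ∧ (u - 1).rank = n - 1 ↔ edivs (Matrix.toLin' u) = {(X - 1) ^ n} := by
  have h1 := rank_add_finrank_ker u
  refine ⟨fun h => edivs_eq_of_sim_cyc (isPrim_X_sub_one_pow (by omega)) ?_, fun h => ?_⟩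
  · have := sim_cyc_of_regular ⟨n, (toLin'_sub_one_pow u n).2 h.1⟩ (by omega)
    rwa [Module.finrank_fintype_fun_eq_card, hι] at this
  · have h2 : edivs (Matrix.toLin' u) = ({n} : Multiset ℕ).map fun k => (X - 1) ^ k := h
    have := finrank_ker_sub_one (isNilpotent_of_edivs h2)
    rw [jt_eq_of_edivs h2, Multiset.card_singleton] at this
    exact ⟨(toLin'_sub_one_pow u n).1 (sub_one_pow_eq_zero_of_edivs h2 (by simp)), by omega⟩

open CA.CForm CA.CForm.Form CA.Rcf Module Polynomial in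
/-- Over a finite field of odd order and for m ≥ 1, the regular unipotent elements of Sp_2m(F) (u − 1 nilpotent of rank 2m − 1, a single Jordan block) form exactly two conjugacy classes of Sp_2m(F) (one class under the similarity group, which splits in two). -/
theorem result {F : Type*} [Field F] [Fintype F] {q : ℕ} (hF : Fintype.card F = q) (hq : Odd q) {m : ℕ} (hm : 1 ≤ m) : Nat.card {C : ConjClasses ↥(Matrix.symplecticGroup (Fin m) F) // ∃ u : Matrix.symplecticGroup (Fin m) F, ConjClasses.mk u = C ∧ ((u : Matrix (Fin m ⊕ Fin m) (Fin m ⊕ Fin m) F) - 1) ^ (2 * m) = 0 ∧ ((u : Matrix (Fin m ⊕ Fin m) (Fin m ⊕ Fin m) F) - 1).rank = 2 * m - 1} = 2 := by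
  have h2 : (2 : F) ≠ 0 := two_ne_zero_iff_odd.2 (hF ▸ hq)
  have hf := sympStd_nondeg F m
  obtain ⟨j, hj⟩ : ∃ j, 2 * m = j + 1 := ⟨2 * m - 1, by omega⟩
  have h3 : Odd j := ⟨m - 1, by omega⟩
  rw [card_conjClasses_congr (spEquiv F m) _
    (fun g => edivs (g.1 : End F (Fin m ⊕ Fin m → F)) = {(X - C 1) ^ (j + 1)})
    fun u => by rw [regular_iff (by omega) (by simp; ring), hj]; rfl,
    card_conjClasses_eq _ (fun g => dl g 1 j) fun g g' hg hg' => ?_]
  · rw [Nat.card_congr (Equiv.subtypeUnivEquiv fun P => ?_), Nat.card_eq_fintype_card,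
      Fintype.card_prop]
    obtain ⟨g, h4, h5⟩ := hf.symp_exists_dl h2 (adm_unip {j + 1} (by simp))
      ((par_unip_iff _ _).2 fun i hi => by
        rw [Multiset.count_singleton, if_neg (by grind)]; simp)
      (by rw [finrank_plus, hj]; simpa using natDegree_X_sub_one_pow (F := F) (j + 1)) fun _ _ => P
    exact ⟨g, h4, propext (h5 1 (by simp) j h3 (by simp [cnt, h4]))⟩
  · refine (hf.symp_isConj_iff h2).trans ⟨fun h => propext (h.2 1 (by simp) j h3),
      fun h => ⟨hg.trans hg'.symm, fun a _ i _ => ?_⟩⟩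
    by_cases H : a = 1 ∧ i = j
    · rw [H.1, H.2]; exact iff_of_eq h
    · exact iff_of_true (dl_of_cnt (cnt_single hg H)) (dl_of_cnt (cnt_single hg' H))

end Cfsg.Agent.S2591
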