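import Cfsg.Statements.S2592
import Cfsg.Agent.Lib.Lin.CFormConj2
import Cfsg.Agent.Lib.Lin.Wall2
import Cfsg.Agent.S2591

set_option autoImplicit false
open Cfsg

namespace Cfsg.Agent.S2592

open CA.CForm CA.CForm.Form CA.Rcf Module Polynomial

theorem card_norm_one {F R : Type*} [Field F] [CommRing R] [Nontrivial R] [Finite R] [Algebra F R]
    (h2 : (2 : F) ≠ 0) (τ : R →ₐ[F] R) (h : ∀ r : R, ∃ a : F, IsNilpotent (r - algebraMap F R a)) :
    Nat.card {y : R // y * τ y = 1} = 2 * Nat.card {s : R // τ s = -s} := by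
  have hn : ∀ r : R, IsNilpotent (τ r - r) := fun r => by
    obtain ⟨a, ha⟩ := h r
    have := Commute.isNilpotent_sub (Commute.all _ _) (ha.map τ) ha
    simpa using this
  have u2 : IsUnit (2 : R) := by
    have := (IsUnit.mk0 _ h2).map (algebraMap F R)
    rwa [map_ofNat] at this
  have k1 : ∀ y : R, IsUnit (1 + y) ∨ IsUnit (1 - y) := fun y => by
    obtain ⟨a, ha⟩ := h y
    by_cases H : 1 + a = 0
    · have : (1 - a) ≠ 0 := fun H' => h2 (by linear_combination H + H')
      have := ha.neg.isUnit_add_left_of_commute ((IsUnit.mk0 _ this).map (algebraMap F R))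
        (Commute.all _ _)
      exact .inr (by convert this using 1; simp)
    · have := ha.isUnit_add_left_of_commute ((IsUnit.mk0 _ H).map (algebraMap F R))
        (Commute.all _ _)
      exact .inl (by convert this using 1; simp)
  have k2 : ∀ y : R, y * τ y = 1 → IsUnit (1 + y) → ¬IsUnit (1 - y) := fun y hy h1 h3 =>
    (Commute.isNilpotent_mul_left (Commute.all y _) (hn y)).not_isUnit
      (by convert h1.mul h3 using 1; linear_combination hy)
  have k3 : ∀ s : R, τ s = -s → IsUnit (1 + s) := fun s hs => by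
    obtain ⟨w, hw⟩ := u2.exists_left_inv
    have := Commute.isNilpotent_mul_left (Commute.all (-w) _) (hn s)
    rw [show -w * (τ s - s) = s by rw [hs]; linear_combination s * hw] at this
    exact this.isUnit_one_add
  let A := {y : R // y * τ y = 1 ∧ IsUnit (1 + y)}
  have e1 : Nat.card {y : R // y * τ y = 1} = Nat.card (A ⊕ A) := by
    refine (Nat.card_congr (Equiv.ofBijective (Sum.elim (fun y : A => ⟨y.1, y.2.1⟩)
      fun y : A => ⟨-y.1, by simpa using y.2.1⟩) ⟨?_, fun y => ?_⟩)).symm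
    · rintro (y | y) (z | z) H <;> have H := congrArg Subtype.val H <;>
        simp only [Sum.elim_inl, Sum.elim_inr] at H
      · exact congrArg _ (Subtype.ext H)
      · exact (k2 _ y.2.1 y.2.2 (by simpa [H] using z.2.2)).elim
      · exact (k2 _ z.2.1 z.2.2 (by simpa [← H] using y.2.2)).elim
      · exact congrArg _ (Subtype.ext (neg_injective H))
    · rcases k1 y.1 with H | H
      · exact ⟨.inl ⟨y.1, y.2, H⟩, rfl⟩
      · exact ⟨.inr ⟨-y.1, by simpa using y.2, by simpa [sub_eq_add_neg] using H⟩, by simp⟩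
  have cay : ∀ y : R, IsUnit (1 + y) → ∃ s, s * (1 + y) = 1 - y ∧ IsUnit (1 + s) := fun y hy => by
    obtain ⟨w, hw⟩ := hy.exists_left_inv
    refine ⟨w * (1 - y), by linear_combination (1 - y) * hw, ?_⟩
    refine isUnit_of_mul_isUnit_left (y := 1 + y) ?_
    convert u2 using 1
    linear_combination (1 - y) * hw
  choose c hc hc' using cay
  rw [e1, Nat.card_sum, ← two_mul]
  congr 1
  refine Nat.card_congr ⟨fun y => ⟨c y.1 y.2.2, ?_⟩, fun s => ⟨c s.1 (k3 _ s.2), ?_, hc' _ _⟩,
    fun y => Subtype.ext ?_, fun s => Subtype.ext ?_⟩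
  · have h1 := hc y.1 y.2.2
    have h3 := congrArg τ h1
    simp only [map_mul, map_add, map_sub, map_one] at h3
    have h4 := y.2.1
    refine y.2.2.mul_right_cancel ?_
    linear_combination y.1 * h3 + h1 - (τ (c y.1 y.2.2) + 1) * h4
  · have h1 := hc s.1 (k3 _ s.2)
    have h3 := congrArg τ h1
    simp only [map_mul, map_add, map_sub, map_one, s.2] at h3
    refine (k3 _ s.2).mul_right_cancel ?_
    linear_combination τ (c s.1 (k3 _ s.2)) * h1 + h3
  · have h1 := hc y.1 y.2.2
    have h3 := hc _ (hc' y.1 y.2.2)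
    refine (hc' y.1 y.2.2).mul_right_cancel ?_
    linear_combination h3 - h1
  · have h1 := hc s.1 (k3 _ s.2)
    have h3 := hc _ (hc' s.1 (k3 _ s.2))
    refine (hc' s.1 (k3 _ s.2)).mul_right_cancel ?_
    linear_combination h3 - h1

theorem card_anti {F R : Type*} [Field F] [Finite F] [CommRing R] [Algebra F R] (h2 : (2 : F) ≠ 0)
    (τ : R →ₐ[F] R) (pb : PowerBasis F R) {m : ℕ} (hm : pb.dim = 2 * m) (hτ : τ pb.gen = -pb.gen) :
    Nat.card {s : R // τ s = -s} = Nat.card F ^ m := by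
  classical
  have h1 : ∀ s i, pb.basis.repr (τ s) i = (-1) ^ (i : ℕ) * pb.basis.repr s i := fun s i => by
    conv_lhs => rw [← pb.basis.sum_repr s]
    have : ∀ j : Fin pb.dim, τ (pb.basis j) = (-1 : F) ^ (j : ℕ) • pb.basis j := fun j => by
      rw [pb.basis_eq_pow, map_pow, hτ, neg_pow, Algebra.smul_def]; simp
    simp only [map_sum, map_smul, this, Basis.repr_self, Finsupp.coe_finset_sum, Finset.sum_apply,
      Finsupp.smul_apply, Finsupp.single_apply, smul_eq_mul, mul_ite, mul_one, mul_zero,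
      Finset.sum_ite_eq', Finset.mem_univ, if_true]
    ring
  have h3 : ∀ s, τ s = -s ↔ ∀ i : Fin pb.dim, ¬Odd (i : ℕ) → pb.basis.equivFun s i = 0 := fun s => by
    rw [pb.basis.ext_elem_iff]
    refine forall_congr' fun i => ?_
    rw [h1, map_neg, Finsupp.neg_apply, Basis.equivFun_apply]
    rcases Nat.even_or_odd i with h | h
    · rw [h.neg_one_pow, one_mul, eq_neg_iff_add_eq_zero, ← two_mul, mul_eq_zero]
      simp [h2, h]
    · simp [h.neg_one_pow, h]
  rw [Nat.card_congr ((pb.basis.equivFun.toEquiv.subtypeEquiv (q := fun x =>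
      x ∘ Subtype.val = fun _ : {i : Fin pb.dim // ¬Odd (i : ℕ)} => (0 : F)) fun s => by
        rw [h3]; simp [funext_iff]).trans (Equiv.subtypePreimage _ _)), Nat.card_fun]
  congr 1
  refine (Nat.card_congr (show Fin m ≃ {i : Fin pb.dim // ¬¬Odd (i : ℕ)} from
    ⟨fun j => ⟨⟨2 * j + 1, by omega⟩, by simp⟩, fun i => ⟨i.1 / 2, by omega⟩,
      fun j => Fin.ext (by simp; omega), fun i => Subtype.ext (Fin.ext ?_)⟩)).symm.trans (Nat.card_fin m)
  obtain ⟨k, hk⟩ := not_not.1 i.2
  simp; omega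

theorem main {F V : Type*} [Field F] [Finite F] [AddCommGroup V] [Module F V] [FiniteDimensional F V]
    (h2 : (2 : F) ≠ 0) {f : Form (Kind.symp F) V} (hf : f.Nondeg) {m : ℕ} (hm : 1 ≤ m)
    (hV : finrank F V = 2 * m) (g : f.Isom) (h3 : ((g.1 : End F V) - 1) ^ (2 * m) = 0)
    (h4 : finrank F (LinearMap.ker ((g.1 : End F V) - 1)) = 1) :
    Nat.card (Subgroup.centralizer ({g} : Set f.Isom)) = 2 * Nat.card F ^ m := by
  set G : End F V := g.1.toLinearMap with hG
  have h5 : IsUnit (G + 1) := by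
    have := IsNilpotent.isUnit_add_left_of_commute ⟨_, h3⟩
      ((IsUnit.mk0 _ h2).map (algebraMap F (End F V))) (Algebra.commutes _ _).symm
    rwa [map_ofNat, show 2 + (G - 1) = G + 1 by rw [← one_add_one_eq_two]; abel] at this
  obtain ⟨w, hw⟩ := h5
  have c0 : Commute (G - 1) (w : End F V) := by
    rw [hw]; exact (Commute.refl G).sub_left (Commute.one_left G) |>.add_right (Commute.one_right _)
  set N : End F V := ↑w⁻¹ * (G - 1) with hN
  have c1 := c0.units_inv_right
  have h6 : N ^ (2 * m) = 0 := by rw [hN, c1.symm.mul_pow, h3, mul_zero]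
  have h7 : edivs (1 + N) = {(X - 1) ^ (2 * m)} := by
    have := sim_cyc_of_regular (A := 1 + N) ⟨2 * m, by rwa [add_sub_cancel_left]⟩ (by
      rw [add_sub_cancel_left, ← h4, hN, End.mul_eq_comp, LinearMap.ker_comp_of_ker_eq_bot]
      exact (End.isUnit_iff _).1 (w⁻¹).isUnit |>.1 |> LinearMap.ker_eq_bot.2)
    rw [hV] at this
    exact edivs_eq_of_sim_cyc (isPrim_X_sub_one_pow (by omega)) this
  let R := AdjoinRoot ((X : F[X]) ^ (2 * m))
  have hmon : ((X : F[X]) ^ (2 * m)).Monic := monic_X_pow _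
  let pb := AdjoinRoot.powerBasis' hmon
  have : Module.Finite F R := pb.finite
  have : Finite R := Module.finite_of_finite F
  have : Nontrivial R := AdjoinRoot.nontrivial _ (by rw [degree_X_pow]; simp; omega)
  have r0 : (AdjoinRoot.root (X ^ (2 * m)) : R) ^ (2 * m) = 0 := by
    simpa using AdjoinRoot.eval₂_root ((X : F[X]) ^ (2 * m))
  let τ : R →ₐ[F] R := AdjoinRoot.liftAlgHom _ (Algebra.ofId _ _) (-AdjoinRoot.root _)
    (by simp [pow_mul, ← r0])
  have hτ : τ (AdjoinRoot.root _) = -AdjoinRoot.root _ := AdjoinRoot.liftAlgHom_root ..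
  let ψ : R →ₐ[F] End F V := Ideal.Quotient.liftₐ _ (aeval N) fun p hp => by
    obtain ⟨c, rfl⟩ := Ideal.mem_span_singleton.1 hp
    simp [h6]
  have hψ : ∀ p, ψ (AdjoinRoot.mk _ p) = aeval N p := fun _ => rfl
  have i1 : Function.Injective ψ := (injective_iff_map_eq_zero _).2 fun r hr => by
    obtain ⟨p, rfl⟩ := AdjoinRoot.mk_surjective r
    have : aeval (1 + N) (p.comp (X - 1)) = 0 := by rw [aeval_comp]; simpa [hψ] using hr
    have := map_dvd (compRingHom (X + 1)) ((aeval_eq_zero_iff _ _).1 this _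
      (h7 ▸ Multiset.mem_singleton_self _))
    exact AdjoinRoot.mk_eq_zero.2 (by simpa [comp_assoc] using this)
  have a0 : ∀ c : f.Isom, hf.pre.adj c.1 * c.1 = 1 := fun c => by
    rw [hf.pre.adj_isom (B_map c.2)]
    exact LinearMap.ext fun v => c.1.symm_apply_apply v
  have a1 : hf.pre.adj N = -N := by
    have e1 : hf.pre.adj G * G = 1 := a0 g
    have e2 : (w : End F V) * N = G - 1 := by rw [hN, Units.mul_inv_cancel_left]
    have e3 := congrArg hf.pre.adj e2
    rw [Pre.adj_mul, hw, map_add, map_sub, Pre.adj_one] at e3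
    have e4 : N * w = G - 1 := by rw [hN, c1.symm.eq, Units.inv_mul_cancel_right]
    refine w.isUnit.mul_right_cancel ?_
    rw [neg_mul N, e4, hw, neg_sub]
    calc _ = hf.pre.adj N * (hf.pre.adj G + 1) * G := by
          rw [mul_assoc, add_mul, add_comm, one_mul, e1, add_comm]
      _ = _ := by rw [e3, sub_mul, e1, one_mul]
  have a2 : ∀ r, hf.pre.adj (ψ r) = ψ (τ r) := fun r => by
    obtain ⟨p, rfl⟩ := AdjoinRoot.mk_surjective r
    rw [hψ, ← AdjoinRoot.aeval_eq, ← aeval_algHom_apply τ, ← aeval_algHom_apply ψ,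
      hτ, map_neg, show ψ (AdjoinRoot.root _) = N from (hψ X).trans (aeval_X _)]
    refine hf.pre.adj_eq fun x y => ?_
    have := aeval_adj (σ := RingHom.id F) (fun _ => rfl) (B := hf.pre.B) hf.pre.add hf.pre.smul (S := -N)
      (T := N) (fun x y => a1 ▸ hf.pre.B_adj N x y) p x y
    rwa [Polynomial.map_id] at this
  have a3 : ∀ c : End F V, Commute c G → ∃ r, ψ r = c := fun c hc => by
    obtain ⟨p, hp⟩ := exists_aeval_eq_of_commute (B := c) (sim_cyc_of_edivs h7) fun v =>
      LinearMap.congr_fun (f := c * (1 + N)) (g := (1 + N) * c) (Commute.add_right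
        (Commute.one_right _) (Commute.mul_right (by
          refine Commute.units_inv_right ?_
          rw [hw]; exact hc.add_right (Commute.one_right _))
        (hc.sub_right (Commute.one_right _)))) v
    exact ⟨AdjoinRoot.mk _ (p.comp (1 + X)), by rw [hψ, aeval_comp, hp]; simp⟩
  obtain ⟨r₀, hr₀⟩ := a3 G (Commute.refl G)
  rw [← card_anti h2 τ pb (by simp [pb]) hτ, ← card_norm_one h2 τ fun r => ?_]
  · let e : {y : R // y * τ y = 1} → V ≃ₗ[F] V := fun y =>
      LinearEquiv.ofLinearMap (ψ y.1) (ψ (τ y.1))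
        (by rw [← End.mul_eq_comp, ← map_mul, y.2, map_one]; rfl)
        (by rw [← End.mul_eq_comp, ← map_mul, mul_comm (τ y.1), y.2, map_one]; rfl)
    have b1 : ∀ y, e y ∈ f.Isom := fun y => (symp_mem_Isom _).2 fun a b => by
      refine (hf.pre.B_adj' (ψ y.1) a _).symm.trans ?_
      change hf.pre.B a ((hf.pre.adj (ψ y.1) * ψ y.1) b) = _
      rw [a2, ← map_mul, mul_comm (τ y.1), y.2, map_one]; rfl
    have b2 : ∀ y, (⟨e y, b1 y⟩ : f.Isom) ∈ Subgroup.centralizer ({g} : Set f.Isom) := fun y =>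
      Subgroup.mem_centralizer_singleton_iff.2 (isom_ext _ fun v => by
        change (ψ y.1 * G) v = (G * ψ y.1) v
        rw [← hr₀, ← map_mul, ← map_mul, mul_comm y.1])
    refine (Nat.card_congr (Equiv.ofBijective (fun y => (⟨_, b2 y⟩ : Subgroup.centralizer _))
      ⟨fun y z h => ?_, fun c => ?_⟩)).symm
    · exact Subtype.ext (i1 (congrArg (fun c : Subgroup.centralizer ({g} : Set f.Isom) =>
        (c.1.1 : End F V)) h))
    · obtain ⟨r, hr⟩ := a3 c.1.1 (LinearMap.ext fun v =>
        congrArg (fun x : f.Isom => x.1 v) (Subgroup.mem_centralizer_singleton_iff.1 c.2))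
      refine ⟨⟨r, i1 ?_⟩, Subtype.ext (Subtype.ext (LinearEquiv.toLinearMap_injective hr))⟩
      rw [mul_comm r, map_mul, ← a2, hr, a0, map_one]
  · obtain ⟨p, rfl⟩ := AdjoinRoot.mk_surjective r
    refine ⟨p.coeff 0, ?_⟩
    have : AdjoinRoot.mk (X ^ (2 * m)) p - algebraMap F R (p.coeff 0) =
        AdjoinRoot.root _ * AdjoinRoot.mk _ p.divX := by
      rw [sub_eq_iff_eq_add]
      refine (congrArg _ (X_mul_divX_add p).symm).trans ?_
      rw [map_add, map_mul]; rfl
    rw [this]
    exact Commute.isNilpotent_mul_right (Commute.all _ _) ⟨_, r0⟩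

open CA.CForm CA.CForm.Form CA.Rcf Module Polynomial in
/-- Over a finite field with q elements, q odd, the centraliser in Sp_2m(F) (m ≥ 1) of a regular unipotent element (u − 1 nilpotent of rank 2m − 1) has order 2 q^m. -/
theorem result {F : Type*} [Field F] [Fintype F] {q : ℕ} (hF : Fintype.card F = q) (hq : Odd q) {m : ℕ} (hm : 1 ≤ m) (u : Matrix.symplecticGroup (Fin m) F) (hnil : ((u : Matrix (Fin m ⊕ Fin m) (Fin m ⊕ Fin m) F) - 1) ^ (2 * m) = 0) (hreg : ((u : Matrix (Fin m ⊕ Fin m) (Fin m ⊕ Fin m) F) - 1).rank = 2 * m - 1) : Nat.card ↥(Subgroup.centralizer ({u} : Set ↥(Matrix.symplecticGroup (Fin m) F))) = 2 * q ^ m := by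
  have h1 := rank_add_finrank_ker (u : Matrix (Fin m ⊕ Fin m) (Fin m ⊕ Fin m) F)
  rw [Fintype.card_sum, Fintype.card_fin, hreg] at h1
  rw [card_centralizer_congr (spEquiv F m), ← hF, ← Nat.card_eq_fintype_card]
  refine main (two_ne_zero_iff_odd.2 (hF ▸ hq)) (sympStd_nondeg F m) hm (finrank_plus _) _
    ((toLin'_sub_one_pow u.1 _).2 hnil) (Nat.add_left_cancel (h1.trans (by omega)))

end Cfsg.Agent.S2592
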