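import Cfsg.Statements.S2594
import Cfsg.Agent.Lib.Lin.Wall3

set_option autoImplicit false
open Cfsg

namespace Cfsg.Agent.S2594

open CA.CForm CA.CForm.Form in
/-- Over a finite field with q elements, q even, an element t of Sp_2m(F) with rank(t − 1) = 1 (a symplectic transvection) has centraliser in Sp_2m(F) of order q^(2m−1) · |Sp_(2m−2)(q)| = q^(2m−1) · q^((m−1)²) · Π_(i=1)^(m−1) (q^(2i) − 1). -/
theorem result {F : Type*} [Field F] [Fintype F] [CharP F 2] {q : ℕ} (hF : Fintype.card F = q) {m : ℕ} (hm : 1 ≤ m) (t : Matrix.symplecticGroup (Fin m) F) (ht : ((t : Matrix (Fin m ⊕ Fin m) (Fin m ⊕ Fin m) F) - 1).rank = 1) : Nat.card ↥(Subgroup.centralizer ({t} : Set ↥(Matrix.symplecticGroup (Fin m) F))) = q ^ (2 * m - 1) * (q ^ ((m - 1) ^ 2) * ∏ i : Fin (m - 1), (q ^ (2 * ((i : ℕ) + 1)) - 1)) := by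
  have h2 : (2 : F) = 0 := CharTwo.two_eq_zero
  have hf := sympStd_nondeg F m
  rw [rank_sub_one_eq (spEquiv F m t) _ (spEquiv_apply m t)] at ht
  rw [card_centralizer_congr (spEquiv F m)]
  generalize spEquiv F m t = t at *
  have hU : (sympStd F m).TS ((sympStd F m).commSub t) := by
    obtain ⟨v, -, hv⟩ := finrank_eq_one_iff'.1 ht
    refine symp_ts_iff.2 fun u hu w hw => ?_
    obtain ⟨a, ha⟩ := hv ⟨u, hu⟩
    obtain ⟨b, hb⟩ := hv ⟨w, hw⟩
    rw [show u = a • v.1 from (congrArg Subtype.val ha).symm,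
      show w = b • v.1 from (congrArg Subtype.val hb).symm]
    simp [symp_B_self]
  have htt : t * t = 1 := isom_ext _ fun x => by
    have h1 := hU.le_perp ((sympStd F m).cv t x).2
    rw [hf.perp_commSub, mem_fixSub, coe_cv, map_sub] at h1
    rw [isom_mul_apply, isom_one_apply, sub_eq_iff_eq_add.1 h1, sub_add_eq_add_sub, ← two_smul F,
      h2, zero_smul, zero_sub, neg_eq_self_of_two h2]
  obtain ⟨r, rfl⟩ : ∃ r, m = 1 + r := ⟨m - 1, by omega⟩
  rw [hf.card_centralizer_odd (fun _ => rfl) h2 htt (j := 0) ht,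
    hf.symp_card_fix_ts hU ht (finrank_plus _), Nat.card_eq_fintype_card, hF, ← spOrd_eq,
    Nat.add_sub_cancel_left, show 2 * (1 + r) - 1 = 2 * 1 * r + Nat.choose 1 2 + 1 by simp; omega]
  simp [spOrd]

end Cfsg.Agent.S2594
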