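import Cfsg.Statements.S2597
import Cfsg.Agent.Lib.Lin.Wall2

set_option autoImplicit false
open Cfsg

namespace Cfsg.Agent.S2597

open CA.CForm CA.CForm.Form in
/-- Number of conjugacy classes of involutions in Ω⁺_2m(F) (the commutator subgroup of the orthogonal group of Σ x_i y_i) over a finite field F of characteristic two, m ≥ 1, excluding the case m = 2 over the field of two elements: the involutions of Ω are those with s = rank(t − 1) even, giving two O-classes for each even s with 2 ≤ s ≤ m, each of which is a single Ω-class except that for m even the class with s = m and v ↦ f(v, tv) identically zero splits in two; in all 2⌊m/2⌋ + 1 classes if m is even and 2⌊m/2⌋ if m is odd. -/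
theorem result {F : Type*} [Field F] [Fintype F] [CharP F 2] {m : ℕ} (hm : 1 ≤ m) (h : Fintype.card F ≠ 2 ∨ m ≠ 2) : Nat.card {C : ConjClasses ↥(Cfsg.Omega F (Cfsg.quadFormPlus m F)) // ∃ g : ↥(Cfsg.Omega F (Cfsg.quadFormPlus m F)), ConjClasses.mk g = C ∧ orderOf g = 2} = 2 * (m / 2) + (if Even m then 1 else 0) := by
  refine (card_conjClasses_congr (omegaEquiv (plusForm F m)) _ (fun g => orderOf g = 2) fun g => by
    rw [MulEquiv.orderOf_eq]; rfl).trans ?_
  exact (plusForm_nondeg F m).omega_card_classes_plus
    (good_of_card _ (h.imp id fun h => by rw [finrank_plus]; omega)) CharTwo.two_eq_zero hm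
    (finrank_plus m) (plusForm_isIndex F m)

end Cfsg.Agent.S2597
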