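import Cfsg.Statements.S2598
import Cfsg.Agent.Lib.Lin.Wall2

set_option autoImplicit false
open Cfsg

namespace Cfsg.Agent.S2598

open CA.CForm CA.CForm.Form in
/-- Number of conjugacy classes of involutions in Ω⁻_2m(F) (the commutator subgroup of the orthogonal group of an elliptic quadratic form, Σ_(i<m−1) x_i y_i plus an anisotropic binary form) over a finite field F of characteristic two, m ≥ 1: the involutions of Ω are those with s = rank(t − 1) even, one O-class for each even s with 2 ≤ s ≤ m on which v ↦ f(v, tv) is not identically zero and one for each even s with 2 ≤ s < m on which it is zero (f the polar form; in characteristic 2, f(v, tv) = Q(v + tv)), none of which splits in Ω; in all ⌊m/2⌋ + ⌊(m − 1)/2⌋. -/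
theorem result {F : Type*} [Field F] [Fintype F] [CharP F 2] {m : ℕ} (hm : 1 ≤ m) (a b : F) (hab : ∀ z₁ z₂ : F, z₁ ^ 2 + a * z₁ * z₂ + b * z₂ ^ 2 = 0 → z₁ = 0 ∧ z₂ = 0) : Nat.card {C : ConjClasses ↥(Cfsg.Omega F (Cfsg.quadFormMinus (m - 1) F a b)) // ∃ g : ↥(Cfsg.Omega F (Cfsg.quadFormMinus (m - 1) F a b)), ConjClasses.mk g = C ∧ orderOf g = 2} = m / 2 + (m - 1) / 2 := by
  refine (card_conjClasses_congr (omegaEquiv (minusForm (m - 1) a b)) _ (fun g => orderOf g = 2)
    fun g => by rw [MulEquiv.orderOf_eq]; rfl).trans ?_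
  have hg : (minusForm (m - 1) a b).Good := by
    by_cases h : m = 2
    · exact Or.inr (Or.inr fun H => by have := H.unique (minusForm_isIndex _ hab); omega)
    · exact Or.inr (Or.inl (by rw [finrank_minus]; omega))
  rw [(minusForm_nondeg _ hab).omega_card_classes_minus hg CharTwo.two_eq_zero
    (finrank_minus _) (minusForm_isIndex _ hab), Nat.sub_add_cancel hm]

end Cfsg.Agent.S2598
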