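import Cfsg.Statements.S2599
import Cfsg.Agent.Lib.Lin.Rcf3

set_option autoImplicit false
open Cfsg

namespace Cfsg.Agent.S2599

open CA.CForm CA.CForm.Form CA.Rcf Polynomial in
/-- An irreducible invariant subspace of a semisimple isometry is non-degenerate or totally singular: let Q be a quadratic form on F^n (F finite of characteristic p) with non-degenerate polar form f, x an isometry of Q of order prime to p, and U a non-zero x-invariant subspace containing no x-invariant subspace other than 0 and U. Then U meets its f-orthogonal trivially, or Q vanishes on U, or p = 2, U is a line spanned by a non-singular vector and x fixes U pointwise. -/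
theorem result {F : Type*} [Field F] [Fintype F] {p : ℕ} [Fact p.Prime] [CharP F p] {n : ℕ} (Q : QuadraticForm F (Fin n → F)) (hQ : (QuadraticMap.polarBilin Q).Nondegenerate) (x : ↥(Cfsg.isometryGroup F ⇑Q)) (hx : (orderOf x).Coprime p) (U : Submodule F (Fin n → F)) (hU0 : U ≠ ⊥) (hUx : ∀ u ∈ U, ((x : Matrix.GeneralLinearGroup (Fin n) F) : Matrix (Fin n) (Fin n) F).mulVec u ∈ U) (hirr : ∀ W : Submodule F (Fin n → F), W ≤ U → (∀ w ∈ W, ((x : Matrix.GeneralLinearGroup (Fin n) F) : Matrix (Fin n) (Fin n) F).mulVec w ∈ W) → W = ⊥ ∨ W = U) : U ⊓ LinearMap.BilinForm.orthogonal (QuadraticMap.polarBilin Q) U = ⊥ ∨ (∀ u ∈ U, Q u = 0) ∨ (p = 2 ∧ Module.finrank F U = 1 ∧ (∃ u ∈ U, Q u ≠ 0) ∧ ∀ u ∈ U, ((x : Matrix.GeneralLinearGroup (Fin n) F) : Matrix (Fin n) (Fin n) F).mulVec u = u) := by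
  let g := orthEquiv (ofQuad Q) x
  have hg : g ∈ (ofQuad Q).stab U := mem_stab_of_le _ hUx
  have hp : ∀ v, v ∈ LinearMap.BilinForm.orthogonal (QuadraticMap.polarBilin Q) U ↔
      v ∈ (ofQuad Q).perp U := fun v => Iff.rfl
  refine (hirr _ inf_le_left fun w hw => ⟨hUx w hw.1, (hp _).2
    ((stab_le_stab_perp _ _ hg w).1 hw.2)⟩).imp_right fun h => ?_
  have h1 : ∀ u ∈ U, ∀ v ∈ U, (ofQuad Q).B u v = 0 := fun u hu v hv =>
    (hp v).1 (inf_eq_left.1 h hv) u hu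
  have h2 : ∀ u ∈ U, ∀ v ∈ U, Q (u + v) = Q u + Q v := fun u hu v hv =>
    (ofQuad Q).Q_add_of_B (h1 u hu v hv)
  let U₀ : Submodule F (Fin n → F) :=
    { carrier := {u | u ∈ U ∧ Q u = 0}
      add_mem' := fun hu hv => ⟨add_mem hu.1 hv.1, by rw [h2 _ hu.1 _ hv.1, hu.2, hv.2, add_zero]⟩
      zero_mem' := ⟨zero_mem _, map_zero _⟩
      smul_mem' := fun a u hu => ⟨U.smul_mem a hu.1, by rw [Q.map_smul, hu.2, smul_zero]⟩ }
  refine (hirr U₀ (fun u hu => hu.1) fun w hw =>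
    ⟨hUx w hw.1, (mem_isometryGroup.1 x.2 w).trans hw.2⟩).symm.imp
    (fun h u hu => (h.ge hu).2) fun h => ?_
  have h3 : ∀ u ∈ U, Q u = 0 → u = 0 := fun u hu hu' => (Submodule.eq_bot_iff _).1 h u ⟨hu, hu'⟩
  obtain ⟨u, hu, hu0⟩ := (Submodule.ne_bot_iff _).1 hU0
  have h4 : Q u ≠ 0 := fun h => hu0 (h3 u hu h)
  have h5 : (2 : F) = 0 := (mul_eq_zero.1 (((ofQuad Q).orth_B_self u).symm.trans
    (h1 u hu u hu))).resolve_right h4
  have h6 : ∀ v ∈ U, ∀ w ∈ U, Q v = Q w → v = w := fun v hv w hw h => sub_eq_zero.1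
    (h3 _ (sub_mem hv hw) (by
      rw [sub_eq_add_neg, h2 _ hv _ (neg_mem hw), Q.map_neg, h, ← two_mul, h5, zero_mul]))
  refine ⟨((Nat.prime_dvd_prime_iff_eq Fact.out Nat.prime_two).1
    ((CharP.cast_eq_zero_iff F p 2).1 h5)), ?_, ⟨u, hu, h4⟩, fun v hv =>
      h6 _ (hUx v hv) _ hv (mem_isometryGroup.1 x.2 v)⟩
  refine (finrank_eq_one_iff_of_nonzero' (⟨u, hu⟩ : U) (by simpa using hu0)).2 fun w => ?_
  obtain ⟨a, ha⟩ := isSquare_of_two_eq_zero h5 (Q w / Q u)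
  exact ⟨a, Subtype.ext (h6 _ (U.smul_mem a hu) _ w.2 (by
    rw [Q.map_smul, ← ha, smul_eq_mul, div_mul_cancel₀ _ h4]))⟩

end Cfsg.Agent.S2599
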