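import Cfsg.Statements.S2605
import Cfsg.Agent.Lib.Lin.AutOrth5

set_option autoImplicit false
open Cfsg

namespace Cfsg.Agent.S2605

open CA.AutForm CA.CForm CA.AutGam CA.AutFld CA.AutOut CA.AutLang CA.AutPhi SemidirectProduct

/-- Outer automorphism group of PΩ⁻_2m(q), m ≥ 4, q = 2^f: cyclic of order 2f, generated by a semilinear map inducing the Frobenius automorphism of the field (its f-th power is a graph automorphism, an orthogonal transvection). -/
theorem result {F : Type*} [Field F] [Fintype F] {f m : ℕ} (hf : 1 ≤ f) (hF : Fintype.card F = 2 ^ f) (hm : 4 ≤ m) (a b : F) (hab : ∀ z₁ z₂ : F, z₁ ^ 2 + a * z₁ * z₂ + b * z₂ ^ 2 = 0 → z₁ = 0 ∧ z₂ = 0) : IsCyclic (Cfsg.Out (Cfsg.POmega F (Cfsg.quadFormMinus (m - 1) F a b))) ∧ Nat.card (Cfsg.Out (Cfsg.POmega F (Cfsg.quadFormMinus (m - 1) F a b))) = 2 * f := by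
  have hm' : 2 ≤ m - 1 := by omega
  have E := embMinus hab hm'
  obtain ⟨θ, h1, h2⟩ := exists_theta hm' hab hF
  obtain ⟨e⟩ := (bigE_minus hm' hab).out_two E (E.Ph_surjective (genMinus hab))
    ((two_eq_zero_iff hf hF).mpr rfl) h1 h2
  exact ⟨isCyclic_of_surjective e.symm e.symm.surjective, (Nat.card_congr (e.toEquiv.trans Multiplicative.toAdd)).trans (Nat.card_zmod _)⟩

end Cfsg.Agent.S2605
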