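import Cfsg.Statements.S2606
import Cfsg.Agent.Lib.Lin.AutOrth5

set_option autoImplicit false
open Cfsg

namespace Cfsg.Agent.S2606

open CA.AutForm CA.CForm CA.AutGam CA.AutFld CA.AutOut CA.AutLang CA.AutPhi SemidirectProduct

/-- Outer automorphism group of PΩ⁻_2m(q), m ≥ 4, q = p^f odd: it is dihedral of order 8 times cyclic of order f when q ≡ 3 (mod 4) and m is odd, and otherwise the direct product of a group of order 2 with a cyclic group of order 2f. -/
theorem result {F : Type*} [Field F] [Fintype F] {p f m : ℕ} [Fact p.Prime] (hf : 1 ≤ f) (hF : Fintype.card F = p ^ f) (hp : p ≠ 2) (hm : 4 ≤ m) (a b : F) (hab : ∀ z₁ z₂ : F, z₁ ^ 2 + a * z₁ * z₂ + b * z₂ ^ 2 = 0 → z₁ = 0 ∧ z₂ = 0) : if p ^ f % 4 = 3 ∧ Odd m then Nonempty (Cfsg.Out (Cfsg.POmega F (Cfsg.quadFormMinus (m - 1) F a b)) ≃* DihedralGroup 4 × Multiplicative (ZMod f)) else Nonempty (Cfsg.Out (Cfsg.POmega F (Cfsg.quadFormMinus (m - 1) F a b)) ≃* Multiplicative (ZMod 2 × ZMod (2 * f)))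 := by
  have hm' : 2 ≤ m - 1 := by omega
  have E := embMinus hab hm'
  have hs := E.Ph_surjective (genMinus hab)
  have h3 := mt (two_eq_zero_iff hf hF).mp hp
  have h4 := spin_negI_minus h3 hm' hab
  rw [hF, Nat.even_sub (by omega), iff_false_right Nat.not_even_one, Nat.not_even_iff_odd,
    and_comm] at h4
  split_ifs with h
  · have := (bigE_minus hm' hab).out_D8_odd E hs h3 (h4.mpr h) (exists_mem_minus hab)
    rw [card_ringAut hF] at this
    exact this (odd_of_pow_mod_four ((Fact.out : p.Prime).odd_of_ne_two hp) h.1)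
  · obtain ⟨θ, h1, h2⟩ := exists_theta hm' hab hF
    obtain ⟨e⟩ := (bigE_minus hm' hab).out_klein E hs h3 (mt h4.mp h) h1 h2
    obtain ⟨e'⟩ := nonempty_units_prod (MulEquiv.refl (Multiplicative (ZMod (2 * f))))
    exact ⟨e.trans e'⟩

end Cfsg.Agent.S2606
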