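import Cfsg.Statements.S2607
import Cfsg.Agent.Lib.Lin.AutTri2

set_option autoImplicit false
open Cfsg

namespace Cfsg.Agent.S2607

open CA.AutForm CA.CForm CA.AutGam CA.AutFld CA.AutOut CA.AutLang CA.AutPhi SemidirectProduct

/-- Outer automorphism group of PΩ⁺_2m(q), q = 2^f: for m ≥ 5 it is the direct product of a group of order 2 (graph automorphism, an orthogonal transvection) and a cyclic group of order f (field automorphisms); for m = 4 triality enlarges it to S_3 × C_f. -/
theorem result {F : Type*} [Field F] [Fintype F] {f m : ℕ} (hf : 1 ≤ f) (hF : Fintype.card F = 2 ^ f) (hm : 4 ≤ m) : if m = 4 then Nonempty (Cfsg.Out (Cfsg.POmega F (Cfsg.quadFormPlus m F)) ≃* Equiv.Perm (Fin 3) × Multiplicative (ZMod f)) else Nonempty (Cfsg.Out (Cfsg.POmega F (Cfsg.quadFormPlus m F)) ≃* Multiplicative (ZMod 2 × ZMod f)) := by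
  have hm' : 3 ≤ m := by omega
  have E := embPlus (F := F) hm'
  have h2 := (two_eq_zero_iff hf hF).mpr rfl
  split_ifs with h4
  · subst h4
    have := out8_two E h2
    rwa [card_ringAut hF] at this
  · obtain ⟨h1, h3⟩ := (plus_plus (F := F) hm').theta fun σ => ⟨1, inr_mem_plus m σ⟩
    obtain ⟨e⟩ := (bigE_plus hm').out_two E (E.Ph_surjective (genPlus (by omega))) h2 h1 h3
    obtain ⟨e1⟩ := nonempty_ringAut_zmod hF
    obtain ⟨e2⟩ := nonempty_units_prod e1
    exact ⟨e.trans e2⟩

end Cfsg.Agent.S2607
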