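import Cfsg.Statements.S2611
import Cfsg.Agent.Lib.Lin.CFormOSub
import Cfsg.Agent.Lib.Lin.H22Embed

set_option autoImplicit false
open Cfsg

namespace Cfsg.Agent.S2611

open CA.CForm CA.CForm.Form in
/-- For the hyperbolic quadratic form Σ x_i y_i on F^(2m) (F finite, m ≥ 1, excluding m = 2 over the field of two elements) and an invertible m × m matrix A, the block-diagonal isometry diag(A, (A⁻¹)ᵀ), which stabilises the two maximal totally singular subspaces x = 0 and y = 0, lies in Ω⁺_2m(F) (the commutator subgroup of the orthogonal group) if and only if det A is a square in F. -/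
theorem result {F : Type*} [Field F] [Fintype F] {m : ℕ} (hm : 1 ≤ m) (h : Fintype.card F ≠ 2 ∨ m ≠ 2) (A : GL (Fin m) F) : (∃ g : ↥(Cfsg.isometryGroup F (Cfsg.quadFormPlus m F)), g ∈ Cfsg.Omega F (Cfsg.quadFormPlus m F) ∧ ((g : Matrix.GeneralLinearGroup (Fin m ⊕ Fin m) F) : Matrix (Fin m ⊕ Fin m) (Fin m ⊕ Fin m) F) = Matrix.fromBlocks (A : Matrix (Fin m) (Fin m) F) 0 0 ((A : Matrix (Fin m) (Fin m) F)⁻¹).transpose) ↔ IsSquare (A : Matrix (Fin m) (Fin m) F).det := by
  have hf := plusForm_nondeg F m
  have hg : (plusForm F m).Good := good_of_card _ (by rw [finrank_plus]; omega)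
  let φ : Matrix.GeneralLinearGroup (Fin m) F →* (plusForm F m).Isom :=
    (orthEquiv (plusForm F m)).toMonoidHom.comp (CA.H22Embed.leviPlus m F)
  have hφ : ∀ (A : Matrix.GeneralLinearGroup (Fin m) F) v, (φ A : _ ≃ₗ[F] _) v =
      (Matrix.fromBlocks (A : Matrix (Fin m) (Fin m) F) 0 0 ((A : Matrix (Fin m) (Fin m) F)⁻¹).transpose).mulVec v := by
    intro A v
    rw [← Matrix.coe_units_inv]; rfl
  refine (exists_omega_eq_iff (plusForm F m) (φ A) _ fun v => (hφ A v).symm).trans ?_
  have hs := plusForm_hypSys F m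
  have hd : ∀ A, hf.dick hg (φ A) = 1 := by
    intro A
    have hU := hs.ts_e
    rw [hf.dick_eq_one_iff_even_sub hg (finrank_plus m) hU (by
      rw [finrank_span_eq_card hs.linearIndependent_e, Fintype.card_fin]),
      (mem_stab_iff_act _).1 (mem_stab_of_le _ ?_), inf_idem,
      finrank_span_eq_card hs.linearIndependent_e]
    · simp
    · have : ∀ v, v ∈ Submodule.span F (Set.range fun i : Fin m => (Pi.single (Sum.inl i) 1 : Fin m ⊕ Fin m → F)) ↔
          ∀ i, v (Sum.inr i) = 0 := by
        intro v
        rw [← hf.perp_eq_of_two_mul hU (by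
          rw [finrank_span_eq_card hs.linearIndependent_e, finrank_plus, Fintype.card_fin]), mem_perp_span]
        simp [plusForm_B, Pi.single_apply]
      intro v hv
      rw [this] at hv ⊢
      intro i
      rw [hφ, Matrix.fromBlocks_mulVec, show v ∘ Sum.inr = 0 from funext hv]
      simp
  rw [hf.mem_commutator_iff hg, hd, ← sqSign_eq_one]
  simp only [true_and]
  by_cases h2 : (2 : F) = 0
  · rw [hf.spin_of_two_eq_zero hg h2, sqSign_eq_one]
    simp [isSquare_of_two_eq_zero h2]
  suffices H : ∀ M : Matrix (Fin m) (Fin m) F, M.det ≠ 0 → ∀ A : Matrix.GeneralLinearGroup (Fin m) F,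
      (A : Matrix (Fin m) (Fin m) F) = M → hf.spin hg (φ A) = sqSign M.det by
    rw [H _ A.det_ne_zero A rfl]
  intro M hM
  refine Matrix.diagonal_transvection_induction_of_det_ne_zero (fun M => ∀ A : Matrix.GeneralLinearGroup (Fin m) F,
      (A : Matrix (Fin m) (Fin m) F) = M → hf.spin hg (φ A) = sqSign M.det) M hM ?_ ?_ ?_
  · intro D hD A hA
    rw [Matrix.det_diagonal] at hD ⊢
    have hD' : ∀ i, D i ≠ 0 := fun i => Finset.prod_ne_zero_iff.1 hD i (Finset.mem_univ _)
    have hinv : (Matrix.diagonal D)⁻¹ = Matrix.diagonal fun i => (D i)⁻¹ :=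
      Matrix.inv_eq_right_inv (by simp [Matrix.diagonal_mul_diagonal, hD'])
    rw [(hs.dick_spin_of_diag hf hg (fun i => Units.mk0 _ (hD' i)) (g := φ A) ?_ ?_ ?_).2]
    · simp
    · intro i
      rw [hφ, hA, hinv, Matrix.fromBlocks_mulVec]
      ext (j | j) <;> simp [Matrix.mulVec_diagonal, Pi.single_apply, Function.comp_def]
      split_ifs with h
      · rw [h]
      · rfl
    · intro i
      rw [hφ, hA, hinv, Matrix.fromBlocks_mulVec]
      ext (j | j) <;> simp [Matrix.mulVec_diagonal, Pi.single_apply, Function.comp_def]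
      split_ifs with h
      · rw [h]
      · rfl
    · intro w h1 h3
      have : w = 0 := by
        ext (j | j)
        · simpa [plusForm_B, Pi.single_apply] using h3 j
        · simpa [plusForm_B, Pi.single_apply] using h1 j
      simp [this]
  · intro t A hA
    obtain ⟨p, hp⟩ := CharP.exists F
    have hpp := CharP.char_is_prime F p
    have hp2 : Odd p := hpp.odd_of_ne_two fun h => h2 (by subst h; exact CharTwo.two_eq_zero)
    have h1 : ∀ n : ℕ, ((A ^ n : Matrix.GeneralLinearGroup (Fin m) F) : Matrix (Fin m) (Fin m) F) =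
        Matrix.transvection t.i t.j (n * t.c) := by
      intro n
      induction n with
      | zero => simp
      | succ n ih =>
        rw [pow_succ, Units.val_mul, ih, hA, Matrix.TransvectionStruct.toMatrix,
          Matrix.transvection_mul_transvection_same _ _ t.hij]
        simp [add_mul]
    have h3 : A ^ p = 1 := Units.ext (by rw [h1]; simp)
    have h4 : hf.spin hg (φ A) ^ p = 1 := by rw [← map_pow, ← map_pow, h3, map_one, map_one]
    rw [Matrix.TransvectionStruct.det, sqSign_one]
    rcases Int.units_eq_one_or (hf.spin hg (φ A)) with h | h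
    · exact h
    · rw [h, hp2.neg_one_pow] at h4
      exact absurd h4 (by decide)
  · intro M N hM hN h1 h3 A hA
    have : A = Matrix.GeneralLinearGroup.mkOfDetNeZero M hM * Matrix.GeneralLinearGroup.mkOfDetNeZero N hN :=
      Units.ext hA
    rw [this, map_mul, map_mul, h1 _ rfl, h3 _ rfl, Matrix.det_mul, sqSign_mul hM hN]

end Cfsg.Agent.S2611
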