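import Cfsg.Statements.S2612
import Cfsg.Agent.Lib.Lin.CFormOSub

set_option autoImplicit false
open Cfsg

namespace Cfsg.Agent.S2612

open CA.CForm CA.CForm.Form in
/-- For the hyperbolic quadratic form Σ x_i y_i on F^(2m) (F finite, m ≥ 1, excluding m = 2 over the field of two elements), Ω⁺_2m(F) (the commutator subgroup of the orthogonal group) contains an element interchanging the two complementary maximal totally singular subspaces {y = 0} and {x = 0} if and only if m is even (dimension divisible by 4). -/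
theorem result {F : Type*} [Field F] [Fintype F] {m : ℕ} (hm : 1 ≤ m) (h : Fintype.card F ≠ 2 ∨ m ≠ 2) : (∃ g : ↥(Cfsg.isometryGroup F (Cfsg.quadFormPlus m F)), g ∈ Cfsg.Omega F (Cfsg.quadFormPlus m F) ∧ (∀ v : Fin m ⊕ Fin m → F, (∀ i, v (Sum.inr i) = 0) → ∀ i, (((g : Matrix.GeneralLinearGroup (Fin m ⊕ Fin m) F) : Matrix (Fin m ⊕ Fin m) (Fin m ⊕ Fin m) F).mulVec v) (Sum.inl i) = 0) ∧ (∀ v : Fin m ⊕ Fin m → F, (∀ i, v (Sum.inl i) = 0) → ∀ i, (((g : Matrix.GeneralLinearGroup (Fin m ⊕ Fin m) F) : Matrix (Fin m ⊕ Fin m) (Fin m ⊕ Fin m) F).mulVec v) (Sum.inr i) = 0)) ↔ Even m := by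
  have hf := plusForm_nondeg F m
  have hg : (plusForm F m).Good := good_of_card _ (by rw [finrank_plus]; omega)
  have hs := plusForm_hypSys F m
  set U := Submodule.span F (Set.range fun i : Fin m => (Pi.single (Sum.inl i) 1 : Fin m ⊕ Fin m → F)) with hU
  set W := Submodule.span F (Set.range fun i : Fin m => (Pi.single (Sum.inr i) 1 : Fin m ⊕ Fin m → F)) with hW
  have dU : Module.finrank F U = m := by rw [finrank_span_eq_card hs.linearIndependent_e, Fintype.card_fin]
  have dW : Module.finrank F W = m := by rw [finrank_span_eq_card hs.linearIndependent_y, Fintype.card_fin]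
  have mU : ∀ v, v ∈ U ↔ ∀ i, v (Sum.inr i) = 0 := by
    intro v
    rw [hU, ← hf.perp_eq_of_two_mul hs.ts_e (by rw [dU, finrank_plus]), mem_perp_span]
    simp [plusForm_B, Pi.single_apply]
  have mW : ∀ v, v ∈ W ↔ ∀ i, v (Sum.inl i) = 0 := by
    intro v
    rw [hW, ← hf.perp_eq_of_two_mul hs.ts_y (by rw [dW, finrank_plus]), mem_perp_span]
    simp [plusForm_B, Pi.single_apply]
  have key : ∀ g : (plusForm F m).Isom, (∀ v ∈ U, (g : _ ≃ₗ[F] _) v ∈ W) →
      (hf.dick hg g = 1 ↔ Even m) := by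
    intro g h1
    rw [hf.dick_eq_one_iff_even_sub hg (finrank_plus m) hs.ts_e dU]
    have : U ⊓ (plusForm F m).act g U = ⊥ := by
      rw [eq_bot_iff]
      rintro _ ⟨h2, v, hv, rfl⟩
      have h3 := (mW _).1 (h1 v hv)
      ext (i | i)
      · exact h3 i
      · exact (mU _).1 h2 i
    rw [this, finrank_bot, Nat.sub_zero]
  simp only [← mU, ← mW]
  refine (exists_omega_iff (plusForm F m) fun φ => (∀ v ∈ U, φ v ∈ W) ∧ ∀ v ∈ W, φ v ∈ U).trans ?_
  constructor
  · rintro ⟨g, h1, h2, -⟩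
    exact (key g h2).1 (hf.dick_of_mem_commutator hg h1)
  · intro he
    let s : (plusForm F m).Isom := ⟨LinearEquiv.funCongrLeft F F (Equiv.sumComm _ _),
      (orth_mem_Isom _).2 fun x => by simp [plusForm_Q_apply, mul_comm]⟩
    have s1 : ∀ v ∈ U, (s : _ ≃ₗ[F] _) v ∈ W := fun v hv => (mW _).2 fun i => (mU _).1 hv i
    have s2 : ∀ v ∈ W, (s : _ ≃ₗ[F] _) v ∈ U := fun v hv => (mU _).2 fun i => (mW _).1 hv i
    refine (hf.exists_mul_mem_commutator' hg
      (S := (plusForm F m).stab U ⊓ (plusForm F m).stab W) (g := s) (fun h2 => ?_) ((key s s1).2 he)).elim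
      fun t ⟨ht, h1⟩ => ⟨_, h1, fun v hv => (ht.2 _).1 (s1 v hv), fun v hv => (ht.1 _).1 (s2 v hv)⟩
    · have hy := hs.isHyp ⟨0, hm⟩
      obtain ⟨a, ha⟩ := hy.exists_torus_spin hf hg h2
      refine ⟨_, ⟨mem_stab_of_le _ fun v hv => ?_, mem_stab_of_le _ fun v hv => ?_⟩, ha⟩
      · rw [hy.torus_apply, hs.ts_e.B_eq _ (Submodule.subset_span ⟨_, rfl⟩) v hv, mul_zero, zero_smul, add_zero]
        exact add_mem hv (U.smul_mem _ (Submodule.subset_span ⟨_, rfl⟩))
      · rw [hy.torus_apply, hs.ts_y.B_eq _ (Submodule.subset_span ⟨_, rfl⟩) v hv, mul_zero, zero_smul, add_zero]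
        exact add_mem hv (W.smul_mem _ (Submodule.subset_span ⟨_, rfl⟩))

end Cfsg.Agent.S2612
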