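import Cfsg.Statements.S2614
import Cfsg.Agent.Lib.Lin.CFormMisc

set_option autoImplicit false
open Cfsg

namespace Cfsg.Agent.S2614

open CA.CForm CA.CForm.Form in
/-- For the form x_0² + Σ x_j y_j on F^(2m+1), F finite with q elements, q odd, and 1 ≤ i ≤ m: the involution of determinant one negating the first i hyperbolic pairs (and fixing x_0 and the other pairs) lies in Ω_(2m+1)(q) (commutator subgroup of the orthogonal group) if and only if q^i ≡ 1 (mod 4); its (−1)-eigenspace is a hyperbolic 2i-space. -/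
theorem result {F : Type*} [Field F] [Fintype F] {q : ℕ} (hF : Fintype.card F = q) (hq : Odd q) {m : ℕ} (i : ℕ) (hi : 1 ≤ i) (him : i ≤ m) : (∃ g : ↥(Cfsg.isometryGroup F (Cfsg.quadFormOdd m F)), g ∈ Cfsg.Omega F (Cfsg.quadFormOdd m F) ∧ ((g : Matrix.GeneralLinearGroup (Unit ⊕ (Fin m ⊕ Fin m)) F) : Matrix (Unit ⊕ (Fin m ⊕ Fin m)) (Unit ⊕ (Fin m ⊕ Fin m)) F) = Matrix.diagonal (fun k : Unit ⊕ (Fin m ⊕ Fin m) => if (Sum.elim (fun _ : Unit => i) (Sum.elim (fun j : Fin m => (j : ℕ)) (fun j : Fin m => (j : ℕ))) k) < i then (-1 : F) else 1)) ↔ q ^ i % 4 = 1 := by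
  rw [← hF]
  have h2 : (2 : F) ≠ 0 := two_ne_zero_iff_odd.2 (hF ▸ hq)
  have hB : ∀ u v, (oddForm F m).B u v = 2 * u (Sum.inl ()) * v (Sum.inl ()) +
      ∑ i, (u (Sum.inr (Sum.inl i)) * v (Sum.inr (Sum.inr i)) + u (Sum.inr (Sum.inr i)) * v (Sum.inr (Sum.inl i))) :=
    fun u v => by rw [oddForm, sum_B, plusForm_B, unitForm_B]; rfl
  have hQ : ∀ v, (oddForm F m).Q v = v (Sum.inl ()) ^ 2 +
      ∑ i, v (Sum.inr (Sum.inl i)) * v (Sum.inr (Sum.inr i)) := fun v => rfl
  refine exists_omega_diag_iff (oddForm F m) (oddForm_nondeg h2 m) h2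
    (e := fun j => Sum.inr (Sum.inl j)) (y := fun j => Sum.inr (Sum.inr j)) ?_
    him _ (fun _ => Iff.rfl) (fun _ => Iff.rfl) (fun v => ?_) fun w h1 h2 k hk => ?_
  · refine ⟨fun _ => ?_, fun _ => ?_, fun i j => ?_, fun i j => ?_, fun i => ?_, fun i j h => ?_⟩
    all_goals simp [hB, hQ, Pi.single_apply]
    exact fun h' => h h'.symm
  · rw [hQ, hQ]
    congr 1
    · simp
    refine Finset.sum_congr rfl fun j _ => ?_
    simp only [Sum.elim_inl, Sum.elim_inr]
    by_cases h : (j : ℕ) < i <;> simp [h]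
  · rcases k with j | j | j
    · simp at hk
    · simpa [hB, Pi.single_apply] using h2 j
    · simpa [hB, Pi.single_apply] using h1 j

end Cfsg.Agent.S2614
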