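import Cfsg.Statements.S2615
import Cfsg.Agent.Lib.Lin.CFormMisc

set_option autoImplicit false
open Cfsg

namespace Cfsg.Agent.S2615

open CA.CForm CA.CForm.Form in
/-- For an elliptic form Σ_(j<m−1) x_j y_j + (z₁² + a z₁z₂ + b z₂²) (anisotropic binary part) on F^(2m), F finite with q elements, q odd, and 1 ≤ i ≤ m − 1: the involution negating the first i hyperbolic pairs and fixing the rest lies in Ω⁻_2m(q) (commutator subgroup of the orthogonal group) if and only if q^i ≡ 1 (mod 4). -/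
theorem result {F : Type*} [Field F] [Fintype F] {q : ℕ} (hF : Fintype.card F = q) (hq : Odd q) {m : ℕ} (a b : F) (hab : ∀ z₁ z₂ : F, z₁ ^ 2 + a * z₁ * z₂ + b * z₂ ^ 2 = 0 → z₁ = 0 ∧ z₂ = 0) (i : ℕ) (hi : 1 ≤ i) (him : i + 1 ≤ m) : (∃ g : ↥(Cfsg.isometryGroup F (Cfsg.quadFormMinus (m - 1) F a b)), g ∈ Cfsg.Omega F (Cfsg.quadFormMinus (m - 1) F a b) ∧ ((g : Matrix.GeneralLinearGroup ((Fin (m - 1) ⊕ Fin (m - 1)) ⊕ Fin 2) F) : Matrix ((Fin (m - 1) ⊕ Fin (m - 1)) ⊕ Fin 2) ((Fin (m - 1) ⊕ Fin (m - 1)) ⊕ Fin 2) F) = Matrix.diagonal (fun k : (Fin (m - 1) ⊕ Fin (m - 1)) ⊕ Fin 2 => if (Sum.elim (Sum.elim (fun j : Fin (m - 1) => (j : ℕ)) (fun j : Fin (m - 1) => (j : ℕ))) (fun _ : Fin 2 => i) k) < i then (-1 : F) else 1)) ↔ q ^ i % 4 = 1 := by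
  rw [← hF]
  have h2 : (2 : F) ≠ 0 := two_ne_zero_iff_odd.2 (hF ▸ hq)
  have hB : ∀ u v, (minusForm (m - 1) a b).B u v =
      ∑ i, (u (Sum.inl (Sum.inl i)) * v (Sum.inl (Sum.inr i)) + u (Sum.inl (Sum.inr i)) * v (Sum.inl (Sum.inl i))) +
        ((2 * u (Sum.inr 0) + a * u (Sum.inr 1)) * v (Sum.inr 0) + (a * u (Sum.inr 0) + 2 * b * u (Sum.inr 1)) * v (Sum.inr 1)) :=
    fun u v => by rw [minusForm, sum_B, plusForm_B, binForm_B]; rfl
  have hQ : ∀ v, (minusForm (m - 1) a b).Q v = ∑ i, v (Sum.inl (Sum.inl i)) * v (Sum.inl (Sum.inr i)) +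
      (v (Sum.inr 0) ^ 2 + a * v (Sum.inr 0) * v (Sum.inr 1) + b * v (Sum.inr 1) ^ 2) := fun v => rfl
  refine exists_omega_diag_iff (minusForm (m - 1) a b) (minusForm_nondeg _ hab) h2
    (e := fun j => Sum.inl (Sum.inl j)) (y := fun j => Sum.inl (Sum.inr j)) ?_
    (by omega) _ (fun _ => Iff.rfl) (fun _ => Iff.rfl) (fun v => ?_) fun w h1 h2 k hk => ?_
  · refine ⟨fun _ => ?_, fun _ => ?_, fun i j => ?_, fun i j => ?_, fun i => ?_, fun i j h => ?_⟩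
    all_goals simp [hB, hQ, Pi.single_apply]
    exact fun h' => h h'.symm
  · rw [hQ, hQ]
    congr 1
    · refine Finset.sum_congr rfl fun j _ => ?_
      simp only [Sum.elim_inl, Sum.elim_inr]
      by_cases h : (j : ℕ) < i <;> simp [h]
    · simp
  · rcases k with (j | j) | j
    · simpa [hB, Pi.single_apply] using h2 j
    · simpa [hB, Pi.single_apply] using h1 j
    · simp at hk

end Cfsg.Agent.S2615
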