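import Cfsg.Statements.S2616
import Cfsg.Agent.Lib.Lin.CFormMisc

set_option autoImplicit false
open Cfsg

namespace Cfsg.Agent.S2616

open CA.CForm CA.CForm.Form in
/-- Standard bases of a non-degenerate quadratic space of even dimension 2m over a finite field: either there is a hyperbolic basis e_i, f_i (Q(e_i) = Q(f_i) = 0, B(e_i, f_j) = δ_ij, the e's pairwise orthogonal and the f's pairwise orthogonal, B the polar form), or there is an elliptic basis: hyperbolic pairs e_i, f_i for i < m − 1 together with x, y orthogonal to them with Q(x) = 1, B(x, y) = 1, Q(y) = ζ where t² + t + ζ has no root in the field. -/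
theorem result {F V : Type*} [Field F] [Finite F] [AddCommGroup V] [Module F V] [FiniteDimensional F V] {m : ℕ} (hm : 1 ≤ m) (hV : Module.finrank F V = 2 * m) (Q : QuadraticForm F V) (hQ : (QuadraticMap.polarBilin Q).Nondegenerate) : (∃ b : Module.Basis (Fin m ⊕ Fin m) F V, (∀ i, Q (b (Sum.inl i)) = 0 ∧ Q (b (Sum.inr i)) = 0) ∧ (∀ i j, QuadraticMap.polar ⇑Q (b (Sum.inl i)) (b (Sum.inr j)) = if i = j then 1 else 0) ∧ (∀ i j, QuadraticMap.polar ⇑Q (b (Sum.inl i)) (b (Sum.inl j)) = 0 ∧ QuadraticMap.polar ⇑Q (b (Sum.inr i)) (b (Sum.inr j)) = 0)) ∨ (∃ (b : Module.Basis ((Fin (m - 1) ⊕ Fin (m - 1)) ⊕ Fin 2) F V) (ζ : F), (∀ t : F, t ^ 2 + t + ζ ≠ 0) ∧ (∀ i, Q (b (Sum.inl (Sum.inl i))) = 0 ∧ Q (b (Sum.inl (Sum.inr i))) = 0) ∧ (∀ i j, QuadraticMap.polar ⇑Q (b (Sum.inl (Sum.inl i))) (b (Sum.inl (Sum.inr j))) = if i = j then 1 else 0) ∧ (∀ i j, QuadraticMap.polar ⇑Q (b (Sum.inl (Sum.inl i))) (b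 (Sum.inl (Sum.inl j))) = 0 ∧ QuadraticMap.polar ⇑Q (b (Sum.inl (Sum.inr i))) (b (Sum.inl (Sum.inr j))) = 0) ∧ (∀ i (k : Fin 2), QuadraticMap.polar ⇑Q (b (Sum.inl (Sum.inl i))) (b (Sum.inr k)) = 0 ∧ QuadraticMap.polar ⇑Q (b (Sum.inl (Sum.inr i))) (b (Sum.inr k)) = 0) ∧ Q (b (Sum.inr 0)) = 1 ∧ QuadraticMap.polar ⇑Q (b (Sum.inr 0)) (b (Sum.inr 1)) = 1 ∧ Q (b (Sum.inr 1)) = ζ) := by
  obtain ⟨k, rfl⟩ : ∃ k, m = k + 1 := ⟨m - 1, by omega⟩
  have hf := ofQuad_nondeg hQ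
  have hp : ∀ x y, QuadraticMap.polar ⇑Q x y = (ofQuad Q).B x y := fun _ _ => rfl
  rcases hf.isIndex_even (m := k) hV with h | h
  · left
    obtain ⟨e, he⟩ := (h.equivalent_plus hf hV).symm
    have hs := plusForm_hypSys F (k + 1)
    refine ⟨(Pi.basisFun F _).map e, ?_⟩
    simp only [hp, Module.Basis.map_apply, Pi.basisFun_apply, he.B_eq]
    exact ⟨fun i => ⟨(he.Q_eq _).trans (hs.Q_e i), (he.Q_eq _).trans (hs.Q_y i)⟩, hs.B_ey_ite,
      fun i j => ⟨hs.B_ee i j, hs.B_yy i j⟩⟩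
  · right
    obtain ⟨ζ, hζ⟩ := exists_aniso_one (F := F)
    obtain ⟨e, he⟩ := (h.equivalent_minus hf hV (aniso_one_iff.2 hζ)).symm
    refine ⟨(Pi.basisFun F _).map e, ζ, hζ, ?_⟩
    have hq : ∀ x, Q (e x) = (minusForm k 1 ζ).Q x := he.Q_eq
    simp only [hp, Module.Basis.map_apply, Pi.basisFun_apply, he.B_eq]
    simp only [Nat.add_sub_cancel, hq]
    simp [minusForm, sum_B, sum_Q, plusForm_B, plusForm_Q_apply, binForm_B, binForm_Q, Pi.single_apply, eq_comm]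

end Cfsg.Agent.S2616
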