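import Cfsg.Statements.S2618
import Cfsg.Agent.Lib.Lin.CFormMisc

set_option autoImplicit false
open Cfsg

namespace Cfsg.Agent.S2618

open CA.CForm CA.CForm.Form in
/-- Standard (parabolic) basis of a non-degenerate quadratic space of odd dimension 2m + 1 over a finite field (the non-degeneracy of the polar form forces the characteristic to be odd): there is a basis e_i, f_i (i < m), x with Q(e_i) = Q(f_i) = 0, B(e_i, f_j) = δ_ij (B the polar form), the e's pairwise orthogonal and the f's pairwise orthogonal, x orthogonal to all of them and Q(x) ≠ 0. -/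
theorem result {F V : Type*} [Field F] [Finite F] [AddCommGroup V] [Module F V] [FiniteDimensional F V] {m : ℕ} (hV : Module.finrank F V = 2 * m + 1) (Q : QuadraticForm F V) (hQ : (QuadraticMap.polarBilin Q).Nondegenerate) : ∃ b : Module.Basis (Unit ⊕ (Fin m ⊕ Fin m)) F V, Q (b (Sum.inl ())) ≠ 0 ∧ (∀ i, QuadraticMap.polar ⇑Q (b (Sum.inl ())) (b (Sum.inr (Sum.inl i))) = 0 ∧ QuadraticMap.polar ⇑Q (b (Sum.inl ())) (b (Sum.inr (Sum.inr i))) = 0) ∧ (∀ i, Q (b (Sum.inr (Sum.inl i))) = 0 ∧ Q (b (Sum.inr (Sum.inr i))) = 0) ∧ (∀ i j, QuadraticMap.polar ⇑Q (b (Sum.inr (Sum.inl i))) (b (Sum.inr (Sum.inr j))) = if i = j then 1 else 0) ∧ (∀ i j, QuadraticMap.polar ⇑Q (b (Sum.inr (Sum.inl i))) (b (Sum.inr (Sum.inl j))) = 0 ∧ QuadraticMap.polar ⇑Q (b (Sum.inr (Sum.inr i))) (b (Sum.inr (Sum.inr j))) = 0) := by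
  have hf := ofQuad_nondeg hQ
  have hp : ∀ x y, QuadraticMap.polar ⇑Q x y = (ofQuad Q).B x y := fun _ _ => rfl
  obtain ⟨c, hc, h⟩ := hf.equivalent_smul_odd hV
  obtain ⟨e, he⟩ := h.symm
  have hq : ∀ x, Q (e x) = c * (oddForm F m).Q x := he.Q_eq
  have hB : ∀ x y, (ofQuad Q).B (e x) (e y) = c * (oddForm F m).B x y := he.B_eq
  refine ⟨((Pi.basisFun F _).unitsSMul
    (Sum.elim (fun _ => 1) (Sum.elim (fun _ => 1) fun _ => (Units.mk0 c hc)⁻¹))).map e, ?_⟩
  simp only [hp, Module.Basis.map_apply, Module.Basis.unitsSMul_apply, Pi.basisFun_apply, hB, hq]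
  simp [oddForm, sum_B, sum_Q, plusForm_B, plusForm_Q_apply, unitForm_B, unitForm_Q, Pi.single_apply,
    Units.smul_def, hc, eq_comm]

end Cfsg.Agent.S2618
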