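import Cfsg.Statements.S2619
import Cfsg.Agent.Lib.Lin.CFormMisc

set_option autoImplicit false
open Cfsg

namespace Cfsg.Agent.S2619

/-- Over a finite field of characteristic two, given an alternating bilinear form B on a finite-dimensional space, a basis (v_i) and scalars (λ_i), there is exactly one quadratic form whose polar form is B and whose value at each v_i is λ_i. -/
theorem result {F V ι : Type*} [Field F] [Finite F] [CharP F 2] [AddCommGroup V] [Module F V] [Fintype ι] (b : Module.Basis ι F V) (B : LinearMap.BilinForm F V) (hB : B.IsAlt) (c : ι → F) : ∃! Q : QuadraticForm F V, QuadraticMap.polarBilin Q = B ∧ ∀ i, Q (b i) = c i := by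
  classical
  let : LinearOrder ι := LinearOrder.lift' (Fintype.equivFin ι) (Fintype.equivFin ι).injective
  let B' : LinearMap.BilinForm F V := b.constr F fun i => b.constr F fun j =>
    if i = j then c i else if i < j then B (b i) (b j) else 0
  have hB' : ∀ i j, B' (b i) (b j) = if i = j then c i else if i < j then B (b i) (b j) else 0 := by
    intro i j; simp only [B', Module.Basis.constr_basis]
  refine existsUnique_of_exists_of_unique ⟨LinearMap.BilinMap.toQuadraticMap B', ?_, fun i => by simp [hB']⟩
    fun Q Q' hQ hQ' => ?_
  · refine b.ext fun i => b.ext fun j => ?_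
    rw [QuadraticMap.polarBilin_apply_apply, LinearMap.BilinMap.polar_toQuadraticMap, hB', hB']
    rcases lt_trichotomy i j with h | rfl | h
    · simp [h, h.ne, h.ne', h.not_gt]
    · simp [hB.self_eq_zero, CharTwo.add_self_eq_zero]
    · simp only [h, h.ne, h.ne', h.not_gt, if_false, if_true, zero_add]
      rw [← hB.neg_eq, CharTwo.neg_eq]
  · ext x
    have hx : x ∈ Submodule.span F (Set.range b) := b.span_eq ▸ Submodule.mem_top
    induction hx using Submodule.span_induction with
    | mem x hx => obtain ⟨i, rfl⟩ := hx; rw [hQ.2, hQ'.2]
    | zero => simp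
    | add x y _ _ hx hy =>
      rw [QuadraticMap.map_add Q, QuadraticMap.map_add Q', hx, hy, ← QuadraticMap.polarBilin_apply_apply,
        ← QuadraticMap.polarBilin_apply_apply, hQ.1, hQ'.1]
    | smul a x _ hx => rw [QuadraticMap.map_smul, QuadraticMap.map_smul, hx]

end Cfsg.Agent.S2619
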