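import Cfsg.Statements.S2621
import Cfsg.Agent.Lib.Lin.CFormOSub

set_option autoImplicit false
open Cfsg

namespace Cfsg.Agent.S2621

open CA.CForm CA.CForm.Form in
/-- Discriminant of an elliptic quadratic form Σ_(i<m−1) x_i y_i + z₁² + a z₁z₂ + c z₂² (binary part anisotropic) in dimension 2m over a field with q elements, q odd, m ≥ 1: the determinant of the Gram matrix of its polar form in any basis is a square if and only if m(q − 1)/2 is odd (equivalently q^m ≡ 3 (mod 4)). -/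
theorem result {F : Type*} [Field F] [Fintype F] {q : ℕ} (hF : Fintype.card F = q) (hq : Odd q) {m : ℕ} (hm : 1 ≤ m) (a c : F) (hac : ∀ z₁ z₂ : F, z₁ ^ 2 + a * z₁ * z₂ + c * z₂ ^ 2 = 0 → z₁ = 0 ∧ z₂ = 0) {ι : Type*} [Fintype ι] [DecidableEq ι] (b : Module.Basis ι F ((Fin (m - 1) ⊕ Fin (m - 1)) ⊕ Fin 2 → F)) : IsSquare (Matrix.of (fun i j : ι => QuadraticMap.polar (Cfsg.quadFormMinus (m - 1) F a c) (b i) (b j))).det ↔ ¬ Even (m * (q - 1) / 2) := by
  have key : Even (m * (q - 1) / 2) ↔ q ^ m % 4 = 1 := by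
    obtain ⟨r, rfl⟩ := hq
    rw [Nat.add_sub_cancel, show m * (2 * r) / 2 = m * r by
      rw [Nat.mul_left_comm, Nat.mul_div_cancel_left _ two_pos], Nat.even_mul]
    rcases Nat.even_or_odd r with ⟨s, rfl⟩ | ⟨s, rfl⟩
    · rw [Nat.pow_mod, show (2 * (s + s) + 1) % 4 = 1 by omega]; simp
    · rw [Nat.pow_mod, show (2 * (2 * s + 1) + 1) % 4 = 3 by omega]
      rcases Nat.even_or_odd m with ⟨t, rfl⟩ | ⟨t, rfl⟩
      · rw [← two_mul, pow_mul, Nat.pow_mod]; simp
      · rw [pow_succ, pow_mul, Nat.mul_mod, Nat.pow_mod]; simp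
  have h2 : (2 : F) ≠ 0 := two_ne_zero_iff_odd.2 (hF ▸ hq)
  have : (Matrix.of (fun i j : ι => QuadraticMap.polar (Cfsg.quadFormMinus (m - 1) F a c) (b i) (b j))) =
      (minusForm (m - 1) a c).gram b := by
    ext i j; exact polar_eq (minusForm (m - 1) a c) _ _
  have h3 := Nat.odd_iff.1 (hq.pow (n := m))
  rw [this, isSquare_det_gram_iff, isSquare_disc_minus_iff h2 _ hac, key, hF, Nat.sub_add_cancel hm]
  omega

end Cfsg.Agent.S2621
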