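import Cfsg.Statements.S2622
import Cfsg.Agent.Lib.Lin.CFormMisc2

set_option autoImplicit false
open Cfsg

namespace Cfsg.Agent.S2622

/-- Over a finite field of characteristic two, a non-degenerate symmetric bilinear form that is not alternating (some vector v has B(v, v) ≠ 0) admits an orthonormal basis. -/
theorem result {F V : Type*} [Field F] [Finite F] [CharP F 2] [AddCommGroup V] [Module F V] [FiniteDimensional F V] {n : ℕ} (hV : Module.finrank F V = n) (B : LinearMap.BilinForm F V) (hS : B.IsSymm) (hB : B.Nondegenerate) (hna : ∃ v : V, B v v ≠ 0) : ∃ b : Module.Basis (Fin n) F V, ∀ i j, B (b i) (b j) = if i = j then 1 else 0 := by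
  have h2 : (2 : F) = 0 := CharTwo.two_eq_zero
  have key : ∀ j : ℕ, j ≤ n → ∃ b : Fin j → V, (∀ i i', B (b i) (b i') = if i = i' then 1 else 0) ∧
      (j = n ∨ ∃ v, B v v ≠ 0 ∧ ∀ i, B (b i) v = 0) := by
    intro j
    induction j with
    | zero => exact fun _ => ⟨Fin.elim0, fun i => i.elim0, Or.inr (hna.imp fun v hv => ⟨hv, fun i => i.elim0⟩)⟩
    | succ j ih =>
      intro hj
      obtain ⟨b, hb, h | ⟨v, hv, hbv⟩⟩ := ih (by omega)
      · omega
      have cons : ∀ w, B w w = 1 → (∀ i, B (b i) w = 0) → ∀ i i', B ((Fin.cons w b : Fin (j + 1) → V) i)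
          ((Fin.cons w b : Fin (j + 1) → V) i') = if i = i' then 1 else 0 := by
        intro w h1 h3 i i'
        induction i using Fin.cases <;> induction i' using Fin.cases
        · simp [h1]
        · simp [hS.eq w, h3, (Fin.succ_ne_zero _).symm]
        · simp [h3]
        · simp [hb]
      obtain ⟨t, ht⟩ := CA.CForm.isSquare_of_two_eq_zero h2 (B v v)⁻¹
      obtain ⟨w, hw, hbw⟩ : ∃ w, B w w = 1 ∧ ∀ i, B (b i) w = 0 :=
        ⟨t • v, by simp [← mul_assoc, ← ht, hv], fun i => by simp [hbv]⟩
      by_cases hjn : j + 1 = n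
      · exact ⟨_, cons w hw hbw, Or.inl hjn⟩
      by_cases h3 : ∃ v, B v v ≠ 0 ∧ ∀ i, B ((Fin.cons w b : Fin (j + 1) → V) i) v = 0
      · exact ⟨_, cons w hw hbw, Or.inr h3⟩
      push Not at h3
      set c : Fin (j + 1) → V := Fin.cons w b with hc
      have hcc : ∀ i i', B (c i) (c i') = if i = i' then 1 else 0 := cons w hw hbw
      let φ : V →ₗ[F] (Fin (j + 1) → F) := LinearMap.pi fun i => B (c i)
      obtain ⟨x, hx, hx0⟩ : ∃ x ∈ LinearMap.ker φ, x ≠ 0 := by
        refine Submodule.exists_mem_ne_zero_of_ne_bot fun h => ?_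
        have := LinearMap.finrank_le_finrank_of_injective (LinearMap.ker_eq_bot.1 h)
        rw [Module.finrank_fin_fun] at this
        omega
      have hx' : ∀ i, B (c i) x = 0 := fun i => congrFun hx i
      obtain ⟨z, hz⟩ : ∃ z, B x z ≠ 0 := by
        by_contra! h
        exact hx0 (hB.1 x h)
      obtain ⟨y, hy, hxy⟩ : ∃ y, (∀ i, B (c i) y = 0) ∧ B x y = 1 := by
        refine ⟨(B x z)⁻¹ • (z - ∑ i, B (c i) z • c i), fun i => ?_, ?_⟩
        · simp [hcc]
        · simp [fun i => hS.eq x (c i), hx', hz]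
      have alt : ∀ v, (∀ i, B (c i) v = 0) → B v v = 0 := fun v h => by
        by_contra h'
        obtain ⟨i, hi⟩ := h3 v h'
        exact hi (h i)
      have a1 : B w x = 0 := hx' 0
      have a2 : B w y = 0 := hy 0
      refine ⟨_, cons (w + x) (by simp [hw, a1, hS.eq x w, alt x hx']) fun i => ?_, Or.inr ⟨w + y, ?_, fun i => ?_⟩⟩
      · simpa [hbw, hc] using hx' i.succ
      · simp [hw, a2, hS.eq y w, alt y hy]
      · induction i using Fin.cases with
        | zero => simp [hw, a2, hS.eq x w, a1, hxy, CharTwo.add_self_eq_zero]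
        | succ i => simpa [hbw, hc] using hy i.succ
  obtain ⟨b, hb, -⟩ := key n le_rfl
  have hli : LinearIndependent F b := Fintype.linearIndependent_iff.2 fun g hg i => by
    simpa [hb] using congrArg (B (b i)) hg
  exact ⟨basisOfLinearIndependentOfCardEqFinrank' b hli (by simp [hV]), by simpa using hb⟩

end Cfsg.Agent.S2622
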