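import Cfsg.Statements.S2623
import Cfsg.Agent.Lib.Lin.CFormOSub

set_option autoImplicit false
open Cfsg

namespace Cfsg.Agent.S2623

open CA.CForm CA.CForm.Form in
/-- Over a finite field of odd order, two quadratic forms on F^n with non-degenerate polar forms are isometric (related by an invertible linear change of variables) if and only if their discriminants (determinants of the Gram matrices of their polar forms) lie in the same square class. -/
theorem result {F : Type*} [Field F] [Fintype F] (h2 : (2 : F) ≠ 0) {n : ℕ} (Q₁ Q₂ : QuadraticForm F (Fin n → F)) (h₁ : (QuadraticMap.polarBilin Q₁).Nondegenerate) (h₂ : (QuadraticMap.polarBilin Q₂).Nondegenerate) : (∃ g : (Fin n → F) ≃ₗ[F] (Fin n → F), ∀ v, Q₂ (g v) = Q₁ v) ↔ IsSquare ((Matrix.of (fun i j : Fin n => QuadraticMap.polar ⇑Q₁ (Pi.single i 1) (Pi.single j 1))).det * (Matrix.of (fun i j : Fin n => QuadraticMap.polar ⇑Q₂ (Pi.single i 1) (Pi.single j 1))).det) := by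
  have h := (ofQuad_nondeg h₁).equivalent_iff_isSquare h2 (ofQuad_nondeg h₂) rfl
  rw [det_gram_single, det_gram_single, mul_comm, isSquare_mul_det_gram_iff, mul_comm,
    isSquare_mul_det_gram_iff, ← h]
  exact exists_congr fun g => (orth_pres_iff (f := ofQuad Q₁) (f' := ofQuad Q₂) (φ := g.toLinearMap)).symm

end Cfsg.Agent.S2623
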