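import Cfsg.Statements.S2625
import Cfsg.Agent.Lib.Lin.CFormOSub

set_option autoImplicit false
open Cfsg

namespace Cfsg.Agent.S2625

open CA.CForm CA.CForm.Form in
/-- For a quadratic form Q on F^n with non-degenerate polar form, F finite and n odd (so |F| is odd), the multiplier of any similarity is a square: if g is an invertible linear map with Q(g v) = c·Q(v) for all v then c is a square. -/
theorem result {F : Type*} [Field F] [Fintype F] {n : ℕ} (hn : Odd n) (Q : QuadraticForm F (Fin n → F)) (hQ : (QuadraticMap.polarBilin Q).Nondegenerate) (g : (Fin n → F) ≃ₗ[F] (Fin n → F)) (c : F) (hg : ∀ v, Q (g v) = c * Q v) : IsSquare c := by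
  obtain ⟨f, hfQ, hf⟩ : ∃ f : Form (Kind.orth F) (Fin n → F), ⇑Q = f.Q ∧ f.Nondeg :=
    ⟨ofQuad Q, rfl, ofQuad_nondeg hQ⟩
  clear hQ
  generalize ⇑Q = q at *
  subst hfQ
  by_cases hc : c = 0
  · simp [hc]
  have he : (smulOrth c f).Equivalent f := ⟨g, (orth_pres_iff (φ := g.toLinearMap)).2 hg⟩
  have h := (he.isSquare_mul_disc_iff f.disc).2 ⟨_, rfl⟩
  obtain ⟨k, rfl⟩ := hn
  rw [disc_smulOrth, Module.finrank_fin_fun,
    show f.disc * (c ^ (2 * k + 1) * f.disc) = (f.disc * c ^ k) ^ 2 * c by ring] at h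
  exact (isSquare_mul_left_iff ⟨_, sq _⟩ (pow_ne_zero _ (mul_ne_zero hf.disc_ne_zero
    (pow_ne_zero _ hc)))).1 h

end Cfsg.Agent.S2625
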