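import Cfsg.Statements.S2627
import Cfsg.Agent.Lib.Lin.CFormOSub

set_option autoImplicit false
open Cfsg

namespace Cfsg.Agent.S2627

open CA.CForm CA.CForm.Form in
/-- For an orthogonal direct sum Q = Q₁ ⊕ Q₂ of quadratic forms with non-degenerate polar forms over a finite field, an isometry g₁ of Q₁ extended by the identity on the second summand lies in Ω(Q) (the commutator subgroup of the orthogonal group of Q) if and only if g₁ lies in Ω(Q₁). (Excluded: the field of two elements when the first summand or the whole space has dimension 4, where the commutator subgroup of O⁺₄(2) is smaller than the group usually called Ω.) -/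
theorem result {F : Type*} [Field F] [Fintype F] {k l : ℕ} (h : Fintype.card F ≠ 2 ∨ (k ≠ 4 ∧ k + l ≠ 4)) (Q₁ : QuadraticForm F (Fin k → F)) (Q₂ : QuadraticForm F (Fin l → F)) (h₁ : (QuadraticMap.polarBilin Q₁).Nondegenerate) (h₂ : (QuadraticMap.polarBilin Q₂).Nondegenerate) (g₁ : ↥(Cfsg.isometryGroup F ⇑Q₁)) : (∃ g : ↥(Cfsg.isometryGroup F (fun v : Fin k ⊕ Fin l → F => Q₁ (v ∘ Sum.inl) + Q₂ (v ∘ Sum.inr))), g ∈ Cfsg.Omega F (fun v : Fin k ⊕ Fin l → F => Q₁ (v ∘ Sum.inl) + Q₂ (v ∘ Sum.inr)) ∧ ((g : Matrix.GeneralLinearGroup (Fin k ⊕ Fin l) F) : Matrix (Fin k ⊕ Fin l) (Fin k ⊕ Fin l) F) = Matrix.fromBlocks ((g₁ : Matrix.GeneralLinearGroup (Fin k) F) : Matrix (Fin k) (Fin k) F) 0 0 1) ↔ g₁ ∈ Cfsg.Omega F ⇑Q₁ := by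
  refine (exists_omega_eq_iff ((ofQuad Q₁).sum (ofQuad Q₂))
    (sumHom _ _ (orthEquiv (ofQuad Q₁) g₁, 1)) _ (fun v => ?_)).trans ?_
  · rw [sumHom_apply, Matrix.fromBlocks_mulVec, Matrix.zero_mulVec, Matrix.zero_mulVec, add_zero, zero_add,
      Matrix.one_mulVec]
    rfl
  · refine Iff.trans ?_ (mem_omega_iff (ofQuad Q₁) g₁).symm
    exact ((ofQuad_nondeg h₁).sum (ofQuad_nondeg h₂)).mem_commutator_comp_iff
      (good_of_card _ (by simpa using h.imp id And.right)) (ofQuad_nondeg h₁)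
      (good_of_card _ (by simpa using h.imp id And.left))
      ((sumHom _ _).comp (MonoidHom.inl _ _)) (fun v => Sum.elim v 0)
      (fun v => by rw [sum_Q]; simp) (fun v => sumHom_refl_left _ _ v) _

end Cfsg.Agent.S2627
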