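import Cfsg.Statements.S2628
import Cfsg.Agent.Lib.Lin.CFormOSub

set_option autoImplicit false
open Cfsg

namespace Cfsg.Agent.S2628

open CA.CForm CA.CForm.Form in
/-- For the orthogonal direct sum Q ⊕ Q of two copies of a quadratic form Q with non-degenerate polar form on F^k (F finite), every isometry g of Q acting diagonally, diag(g, g), lies in Ω(Q ⊕ Q), the commutator subgroup of the orthogonal group of Q ⊕ Q. (Excluded: k = 2 over the field of two elements, where Q ⊕ Q is the hyperbolic 4-space whose orthogonal group's commutator subgroup is smaller than the group usually called Ω.) -/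
theorem result {F : Type*} [Field F] [Fintype F] {k : ℕ} (h : Fintype.card F ≠ 2 ∨ k ≠ 2) (Q : QuadraticForm F (Fin k → F)) (hQ : (QuadraticMap.polarBilin Q).Nondegenerate) (g : ↥(Cfsg.isometryGroup F ⇑Q)) : ∃ x : ↥(Cfsg.isometryGroup F (fun v : Fin k ⊕ Fin k → F => Q (v ∘ Sum.inl) + Q (v ∘ Sum.inr))), x ∈ Cfsg.Omega F (fun v : Fin k ⊕ Fin k → F => Q (v ∘ Sum.inl) + Q (v ∘ Sum.inr)) ∧ ((x : Matrix.GeneralLinearGroup (Fin k ⊕ Fin k) F) : Matrix (Fin k ⊕ Fin k) (Fin k ⊕ Fin k) F) = Matrix.fromBlocks ((g : Matrix.GeneralLinearGroup (Fin k) F) : Matrix (Fin k) (Fin k) F) 0 0 ((g : Matrix.GeneralLinearGroup (Fin k) F) : Matrix (Fin k) (Fin k) F) := by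
  refine (exists_omega_eq_iff ((ofQuad Q).sum (ofQuad Q))
    (sumHom _ _ (orthEquiv (ofQuad Q) g, orthEquiv (ofQuad Q) g)) _ (fun v => ?_)).2 ?_
  · rw [sumHom_apply, Matrix.fromBlocks_mulVec, Matrix.zero_mulVec, Matrix.zero_mulVec, add_zero, zero_add]
    rfl
  · generalize orthEquiv (ofQuad Q) g = a
    have hf := (ofQuad_nondeg hQ).sum (ofQuad_nondeg hQ)
    have hg : ((ofQuad Q).sum (ofQuad Q)).Good := good_of_card _ (by simp; omega)
    have h1 : sumHom _ _ (a, a) = sumHom _ _ (a, 1) * ((ofQuad Q).sumSwap * sumHom _ _ (a, 1) *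
        (ofQuad Q).sumSwap⁻¹) := by
      rw [sumSwap_mul, mul_inv_cancel_right, ← map_mul]; simp
    rw [h1, hf.mem_commutator_iff hg]
    simp only [map_mul, map_inv, mul_inv_cancel_comm, Int.units_mul_self, and_self]

end Cfsg.Agent.S2628
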