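import Cfsg.Statements.S2629
import Cfsg.Agent.Lib.Lin.CFormOSub

set_option autoImplicit false
open Cfsg

namespace Cfsg.Agent.S2629

open CA.CForm CA.CForm.Form in
/-- For the hyperbolic form Σ x_i y_i on F^(2m) over a finite field of odd order (m ≥ 1), an isometry g preserves the class of the maximal totally singular subspace U₀ = {y = 0} (that is, m − dim(U₀ ∩ gU₀) is even) if and only if det g = 1: the stabiliser of each of the two classes of maximal totally singular subspaces is SO. -/
theorem result {F : Type*} [Field F] [Fintype F] (h2 : (2 : F) ≠ 0) {m : ℕ} (hm : 1 ≤ m) (g : ↥(Cfsg.isometryGroup F (Cfsg.quadFormPlus m F))) : Even (m - Module.finrank F ↥(LinearMap.ker (LinearMap.funLeft F F (Sum.inr : Fin m → Fin m ⊕ Fin m)) ⊓ (LinearMap.ker (LinearMap.funLeft F F (Sum.inr : Fin m → Fin m ⊕ Fin m))).map (Matrix.mulVecLin ((g : Matrix.GeneralLinearGroup (Fin m ⊕ Fin m) F) : Matrix (Fin m ⊕ Fin m) (Fin m ⊕ Fin m) F)))) ↔ ((g : Matrix.GeneralLinearGroup (Fin m ⊕ Fin m) F) : Matrix (Fin m ⊕ Fin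 m) (Fin m ⊕ Fin m) F).det = 1 := by
  have hU : (plusForm F m).TS (LinearMap.ker (LinearMap.funLeft F F (Sum.inr : Fin m → Fin m ⊕ Fin m))) :=
    orth_ts_iff.2 fun w hw => by
      have : ∀ i, w (Sum.inr i) = 0 := fun i => congrFun hw i
      simp [plusForm_Q_apply, this]
  have dU : Module.finrank F (LinearMap.ker (LinearMap.funLeft F F (Sum.inr : Fin m → Fin m ⊕ Fin m))) = m := by
    have h1 := LinearMap.finrank_range_add_finrank_ker (LinearMap.funLeft F F (Sum.inr : Fin m → Fin m ⊕ Fin m))
    rw [LinearMap.range_eq_top.2 (LinearMap.funLeft_surjective_of_injective F F _ Sum.inr_injective),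
      finrank_top, finrank_plus, Module.finrank_fin_fun] at h1
    omega
  have hf := plusForm_nondeg F m
  have hg := (plusForm F m).good_of_two_ne_zero h2
  refine (hf.dick_eq_one_iff_even_sub hg (finrank_plus m) hU dU (orthEquiv _ g)).symm.trans ?_
  rw [hf.dick_eq_one_iff_det hg h2, detHom_orthEquiv (plusForm F m) g, Units.ext_iff]
  rfl

end Cfsg.Agent.S2629
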