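import Cfsg.Statements.S2630
import Cfsg.Agent.Lib.Lin.CFormOSub

set_option autoImplicit false
open Cfsg

namespace Cfsg.Agent.S2630

open CA.CForm CA.CForm.Form in
/-- For the hyperbolic form Σ x_i y_i on F^(2m) over a finite field of characteristic two (m ≥ 1, excluding m = 2 over the field of two elements), an isometry g preserves the class of the maximal totally singular subspace U₀ = {y = 0} (m − dim(U₀ ∩ gU₀) even) if and only if g lies in Ω (the commutator subgroup of the orthogonal group): the stabiliser of each class is Ω. -/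
theorem result {F : Type*} [Field F] [Fintype F] [CharP F 2] {m : ℕ} (hm : 1 ≤ m) (h : Fintype.card F ≠ 2 ∨ m ≠ 2) (g : ↥(Cfsg.isometryGroup F (Cfsg.quadFormPlus m F))) : Even (m - Module.finrank F ↥(LinearMap.ker (LinearMap.funLeft F F (Sum.inr : Fin m → Fin m ⊕ Fin m)) ⊓ (LinearMap.ker (LinearMap.funLeft F F (Sum.inr : Fin m → Fin m ⊕ Fin m))).map (Matrix.mulVecLin ((g : Matrix.GeneralLinearGroup (Fin m ⊕ Fin m) F) : Matrix (Fin m ⊕ Fin m) (Fin m ⊕ Fin m) F)))) ↔ g ∈ Cfsg.Omega F (Cfsg.quadFormPlus m F) := by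
  have hU : (plusForm F m).TS (LinearMap.ker (LinearMap.funLeft F F (Sum.inr : Fin m → Fin m ⊕ Fin m))) :=
    orth_ts_iff.2 fun w hw => by
      have : ∀ i, w (Sum.inr i) = 0 := fun i => congrFun hw i
      simp [plusForm_Q_apply, this]
  have dU : Module.finrank F (LinearMap.ker (LinearMap.funLeft F F (Sum.inr : Fin m → Fin m ⊕ Fin m))) = m := by
    have h1 := LinearMap.finrank_range_add_finrank_ker (LinearMap.funLeft F F (Sum.inr : Fin m → Fin m ⊕ Fin m))
    rw [LinearMap.range_eq_top.2 (LinearMap.funLeft_surjective_of_injective F F _ Sum.inr_injective),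
      finrank_top, finrank_plus, Module.finrank_fin_fun] at h1
    omega
  have hf := plusForm_nondeg F m
  have hg : (plusForm F m).Good := good_of_card _ (by rw [finrank_plus]; omega)
  refine (hf.dick_eq_one_iff_even_sub hg (finrank_plus m) hU dU (orthEquiv _ g)).symm.trans ?_
  refine Iff.trans ?_ (mem_omega_iff (plusForm F m) g).symm
  rw [hf.commutator_eq_ker_dick hg CharTwo.two_eq_zero]
  rfl

end Cfsg.Agent.S2630
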