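import Cfsg.Statements.S2632
import Cfsg.Agent.Lib.Lin.CFormOSub

set_option autoImplicit false
open Cfsg

namespace Cfsg.Agent.S2632

open CA.CForm CA.CForm.Form in
/-- Ω is transitive on non-degenerate subspaces of each isometry type: for a quadratic form Q on F^n, n ≥ 3, with non-degenerate polar form (F finite; excluding dimension 4 over the field of two elements), if U and W are subspaces on which the polar form is non-degenerate and there is a Q-preserving linear isomorphism U → W, then some element of Ω (the commutator subgroup of the orthogonal group) carries U to W. (In dimension 2 this fails: Ω can be {±1}, which fixes every line.) -/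
theorem result {F : Type*} [Field F] [Fintype F] {n : ℕ} (hn : 3 ≤ n) (h : Fintype.card F ≠ 2 ∨ n ≠ 4) (Q : QuadraticForm F (Fin n → F)) (hQ : (QuadraticMap.polarBilin Q).Nondegenerate) (U W : Submodule F (Fin n → F)) (hU : U ⊓ LinearMap.BilinForm.orthogonal (QuadraticMap.polarBilin Q) U = ⊥) (hW : W ⊓ LinearMap.BilinForm.orthogonal (QuadraticMap.polarBilin Q) W = ⊥) (e : U ≃ₗ[F] W) (he : ∀ u : U, Q (e u : Fin n → F) = Q (u : Fin n → F)) : ∃ g : ↥(Cfsg.isometryGroup F ⇑Q), g ∈ Cfsg.Omega F ⇑Q ∧ U.map (Matrix.mulVecLin ((g : Matrix.GeneralLinearGroup (Fin n) F) : Matrix (Fin n) (Fin n) F)) = W := by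
  have hW' : Disjoint W ((ofQuad Q).perp W) := disjoint_iff.2 hW
  have hf : (ofQuad Q).Nondeg := ofQuad_nondeg hQ
  obtain ⟨g, hg⟩ := hf.witt U (W.subtype ∘ₗ e.toLinearMap) (W.injective_subtype.comp e.injective)
    (fun x y => by
      rw [orth_B_eq, orth_B_eq, ← map_add, ← Submodule.coe_add]
      exact congrArg₂ _ (congrArg₂ _ (he _) (he _)) (he _)) he
  refine (exists_omega_iff (ofQuad Q) fun φ => U.map φ = W).2
    (hf.exists_commutator_act_eq_of_nondeg (good_of_card _ (by simpa using h)) (by simpa using hn)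
      hW' (g := g) ?_)
  ext v
  constructor
  · rintro ⟨u, hu, rfl⟩
    have := hg ⟨u, hu⟩
    simp only [LinearMap.comp_apply, Submodule.subtype_apply] at this
    change (g : _ ≃ₗ[F] _) u ∈ W
    rw [this]
    exact Subtype.prop _
  · intro hv
    exact ⟨e.symm ⟨v, hv⟩, Subtype.prop _, (hg _).trans (by simp)⟩

end Cfsg.Agent.S2632
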