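import Cfsg.Statements.S2634
import Cfsg.Agent.Lib.Lin.CFormOSub

set_option autoImplicit false
open Cfsg

namespace Cfsg.Agent.S2634

open CA.CForm CA.CForm.Form in
/-- Over a finite field of characteristic two, Ω (the commutator subgroup of the orthogonal group of a quadratic form Q on F^n with non-degenerate polar form; excluding dimension 4 over the field of two elements) acts transitively on the non-singular 1-spaces: for u, v with Q(u) ≠ 0 and Q(v) ≠ 0 some element of Ω carries the line through u to the line through v. -/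
theorem result {F : Type*} [Field F] [Fintype F] [CharP F 2] {n : ℕ} (h : Fintype.card F ≠ 2 ∨ n ≠ 4) (Q : QuadraticForm F (Fin n → F)) (hQ : (QuadraticMap.polarBilin Q).Nondegenerate) (u v : Fin n → F) (hu : Q u ≠ 0) (hv : Q v ≠ 0) : ∃ g : ↥(Cfsg.isometryGroup F ⇑Q), g ∈ Cfsg.Omega F ⇑Q ∧ (F ∙ ((g : Matrix.GeneralLinearGroup (Fin n) F) : Matrix (Fin n) (Fin n) F).mulVec u) = F ∙ v := by
  obtain ⟨f, hfQ, hf⟩ : ∃ f : Form (Kind.orth F) (Fin n → F), ⇑Q = f.Q ∧ f.Nondeg :=
    ⟨ofQuad Q, rfl, ofQuad_nondeg hQ⟩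
  clear hQ
  generalize ⇑Q = q at *
  subst hfQ
  have h2 : (2 : F) = 0 := CharTwo.two_eq_zero
  have hg : f.Good := good_of_card _ (by simpa using h)
  obtain ⟨t, ht⟩ := isSquare_of_two_eq_zero h2 (f.Q u / f.Q v)
  have ht0 : t ≠ 0 := by
    rintro rfl
    exact div_ne_zero hu hv (by simpa using ht)
  have hu0 : u ≠ 0 := by rintro rfl; simp at hu
  have hv0 : v ≠ 0 := by rintro rfl; simp at hv
  obtain ⟨g, hg1⟩ := hf.witt_one hu0 (smul_ne_zero ht0 hv0) (by
    rw [orth_Q_smul, sq, ← ht, div_mul_cancel₀ _ hv])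
  obtain ⟨g', h1, h3⟩ := hf.exists_commutator_act_eq hg (U := F ∙ u) (W := F ∙ v) (g := g)
    (by rw [act_span_singleton, hg1, Submodule.span_singleton_smul_eq ht0.isUnit])
    (Or.inr ⟨_, refl_mem_stab (Submodule.mem_span_singleton_self v), hf.dick_refl hg hv⟩)
    (fun h => (h h2).elim)
  rw [act_span_singleton] at h3
  exact (exists_omega_iff f fun φ => (F ∙ φ u) = F ∙ v).2 ⟨g', h1, h3⟩

end Cfsg.Agent.S2634
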