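import Cfsg.Statements.S2635
import Cfsg.Agent.Lib.Lin.CFormOBr

set_option autoImplicit false
open Cfsg

namespace Cfsg.Agent.S2635

open CA.CForm CA.CForm.Form in
/-- Over a finite field of characteristic two, for a quadratic form Q on F^n with non-degenerate polar form, n ≥ 2, other than dimension 4 over the field of two elements, Ω (the commutator subgroup of the orthogonal group) is exactly the subgroup generated by the products of two reflections (orthogonal transvections) x ↦ x − Q(v)⁻¹ f(x, v) v, Q(v) ≠ 0: the products of an even number of reflections. -/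
theorem result {F : Type*} [Field F] [Fintype F] [CharP F 2] {n : ℕ} (hn : 2 ≤ n) (h : Fintype.card F ≠ 2 ∨ n ≠ 4) (Q : QuadraticForm F (Fin n → F)) (hQ : (QuadraticMap.polarBilin Q).Nondegenerate) : Cfsg.Omega F ⇑Q = Subgroup.closure {g : ↥(Cfsg.isometryGroup F ⇑Q) | ∃ u v : Fin n → F, Q u ≠ 0 ∧ Q v ≠ 0 ∧ ((g : Matrix.GeneralLinearGroup (Fin n) F) : Matrix (Fin n) (Fin n) F) = Cfsg.reflectionMatrix ⇑Q u * Cfsg.reflectionMatrix ⇑Q v} := by
  obtain ⟨f, hfQ, hf⟩ : ∃ f : Form (Kind.orth F) (Fin n → F), ⇑Q = f.Q ∧ f.Nondeg :=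
    ⟨ofQuad Q, rfl, ofQuad_nondeg hQ⟩
  clear hQ
  generalize ⇑Q = q at *
  subst hfQ
  have hg := f.good_of_card (by simpa using h)
  rw [closure_eq_comap (orthEquiv f) _
    {g | ∃ u v, f.Q u ≠ 0 ∧ f.Q v ≠ 0 ∧ g = f.refl u * f.refl v} ?_]
  swap
  · exact fun g => exists_congr fun u => exists_congr fun v => and_congr_right fun _ =>
      and_congr_right fun _ => coe_eq_reflectionMatrix_mul_iff f g u v
  ext g
  rw [mem_omega_iff, Subgroup.mem_comap, hf.commutator_eq_ker_dick hg CharTwo.two_eq_zero]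
  refine ⟨fun h => hf.ker_dick_le hg (fun u v hu hv => Subgroup.subset_closure (by exact ⟨u, v, hu, hv, rfl⟩))
    h, fun h => (Subgroup.closure_le _).2 ?_ h⟩
  rintro _ ⟨u, v, hu, hv, rfl⟩
  rw [SetLike.mem_coe, MonoidHom.mem_ker, map_mul, hf.dick_refl hg hu, hf.dick_refl hg hv]
  simp

end Cfsg.Agent.S2635
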