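import Cfsg.Statements.S2636
import Cfsg.Agent.Lib.Lin.AutFld

set_option autoImplicit false
open Cfsg

namespace Cfsg.Agent.S2636

open Matrix

/-- Centraliser of a field automorphism in PGL_n: let F be the field with q = q₀^r elements, σ a field automorphism of F of prime order r (so its fixed field has q₀ elements) and n ≥ 1. The invertible matrices g whose entrywise image under σ is a scalar multiple of g — those whose coset modulo scalars is fixed by σ — number (q − 1)/(q₀ − 1) · |GL_n(q₀)|; equivalently the centraliser in PGL_n(q) of the induced automorphism has the order of PGL_n(q₀). -/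
theorem result {F : Type*} [Field F] [Fintype F] {q₀ r n : ℕ} (hr : r.Prime) (hn : 1 ≤ n) (hF : Fintype.card F = q₀ ^ r) (σ : F ≃+* F) (hσ : orderOf σ = r) : Nat.card {g : GL (Fin n) F // ∃ c : F, c ≠ 0 ∧ (g : Matrix (Fin n) (Fin n) F).map σ = c • (g : Matrix (Fin n) (Fin n) F)} = (q₀ ^ r - 1) / (q₀ - 1) * ∏ i : Fin n, (q₀ ^ n - q₀ ^ (i : ℕ)) := by
  classical
  let K := CA.AutFld.fixF σ
  cases nonempty_fintype K
  have hK : Fintype.card K = q₀ := by
    have := CA.AutFld.card_fixF_pow σ
    rw [hσ, Nat.card_eq_fintype_card (α := F), hF, Nat.card_eq_fintype_card] at this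
    exact Nat.pow_left_injective hr.ne_zero this
  let φ : Fˣ × GL (Fin n) K →* GL (Fin n) F := MonoidHom.noncommCoprod (GeneralLinearGroup.scalar (Fin n))
    (GeneralLinearGroup.map K.subtype) fun a b => Units.ext (Matrix.scalar_commute (a : F) (fun _ => Commute.all _ _) _).eq
  have hφ : ∀ b h i j, (φ (b, h) : Matrix (Fin n) (Fin n) F) i j = b * (h.1 i j : F) := fun b h i j => by
    simp [φ, GeneralLinearGroup.scalar, Matrix.diagonal_mul]
  let i0 : Fin n := ⟨0, hn⟩
  have h1 : ∀ g : GL (Fin n) F, g ∈ φ.range ↔ ∃ c : F, c ≠ 0 ∧ g.1.map σ = c • g.1 := fun g => by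
    constructor
    · rintro ⟨⟨b, h⟩, rfl⟩
      refine ⟨σ b * b⁻¹, by simp, Matrix.ext fun i j => ?_⟩
      rw [Matrix.map_apply, Matrix.smul_apply, hφ, map_mul, CA.AutFld.mem_fixF.1 (h.1 i j).2, smul_eq_mul, mul_assoc,
        Units.inv_mul_cancel_left]
    rintro ⟨c, hc, e⟩
    obtain ⟨i, j, he⟩ : ∃ i j, g.1 i j ≠ 0 := by
      by_contra! q
      exact g.det_ne_zero (det_eq_zero_of_row_eq_zero i0 (q i0))
    have e1 : ∀ i j, σ (g.1 i j) = c * g.1 i j := fun i j => congrFun (congrFun e i) j
    let M : Matrix (Fin n) (Fin n) K := fun k l => ⟨(g.1 i j)⁻¹ * g.1 k l, by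
      change σ _ = _
      rw [map_mul, map_inv₀, e1, e1]; field_simp⟩
    have hM : M.det ≠ 0 := fun h => by
      have := K.subtype.map_det M
      rw [h, map_zero, show K.subtype.mapMatrix M = (g.1 i j)⁻¹ • g.1 from rfl, det_smul] at this
      exact mul_ne_zero (pow_ne_zero _ (inv_ne_zero he)) g.det_ne_zero this.symm
    refine ⟨(Units.mk0 _ he, GeneralLinearGroup.mkOfDetNeZero M hM), Units.ext (Matrix.ext fun k l => ?_)⟩
    rw [hφ]
    exact mul_inv_cancel_left₀ he _
  have h2 : Nat.card Kˣ = Nat.card φ.ker := Nat.card_eq_of_bijective (fun u => ⟨(Units.map K.subtype.toMonoidHom u⁻¹,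
    GeneralLinearGroup.scalar (Fin n) u), Units.ext (Matrix.ext fun i j => by
      rw [hφ]
      by_cases h : i = j <;> simp [GeneralLinearGroup.scalar, h, Matrix.one_apply])⟩) ⟨fun u v h => by
        have := congrArg (fun x : φ.ker => ((x.1.1 : Fˣ) : F)) h
        exact Units.ext (by simpa using this), fun ⟨⟨b, h⟩, e⟩ => by
      have e1 : ∀ i j, (b : F) * (h.1 i j : F) = (1 : Matrix (Fin n) (Fin n) F) i j := fun i j => by
        rw [← hφ, show φ (b, h) = 1 from e]; rfl
      have e2 := e1 i0 i0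
      rw [one_apply_eq] at e2
      have e3 : h.1 i0 i0 ≠ 0 := fun q => by simp [q] at e2
      refine ⟨Units.mk0 _ e3, Subtype.ext (Prod.ext (Units.ext ?_) (Units.ext (Matrix.ext fun i j => Subtype.ext ?_)))⟩
      · simpa using (eq_inv_of_mul_eq_one_left e2).symm
      · apply mul_left_cancel₀ b.ne_zero
        rw [e1]
        by_cases h : i = j <;> simp [GeneralLinearGroup.scalar, h, Matrix.one_apply, e2]⟩
  have h3 := φ.ker.card_mul_index
  rw [Subgroup.index_ker, ← h2, Nat.card_prod, Nat.card_units, Nat.card_units, card_GL_field, Nat.card_eq_fintype_card,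
    Nat.card_eq_fintype_card (α := F), hK, hF] at h3
  have h4 : 1 < q₀ := hK ▸ Fintype.one_lt_card
  rw [← Nat.card_congr (Equiv.subtypeEquivRight h1)]
  apply Nat.eq_of_mul_eq_mul_left (show 0 < q₀ - 1 by omega)
  rw [← mul_assoc, Nat.mul_div_cancel' (Nat.sub_one_dvd_pow_sub_one q₀ r)]
  exact h3

end Cfsg.Agent.S2636
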