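import Cfsg.Statements.S2637
import Cfsg.Agent.Lib.Lin.ExtEmb
import Cfsg.Agent.Lib.Lin.Wall2

set_option autoImplicit false
open Cfsg

namespace Cfsg.Agent.S2637

open CA.CForm CA.CForm.Form Module Polynomial in
/-- Centraliser of a fixed-point-free element of order three in Sp_2m(q) when q ≡ 2 (mod 3): if x ∈ Sp_2m(F) (|F| = q, m ≥ 1) satisfies x³ = 1 and x − 1 is invertible, then its centraliser in Sp_2m(F) has the order of the unitary group GU_m(q), namely q^(m(m−1)/2) Π_(i=1)^m (q^i − (−1)^i) (x lies in the centre of a subgroup GU_m(q) of Sp_2m(q)). -/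
theorem result {F : Type*} [Field F] [Fintype F] {q : ℕ} (hF : Fintype.card F = q) (hq : q % 3 = 2) {m : ℕ} (hm : 1 ≤ m) (x : Matrix.symplecticGroup (Fin m) F) (hx3 : x ^ 3 = 1) (hfpf : IsUnit ((x : Matrix (Fin m ⊕ Fin m) (Fin m ⊕ Fin m) F) - 1)) : (Nat.card ↥(Subgroup.centralizer ({x} : Set ↥(Matrix.symplecticGroup (Fin m) F))) : ℤ) = (q : ℤ) ^ (m * (m - 1) / 2) * ∏ i : Fin m, ((q : ℤ) ^ ((i : ℕ) + 1) - (-1) ^ ((i : ℕ) + 1)) := by
  have hf := sympStd_nondeg F m
  have h1 : ∀ v, (spEquiv F m x).1 v = v → v = 0 := fun v hv =>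
    Matrix.mulVec_injective_iff_isUnit.2 hfpf (by
      rw [Matrix.sub_mulVec, Matrix.one_mulVec, Matrix.mulVec_zero, sub_eq_zero]; exact hv)
  have h3 : spEquiv F m x ^ 3 = 1 := by rw [← map_pow, hx3, map_one]
  rw [card_centralizer_congr (spEquiv F m)]
  generalize spEquiv F m x = g at *
  have h4 : ∀ v, g.1 (g.1 v) + g.1 v + v = 0 := fun v => h1 _ (by
    have : g.1 (g.1 (g.1 v)) = v := congrArg (fun g : (sympStd F m).Isom => g.1 v) h3
    simp only [map_add, this]; abel)
  let p : F[X] := X ^ 2 + X + 1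
  have hd : p.natDegree = 2 := by simp only [p]; compute_degree!
  have hp : Irreducible p := (irreducible_iff_roots_eq_zero_of_degree_le_three
    (by omega) (by omega)).2 (Multiset.eq_zero_of_forall_notMem fun t ht => by
      have h5 : t ^ 2 + t + 1 = 0 := by simpa [p] using isRoot_of_mem_roots ht
      have h6 : t ^ 3 = 1 := by linear_combination (t - 1) * h5
      have h7 := FiniteField.pow_card t
      rw [hF, ← Nat.div_add_mod q 3, hq, pow_add, pow_mul, h6, one_pow, one_mul] at h7
      have h8 : t = 1 := mul_left_cancel₀ (a := t) (by rintro rfl; simp at h5) (by linear_combination h7)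
      have h9 := FiniteField.cast_card_eq_zero F
      rw [hF, ← Nat.div_add_mod q 3, hq] at h9
      push_cast at h9
      rw [h8] at h5
      exact one_ne_zero (α := F) (by linear_combination (1 + (q / 3 : ℕ)) * h5 - h9))
  have := Fact.mk hp
  obtain ⟨_, _, hL⟩ := exists_module_adjoinRoot (g.1 : End F (Fin m ⊕ Fin m → F)) (p := p)
    (LinearMap.ext fun v => by simpa [p, sq] using h4 v)
  set L := AdjoinRoot p
  have hfin : finrank F L = 2 := by rw [(AdjoinRoot.powerBasis hp.ne_zero).finrank]; exact hd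
  have := (AdjoinRoot.powerBasis hp.ne_zero).finite
  have := Module.finite_of_finite F (M := L)
  have := Fintype.ofFinite L
  have := Module.Finite.right F L (Fin m ⊕ Fin m → F)
  have hK : Fintype.card L = q ^ 2 := by rw [Module.card_eq_pow_finrank (K := F), hF, hfin]
  set ω := AdjoinRoot.root p
  have hω : ∀ v, ω • v = g.1 v := fun v => by simpa using hL X v
  have hω3 : ω ^ 2 + ω + 1 = 0 := by
    rw [← AdjoinRoot.mk_self (f := p), map_add, map_add, map_pow, map_one]; rfl
  have hc : conj hK ω = ω * ω := by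
    rw [conj_apply, ← Nat.div_add_mod q 3, hq, pow_add, pow_mul,
      show ω ^ 3 = 1 by linear_combination (ω - 1) * hω3, one_pow, one_mul, sq]
  have ind : ∀ P : L → Prop, (∀ c : F, P (algebraMap F L c)) → (∀ a b, P a → P b → P (a + b)) →
      (∀ a, P a → P (ω * a)) → ∀ a, P a := fun P a1 a2 a3 a => by
    obtain ⟨r, rfl⟩ := AdjoinRoot.mk_surjective a
    induction r using Polynomial.induction_on with
    | C c => exact a1 c
    | add r s hr hs => rw [map_add]; exact a2 _ _ hr hs
    | monomial n c h => rw [pow_succ, ← mul_assoc, map_mul, mul_comm]; exact a3 _ h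
  have hsa : ∀ (a : L) u v, (sympStd F m).B (a • u) v = (sympStd F m).B u (conj hK a • v) := by
    refine ind _ (fun c u v => ?_) (fun a b ha hb u v => ?_) fun a ha u v => ?_
    · rw [conj_algebraMap hK hF, algebraMap_smul, algebraMap_smul, B_smul_left, map_smul]; rfl
    · rw [map_add, add_smul, add_smul, B_add_left, map_add, ha, hb]
    · rw [map_mul, mul_comm (conj hK ω), mul_smul, mul_smul, ← ha, hc, mul_smul, hω, hω, hω,
        ← B_map g.2 (a • u), show g.1 (g.1 (g.1 v)) = v from
          congrArg (fun g : (sympStd F m).Isom => g.1 v) h3]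
  obtain ⟨a, ha⟩ := not_forall.1 fun H => conj_ne_id hK (RingHom.ext H)
  obtain ⟨l, hl⟩ := Module.Projective.exists_dual_ne_zero F (sub_ne_zero.2 (Ne.symm ha))
  let θ : L →ₗ[F] F := l ∘ₗ (LinearMap.id - ⟨⟨conj hK, map_add _⟩, fun c y => by
    simp only [Algebra.smul_def, map_mul, conj_algebraMap hK hF, RingHom.id_apply]⟩)
  have h : θ ≠ 0 := fun e => hl (LinearMap.congr_fun e a)
  obtain ⟨ψ, hB⟩ := hf.exists_herm (fun _ => rfl) (conj_conj hK) (conj_ne_id hK) hsa h
    fun y => by simp [θ, conj_conj]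
  have hQ : ∀ u v, ψ.Q u = ψ.Q v → (sympStd F m).Q u = (sympStd F m).Q v := fun u v _ => by
    rw [symp_Q, symp_Q]
  have hn : finrank L (Fin m ⊕ Fin m → F) = m := by
    have := finrank_mul_finrank F L (Fin m ⊕ Fin m → F)
    rw [hfin, finrank_plus] at this
    omega
  have e : (resI hB hQ).range = Subgroup.centralizer {g} := by
    ext c
    rw [Subgroup.mem_centralizer_singleton_iff]
    constructor
    · rintro ⟨c, rfl⟩
      exact isom_ext _ fun v => by
        rw [isom_mul_apply, isom_mul_apply, ← hω, ← hω]; exact c.1.map_smul ω v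
    · intro H
      have hs : ∀ (a : L) v, c.1 (a • v) = a • c.1 v := by
        refine ind _ (fun c v => ?_) (fun a b ha hb v => ?_) fun a ha v => ?_
        · rw [algebraMap_smul, algebraMap_smul, map_smul]
        · rw [add_smul, add_smul, map_add, ha, hb]
        · rw [mul_smul, mul_smul, hω, hω, ← ha]
          exact congrArg (fun g : (sympStd F m).Isom => g.1 (a • v)) H
      refine ⟨⟨{ c.1 with map_smul' := hs }, (herm_mem_Isom ψ).2 fun u v => θ_ext h fun a => ?_⟩, rfl⟩
      rw [← B_smul_right, ← B_smul_right, ← hB, ← hB]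
      exact (congrArg _ (hs a v).symm).trans (B_map c.2 u _)
  rw [← e, ← Nat.card_congr (MonoidHom.ofInjective (resI_injective hB hQ)).toEquiv,
    herm_card_isom hK m (hf.ext h hB hQ).nondeg hn, Finset.prod_range]
  push_cast
  congr 1
  refine Finset.prod_congr rfl fun i _ => ?_
  split_ifs with hi
  · rw [hi.add_one.neg_one_pow]; ring
  · rw [(Nat.not_even_iff_odd.1 hi).add_one.neg_one_pow, Nat.cast_sub (Nat.one_le_pow _ _ (by omega))]
    simp

end Cfsg.Agent.S2637
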