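import Cfsg.Statements.S2638
import Cfsg.Agent.Lib.Lin.Rcf3

set_option autoImplicit false
open Cfsg

namespace Cfsg.Agent.S2638

open CA.CForm CA.CForm.Form CA.Rcf Polynomial in
/-- If an element x of GL_n(q), n ≥ 1, has prime order r and the multiplicative order of q modulo r is n (r is a primitive prime divisor of q^n − 1, so x acts irreducibly), then the centraliser of x in GL_n(q) is cyclic of order q^n − 1 (the multiplicative group of the field with q^n elements, a Singer cycle). -/
theorem result {F : Type*} [Field F] [Fintype F] {p q : ℕ} [Fact p.Prime] [CharP F p] (hF : Fintype.card F = q) {n r : ℕ} (hn : 1 ≤ n) (hr : r.Prime) (hrp : r ≠ p) (hi : orderOf (q : ZMod r) = n) (x : GL (Fin n) F) (hx : orderOf x = r) : IsCyclic ↥(Subgroup.centralizer ({x} : Set (GL (Fin n) F))) ∧ Nat.card ↥(Subgroup.centralizer ({x} : Set (GL (Fin n) F))) = q ^ n - 1 := by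
  have := Fact.mk hr
  have hr0 : (r : F) ≠ 0 := fun h => hrp ((Nat.prime_dvd_prime_iff_eq Fact.out hr).1
    ((CharP.cast_eq_zero_iff F p r).1 h)).symm
  have hq : Nat.card F = q := by rw [Nat.card_eq_fintype_card, hF]
  obtain ⟨k, m, h0, hm, h⟩ := (CA.Rcf.orderOf_eq_prime_iff hr0 (glEquiv x)).1
    (by rwa [MulEquiv.orderOf_eq])
  have h1 := finrank_eq_of_edivs hr0 hm h
  rw [hq, hi, Module.finrank_fin_fun] at h1
  have h2 := Multiset.card_pos.2 h0
  obtain ⟨d, rfl⟩ := Multiset.card_eq_one.1 (show m.card = 1 by nlinarith)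
  obtain rfl : k = 0 := by simpa using h1
  have hd := hm d (Multiset.mem_singleton_self d)
  have := Fact.mk (mem_cycT.1 hd).1
  obtain ⟨φ, -⟩ := nonempty_centralizer_equiv (sim_cyc_of_edivs (by simpa using h))
  have := finite_adjoinRoot (mem_cycT.1 hd).1.ne_zero
  have : Finite (AdjoinRoot d) := Module.finite_of_finite F
  refine ⟨?_, ?_⟩
  · have := isCyclic_of_surjective φ φ.surjective
    exact isCyclic_of_injective (((glEquiv (F := F) (ι := Fin n)).toMonoidHom.comp (Subgroup.subtype _)).codRestrict
      (Subgroup.centralizer {glEquiv x}) fun y => Subgroup.mem_centralizer_singleton_iff.2 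
        ((map_mul _ _ _).symm.trans ((congrArg glEquiv
          (Subgroup.mem_centralizer_singleton_iff.1 y.2)).trans (map_mul _ _ _))))
      fun a b h => Subtype.ext (glEquiv.injective (congrArg Subtype.val h))
  · rw [card_centralizer_congr glEquiv, ← Nat.card_congr φ.toEquiv, Nat.card_units,
      natCard_adjoinRoot (mem_cycT.1 hd).1.ne_zero, (natDegree_cycT hr0).1 d hd, hq, hi]

end Cfsg.Agent.S2638
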