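import Cfsg.Statements.S2639
import Cfsg.Agent.Lib.Lin.ExtEmb

set_option autoImplicit false
open Cfsg

namespace Cfsg.Agent.S2639

open CA.CForm CA.CForm.Form Module in
/-- The unitary group embeds in the symplectic group of twice the dimension over the subfield: for a field K with q² elements and a field F with q elements (isomorphic to the subfield of K of order q), there is an injective homomorphism GU_m(q) → Sp_2m(F). -/
theorem result {K F : Type*} [Field K] [Fintype K] [Field F] [Fintype F] {q : ℕ} (hK : Fintype.card K = q ^ 2) (hF : Fintype.card F = q) (m : ℕ) : ∃ φ : ↥(Cfsg.GU m K q) →* ↥(Matrix.symplecticGroup (Fin m) F), Function.Injective φ := by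
  obtain ⟨ι⟩ := CA.FieldIso.nonempty_hom_of_pow (F := K) (K := F) (m := 2) (by
    simp [Nat.card_eq_fintype_card, hK, hF])
  let _ := ι.toAlgebra
  have h2 : finrank F K = 2 := finrank_of_card (hF ▸ hK)
  obtain ⟨θ, h0, hθ⟩ := Submodule.exists_le_ker_of_lt_top (F ∙ (1 : K)) (lt_top_iff_ne_top.2 fun e => by
    have := finrank_span_singleton (K := F) (one_ne_zero' K)
    rw [e, finrank_top] at this
    omega)
  obtain ⟨φ, hφ⟩ := (hermStd_nondeg hK m).exists_symp_emb h0 (conj_algebraMap hK hF) (fun x => by
    obtain ⟨c, hc⟩ := exists_of_conj hK hF ((hermStd hK m).herm_Q_fixed x)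
    rw [herm_B_self, ← hc]
    exact hθ (Submodule.mem_span_singleton.2 ⟨c, (Algebra.algebraMap_eq_smul_one c).symm⟩)) (m := m)
    (by rw [← finrank_mul_finrank F K, h2, finrank_fin_fun])
  exact ⟨φ.comp (guEquiv hK m).toMonoidHom, hφ.comp (guEquiv hK m).injective⟩

end Cfsg.Agent.S2639
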