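import Cfsg.Statements.S2640
import Cfsg.Agent.Lib.Lin.ExtEmb

set_option autoImplicit false
open Cfsg

namespace Cfsg.Agent.S2640

open CA.CForm CA.CForm.Form Module in
/-- For m even, the unitary group GU_m(q) (over the field with q² elements) embeds in the orthogonal group O⁺_2m(q) of the hyperbolic form Σ x_i y_i over the field with q elements (there is an injective homomorphism). -/
theorem result {K F : Type*} [Field K] [Fintype K] [Field F] [Fintype F] {q : ℕ} (hK : Fintype.card K = q ^ 2) (hF : Fintype.card F = q) (m : ℕ) (hm : Even m) : ∃ φ : ↥(Cfsg.GU m K q) →* ↥(Cfsg.isometryGroup F (Cfsg.quadFormPlus m F)), Function.Injective φ := by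
  obtain ⟨ι⟩ := CA.FieldIso.nonempty_hom_of_pow (F := K) (K := F) (m := 2) (by
    simp [Nat.card_eq_fintype_card, hK, hF])
  let _ := ι.toAlgebra
  have h2 : finrank F (Fin m → K) = 2 * m := by
    rw [← finrank_mul_finrank F K, finrank_of_card (hF ▸ hK), finrank_fin_fun]
  obtain ⟨f, hf, h, φ, hφ⟩ := (hermStd_nondeg hK m).exists_orth_of_herm hK hF
  have := isIndex_iff_even hK hF (hermStd_nondeg hK m) hf h
  rw [finrank_fin_fun] at this
  obtain ⟨e⟩ := ((this.2 hm).equivalent_plus hf h2).nonempty_mulEquiv
  let E := e.trans (orthEquiv (plusForm F m)).symm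
  exact ⟨E.toMonoidHom.comp (φ.comp (guEquiv hK m).toMonoidHom),
    E.injective.comp (hφ.comp (guEquiv hK m).injective)⟩

end Cfsg.Agent.S2640
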