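import Cfsg.Statements.S2641
import Cfsg.Agent.Lib.Lin.ExtEmb

set_option autoImplicit false
open Cfsg

namespace Cfsg.Agent.S2641

open CA.CForm CA.CForm.Form Module in
/-- For m odd, the unitary group GU_m(q) (over the field with q² elements) embeds in the orthogonal group O⁻_2m(q) of an elliptic form (Σ_(i<m−1) x_i y_i plus an anisotropic binary form) over the field with q elements (there is an injective homomorphism). -/
theorem result {K F : Type*} [Field K] [Fintype K] [Field F] [Fintype F] {q : ℕ} (hK : Fintype.card K = q ^ 2) (hF : Fintype.card F = q) (m : ℕ) (hm : Odd m) (a b : F) (hab : ∀ z₁ z₂ : F, z₁ ^ 2 + a * z₁ * z₂ + b * z₂ ^ 2 = 0 → z₁ = 0 ∧ z₂ = 0) : ∃ φ : ↥(Cfsg.GU m K q) →* ↥(Cfsg.isometryGroup F (Cfsg.quadFormMinus (m - 1) F a b)), Function.Injective φ := by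
  obtain ⟨ι⟩ := CA.FieldIso.nonempty_hom_of_pow (F := K) (K := F) (m := 2) (by
    simp [Nat.card_eq_fintype_card, hK, hF])
  let _ := ι.toAlgebra
  have h2 : finrank F (Fin m → K) = 2 * m := by
    rw [← finrank_mul_finrank F K, finrank_of_card (hF ▸ hK), finrank_fin_fun]
  obtain ⟨f, hf, h, φ, hφ⟩ := (hermStd_nondeg hK m).exists_orth_of_herm hK hF
  have := isIndex_iff_even hK hF (hermStd_nondeg hK m) hf h
  rw [finrank_fin_fun] at this
  obtain ⟨j, rfl, hj⟩ := (hf.isIndex_even' h2).resolve_left fun H =>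
    Nat.not_even_iff_odd.2 hm (this.1 H)
  obtain ⟨e⟩ := (hj.equivalent_minus hf h2 hab).nonempty_mulEquiv
  let E := e.trans (orthEquiv (minusForm j a b)).symm
  exact ⟨E.toMonoidHom.comp (φ.comp (guEquiv hK _).toMonoidHom),
    E.injective.comp (hφ.comp (guEquiv hK _).injective)⟩

end Cfsg.Agent.S2641
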