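import Cfsg.Statements.S2642
import Cfsg.Agent.Lib.Lin.CFormConj2

set_option autoImplicit false
open Cfsg

namespace Cfsg.Agent.S2642

open CA.CForm CA.CForm.Form CA.Rcf Polynomial in
/-- Number of conjugacy classes of elements of order p in the general unitary group GU_n(q), q a power of p: every unipotent Jordan type occurs and the classes correspond to the partitions of n with all parts at most p other than the all-ones partition, exactly as in GL_n; so there are (number of partitions of n with parts ≤ p) − 1 classes. -/
theorem result {K : Type*} [Field K] [Fintype K] {p q n : ℕ} [Fact p.Prime] [CharP K p] (hK : Fintype.card K = q ^ 2) : Nat.card {C : ConjClasses ↥(Cfsg.GU n K q) // ∃ g : ↥(Cfsg.GU n K q), ConjClasses.mk g = C ∧ orderOf g = p} = (Finset.univ.filter (fun μ : Nat.Partition n => ∀ a ∈ μ.parts, a ≤ p)).card - 1 := by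
  have hp : p.Prime := Fact.out
  have hf := hermStd_nondeg hK n
  rw [card_conjClasses_congr (guEquiv hK n) _ (orderOf · = p) fun g => by rw [MulEquiv.orderOf_eq],
    card_unip_classes (hermStd hK n).Isom.subtype (n := n) (by simp) _
    (fun μ => (∀ a ∈ μ, a ≤ p) ∧ ¬∀ a ∈ μ, a ≤ 1)
    (fun g => by rw [← orderOf_eq_char_iff p]; exact (Subgroup.orderOf_coe g).symm ▸ Iff.rfl)
    (fun g h => hf.isConj_of_sim (tame_herm (conj_ne_id hK) _)) fun u hu =>
      hf.herm_exists_conj (conj_ne_id hK) (by
        simp [edivs_eq_map_jt hu, dual_X_sub_one])]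
  exact card_partition_ne_one n (fun μ => ∀ a ∈ μ, a ≤ p) fun a ha => by
    rw [Multiset.eq_of_mem_replicate ha]; exact hp.one_le

end Cfsg.Agent.S2642
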