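import Cfsg.Statements.S2643
import Cfsg.Agent.Lib.Lin.CFormConj2

set_option autoImplicit false
open Cfsg

namespace Cfsg.Agent.S2643

open CA.CForm CA.CForm.Form CA.Rcf Polynomial in
/-- Regular unipotent classes of SU_n(q), n ≥ 2: the elements u of the special unitary group (isometries of Σ u_i v_i^q of determinant one over the field with q² elements) with (u − 1)^n = 0 and rank(u − 1) = n − 1 form exactly gcd(n, q + 1) conjugacy classes of SU_n(q). -/
theorem result {K : Type*} [Field K] [Fintype K] {q n : ℕ} (hK : Fintype.card K = q ^ 2) (hn : 2 ≤ n) : Nat.card {C : ConjClasses ↥(Cfsg.SU n K q) // ∃ u : ↥(Cfsg.SU n K q), ConjClasses.mk u = C ∧ (((u : GL (Fin n) K) : Matrix (Fin n) (Fin n) K) - 1) ^ n = 0 ∧ (((u : GL (Fin n) K) : Matrix (Fin n) (Fin n) K) - 1).rank = n - 1} = Nat.gcd n (q + 1) := by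
  have hf := hermStd_nondeg hK n
  have hT := fun g : (hermStd hK n).Isom => tame_herm (hs := conj_conj hK) (conj_ne_id hK) g.1
  obtain ⟨g, hg⟩ := hf.herm_exists_isom (conj_ne_id hK) (m := {(X - 1) ^ n})
    (by simpa using isPrim_X_sub_one_pow (by omega)) (by simp [X_dvd_iff, coeff_zero_eq_eval_zero])
    (by simp [dual_X_sub_one]) (by simpa using natDegree_X_sub_one_pow (F := K) n)
  have h0 : IsNilpotent ((g.1 : Module.End K (Fin n → K)) - 1) := isNilpotent_of_edivs (μ := {n}) hg
  have h1 : g ∈ (hermStd hK n).SIsom := Units.ext (by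
    rw [coe_detHom, det_of_isNilpotent (a := 1) (by rwa [map_one]), one_pow]; rfl)
  obtain ⟨g', h3⟩ := (suEquiv hK n).surjective ⟨g, h1⟩
  have h4 : Nat.card (hermStd hK n).detHom.range = q + 1 := by
    rw [← Subgroup.index_ker, ← herm_index_SIsom hK hf (by simp; omega)]; rfl
  refine (card_classes_split (hermStd hK n).detHom.rangeRestrict
    (MonoidHom.rangeRestrict_surjective _) ((suEquiv hK n).trans
      (MulEquiv.subgroupCongr (MonoidHom.ker_rangeRestrict _).symm)) g'
    (fun u => (u.1.1 - 1) ^ n = 0 ∧ (u.1.1 - 1).rank = n - 1) fun u => ?_).trans ?_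
  · change _ ↔ IsConj (suEquiv hK n g').1 (suEquiv hK n u).1
    rw [regular_iff_edivs (by omega), h3, ← hg, eq_comm]
    exact ⟨fun h => hf.isConj_of_sim (hT _) (isConj_iff_edivs.2 h),
      fun h => isConj_iff_edivs.1 ((Subgroup.subtype _).map_isConj h)⟩
  change ((Subgroup.centralizer {(suEquiv hK n g').1}).map _).index = _
  rw [h3, ← h4, Nat.gcd_comm, ← IsCyclic.index_powMonoidHom_range]
  refine congrArg Subgroup.index (Subgroup.ext fun a => ?_)
  constructor
  · rintro ⟨c, hc, rfl⟩
    obtain ⟨r, hr⟩ := exists_aeval_eq_of_commute (B := c.1) (sim_cyc_of_edivs hg)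
      fun v => congrArg (fun x : (hermStd hK n).Isom => x.1 v)
        (Subgroup.mem_centralizer_singleton_iff.1 hc)
    have h2 := det_aeval_of_unip h0 r
    rw [← hr, Module.finrank_fin_fun, ← coe_detHom] at h2
    obtain ⟨s, hs⟩ := exists_aeval_eq_add (g.1 : Module.End K (Fin n → K)) r
    rw [← hr] at hs
    obtain ⟨x, hx, hx0⟩ := (Submodule.ne_bot_iff _).1 (show (hermStd hK n).fixSub g ≠ ⊥ from
      fun h => by
        have := finrank_ker_sub_one h0
        rw [jt_eq_of_edivs (μ := {n}) hg, show LinearMap.ker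
          ((g.1 : Module.End K (Fin n → K)) - 1 : Module.End K (Fin n → K)) = ⊥ from h] at this
        simp at this)
    obtain ⟨y, hy⟩ := hf.exists_B_ne_zero hx0
    have h5 : c.1 x = r.eval 1 • x := by
      refine (LinearMap.congr_fun hs x).trans ?_
      rw [LinearMap.add_apply, Module.End.mul_apply, aeval_apply_of_comm
        (A := (g.1 : Module.End K (Fin n → K))) (B := (g.1 : Module.End K (Fin n → K)))
        ((g.1 : Module.End K (Fin n → K)) - 1 : Module.End K (Fin n → K))
        (fun _ => (map_sub g.1 _ _).symm), show ((g.1 : Module.End K (Fin n → K)) - 1) x = 0 from hx, map_zero, add_zero]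
      rfl
    have h6 := B_map c.2 x y
    rw [h5, show c.1 y = _ from LinearMap.congr_fun hs y, B_smul_left, LinearMap.add_apply, map_add,
      Module.End.mul_apply, show (hermStd hK n).B x
        (((g.1 : Module.End K (Fin n → K)) - 1 : Module.End K (Fin n → K)) _) = 0 from
        (hf.perp_fixSub g).ge ⟨_, rfl⟩ x hx, add_zero,
      Module.algebraMap_end_apply, map_smul, smul_eq_mul, ← mul_assoc, mul_eq_right₀ hy] at h6
    exact ⟨⟨Units.mk0 _ (right_ne_zero_of_mul_eq_one h6),
      (herm_mem_range_detHom hK hf (by simp; omega) _).2 ((pow_succ _ _).trans h6)⟩,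
      Subtype.ext (Units.ext h2.symm)⟩
  · rintro ⟨a, rfl⟩
    have := (herm_mem_range_detHom hK hf (by simp; omega) _).1 a.2
    rw [pow_succ'] at this
    exact ⟨scalarIsom _ _ this, Subgroup.mem_centralizer_singleton_iff.2
      (isom_ext _ fun v => (map_smul g.1 _ v).symm), Subtype.ext (Units.ext (by
        simpa using detHom_of_smul _ (scalarIsom_apply (hermStd hK n) _ this)))⟩

end Cfsg.Agent.S2643
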