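import Cfsg.Statements.S2644
import Cfsg.Agent.Lib.Lin.CFormConj2

set_option autoImplicit false
open Cfsg

namespace Cfsg.Agent.S2644

open CA.CForm CA.CForm.Form CA.Rcf Polynomial in
/-- In the special unitary group SU_n(q) with n ≥ 3 (isometries of Σ u_i v_i^q of determinant one over the field with q² elements), any two transvections (elements t with t − 1 of rank one and square zero) are conjugate. -/
theorem result {K : Type*} [Field K] [Fintype K] {q n : ℕ} (hK : Fintype.card K = q ^ 2) (hn : 3 ≤ n) (s t : ↥(Cfsg.SU n K q)) (hs : Cfsg.IsTransvection (((s : GL (Fin n) K) : Matrix (Fin n) (Fin n) K))) (ht : Cfsg.IsTransvection (((t : GL (Fin n) K) : Matrix (Fin n) (Fin n) K))) : IsConj s t := by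
  have hf := hermStd_nondeg hK n
  have k1 : ∀ s : ↥(SU n K q), IsTransvection ((s : GL (Fin n) K) : Matrix (Fin n) (Fin n) K) →
      (Matrix.toLin' s.1.1 - 1) ^ 2 = 0 ∧
        Module.finrank K (LinearMap.ker (Matrix.toLin' s.1.1 - 1)) = n - 1 := fun s hs => by
    have := rank_add_finrank_ker s.1.1
    rw [show (s.1.1 - 1).rank = 1 from hs.1, Fintype.card_fin] at this
    exact ⟨(toLin'_sub_one_pow _ _).2 ((sq _).trans hs.2), by omega⟩
  refine (isConj_congr (suEquiv hK n)).1 (hf.isConj_SIsom_of_det (hf.isConj_of_sim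
    (tame_herm (conj_ne_id hK) _) (isConj_iff_sim.2 (sim_of_sq_eq_zero (k1 s hs).1 (k1 t ht).1 rfl
      ((k1 s hs).2.trans (k1 t ht).2.symm)))) fun a ha => ?_)
  have h0 : IsNilpotent (Matrix.toLin' s.1.1 - 1) := ⟨2, (k1 s hs).1⟩
  have h1 : 1 ∈ jt (Matrix.toLin' s.1.1) := by_contra fun h => by
    have := Multiset.card_nsmul_le_sum (s := jt (Matrix.toLin' s.1.1)) (a := 2) fun b hb => by
      have := pos_of_mem_jt hb
      have : b ≠ 1 := fun H => h (H ▸ hb)
      omega
    rw [sum_jt, ← finrank_ker_sub_one h0, (k1 s hs).2, Module.finrank_fin_fun, smul_eq_mul] at this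
    omega
  have := hf.exists_commute_det_pow (g := (suEquiv hK n s).1) (tame_herm (conj_ne_id hK) _)
    (d := (X - 1) ^ 1) ((edivs_eq_map_jt h0).symm ▸ Multiset.mem_map_of_mem _ h1 :
      _ ∈ edivs (Matrix.toLin' s.1.1)) (by rw [map_pow, dual_X_sub_one]) ha
  rwa [natDegree_X_sub_one_pow, pow_one] at this

end Cfsg.Agent.S2644
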