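import Cfsg.Statements.S2646
import Mathlib
import Cfsg.Agent.S2581
import Cfsg.Agent.Lib.Lin.AutLang
import Cfsg.Agent.Lib.Lin.CFormConj2
import Cfsg.Agent.Lib.Lin.Rcf2

set_option autoImplicit false
open Cfsg

namespace Cfsg.Agent.S2646

section
open Finset Matrix CA.CForm CA.AutLang CA.Rcf S2581

theorem card_pre {A B : Type*} [AddCommGroup A] [AddCommGroup B] (f : A →+ B)
    (hf : Function.Surjective f) (P : B → Prop) :
    Nat.card {a // P (f a)} = Nat.card f.ker * Nat.card {b // P b} := by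
  choose g hg using hf
  rw [← Nat.card_prod]
  exact Nat.card_congr ⟨fun a => (⟨a - g (f a), by simp [hg]⟩, ⟨f a, a.2⟩),
    fun x => ⟨x.1 + g x.2, by simpa [hg, show f x.1 = 0 from x.1.2] using x.2.2⟩, fun a => by simp,
    fun x => by simp [hg, show f x.1 = 0 from x.1.2]⟩

variable {K : Type*} [Field K] [Fintype K] {q : ℕ} (hK : Fintype.card K = q ^ 2)

section
variable {κ : Type} [Fintype κ] [DecidableEq κ]

def ct (A : Matrix κ κ K) : Matrix κ κ K := (A.map (conj hK))ᵀ

omit [DecidableEq κ] in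
theorem ct_mul (A B : Matrix κ κ K) : ct hK (A * B) = ct hK B * ct hK A := by
  simp [ct, Matrix.map_mul]

omit [Fintype κ] in
theorem ct_one : ct hK (1 : Matrix κ κ K) = 1 := by simp [ct]

def X (g : Matrix κ κ K) : Set (Matrix κ κ K) := {H | (ct hK g * H * g = H ∧ ct hK H = H) ∧ H.det ≠ 0}

theorem orb {W : Type*} [AddCommGroup W] [Module K W] [FiniteDimensional K W] (g : GL κ K)
    {f : Form (hermKind hK) W} (hf : f.Nondeg) (u : f.Isom)
    (h : Sim (u.1 : Module.End K W) (toLin' g.1)) : (X hK g.1).Nonempty ∧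
    Nat.card {a : GL κ K // a.1 * g.1 = g.1 * a.1} =
      Nat.card (X hK g.1) * Nat.card (Subgroup.centralizer {u}) := by
  have hne := conj_ne_id hK
  have nd : ∀ H (h : H ∈ X hK g.1), (hermMat (conj_conj hK) hne H h.1.2).Nondeg := fun H h v hv =>
    matB_nondeg _ (GeneralLinearGroup.mkOfDetNeZero H h.2) hv
  have im : ∀ H (h : ct hK H = H) (a : GL κ K), glEquiv a ∈ (hermMat (conj_conj hK) hne H h).Isom ↔
      ct hK a.1 * H * a.1 = H := fun H h a =>
    ⟨fun e => matB_inj fun x y => (matB_mulVec ..).symm.trans (e.1 x y), fun e =>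
      ⟨fun x y => (matB_mulVec ..).trans (congrArg (matB _ · x y) e),
        fun x => (matB_mulVec ..).trans (congrArg (matB _ · x x) e)⟩⟩
  obtain ⟨R, hR⟩ : (X hK g.1).Nonempty := by
    obtain ⟨e, he⟩ := h
    set H : Matrix κ κ K := of fun i j => f.B (e.symm (Pi.single i 1)) (e.symm (Pi.single j 1)) with hH
    have k : ∀ x y, matB (conj hK) H x y = f.B (e.symm x) (e.symm y) := fun x y => by
      conv_rhs => rw [pi_eq_sum_univ' x, pi_eq_sum_univ' y]
      simp [hH, matB_eq_sum, f.B_sum_left, mul_sum, mul_comm, mul_left_comm]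
    refine ⟨H, ⟨matB_inj fun x y => (matB_mulVec ..).symm.trans ?_, ?_⟩, fun e0 => ?_⟩
    · have : ∀ x, e.symm (g.1 *ᵥ x) = u.1 (e.symm x) := fun x => by
        rw [e.symm_apply_eq]; simpa using (he (e.symm x)).symm
      rw [k, k, this, this, u.2.1]
    · ext i j; simp [hH, ct, f.symm (e.symm (Pi.single i 1)), conj_conj]
    · obtain ⟨v, h0, hv⟩ := exists_mulVec_eq_zero_iff.2 e0
      refine h0 (e.symm.map_eq_zero_iff.1 (hf.eq_zero_right fun x => ?_))
      rw [← e.symm_apply_apply x, ← k, matB_apply, hv, dotProduct_zero]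
  refine ⟨⟨R, hR⟩, ?_⟩
  have hs : ∀ H (h' : H ∈ X hK g.1), Form.IsoSim u ⟨_, (im H h'.1.2 g).2 h'.1.1⟩ := fun H h' =>
    hf.isoSim_of_sim (nd H h') (tame_herm hne _) (by rwa [coe_glEquiv])
  set C := Subgroup.centralizer {g}
  let S : Subgroup C := ((hermMat (conj_conj hK) hne R hR.1.2).Isom.comap
    (glEquiv.toMonoidHom)).subgroupOf C
  have e1 : Nat.card S = Nat.card (Subgroup.centralizer {u}) := by
    rw [(hs R hR).card_centralizer]
    refine Nat.card_eq_of_bijective (fun a => ⟨⟨glEquiv a.1.1, a.2⟩,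
      Subgroup.mem_centralizer_singleton_iff.2 (Subtype.ext ?_)⟩) ⟨fun a b e => ?_, fun b => ?_⟩
    · exact (map_mul ..).symm.trans ((congrArg _ (Subgroup.mem_centralizer_singleton_iff.1 a.1.2)).trans
        (map_mul ..))
    · exact Subtype.ext (Subtype.ext (glEquiv.injective (congrArg (·.1.1) e)))
    · refine ⟨⟨⟨glEquiv.symm b.1.1, Subgroup.mem_centralizer_singleton_iff.2 (glEquiv.injective ?_)⟩,
        by simpa [S, Subgroup.mem_subgroupOf] using b.1.2⟩, by simp⟩
      simpa using congrArg Subtype.val (Subgroup.mem_centralizer_singleton_iff.1 b.2)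
  have cm : ∀ a : C, a.1.1 * g.1 = g.1 * a.1.1 := fun a =>
    congrArg Units.val (Subgroup.mem_centralizer_singleton_iff.1 a.2)
  have mX : ∀ a : C, ct hK a.1.1 * R * a.1.1 ∈ X hK g.1 := fun a => ⟨⟨by
      calc _ = ct hK (a.1.1 * g.1) * R * (a.1.1 * g.1) := by simp only [ct_mul, Matrix.mul_assoc]
        _ = ct hK a.1.1 * (ct hK g.1 * R * g.1) * a.1.1 := by simp only [cm, ct_mul, Matrix.mul_assoc]
        _ = _ := by rw [hR.1.1],
      by rw [ct_mul, ct_mul, hR.1.2, Matrix.mul_assoc]; congr 2; ext; simp [ct, conj_conj]⟩, by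
      simp [ct, ← RingHom.mapMatrix_apply, ← RingHom.map_det, hR.2, a.1.det_ne_zero]⟩
  have eq : ∀ a b : C, ct hK a⁻¹.1.1 * R * a⁻¹.1.1 = ct hK b⁻¹.1.1 * R * b⁻¹.1.1 ↔ a⁻¹ * b ∈ S :=
    fun a b => by
      rw [Subgroup.mem_subgroupOf, Subgroup.mem_comap, MulEquiv.coe_toMonoidHom, im]
      have k : ∀ (H) (c : C), ct hK c⁻¹.1.1 * (ct hK c.1.1 * H * c.1.1) * c⁻¹.1.1 = H := fun H c => by
        simp [← Matrix.mul_assoc, ← ct_mul, ct_one]
      refine ⟨fun e => ?_, fun e => ?_⟩
      · have := k R b⁻¹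
        rw [← e] at this
        simpa [ct_mul, Matrix.mul_assoc] using this
      · conv_rhs => rw [← e]
        rw [← k (ct hK a⁻¹.1.1 * R * a⁻¹.1.1) b]
        simp [ct_mul, Matrix.mul_assoc]
  rw [← e1, show Nat.card {a : GL κ K // a.1 * g.1 = g.1 * a.1} = Nat.card C from Nat.card_congr
    (Equiv.subtypeEquivRight fun a => by rw [Subgroup.mem_centralizer_singleton_iff, Units.ext_iff]; rfl),
    S.card_eq_card_quotient_mul_card_subgroup]
  congr 1
  refine Nat.card_eq_of_bijective (Quotient.lift (fun a => ⟨_, mX a⁻¹⟩) fun a b e =>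
    Subtype.ext ((eq a b).2 (QuotientGroup.leftRel_apply.1 e))) ⟨?_, fun H => ?_⟩
  · rintro ⟨a⟩ ⟨b⟩ e
    exact QuotientGroup.eq.2 ((eq a b).1 (Subtype.ext_iff.1 e))
  obtain ⟨e, h1, h2⟩ := (hs H H.2).symm.trans (hs R hR)
  refine ⟨QuotientGroup.mk (⟨glEquiv.symm e, Subgroup.mem_centralizer_singleton_iff.2
    (glEquiv.injective (LinearEquiv.ext fun v => by simpa using h2 v))⟩ : C)⁻¹,
    Subtype.ext (matB_inj fun x y => (matB_mulVec ..).symm.trans ?_)⟩
  simpa [glEquiv_symm_mulVec, hermMat] using h1.B_eq x y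
end

variable {t : ℕ} {d : Fin t → ℕ}
local notation "ι" => (k : Fin t) × Fin (d k)
local notation "J" => jordanTypeMatrix d K
local notation "MM" => range (univ.sup d + 1)

omit [Fintype K] in
theorem surj (hd : ∀ k, 1 ≤ d k) : Function.Bijective fun A : {A : Matrix ι ι K // A * J = J * A} =>
    ((fun x => ex A.1 x.1.1 x.1.2.2 x.1.2.1 0, fun i => (top A.1).toSquareBlock d i) :
      (I1 d → K) × ∀ i : MM, Matrix {k // d k = i} {k // d k = i} K) := by
  refine ⟨fun g g' e => Subtype.ext (Matrix.ext fun x y => ?_), fun ⟨c, B⟩ => ?_⟩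
  · have e1 : ∀ k l i, i < d k → ex g.1 k i l 0 = ex g'.1 k i l 0 := fun k l i hi => by
      by_cases h : (k, l, i) ∈ I1 d
      · exact congrFun (congrArg Prod.fst e) ⟨_, h⟩
      by_cases h1 : i + d l < d k
      · rw [ex_zero g.2 h1, ex_zero g'.2 h1]
      obtain ⟨rfl, h2⟩ : i = 0 ∧ d k = d l := by rw [mem_I1] at h; omega
      exact congrFun (congrFun (congrFun (congrArg Prod.snd e)
        ⟨d l, mem_range.2 (Nat.lt_succ_of_le (le_sup (mem_univ l)))⟩) ⟨k, h2⟩) ⟨l, rfl⟩
    have e2 : ∀ A : Matrix ι ι K, A x y = ex A x.1 x.2 y.1 y.2 := fun A => by simp [ex]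
    rw [e2 g.1, e2 g'.1, ex_eq g.2 _ _ _ y.2.2.le _ x.2.2, ex_eq g'.2 _ _ _ y.2.2.le _ x.2.2,
      e1 _ _ _ (by have := x.2.2; omega)]
  set c' : Fin t → Fin t → ℕ → K := fun k l i => if h : (k, l, i) ∈ I1 d then c ⟨_, h⟩ else
    if h : i = 0 ∧ d k = d l then B ⟨d l, mem_range.2 (Nat.lt_succ_of_le (le_sup (mem_univ l)))⟩
      ⟨k, h.2⟩ ⟨l, rfl⟩ else 0 with hc
  refine ⟨⟨S2581.mk c', mk_comm fun k l i hi => ?_⟩, Prod.ext (funext fun ⟨⟨k, l, i⟩, h⟩ => ?_)
    (funext fun ⟨i, hi⟩ => ?_)⟩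
  · rw [hc]; dsimp only; rw [dif_neg (by rw [mem_I1]; omega), dif_neg (by omega)]
  · simp [ex, S2581.mk, hc, h, (mem_I1.1 h).1, Nat.lt_of_succ_le (hd _)]
  · ext ⟨k, hk⟩ ⟨l, hl⟩
    dsimp only at hk hl
    subst hl
    simp [toSquareBlock_def, top, ex, S2581.mk, hc, mem_I1, hk, Nat.lt_of_succ_le (hd _)]

theorem ct_J : ct hK J = Jᵀ := by
  ext x y; simp [ct, J_apply, apply_ite (conj hK)]

omit [Fintype K] in
theorem recur {H : Matrix ι ι K} (h : Jᵀ * H * J = H) {k l i j} (hi : i < d k) (hj : j < d l) :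
    ex H k (i + 1) l j + ex H k i l (j + 1) + ex H k (i + 1) l (j + 1) = 0 := by
  have h1 : ∀ (A : Matrix ι ι K) k i l j, j < d l → ex (A * J) k i l j = ex A k i l j + ex A k i l (j + 1) :=
    fun A k i l j hj => by
      by_cases hi : i < d k
      · simp only [mul_apply, J_apply, mul_add, mul_ite, mul_one, mul_zero, sum_add_distrib,
          sum_ite_eq', mem_univ, if_true, sum_at, ex, hi, hj, true_and, dif_pos]
      · simp [ex, hi]
  have h2 : ∀ (A : Matrix ι ι K) k i l j, ex Aᵀ k i l j = ex A l j k i := fun A k i l j => by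
    simp only [ex, and_comm, transpose_apply]
  have := h1 (Jᵀ * H) k i l j hj
  rw [h, show Jᵀ * H = (Hᵀ * J)ᵀ by simp, h2, h2, h1 _ _ _ _ _ hi, h1 _ _ _ _ _ hi,
    h2, h2, h2, h2] at this
  linear_combination -this

omit [Fintype K] in
theorem van {H : Matrix ι ι K} (h : Jᵀ * H * J = H) {k l i j} (hi : d k ≤ i + j ∨ d l ≤ i + j) :
    ex H k i l j = 0 := by
  obtain hi | hi := hi
  · induction hn : d k - i generalizing i j with
    | zero => exact dif_neg (by omega)
    | succ n ih =>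
      obtain ⟨j, rfl⟩ : ∃ j', j = j' + 1 := ⟨j - 1, by omega⟩
      by_cases hj : j < d l
      · simpa [ih (i := i + 1) (j := j) (by omega) (by omega), ih (i := i + 1) (j := j + 1) (by omega)
          (by omega)] using recur h (show i < d k by omega) hj
      · exact dif_neg (by omega)
  · induction hn : d l - j generalizing i j with
    | zero => exact dif_neg (by omega)
    | succ n ih =>
      obtain ⟨i, rfl⟩ : ∃ i', i = i' + 1 := ⟨i - 1, by omega⟩
      by_cases hk : i < d k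
      · simpa [ih (i := i) (j := j + 1) (by omega) (by omega), ih (i := i + 1) (j := j + 1) (by omega)
          (by omega)] using recur h hk (show j < d l by omega)
      · exact dif_neg (by omega)

omit [Fintype K] in
theorem sgn {H : Matrix ι ι K} (h : Jᵀ * H * J = H) {k l} (e : d k = d l) (i : ℕ) :
    ∀ j, i + j + 1 = d l → ex H k i l j = (-1) ^ i * ex H k 0 l (d l - 1) := by
  induction i with
  | zero => intro j hj; simp [← hj]
  | succ i ih =>
    intro j hj
    have := recur h (show i < d k by omega) (show j < d l by omega)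
    rw [ih _ (by omega), van h (i := i + 1) (j := j + 1) (by omega)] at this
    linear_combination this

def T (δ : K) (H : Matrix ι ι K) : Matrix (Fin t) (Fin t) K :=
  fun k l => δ ^ (d l - 1) * ex H k 0 l (d l - 1)

theorem T_ct {δ : K} (hδ : conj hK δ = -δ) (hd : ∀ k, 1 ≤ d k) {H : Matrix ι ι K}
    (h : Jᵀ * H * J = H) (i : ℕ) :
    (T δ (ct hK H)).toSquareBlock d i = ct hK ((T δ H).toSquareBlock d i) := by
  ext ⟨k, hk⟩ ⟨l, hl⟩
  have e : d l = d k := hl.trans hk.symm
  have := sgn h e (d l - 1) 0 (by have := hd l; omega)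
  have h1 : ex (ct hK H) k 0 l (d l - 1) = conj hK (ex H l (d l - 1) k 0) := by
    simp only [ex, and_comm, ct, transpose_apply, map_apply, apply_dite (conj hK), map_zero]
  simp only [toSquareBlock_def, T, of_apply, h1, this]
  simp [ct, hδ, e, neg_pow δ]; ring

omit [Fintype K] in
theorem T_mul (δ : K) (hd : ∀ k, 1 ≤ d k) {R A : Matrix ι ι K} (h : Jᵀ * R * J = R) (hA : A * J = J * A)
    (i : ℕ) : (T δ (R * A)).toSquareBlock d i =
      (T δ R).toSquareBlock d i * (top A).toSquareBlock d i := by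
  ext ⟨k, hk⟩ ⟨l, hl⟩
  subst hl
  have h1 := hd l
  have e : ∀ (A : Matrix ι ι K) (x y : ι), A x y = ex A x.1 x.2 y.1 y.2 := fun A x y => by simp [ex]
  simp only [toSquareBlock_def, of_apply, mul_apply]
  rw [← sum_subtype (univ.filter fun x => d x = d l) (by simp) fun x => T δ R k x * top A x l, T, ex,
    dif_pos ⟨hd k, by omega⟩, mul_apply, Fintype.sum_sigma, mul_sum, sum_filter]
  refine sum_congr rfl fun x _ => ?_
  simp only [e R, e A, fun j : Fin (d x) => ex_eq hA x l (d l - 1) (by omega) j j.2]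
  split_ifs with h2
  · rw [sum_eq_single ⟨d l - 1, by omega⟩ (fun j _ hj => ?_) (by simp)]
    · simp [T, top, h2, mul_assoc]
    rw [if_neg fun e => hj (Fin.ext (by have := j.2; dsimp only; omega)), mul_zero]
  · rw [sum_eq_zero fun j _ => ?_, mul_zero]
    split_ifs with h3
    · by_cases h4 : d l ≤ j
      · rw [van h (by omega), zero_mul]
      · rw [ex_zero hA (by have := j.2; omega), mul_zero]
    · simp

omit [Fintype K] in
theorem T_det {δ : K} (hδ : δ ≠ 0) (hd : ∀ k, 1 ≤ d k) {R : Matrix ι ι K} (h : Jᵀ * R * J = R)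
    (h0 : R.det ≠ 0) (i : ℕ) : ((T δ R).toSquareBlock d i).det ≠ 0 := by
  have h1 : (T δ R).det ≠ 0 := fun e => by
    obtain ⟨w, hw, e⟩ := exists_mulVec_eq_zero_iff.2 e
    refine h0 (exists_mulVec_eq_zero_iff.1 ⟨fun x => if (x.2 : ℕ) = d x.1 - 1 then δ ^ (d x.1 - 1) * w x.1
      else 0, fun e => hw (funext fun k => ?_), funext fun x => ?_⟩)
    · simpa [hδ] using congrFun e ⟨k, d k - 1, by have := hd k; omega⟩
    simp only [mulVec, dotProduct, Fintype.sum_sigma]
    rw [sum_congr rfl (g := fun k => ex R x.1 x.2 k (d k - 1) * (δ ^ (d k - 1) * w k)) fun k _ => by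
      have := hd k
      rw [sum_eq_single (⟨d k - 1, by omega⟩ : Fin (d k))
        (fun i _ hi => by rw [if_neg fun e => hi (Fin.ext e), mul_zero]) (by simp), if_pos rfl, ex,
        dif_pos ⟨x.2.2, by omega⟩]]
    by_cases h1 : (x.2 : ℕ) = 0
    · simpa [mulVec, dotProduct, T, h1, mul_assoc, mul_left_comm] using congrFun e x.1
    · exact sum_eq_zero fun k _ => by rw [van h (by have := hd k; omega), zero_mul]
  rw [← det_transpose, BlockTriangular.det (M := (T δ R)ᵀ) (b := d) fun k l e => by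
    rw [transpose_apply, T, van h (by have : d l < d k := e; omega), mul_zero], prod_ne_zero_iff] at h1
  by_cases hi : i ∈ univ.image d
  · exact det_transpose ((T δ R).toSquareBlock d i) ▸ h1 i hi
  have : IsEmpty {k // d k = i} := ⟨fun k => hi (mem_image.2 ⟨k, mem_univ _, k.2⟩)⟩
  simp

theorem card_X (hd : ∀ k, 1 ≤ d k) {R : Matrix ι ι K} (hR : R ∈ X hK J) : Nat.card (X hK J) =
    q ^ (I1 d).card * ∏ i : MM, Nat.card (X hK (1 : Matrix {k // d k = i} {k // d k = i} K)) := by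
  have hne := conj_ne_id hK
  obtain ⟨a, ha⟩ : ∃ a, a - conj hK a ≠ 0 := by_contra fun h =>
    hne (RingHom.ext fun a => by_contra fun H => h ⟨a, sub_ne_zero.2 (Ne.symm H)⟩)
  have hδ : conj hK (a - conj hK a) = -(a - conj hK a) := by simp [conj_conj]
  set δ := a - conj hK a
  obtain ⟨c, hc⟩ := Kind.exists_trace_eq _ (conj_conj hK) hne 1 (map_one _)
  obtain ⟨⟨h1, -⟩, h0⟩ := hR
  rw [ct_J] at h1
  have cc : ∀ {κ : Type} (A : Matrix κ κ K), ct hK (ct hK A) = A := fun A => by ext; simp [ct, conj_conj]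
  have ca : ∀ {κ : Type} (A B : Matrix κ κ K), ct hK (A + B) = ct hK A + ct hK B := fun A B => by
    ext; simp [ct]
  have cs : ∀ {κ : Type} (a : K) (B : Matrix κ κ K), ct hK (a • B) = conj hK a • ct hK B := fun A B => by
    ext; simp [ct]
  have cJ : ∀ H : Matrix ι ι K, Jᵀ * H * J = H → Jᵀ * ct hK H * J = ct hK H := fun H h => by
    conv_rhs => rw [← h, ct_mul, ct_mul, ← ct_J hK, cc]
    rw [ct_J, Matrix.mul_assoc]
  have mu : ∀ A : Matrix ι ι K, Jᵀ * (R * A) * J = R * A ↔ A * J = J * A := fun A => by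
    conv_lhs => rhs; rw [← h1]
    have hJ : IsUnit (Jᵀ * R) := (isUnit_iff_isUnit_det _).2 (Ne.isUnit fun e => h0 (by
      rw [← h1, det_mul, e, zero_mul]))
    rw [← Matrix.mul_assoc, Matrix.mul_assoc, Matrix.mul_assoc (Jᵀ * R), hJ.mul_right_inj]
  have dv : ∀ H : Matrix ι ι K, R * (R⁻¹ * H) = H := fun H => mul_nonsing_inv_cancel_left _ _ h0.isUnit
  let ρ : Matrix ι ι K →ₗ[K] ∀ i : MM, Matrix {k // d k = i} {k // d k = i} K :=
    { toFun H i := (T δ H).toSquareBlock d i
      map_add' A B := by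
        ext; simp only [toSquareBlock_def, T, ex, of_apply, Pi.add_apply, Matrix.add_apply]
        split_ifs <;> ring
      map_smul' A B := by
        ext; simp only [toSquareBlock_def, T, ex, of_apply, Pi.smul_apply, Matrix.smul_apply, smul_eq_mul,
          RingHom.id_apply]
        split_ifs <;> ring }
  let S : Submodule K (Matrix ι ι K) :=
    { carrier := {H | Jᵀ * H * J = H}
      add_mem' := fun h h' => by simp_all [Matrix.mul_add, Matrix.add_mul]
      zero_mem' := by simp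
      smul_mem' := fun _ _ h => by simp_all }
  let Hm : ∀ κ : Type, AddSubgroup (Matrix κ κ K) := fun κ =>
    { carrier := {H | ct hK H = H}
      add_mem' := fun h h' => by simp_all
      zero_mem' := by ext; simp [ct]
      neg_mem' := fun {x} h => by simpa [show ct hK x = x from h] using cs (-1) x }
  let f : ↥(S.toAddSubgroup ⊓ Hm _) →+ ∀ i : MM, Hm {k // d k = i} :=
    { toFun H i := ⟨ρ H i, (T_ct hK hδ hd H.2.1 i).symm.trans (by rw [show ct hK H.1 = H.1 from H.2.2]; rfl)⟩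
      map_zero' := by ext; simp
      map_add' A B := by ext; simp }
  have hf : Function.Surjective f := fun B => by
    obtain ⟨A, hA⟩ := (surj (K := K) hd).2 (0, fun i => ((T δ R).toSquareBlock d i)⁻¹ * B i)
    have e : ∀ i : MM, ρ (R * A.1) i = B i := fun i => (T_mul δ hd h1 A.2 i).trans (by
      rw [show (top A.1).toSquareBlock d i = _ from congrFun (congrArg Prod.snd hA) i,
        mul_nonsing_inv_cancel_left _ _ (T_det ha hd h1 h0 i).isUnit])
    have e' := (mu _).2 A.2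
    refine ⟨⟨c • (R * A.1) + conj hK c • ct hK (R * A.1), S.add_mem (S.smul_mem _ e')
      (S.smul_mem _ (cJ _ e')), show ct hK _ = _ by rw [ca, cs, cs, cc, conj_conj, add_comm]⟩,
      funext fun i => Subtype.ext ?_⟩
    have : ρ (ct hK (R * A.1)) i = B i := (T_ct hK hδ hd e' i).trans ((congrArg _ (e i)).trans (B i).2)
    simp [f, e, this, ← add_smul, hc]
  have k1 := card_pre f hf fun B => ∀ i, (B i).1.det ≠ 0
  have k2 : Nat.card ↥(S ⊓ LinearMap.ker ρ) = (q ^ (I1 d).card) ^ 2 := by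
    rw [← pow_mul, mul_comm, pow_mul, ← hK, ← Fintype.card_coe, ← Fintype.card_fun,
      ← Nat.card_eq_fintype_card]
    refine Nat.card_eq_of_bijective (fun H => ((Equiv.ofBijective _ (surj hd)) ⟨R⁻¹ * H.1,
      (mu _).1 (by rw [dv]; exact H.2.1)⟩).1) ⟨fun H H' e => ?_, fun x => ?_⟩
    · have k : ∀ H : ↥(S ⊓ LinearMap.ker ρ), ∀ i : MM, (top (R⁻¹ * H.1)).toSquareBlock d i = 0 :=
        fun H i => by
          have := T_mul δ hd h1 ((mu (R⁻¹ * H.1)).1 (by rw [dv]; exact H.2.1)) i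
          rw [dv, show (T δ H.1).toSquareBlock d i = 0 from congrFun H.2.2 i, eq_comm] at this
          exact ((isUnit_iff_isUnit_det _).2 (T_det ha hd h1 h0 i).isUnit).mul_right_eq_zero.1 this
      have := (surj hd).1 (Prod.ext e (funext fun i => (k H i).trans (k H' i).symm))
      exact Subtype.ext (by rw [← dv H.1, ← dv H'.1, Subtype.mk.inj this])
    · obtain ⟨A, hA⟩ := (surj (K := K) hd).2 (x, 0)
      refine ⟨⟨R * A.1, (mu _).2 A.2, funext fun i => (T_mul δ hd h1 A.2 i).trans ?_⟩, ?_⟩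
      · rw [show (top A.1).toSquareBlock d i = 0 from congrFun (congrArg Prod.snd hA) i, Matrix.mul_zero]
        rfl
      · simpa [nonsing_inv_mul_cancel_left _ _ h0.isUnit] using congrArg Prod.fst hA
  rw [card_eq_card_fix_sq (V := ↥(S ⊓ LinearMap.ker ρ)) hne (conj_conj hK)
    { toFun H := ⟨ct hK H.1, cJ _ H.2.1, funext fun i => (T_ct hK hδ hd H.2.1 i).trans (by
        rw [show (T δ H.1).toSquareBlock d i = 0 from congrFun H.2.2 i]; exact (Hm _).zero_mem)⟩
      map_zero' := Subtype.ext (Hm _).zero_mem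
      map_add' A B := Subtype.ext (ca ..) } (fun v => Subtype.ext (cc _)) (fun a v => Subtype.ext (cs ..)),
    Nat.pow_left_inj two_ne_zero] at k2
  rw [← k2, ← Nat.card_pi]
  refine Eq.trans ?_ (k1.trans (congrArg₂ _ (Eq.symm ?_) (Eq.symm ?_)))
  · refine Nat.card_congr ⟨fun H => ⟨⟨H.1, show Jᵀ * _ * J = _ from ct_J hK ▸ H.2.1.1, H.2.1.2⟩, fun i =>
      T_det ha hd (ct_J hK ▸ H.2.1.1) H.2.2 i⟩, fun H => ⟨H.1.1, ⟨(ct_J hK).symm ▸ H.1.2.1, H.1.2.2⟩, ?_⟩,
      fun _ => rfl, fun _ => rfl⟩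
    have e := (mu (R⁻¹ * H.1.1)).1 (by rw [dv]; exact H.1.2.1)
    rw [← dv H.1.1, det_mul]
    refine mul_ne_zero h0 (mt (det_iff hd e).1 ((det_top e).2 fun i => ?_))
    by_cases hi : i ∈ MM
    · have := H.2 ⟨i, hi⟩
      rw [show (f H.1 ⟨i, hi⟩).1 = _ from (congrArg (fun H => (T δ H).toSquareBlock d i)
        (dv H.1.1).symm).trans (T_mul δ hd h1 e i), det_mul] at this
      exact right_ne_zero_of_mul this
    have : IsEmpty {k // d k = i} := ⟨fun k => hi (mem_range.2 (Nat.lt_succ_of_le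
      (k.2.ge.trans (le_sup (mem_univ _)))))⟩
    simp
  · exact Nat.card_congr ⟨fun H => ⟨⟨H.1.1, H.1.2.1, congrArg Subtype.val H.2⟩,
      funext fun i => Subtype.ext (congrFun H.1.2.2 i)⟩, fun H => ⟨⟨H.1.1, H.1.2.1,
        funext fun i => congrArg Subtype.val (congrFun H.2 i)⟩, Subtype.ext H.1.2.2⟩,
      fun _ => rfl, fun _ => rfl⟩
  · exact Nat.card_congr ⟨fun B => ⟨fun i => ⟨(B i).1, (B i).2.1.2⟩, fun i => (B i).2.2⟩,
      fun B i => ⟨(B.1 i).1, ⟨by rw [ct_one, Matrix.one_mul, Matrix.mul_one], (B.1 i).2⟩, B.2 i⟩,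
      fun _ => rfl, fun _ => rfl⟩
end

/-- Order of the centraliser in the general unitary group GU_n(q) of a unipotent element of given Jordan type: if u ∈ GU_n(q) (isometries of Σ u_i v_i^q over the field with q² elements) is similar to the unipotent matrix with a_i Jordan blocks of size i (all sizes at least 1), then its centraliser in GU_n(q) has order q^γ · Π_i |GU_(a_i)(q)| with γ = 2 Σ_(i<j) i a_i a_j + Σ_i (i − 1) a_i², the same exponent as in GL_n(q), where |GU_a(q)| = q^(a(a−1)/2) Π_(k=1)^a (q^k − (−1)^k). -/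
theorem result {K : Type*} [Field K] [Fintype K] {q n t : ℕ} (hK : Fintype.card K = q ^ 2) (d : Fin t → ℕ) (hd : ∀ k, 1 ≤ d k) (e : ((k : Fin t) × Fin (d k)) ≃ Fin n) (u : ↥(Cfsg.GU n K q)) (hu : IsConj (Matrix.reindex e e (Cfsg.jordanTypeMatrix d K)) ((u : GL (Fin n) K) : Matrix (Fin n) (Fin n) K)) : (Nat.card ↥(Subgroup.centralizer ({u} : Set ↥(Cfsg.GU n K q))) : ℤ) = (q : ℤ) ^ (2 * (∑ i ∈ Finset.range (Finset.univ.sup d + 1), ∑ j ∈ Finset.range (Finset.univ.sup d + 1), if i < j then i * (Finset.univ.filter (fun k : Fin t => d k = i)).card * (Finset.univ.filter (fun k : Fin t => d k = j)).card else 0) + ∑ i ∈ Finset.range (Finset.univ.sup d + 1), (i - 1) * (Finset.univ.filter (fun k : Fin t => d k = i)).card ^ 2) * ∏ i ∈ Finset.range (Finset.univ.sup d + 1), ((q : ℤ) ^ ((Finset.univ.filter (fun k : Fin t => d k = i)).card * ((Finset.univ.filter (fun k : Fin t => d k = i)).card - 1) / 2) * ∏ j : Fin (Finset.univ.filter (fun k : Fin t => d k = i)).card,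 ((q : ℤ) ^ ((j : ℕ) + 1) - (-1) ^ ((j : ℕ) + 1))) := by
  obtain ⟨c, hc⟩ := hu
  have h0 : (jordanTypeMatrix d K).det ≠ 0 := fun e0 => by
    have := congrArg Matrix.det hc.eq
    rw [Matrix.det_mul, Matrix.det_mul, Matrix.det_reindex_self, e0, mul_zero, eq_comm, mul_eq_zero] at this
    exact this.elim u.1.det_ne_zero (Matrix.GeneralLinearGroup.det_ne_zero c)
  obtain ⟨⟨R, hR⟩, h1⟩ := orb hK (Matrix.GeneralLinearGroup.mkOfDetNeZero _ h0) (CA.CForm.hermStd_nondeg hK n)
    (CA.CForm.guEquiv hK n u) ((CA.Rcf.isConj_matrix_iff.1 ⟨c, hc⟩).symm.trans (CA.Rcf.sim_reindex e _))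
  have h2 := fun i : Finset.range (Finset.univ.sup d + 1) => (orb hK (1 : GL {k // d k = i} K)
    (CA.CForm.hermStd_nondeg hK _) 1 ⟨LinearEquiv.funCongrLeft K K (Fintype.equivFin _), by simp⟩).2
  have h3 := S2581.card_eq (F := K) hd
  have h4 := card_X hK hd hR
  simp only [Matrix.GeneralLinearGroup.val_mkOfDetNeZero, ← CA.CForm.card_centralizer_congr] at h1
  simp only [Units.val_one, mul_one, one_mul, Nat.card_congr (Equiv.subtypeUnivEquiv fun _ => trivial),
    Subgroup.centralizer_eq_top_iff_subset.2 (Set.singleton_subset_iff.2 (one_mem _)),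
    Subgroup.card_top] at h2
  have h5 : 0 < ∏ i : Finset.range (Finset.univ.sup d + 1),
      Nat.card (X hK (1 : Matrix {k // d k = i} {k // d k = i} K)) :=
    Finset.prod_pos fun i _ => Nat.pos_of_mul_pos_right (h2 i ▸ Nat.card_pos)
  have hq : 0 < q := Nat.pos_of_ne_zero fun e => Fintype.card_ne_zero (α := K) (by simp [hK, e])
  rw [h1, h4, Nat.card_prod, Nat.card_fun, Nat.card_pi, Nat.card_eq_fintype_card (α := K), hK,
    Finset.prod_congr rfl fun i _ => h2 i, Finset.prod_mul_distrib, Nat.card_eq_fintype_card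
    (α := S2581.I1 d), Fintype.card_coe, sq, mul_pow, mul_assoc, mul_assoc,
    Nat.mul_right_inj (by positivity), mul_left_comm, Nat.mul_right_inj h5.ne'] at h3
  rw [h3, S2581.card_I1 hd fun _ => rfl, ← Finset.prod_coe_sort (Finset.range _)]
  push_cast
  congr 1
  refine Finset.prod_congr rfl fun i _ => ?_
  rw [CA.CForm.herm_card_isom hK _ (CA.CForm.hermStd_nondeg hK _) (Module.finrank_fin_fun K),
    Fintype.card_subtype, ← Fin.prod_univ_eq_prod_range]
  push_cast
  congr 1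
  refine Finset.prod_congr rfl fun j _ => ?_
  split_ifs with h
  · simp [pow_succ, h.neg_one_pow]
  · rw [Nat.cast_sub (Nat.one_le_pow _ _ hq)]
    simp [pow_succ, (Nat.not_even_iff_odd.1 h).neg_one_pow]

end Cfsg.Agent.S2646
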