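import Cfsg.Statements.S2653
import Cfsg.Agent.Lib.Perm.H4Alt6
import Mathlib.Algebra.CharP.Algebra

set_option autoImplicit false
open scoped MatrixGroups
open Cfsg

namespace Cfsg.Agent.S2653


/-- Alternating sections of finite linear groups. Let `F` be a finite field of characteristic `p` and `n` a natural number, and suppose some subgroup `H` of GL_n(F) has a normal subgroup `K` with `H ⧸ K` isomorphic to the alternating group of degree `r ≥ 9`. Then `n ≥ r - 2` when `p` divides `r`, and `n ≥ r - 1` otherwise (the smallest degree of a nontrivial projective representation of that alternating group in characteristic `p`). The same bound follows for every classical group with natural module of dimension `n` over `F`, since each is a section of a subgroup of GL_n(F). -/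
theorem result {F : Type*} [Field F] [Fintype F] (p : ℕ) [Fact p.Prime] [CharP F p]
    (n : ℕ) (r : ℕ) (H : Subgroup (GL (Fin n) F)) (K : Subgroup ↥H) [K.Normal]
    (h : Nonempty (↥H ⧸ K ≃* ↥(alternatingGroup (Fin r)))) (hr : 9 ≤ r) :
    r - 1 - (if p ∣ r then 1 else 0) ≤ n := by
  obtain ⟨e⟩ := h
  letI := ZMod.algebra F p
  haveI : Algebra.IsAlgebraic (ZMod p) F := Algebra.IsAlgebraic.of_finite _ _
  let φ : F →ₐ[ZMod p] AlgebraicClosure (ZMod p) := IsAlgClosed.lift
  obtain ⟨ψ, hψ⟩ := CA.H4Alt.base φ.toRingHom n
  have key := CA.H4Alt.main hr _ H rfl (e.toMonoidHom.comp (QuotientGroup.mk' K))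
    (e.surjective.comp (QuotientGroup.mk'_surjective K)) (AlgebraicClosure (ZMod p))
    (Fin n → AlgebraicClosure (ZMod p)) (ψ.comp ((Units.coeHom _).comp H.subtype)) (fun x hx => by
      have h1 : x = 1 := Subtype.ext (Units.ext (hψ (hx.trans (map_one ψ).symm)))
      rw [h1]; exact one_mem _)
  rw [Module.finrank_fin_fun] at key
  rcases key with key | ⟨key, h2⟩
  · omega
  · rw [if_pos ((CharP.cast_eq_zero_iff _ p r).mp h2)]; omega

end Cfsg.Agent.S2653
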