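import Cfsg.Statements.S2656
import Cfsg.Agent.Lib.Perm.E6SecB
import Cfsg.Agent.Lib.Lie.E6SecK
import Cfsg.Agent.Lib.Lie.E6SecA

set_option autoImplicit false
open scoped MatrixGroups
open Cfsg

namespace Cfsg.Agent.S2656

open CA.E6Sec in
/-- the bound for any group embedded in `E₆(F)` -/
theorem main {F : Type*} [Field F] [Fintype F] (p : ℕ) [hp : Fact p.Prime] [CharP F p] {G : Type*} [Group G]
    (e : G →* Cfsg.Lie.chevE6.group F) (he : Function.Injective e) (r : ℕ) (K : Subgroup G) [K.Normal]
    (h : Nonempty (G ⧸ K ≃* alternatingGroup (Fin r))) : r ≤ 11 + (if p = 2 ∨ p = 3 ∨ p = 5 then 1 else 0) := by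
  split_ifs with hc
  · exact le12' p (by omega) e he r K h
  · by_contra hr
    have h2 := hp.out.two_le
    have hF : 3 ≤ Fintype.card F := by
      obtain ⟨a, -, ha⟩ := FiniteField.card F p
      rw [ha]
      exact (show 3 ≤ p by omega).trans (Nat.le_self_pow a.ne_zero p)
    obtain ⟨Γ, _, _, π, ρ, f, h1, h3, h4, h5⟩ := glue' p hF r (by omega) e he K h
    have key : ∀ q : ℕ, q.Prime → q ≠ p → ((q : ℕ) : AlgebraicClosure (ZMod p)) ≠ 0 := fun q hq hn e =>
      hn ((Nat.prime_dvd_prime_iff_eq hp.out hq).1 ((CharP.cast_eq_zero_iff _ p q).1 e)).symm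
    exact no12 ρ h1 (by exact_mod_cast key 2 Nat.prime_two (by omega)) (by exact_mod_cast key 3 Nat.prime_three (by omega))
      (by rw [Module.finrank_fintype_fun_eq_card]; rfl) h3 f h4 h5

/-- Alternating sections of the groups of type E₆. Let `F` be a finite field of characteristic `p` and let `G` be the Chevalley group of type E₆ over `F`. If some subgroup of `G` has a quotient isomorphic to the alternating group of degree `r`, then `r ≤ 12`, and `r ≤ 11` unless the characteristic is 2, 3 or 5. (Only an upper bound is asserted; characteristic 3 is admitted among the exceptions because the alternating group of degree 12 embeds in a ten-dimensional orthogonal group over the field with 3 elements.) -/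
theorem result {F : Type*} [Field F] [Fintype F] (p : ℕ) [Fact p.Prime] [CharP F p]
    (r : ℕ) (H : Subgroup ↥(Cfsg.Lie.chevE6.group F)) (K : Subgroup ↥H) [K.Normal]
    (h : Nonempty (↥H ⧸ K ≃* ↥(alternatingGroup (Fin r)))) :
    r ≤ 11 + (if p = 2 ∨ p = 3 ∨ p = 5 then 1 else 0) := by
  exact main p H.subtype H.subtype_injective r K h

end Cfsg.Agent.S2656
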