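import Cfsg.Statements.S2657
import Cfsg.Agent.Lib.Lie.H23Sec2

set_option autoImplicit false
open scoped MatrixGroups
open Cfsg

namespace Cfsg.Agent.S2657

open CA.Chev CA.H23Sec Cfsg.Lie

/-- Alternating sections of the groups of type F₄. Let `F` be a finite field of characteristic `p` and let `G` be the Chevalley group of type F₄ over `F`. If some subgroup of `G` has a quotient isomorphic to the alternating group of degree `r`, then `r` is at most 10, or 11 in characteristic 11. (Only an upper bound is asserted.) -/
theorem result {F : Type*} [Field F] [Fintype F] (p : ℕ) [Fact p.Prime] [CharP F p]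
    (r : ℕ) (H : Subgroup ↥(Cfsg.Lie.chevF4.group F)) (K : Subgroup ↥H) [K.Normal]
    (h : Nonempty (↥H ⧸ K ≃* ↥(alternatingGroup (Fin r)))) :
    r ≤ 10 + (if p = 11 then 1 else 0) := by
  have k : ∀ (n l : ℕ) [NeZero n], l.Coprime p → l.totient ∣ n → l ∣ Nat.card (FiniteField.Extension F p n) - 1 := by
    rintro _ l _ h1 ⟨k, rfl⟩
    obtain ⟨a, -, ha⟩ := FiniteField.card F p
    refine (Nat.modEq_iff_dvd' Nat.card_pos).1 (Nat.ModEq.symm ?_)
    rw [FiniteField.natCard_extension, Nat.card_eq_fintype_card, ha, pow_mul]
    simpa using (Nat.ModEq.pow_totient (h1.symm.pow_left a)).pow k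
  split_ifs with h1
  · obtain ⟨j, hj, -⟩ := exists_field (D := chevF4) (algebraMap F (FiniteField.Extension F p 12))
    subst h1
    exact ((two_F4 adjG_G (Sys.r3_of_inj _ adjG_θ_injective) (k 12 5 (by decide) (by decide))
      (k 12 7 (by decide) (by decide))).inj (j.comp H.subtype) (hj.comp H.subtype_injective)).le h
  · obtain ⟨j, hj, -⟩ := exists_field (D := chevF4) (algebraMap F (FiniteField.Extension F p 10))
    haveI := Fact.mk Nat.prime_eleven
    exact ((pr_F4 adjG_G (Sys.r3_of_inj _ adjG_θ_injective) (k 10 11 ((Nat.coprime_primes Nat.prime_eleven Fact.out).2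
      (Ne.symm h1)) (by decide)) (by decide)).inj (j.comp H.subtype) (hj.comp H.subtype_injective)).le11 h

end Cfsg.Agent.S2657
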