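import Cfsg.Statements.S2658
import Cfsg.Agent.Lib.Lie.H23Sec2

set_option autoImplicit false
open scoped MatrixGroups
open Cfsg

namespace Cfsg.Agent.S2658

open CA.Chev CA.H23Sec Cfsg.Lie

/-- Alternating sections of the groups of type G₂. Let `F` be a finite field of characteristic `p` and let `G` be the Chevalley group of type G₂ over `F`. If some subgroup of `G` has a quotient isomorphic to the alternating group of degree `r`, then `r` is at most 6, or 7 in characteristic 5. (Only an upper bound is asserted.) -/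
theorem result {F : Type*} [Field F] [Fintype F] (p : ℕ) [Fact p.Prime] [CharP F p]
    (r : ℕ) (H : Subgroup ↥(Cfsg.Lie.chevG2.group F)) (K : Subgroup ↥H) [K.Normal]
    (h : Nonempty (↥H ⧸ K ≃* ↥(alternatingGroup (Fin r)))) :
    r ≤ 6 + (if p = 5 then 1 else 0) := by
  obtain ⟨a, -, ha⟩ := FiniteField.card F p
  have hp : IsPrimePow (p ^ (a : ℕ)) := (Fact.out : p.Prime).isPrimePow.pow a.ne_zero
  haveI := Fintype.ofFinite (FiniteField.Extension F p 12)
  obtain ⟨β, h4, h5, -, h6⟩ := exists_tD4 (K := FiniteField.Extension F p 12) (hp.pow four_ne_zero) (by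
    rw [← Nat.card_eq_fintype_card, FiniteField.natCard_extension, Nat.card_eq_fintype_card, ha, ← pow_mul _ 4])
  obtain ⟨j, hj⟩ := emb_D4 (algebraMap F (FiniteField.Extension F p 12)) (α := RingHom.id F) (α' := β) fun t => by
    rw [h4, ← map_pow, ← ha, FiniteField.pow_card_pow]; rfl
  obtain ⟨e⟩ := fix_D4 (K := F)
  have e' : (tD4 (RingHom.id F)).F ≤ (tD4 (RingHom.id F)).G1 := fun g hg =>
    Twist.F_le_G1' _ (TD4.node fun _ => rfl) adjG_θ_injective (d := 3)
      (Twist.σT_iter _ (fun _ _ => rfl) (by decide +kernel : ∀ i, ιD4a^[3] i = i))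
      (by rw [card_ker_D4]; exact (Nat.Coprime.coprime_dvd_right (Nat.gcd_dvd_left _ _) (by norm_num)).pow_right _)
      (by rw [adjG_G]; trivial) hg
  exact le_D4 h4 h5 p a a.2 rfl h6 (j.comp ((Subgroup.inclusion e').comp (e.symm.toMonoidHom.comp H.subtype)))
    (hj.comp ((Subgroup.inclusion_injective e').comp (e.symm.injective.comp H.subtype_injective))) h

end Cfsg.Agent.S2658
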