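import Cfsg.Statements.S2660
import Cfsg.Agent.Lib.Lie.H23Sec2

set_option autoImplicit false
open scoped MatrixGroups
open Cfsg

namespace Cfsg.Agent.S2660

open CA.Chev CA.H23Sec Cfsg.Lie

/-- Alternating sections of the triality-twisted groups ³D₄. Let `q = p^a` be a prime power and `K` a field with `q³` elements, and let `G` be the twisted group ³D₄(q) realised over `K`. If some subgroup of `G` has a quotient isomorphic to the alternating group of degree `r`, then `r` is at most 6, or 7 in characteristic 5. (Only an upper bound is asserted.) -/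
theorem result {K : Type*} [Field K] [Fintype K] (p a : ℕ) [Fact p.Prime] [CharP K p]
    (ha : 1 ≤ a) (hK : Fintype.card K = (p ^ a) ^ 3) (r : ℕ) (H : Subgroup ↥(Cfsg.Lie.twistedD4 K (p ^ a))) (N : Subgroup ↥H) [N.Normal]
    (h : Nonempty (↥H ⧸ N ≃* ↥(alternatingGroup (Fin r)))) :
    r ≤ 6 + (if p = 5 then 1 else 0) := by
  have hp : IsPrimePow (p ^ a) := (Fact.out : p.Prime).isPrimePow.pow (by omega)
  obtain ⟨α, h1, h2, -, h3⟩ := exists_tD4 hp hK
  haveI := Fintype.ofFinite (FiniteField.Extension K p 4)
  obtain ⟨β, h4, h5, -, h6⟩ := exists_tD4 (K := FiniteField.Extension K p 4) (hp.pow four_ne_zero) (by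
    rw [← Nat.card_eq_fintype_card, FiniteField.natCard_extension, h3, pow_right_comm])
  obtain ⟨j, hj⟩ := emb_D4 (algebraMap K (FiniteField.Extension K p 4)) (α := α) (α' := β) fun t => by
    rw [h4, ← map_pow, h1, pow_succ, pow_mul, ← hK, FiniteField.pow_card]
  have R := TD4.real h1 h2
  exact le_D4 h4 h5 p a ha rfl h6 (j.comp ((R.e.codRestrict _ fun g => R.e_range.le ⟨g, rfl⟩).comp H.subtype))
    (hj.comp fun x y e => Subtype.ext (R.e_inj (congrArg Subtype.val e))) h

end Cfsg.Agent.S2660
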