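import Cfsg.Statements.S2661
import Cfsg.Agent.Lib.Lie.ChevTwF4

set_option autoImplicit false
open scoped MatrixGroups
open Cfsg

namespace Cfsg.Agent.S2661

open CA.Chev Cfsg.Lie Equiv

/-- normalisers of `7`-subgroups act through groups of exponent dividing `16` -/
def Pr (G : Type*) [Group G] : Prop :=
  ∀ P : Subgroup G, IsPGroup 7 P → ∀ g, (∀ h ∈ P, g * h * g⁻¹ ∈ P) → ∀ h ∈ P, g ^ 16 * h * (g ^ 16)⁻¹ = h

theorem conj_eq {D : ChevalleyDatum} [Good D] {K Γ : Type*} [Field K] [Group Γ] (A : Sys D K Γ) {u m u' h : Γ}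
    {w : Perm (Rt D)} (hu : u ∈ A.U) (hm : m ∈ A.N) (hw : A.Act m w) (hu' : u' ∈ A.X (invs w)) (hh : h ∈ A.H)
    (h1 : u * m * u' * h * (u * m * u')⁻¹ ∈ A.H) : u * m * u' * h * (u * m * u')⁻¹ = m * h * m⁻¹ := by
  have h2 := (A.canon_unique (mul_mem (A.U_le_B hu) (A.H_le_B (A.conj_H hm hh))) (mul_mem (A.H_le_B h1) (A.U_le_B hu)) hw
    (A.H_conj_X' hh hu') hu' (by group)).1
  exact (A.UH_unique hu (A.H_conj_X h1 hu) (A.conj_H hm hh) h1 (h2.trans (by group))).2.symm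

theorem pr_F4 {K : Type*} [Field K] [Fintype K] {m : ℕ} (hK : Fintype.card K = 2 ^ (2 * m + 1)) :
    Pr (twistedF4 K (2 ^ m)) := by
  obtain ⟨_, θ, h1, hθ, hq⟩ := exists_theta 2 hK
  have R := TF4.real h1 hθ
  haveI := Fact.mk Nat.prime_seven
  intro P hP g hg h hh
  have hi : ¬7 ∣ ((adjG chevF4 K).H.comap R.e).index := by
    have h2 := ((adjG chevF4 K).H.subgroupOf (tF4 θ).G1).card_mul_index
    rw [← Subgroup.inf_subgroupOf_right, Nat.card_congr (Subgroup.subgroupOfEquivOfLe inf_le_right).toEquiv,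
      TF4.card_H hθ, TF4.card_G hθ, Subgroup.inf_subgroupOf_right] at h2
    rw [Subgroup.index_comap, R.e_range, Subgroup.relIndex]
    have h3 : Nat.card K % 7 = 1 ∨ Nat.card K % 7 = 2 ∨ Nat.card K % 7 = 4 := by
      rw [hq]; generalize 2 * m + 1 = n
      induction n with
      | zero => simp
      | succ n ih => rw [pow_succ]; omega
    have h4 : 1 < Nat.card K := Finite.one_lt_card
    generalize Nat.card K = q at h2 h3 h4
    obtain ⟨q, rfl⟩ := Nat.exists_eq_add_of_lt h4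
    rw [show (1 + q + 1) ^ 4 - 1 = (1 + q + 1 - 1) * ((1 + q + 1 + 1) * ((1 + q + 1) ^ 2 + 1)) from
      Nat.sub_eq_of_eq_add (by simp only [Nat.add_sub_cancel]; ring)] at h2
    rw [Nat.eq_of_mul_eq_mul_left (by simp) (h2.trans (show _ = (1 + q + 1 - 1) ^ 2 * ((1 + q + 1) ^ 12 *
      ((1 + q + 1) ^ 3 + 1) * ((1 + q + 1 + 1) * ((1 + q + 1) ^ 2 + 1)) * ((1 + q + 1) ^ 6 + 1)) by ring))]
    generalize 1 + q + 1 = q at h3
    rw [Nat.dvd_iff_mod_eq_zero]
    rcases h3 with h3 | h3 | h3 <;> simp [Nat.mul_mod, Nat.add_mod, Nat.pow_mod, h3]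
  obtain ⟨c, hc⟩ := hP.nonempty_fixed_point_of_prime_not_dvd_card (_ ⧸ (adjG chevF4 K).H.comap R.e) hi
  obtain ⟨c, rfl⟩ := QuotientGroup.mk_surjective c
  have h2 : ∀ x ∈ P, R.e (c⁻¹ * x * c) ∈ (adjG chevF4 K).H := fun x hx => by
    have := QuotientGroup.eq.1 (hc ⟨x, hx⟩).symm
    rwa [mul_assoc]
  have h3 : R.e (c⁻¹ * g * c) ∈ (tF4 θ).G1 := R.e_range.le ⟨_, rfl⟩
  obtain ⟨u, hu, n, hn, w, hw, h4, u', hu', e⟩ := (tF4 θ).bruhat_fix ((tF4 θ).G1_le_G h3) ((tF4 θ).G1_le_F h3)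
  have h5 : ∀ k : ℕ, ∀ x ∈ P, R.e (c⁻¹ * (g ^ k * x * (g ^ k)⁻¹) * c) = n ^ k * R.e (c⁻¹ * x * c) * (n ^ k)⁻¹ := by
    intro k
    induction k with
    | zero => simp
    | succ k ih =>
      intro x hx
      have h6 : R.e (c⁻¹ * (g * x * g⁻¹) * c) = u * n * u' * R.e (c⁻¹ * x * c) * (u * n * u')⁻¹ := by
        rw [← e, ← map_inv, ← map_mul, ← map_mul]; congr 1; group
      rw [show g ^ (k + 1) * x * (g ^ (k + 1))⁻¹ = g ^ k * (g * x * g⁻¹) * (g ^ k)⁻¹ by group, ih _ (hg x hx), h6,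
        conj_eq _ hu.1 hn.1 h4 hu'.1 (h2 x hx) (h6 ▸ h2 _ (hg x hx))]
      group
  have h6 : n ^ 16 ∈ (adjG chevF4 K).H := by
    obtain ⟨f, -⟩ := TF4.exists_dihedral hθ
    have h7 : ∀ k : ℕ, (adjG chevF4 K).Act (n ^ k) (w ^ k) := fun k => by
      induction k with
      | zero => simpa using Sys0.Act.one
      | succ k ih => rw [pow_succ, pow_succ]; exact ih.mul h4
    have h8 : (⟨w, hw⟩ : W1 (tF4 θ).ρ) ^ 16 = 1 := by
      rw [← pow_card_eq_one', ← Nat.card_congr f.toEquiv, DihedralGroup.nat_card]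
    exact (adjG chevF4 K).mem_H_of_act (pow_mem hn.1 _) (by
      rw [← show w ^ 16 = 1 from congrArg Subtype.val h8]; exact h7 16)
  have h7 := h5 16 h hh
  rw [Sys0.H_comm_of_inj _ adjG_θ_injective _ h6 _ (h2 h hh), mul_inv_cancel_right] at h7
  simpa using R.e_inj h7

theorem Pr.sub {G : Type*} [Group G] (h : Pr G) (H : Subgroup G) : Pr H := fun P hP g hg x hx =>
  Subtype.ext (h _ (hP.map H.subtype) g (by rintro _ ⟨y, hy, rfl⟩; exact ⟨_, hg y hy, rfl⟩) x ⟨x, hx, rfl⟩)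

theorem Pr.false {G Q : Type*} [Group G] [Finite G] [Group Q] (h : Pr G) (φ : G →* Q) (hφ : Function.Surjective φ)
    {x y : Q} (h7 : x ^ 7 = 1) (h1 : x ≠ 1) (hy : y * x * y⁻¹ = x ^ 2) : False := by
  haveI := Fact.mk Nat.prime_seven
  have ho := orderOf_eq_prime h7 h1
  obtain ⟨y, rfl⟩ := hφ y
  have hp : ∀ k : ℕ, x ^ (7 * k + 1) = x := fun k => by rw [pow_succ, pow_mul, h7, one_pow, one_mul]
  have hn : y ∈ Subgroup.normalizer (((Subgroup.zpowers x).comap φ : Subgroup G) : Set G) := by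
    refine Subgroup.mem_normalizer_fintype (fun g hg => ?_)
    obtain ⟨k, hk⟩ := (hg : φ g ∈ Subgroup.zpowers x)
    change φ _ ∈ Subgroup.zpowers x
    rw [map_mul, map_mul, map_inv, ← hk, ← conj_zpow, hy]
    exact zpow_mem (pow_mem (Subgroup.mem_zpowers x) _) _
  obtain ⟨S⟩ : Nonempty (Sylow 7 ((Subgroup.zpowers x).comap φ)) := inferInstance
  obtain ⟨n, hS⟩ := MulAction.exists_smul_eq ((Subgroup.zpowers x).comap φ)
    (((Subgroup.zpowers x).comap φ).normalizerMonoidHom ⟨y, hn⟩ • S) S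
  have hs : Function.Surjective (φ.subgroupComap (Subgroup.zpowers x)) := φ.subgroupComap_surjective_of_surjective _ hφ
  haveI := Finite.of_surjective φ hφ
  obtain ⟨a, ha, e⟩ : (⟨x, Subgroup.mem_zpowers x⟩ : Subgroup.zpowers x) ∈ (S.mapSurjective hs).1 := by
    rw [(S.mapSurjective hs).is_maximal' ((IsPGroup.of_card (n := 1) (by rw [Nat.card_zpowers, ho, pow_one])).to_subgroup ⊤)
      le_top |>.symm]
    trivial
  replace e : φ a = x := congrArg Subtype.val e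
  have h2 := congrArg φ (h _ (S.2.map (Subgroup.subtype _)) (n * y) (by
    rintro _ ⟨b, hb, rfl⟩
    refine ⟨MulAut.conj n (((Subgroup.zpowers x).comap φ).normalizerMonoidHom ⟨y, hn⟩ b), ?_, ?_⟩
    · rw [← hS]
      exact Subgroup.smul_mem_pointwise_smul _ _ _ (Subgroup.smul_mem_pointwise_smul _ _ _ hb)
    · change n.1 * (y * b.1 * y⁻¹) * n.1⁻¹ = n.1 * y * b.1 * _
      group) a ⟨a, ha, rfl⟩)
  have h3 : ∀ k : ℕ, φ (n * y) ^ k * x * (φ (n * y) ^ k)⁻¹ = x ^ 2 ^ k := fun k => by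
    induction k with
    | zero => simp
    | succ k ih =>
      obtain ⟨j, hj⟩ := (n.2 : φ n ∈ Subgroup.zpowers x)
      have : φ (n * y) * x * (φ (n * y))⁻¹ = x ^ 2 := by
        rw [map_mul, ← hj, show x ^ j * φ y * x * (x ^ j * φ y)⁻¹ = x ^ j * (φ y * x * (φ y)⁻¹) * (x ^ j)⁻¹ by group, hy]
        group
      rw [pow_succ, mul_inv_rev, mul_assoc, mul_assoc, ← mul_assoc x, ← mul_assoc (φ _), ← mul_assoc (φ _), this,
        ← mul_assoc, ← conj_pow, ih, ← pow_mul, pow_succ]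
  rw [map_mul, map_mul, map_inv, map_pow, e, h3, show 2 ^ 16 = 7 * 9362 + 1 + 1 by norm_num, pow_succ, hp] at h2
  exact h1 (by simpa using h2)

/-- Alternating sections of the large Ree groups ²F₄. Let `m ≥ 1`, let `K` be a field with `2^(2m+1)` elements and let `G` be the large Ree group ²F₄(2^(2m+1)) realised over `K`. If some subgroup of `G` has a quotient isomorphic to the alternating group of degree `r`, then `r ≤ 6`. (Only an upper bound is asserted.) -/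
theorem result {K : Type*} [Field K] [Fintype K] {m : ℕ} (hm : 1 ≤ m)
    (hK : Fintype.card K = 2 ^ (2 * m + 1)) (r : ℕ) (H : Subgroup ↥(Cfsg.Lie.twistedF4 K (2 ^ m))) (N : Subgroup ↥H) [N.Normal]
    (h : Nonempty (↥H ⧸ N ≃* ↥(alternatingGroup (Fin r)))) :
    r ≤ 6 := by
  by_contra hr
  obtain ⟨e⟩ := h
  let j : Perm (Fin 7) →* Perm (Fin r) := Perm.viaEmbeddingHom (Fin.castLEEmb (by omega))
  have hj : Function.Injective j := Perm.viaEmbeddingHom_injective _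
  have hs : ∀ (x : Perm (Fin 7)) (k : ℕ), x ^ (2 * k + 1) = 1 → j x ∈ alternatingGroup (Fin r) := fun x k h => by
    have := congrArg Perm.sign (congrArg j h)
    rwa [map_pow, map_pow, map_one, map_one, pow_succ, pow_mul, Int.units_sq, one_pow, one_mul] at this
  let y : Perm (Fin 7) := ⟨![0, 2, 4, 6, 1, 3, 5], ![0, 4, 1, 5, 2, 6, 3], by decide, by decide⟩
  refine ((pr_F4 hK).sub H).false (e.toMonoidHom.comp (QuotientGroup.mk' N))
    (e.surjective.comp (QuotientGroup.mk'_surjective N)) (x := ⟨_, hs (finRotate 7) 3 (by decide)⟩)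
    (y := ⟨_, hs y 1 (by decide)⟩) (Subtype.ext ?_) (fun h => ?_) (Subtype.ext ?_)
  · change j _ ^ 7 = 1
    rw [← map_pow, show finRotate 7 ^ 7 = 1 by decide, map_one]
  · exact absurd (hj ((congrArg Subtype.val h).trans (map_one j).symm)) (by decide)
  · change j _ * j _ * (j _)⁻¹ = j _ ^ 2
    rw [← map_pow, ← map_inv, ← map_mul, ← map_mul]
    exact congrArg j (by decide)

end Cfsg.Agent.S2661
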