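import Cfsg.Statements.S2665

set_option autoImplicit false
open scoped MatrixGroups
open Cfsg

namespace Cfsg.Agent.S2665

open Polynomial Finset

section
variable {K V : Type*} [Field K] [IsAlgClosed K] [AddCommGroup V] [Module K V] [FiniteDimensional K V] {q : ℕ}

theorem exists_fixed (hq : 2 ≤ q) (W : Submodule K V) {T : V →+ V} (hT : ∀ (c : K) v, T (c • v) = c ^ q • T v)
    (hW : ∀ v, T v ∈ W ↔ v ∈ W) {v : V} (hv : v ∉ W) : ∃ w, w ∉ W ∧ T w - w ∈ W := by
  classical
  have ex : ∃ m, ∃ a : ℕ → K, T^[m] v - ∑ i ∈ range m, a i • T^[i] v ∈ W := by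
    obtain ⟨m, hm⟩ := monotone_stabilizes_iff_noetherian.2 (inferInstanceAs (IsNoetherian K V))
      ⟨fun m => Submodule.span K ((fun i => T^[i] v) '' (range m : Finset ℕ)), fun a b h =>
        Submodule.span_mono (Set.image_mono (by simpa using h))⟩
    obtain ⟨a, ha⟩ := (Submodule.mem_span_image_finset_iff_exists_fun' K).1
      ((hm (m + 1) (by omega)).ge (Submodule.subset_span ⟨m, by simp, rfl⟩))
    exact ⟨m, a, by rw [ha, sub_self]; exact W.zero_mem⟩
  obtain ⟨a, ha⟩ := Nat.find_spec ex
  have mn := fun m => Nat.find_min ex (m := m)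
  generalize Nat.find ex = m at ha mn
  let Q : ℕ → K[X] := fun n => Nat.rec 0 (fun i P => X ^ (q - 1) * P ^ q + C (a i)) n
  have Q1 : ∀ i, Q (i + 1) = X ^ (q - 1) * Q i ^ q + C (a i) := fun _ => rfl
  have k : ∀ n, Q n = 0 → ∀ i ∈ range n, a i = 0 := fun n => by
    induction n with
    | zero => simp
    | succ n ih =>
      intro h i hi
      have h1 : a n = 0 := by
        simpa [Q1, zero_pow (show q - 1 ≠ 0 by omega)] using congrArg (eval 0) h
      rw [Q1, h1, C_0, add_zero, mul_eq_zero, pow_eq_zero_iff (by omega), pow_eq_zero_iff (by omega)] at h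
      rcases Nat.lt_succ_iff_lt_or_eq.1 (mem_range.1 hi) with hi | rfl
      exacts [ih (h.resolve_left X_ne_zero) i (mem_range.2 hi), h1]
  have n0 : Q m ≠ 0 := fun h => by
    rw [sum_eq_zero fun i hi => by rw [k m h i hi, zero_smul], sub_zero] at ha
    clear mn h k
    induction m with
    | zero => exact hv ha
    | succ m ih => exact ih ((hW _).1 (by rwa [Function.iterate_succ_apply'] at ha))
  obtain ⟨z, hz⟩ := IsAlgClosed.eval_surjective (p := X ^ (q - 1) * Q m ^ q) (by
    rw [natDegree_mul (pow_ne_zero _ X_ne_zero) (pow_ne_zero _ n0), natDegree_X_pow]; omega) 1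
  have e : ∀ i, (z * eval z (Q i)) ^ q = z * (z ^ (q - 1) * eval z (Q i) ^ q) := fun i => by
    rw [mul_pow, ← mul_assoc, ← pow_succ', Nat.sub_add_cancel (by omega)]
  simp only [eval_mul, eval_pow, eval_X] at hz
  have z0 : z ≠ 0 := fun h => by simp [h, zero_pow (show q - 1 ≠ 0 by omega)] at hz
  refine ⟨∑ i ∈ range m, (z * eval z (Q (i + 1))) • T^[i] v, fun h => ?_, ?_⟩
  · rcases m with _ | m
    · exact n0 rfl
    have c0 : z * eval z (Q (m + 1)) ≠ 0 := mul_ne_zero z0 fun h => by simp [h, zero_pow (show q ≠ 0 by omega)] at hz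
    refine mn m (Nat.lt_succ_self m) ⟨fun i => -((z * eval z (Q (m + 1)))⁻¹ * (z * eval z (Q (i + 1)))), ?_⟩
    convert W.smul_mem (z * eval z (Q (m + 1)))⁻¹ h using 1
    rw [sum_range_succ, smul_add, smul_smul, inv_mul_cancel₀ c0, one_smul, smul_sum]
    simp only [neg_smul, sum_neg_distrib, smul_smul, sub_neg_eq_add, add_comm]
  · convert W.smul_mem z ha using 1
    have : T (∑ i ∈ range m, (z * eval z (Q (i + 1))) • T^[i] v) =
        ∑ i ∈ range (m + 1), (z * eval z (Q i)) ^ q • T^[i] v := by
      rw [map_sum, sum_range_succ']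
      simp only [hT, Function.iterate_succ_apply']
      rw [show Q 0 = 0 from rfl, eval_zero, mul_zero, zero_pow (by omega), zero_smul, add_zero]
    rw [this, sum_range_succ, e m, hz, mul_one, smul_sub, smul_sum]
    simp only [e, Q1, eval_add, eval_mul, eval_pow, eval_X, eval_C, mul_add, add_smul, sum_add_distrib, smul_smul]
    abel

theorem span_top (hq : 2 ≤ q) {T : V →+ V} (hT : ∀ (c : K) v, T (c • v) = c ^ q • T v) (hi : Function.Injective T) :
    Submodule.span K {v | T v = v} = ⊤ := by
  have k1 : ∀ w ∈ Submodule.span K {v | T v = v}, T w ∈ Submodule.span K {v | T v = v} ∧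
      (∃ u ∈ Submodule.span K {v | T v = v}, T u = w) ∧ ∃ u ∈ Submodule.span K {v | T v = v}, T u - u = w := by
    intro w hw
    obtain ⟨n, c, g, rfl⟩ := Submodule.mem_span_set'.1 hw
    have m := fun (c : Fin n → K) => Submodule.sum_mem _ (t := univ) fun i _ =>
      Submodule.smul_mem _ (c i) (Submodule.subset_span (R := K) (g i).2)
    have e : ∀ c : Fin n → K, T (∑ i, c i • (g i : V)) = ∑ i, c i ^ q • (g i : V) := fun c => by
      rw [map_sum]; exact sum_congr rfl fun i _ => by rw [hT, (g i).2]
    choose r hr using fun i => IsAlgClosed.exists_pow_nat_eq (c i) (show 0 < q by omega)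
    choose s hs using fun i => IsAlgClosed.eval_surjective (p := (X ^ q - X : K[X])) (by
      rw [natDegree_sub_eq_left_of_natDegree_lt] <;> simp <;> omega) (c i)
    refine ⟨e c ▸ m _, ⟨_, m r, by simp only [e, hr]⟩, _, m s, ?_⟩
    rw [e, ← sum_sub_distrib]
    exact sum_congr rfl fun i _ => by rw [← sub_smul, ← hs i]; simp
  refine eq_top_iff.2 fun v _ => by_contra fun hv => ?_
  obtain ⟨w, h1, h2⟩ := exists_fixed hq _ hT (fun v => ⟨fun h => by
    obtain ⟨u, hu, e⟩ := (k1 _ h).2.1; exact hi e ▸ hu, fun h => (k1 v h).1⟩) hv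
  obtain ⟨u, hu, e⟩ := (k1 _ h2).2.2
  have : T (w - u) = w - u := by rw [map_sub, sub_eq_sub_iff_sub_eq_sub, e]
  exact h1 (by simpa using Submodule.add_mem _ (Submodule.subset_span (s := {v | T v = v}) this) hu)

end

/-- The Lang–Steinberg Theorem for the general linear group. Let `K` be an algebraically closed field of prime characteristic `p`, let `q = p^f` with `f ≥ 1`, and let `σ` be the endomorphism of GL_n(K) raising every matrix entry to the `q`-th power. Then every element `g` of GL_n(K) can be written `g = x · σ(x)⁻¹` for some `x` in GL_n(K): the map `x ↦ x σ(x)⁻¹` is surjective. -/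
theorem result {K : Type*} [Field K] [IsAlgClosed K] (p : ℕ) [Fact p.Prime] [CharP K p]
    (f : ℕ) (hf : 1 ≤ f) (n : ℕ) (g : GL (Fin n) K) :
    ∃ x : GL (Fin n) K, g = x * (Matrix.GeneralLinearGroup.map (iterateFrobenius K p f) x)⁻¹ := by
  have pp : p.Prime := Fact.out
  let T : (Fin n → K) →+ (Fin n → K) :=
    { toFun := fun v => g.1.mulVec fun i => iterateFrobenius K p f (v i)
      map_zero' := by simp [← Pi.zero_def]
      map_add' := fun a b => by rw [← Matrix.mulVec_add]; congr 1; ext; simp }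
  have hsp := span_top (K := K) (T := T) (q := p ^ f) (pp.two_le.trans (Nat.le_self_pow (by omega) p)) (fun c v => by
    change g.1.mulVec _ = _ • g.1.mulVec _
    rw [← Matrix.mulVec_smul]; congr 1; ext; simp [iterateFrobenius_def, mul_pow]) fun a b h =>
      funext fun i => (iterateFrobenius K p f).injective (congrFun (Matrix.mulVec_injective_iff_isUnit.2 g.isUnit h) i)
  obtain ⟨s, hs, hsp', hli⟩ := exists_linearIndependent K {v | T v = v}
  let b := Module.Basis.mk hli (by rw [Subtype.range_coe, hsp', hsp])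
  haveI : Fintype s := FiniteDimensional.fintypeBasisIndex b
  let b' := b.reindex (Fintype.equivOfCardEq ((Module.finrank_eq_card_basis b).symm.trans (Module.finrank_pi K)))
  have hb : ∀ i, T (b' i) = b' i := fun i => by
    rw [Module.Basis.reindex_apply, Module.Basis.mk_apply]; exact hs (Subtype.coe_prop _)
  haveI := (Pi.basisFun K (Fin n)).invertibleToMatrix b'
  refine ⟨unitOfInvertible ((Pi.basisFun K (Fin n)).toMatrix b'), eq_mul_inv_of_mul_eq (Units.ext ?_)⟩
  ext i j
  exact congrFun (hb j) i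

end Cfsg.Agent.S2665
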