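import Cfsg.Statements.S2669
import Cfsg.Agent.Lib.Lin.Shintani

set_option autoImplicit false
open Cfsg

namespace Cfsg.Agent.S2669

open CA.Shintani

theorem card_fib {T A C : Type*} (f : T → A) (h : ∀ a, Nonempty ({t // f t = a} ≃ C)) :
    Nat.card T = Nat.card A * Nat.card C := by
  rw [← Nat.card_prod]
  exact Nat.card_congr ((Equiv.sigmaFiberEquiv f).symm.trans
    (Equiv.sigmaEquivProdOfEquiv fun a => (h a).some))

/-- Shintani descent preserves numbers of fixed points on coset spaces (abstract form). Let `σ` be an automorphism of a group `X` and `e ≥ 1`; write `G` for the fixed points of `σᵉ` and `H` for the fixed points of `σ`, and assume `G` is finite. Let `Y` be a `σ`-stable subgroup of `X` on which the maps `a ↦ a σ(a)⁻¹` and `a ↦ a σᵉ(a)⁻¹` are surjective (as for a closed connected `σ`-stable subgroup of an algebraic group). Let `g ∈ G`, let `a ∈ X` satisfy `g = a σ(a)⁻¹` and put `x = σᵉ(a)⁻¹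 a` (the Shintani image, an element of `H`). The element `g σ` of the semidirect product acts on the cosets of `Y ∩ G` in `G` by `k (Y ∩ G) ↦ g σ(k) (Y ∩ G)`, fixing that coset exactly when `k⁻¹ g σ(k) ∈ Y`; and `x` fixes the coset `h (Y ∩ H)` of `H` exactly when `h⁻¹ x h ∈ Y`. Then the two numbers of fixed cosets agree; in cross-multiplied form, `#{k ∈ G : k⁻¹ g σ(k) ∈ Y} · |Y ∩ H| = #{h ∈ H : h⁻¹ x h ∈ Y} · |Y ∩ G|`. -/
theorem result {X : Type*} [Group X] (σ : MulAut X) (e : ℕ) (he : 1 ≤ e)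
    [Finite ↥((MulEquiv.toMonoidHom (σ ^ e)).eqLocus (MonoidHom.id X))]
    (Y : Subgroup X) (hY : ∀ y : X, y ∈ Y ↔ σ y ∈ Y)
    (hYL : ∀ y ∈ Y, ∃ a ∈ Y, y = a * (σ a)⁻¹) (hYLe : ∀ y ∈ Y, ∃ a ∈ Y, y = a * ((σ ^ e) a)⁻¹)
    (g : X) (hg : g ∈ (MulEquiv.toMonoidHom (σ ^ e)).eqLocus (MonoidHom.id X)) (a : X) (ha : g = a * (σ a)⁻¹) :
    Nat.card {k : ↥((MulEquiv.toMonoidHom (σ ^ e)).eqLocus (MonoidHom.id X)) // (k : X)⁻¹ * g * σ k ∈ Y} *
        Nat.card ↥(Y ⊓ (MulEquiv.toMonoidHom σ).eqLocus (MonoidHom.id X)) =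
      Nat.card {h : ↥((MulEquiv.toMonoidHom σ).eqLocus (MonoidHom.id X)) // (h : X)⁻¹ * (((σ ^ e) a)⁻¹ * a) * h ∈ Y} *
        Nat.card ↥(Y ⊓ (MulEquiv.toMonoidHom (σ ^ e)).eqLocus (MonoidHom.id X)) := by
  subst ha
  set G := (MulEquiv.toMonoidHom (σ ^ e)).eqLocus (MonoidHom.id X) with hG
  set H := (MulEquiv.toMonoidHom σ).eqLocus (MonoidHom.id X) with hH
  have hYe : ∀ (n : ℕ) (y : X), y ∈ Y → (σ ^ n) y ∈ Y := by
    intro n y hy
    induction n with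
    | zero => exact hy
    | succ n ih => rw [pow_succ', MulAut.mul_apply]; exact (hY _).1 ih
  let T := {p : G × H // (p.1 : X)⁻¹ * a * p.2 ∈ Y}
  let f1 : T → {k : G // (k : X)⁻¹ * (a * (σ a)⁻¹) * σ k ∈ Y} := fun t => ⟨t.1.1, by
    have h1 := t.2
    have h2 : σ t.1.2 = t.1.2 := t.1.2.2
    have h3 := Y.mul_mem h1 (Y.inv_mem ((hY _).1 h1))
    rw [map_mul, map_mul, map_inv, h2] at h3
    convert h3 using 1; group⟩
  let f2 : T → {h : H // (h : X)⁻¹ * (((σ ^ e) a)⁻¹ * a) * h ∈ Y} := fun t => ⟨t.1.2, by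
    have h1 := t.2
    have h2 : (σ ^ e) t.1.2 = t.1.2 := pow_apply_of_fix σ e t.1.2.2
    have h2' : (σ ^ e) t.1.1 = t.1.1 := t.1.1.2
    have h3 := Y.mul_mem (Y.inv_mem (hYe e _ h1)) h1
    rw [map_mul, map_mul, map_inv, h2, h2'] at h3
    convert h3 using 1; group⟩
  rw [← card_fib f1, ← card_fib f2]
  · rintro ⟨h, hh⟩
    obtain ⟨c, hc, hc2⟩ := hYLe _ (Y.inv_mem hh)
    have h2 : (σ ^ e) h = h := pow_apply_of_fix σ e h.2
    have hk : a * h * c ∈ G := by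
      rw [mem_fix, map_mul, map_mul, h2]
      calc (σ ^ e) a * h * (σ ^ e) c
          = a * h * ((h : X)⁻¹ * (((σ ^ e) a)⁻¹ * a) * h)⁻¹ * (σ ^ e) c := by group
        _ = _ := by rw [hc2]; group
    refine ⟨⟨fun t => ⟨(a * h * c)⁻¹ * t.1.1.1, ?_, G.mul_mem (G.inv_mem hk) t.1.1.1.2⟩,
      fun u => ⟨⟨(⟨a * h * c * u, G.mul_mem hk u.2.2⟩, h), ?_⟩, rfl⟩, ?_, ?_⟩⟩
    · obtain ⟨⟨⟨k, h'⟩, ht⟩, e1⟩ := t
      have e2 : h' = h := congrArg Subtype.val e1
      subst e2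
      have := Y.mul_mem (Y.inv_mem hc) (Y.inv_mem ht)
      change _ ∈ Y
      convert this using 1; simp only; group
    · have := Y.mul_mem (Y.inv_mem u.2.1) (Y.inv_mem hc)
      convert this using 1; simp only; group
    · rintro ⟨⟨⟨k, h'⟩, ht⟩, e1⟩
      have e2 : h' = h := congrArg Subtype.val e1
      subst e2
      simp [mul_assoc]
    · intro u
      simp [mul_assoc]
  · rintro ⟨k, hk⟩
    obtain ⟨y, hy, hy2⟩ := hYL _ hk
    have hh : a⁻¹ * k * y ∈ H := by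
      rw [mem_fix, ← twist_iff, ← hy2]; group
    refine ⟨⟨fun t => ⟨(a⁻¹ * k * y)⁻¹ * t.1.1.2, ?_, H.mul_mem (H.inv_mem hh) t.1.1.2.2⟩,
      fun u => ⟨⟨(k, ⟨a⁻¹ * k * y * u, H.mul_mem hh u.2.2⟩), ?_⟩, rfl⟩, ?_, ?_⟩⟩
    · obtain ⟨⟨⟨k', h⟩, ht⟩, e1⟩ := t
      have e2 : k' = k := congrArg Subtype.val e1
      subst e2
      have := Y.mul_mem (Y.inv_mem hy) ht
      change _ ∈ Y
      convert this using 1; simp only; group
    · have := Y.mul_mem hy u.2.1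
      convert this using 1; simp only; group
    · rintro ⟨⟨⟨k', h⟩, ht⟩, e1⟩
      have e2 : k' = k := congrArg Subtype.val e1
      subst e2
      simp [mul_assoc]
    · intro u
      simp [mul_assoc]

end Cfsg.Agent.S2669
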