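import Cfsg.Statements.S2671
import Cfsg.Agent.Lib.Lin.CFormConj2

set_option autoImplicit false
open Cfsg

namespace Cfsg.Agent.S2671

open CA.CForm CA.CForm.Form CA.Rcf Polynomial in
/-- Number of conjugacy classes of elements of odd prime order r in the general unitary group GU_n(q), for r not dividing q(q + 1): let i be the multiplicative order of q modulo r, b = i if i is odd and b = i/2 if i is even, and s = (r − 1)/b. If i ≢ 2 (mod 4) the eigenvalue orbits pair off into dual pairs of totally isotropic blocks and there are C(⌊n/(2b)⌋ + s/2, s/2) − 1 classes; if i ≡ 2 (mod 4) each orbit gives a non-degenerate block of dimension i/2 and there are C(⌊2n/i⌋ + s, s) − 1 classes. -/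
theorem result {K : Type*} [Field K] [Fintype K] {p q n r i b s : ℕ} [Fact p.Prime] [CharP K p] (hK : Fintype.card K = q ^ 2) (hr : r.Prime) (hr2 : r ≠ 2) (hrp : r ≠ p) (hi : i = orderOf (q : ZMod r)) (hi2 : i ≠ 2) (hb : b = if Odd i then i else i / 2) (hs : s * b = r - 1) : Nat.card {C : ConjClasses ↥(Cfsg.GU n K q) // ∃ g : ↥(Cfsg.GU n K q), ConjClasses.mk g = C ∧ orderOf g = r} = if i % 4 = 2 then Nat.choose (2 * n / i + s) s - 1 else Nat.choose (n / (2 * b) + s / 2) (s / 2) - 1 := by
  have := Fact.mk hr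
  have hr0 : (r : K) ≠ 0 := natCast_ne_zero_of_ne hrp
  have h1 := (natDegree_cycT hr0).2
  have hb0 := orderOf_card_pos hr0
  have hf := hermStd_nondeg hK n
  have h3 := fun m' hm => hf.herm_cycT_iff hr0 (m := m') hm (conj_ne_id hK)
  have hq : (Nat.card K : ZMod r) = (q : ZMod r) ^ 2 := by simp [hK]
  have h5 : orderOf (Nat.card K : ZMod r) = b := by
    rw [hq, orderOf_pow' _ two_ne_zero, ← hi, hb]
    split_ifs with h
    · rw [Nat.coprime_two_right.2 h, Nat.div_one]
    · rw [Nat.gcd_eq_right (even_iff_two_dvd.1 (Nat.not_odd_iff_even.1 h))]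
  rw [h5] at h1 hb0 h3
  have hi0 : 0 < i := by split_ifs at hb <;> omega
  obtain ⟨j, hj⟩ : ∃ j, q = p ^ j := by
    obtain ⟨j, -, h⟩ := FiniteField.card K p
    obtain ⟨k, -, h⟩ := (Nat.dvd_prime_pow Fact.out).1 (show q ∣ p ^ (j : ℕ) from
      ⟨q, by rw [← h, hK, sq]⟩)
    exact ⟨k, h⟩
  have h2 : ∀ d ∈ cycT K r, dual (conj hK) d = d ↔ i % 4 = 2 := fun d hd => by
    rw [dual_eq_self_iff (conj_conj hK) hr0 hd p (j := j) (fun a => by rw [← hj]; rfl), hq,
      ← Nat.cast_pow p, ← hj]
    have h6 : (q : ZMod r) ^ i = 1 := hi ▸ pow_orderOf_eq_one _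
    constructor
    · rintro ⟨l, hl⟩
      have h7 : (q : ZMod r) ^ (2 * l + (i - 1)) = -1 := by
        rw [pow_add, pow_mul, hl, neg_mul, ← pow_succ', Nat.sub_add_cancel hi0, h6]
      obtain ⟨c, hc⟩ := (exists_pow_eq_neg_one_iff hr2 (hi ▸ hi0)).1 ⟨_, h7⟩
      obtain ⟨e, he⟩ : orderOf (q : ZMod r) ∣ (2 * l + (i - 1)) * 2 :=
        orderOf_dvd_of_pow_eq_one (by rw [pow_mul, h7]; simp)
      rw [← hi] at hc he
      rcases Nat.even_or_odd' c with ⟨c, rfl | rfl⟩
      · have : i * e = 4 * (c * e) := by rw [hc]; ring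
        omega
      · omega
    · intro h
      refine ⟨i / 4 + 1, ?_⟩
      rw [← pow_mul, show 2 * (i / 4 + 1) = i / 2 + 1 by omega, pow_succ,
        ((mul_self_eq_one_iff (a := (q : ZMod r) ^ (i / 2))).1 (by rw [← pow_add, show i / 2 + i / 2 = i by omega, h6])).resolve_left
          (pow_ne_one_of_lt_orderOf (by omega) (by omega)), neg_one_mul]
  have h4 : ∀ g h : (hermStd hK n).Isom, orderOf g = r → orderOf h = r → IsConj g.1 h.1 → IsConj g h :=
    fun g h _ _ => hf.isConj_of_sim (tame_herm (conj_ne_id hK) _)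
  rw [Module.finrank_fin_fun] at h3
  rw [card_conjClasses_congr (guEquiv hK n) _ (orderOf · = r) fun g => by rw [MulEquiv.orderOf_eq],
    ← Nat.eq_of_mul_eq_mul_right hb0 (h1.trans hs.symm), ← sum_Icc_multichoose,
    ← sum_Icc_multichoose]
  split_ifs with h
  · exact card_classes_selfDual hr0 (Subgroup.subtype _) Subtype.val_injective h4
      (fun c => b * c ≤ n) h3 _
      (fun d hd => (h2 d hd).2 h) fun j => by
        rw [if_neg (by rw [Nat.odd_iff]; omega)] at hb
        rw [Finset.mem_Icc, Nat.le_div_iff_mul_le hi0, show i = 2 * b by omega, mul_left_comm,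
          mul_comm j]
        omega
  · exact card_classes_pairs hr0 (Subgroup.subtype _) Subtype.val_injective h4
      (fun c => b * c ≤ n) h3 _
      (conj_conj hK) (fun d hd H => h ((h2 d hd).1 H)) fun j => by
        rw [Finset.mem_Icc, Nat.le_div_iff_mul_le (by omega), mul_left_comm j, mul_left_comm b,
          mul_comm j]

end Cfsg.Agent.S2671
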