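import Cfsg.Statements.S2672
import Cfsg.Agent.Lib.Lin.PCls
import Cfsg.Agent.Lib.Lin.FieldIso

set_option autoImplicit false
open Cfsg

namespace Cfsg.Agent.S2672

open CA.CForm CA.CForm.Form CA.Rcf CA.El CA.PCls Module Polynomial in
/-- Number of conjugacy classes of elements of odd prime order r in PGU_n(q) = GU_n(q)/scalars (n ≥ 3) when r divides q + 1: as in the linear case with q − 1 replaced by q + 1, the classes correspond to the rotation orbits on r-tuples of eigenvalue multiplicities summing to n with every entry < n, plus r − 1 further classes when r divides n; in all (C(n+r−1, r−1) − r − [r ∣ n])/r + r·[r ∣ n]. -/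
theorem result {K : Type*} [Field K] [Fintype K] {q n r : ℕ} (hK : Fintype.card K = q ^ 2) (hn : 3 ≤ n) (hr : r.Prime) (hr2 : r ≠ 2) (hrq : r ∣ q + 1) : Nat.card {C : ConjClasses (↥(Cfsg.GU n K q) ⧸ Subgroup.center ↥(Cfsg.GU n K q)) // ∃ g : ↥(Cfsg.GU n K q) ⧸ Subgroup.center ↥(Cfsg.GU n K q), ConjClasses.mk g = C ∧ orderOf g = r} = (Nat.choose (n + r - 1) (r - 1) - r - (if r ∣ n then 1 else 0)) / r + r * (if r ∣ n then 1 else 0) := by
  have hf := hermStd_nondeg hK n
  have := Fact.mk hr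
  have hq : 2 ≤ q := by
    have := Fintype.one_lt_card (α := K)
    rw [hK] at this
    by_contra! h
    interval_cases q <;> simp at this
  have hd : Fintype.card K - 1 = (q + 1) * (q - 1) := by rw [hK, ← Nat.sq_sub_sq]
  have hroot : ∀ c : Kˣ, c ^ r ∈ rootsOfUnity (q + 1) K → c ∈ rootsOfUnity (q + 1) K := fun c hc => by
    rw [mem_rootsOfUnity] at hc ⊢
    have h1 : (c ^ (q + 1)) ^ (q - 1) = 1 := by
      classical rw [← pow_mul, ← hd, ← Fintype.card_units, pow_card_eq_one]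
    have h2 : Nat.Coprime r (q - 1) := (Nat.Prime.coprime_iff_not_dvd hr).2 fun h =>
      hr2 ((Nat.prime_dvd_prime_iff_eq hr Nat.prime_two).1
        (by have := Nat.dvd_sub hrq h; rwa [show q + 1 - (q - 1) = 2 by omega] at this))
    exact (pow_eq_one_iff_of_coprime h2).1 ⟨by rw [← pow_mul, mul_comm, pow_mul, hc], h1⟩
  have hm : ∀ c : Kˣ, c ∈ rootsOfUnity (q + 1) K ↔ (c : K) * conj hK c = 1 := fun c => by
    rw [mem_rootsOfUnity', conj_apply, pow_succ']
  have hc : Nat.card (rootsOfUnity (q + 1) K) = q + 1 := by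
    obtain ⟨g, hg⟩ := IsCyclic.exists_ofOrder_eq_natCard (α := Kˣ)
    rw [Nat.card_units, Nat.card_eq_fintype_card, hd] at hg
    have h2 := IsPrimitiveRoot.orderOf g
    rw [hg] at h2
    exact ((IsPrimitiveRoot.coe_units_iff.2 h2).pow (Nat.mul_pos (by omega) (by omega))
      (mul_comm _ _)).card_rootsOfUnity
  obtain ⟨ζ, hζ⟩ : ∃ ζ : K, IsPrimitiveRoot ζ r := by
    obtain ⟨z, hz⟩ := exists_prime_orderOf_dvd_card' r (hc ▸ hrq)
    have h2 := IsPrimitiveRoot.orderOf z.1
    rw [Subgroup.orderOf_coe, hz] at h2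
    exact ⟨_, IsPrimitiveRoot.coe_units_iff.2 h2⟩
  have hZ := herm_center_isom hK hf (by simp; omega)
  rw [card_conjClasses_congr (CA.FieldIso.quotCenter (guEquiv hK n)) _ (orderOf · = r)
    fun g => by rw [MulEquiv.orderOf_eq]]
  refine card_classes (hermStd hK n).Isom.subtype (rootsOfUnity (q + 1) K) (fun g c h => ?_)
    (fun g h => ?_) (fun c h => ?_) (fun g h => hf.isConj_of_sim (tame_herm (conj_ne_id hK) _)) hr
    (hrq.trans hc.symm.dvd) (fun u c hc hu => hf.herm_exists_conj (conj_ne_id hK) ?_) hroot (finrank_fin_fun K)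
    (by omega)
  · exact hZ ▸ (mem_scalars _).2 ⟨c, LinearMap.congr_fun h⟩
  · obtain ⟨a, ha⟩ := (mem_scalars _).1 (hZ ▸ h)
    have : Nonempty (Fin n) := ⟨⟨0, by omega⟩⟩
    obtain ⟨x, hx⟩ := exists_ne (0 : Fin n → K)
    obtain ⟨y, hy⟩ := hf.exists_B_ne_zero hx
    have h1 := B_map g.2 x y
    rw [ha, ha, B_smul_left, map_smul, smul_eq_mul, ← mul_assoc, mul_eq_right₀ hy, mul_comm] at h1
    exact ⟨Units.mk0 a (left_ne_zero_of_mul_eq_one h1), (hm _).2 h1, LinearMap.ext ha⟩
  · exact ⟨scalarIsom _ _ ((hm c).1 h), rfl⟩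
  by_cases h : ∃ a : K, a ^ r = c
  · obtain ⟨a, ha⟩ := h
    have h0 : a ≠ 0 := by
      rintro rfl
      exact c.ne_zero (by rw [← ha, zero_pow hr.ne_zero])
    obtain ⟨Λ, hΛ⟩ := exists_lin_of_pow hζ hr.pos (A := a⁻¹ • (u : End K (Fin n → K))) (by
      rw [_root_.smul_pow, hu, smul_smul, ← ha, ← mul_pow, inv_mul_cancel₀ h0, one_pow])
    have h1 := edivs_smul_lin hΛ h0
    rw [smul_inv_smul₀ h0] at h1
    have h2 := (pow_lin h1).1 hu
    rw [h1, lin, Multiset.map_map]
    refine Multiset.map_congr rfl fun b hb => dual_lin ?_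
    have h3 : b ≠ 0 := by
      rintro rfl
      exact c.ne_zero (by rw [← h2 _ hb, zero_pow hr.ne_zero])
    exact (hm (Units.mk0 b h3)).1 (hroot _ (by
      rwa [show Units.mk0 b h3 ^ r = c from Units.ext (h2 b hb)]))
  · push Not at h
    rw [(edivs_typeB hu h).2, Multiset.map_replicate, dual_XrC hr.ne_zero ((hm c).1 hc)]

end Cfsg.Agent.S2672
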