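import Cfsg.Statements.S2673
import Cfsg.Agent.Lib.Lin.CFormConj2

set_option autoImplicit false
open Cfsg

namespace Cfsg.Agent.S2673

open CA.CForm CA.CForm.Form CA.Rcf Polynomial in
/-- Number of conjugacy classes of elements of odd prime order r ≠ p in the orthogonal group O_(2m+1)(q) of x_0² + Σ x_j y_j, q odd: with i the multiplicative order of q mod r and t = (r − 1)/i, there are C(⌊m/i⌋ + t/2, t/2) − 1 classes if i is odd (dual pairs of totally singular i-blocks) and C(⌊(2m+1)/i⌋ + t, t) − 1 if i is even (elliptic i-blocks). -/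
theorem result {F : Type*} [Field F] [Fintype F] {p q : ℕ} [Fact p.Prime] [CharP F p] (hF : Fintype.card F = q) (hq : Odd q) (m r i t : ℕ) (hr : r.Prime) (hr2 : r ≠ 2) (hrp : r ≠ p) (hi : i = orderOf (q : ZMod r)) (ht : t * i = r - 1) : Nat.card {C : ConjClasses ↥(Cfsg.isometryGroup F (Cfsg.quadFormOdd m F)) // ∃ g : ↥(Cfsg.isometryGroup F (Cfsg.quadFormOdd m F)), ConjClasses.mk g = C ∧ orderOf g = r} = if Odd i then Nat.choose (m / i + t / 2) (t / 2) - 1 else Nat.choose ((2 * m + 1) / i + t) t - 1 := by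
  have := Fact.mk hr
  have hr0 : (r : F) ≠ 0 := natCast_ne_zero_of_ne hrp
  rw [← hF, ← Nat.card_eq_fintype_card] at hi
  have h1 := (natDegree_cycT hr0).2
  have hi0 := orderOf_card_pos hr0
  have h2 := fun d => dual_id_eq_self_iff hr0 hr2 (d := d)
  have hf := oddForm_nondeg (two_ne_zero_iff_odd.2 (hF ▸ hq)) m
  have h3 := fun m' hm => hf.orth_odd_cycT_iff hr0 hr2 (m := m') hm ⟨m, finrank_odd m⟩
  rw [← hi] at h1 hi0 h2 h3
  rw [finrank_odd] at h3
  have h4 : ∀ g h : (oddForm F m).Isom, orderOf g = r → orderOf h = r → IsConj g.1 h.1 → IsConj g h :=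
    fun g h hg _ => hf.isConj_of_ss_odd (isSS_of_pow_eq_one hr0
      (congrArg Subtype.val (hg ▸ pow_orderOf_eq_one g))) (hg ▸ hr.odd_of_ne_two hr2)
  let e : isometryGroup F (quadFormOdd m F) ≃* (oddForm F m).Isom := orthEquiv (oddForm F m)
  rw [card_conjClasses_congr e _ (orderOf · = r) fun g => by rw [MulEquiv.orderOf_eq],
    ← Nat.eq_of_mul_eq_mul_right hi0 (h1.trans ht.symm), ← sum_Icc_multichoose,
    ← sum_Icc_multichoose]
  split_ifs with h
  · exact card_classes_pairs hr0 (Subgroup.subtype _) Subtype.val_injective h4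
      (fun c => i * c ≤ 2 * m + 1) h3 _ (fun _ => rfl)
      (fun d hd H => Nat.not_even_iff_odd.2 h ((h2 d hd).1 H)) fun j => by
        rw [Finset.mem_Icc, Nat.le_div_iff_mul_le hi0, mul_left_comm, mul_comm j]; omega
  · exact card_classes_selfDual hr0 (Subgroup.subtype _) Subtype.val_injective h4
      (fun c => i * c ≤ 2 * m + 1) h3 _
      (fun d hd => (h2 d hd).2 (Nat.not_odd_iff_even.1 h)) fun j => by
        rw [Finset.mem_Icc, Nat.le_div_iff_mul_le hi0, mul_comm j]

end Cfsg.Agent.S2673
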