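import Cfsg.Statements.S2675
import Cfsg.Agent.Lib.Lin.CFormConj2

set_option autoImplicit false
open Cfsg

namespace Cfsg.Agent.S2675

theorem aux {t i n : ℕ} (ht : 1 ≤ t) (hi : 0 < i) (hn : 1 ≤ n) (P : Prop) [Decidable P]
    (hP : P → i ∣ n) : ∑ j ∈ (Finset.Icc 1 (n / i)).filter (fun j => ¬(P ∧ j = n / i)),
      t.multichoose j =
      (n / i + t).choose t - 1 - if P then (n / i + t - 1).choose (t - 1) else 0 := by
  rw [← CA.Rcf.sum_Icc_multichoose, ← CA.Rcf.multichoose_eq_choose ht]
  split_ifs with h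
  · simp only [h, true_and]
    rw [Finset.filter_ne', ← Finset.add_sum_erase _ _ (Finset.right_mem_Icc.2
      (Nat.div_pos (Nat.le_of_dvd hn (hP h)) hi)), Nat.add_sub_cancel_left]
  · simp [h]

open CA.CForm CA.CForm.Form CA.Rcf Polynomial in
/-- Number of conjugacy classes of elements of odd prime order r ≠ p in the orthogonal group O⁻_2m(q) of an elliptic form Σ_(j<m−1) x_j y_j + z₁² + a z₁z₂ + c z₂² (binary part anisotropic, m ≥ 1): with i the multiplicative order of q mod r and t = (r − 1)/i — if i is odd, C(⌊m/i⌋ + t/2, t/2) − 1 minus, when i divides m, the C(m/i + t/2 − 1, t/2 − 1) tuples filling the whole space (dual pairs of totally singular blocks fill a hyperbolic space); if i is even, C(⌊2m/i⌋ + t, t) − 1 minus, when i divides 2m with even quotient, the C(2m/i + t − 1, t − 1) tuples filling the whole space with an even number of elliptic blocks. -/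
theorem result {F : Type*} [Field F] [Fintype F] {p q : ℕ} [Fact p.Prime] [CharP F p] (hF : Fintype.card F = q) (m r i t : ℕ) (hm : 1 ≤ m) (a c : F) (hac : ∀ z₁ z₂ : F, z₁ ^ 2 + a * z₁ * z₂ + c * z₂ ^ 2 = 0 → z₁ = 0 ∧ z₂ = 0) (hr : r.Prime) (hr2 : r ≠ 2) (hrp : r ≠ p) (hi : i = orderOf (q : ZMod r)) (ht : t * i = r - 1) : Nat.card {C : ConjClasses ↥(Cfsg.isometryGroup F (Cfsg.quadFormMinus (m - 1) F a c)) // ∃ g : ↥(Cfsg.isometryGroup F (Cfsg.quadFormMinus (m - 1) F a c)), ConjClasses.mk g = C ∧ orderOf g = r} = if Odd i then Nat.choose (m / i + t / 2) (t / 2) - 1 - (if i ∣ m then Nat.choose (m / i + t / 2 - 1) (t / 2 - 1) else 0) else Nat.choose (2 * m / i + t) t - 1 - (if i ∣ 2 * m ∧ Even (2 * m / i) then Nat.choose (2 * m / i + t - 1) (t - 1) else 0) := by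
  have := Fact.mk hr
  have hr0 : (r : F) ≠ 0 := natCast_ne_zero_of_ne hrp
  rw [← hF, ← Nat.card_eq_fintype_card] at hi
  have h1 := (natDegree_cycT hr0).2
  have hi0 := orderOf_card_pos hr0
  have h2 := fun d => dual_id_eq_self_iff hr0 hr2 (d := d)
  have ht1 : 1 ≤ t := Nat.pos_of_ne_zero fun h => by
    have := hr.two_le
    rw [h] at ht
    omega
  obtain ⟨m, rfl⟩ := Nat.exists_eq_add_of_le' hm
  have hf := minusForm_nondeg m hac
  have h3 := fun m' hm => hf.orth_even_cycT_iff hr0 hr2 (m := m') hm (a := m + 1) (finrank_minus m)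
  rw [← hi] at h1 hi0 h2 h3
  have h4 : ∀ g h : (minusForm m a c).Isom, orderOf g = r → orderOf h = r → IsConj g.1 h.1 → IsConj g h :=
    fun g h hg _ => hf.isConj_of_ss_odd (isSS_of_pow_eq_one hr0
      (congrArg Subtype.val (hg ▸ pow_orderOf_eq_one g))) (hg ▸ hr.odd_of_ne_two hr2)
  have h0 : ¬(minusForm m a c).IsIndex (m + 1) := fun h => by
    simpa using h.unique (minusForm_isIndex m hac)
  let e : isometryGroup F (quadFormMinus (m + 1 - 1) F a c) ≃* (minusForm m a c).Isom := orthEquiv (minusForm m a c)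
  rw [card_conjClasses_congr e _ (orderOf · = r) fun g => by rw [MulEquiv.orderOf_eq],
    ← aux ht1 hi0 (by omega) _ And.left]
  by_cases h : Odd i
  · have ht2 : 1 ≤ t / 2 := by
      obtain ⟨s, rfl⟩ := hr.odd_of_ne_two hr2
      obtain ⟨j, rfl⟩ := (Nat.even_mul.1 (show Even (t * i) from ⟨s, by omega⟩)).resolve_right
        (Nat.not_even_iff_odd.2 h)
      omega
    rw [if_pos h, ← aux ht2 hi0 hm _ id, ← Nat.eq_of_mul_eq_mul_right hi0 (h1.trans ht.symm)]
    exact card_classes_pairs hr0 (Subgroup.subtype _) Subtype.val_injective h4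
      (fun j => i * j ≤ 2 * (m + 1) ∧ (i * j = 2 * (m + 1) →
        ((minusForm m a c).IsIndex (m + 1) ↔ Odd i ∨ Even j))) h3 _ (fun _ => rfl)
      (fun d hd H => Nat.not_even_iff_odd.2 h ((h2 d hd).1 H)) fun j => by
        rw [Finset.mem_filter, Finset.mem_Icc, Nat.le_div_iff_mul_le hi0, mul_left_comm, mul_comm j,
          and_assoc]
        simp only [h, h0, true_or, iff_true, imp_false, mul_right_inj' (two_ne_zero' ℕ),
          Nat.mul_le_mul_left_iff two_pos]
        refine and_congr_right fun _ => and_congr_right fun _ => not_congr ⟨?_, fun h5 => ?_⟩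
        · rintro ⟨h5, rfl⟩
          exact Nat.mul_div_cancel' h5
        · rw [← h5, Nat.mul_div_cancel_left _ hi0]
          simp
  · rw [if_neg h, ← Nat.eq_of_mul_eq_mul_right hi0 (h1.trans ht.symm)]
    exact card_classes_selfDual hr0 (Subgroup.subtype _) Subtype.val_injective h4
      (fun j => i * j ≤ 2 * (m + 1) ∧ (i * j = 2 * (m + 1) →
        ((minusForm m a c).IsIndex (m + 1) ↔ Odd i ∨ Even j))) h3 _
      (fun d hd => (h2 d hd).2 (Nat.not_odd_iff_even.1 h)) fun j => by
        rw [Finset.mem_filter, Finset.mem_Icc, Nat.le_div_iff_mul_le hi0, mul_comm j, and_assoc]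
        simp only [h, h0, false_or, false_iff]
        refine and_congr_right fun _ => and_congr_right fun _ => ⟨fun H h5 => ?_, ?_⟩
        · rw [← h5, Nat.mul_div_cancel_left _ hi0] at H
          simpa using H
        · rintro H ⟨⟨h5, h6⟩, rfl⟩
          exact H (Nat.mul_div_cancel' h5) h6

end Cfsg.Agent.S2675
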