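import Cfsg.Statements.S2676
import Cfsg.Agent.Lib.Lin.Unip3

set_option autoImplicit false
open Classical
open Cfsg

namespace Cfsg.Agent.S2676

open CA.CForm CA.CForm.Form CA.Rcf Module Polynomial in
/-- Number of conjugacy classes of elements of order p in Sp_2m(q), q a power of the odd prime p: the classes correspond to the signed partitions of 2m — partitions with all parts at most p in which every odd part has even multiplicity, each even part size that occurs carrying a sign — other than the all-ones partition; so the count is the sum over such partitions of 2^(number of distinct even parts), minus one. -/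
theorem result {F : Type*} [Field F] [Fintype F] {p : ℕ} [Fact p.Prime] [CharP F p] (hp : p ≠ 2) (m : ℕ) : Nat.card {C : ConjClasses ↥(Matrix.symplecticGroup (Fin m) F) // ∃ g : Matrix.symplecticGroup (Fin m) F, ConjClasses.mk g = C ∧ orderOf g = p} = (∑ μ ∈ Finset.univ.filter (fun μ : Nat.Partition (2 * m) => (∀ a ∈ μ.parts, a ≤ p) ∧ ∀ j : ℕ, Odd j → Even (μ.parts.count j)), 2 ^ ((μ.parts.toFinset.filter (fun j : ℕ => Even j)).card)) - 1 := by
  have h2 : (2 : F) ≠ 0 := fun h => hp ((Nat.prime_dvd_prime_iff_eq Fact.out Nat.prime_two).1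
    ((CharP.cast_eq_zero_iff F p 2).1 h))
  have hf := sympStd_nondeg F m
  have hc : ∀ g : (sympStd F m).Isom, IsNilpotent ((g.1 : End F (Fin m ⊕ Fin m → F)) - 1) → ∀ a j,
      cnt g a j ≠ 0 ↔ a = 1 ∧ j + 1 ∈ jt (g.1 : End F (Fin m ⊕ Fin m → F)) := fun g hg a j => by
    rw [cnt, Multiset.count_ne_zero, edivs_eq_map_jt hg, Multiset.mem_map]
    refine ⟨fun ⟨i, hi, h⟩ => ⟨by
      have := congrArg (eval a) h
      simp [sub_eq_zero] at this
      exact this.1, ?_⟩,
      fun ⟨h, h'⟩ => ⟨_, h', by simp [h]⟩⟩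
    have := congrArg natDegree h
    rw [natDegree_X_sub_C_pow, natDegree_X_sub_one_pow] at this
    exact this ▸ hi
  let E : Nat.Partition (2 * m) → Finset ℕ := fun μ => μ.parts.toFinset.filter fun j => Even j
  let J : (sympStd F m).Isom → Nat.Partition (2 * m) := fun g =>
    ⟨jt (g.1 : End F (Fin m ⊕ Fin m → F)), pos_of_mem_jt, (sum_jt _).trans (finrank_plus m)⟩
  let μ₀ : (2 * m).Partition := ⟨Multiset.replicate (2 * m) 1, fun h => by
    rw [Multiset.eq_of_mem_replicate h]; exact one_pos, by simp⟩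
  have h0 : ∀ μ : (2 * m).Partition, μ = μ₀ ↔ ∀ a ∈ μ.parts, a ≤ 1 := fun μ =>
    ⟨by rintro rfl a ha; exact (Multiset.eq_of_mem_replicate ha).le, fun h => Nat.Partition.ext (by
      have h1 := Multiset.eq_replicate_card.2 fun a ha => le_antisymm (h a ha) (μ.parts_pos ha)
      have h2 := μ.parts_sum
      rw [h1, Multiset.sum_replicate, smul_eq_mul, mul_one] at h2
      rw [h1, h2])⟩
  have hpar : ∀ μ : Multiset ℕ, Par Even (μ.map fun i => (X - 1 : F[X]) ^ i) ↔
      ∀ j, Odd j → Even (μ.count j) := fun μ => (par_unip_iff _ _).trans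
    ⟨fun h j ⟨i, hi⟩ => hi ▸ h _ (even_two_mul i), fun h j hj => h _ hj.add_one⟩
  rw [card_conjClasses_congr (spEquiv F m) _ (fun g => orderOf g.1 = p)
    fun u => by rw [Subgroup.orderOf_coe, MulEquiv.orderOf_eq], card_conjClasses_eq _
    (fun g => (⟨J g, (E (J g)).filter fun j => dl g 1 (j - 1)⟩ : Σ _ : (2 * m).Partition, Finset ℕ))
    fun g g' hg hg' => ?_, ← Finset.add_sum_erase (a := μ₀) _ _ (by
      simp only [Finset.mem_filter, Finset.mem_univ, true_and, μ₀, Multiset.count_replicate]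
      exact ⟨fun a ha => Multiset.eq_of_mem_replicate ha ▸ (Fact.out : p.Prime).one_le,
        fun j _ => by split_ifs <;> simp⟩), Finset.filter_eq_empty_iff.2 fun a ha => by
      rw [Multiset.eq_of_mem_replicate (Multiset.mem_toFinset.1 ha)]; simp, Finset.card_empty,
    pow_zero, Nat.add_sub_cancel_left]
  · simp_rw [← Finset.card_powerset]
    rw [← Finset.card_sigma, ← Nat.card_eq_finsetCard]
    refine Nat.card_congr (Equiv.subtypeEquivRight fun ⟨μ, S⟩ => ?_)
    simp only [Finset.mem_sigma, Finset.mem_erase, Finset.mem_filter, Finset.mem_univ, true_and,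
      Finset.mem_powerset, Ne, h0]
    constructor
    · rintro ⟨g, hg, h⟩
      obtain ⟨rfl, h'⟩ := Sigma.mk.inj_iff.1 h
      obtain ⟨h3, h4, h5⟩ := (orderOf_eq_char_iff p _).1 hg
      exact ⟨⟨h5, h4, (hpar _).1 (edivs_eq_map_jt h3 ▸ (hf.symp_exists_iff.1 ⟨g, rfl⟩).2.1)⟩,
        eq_of_heq h' ▸ Finset.filter_subset _ _⟩
    · rintro ⟨⟨h3, h4, h5⟩, h6⟩
      obtain ⟨g, h7, h8⟩ := hf.symp_exists_dl h2 (adm_unip μ.parts fun _ => μ.parts_pos)
        ((hpar _).2 h5) (by
          simp only [finrank_plus, Multiset.map_map, Function.comp_def, natDegree_X_sub_one_pow,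
            Multiset.map_id', μ.parts_sum]) fun _ j => j + 1 ∈ S
      have h9 := jt_eq_of_edivs h7
      obtain rfl : J g = μ := Nat.Partition.ext h9
      refine ⟨g, (orderOf_eq_char_iff p _).2 ⟨isNilpotent_of_edivs h7, h4, h3⟩,
        congrArg _ (Finset.ext fun j => ?_)⟩
      rw [Finset.mem_filter, ← and_iff_right_of_imp (h6 (x := j))]
      refine and_congr_right fun hj => ?_
      obtain ⟨k1, k2⟩ := Finset.mem_filter.1 hj
      rw [Multiset.mem_toFinset] at k1
      obtain ⟨j, rfl⟩ := Nat.exists_eq_add_one.2 (pos_of_mem_jt k1)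
      exact h8 1 (by simp) j (by grind) ((hc g (isNilpotent_of_edivs h7) 1 j).2 ⟨rfl, k1⟩)
  · have h3 := ((orderOf_eq_char_iff p _).1 hg).1
    have h3' := ((orderOf_eq_char_iff p _).1 hg').1
    rw [hf.symp_isConj_iff h2, ← sim_iff_edivs, sim_iff_jt h3 h3', Sigma.mk.inj_iff, heq_eq_eq,
      Nat.Partition.ext_iff]
    refine and_congr_right fun h => ?_
    rw [show J g' = J g from Nat.Partition.ext h.symm]
    refine ⟨fun H => Finset.filter_congr fun j hj => ?_, fun H a _ j hj => ?_⟩
    · obtain ⟨k1, k2⟩ := Finset.mem_filter.1 hj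
      obtain ⟨j, rfl⟩ := Nat.exists_eq_add_one.2 (pos_of_mem_jt (Multiset.mem_toFinset.1 k1))
      exact H 1 (by simp) j (by grind)
    · by_cases k1 : a = 1 ∧ j + 1 ∈ jt (g.1 : End F (Fin m ⊕ Fin m → F))
      · have := Finset.ext_iff.1 H (j + 1)
        rw [Finset.mem_filter (s := E _), Finset.mem_filter (s := E _), and_congr_right_iff] at this
        exact k1.1 ▸ this (Finset.mem_filter.2 ⟨Multiset.mem_toFinset.2 k1.2, hj.add_one⟩)
      · exact iff_of_true (dl_of_cnt (not_not.1 (mt (hc g h3 a j).1 k1)))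
          (dl_of_cnt (not_not.1 (mt (hc g' h3' a j).1 (h ▸ k1))))

end Cfsg.Agent.S2676
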