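import Cfsg.Statements.S2677
import Cfsg.Agent.Lib.Lin.AutFld
import Cfsg.Agent.Lib.Lin.AschU
import Cfsg.Agent.S0277

set_option autoImplicit false
open Cfsg

namespace Cfsg.Agent.S2677

open Matrix in
theorem mem_iff {F : Type*} [Field F] [Fintype F] {q n : ℕ} (hF : Fintype.card F = q ^ 2)
    {g : GL (Fin n) F} : g ∈ GU n F q ↔
      ∀ i j, ∑ k, g.1 k i * g.1 k j ^ q = if i = j then 1 else 0 := by
  rw [CA.AschU.mem_GU_iff hF, ← Matrix.ext_iff]
  simp [mul_apply, one_apply, CA.CForm.conj_apply]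

theorem card_ru {F : Type*} [Field F] [Fintype F] {q : ℕ} (hF : Fintype.card F = q ^ 2) :
    Nat.card (rootsOfUnity (q + 1) F) = q + 1 := by
  rw [CA.SLnCard.card_rootsOfUnity_eq, Nat.card_eq_fintype_card, hF,
    Nat.gcd_eq_left ⟨q - 1, by rw [← Nat.sq_sub_sq]⟩]

open CA.CForm Matrix in
/-- Centraliser of a field automorphism of odd prime order in PGU_n(q): let q = q₀^r with r an odd prime, K the field with q² elements and σ a field automorphism of K of order r (fixed field of order q₀²). The elements g of GU_n(q) whose entrywise image under σ is a scalar multiple of g — those whose coset modulo the q + 1 unitary scalars is fixed by σ — number (q + 1)/(q₀ + 1) · |GU_n(q₀)|; equivalently the centraliser in PGU_n(q) of the induced automorphism has the order of PGU_n(q₀). -/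
theorem result {K : Type*} [Field K] [Fintype K] {q₀ q r n : ℕ} (hr : r.Prime) (hr2 : r ≠ 2) (hn : 1 ≤ n) (hq : q = q₀ ^ r) (hK : Fintype.card K = q ^ 2) (σ : K ≃+* K) (hσ : orderOf σ = r) : (Nat.card {g : ↥(Cfsg.GU n K q) // ∃ c : K, c ≠ 0 ∧ ((g : GL (Fin n) K) : Matrix (Fin n) (Fin n) K).map σ = c • ((g : GL (Fin n) K) : Matrix (Fin n) (Fin n) K)} : ℤ) = ((q + 1) / (q₀ + 1) : ℕ) * ((q₀ : ℤ) ^ (n * (n - 1) / 2) * ∏ i : Fin n, ((q₀ : ℤ) ^ ((i : ℕ) + 1) - (-1) ^ ((i : ℕ) + 1))) := by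
  classical
  let L := CA.AutFld.fixF σ
  cases nonempty_fintype L
  have hL : Fintype.card L = q₀ ^ 2 := by
    have := CA.AutFld.card_fixF_pow σ
    rw [hσ, Nat.card_eq_fintype_card (α := K), hK, Nat.card_eq_fintype_card, hq, ← pow_mul,
      mul_comm, pow_mul] at this
    exact Nat.pow_left_injective hr.ne_zero this
  obtain ⟨s, hs⟩ := hr.odd_of_ne_two hr2
  have hp : ∀ x : L, x ^ q = x ^ q₀ := fun x => by
    rw [hq, hs, pow_succ, pow_mul x, pow_mul q₀, ← hL, FiniteField.pow_card_pow]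
  have hp' : ∀ x : L, (x : K) ^ q = (x ^ q₀ : L) := fun x => by rw [← hp]; rfl
  let ψ : Kˣ × GL (Fin n) L →* GL (Fin n) K := MonoidHom.noncommCoprod
    (GeneralLinearGroup.scalar (Fin n)) (GeneralLinearGroup.map L.subtype) fun a b =>
      Units.ext (Matrix.scalar_commute (a : K) (fun _ => Commute.all _ _) _).eq
  have hψ : ∀ b h i j, (ψ (b, h) : Matrix (Fin n) (Fin n) K) i j = b * (h.1 i j : K) :=
    fun b h i j => by simp [ψ, GeneralLinearGroup.scalar, Matrix.diagonal_mul]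
  have k1 : ∀ (b : Kˣ) (h : GL (Fin n) L) i j, ∑ k, (ψ (b, h)).1 k i * (ψ (b, h)).1 k j ^ q =
      b ^ (q + 1) * (∑ k, h.1 k i * h.1 k j ^ q₀ : L) := fun b h i j => by
    simp only [hψ, mul_pow, hp', AddSubmonoidClass.coe_finset_sum, Finset.mul_sum,
      MulMemClass.coe_mul]
    exact Finset.sum_congr rfl fun k _ => by ring
  let φ : rootsOfUnity (q + 1) K × GU n L q₀ →* GU n K q :=
    (ψ.comp ((Subgroup.subtype _).prodMap (Subgroup.subtype _))).codRestrict _ fun x =>
      (mem_iff hK).2 fun i j => (k1 x.1 x.2 i j).trans (by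
        rw [(mem_rootsOfUnity' _ _).1 x.1.2, (mem_iff hL).1 x.2.2, one_mul]
        split_ifs <;> rfl)
  have hφ : ∀ b h i j, (φ (b, h)).1.1 i j = b.1 * (h.1.1 i j : K) := fun b h => hψ b.1 h.1
  let i0 : Fin n := ⟨0, hn⟩
  have h1 : ∀ g : GU n K q, g ∈ φ.range ↔ ∃ c : K, c ≠ 0 ∧ g.1.1.map σ = c • g.1.1 := fun g => by
    constructor
    · rintro ⟨⟨b, h⟩, rfl⟩
      refine ⟨σ b.1 * b.1⁻¹, by simp, Matrix.ext fun i j => ?_⟩
      rw [Matrix.map_apply, Matrix.smul_apply, hφ, map_mul, CA.AutFld.mem_fixF.1 (h.1.1 i j).2,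
        smul_eq_mul, mul_assoc]
      simp
    rintro ⟨c, hc, e⟩
    obtain ⟨i, j, he⟩ : ∃ i j, g.1.1 i j ≠ 0 := by
      by_contra! q
      exact g.1.det_ne_zero (det_eq_zero_of_row_eq_zero i0 (q i0))
    have e1 : ∀ i j, σ (g.1.1 i j) = c * g.1.1 i j := fun i j => congrFun (congrFun e i) j
    let M : Matrix (Fin n) (Fin n) L := fun k l => ⟨(g.1.1 i j)⁻¹ * g.1.1 k l, by
      change σ _ = _
      rw [map_mul, map_inv₀, e1, e1]; field_simp⟩
    have hM : M.det ≠ 0 := fun h => by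
      have := L.subtype.map_det M
      rw [h, map_zero, show L.subtype.mapMatrix M = (g.1.1 i j)⁻¹ • g.1.1 from rfl, det_smul] at this
      exact mul_ne_zero (pow_ne_zero _ (inv_ne_zero he)) g.1.det_ne_zero this.symm
    have e2 : ψ (Units.mk0 _ he, GeneralLinearGroup.mkOfDetNeZero M hM) = g.1 :=
      Units.ext (Matrix.ext fun k l => by rw [hψ]; exact mul_inv_cancel_left₀ he _)
    have e3 := k1 (Units.mk0 _ he) (GeneralLinearGroup.mkOfDetNeZero M hM) i0 i0
    rw [e2, (mem_iff hK).1 g.2, if_pos rfl] at e3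
    generalize GeneralLinearGroup.mkOfDetNeZero M hM = N at e2 e3
    generalize Units.mk0 _ he = b at e2 e3
    obtain ⟨a, ha⟩ := exists_norm_eq (conj hL) (conj_conj hL) (conj_ne_id hL)
      (∑ k, N.1 k i0 * N.1 k i0 ^ q₀) (by
        simp only [map_sum, map_mul, ← conj_apply hL, conj_conj, mul_comm])
    rw [← ha, MulMemClass.coe_mul, conj_apply, ← hp', ← pow_succ', ← mul_pow] at e3
    have h0 : a ≠ 0 := by rintro rfl; simp at e3
    let a' := Units.mk0 a h0
    have e4 : ψ (b * Units.map L.subtype.toMonoidHom a', GeneralLinearGroup.scalar _ a'⁻¹ * N) = g.1 := by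
      refine Units.ext (Matrix.ext fun k l => ?_)
      have : (a : K) ≠ 0 := by simpa using h0
      rw [← e2, hψ, hψ]
      simp [GeneralLinearGroup.scalar, Matrix.diagonal_mul, a']
      field_simp
    have e5 : ((b * Units.map L.subtype.toMonoidHom a' : Kˣ) : K) ^ (q + 1) = 1 := e3.symm
    refine ⟨(⟨_, (mem_rootsOfUnity' _ _).2 e5⟩, ⟨_, (mem_iff hL).2 fun k l => Subtype.ext ?_⟩),
      Subtype.ext e4⟩
    have := k1 (b * Units.map L.subtype.toMonoidHom a') (GeneralLinearGroup.scalar _ a'⁻¹ * N) k l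
    rw [e4, e5, one_mul, (mem_iff hK).1 g.2] at this
    refine this.symm.trans ?_
    split_ifs <;> rfl
  have m1 : ∀ u : rootsOfUnity (q₀ + 1) L,
      Units.map L.subtype.toMonoidHom u.1⁻¹ ∈ rootsOfUnity (q + 1) K := fun u => by
    rw [mem_rootsOfUnity, ← map_pow, inv_pow, show u.1 ^ (q + 1) = 1 from Units.ext (by
      rw [Units.val_pow_eq_pow_val, pow_succ, hp, ← pow_succ]; exact (mem_rootsOfUnity' _ _).1 u.2)]
    simp
  have m2 : ∀ u : rootsOfUnity (q₀ + 1) L,
      GeneralLinearGroup.scalar (Fin n) u.1 ∈ GU n L q₀ := fun u => (mem_iff hL).2 fun i j => by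
    have := (mem_rootsOfUnity' _ _).1 u.2
    have h0 : q₀ ≠ 0 := by have := two_le_of_card_sq hL; omega
    rw [pow_succ'] at this
    by_cases h : i = j <;>
      simp [GeneralLinearGroup.scalar, diagonal_apply, h, this, h0, Finset.sum_ite_eq', Ne.symm]
  have h2 : Nat.card (rootsOfUnity (q₀ + 1) L) = Nat.card φ.ker := Nat.card_eq_of_bijective
    (fun u => ⟨(⟨_, m1 u⟩, ⟨_, m2 u⟩), Subtype.ext (Units.ext (Matrix.ext fun i j => by
      rw [hφ]
      by_cases h : i = j <;> simp [GeneralLinearGroup.scalar, h, Matrix.one_apply]))⟩) ⟨fun u v h => by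
        have := congrArg (fun x : φ.ker => ((x.1.1.1 : Kˣ) : K)) h
        exact Subtype.ext (Units.ext (by simpa using this)), fun ⟨⟨b, h⟩, e⟩ => by
      have e1 : ∀ i j, (b.1 : K) * (h.1.1 i j : K) = (1 : Matrix (Fin n) (Fin n) K) i j := fun i j => by
        rw [← hφ, show φ (b, h) = 1 from e]; rfl
      have e2 := e1 i0 i0
      rw [one_apply_eq] at e2
      have e3 : h.1.1 i0 i0 ≠ 0 := fun q => by simp [q] at e2
      refine ⟨⟨Units.mk0 _ e3, (mem_rootsOfUnity' _ _).2 (Subtype.ext ?_)⟩, Subtype.ext (Prod.ext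
        (Subtype.ext (Units.ext ?_)) (Subtype.ext (Units.ext (Matrix.ext fun i j => Subtype.ext ?_))))⟩
      · have := congrArg (· ^ (q + 1)) e2
        simp only [mul_pow, (mem_rootsOfUnity' _ _).1 b.2, one_mul, one_pow] at this
        rwa [pow_succ, hp', ← MulMemClass.coe_mul, ← pow_succ] at this
      · simpa using (eq_inv_of_mul_eq_one_left e2).symm
      · apply mul_left_cancel₀ b.1.ne_zero
        refine .trans ?_ (e1 i j).symm
        by_cases h : i = j <;> simp [GeneralLinearGroup.scalar, h, Matrix.one_apply, e2]⟩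
  have h3 := φ.ker.card_mul_index
  rw [Subgroup.index_ker, ← h2, Nat.card_prod, card_ru hK, card_ru hL, S0277.result hL] at h3
  have h4 : q₀ + 1 ∣ q + 1 := by simpa [hq] using Odd.nat_add_dvd_pow_add_pow q₀ 1 ⟨s, hs⟩
  have h5 := two_le_of_card_sq hL
  rw [← Nat.card_congr (Equiv.subtypeEquivRight h1), show Nat.card {g // g ∈ φ.range} =
    (q + 1) / (q₀ + 1) * _ from Nat.eq_of_mul_eq_mul_left q₀.succ_pos (by
      rw [← mul_assoc, Nat.mul_div_cancel' h4]; exact h3), Nat.cast_mul, Nat.cast_mul,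
    Finset.prod_range, Nat.cast_prod, Nat.cast_pow]
  congr 2
  refine Finset.prod_congr rfl fun i _ => ?_
  split_ifs with h
  · rw [h.add_one.neg_one_pow]; simp
  · rw [(Nat.not_even_iff_odd.1 h).add_one.neg_one_pow, Nat.cast_sub (Nat.one_le_pow _ _ (by omega))]
    simp

end Cfsg.Agent.S2677
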