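import Cfsg.Statements.S2678
import Cfsg.Agent.Lib.Lin.ExtEmb

set_option autoImplicit false
open Cfsg

namespace Cfsg.Agent.S2678

open CA.CForm CA.CForm.Form Module in
/-- Field-extension embedding of symplectic groups: for a field K with q² elements and a field F with q elements there is an injective homomorphism Sp_2a(K) → Sp_4a(F). -/
theorem result {K F : Type*} [Field K] [Fintype K] [Field F] [Fintype F] {q : ℕ} (hK : Fintype.card K = q ^ 2) (hF : Fintype.card F = q) (a : ℕ) : ∃ φ : ↥(Matrix.symplecticGroup (Fin a) K) →* ↥(Matrix.symplecticGroup (Fin (2 * a)) F), Function.Injective φ := by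
  obtain ⟨ι⟩ := CA.FieldIso.nonempty_hom_of_pow (F := K) (K := F) (m := 2) (by
    simp [Nat.card_eq_fintype_card, hK, hF])
  let _ := ι.toAlgebra
  have h2 : finrank F K = 2 := finrank_of_card (hF ▸ hK)
  obtain ⟨θ, h0⟩ := exists_ne (0 : K →ₗ[F] F)
  obtain ⟨φ, hφ⟩ := (sympStd_nondeg K a).exists_symp_emb h0 (fun _ => rfl)
    (fun x => by rw [symp_B_self, map_zero]) (m := 2 * a)
    (by rw [← finrank_mul_finrank F K, h2, finrank_plus])
  exact ⟨φ.comp (spEquiv K a).toMonoidHom, hφ.comp (spEquiv K a).injective⟩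

end Cfsg.Agent.S2678
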