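import Cfsg.Statements.S2679
import Cfsg.Agent.Lib.Lin.ExtEmb

set_option autoImplicit false
open Cfsg

namespace Cfsg.Agent.S2679

open CA.CForm CA.CForm.Form Module in
/-- An elliptic orthogonal group embeds in the hyperbolic orthogonal group of the same dimension over the quadratic extension: for a field F with q elements and a field K with q² elements there is an injective homomorphism from O⁻_2m(F) (isometries of Σ_(j<m−1) x_j y_j + z₁² + a z₁z₂ + c z₂², binary part anisotropic) to O⁺_2m(K) (isometries of Σ_(j<m) x_j y_j over K). -/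
theorem result {F K : Type*} [Field F] [Fintype F] [Field K] [Fintype K] {q : ℕ} (hF : Fintype.card F = q) (hK : Fintype.card K = q ^ 2) {m : ℕ} (hm : 1 ≤ m) (a c : F) (hac : ∀ z₁ z₂ : F, z₁ ^ 2 + a * z₁ * z₂ + c * z₂ ^ 2 = 0 → z₁ = 0 ∧ z₂ = 0) : ∃ φ : ↥(Cfsg.isometryGroup F (Cfsg.quadFormMinus (m - 1) F a c)) →* ↥(Cfsg.isometryGroup K (Cfsg.quadFormPlus m K)), Function.Injective φ := by
  obtain ⟨ι⟩ := CA.FieldIso.nonempty_hom_of_pow (F := K) (K := F) (m := 2) (by
    simp [Nat.card_eq_fintype_card, hK, hF])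
  obtain ⟨j, rfl⟩ : ∃ j, m = j + 1 := ⟨m - 1, by omega⟩
  have hb : (binForm (ι a) (ι c)).Nondeg := binForm_nondeg (by
    have := (map_ne_zero ι).2 (disc_ne_zero_of_anisotropic hac)
    simpa [map_ofNat] using this)
  have hb1 : (binForm (ι a) (ι c)).IsIndex 1 := by
    refine (hb.isIndex_even (m := 0) (by simp)).resolve_right fun h => ?_
    have h1 := isIndex_zero_iff.1 h
    let _ := ι.toAlgebra
    let p : Polynomial F := Polynomial.X ^ 2 + Polynomial.C a * Polynomial.X + Polynomial.C c
    have hd : p.natDegree = 2 := by simpa [p] using Polynomial.natDegree_quadratic (a := (1 : F)) (b := a) (c := c) one_ne_zero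
    have hp : Irreducible p := (Polynomial.irreducible_iff_roots_eq_zero_of_degree_le_three
      (by omega) (by omega)).2 (Multiset.eq_zero_of_forall_notMem fun t ht => by
        have := Polynomial.isRoot_of_mem_roots ht
        exact aniso_iff.1 hac t (by simpa [p] using this))
    have := Fact.mk hp
    have hfin : finrank F (AdjoinRoot p) = 2 := by
      rw [(AdjoinRoot.powerBasis hp.ne_zero).finrank]; exact hd
    have := (AdjoinRoot.powerBasis hp.ne_zero).finite
    have := Module.finite_of_finite F (M := AdjoinRoot p)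
    obtain ⟨e⟩ := FiniteField.nonempty_algHom_of_finrank_dvd (F := F) (K := AdjoinRoot p) (L := K)
      (by rw [hfin, finrank_of_card (hF ▸ hK)])
    have h2 : Polynomial.aeval (e (AdjoinRoot.root p)) p = 0 := by
      rw [Polynomial.aeval_algHom_apply, AdjoinRoot.aeval_eq, AdjoinRoot.mk_self, map_zero]
    generalize e (AdjoinRoot.root p) = t at h2
    have := congrFun (h1 ![t, 1] (by
      simpa [p, binForm_Q, RingHom.algebraMap_toAlgebra] using h2)) 1
    simp at this
  have hf : (minusForm j (ι a) (ι c)).Nondeg := (plusForm_nondeg K j).sum hb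
  have hi : (minusForm j (ι a) (ι c)).IsIndex (j + 1) :=
    (sum_equivalent_prod _ _).symm.isIndex (isIndex_prod (plusForm_nondeg K j) hb
      (plusForm_isIndex K j) (finrank_plus j) hb1)
  obtain ⟨e⟩ := (hi.equivalent_plus hf (finrank_minus j)).nonempty_mulEquiv
  let E := ((orthEquiv (minusForm j (ι a) (ι c))).trans e).trans (orthEquiv (plusForm K (j + 1))).symm
  have hQ : ∀ v, (minusForm j (ι a) (ι c)).Q (ι ∘ v) = ι ((minusForm j a c).Q v) := fun v => by
    simp [minusForm_Q, quadFormMinus]
  have hB : ∀ u v, (minusForm j (ι a) (ι c)).B (ι ∘ u) (ι ∘ v) = ι ((minusForm j a c).B u v) :=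
    fun u v => by
      rw [orth_B_eq, orth_B_eq, map_sub, map_sub, ← hQ, ← hQ, ← hQ]
      congr 3
      ext i
      simp
  have hs : ∀ i, (Pi.single i 1 : (Fin j ⊕ Fin j) ⊕ Fin 2 → K) = ι ∘ Pi.single i 1 := fun i => by
    ext l; simp [Pi.single_apply, apply_ite ι]
  let φ : isometryGroup F (minusForm j a c).Q →* isometryGroup K (minusForm j (ι a) (ι c)).Q :=
    ((Matrix.GeneralLinearGroup.map ι).comp (Subgroup.subtype _)).codRestrict _ fun g => by
      have h1 : ∀ v, Matrix.mulVecLin (g.1.1.map ι) (ι ∘ v) = ι ∘ (orthEquiv _ g).1 v := fun v =>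
        funext fun i => (RingHom.map_mulVec ι _ v i).symm
      refine mem_isometryGroup.2 fun v => (preserves_of_span _ _ (Matrix.mulVecLin (g.1.1.map ι))
        (Set.range fun i => Pi.single i 1) ?_ ?_).2 v ?_
      · rintro _ ⟨i, rfl⟩ _ ⟨l, rfl⟩
        simp only [hs, h1, hB, B_map (orthEquiv _ g).2]
      · rintro _ ⟨i, rfl⟩
        simp only [hs, h1, hQ, Q_map (orthEquiv _ g).2]
      · have := (Pi.basisFun K ((Fin j ⊕ Fin j) ⊕ Fin 2)).mem_span v
        rwa [show ⇑(Pi.basisFun K ((Fin j ⊕ Fin j) ⊕ Fin 2)) = fun i => Pi.single i 1 from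
          funext (Pi.basisFun_apply _ _)] at this
  refine ⟨E.toMonoidHom.comp φ, E.injective.comp fun g h e => Subtype.ext (Units.ext ?_)⟩
  exact Matrix.map_injective ι.injective (congrArg (fun x => x.1.1) e)

end Cfsg.Agent.S2679
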