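import Cfsg.Statements.S2681
import Cfsg.Agent.Lib.Lin.Wall3

set_option autoImplicit false
open Cfsg

namespace Cfsg.Agent.S2681

open CA.CForm CA.CForm.Form in
/-- Centraliser order of an involution t of Sp_2m(q), q even, with s = rank(t − 1) even and f(v, tv) = 0 for every v, f the symplectic form (type a_s): |C(t)| = q^(2ms − (3s² − s)/2) · |Sp_s(q)| · |Sp_(2m−2s)(q)|. -/
theorem result {F : Type*} [Field F] [Fintype F] [CharP F 2] {q : ℕ} (hF : Fintype.card F = q) {m s : ℕ} (t : Matrix.symplecticGroup (Fin m) F) (ht : t ^ 2 = 1) (ht1 : t ≠ 1) (hs : ((t : Matrix (Fin m ⊕ Fin m) (Fin m ⊕ Fin m) F) - 1).rank = s) (heven : Even s) (halt : ∀ v : Fin m ⊕ Fin m → F, Cfsg.sympForm m F v ((t : Matrix (Fin m ⊕ Fin m) (Fin m ⊕ Fin m) F).mulVec v) = 0) : Nat.card ↥(Subgroup.centralizer ({t} : Set ↥(Matrix.symplecticGroup (Fin m) F))) = q ^ (2 * m * s - (3 * s ^ 2 - s) / 2) * ((q : ℕ) ^ ((s / 2) ^ 2) * ∏ i : Fin (s / 2), (q ^ (2 * ((i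 : ℕ) + 1)) - 1)) * ((q : ℕ) ^ ((m - s) ^ 2) * ∏ i : Fin (m - s), (q ^ (2 * ((i : ℕ) + 1)) - 1)) := by
  have h2 : (2 : F) = 0 := CharTwo.two_eq_zero
  have hf := sympStd_nondeg F m
  rw [rank_sub_one_eq (spEquiv F m t) _ (spEquiv_apply m t)] at hs
  rw [card_centralizer_congr (spEquiv F m)]
  have htt : spEquiv F m t * spEquiv F m t = 1 := by rw [← map_mul, ← sq, ht, map_one]
  have ha : (sympStd F m).AltInv (spEquiv F m t) := fun v => (sympStd_B F m _ _).trans (halt v)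
  generalize spEquiv F m t = t at *
  have h1 := two_mul_finrank_commSub_le h2 htt
  rw [finrank_plus, hs] at h1
  obtain ⟨r, rfl⟩ : ∃ r, m = s + r := ⟨m - s, by omega⟩
  obtain ⟨j, hj⟩ := heven
  have h3 := two_mul_choose_two s
  rw [hf.card_centralizer_alt (fun _ => rfl) h2 htt ha (j := j) (by omega),
    hf.symp_card_fix_ts (symp_ts_commSub h2 htt) hs (finrank_plus _), Nat.card_eq_fintype_card, hF,
    ← spOrd_eq, ← spOrd_eq, Nat.add_sub_cancel_left, show s / 2 = j by omega,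
    show 2 * (s + r) * s - (3 * s ^ 2 - s) / 2 = 2 * s * r + s.choose 2 + s by
      rw [show 2 * (s + r) * s = 2 * (s * s) + 2 * s * r by ring, sq]; omega]
  ring

end Cfsg.Agent.S2681
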