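import Cfsg.Statements.S2682
import Cfsg.Agent.Lib.Lin.Wall3

set_option autoImplicit false
open Cfsg

namespace Cfsg.Agent.S2682

open CA.CForm CA.CForm.Form in
/-- Centraliser order of an involution t of Sp_2m(q), q even, with s = rank(t − 1) even and f(v, tv) ≠ 0 for some v, f the symplectic form (type c_s): |C(t)| = q^(2ms − (3s² − 3s)/2 − 1) · |Sp_(s−2)(q)| · |Sp_(2m−2s)(q)|. -/
theorem result {F : Type*} [Field F] [Fintype F] [CharP F 2] {q : ℕ} (hF : Fintype.card F = q) {m s : ℕ} (t : Matrix.symplecticGroup (Fin m) F) (ht : t ^ 2 = 1) (hs : ((t : Matrix (Fin m ⊕ Fin m) (Fin m ⊕ Fin m) F) - 1).rank = s) (heven : Even s) (hna : ∃ v : Fin m ⊕ Fin m → F, Cfsg.sympForm m F v ((t : Matrix (Fin m ⊕ Fin m) (Fin m ⊕ Fin m) F).mulVec v) ≠ 0) : Nat.card ↥(Subgroup.centralizer ({t} : Set ↥(Matrix.symplecticGroup (Fin m) F))) = q ^ (2 * m * s - (3 * s ^ 2 - 3 * s) / 2 - 1) * ((q : ℕ) ^ (((s - 2) / 2) ^ 2) * ∏ i : Fin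 ((s - 2) / 2), (q ^ (2 * ((i : ℕ) + 1)) - 1)) * ((q : ℕ) ^ ((m - s) ^ 2) * ∏ i : Fin (m - s), (q ^ (2 * ((i : ℕ) + 1)) - 1)) := by
  have h2 : (2 : F) = 0 := CharTwo.two_eq_zero
  have hf := sympStd_nondeg F m
  rw [rank_sub_one_eq (spEquiv F m t) _ (spEquiv_apply m t)] at hs
  rw [card_centralizer_congr (spEquiv F m)]
  have htt : spEquiv F m t * spEquiv F m t = 1 := by rw [← map_mul, ← sq, ht, map_one]
  have ha : ¬(sympStd F m).AltInv (spEquiv F m t) := fun h =>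
    hna.choose_spec ((sympStd_B F m _ _).symm.trans (h _))
  generalize spEquiv F m t = t at *
  have h1 := two_mul_finrank_commSub_le h2 htt
  have h0 := finrank_commSub_pos (t := t) fun h => ha (h ▸ symp_B_self _)
  rw [finrank_plus, hs] at h1
  obtain ⟨r, rfl⟩ : ∃ r, m = s + r := ⟨m - s, by omega⟩
  obtain ⟨j, hj⟩ : ∃ j, s = 2 * j + 2 := by
    obtain ⟨j, hj⟩ := heven
    exact ⟨j - 1, by omega⟩
  have h3 := two_mul_choose_two s
  rw [hf.card_centralizer_even (fun _ => rfl) h2 htt ha (hs.trans hj),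
    hf.symp_card_fix_ts (symp_ts_commSub h2 htt) hs (finrank_plus _), Nat.card_eq_fintype_card, hF,
    ← spOrd_eq, ← spOrd_eq, Nat.add_sub_cancel_left, show (s - 2) / 2 = j by omega,
    show 2 * (s + r) * s - (3 * s ^ 2 - 3 * s) / 2 - 1 = 2 * s * r + s.choose 2 + s + (2 * j + 1) by
      rw [show 2 * (s + r) * s = 2 * (s * s) + 2 * s * r by ring, sq]; omega]
  ring

end Cfsg.Agent.S2682
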