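import Cfsg.Statements.S2684
import Cfsg.Agent.Lib.Lin.Wall3

set_option autoImplicit false
open Cfsg

namespace Cfsg.Agent.S2684

open CA.CForm CA.CForm.Form in
/-- For the hyperbolic form Q = Σ x_j y_j on F^(2m) over a finite field with q elements, q even (excluding m = 2 over the field of two elements), and an involution x ≠ 1 of the orthogonal group with s = rank(x − 1) even and Q vanishing on the image of x − 1 (equivalently f(v, xv) = 0 for all v, where f(u, w) = Q(u + w) − Q(u) − Q(w) is the bilinear form of Q; type a_s, which lies in Ω): its centraliser in Ω (the commutator subgroup of the orthogonal group) has order q^(2ms − (3s² + s)/2) · |Sp_s(q)| · |Ω⁺_(2m−2s)(q)|, where |Ω⁺_2k(q)| = q^(k(k−1)) (q^k − 1) Π_(i=1)^(k−1) (q^(2i) − 1) for k ≥ 1 and the last factor is 1 when s = m. -/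
theorem result {F : Type*} [Field F] [Fintype F] [CharP F 2] {q : ℕ} (hF : Fintype.card F = q) {m s : ℕ} (h : Fintype.card F ≠ 2 ∨ m ≠ 2) (x : ↥(Cfsg.isometryGroup F (Cfsg.quadFormPlus m F))) (hx : x ^ 2 = 1) (hx1 : x ≠ 1) (hs : (((x : Matrix.GeneralLinearGroup (Fin m ⊕ Fin m) F) : Matrix (Fin m ⊕ Fin m) (Fin m ⊕ Fin m) F) - 1).rank = s) (heven : Even s) (halt : ∀ v : Fin m ⊕ Fin m → F, Cfsg.quadFormPlus m F ((((x : Matrix.GeneralLinearGroup (Fin m ⊕ Fin m) F) : Matrix (Fin m ⊕ Fin m) (Fin m ⊕ Fin m) F) - 1).mulVec v) = 0) : Nat.card {g : ↥(Cfsg.Omega F (Cfsg.quadFormPlus m F)) // (g : ↥(Cfsg.isometryGroup F (Cfsg.quadFormPlus m F))) * x = x * (g : ↥(Cfsg.isometryGroup F (Cfsg.quadFormPlus m F)))} = q ^ (2 * m * s - (3 * s ^ 2 + s) / 2) * ((q : ℕ) ^ ((s / 2) ^ 2) * ∏ i : Fin (s / 2), (q ^ (2 * ((i : ℕ) + 1)) - 1)) * (if s = m then 1 else q ^ ((m - s) * (m - s - 1)) * (q ^ (m - s) - 1) * ∏ i : Fin (m - s - 1), (q ^ (2 * ((i : ℕ) + 1)) - 1)) := by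
  have h2 : (2 : F) = 0 := CharTwo.two_eq_zero
  have hf := plusForm_nondeg F m
  have hg : (plusForm F m).Good := good_of_card _ (h.imp id fun h => by rw [finrank_plus]; omega)
  rw [rank_sub_one_eq (orthEquiv (plusForm F m) x) _ fun _ => rfl] at hs
  refine (card_omega_comm (plusForm F m) x).trans ?_
  have htt : orthEquiv (plusForm F m) x * orthEquiv (plusForm F m) x = 1 :=
    (map_mul _ _ _).symm.trans ((congrArg _ ((sq x).symm.trans hx)).trans (map_one _))
  have ha : (plusForm F m).AltInv (orthEquiv (plusForm F m) x) :=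
    (orth_altInv_iff h2 _).2 fun v => by
      have hv := halt v
      rwa [Matrix.sub_mulVec, Matrix.one_mulVec] at hv
  generalize orthEquiv (plusForm F m) x = t at *
  have h1 := two_mul_finrank_commSub_le h2 htt
  rw [finrank_plus, hs] at h1
  obtain ⟨r, rfl⟩ : ∃ r, m = s + r := ⟨m - s, by omega⟩
  obtain ⟨j, hj⟩ := heven
  have hU := (orth_altInv_iff_ts h2 t).1 ha
  have h3 := two_mul_choose_two s
  have h4 := hf.card_centralizer_alt (fun _ => rfl) h2 htt ha (j := j) (by omega)
  obtain ⟨N, hUN, h5, h6, h7, h8⟩ := hf.card_fix_ts hU hs (r := 2 * r) (by rw [finrank_plus]; ring)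
  rw [← spOrd_eq, show s / 2 = j by omega, Nat.add_sub_cancel_left,
    show 2 * (s + r) * s - (3 * s ^ 2 + s) / 2 = s * (2 * r) + s.choose 2 by
      rw [show 2 * (s + r) * s = 2 * (s * s) + s * (2 * r) by ring, sq]; omega]
  rw [h8, card_ker_π_orth, Nat.card_eq_fintype_card (α := F), hF] at h4
  rcases r with _ | r
  · rw [Nat.card_congr (Subgroup.subgroupOfEquivOfLe le_rfl).toEquiv.symm, card_isom_of_finrank_zero _ h7]
      at h4
    rw [Subgroup.subgroupOf_eq_top.2 (hf.centralizer_le_commutator hg h2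
      (by rw [hs, finrank_plus, add_zero]) ha), ← Subgroup.subgroupOf_self, h4, if_pos (add_zero s).symm]
    ring
  · apply Nat.eq_of_mul_eq_mul_left two_pos
    rw [hf.two_mul_card_omega_centralizer hg h2 htt fun h => (by
      have := h.1; rw [finrank_plus] at this; omega), h4,
      (hf.isIndex_perp h5 hU hUN hs h6 (plusForm_isIndex F _)).card_isom_plus
        (hf.restrict_perp h5) h7, if_neg (by omega), Nat.card_eq_fintype_card, hF, Finset.prod_range,
      Nat.add_sub_cancel]
    ring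

end Cfsg.Agent.S2684
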