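import Cfsg.Statements.S2685
import Cfsg.Agent.Lib.Lin.Wall3

set_option autoImplicit false
open Cfsg

namespace Cfsg.Agent.S2685

open CA.CForm CA.CForm.Form in
/-- For the hyperbolic form Q = Σ x_j y_j on F^(2m) over a finite field with q elements, q even (excluding m = 2 over the field of two elements), and an involution x of the orthogonal group with s = rank(x − 1) even and Q not vanishing on the image of x − 1 (f(v, xv) ≠ 0 for some v, where f(u, w) = Q(u + w) − Q(u) − Q(w) is the bilinear form of Q; type c_s, which lies in Ω): its centraliser in Ω (the commutator subgroup of the orthogonal group) has order q^(2m(s−1) − (3s² − 5s)/2 − 1) · |Sp_(s−2)(q)| · |Sp_(2m−2s)(q)|. -/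
theorem result {F : Type*} [Field F] [Fintype F] [CharP F 2] {q : ℕ} (hF : Fintype.card F = q) {m s : ℕ} (h : Fintype.card F ≠ 2 ∨ m ≠ 2) (x : ↥(Cfsg.isometryGroup F (Cfsg.quadFormPlus m F))) (hx : x ^ 2 = 1) (hs : (((x : Matrix.GeneralLinearGroup (Fin m ⊕ Fin m) F) : Matrix (Fin m ⊕ Fin m) (Fin m ⊕ Fin m) F) - 1).rank = s) (heven : Even s) (hna : ∃ v : Fin m ⊕ Fin m → F, Cfsg.quadFormPlus m F ((((x : Matrix.GeneralLinearGroup (Fin m ⊕ Fin m) F) : Matrix (Fin m ⊕ Fin m) (Fin m ⊕ Fin m) F) - 1).mulVec v) ≠ 0) : Nat.card {g : ↥(Cfsg.Omega F (Cfsg.quadFormPlus m F)) // (g : ↥(Cfsg.isometryGroup F (Cfsg.quadFormPlus m F))) * x = x * (g : ↥(Cfsg.isometryGroup F (Cfsg.quadFormPlus m F)))} = q ^ (2 * m * (s - 1) - (3 * s ^ 2 - 5 * s) / 2 - 1) * ((q : ℕ) ^ (((s - 2) / 2) ^ 2) * ∏ i : Fin ((s - 2) / 2), (q ^ (2 * ((i : ℕ) + 1)) - 1)) * ((q : ℕ) ^ ((m - s) ^ 2) * ∏ i : Fin (m - s), (q ^ (2 * ((i : ℕ) + 1)) - 1)) := by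
  have h2 : (2 : F) = 0 := CharTwo.two_eq_zero
  have hf := plusForm_nondeg F m
  have hg : (plusForm F m).Good := good_of_card _ (h.imp id fun h => by rw [finrank_plus]; omega)
  rw [rank_sub_one_eq (orthEquiv (plusForm F m) x) _ fun _ => rfl] at hs
  refine (card_omega_comm (plusForm F m) x).trans ?_
  have htt : orthEquiv (plusForm F m) x * orthEquiv (plusForm F m) x = 1 :=
    (map_mul _ _ _).symm.trans ((congrArg _ ((sq x).symm.trans hx)).trans (map_one _))
  have ha : ¬(plusForm F m).AltInv (orthEquiv (plusForm F m) x) := fun h => by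
    obtain ⟨v, hv⟩ := hna
    rw [Matrix.sub_mulVec, Matrix.one_mulVec] at hv
    exact hv ((orth_altInv_iff h2 _).1 h v)
  generalize orthEquiv (plusForm F m) x = t at *
  have h1 := two_mul_finrank_commSub_le h2 htt
  rw [finrank_plus, hs] at h1
  obtain ⟨U, z, hU, hz, hQ, h4, h5⟩ := hf.orth_nonalt_decomp h2 htt ha
  obtain ⟨j, hj⟩ : ∃ j, s = 2 * j + 2 := by
    obtain ⟨j, hj⟩ := heven
    exact ⟨j - 1, by omega⟩
  obtain ⟨i, rfl⟩ : ∃ i, s = i + 1 := ⟨s - 1, by omega⟩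
  obtain ⟨r, rfl⟩ : ∃ r, m = i + (r + 1) := ⟨m - (i + 1), by omega⟩
  have h3 := two_mul_choose_two i
  apply Nat.eq_of_mul_eq_mul_left two_pos
  rw [hf.two_mul_card_omega_centralizer hg h2 htt fun h => ha h.2,
    hf.card_centralizer_even (fun _ => rfl) h2 htt ha (hs.trans hj), h4,
    (plusForm_isIndex F _).card_fix_nonsingular hf (finrank_plus _) hU (by omega) hz hQ,
    Nat.card_eq_fintype_card, hF,
    ← spOrd_eq, ← spOrd_eq, show i + (r + 1) - (i + 1) = r by omega, show (i + 1 - 2) / 2 = j by omega,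
    show 2 * (i + (r + 1)) * (i + 1 - 1) - (3 * (i + 1) ^ 2 - 5 * (i + 1)) / 2 - 1 =
        i * (2 * r + 1) + i.choose 2 + (2 * j + 1) by
      rw [Nat.add_sub_cancel, show 2 * (i + (r + 1)) * i = 2 * (i * i) + 2 * (i * r) + 2 * i by ring,
        show 3 * (i + 1) ^ 2 = 3 * (i * i) + 6 * i + 3 by ring,
        show i * (2 * r + 1) = 2 * (i * r) + i by ring]
      omega]
  ring

end Cfsg.Agent.S2685
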