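import Cfsg.Statements.S2689
import Cfsg.Agent.Lib.Lin.AutPSL

set_option autoImplicit false
open Cfsg

namespace Cfsg.Agent.S2689

open CA.AutPSL CA.AutGam SemidirectProduct

/-- The automorphism group of a simple projective special linear group PSL_n(F) over a finite field (n ≥ 2; |F| ≥ 4 when n = 2) is generated by the automorphisms induced by invertible semilinear maps of F^n (the image of the projective semilinear group) together with the inverse-transpose automorphism. -/
theorem result {F : Type*} [Field F] [Fintype F] {p f : ℕ} [Fact p.Prime] (hF : Fintype.card F = p ^ f) (hf : 1 ≤ f) {n : ℕ} (hn : 2 ≤ n) (hs : n = 2 → 4 ≤ Fintype.card F) :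
    Cfsg.gammaPSL n F ⊔ Cfsg.autSubgroupOf (fun β : Matrix.ProjectiveSpecialLinearGroup (Fin n) F ≃* Matrix.ProjectiveSpecialLinearGroup (Fin n) F => Cfsg.IsInverseTransposeAutPSL β) = ⊤ := by
  rw [eq_top_iff]
  intro β _
  obtain ⟨⟨g, σ, ε⟩, rfl, -⟩ := exists_Ph hn β
  have h1 : Ph (⟨g, (σ, 1)⟩ : GT n F) ∈ Cfsg.gammaPSL n F :=
    Subgroup.subset_closure ⟨g, σ, (semilinear_iff _ _ _).mpr rfl⟩
  rcases c2_cases ε with rfl | rfl
  · exact Subgroup.mem_sup_left h1
  · have : (⟨g, (σ, c2)⟩ : GT n F) = ⟨g, (σ, 1)⟩ * inr (1, c2) := by ext : 1 <;> simp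
    rw [this, map_mul]
    exact Subgroup.mul_mem_sup h1 (Subgroup.subset_closure ((invTrans_iff _).mpr rfl))

end Cfsg.Agent.S2689
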