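import Cfsg.Statements.S2698
import Cfsg.Agent.Lib.Lin.AutLang2

set_option autoImplicit false
open Cfsg

namespace Cfsg.Agent.S2698

open CA.AutLang CA.AutPSL CA.AutFld CA.AutGam CA.AutOut CA.AutPhi SemidirectProduct

/-- Let T = PSL_n(F) be simple over the field F with p^f elements (n ≥ 2; p^f ≥ 4 when n = 2), G = Inndiag(T) the image of PGL_n(F) in Aut(T), and x a field automorphism of T of prime order r. Then r divides f; the centralizer C_G(x) is isomorphic to PGL_n(F₀) for the subfield size |F₀| = p^(f/r); and the G-class of x is the union of exactly gcd(n, (p^f − 1)/(p^(f/r) − 1)) classes under conjugation by T (the inner automorphism group). -/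
theorem result {F : Type*} [Field F] [Fintype F] {p f : ℕ} [Fact p.Prime] (hF : Fintype.card F = p ^ f) (hf : 1 ≤ f) {n : ℕ} (hn : 2 ≤ n) (hs : n = 2 → 4 ≤ Fintype.card F) (x : MulAut (Matrix.ProjectiveSpecialLinearGroup (Fin n) F)) (hx : Cfsg.IsFieldAutClassPSL x) {r : ℕ} (hr : r.Prime) (hxr : orderOf x = r) (F₀ : Type*) [Field F₀] [Fintype F₀] (hF₀ : Fintype.card F₀ = p ^ (f / r)) :
    r ∣ f ∧ Nonempty (↥(Cfsg.inndiagPSL n F ⊓ Subgroup.centralizer {x}) ≃* Matrix.ProjGenLinGroup (Fin n) F₀) ∧ Cfsg.splitClassCount (Cfsg.inndiagPSL n F) (Cfsg.Inn (Matrix.ProjectiveSpecialLinearGroup (Fin n) F)) x = Nat.gcd n ((p ^ f - 1) / (p ^ (f / r) - 1)) := by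
  haveI := inndiag_normal (F := F) hn
  haveI : Nonempty (Fin n) := ⟨⟨0, by omega⟩⟩
  obtain ⟨α, σ, h1, h2⟩ := field_class hn hx
  rw [hxr] at h1
  subst h1
  obtain ⟨i, hi⟩ := exists_hom_fixF hF σ F₀ hF₀
  have hf := frame_inr (F := F) hn (σ, 1)
  rw [fgAct_one] at hf
  have hC : ∀ g : GL (Fin n) F, g⁻¹ * fldGL σ g ∈ Subgroup.center (GL (Fin n) F) ↔
      ∃ c : Fˣ, Matrix.GeneralLinearGroup.scalar (Fin n) c * g ∈
        (Matrix.GeneralLinearGroup.map (n := Fin n) i).range := fun g => by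
    simp only [fld_cent_iff, mem_range_glMap i hi]
  refine ⟨orderOf_dvd hF σ, ?_, ?_⟩
  · obtain ⟨e1⟩ := nonempty_cent_conj (Cfsg.inndiagPSL n F) α x
    obtain ⟨e2⟩ := hf.nonempty_cent_equiv (fun g _ => ⟨g, rfl⟩) hC
    rw [range_Ph_inl, ← h2, MonoidHom.range_eq_map] at e2
    obtain ⟨e3⟩ := nonempty_projQuot_map i (⊤ : Subgroup (GL (Fin n) F₀))
    obtain ⟨e4⟩ := nonempty_projQuot_top (ι := Fin n) (F := F₀)
    exact ⟨e1.symm.trans (e2.trans (e3.trans e4))⟩
  · rw [← split_conj _ _ α, h2, split_PSL hn hf hC, map_det_range i hi (by omega), index_fixU hF]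

end Cfsg.Agent.S2698
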