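import Cfsg.Statements.S2704
import Cfsg.Agent.Lib.Lin.AutLang2

set_option autoImplicit false
open Cfsg

namespace Cfsg.Agent.S2704

open CA.AutLang CA.AutPSL CA.AutFld CA.AutGam CA.AutOut CA.AutPhi SemidirectProduct

/-- Let T = PSL_n(F) over the field F with p^f elements, n ≥ 3, and G = Inndiag(T) the image of PGL_n(F). If x is an involutory graph-field automorphism of T then f is even; x is G-conjugate to every other involutory graph-field automorphism; C_G(x) is isomorphic to the projective general unitary group PGU_n(q₀) with q₀² = p^f, realised over F itself through the Hermitian form Σ uᵢ vᵢ^{q₀}; and the G-class of x is the union of exactly gcd(n, q₀ − 1) T-classes. -/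
theorem result {F : Type*} [Field F] [Fintype F] {p f : ℕ} [Fact p.Prime] (hF : Fintype.card F = p ^ f) (hf : 1 ≤ f) {n : ℕ} (hn : 3 ≤ n) (x : MulAut (Matrix.ProjectiveSpecialLinearGroup (Fin n) F)) (hx : Cfsg.IsGraphFieldAutClassPSL x) (hx2 : orderOf x = 2) :
    Even f ∧ (∀ y : MulAut (Matrix.ProjectiveSpecialLinearGroup (Fin n) F), Cfsg.IsGraphFieldAutClassPSL y → orderOf y = 2 → Cfsg.IsConjUnder (Cfsg.inndiagPSL n F) x y) ∧ Nonempty (↥(Cfsg.inndiagPSL n F ⊓ Subgroup.centralizer {x}) ≃* Cfsg.PGU n F (p ^ (f / 2))) ∧ Cfsg.splitClassCount (Cfsg.inndiagPSL n F) (Cfsg.Inn (Matrix.ProjectiveSpecialLinearGroup (Fin n) F)) x = Nat.gcd n (p ^ (f / 2) - 1) := by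
  have hn2 : 2 ≤ n := by omega
  haveI := inndiag_normal (F := F) hn2
  obtain ⟨-, -, α, σ, h1, h2⟩ := graphField_class hx (hx2 ▸ Nat.prime_two)
  have hev : Even f := even_iff_two_dvd.mpr (h1 ▸ orderOf_dvd hF σ)
  have hq := card_eq_sq hF hev
  have hf := frame_inr (F := F) hn2 (σ, c2)
  have hC : ∀ g : GL (Fin n) F, g⁻¹ * fgAct (Fin n) F (σ, c2) g ∈ Subgroup.center (GL (Fin n) F) ↔
      ∃ c : Fˣ, Matrix.GeneralLinearGroup.scalar (Fin n) c * g ∈ Cfsg.GU n F (p ^ (f / 2)) :=
    fun g => by simp only [herm_cent_iff (show 1 ≤ n by omega) h1, mem_GU_iff (apply_of_orderOf_two hq h1)]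
  refine ⟨hev, fun y hy hy2 => ?_, ?_, ?_⟩
  · obtain ⟨-, -, β, τ, h3, h4⟩ := graphField_class hy (hy2 ▸ Nat.prime_two)
    obtain rfl := eq_of_orderOf_two h1 h3
    obtain ⟨χ, -, hk, hχ⟩ := exists_chi_three (F := F) hn
    have key : ∀ a z, a * z * a⁻¹ = Ph (inr (σ, c2) : GT n F) → χ z = (σ, c2) := fun a z h => by
      have := congrArg χ h
      rw [hχ, map_mul, map_mul, map_inv, right_inr, mul_inv_eq_iff_eq_mul] at this
      refine mul_left_cancel (a := χ a) (this.trans ?_)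
      exact Prod.ext (ringAut_comm _ _) (mul_comm _ _)
    have h5 : y * x⁻¹ ∈ Cfsg.inndiagPSL n F := by
      rw [← hk, MonoidHom.mem_ker, map_mul, map_inv, key _ _ h2, key _ _ h4, mul_inv_cancel]
    have := isConjUnder_of_conj h2 h5 (by rw [inv_mul_cancel_right, ← hy2, pow_orderOf_eq_one])
      (lang_graphField hn2 h1)
    rwa [inv_mul_cancel_right] at this
  · obtain ⟨e1⟩ := nonempty_cent_conj (Cfsg.inndiagPSL n F) α x
    obtain ⟨e2⟩ := hf.nonempty_cent_equiv (fun g _ => ⟨g, rfl⟩) hC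
    rw [range_Ph_inl, ← h2] at e2
    exact ⟨e1.symm.trans e2⟩
  · rw [← split_conj _ _ α, h2, split_PSL hn2 hf hC, index_det_GU hq (by omega)]

end Cfsg.Agent.S2704
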