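import Cfsg.Statements.S2711
import Cfsg.Agent.Lib.Lin.AutDesc2

set_option autoImplicit false
open Cfsg

namespace Cfsg.Agent.S2711

open CA.AutForm CA.CForm CA.AutGam CA.AutFld CA.AutOut CA.AutLang CA.AutPhi SemidirectProduct

/-- Let T = PSU_n(q) be simple (n ≥ 3, (n,q) ≠ (3,2)), realised over the field F with q² elements, and let x be a field automorphism of T (conjugate to a standard field automorphism of odd order) of prime order r. Then an element y of the coset Inndiag(T)·x (y = δ x with δ in the image of PGU_n(q)) has order r if and only if y is conjugate to x by an element of Inndiag(T). (T has no graph-field automorphisms.) -/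
theorem result {F : Type*} [Field F] [Fintype F] {p f q : ℕ} [Fact p.Prime] (hq : q = p ^ f) (hf : 1 ≤ f) (hF : Fintype.card F = q ^ 2) {n : ℕ} (hn : 3 ≤ n) (hs : ¬ (n = 3 ∧ q = 2)) (x δ : MulAut (Cfsg.PSU n F q)) (hx : Cfsg.IsFieldAutClassPSU x) {r : ℕ} (hr : r.Prime) (hxr : orderOf x = r) (hδ : δ ∈ Cfsg.inndiagPSU n F q) :
    orderOf (δ * x) = r ↔ Cfsg.IsConjUnder (Cfsg.inndiagPSU n F q) x (δ * x) := by
  rw [(inndiagSU hF hn hs).2] at hδ ⊢
  haveI := inndiag_normal_SU hF hn hs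
  obtain ⟨α, φ, σ, -, ho, h, h'⟩ := hx
  obtain ⟨h1, h2⟩ := (embSU hF hn hs).field_class ⟨1, inr_mem_SU hF σ⟩ h h'
  refine orderOf_iff_isConjUnder hxr fun h => ?_
  rw [← hxr, h1] at h
  haveI := Fintype.ofFinite (fixF σ)
  obtain ⟨-, h3, h4⟩ := herm_setup (F₀ := fixF σ) hF hq ho
  rw [Nat.card_eq_fintype_card] at h3
  obtain ⟨i, h5, h6⟩ := h4 h3
  exact isConjUnder_of_conj h2 hδ h
    (lang_SU hF (by rw [h3, ← pow_mul, mul_comm]) hn hs h5 h6)

end Cfsg.Agent.S2711
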