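import Cfsg.Statements.S2712
import Cfsg.Agent.Lib.Lin.AutDesc2

set_option autoImplicit false
open Cfsg

namespace Cfsg.Agent.S2712

open CA.AutForm CA.CForm CA.AutGam CA.AutFld CA.AutOut CA.AutLang CA.AutPhi SemidirectProduct

/-- Let T = PSp_{2m}(F) be simple over the field F with p^f elements (m ≥ 2, (2m, |F|) ≠ (4, 2)), G = Inndiag(T) the image of the projective conformal symplectic group PGSp_{2m}(F), and x a field automorphism of T of prime order r. Then r divides f; C_G(x) is isomorphic to PGSp_{2m}(F₀) for a field F₀ with p^(f/r) elements; and the G-class of x is the union of exactly gcd(gcd(2, p^f − 1), r) T-classes. -/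
theorem result {F : Type*} [Field F] [Fintype F] {p f : ℕ} [Fact p.Prime] (hF : Fintype.card F = p ^ f) (hf : 1 ≤ f) {m : ℕ} (hm : 2 ≤ m) (hs : m = 2 → 3 ≤ Fintype.card F) (x : MulAut (Cfsg.PSp m F)) (hx : Cfsg.IsFieldAutClassPSp x) {r : ℕ} (hr : r.Prime) (hxr : orderOf x = r) (F₀ : Type*) [Field F₀] [Fintype F₀] (hF₀ : Fintype.card F₀ = p ^ (f / r)) :
    r ∣ f ∧ Nonempty (↥(Cfsg.inndiagPSp m F ⊓ Subgroup.centralizer {x}) ≃* Cfsg.PGSp m F₀) ∧ Cfsg.splitClassCount (Cfsg.inndiagPSp m F) (Cfsg.Inn (Cfsg.PSp m F)) x = Nat.gcd (Nat.gcd 2 (p ^ f - 1)) r := by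
  rw [(inndiagSp hm).2]
  haveI := inndiag_normal_Sp (F := F) hm
  obtain ⟨α, σ, -, h⟩ := hx
  obtain ⟨h1, h2⟩ := (embSp hm).field_class (inr_mem_Sp σ) h rfl
  rw [hxr] at h1
  subst h1
  obtain ⟨i, hi⟩ := exists_hom_fixF hF σ F₀ hF₀
  obtain ⟨⟨e⟩, h3⟩ := cent_Sp i hm hi
  obtain ⟨e1⟩ := nonempty_cent_conj ((embSp hm).im (Sim (sympStd F m))) α x
  rw [h2] at e1
  refine ⟨orderOf_dvd hF σ, ⟨e1.symm.trans e⟩, ?_⟩
  rw [← split_conj _ _ α, h2, h3, Nat.card_eq_fintype_card, hF]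

end Cfsg.Agent.S2712
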