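import Cfsg.Statements.S2715
import Cfsg.Agent.Lib.Lin.AutTri2

set_option autoImplicit false
open Cfsg

namespace Cfsg.Agent.S2715

open CA.AutForm CA.CForm CA.AutGam CA.AutFld CA.AutOut CA.AutLang CA.AutPhi SemidirectProduct

/-- Let T = PΩ⁺_{2m}(F) (m ≥ 4, |F| = p^f; the form Σ xᵢ yᵢ), G = Inndiag(T) the image of the class-preserving similarities in Aut(T), and x a field automorphism of T of prime order r. Then r divides f; C_G(x) is isomorphic to Inndiag(PΩ⁺_{2m}(F₀)) for a field F₀ with p^(f/r) elements; and the G-class of x is the union of exactly c T-classes, where c = 1 if r is odd or p = 2, and otherwise (r = 2, p odd) c = 2 when m is odd and p^(f/2) ≡ 1 (mod 4), and c = 4 in the remaining cases. -/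
theorem result {F : Type*} [Field F] [Fintype F] {p f : ℕ} [Fact p.Prime] (hF : Fintype.card F = p ^ f) (hf : 1 ≤ f) {m : ℕ} (hm : 4 ≤ m) (x : MulAut (Cfsg.POmega F (Cfsg.quadFormPlus m F))) (hx : Cfsg.IsFieldAutClassPOmega (Cfsg.quadFormPlus m F) x) {r : ℕ} (hr : r.Prime) (hxr : orderOf x = r) (F₀ : Type*) [Field F₀] [Fintype F₀] (hF₀ : Fintype.card F₀ = p ^ (f / r)) :
    r ∣ f ∧ Nonempty (↥(Cfsg.inndiagPOmegaPlus m F ⊓ Subgroup.centralizer {x}) ≃* ↥(Cfsg.inndiagPOmegaPlus m F₀)) ∧ ((Odd r ∨ p = 2) → Cfsg.splitClassCount (Cfsg.inndiagPOmegaPlus m F) (Cfsg.Inn (Cfsg.POmega F (Cfsg.quadFormPlus m F))) x = 1) ∧ ((r = 2 ∧ p ≠ 2 ∧ Odd m ∧ p ^ (f / 2) % 4 = 1) → Cfsg.splitClassCount (Cfsg.inndiagPOmegaPlus m F) (Cfsg.Inn (Cfsg.POmega F (Cfsg.quadFormPlus m F))) x = 2) ∧ ((r = 2 ∧ p ≠ 2 ∧ ¬ (Odd m ∧ p ^ (f / 2) % 4 = 1)) → Cfsg.splitClassCount (Cfsg.inndiagPOmegaPlus m F) (Cfsg.Inn (Cfsg.POmega F (Cfsg.quadFormPlus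 m F))) x = 4) := by
  have hm' : 3 ≤ m := by omega
  have hg := bigE_plus (F := F) hm'
  rw [(inndiagPlus hm').2]
  haveI : ((embPlus hm').im hg.SimP).Normal := by
    by_cases h4 : m = 4
    · subst h4; exact normal_P8 _
    · exact hg.normal_P _ ((embPlus hm').Ph_surjective (genPlus (by omega)))
  obtain ⟨α, φ, σ, -, h, h'⟩ := hx
  obtain ⟨h1, h3⟩ := (embPlus hm').field_class ⟨1, inr_mem_plus m σ⟩ h h'
  rw [hxr] at h1
  subst h1
  obtain ⟨i, hi⟩ := exists_hom_fixF hF σ F₀ hF₀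
  have H : Desc i (plusForm F m) (⟨_, 1, inr_mem_plus m σ⟩ : Gam (plusForm F m)).1 (plusForm F₀ m) 1 :=
    desc_inr (ext_plus i) σ
  obtain ⟨e⟩ := (hg.cent (embPlus hm') H hi (bigE_plus hm')).1
  obtain ⟨e'⟩ := nonempty_inndiagPlus (F := F₀) hm'
  obtain ⟨e1⟩ := nonempty_cent_conj ((embPlus hm').im hg.SimP) α x
  rw [h3] at e1
  have h4 := split_conj ((embPlus hm').im hg.SimP) (Cfsg.Inn _) α x
  rw [h3] at h4
  have key : orderOf σ = 2 → p ≠ 2 → Cfsg.splitClassCount ((embPlus hm').im hg.SimP) (Cfsg.Inn _) x =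
      if Odd m ∧ p ^ (f / 2) % 4 = 1 then 2 else 4 := fun ho hp => by
    have h2 := mt (two_eq_zero_iff hf hF).mp hp
    refine h4.symm.trans ((split_field_plus hm' h2 ho hi).trans ?_)
    rw [isSquare_neg_one_iff_mod fun H => h2 (by rw [← map_ofNat i, H, map_zero]), hF₀, ho]
    congr
  exact ⟨orderOf_dvd hF σ, ⟨(e1.symm.trans e).trans e'.symm⟩, fun h => h4.symm.trans
    (hg.split_odd (embPlus hm') H hi (bigE_plus hm') (h.symm.imp_left (two_eq_zero_iff hf hF).mpr)),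
    fun h => (key h.1 h.2.1).trans (if_pos h.2.2), fun h => (key h.1 h.2.1).trans (if_neg h.2.2)⟩

end Cfsg.Agent.S2715
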