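import Cfsg.Statements.S2717
import Cfsg.Agent.Lib.Lin.AutOrth4

set_option autoImplicit false
open Cfsg

namespace Cfsg.Agent.S2717

open CA.AutForm CA.CForm CA.AutGam CA.AutFld CA.AutOut CA.AutLang CA.AutPhi SemidirectProduct

set_option maxHeartbeats 2000000 in
/-- Let T = PΩ⁺_{2m}(F) with m ≥ 5 (dimension 2m ≠ 8) and |F| = p^f, G = Inndiag(T), and x an involutory graph-field automorphism of T. Then f is even; any two involutory graph-field automorphisms of T are G-conjugate; C_G(x) is isomorphic to Inndiag(PΩ⁻_{2m}(F₀)) for a field F₀ with p^(f/2) elements (some anisotropic binary part over F₀); and the G-class of x is the union of exactly c T-classes with c = 1 if p = 2, c = 4 if p is odd, m is odd and p^(f/2) ≡ 1 (mod 4), and c = 2 otherwise. -/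
theorem result {F : Type*} [Field F] [Fintype F] {p f : ℕ} [Fact p.Prime] (hF : Fintype.card F = p ^ f) (hf : 1 ≤ f) {m : ℕ} (hm : 5 ≤ m) (x : MulAut (Cfsg.POmega F (Cfsg.quadFormPlus m F))) (hx : Cfsg.IsGraphFieldAutClassPOmegaPlus m x) (hx2 : orderOf x = 2) (F₀ : Type*) [Field F₀] [Fintype F₀] (hF₀ : Fintype.card F₀ = p ^ (f / 2)) :
    Even f ∧ (∀ y : MulAut (Cfsg.POmega F (Cfsg.quadFormPlus m F)), Cfsg.IsGraphFieldAutClassPOmegaPlus m y → orderOf y = 2 → Cfsg.IsConjUnder (Cfsg.inndiagPOmegaPlus m F) x y) ∧ (∃ a₀ b₀ : F₀, (∀ z₁ z₂ : F₀, z₁ ^ 2 + a₀ * z₁ * z₂ + b₀ * z₂ ^ 2 = 0 → z₁ = 0 ∧ z₂ = 0) ∧ Nonempty (↥(Cfsg.inndiagPOmegaPlus m F ⊓ Subgroup.centralizer {x}) ≃* ↥(Cfsg.inndiagPOmegaMinus (m - 1) F₀ a₀ b₀))) ∧ (p = 2 → Cfsg.splitClassCount (Cfsg.inndiagPOmegaPlus m F) (Cfsg.Inn (Cfsg.POmega F (Cfsg.quadFormPlus m F))) x = 1) ∧ ((p ≠ 2 ∧ Odd m ∧ p ^ (f / 2) % 4 = 1) → Cfsg.splitClassCount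 (Cfsg.inndiagPOmegaPlus m F) (Cfsg.Inn (Cfsg.POmega F (Cfsg.quadFormPlus m F))) x = 4) ∧ ((p ≠ 2 ∧ ¬ (Odd m ∧ p ^ (f / 2) % 4 = 1)) → Cfsg.splitClassCount (Cfsg.inndiagPOmegaPlus m F) (Cfsg.Inn (Cfsg.POmega F (Cfsg.quadFormPlus m F))) x = 2) := by
  have hm' : 3 ≤ m := by omega
  have hg := plus_plus (F := F) hm'
  rw [(inndiagPlus hm').2]
  obtain ⟨y, rfl, hy, hp⟩ := gf_class hm hx
  have ho := (hg.lang_prime (embPlus hm') y hy Nat.prime_two hx2).1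
  obtain ⟨i, hi⟩ := exists_hom_fixF hF y.1.right F₀ (ho ▸ hF₀)
  obtain ⟨f₀, c, H⟩ := hg.exists_desc (embPlus hm') hi (by rw [ho, ← hx2]; exact pow_orderOf_eq_one _)
  have ht := H.ext.choose_spec.tr
  have hf₀ := ht.bigE hg.toBigE
  obtain ⟨e⟩ := (hg.cent (embPlus hm') H hi hf₀).1
  obtain ⟨a₀, b₀, h1, ⟨e'⟩⟩ := hf₀.exists_minus fun h =>
    absurd ((hg.parH_of_index H hi h).symm.trans hp) (by decide)
  have key : p ≠ 2 → Cfsg.splitClassCount ((embPlus hm').im (bigE_plus (F := F) hm').SimP)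
      (Cfsg.Inn _) ((embPlus hm').Ph y) = if Odd m ∧ p ^ (f / 2) % 4 = 1 then 4 else 2 := fun hp2 => by
    have h2 : (2 : F) ≠ 0 := two_ne_zero_iff_odd.mpr
      (hF ▸ ((Fact.out : p.Prime).odd_of_ne_two hp2).pow)
    obtain ⟨z, h3, h4, h5, h6⟩ := exists_gf hm' h2 ho hi
    obtain ⟨α, -, h7⟩ := hg.conj_of_par (embPlus hm') z y h3.symm (h3 ▸ hy) (hp.trans h4.symm) Nat.prime_two h5 hx2
    haveI := hg.normal_P (embPlus hm') ((embPlus hm').Ph_surjective (genPlus hm))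
    refine (congrArg _ h7).trans ((split_conj _ _ α _).trans (h6.trans ?_))
    rw [isSquare_neg_one_iff_mod fun H => h2 (by rw [← map_ofNat i, H, map_zero]), hF₀]
    congr
  refine ⟨even_iff_two_dvd.mpr (ho ▸ orderOf_dvd hF _), fun z hz hz2 => ?_, ⟨a₀, b₀, h1, ⟨e.trans e'⟩⟩,
    fun h => hg.split_odd (embPlus hm') H hi hf₀ (Or.inl ?_), fun h => (key h.1).trans (if_pos h.2),
    fun h => (key h.1).trans (if_neg h.2)⟩
  · obtain ⟨z, rfl, h3, h4⟩ := gf_class hm hz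
    exact hg.conj_of_par (embPlus hm') y z (eq_of_orderOf_two (hg.lang_prime (embPlus hm') z h3 Nat.prime_two hz2).1 ho) hy
      (h4.trans hp.symm) Nat.prime_two hx2 hz2
  · by_contra h2
    have := two_ne_zero_iff_odd.mp h2
    rw [hF, h, Nat.odd_pow_iff (by omega)] at this
    exact absurd this (by decide)

end Cfsg.Agent.S2717
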