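import Cfsg.Statements.S2718
import Cfsg.Agent.Lib.Lin.AutOrth6

set_option autoImplicit false
open Cfsg

namespace Cfsg.Agent.S2718

open CA.AutForm CA.CForm SemidirectProduct

/-- Let T = PΩ⁺_{2m}(F) with m ≥ 4 and |F| = q odd, G = Inndiag(T), and γ an involutory graph automorphism of T induced by a similarity (one interchanging the two classes of maximal totally singular subspaces). Then the G-class of γ is either a single T-class or the union of exactly two T-classes, and it is the union of two unless m is odd and q ≡ 3 (mod 4). -/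
theorem result {F : Type*} [Field F] [Fintype F] (hodd : Odd (Fintype.card F)) {m : ℕ} (hm : 4 ≤ m) (γ : MulAut (Cfsg.POmega F (Cfsg.quadFormPlus m F))) (hγ : Cfsg.IsSimilarityGraphAutPOmegaPlus m γ) (hγ2 : orderOf γ = 2) :
    (Cfsg.splitClassCount (Cfsg.inndiagPOmegaPlus m F) (Cfsg.Inn (Cfsg.POmega F (Cfsg.quadFormPlus m F))) γ = 1 ∨ Cfsg.splitClassCount (Cfsg.inndiagPOmegaPlus m F) (Cfsg.Inn (Cfsg.POmega F (Cfsg.quadFormPlus m F))) γ = 2) ∧ (¬ (Odd m ∧ Fintype.card F % 4 = 3) → Cfsg.splitClassCount (Cfsg.inndiagPOmegaPlus m F) (Cfsg.Inn (Cfsg.POmega F (Cfsg.quadFormPlus m F))) γ = 2) := by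
  have hm' : 3 ≤ m := by omega
  have h2 := two_ne_zero_iff_odd.2 hodd
  have hf := bigE_plus (F := F) hm'
  obtain ⟨g, hg, h1, h3⟩ := hγ
  have hg' : g ∈ Sim (plusForm F m) := (quadSim_eq _).le hg
  obtain rfl := (hf.emb.ind_iff' (σ := 1) hg' _).1 h3
  rw [(inndiagPlus hm').2, ← spin_negI_plus h2 hm']
  have := hf.split_graph h2 (x := ⟨inl g, hg'⟩) rfl (fun H => h1 (((plus_plus hm').preserves_iff hg').2
    (sup_le le_rfl hf.center_le ((hf.emb.Ph_mem_im hf.SimP_le _).1 H).2))) hγ2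
  exact ⟨this.1, fun H => this.2 (.inl H)⟩

end Cfsg.Agent.S2718
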