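import Cfsg.Statements.S2719
import Cfsg.Agent.Lib.Lin.AutOrth6

set_option autoImplicit false
open Cfsg

namespace Cfsg.Agent.S2719

open CA.AutForm CA.CForm

theorem key {F : Type*} [Field F] [Finite F] {ι : Type} [Fintype ι] [DecidableEq ι] {f : Form (Kind.orth F) (ι → F)}
    {m : ℕ} (hf : BigE f m) {Q : (ι → F) → F} (hQ : f.Q = Q) (E : Emb f (jO Q)) (h2 : (2 : F) ≠ 0)
    (hi : ¬f.IsIndex m) {γ : MulAut (Cfsg.POmega F Q)} (h1 : γ ∈ Cfsg.gammaPOmega F Q) (h3 : γ ∉ E.im hf.SimP)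
    (hγ2 : orderOf γ = 2) :
    (Cfsg.splitClassCount (E.im hf.SimP) (Cfsg.Inn _) γ = 1 ∨
      Cfsg.splitClassCount (E.im hf.SimP) (Cfsg.Inn _) γ = 2) ∧ (hf.spin (negI f) = 1 ∨ Even m →
      Cfsg.splitClassCount (E.im hf.SimP) (Cfsg.Inn _) γ = 2) := by
  subst hQ
  obtain ⟨x, rfl⟩ := (gammaO hf.emb).le h1
  exact hf.split_graph h2 (x := x) (by_contra fun H => by
    have h4 := hf.emb.orderOf_right H hγ2
    exact hi (hf.isIndex_of_even h2 (by simp [h4]) (h4 ▸ orderOf_dvd_iff_pow_eq_one.1 hγ2.dvd))) h3 hγ2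

/-- Let T = PΩ⁻_{2m+2}(F) with m ≥ 3 and |F| = q odd (form with anisotropic binary part z₁² + a z₁ z₂ + b z₂²), G = Inndiag(T), and γ an involutory graph automorphism of T (an automorphism in the image of the semisimilarity group, not inner-diagonal, of order 2). Then the G-class of γ is either a single T-class or the union of exactly two T-classes, and it is the union of two unless m is even and q ≡ 1 (mod 4). -/
theorem result {F : Type*} [Field F] [Fintype F] (hodd : Odd (Fintype.card F)) {m : ℕ} (hm : 3 ≤ m) (a b : F) (hab : (∀ z₁ z₂ : F, z₁ ^ 2 + a * z₁ * z₂ + b * z₂ ^ 2 = 0 → z₁ = 0 ∧ z₂ = 0)) (γ : MulAut (Cfsg.POmega F (Cfsg.quadFormMinus m F a b))) (hγ : Cfsg.IsGraphAutClassPOmegaMinus m a b γ) (hγ2 : orderOf γ = 2) :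
    (Cfsg.splitClassCount (Cfsg.inndiagPOmegaMinus m F a b) (Cfsg.Inn (Cfsg.POmega F (Cfsg.quadFormMinus m F a b))) γ = 1 ∨ Cfsg.splitClassCount (Cfsg.inndiagPOmegaMinus m F a b) (Cfsg.Inn (Cfsg.POmega F (Cfsg.quadFormMinus m F a b))) γ = 2) ∧ (¬ (Even m ∧ Fintype.card F % 4 = 1) → Cfsg.splitClassCount (Cfsg.inndiagPOmegaMinus m F a b) (Cfsg.Inn (Cfsg.POmega F (Cfsg.quadFormMinus m F a b))) γ = 2) := by
  have hm' : 2 ≤ m := by omega
  have h2 := two_ne_zero_iff_odd.2 hodd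
  have hf := bigE_minus hm' hab
  obtain ⟨h1, h3, -⟩ := hγ
  rw [(inndiagMinus hm' hab).2] at h3 ⊢
  have := key hf (minusForm_Q m a b) (embMinus hab hm') h2 (fun H =>
    absurd (H.unique (minusForm_isIndex m hab)) (by omega)) h1 h3 hγ2
  refine ⟨this.1, fun H => this.2 ?_⟩
  rw [spin_negI_minus h2 hm' hab, Nat.even_add_one]
  rw [Nat.odd_iff] at hodd
  by_cases h4 : Even m
  · exact .inl ⟨h4, by have := mt (And.intro h4) H; omega⟩
  · exact .inr h4

end Cfsg.Agent.S2719
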