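import Cfsg.Statements.S2721
import Cfsg.Agent.Lib.Lin.AutOrth6

set_option autoImplicit false
open Cfsg

namespace Cfsg.Agent.S2721

open CA.AutForm CA.CForm

theorem key {F : Type*} [Field F] [Finite F] {ι : Type} [Fintype ι] [DecidableEq ι] {f : Form (Kind.orth F) (ι → F)}
    {m : ℕ} (hf : BigE f m) {Q : (ι → F) → F} (hQ : f.Q = Q) (E : Emb f (jO Q)) (h2 : (2 : F) ≠ 0)
    {x : MulAut (Cfsg.POmega F Q)} (hx : x ∈ Cfsg.pgoAut F Q) {r : ℕ} (hr : (r : F) ≠ 0) (hro : Odd r)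
    (h1 : x ≠ 1) (hxr : x ^ r = 1) :
    (∀ y, (Cfsg.IsConjUnder (Cfsg.Inn _) x y ↔ Cfsg.IsConjUnder (E.im hf.SimP) x y) ∧
      (Cfsg.IsConjUnder (Cfsg.psoAut F Q) x y ↔ Cfsg.IsConjUnder (E.im hf.SimP) x y)) ∧
    ∀ y, Cfsg.IsConjUnder (Cfsg.poAut F Q) x y ↔ Cfsg.IsConjUnder (Cfsg.pgoAut F Q) x y := by
  subst hQ
  exact hf.classes_odd h2 hx hr hro h1 hxr

/-- Let T = PΩ⁻_{2m+2}(F) (m ≥ 3, F finite of odd characteristic p), G = Inndiag(T), and let x be an automorphism of T induced by a similarity of the form (an element of the image G̃ of the conformal orthogonal group) of odd prime order r ≠ p. Then the T-class, the PSO-class and the G-class of x coincide (conjugacy under inner automorphisms, under the image of the special orthogonal group, and under G), and the PO-class of x coincides with its G̃-class. (In characteristic 2 the first equality fails: there the special orthogonal group is the full orthogonal group and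 some such classes split.) -/
theorem result {F : Type*} [Field F] [Fintype F] {p : ℕ} [Fact p.Prime] [CharP F p] (hp : p ≠ 2) {m : ℕ} (hm : 3 ≤ m) (a b : F) (hab : (∀ z₁ z₂ : F, z₁ ^ 2 + a * z₁ * z₂ + b * z₂ ^ 2 = 0 → z₁ = 0 ∧ z₂ = 0)) (x : MulAut (Cfsg.POmega F (Cfsg.quadFormMinus m F a b))) (hx : x ∈ Cfsg.pgoAut F (Cfsg.quadFormMinus m F a b)) {r : ℕ} (hr : r.Prime) (hro : Odd r) (hrp : r ≠ p) (hxr : orderOf x = r) :
    (∀ y : MulAut (Cfsg.POmega F (Cfsg.quadFormMinus m F a b)), (Cfsg.IsConjUnder (Cfsg.Inn (Cfsg.POmega F (Cfsg.quadFormMinus m F a b))) x y ↔ Cfsg.IsConjUnder (Cfsg.inndiagPOmegaMinus m F a b) x y) ∧ (Cfsg.IsConjUnder (Cfsg.psoAut F (Cfsg.quadFormMinus m F a b)) x y ↔ Cfsg.IsConjUnder (Cfsg.inndiagPOmegaMinus m F a b) x y)) ∧ (∀ y : MulAut (Cfsg.POmega F (Cfsg.quadFormMinus m F a b)), Cfsg.IsConjUnder (Cfsg.poAut F (Cfsg.quadFormMinus m F a b)) x y ↔ Cfsg.IsConjUnder (Cfsg.pgoAut F (Cfsg.quadFormMinus m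 F a b)) x y) := by
  have h : ∀ s : ℕ, s.Prime → s ≠ p → (s : F) ≠ 0 := fun s hs hsp H =>
    hsp ((Nat.prime_dvd_prime_iff_eq Fact.out hs).1 ((CharP.cast_eq_zero_iff F p s).1 H)).symm
  have h1 : x ≠ 1 := fun H => hr.one_lt.ne' (by rw [← hxr, H, orderOf_one])
  have h3 : x ^ r = 1 := by rw [← hxr]; exact pow_orderOf_eq_one x
  rw [(inndiagMinus (show 2 ≤ m by omega) hab).2]
  exact key (bigE_minus (show 2 ≤ m by omega) hab) (minusForm_Q m a b) _ (h 2 Nat.prime_two hp.symm) hx (h r hr hrp) hro h1 h3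

end Cfsg.Agent.S2721
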