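import Cfsg.Statements.S2723
import Cfsg.Agent.Lib.Lin.AutOrth2

set_option autoImplicit false
open Cfsg

namespace Cfsg.Agent.S2723

open CA.AutForm CA.CForm CA.AutGam CA.AutFld CA.AutOut CA.AutLang CA.AutPhi SemidirectProduct

/-- Let T = PΩ⁺_{2m}(F) with m ≥ 4 and |F| = q odd. The image of the special orthogonal group in Aut(T) contains the inner automorphism group T with index 1 (they coincide) when m is odd and q ≡ 3 (mod 4), and with index 2 otherwise (the index is 2 exactly when the discriminant of the form is a square). -/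
theorem result {F : Type*} [Field F] [Fintype F] (hodd : Odd (Fintype.card F)) {m : ℕ} (hm : 4 ≤ m) :
    ((Odd m ∧ Fintype.card F % 4 = 3) → (Cfsg.Inn (Cfsg.POmega F (Cfsg.quadFormPlus m F))).relIndex (Cfsg.psoAut F (Cfsg.quadFormPlus m F)) = 1) ∧ (¬ (Odd m ∧ Fintype.card F % 4 = 3) → (Cfsg.Inn (Cfsg.POmega F (Cfsg.quadFormPlus m F))).relIndex (Cfsg.psoAut F (Cfsg.quadFormPlus m F)) = 2) := by
  have h2 := two_ne_zero_iff_odd.mpr hodd
  have h3 := spin_negI_plus h2 (show 3 ≤ m by omega)
  have := (bigE_plus (F := F) (show 3 ≤ m by omega)).inn_pso rfl h2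
  exact ⟨fun H => this.trans (if_neg fun h => h3.mp h H), fun H => this.trans (if_pos (h3.mpr H))⟩

end Cfsg.Agent.S2723
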