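import Cfsg.Statements.S2725
import Cfsg.Agent.Lib.Lin.AutOrth4

set_option autoImplicit false
open Cfsg

namespace Cfsg.Agent.S2725

open CA.AutForm CA.CForm CA.AutGam CA.AutFld CA.AutOut CA.AutLang CA.AutPhi SemidirectProduct

/-- Let T = PΩ⁺_{2m}(F) with m ≥ 4 and |F| = q odd. The inner-diagonal group G = Inndiag(T) (image of the class-preserving similarities) taken modulo the inner automorphism group T is cyclic of order 2 when m is odd and q ≡ 3 (mod 4), cyclic of order 4 when m is odd and q ≡ 1 (mod 4), and elementary abelian of order 4 when m is even. -/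
theorem result {F : Type*} [Field F] [Fintype F] (hodd : Odd (Fintype.card F)) {m : ℕ} (hm : 4 ≤ m) :
    ((Odd m ∧ Fintype.card F % 4 = 3) → (∃ φ : ↥(Cfsg.inndiagPOmegaPlus m F) →* Multiplicative (ZMod 2), Function.Surjective φ ∧ φ.ker = (Cfsg.Inn (Cfsg.POmega F (Cfsg.quadFormPlus m F))).subgroupOf (Cfsg.inndiagPOmegaPlus m F))) ∧ ((Odd m ∧ Fintype.card F % 4 = 1) → (∃ φ : ↥(Cfsg.inndiagPOmegaPlus m F) →* Multiplicative (ZMod 4), Function.Surjective φ ∧ φ.ker = (Cfsg.Inn (Cfsg.POmega F (Cfsg.quadFormPlus m F))).subgroupOf (Cfsg.inndiagPOmegaPlus m F))) ∧ (Even m → (∃ φ : ↥(Cfsg.inndiagPOmegaPlus m F) →* Multiplicative (ZMod 2 × ZMod 2), Function.Surjective φ ∧ φ.ker = (Cfsg.Inn (Cfsg.POmega F (Cfsg.quadFormPlus m F))).subgroupOf (Cfsg.inndiagPOmegaPlus m F))) := by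
  have h2 := two_ne_zero_iff_odd.mpr hodd
  have hm' : 3 ≤ m := by omega
  have hf := bigE_plus (F := F) hm'
  have h := embPlus (F := F) hm'
  have h3 := spin_negI_plus h2 hm'
  rw [(inndiagPlus hm').2, h.inn_eq_im]
  refine ⟨fun H => ?_, fun H => ?_, fun H => ?_⟩
  · obtain ⟨ρ, h4, h5⟩ := hf.exists_hom_SimP_two h2 (Int.units_ne_iff_eq_neg.mp fun h => h3.mp h H)
    exact exists_hom_comp nonempty_units_zmod (h.exists_hom_im h.range_le hf.SimP_le ρ h4 h5)
  · obtain ⟨ρ, h4, h5⟩ := hf.exists_hom_SimP_four h2 (h3.mpr fun h => by omega) H.1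
    exact h.exists_hom_im h.range_le hf.SimP_le ρ h4 h5
  · obtain ⟨ρ, h4, h5⟩ := hf.exists_hom_SimP_klein h2
      (h3.mpr fun h => Nat.not_odd_iff_even.mpr H h.1) H
    exact h.exists_hom_im h.range_le hf.SimP_le ρ h4 h5

end Cfsg.Agent.S2725
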