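import Cfsg.Statements.S2729
import Cfsg.Agent.Lib.Lin.AutOrth4

set_option autoImplicit false
open Cfsg

namespace Cfsg.Agent.S2729

open CA.AutForm CA.CForm CA.AutGam CA.AutFld CA.AutOut CA.AutLang CA.AutPhi SemidirectProduct

/-- Let T = PΩ⁻_{2m+2}(F) with m ≥ 3 and |F| = q odd (form with anisotropic binary part). The inner-diagonal group G = Inndiag(T) (image of the class-preserving similarities) taken modulo the inner automorphism group T is cyclic of order 4 when m is even and q ≡ 3 (mod 4), and of order 2 otherwise. -/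
theorem result {F : Type*} [Field F] [Fintype F] (hodd : Odd (Fintype.card F)) {m : ℕ} (hm : 3 ≤ m) (a b : F) (hab : (∀ z₁ z₂ : F, z₁ ^ 2 + a * z₁ * z₂ + b * z₂ ^ 2 = 0 → z₁ = 0 ∧ z₂ = 0)) :
    ((Even m ∧ Fintype.card F % 4 = 3) → (∃ φ : ↥(Cfsg.inndiagPOmegaMinus m F a b) →* Multiplicative (ZMod 4), Function.Surjective φ ∧ φ.ker = (Cfsg.Inn (Cfsg.POmega F (Cfsg.quadFormMinus m F a b))).subgroupOf (Cfsg.inndiagPOmegaMinus m F a b))) ∧ (¬ (Even m ∧ Fintype.card F % 4 = 3) → (∃ φ : ↥(Cfsg.inndiagPOmegaMinus m F a b) →* Multiplicative (ZMod 2), Function.Surjective φ ∧ φ.ker = (Cfsg.Inn (Cfsg.POmega F (Cfsg.quadFormMinus m F a b))).subgroupOf (Cfsg.inndiagPOmegaMinus m F a b))) := by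
  have h2 := two_ne_zero_iff_odd.mpr hodd
  have hm' : 2 ≤ m := by omega
  have hf := bigE_minus hm' hab
  have h := embMinus hab hm'
  have h3 := spin_negI_minus h2 hm' hab
  rw [(inndiagMinus hm' hab).2, h.inn_eq_im]
  refine ⟨fun H => ?_, fun H => ?_⟩
  · obtain ⟨ρ, h4, h5⟩ := hf.exists_hom_SimP_four h2 (h3.mpr H) H.1.add_one
    exact h.exists_hom_im h.range_le hf.SimP_le ρ h4 h5
  · obtain ⟨ρ, h4, h5⟩ := hf.exists_hom_SimP_two h2 (Int.units_ne_iff_eq_neg.mp fun h => H (h3.mp h))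
    exact exists_hom_comp nonempty_units_zmod (h.exists_hom_im h.range_le hf.SimP_le ρ h4 h5)

end Cfsg.Agent.S2729
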