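import Cfsg.Statements.S2734
import Cfsg.Agent.Lib.Lie.H23Fold

set_option autoImplicit false
open Cfsg

namespace Cfsg.Agent.S2734

open CA.Chev Cfsg.Lie Cfsg.Lie.ChevalleyDatum

/-- In the Chevalley group of type D₄ over a finite field F (the matrix group generated by the root elements), a graph automorphism attached to a symmetry π of the Dynkin diagram (sending each fundamental root element x_p(t) to x_{π(p)}(t) and each x_{−p}(t) to x_{−π(p)}(t)) that has order 3 — a standard triality graph automorphism, π being a 3-cycle of the three outer nodes — has fixed-point subgroup isomorphic to the Chevalley group of type G₂ over F. -/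
theorem result {F : Type*} [Field F] [Fintype F] (τ : MulAut ↥(Cfsg.Lie.chevD4.group F)) (hτ : Cfsg.Lie.chevD4.IsGraphAut τ) (hτ3 : orderOf τ = 3) :
    Nonempty (↥(MonoidHom.eqLocus τ.toMonoidHom (MonoidHom.id ↥(Cfsg.Lie.chevD4.group F))) ≃* ↥(Cfsg.Lie.chevG2.group F)) := by
  obtain ⟨π, hπ, hg⟩ := isGraph_iff.1 hτ
  have hl : lst π ∈ [List.range 4, [0, 1, 3, 2], [2, 1, 0, 3], [2, 1, 3, 0], [3, 1, 0, 2], [3, 1, 2, 0]] :=
    (by decide +kernel : lev chevD4.rank chevD4.bonds chevD4.rank =
      [List.range 4, [0, 1, 3, 2], [2, 1, 0, 3], [2, 1, 3, 0], [3, 1, 0, 2], [3, 1, 2, 0]]) ▸ mem_lev hπ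
  have key : ∀ (g : MulAut (chevD4.group F)) (π : Nd chevD4 → Nd chevD4), Gr g π → (∀ i, π i = ιD4a i) →
      ∀ x, g x = x ↔ x ∈ (tD4 (RingHom.id F)).F := fun g π hg e x => by
    have hx := hg.x
    have hy := hg.y
    simp only [graphExp, long_D4, Bool.false_and, Bool.false_eq_true, if_false, pow_one] at hx hy
    have : g.toMonoidHom = (tD4 (RingHom.id F)).σ := ext_sim
      (fun i t => by rw [Twist.σ_x, Twist.ρ_sim, Twist.f_sim TD4.hc]; exact (hx i t).trans (by rw [e]; rfl))
      (fun i t => by rw [Twist.σ_x, Twist.ρ_ng_sim, Twist.f_ng_sim TD4.hc]; exact (hy i t).trans (by rw [e]; rfl))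
    rw [Twist.mem_F, ← this]; rfl
  have h2 := Gr.mul long_D4 hg hg
  have h3 : ∀ x, τ (τ (τ x)) = x := fun x => by
    have := pow_orderOf_eq_one τ
    rw [hτ3] at this
    exact DFunLike.congr_fun this x
  have hc : (∀ i, π (π i) = i) ∨ (∀ i, π i = ιD4a i) ∨ ∀ i, π (π i) = ιD4a i := by
    simp only [List.mem_cons, List.not_mem_nil, or_false] at hl
    simp only [Fin.ext_iff]
    rcases hl with hl | hl | hl | hl | hl | hl <;> simp only [lst_eq hl] <;> decide +kernel
  have e2 : MonoidHom.eqLocus τ.toMonoidHom (MonoidHom.id _) = (tD4 (RingHom.id F)).F := by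
    ext x
    rcases hc with e | e | e
    · have hx := h2.x
      have hy := h2.y
      simp only [graphExp, long_D4, Bool.false_and, Bool.false_eq_true, if_false, pow_one, Function.comp, e] at hx hy
      have : τ ^ 2 = 1 := aut_ext (fun i t => by rw [pow_two, hx]; rfl) fun i t => by rw [pow_two, hy]; rfl
      exact absurd (hτ3 ▸ orderOf_dvd_of_pow_eq_one this) (by norm_num)
    · exact key τ π hg e x
    · rw [← key _ _ h2 e x]
      refine ⟨fun h => ?_, fun h => ?_⟩
      · have h : τ x = x := h
        rw [MulAut.mul_apply, h, h]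
      · have h : τ (τ x) = x := h
        exact (congrArg τ h).symm.trans (h3 x)
  rw [e2]; exact fix_D4

end Cfsg.Agent.S2734
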