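import Cfsg.Statements.S2735
import Cfsg.Agent.Lib.Lin.AutOrth2

set_option autoImplicit false
open Cfsg

namespace Cfsg.Agent.S2735

open CA.AutForm CA.CForm CA.AutGam CA.AutFld CA.AutOut CA.AutLang CA.AutPhi SemidirectProduct

/-- Let T = Ω_{2m+1}(F) (m ≥ 3, |F| odd) and x a field automorphism of T of prime order r. Then an element y of the coset Inndiag(T)·x (y = δ x with δ induced by a similarity of the form) has order r if and only if y is conjugate to x by an element of Inndiag(T). (T has no graph or graph-field automorphisms.) -/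
theorem result {F : Type*} [Field F] [Fintype F] (hodd : Odd (Fintype.card F)) {m : ℕ} (hm : 3 ≤ m) (x δ : MulAut (Cfsg.POmega F (Cfsg.quadFormOdd m F))) (hx : Cfsg.IsFieldAutClassPOmega (Cfsg.quadFormOdd m F) x) {r : ℕ} (hr : r.Prime) (hxr : orderOf x = r) (hδ : δ ∈ Cfsg.inndiagPOmegaOdd m F) :
    orderOf (δ * x) = r ↔ Cfsg.IsConjUnder (Cfsg.inndiagPOmegaOdd m F) x (δ * x) := by
  have h2 := two_ne_zero_iff_odd.mpr hodd
  have hm' : 2 ≤ m := by omega
  rw [inndiagOdd h2 hm'] at hδ ⊢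
  haveI := normal_odd h2 hm'
  obtain ⟨α, φ, σ, -, h, h'⟩ := hx
  obtain ⟨h1, h3⟩ := (embOdd h2 hm').field_class ⟨1, inr_mem_odd m σ⟩ h h'
  refine orderOf_iff_isConjUnder hxr fun h => ?_
  rw [← hxr, h1] at h
  exact isConjUnder_of_conj h3 hδ h (lang_odd h2 hm' σ)

end Cfsg.Agent.S2735
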