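import Cfsg.Statements.S2738
import Cfsg.Agent.Lib.Lin.SLnCard
import Cfsg.Agent.Lib.Lin.SLnGen

set_option autoImplicit false
open Cfsg

namespace Cfsg.Agent.S2738

theorem key {G : Type*} [Group G] (hG : commutator G = ⊤) {K : Subgroup G}
    (hK : Subgroup.IsComplement' (Subgroup.center G) K) : Subgroup.center G = ⊥ := by
  have hs := hK.sup_eq_top
  have hN : K.Normal := ⟨fun x hx g => by
    obtain ⟨⟨z, k⟩, rfl⟩ := hK.2 g
    have : (z.1 * k.1) * x * (z.1 * k.1)⁻¹ = k * x * k⁻¹ := by
      calc _ = z.1 * (k * x * k⁻¹) * z.1⁻¹ := by simp [mul_assoc]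
        _ = _ := by rw [← Subgroup.mem_center_iff.1 z.2, mul_inv_cancel_right]
    rw [this]
    exact K.mul_mem (K.mul_mem k.2 hx) (K.inv_mem k.2)⟩
  have := hN.commutator_le_of_self_sup_commutative_eq_top (H := Subgroup.center G)
    (by rw [sup_comm, hs]) inferInstance
  rw [hG, top_le_iff] at this
  have hd := hK.disjoint
  rwa [this, disjoint_top] at hd

/-- The special linear group SL(3, 4) has centre of order 3 and does not split over it: no subgroup is a complement to the centre (so SL(3, 4) is a non-split central extension of PSL(3, 4) by a group of order 3). -/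
theorem result (F : Type*) [Field F] [Fintype F] (hF : Fintype.card F = 4) : Nat.card ↥(Subgroup.center (Matrix.SpecialLinearGroup (Fin 3) F)) = 3 ∧ ¬ ∃ K : Subgroup (Matrix.SpecialLinearGroup (Fin 3) F), Subgroup.IsComplement' (Subgroup.center (Matrix.SpecialLinearGroup (Fin 3) F)) K := by
  have h : Nat.card ↥(Subgroup.center (Matrix.SpecialLinearGroup (Fin 3) F)) = 3 := by
    rw [CA.SLnCard.card_center_SL, Nat.card_eq_fintype_card, hF, Fintype.card_fin]; rfl
  refine ⟨h, fun ⟨K, hK⟩ => ?_⟩
  rw [key (CA.SLnGen.commutator_eq_top (Or.inl (by simp))) hK, Subgroup.card_bot] at h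
  omega

end Cfsg.Agent.S2738
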