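import Cfsg.Statements.S2739
import Cfsg.Agent.Lib.Lin.U32
import Cfsg.Agent.Lib.Lin.SLnCard

set_option autoImplicit false
open scoped Pointwise
open Cfsg

namespace Cfsg.Agent.S2739

open scoped Pointwise in
theorem key {G : Type*} [Group G] (hG : Nat.card G = 20160)
    (ν : Multiplicative (ZMod 3 × ZMod 3) →* G) (hν : Function.Injective ν) (d : G)
    (h : ∀ x ≠ 1, IsConj d (ν x)) (X : Subgroup G) (hX : Nat.card X = 3) :
    ∃ g : G, MulAut.conj g • Subgroup.zpowers d = X := by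
  have : Finite G := Nat.finite_of_card_ne_zero (by omega)
  have h9 : Nat.card ν.range = 3 ^ (Nat.card G).factorization 3 := by
    rw [← Nat.card_congr (MonoidHom.ofInjective hν).toEquiv, hG]
    simp
    decide +kernel
  obtain ⟨P, hP⟩ := (IsPGroup.of_card (p := 3) (n := 1) hX).exists_le_sylow
  obtain ⟨y, hy⟩ := MulAction.exists_smul_eq G (Sylow.ofCard _ h9) P
  obtain ⟨x, hx⟩ := exists_prime_orderOf_dvd_card' (G := X) 3 (by rw [hX])
  have hx' : orderOf x.1 = 3 := by rwa [Subgroup.orderOf_coe]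
  have h1 := hP x.2
  rw [← hy] at h1
  obtain ⟨_, ⟨a, rfl⟩, ha⟩ := h1
  have ha' : y * ν a * y⁻¹ = x := ha
  obtain ⟨g, hg⟩ := isConj_iff.1 ((h a (by
    rintro rfl
    rw [← ha'] at hx'
    simp at hx')).trans (isConj_iff.2 ⟨y, ha'⟩))
  refine ⟨g, ?_⟩
  refine (MonoidHom.map_zpowers (MulAut.conj g).toMonoidHom d).trans ?_
  show Subgroup.zpowers (g * d * g⁻¹) = X
  rw [hg]
  exact Subgroup.eq_of_le_of_card_ge (Subgroup.zpowers_le.2 x.2) (by rw [Nat.card_zpowers, hx', hX])

/-- In the projective special linear group PSL(3, 4) all subgroups of order 3 are conjugate. -/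
theorem result (F : Type*) [Field F] [Fintype F] (hF : Fintype.card F = 4) (X Y : Subgroup (Matrix.ProjectiveSpecialLinearGroup (Fin 3) F)) (hX : Nat.card ↥X = 3) (hY : Nat.card ↥Y = 3) : ∃ g : Matrix.ProjectiveSpecialLinearGroup (Fin 3) F, MulAut.conj g • X = Y := by
  obtain ⟨e⟩ := CA.SmallF.nonempty_F4 hF
  obtain ⟨ν, h1, h2⟩ := CA.U32.exists_PSL
  let f := (CA.FieldIso.pslEquiv (n := Fin 3) e).symm
  have hc : Nat.card (Matrix.ProjectiveSpecialLinearGroup (Fin 3) F) = 20160 := by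
    have h1 := CA.SLnCard.card_PSL (F := F) 3 (by norm_num)
    have h2 := CA.SLnCard.card_SL (F := F) 3 (by norm_num)
    rw [← h1, Nat.card_eq_fintype_card (α := F), hF, Fin.prod_univ_three] at h2
    generalize Nat.card (Matrix.ProjectiveSpecialLinearGroup (Fin 3) F) = N at h2 ⊢
    norm_num at h2
    omega
  have := key hc (f.toMonoidHom.comp ν) (f.injective.comp h1) _ fun x hx =>
    f.toMonoidHom.map_isConj (h2 x hx)
  obtain ⟨a, rfl⟩ := this X hX
  obtain ⟨b, rfl⟩ := this Y hY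
  exact ⟨b * a⁻¹, by rw [smul_smul, ← map_mul, inv_mul_cancel_right]⟩

end Cfsg.Agent.S2739
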