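import Cfsg.Statements.S2751
import Cfsg.Agent.Lib.Loc.H13Gd7

set_option autoImplicit false
open Cfsg

namespace Cfsg.Agent.S2751

/-- Goldschmidt's bound for amalgams of index (3, 3): let M₁ and M₂ be finite subgroups of a group G such that M₁ ⊓ M₂ is a Sylow 2-subgroup of both M₁ and M₂, each quotient Mᵢ / O₂(Mᵢ) is isomorphic to the symmetric group of degree 3, and no nontrivial subgroup of M₁ ⊓ M₂ is normal in both M₁ and M₂. Then M₁ ⊓ M₂ has order at most 2^7. -/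
theorem result {G : Type*} [Group G] (M₁ M₂ : Subgroup G) [Finite M₁] [Finite M₂] (ha₁ : ∃ P : Sylow 2 M₁, (P : Subgroup M₁) = (M₁ ⊓ M₂).subgroupOf M₁) (ha₂ : ∃ P : Sylow 2 M₂, (P : Subgroup M₂) = (M₁ ⊓ M₂).subgroupOf M₂) (hb₁ : Nonempty (M₁ ⧸ Cfsg.pCore 2 M₁ ≃* Equiv.Perm (Fin 3))) (hb₂ : Nonempty (M₂ ⧸ Cfsg.pCore 2 M₂ ≃* Equiv.Perm (Fin 3))) (hc : ∀ N : Subgroup G, N ≤ M₁ ⊓ M₂ → (N.subgroupOf M₁).Normal → (N.subgroupOf M₂).Normal → N = ⊥) : Nat.card ↥(M₁ ⊓ M₂) ≤ 2 ^ 7 := by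
  open Subgroup Cfsg CA CA.Amb CA.AmbSyl CA.AmbCore CA.AmbRes CA.AmbChar CA.AmbSpe CA.AmbRed CA.AmbIso CA.H13Gd in
  (
    have k : ∀ P : Subgroup G, P ≤ M₁ ⊔ M₂ → Nonempty (P ⧸ Cfsg.pCore 2 P ≃* Equiv.Perm (Fin 3)) →
        (pCoreOf 2 (P.subgroupOf (M₁ ⊔ M₂))).relIndex (P.subgroupOf (M₁ ⊔ M₂)) = 6 := fun P hP ⟨e⟩ => by
      rw [pCoreOf_subgroupOf hP, relIndex_subgroupOf hP, relIndex, subgroupOf_pCoreOf, index,
        Nat.card_congr e.toEquiv, Nat.card_perm]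
      simp [Nat.factorial]
    obtain ⟨S₁, s1⟩ := ha₁
    obtain ⟨S₂, s2⟩ := ha₂
    have t : M₁ ⊓ M₂ ≤ M₁ ⊔ M₂ := inf_le_sup
    have f : ∀ P : Subgroup G, P ≤ M₁ ⊔ M₂ → [Finite P] → Finite (P.subgroupOf (M₁ ⊔ M₂)) := fun P hP _ =>
      Finite.of_equiv _ (subgroupOfEquivOfLe hP).symm.toEquiv
    have := f M₁ le_sup_left
    have := f M₂ le_sup_right
    have e : M₁.subgroupOf (M₁ ⊔ M₂) ⊓ M₂.subgroupOf (M₁ ⊔ M₂) = (M₁ ⊓ M₂).subgroupOf (M₁ ⊔ M₂) := rfl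
    have := goldschmidt (P₁ := M₁.subgroupOf (M₁ ⊔ M₂)) (P₂ := M₂.subgroupOf (M₁ ⊔ M₂))
      (by rw [← subgroupOf_sup le_sup_left le_sup_right, subgroupOf_self])
      (fun N a b => by
        have c := norm_map_subtype N
        refine (map_eq_bot_iff_of_injective _ (subtype_injective _)).1 (hc _ ?_
          (normal_subgroupOf_of_norm (le_sup_left.trans c)) (normal_subgroupOf_of_norm (le_sup_right.trans c)))
        exact map_le_iff_le_comap.2 a)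
      (e ▸ (sylIn_subgroupOf_iff t le_sup_left).2 (sylIn_of_eq_subgroupOf inf_le_left S₁ s1))
      (e ▸ (sylIn_subgroupOf_iff t le_sup_right).2 (sylIn_of_eq_subgroupOf inf_le_right S₂ s2))
      (k M₁ le_sup_left hb₁) (k M₂ le_sup_right hb₂)
    rwa [e, Nat.card_congr (subgroupOfEquivOfLe t).toEquiv] at this)

end Cfsg.Agent.S2751
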