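import Cfsg.Statements.S2758
import Cfsg.Agent.Lib.Loc.H6Dih

set_option autoImplicit false
open Cfsg

set_option linter.unusedVariables false
set_option linter.unusedSimpArgs false
set_option linter.style.haveILetI false

namespace Cfsg.Agent.S2758

open CA CA.H6Dih CA.H6Stab CA.Amb CA.AmbSyl CA.AmbCore Subgroup


/-- For an odd prime p and a finite group G the following are equivalent: the dihedral group of order 2p is involved in G; some element of 2-power order normalizes but does not centralize some p-subgroup of G; some element of 2-power order inverts some nonidentity element of p-power order. -/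
theorem result {G : Type*} [Group G] [Finite G] {p : ℕ} [Fact p.Prime] (hp : p ≠ 2) : (Cfsg.Involves (DihedralGroup p) G ↔ ∃ (x : G) (P : Subgroup G), (∃ k : ℕ, orderOf x = 2 ^ k) ∧ IsPGroup p ↥P ∧ x ∈ Subgroup.normalizer (P : Set G) ∧ x ∉ Subgroup.centralizer (P : Set G)) ∧ (Cfsg.Involves (DihedralGroup p) G ↔ ∃ x y : G, (∃ k : ℕ, orderOf x = 2 ^ k) ∧ (∃ k : ℕ, orderOf y = p ^ k) ∧ y ≠ 1 ∧ x * y * x⁻¹ = y⁻¹) := by
  have : Fact (Nat.Prime 2) := ⟨Nat.prime_two⟩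
  have e : ∀ {q : ℕ} [Fact q.Prime] {x : G}, (∃ k : ℕ, orderOf x = q ^ k) ↔ ∃ k : ℕ, x ^ q ^ k = 1 :=
    ⟨fun ⟨k, h⟩ => ⟨k, h ▸ pow_orderOf_eq_one _⟩,
      fun ⟨k, h⟩ => orderOf_eq_pow_of_mem (isPGroup_zpowers h) (mem_zpowers _)⟩
  simp only [e, involves_iff]
  have h1 : Sec (DihedralGroup p) (⊤ : Subgroup G) ⊥ → ∃ (x : G) (P : Subgroup G),
      (∃ k : ℕ, x ^ 2 ^ k = 1) ∧ IsPGroup p P ∧ x ∈ 𝐍 P ∧ x ∉ 𝐂 P := fun h => by
    obtain ⟨x, P, -, -, h1, h2, h3, u, hu, h4⟩ := exists_of_sec_dihedral hp h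
    exact ⟨x, P, h1, h2, h3, fun hc => h4 (by rw [mem_centralizer_sub.1 hc u hu, mem_bot]; group)⟩
  have h2 : (∃ (x : G) (P : Subgroup G), (∃ k : ℕ, x ^ 2 ^ k = 1) ∧ IsPGroup p P ∧ x ∈ 𝐍 P ∧
      x ∉ 𝐂 P) → ∃ x y : G, (∃ k : ℕ, x ^ 2 ^ k = 1) ∧ orderOf y = p ∧ x * y * x⁻¹ = y⁻¹ := by
    rintro ⟨x, P, ⟨k, hk⟩, h2, h3, h4⟩
    obtain ⟨j, y, -, h5, h6⟩ := exists_inv_prime h2 hk h3 h4
    exact ⟨_, y, ⟨k, pow_pow_eq_one hk j⟩, h5, h6⟩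
  have h3 : (∃ (x : G) (P : Subgroup G), (∃ k : ℕ, x ^ 2 ^ k = 1) ∧ IsPGroup p P ∧ x ∈ 𝐍 P ∧
      x ∉ 𝐂 P) → Sec (DihedralGroup p) (⊤ : Subgroup G) ⊥ := fun h => by
    obtain ⟨x, y, ⟨k, hk⟩, h3, h4⟩ := h2 h
    exact sec_dihedral hp hk h3 h4
  refine ⟨⟨h1, h3⟩, fun h => ?_, ?_⟩
  · obtain ⟨x, y, h4, h5, h6⟩ := h2 (h1 h)
    refine ⟨x, y, h4, ⟨1, by rw [pow_one, ← h5, pow_orderOf_eq_one]⟩, fun h7 => ?_, h6⟩
    rw [h7, orderOf_one] at h5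
    exact (Fact.out : p.Prime).one_lt.ne h5
  · rintro ⟨x, y, h4, ⟨m, hm⟩, h5, h6⟩
    refine h3 ⟨x, zpowers y, h4, isPGroup_zpowers hm,
      by rw [← cj_eq_self_iff, cj_zpowers, h6, zpowers_inv], fun hc => h5 ?_⟩
    rw [← mem_centralizer_sub.1 hc y (mem_zpowers y), mul_inv_cancel_right, eq_inv_iff_mul_eq_one,
      ← sq] at h6
    exact orderOf_eq_one_iff.1 (Nat.eq_one_of_dvd_one (by
      rw [← (((Nat.coprime_primes Fact.out Nat.prime_two).2 hp).pow_left m : Nat.gcd (p ^ m) 2 = 1)]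
      exact Nat.dvd_gcd (orderOf_dvd_of_pow_eq_one hm) (orderOf_dvd_of_pow_eq_one h6)))

end Cfsg.Agent.S2758
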