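import Cfsg.Statements.S2759
import Cfsg.Agent.Lib.Loc.H6Dih

set_option autoImplicit false
open Cfsg

set_option linter.unusedVariables false
set_option linter.unusedSimpArgs false
set_option linter.style.haveILetI false

namespace Cfsg.Agent.S2759

open CA CA.H6Dih CA.H6Ctl2 CA.H6Stab CA.Amb CA.AmbSyl CA.AmbCore Subgroup


/-- For a finite group G, the symmetric group of degree 4 is involved in G if and only if there is a 2-subgroup T of G such that the symmetric group of degree 3 is involved in N(T)/C(T). -/
theorem result {G : Type*} [Group G] [Finite G] : Cfsg.Involves (Equiv.Perm (Fin 4)) G ↔ ∃ T : Subgroup G, IsPGroup 2 ↥T ∧ Cfsg.Involves (Equiv.Perm (Fin 3)) (↥(Subgroup.normalizer (T : Set G)) ⧸ (Subgroup.centralizer (T : Set G)).subgroupOf (Subgroup.normalizer (T : Set G))) := by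
  rw [involves_S4_iff]
  refine exists_congr fun T => and_congr_right fun _ => ?_
  rw [involves_iff, ← map_top_of_surjective _ (QuotientGroup.mk'_surjective ((𝐂 T).subgroupOf (𝐍 T)))]
  refine ⟨fun h => sec_map_of_ker _ ?_, fun h => sec_of_top ?_⟩
  · rw [QuotientGroup.ker_mk']
    exact Sec.of_map (f := (𝐍 T).subtype) (by rwa [map_subtype_top])
  · have := h.of_map
    rwa [MonoidHom.comap_bot, QuotientGroup.ker_mk'] at this

end Cfsg.Agent.S2759
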