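import Cfsg.Statements.S2762
import Cfsg.Agent.Lib.Loc.H6Qd

set_option autoImplicit false
open Cfsg

set_option linter.unusedVariables false
set_option linter.unusedSimpArgs false
set_option linter.style.haveILetI false

namespace Cfsg.Agent.S2762

open CA CA.H6Qd CA.H6Stab CA.H6Op CA.Amb CA.AmbSyl CA.AmbCore CA.AmbRes CA.AmbChar CA.SL2Unip Subgroup
open scoped MatrixGroups

/-- Structure of Qd over a finite field F of characteristic p (the affine subgroup of SL₃(F)): its largest normal p-subgroup is the group of translations (matrices with upper-left block the identity), the block-diagonal matrices form a complement isomorphic to SL₂(F), and the translation subgroup is a natural SL₂(F)-module for that complement. -/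
theorem result {F : Type*} [Field F] [Fintype F] {p : ℕ} [Fact p.Prime] [CharP F p] : (∀ M : ↥(Cfsg.qdOver F), M ∈ Cfsg.pCore p ↥(Cfsg.qdOver F) ↔ ((M : Matrix.SpecialLinearGroup (Fin 3) F) : Matrix (Fin 3) (Fin 3) F) 0 0 = 1 ∧ ((M : Matrix.SpecialLinearGroup (Fin 3) F) : Matrix (Fin 3) (Fin 3) F) 0 1 = 0 ∧ ((M : Matrix.SpecialLinearGroup (Fin 3) F) : Matrix (Fin 3) (Fin 3) F) 1 0 = 0 ∧ ((M : Matrix.SpecialLinearGroup (Fin 3) F) : Matrix (Fin 3) (Fin 3) F) 1 1 = 1) ∧ ∃ K : Subgroup ↥(Cfsg.qdOver F), (∀ M : ↥(Cfsg.qdOver F), M ∈ K ↔ ((M : Matrix.SpecialLinearGroup (Fin 3) F) : Matrix (Fin 3) (Fin 3) F) 0 2 = 0 ∧ ((M : Matrix.SpecialLinearGroup (Fin 3) F) : Matrix (Fin 3) (Fin 3) F) 1 2 = 0) ∧ K ⊓ Cfsg.pCore p ↥(Cfsg.qdOver F) = ⊥ ∧ K ⊔ Cfsg.pCore p ↥(Cfsg.qdOver F) = ⊤ ∧ Nonempty (↥K ≃* Matrix.SpecialLinearGroup (Fin 2) F) ∧ Cfsg.IsNaturalSL2Module F (Cfsg.pCore p ↥(Cfsg.qdOver F)) K :=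 by
  have hK : ∀ (M : SL(2, F)) c, aff M c ∈ (sec (F := F)).range ↔ c = 0 := fun M c =>
    ⟨fun ⟨N, h⟩ => (aff_inj.1 h).2.symm, fun h => ⟨M, by rw [h]; rfl⟩⟩
  rw [pCore_eq]
  refine ⟨fun g => ?_, sec.range, fun g => ?_, ?_, ?_, ⟨(MonoidHom.ofInjective sec_injective).symm⟩,
    norm_of_normal, lin.comp (Subgroup.subtype _), ?_⟩
  · obtain ⟨M, c, rfl⟩ := exists_aff g
    rw [aff_mem_V]
    refine ⟨fun h => by subst h; exact ⟨rfl, rfl, rfl, rfl⟩, fun h => ?_⟩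
    exact sl_ext4 h.1 h.2.1 h.2.2.1 h.2.2.2
  · obtain ⟨M, c, rfl⟩ := exists_aff g
    rw [hK]
    exact ⟨fun h => by subst h; exact ⟨rfl, rfl⟩, fun h => vec_ext h.1 h.2⟩
  · rw [eq_bot_iff]
    rintro g ⟨h1, h2⟩
    obtain ⟨M, c, rfl⟩ := exists_aff g
    exact aff_eq_one.2 ⟨aff_mem_V.1 h2, (hK _ _).1 h1⟩
  · rw [eq_top_iff]
    rintro g -
    obtain ⟨M, c, rfl⟩ := exists_aff g
    have : aff M c = aff 1 c * aff M 0 := by rw [aff_mul]; simp
    rw [this]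
    exact mul_mem (mem_sup_right (aff_mem_V.2 rfl)) (mem_sup_left ⟨M, rfl⟩)
  · let e : V F ≃* Multiplicative (Fin 2 → F) :=
      ((MonoidHom.ofInjective tV_injective).trans (MulEquiv.subgroupCongr range_tV)).symm
    have he : ∀ c, e ⟨aff 1 c, aff_mem_V.2 rfl⟩ = Multiplicative.ofAdd c := fun c =>
      e.symm.injective (by rw [MulEquiv.symm_apply_apply]; rfl)
    refine ⟨MulEquiv.toAdditiveLeft e, fun M => ⟨⟨aff M 0, M, rfl⟩, lin_aff M 0⟩, ?_, ?_⟩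
    · rw [cent_V]; rfl
    · rintro ⟨l, hl⟩ ⟨v, hv⟩
      obtain ⟨M, d, rfl⟩ := exists_aff l
      obtain ⟨c, rfl⟩ := mem_V.1 hv
      refine ⟨⟨aff 1 (mv M c), aff_mem_V.2 rfl⟩, (conj_tr M d c).symm, ?_⟩
      change (e _).toAdd = mv (lin (aff M d)) (e _).toAdd
      rw [toMul_ofMul, toMul_ofMul, he, he, lin_aff]; rfl

end Cfsg.Agent.S2762
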