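import Cfsg.Statements.S2764
import Cfsg.Agent.Lib.Loc.H6PU

set_option autoImplicit false
open Cfsg

set_option linter.unusedVariables false
set_option linter.unusedSimpArgs false
set_option linter.style.haveILetI false

namespace Cfsg.Agent.S2764

open CA CA.H6Nat CA.H6Nat2 CA.H6Core CA.H6Core2 CA.H6E0 CA.H6Bau CA.H6Am1 CA.H6Am2 CA.H6Am3 CA.H6PU
open CA.Amb CA.AmbSyl CA.AmbCore CA.AmbRes CA.AmbSpe CA.AmbWC Subgroup
open scoped commutatorElement MatrixGroups

/-- Pushing up for a rank-one quotient: let G be a finite group and p a prime with C_G(O_p(G)) ≤ O_p(G), suppose G/K ≅ PSL₂(p^n) for some normal subgroup K and some n ≥ 1, that a Sylow p-subgroup S of G lies in exactly one maximal subgroup of G, and that no nontrivial characteristic subgroup of S is normal in G. Then G/O_p(G) ≅ SL₂(p^n), and every noncentral chief factor U/W of G inside O_p(G) is a natural SL₂-module over the field with p^n elements for the action of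 G/W. -/
theorem result {G : Type*} [Group G] [Finite G] {p : ℕ} [Fact p.Prime] (S : Sylow p G) (hE₁ : Subgroup.centralizer (Cfsg.pCore p G : Set G) ≤ Cfsg.pCore p G) (hE₂ : ∃! M : Subgroup G, IsCoatom M ∧ (S : Subgroup G) ≤ M) (K : Subgroup G) [K.Normal] (F : Type) [Field F] [Fintype F] (n : ℕ) (hn : 1 ≤ n) (hF : Fintype.card F = p ^ n) (hE₃ : Nonempty (G ⧸ K ≃* Matrix.ProjectiveSpecialLinearGroup (Fin 2) F)) (hd : ∀ T : Subgroup ↥(S : Subgroup G), T ≠ ⊥ → T.Characteristic → ¬ (T.map (S : Subgroup G).subtype).Normal) : Nonempty (G ⧸ Cfsg.pCore p G ≃* Matrix.SpecialLinearGroup (Fin 2) F) ∧ ∀ (U W : Subgroup G) [W.Normal], U ≤ Cfsg.pCore p G → Cfsg.IsChiefFactor U W → ¬ ⁅U, (⊤ : Subgroup G)⁆ ≤ W → Cfsg.IsNaturalSL2Module F (U.map (QuotientGroup.mk' W)) (⊤ : Subgroup (G ⧸ W)) := by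
  have hq : Nat.card F = p ^ n := by rw [Nat.card_eq_fintype_card, hF]
  haveI := charP_of_card hq
  obtain ⟨M, hR⟩ := r1_of S hE₂ hE₃
  have hc : AmbChar.CharP p (⊤ : Subgroup G) := AmbChar.charP_top_iff.2 hE₁
  obtain ⟨hV, ho⟩ := pu hR hc hd
  haveI : (Zo p (⊤ : Subgroup G)).Normal := normal_iff_top_le.2 (norm_Zo p _)
  refine ⟨quot_Q hV (ho.elim (fun h => h.cent_le hc) fun ⟨_, _, h⟩ => h.cent_le hc),
    fun U W _ hU hch hne => ?_⟩
  have hne' := mt (comm_le_of_res hch ((isPGroup_pCore p G).to_le hU)) hne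
  have hb : U ⊓ ⊥ ≤ W := inf_le_right.trans bot_le
  haveI : (Zo p (⊤ : Subgroup G) ⊓ 𝐂 (⊤ : Subgroup G)).Normal := normal_iff_top_le.2 hV.nat.norm₀
  have h1 : U ⊓ (Zo p ⊤ ⊓ 𝐂 (⊤ : Subgroup G)) ≤ W := by
    by_contra h1
    exact hne ((chief_step (F := F) hch hb h1).1 ⊤ (comm_bot_le inf_le_right))
  by_cases h2 : U ⊓ Zo p ⊤ ≤ W
  swap
  · exact (chief_step hch h1 h2).2 hV.nat
  have h5 : ¬ U ⊓ pCore p G ≤ W := by rw [inf_eq_left.2 hU]; exact hch.1.not_ge
  rcases ho with h | ⟨V, C, h⟩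
  · exact absurd ((chief_step (F := F) hch h2 h5).1 _ (pCoreOf_top p G ▸ h.res)) hne'
  haveI : C.Normal := normal_iff_top_le.2 h.nt.norm₀
  haveI : V.Normal := normal_iff_top_le.2 h.nt.norm
  have h3 : U ⊓ C ≤ W := by
    by_contra h3
    exact hne ((chief_step (F := F) hch h2 h3).1 ⊤ h.cC)
  by_cases h4 : U ⊓ V ≤ W
  · exact absurd ((chief_step (F := F) hch h4 h5).1 _ (pCoreOf_top p G ▸ h.res)) hne'
  · exact (chief_step hch h3 h4).2 h.nt

end Cfsg.Agent.S2764
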