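import Cfsg.Statements.S2765
import Cfsg.Agent.Lib.Loc.H6PU

set_option autoImplicit false
open Cfsg

set_option linter.unusedVariables false
set_option linter.unusedSimpArgs false
set_option linter.style.haveILetI false

namespace Cfsg.Agent.S2765

open CA CA.H6Nat CA.H6Nat2 CA.H6Core CA.H6Core2 CA.H6E0 CA.H6Bau CA.H6Am1 CA.H6Am2 CA.H6Am3 CA.H6PU
open CA.Amb CA.AmbSyl CA.AmbCore CA.AmbRes CA.AmbSpe CA.AmbWC Subgroup
open scoped commutatorElement MatrixGroups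

/-- In the same pushing-up situation (G finite, C_G(O_p(G)) ≤ O_p(G), G/K ≅ PSL₂(p^n) with n ≥ 1, a Sylow p-subgroup S in exactly one maximal subgroup, no nontrivial characteristic subgroup of S normal in G), one of the following holds: (I) S has nilpotency class 2, exponent 4 if p = 2 and exponent p otherwise, and G has exactly one noncentral chief factor inside O_p(G); or (II) p = 3, S has class 3 and exponent 9, and G has exactly two noncentral chief factors inside O_p(G). 'Exactly one' is phrased as: some noncentral chief factor U/W inside O_p(G) with G acting hypercentrally on W and on O_p(G)/U; 'exactly two' analogously with a chain. -/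
theorem result {G : Type*} [Group G] [Finite G] {p : ℕ} [Fact p.Prime] (S : Sylow p G) (hE₁ : Subgroup.centralizer (Cfsg.pCore p G : Set G) ≤ Cfsg.pCore p G) (hE₂ : ∃! M : Subgroup G, IsCoatom M ∧ (S : Subgroup G) ≤ M) (K : Subgroup G) [K.Normal] (F : Type) [Field F] [Fintype F] (n : ℕ) (hn : 1 ≤ n) (hF : Fintype.card F = p ^ n) (hE₃ : Nonempty (G ⧸ K ≃* Matrix.ProjectiveSpecialLinearGroup (Fin 2) F)) (hd : ∀ T : Subgroup ↥(S : Subgroup G), T ≠ ⊥ → T.Characteristic → ¬ (T.map (S : Subgroup G).subtype).Normal) : ((S : Subgroup G).lowerCentralSeries 2 = ⊥ ∧ (S : Subgroup G).lowerCentralSeries 1 ≠ ⊥ ∧ (p = 2 → Monoid.exponent ↥(S : Subgroup G) = 4) ∧ (p ≠ 2 → Monoid.exponent ↥(S : Subgroup G) = p) ∧ (∃ U W : Subgroup G, W ≤ U ∧ U ≤ (Cfsg.pCore p G) ∧ Cfsg.IsChiefFactor U W ∧ ¬ ⁅U, (⊤ : Subgroup G)⁆ ≤ W ∧ (∃ k : ℕ, Cfsg.iterCommutator W ⊤ k = ⊥) ∧ (∃ k : ℕ, Cfsg.iterCommutator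 (Cfsg.pCore p G) ⊤ k ≤ U))) ∨ (p = 3 ∧ (S : Subgroup G).lowerCentralSeries 3 = ⊥ ∧ (S : Subgroup G).lowerCentralSeries 2 ≠ ⊥ ∧ Monoid.exponent ↥(S : Subgroup G) = 9 ∧ (∃ U₁ W₁ U₂ W₂ : Subgroup G, W₁ ≤ U₁ ∧ U₁ ≤ W₂ ∧ W₂ ≤ U₂ ∧ U₂ ≤ (Cfsg.pCore p G) ∧ Cfsg.IsChiefFactor U₁ W₁ ∧ Cfsg.IsChiefFactor U₂ W₂ ∧ ¬ ⁅U₁, (⊤ : Subgroup G)⁆ ≤ W₁ ∧ ¬ ⁅U₂, (⊤ : Subgroup G)⁆ ≤ W₂ ∧ (∃ k : ℕ, Cfsg.iterCommutator W₁ ⊤ k = ⊥) ∧ (∃ k : ℕ, Cfsg.iterCommutator W₂ ⊤ k ≤ U₁) ∧ (∃ k : ℕ, Cfsg.iterCommutator (Cfsg.pCore p G) ⊤ k ≤ U₂))) := by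
  have hq : Nat.card F = p ^ n := by rw [Nat.card_eq_fintype_card, hF]
  haveI := charP_of_card hq
  obtain ⟨M, hR⟩ := r1_of S hE₂ hE₃
  have hc : AmbChar.CharP p (⊤ : Subgroup G) := AmbChar.charP_top_iff.2 hE₁
  obtain ⟨hV, ho⟩ := pu hR hc hd
  haveI : (Zo p (⊤ : Subgroup G)).Normal := normal_iff_top_le.2 (norm_Zo p _)
  have hZ : Zo p (⊤ : Subgroup G) ≤ Cfsg.pCore p G := pCoreOf_top p G ▸ Zo_le p _
  have h0 : ∃ k : ℕ, Cfsg.iterCommutator (Zo p ⊤ ⊓ 𝐂 (⊤ : Subgroup G)) ⊤ k = ⊥ :=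
    ⟨1, comm_eq_bot_of_le inf_le_right⟩
  have hne := VS.der_ne hV
  rcases ho with h | ⟨V, C, h⟩
  · refine Or.inl ⟨h.cl, hne, fun h2 => ?_, fun h2 => ?_, _, _, inf_le_left, hZ, (Nt.chief hV.nat).1,
      (Nt.chief hV.nat).2, h0, iter_le (isPGroup_pCore p G) (pCoreOf_top p G ▸ h.res)⟩
    · subst h2
      refine exponent_eq_sq h.pow2 fun h3 => hne (H6Basic.commutator_eq_bot_iff'.2 fun a ha b hb => ?_)
      have e : ∀ t ∈ (S : Subgroup G), t⁻¹ = t := fun t ht =>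
        inv_eq_of_mul_eq_one_right (by rw [← sq]; exact h3 t ht)
      rw [← e _ (mul_mem ha hb), mul_inv_rev, e a ha, e b hb]
    · refine ((Nat.dvd_prime Fact.out).1 (exponent_dvd.2 (h.pow1 h2))).resolve_left fun e => hne ?_
      have := exponent_dvd.1 e.dvd
      rw [(eq_bot_iff_forall (S : Subgroup G)).2 fun x hx => by simpa using this x hx]
      simp
  · haveI : V.Normal := normal_iff_top_le.2 h.nt.norm
    obtain rfl := h.three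
    refine Or.inr ⟨rfl, h.cl, h.ne, exponent_eq_sq h.pow2 fun h3 => ?_, _, _, V, C, inf_le_left, h.le,
      h.nt.le, pCoreOf_top 3 G ▸ h.leQ, (Nt.chief hV.nat).1, (Nt.chief h.nt).1, (Nt.chief hV.nat).2,
      (Nt.chief h.nt).2, h0, ⟨1, h.cC⟩, iter_le (isPGroup_pCore 3 G) (pCoreOf_top 3 G ▸ h.res)⟩
    obtain ⟨t, ht, h4⟩ := h.pow1
    exact h4 (h3 t ht)

end Cfsg.Agent.S2765
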