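import Cfsg.Statements.S2766
import Cfsg.Agent.Lib.Loc.H6Am3
import Cfsg.Agent.Lib.Loc.H6CL
import Cfsg.Agent.Lib.Loc.H6Qd
import Cfsg.Agent.Lib.Grp.NPC2
import Cfsg.Agent.Lib.Lin.SLnGen

set_option autoImplicit false
open Cfsg

set_option linter.unusedVariables false
set_option linter.unusedSimpArgs false
set_option linter.style.haveILetI false

namespace Cfsg.Agent.S2766

open CA CA.H6Nat CA.H6Nat2 CA.H6Core CA.H6Core2 CA.H6E0 CA.H6Bau CA.H6Am1 CA.H6Am3 CA.H6CL CA.H6Qd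
open CA.Amb CA.AmbSyl CA.AmbCore CA.AmbRes CA.AmbSpe CA.AmbWC CA.AmbFs Subgroup
open scoped commutatorElement MatrixGroups Matrix

section
variable {H : Type*} [Group H] [Finite H] {p : ℕ} [Fact p.Prime] {F : Type*} [Field F] [Finite F] [CharP F p]

theorem tr_center {X T : Subgroup H} (hT : SylIn p T X) : T ⊓ ⁅X, X⁆ ⊓ 𝐂 X ≤ ⁅T, T⁆ := by
  rintro x ⟨⟨h1, h2⟩, h3⟩
  obtain ⟨k, hk⟩ := isPGroup_iff_mem.1 hT.pg x h1
  have := NPC2.mem_commutator_sylow_of_center (G := X) (H := T.subgroupOf X) hT.not_dvd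
    (x := ⟨x, hT.le h1⟩) h1 (e := k) (Subtype.ext hk)
    (by rw [← map_subtype_commutator] at h2; obtain ⟨y, hy, rfl⟩ := h2; exact hy)
    (mem_center_iff.2 fun g => Subtype.ext (mem_centralizer_sub.1 h3 g g.2))
  have := mem_map_of_mem X.subtype this
  rwa [map_commutator, map_subgroupOf_eq_of_le hT.le] at this

theorem split (hp : 5 ≤ p) {X T Q : Subgroup H} (h : Nt F X Q (Q ⊓ 𝐂 X)) (hQ : IsElementaryAbelian p Q)
    (hQX : Q ≤ X) (hK : X ⊓ Kn Q (Q ⊓ 𝐂 X) ≤ Q) (hT : SylIn p T X) (hd : ⁅T, T⁆ ≤ ⁅Q, X⁆) :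
    IsInternalDirectProduct ⁅X, X⁆ (Q ⊓ 𝐂 X) X ∧ Nonempty (↥⁅X, X⁆ ≃* qdOver F) := by
  obtain ⟨d, hd'⟩ := acts_iff.1 h
  have h2 : (2 : F) ≠ 0 := fun e => by
    have := Nat.le_of_dvd two_pos ((CharP.cast_eq_zero_iff F p 2).1 (by exact_mod_cast e)); omega
  obtain ⟨t, ht, e⟩ := (d.mem_rim le_rfl).1 (hd'.ge (mem_top (-1)))
  have hr : ∀ {g}, g ∈ X → (d.r g = 1 ↔ g ∈ Q) := fun hg =>
    ⟨fun e => hK ⟨hg, (d.mem_Kn hg).2 e⟩, fun e => (d.mem_Kn hg).1 (d.le_Kn e)⟩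
  have hc : ∀ {g}, g ∈ X → ⁅g, t⁆ ∈ Q := fun {g} hg => (hr (comm_le_of_le le_rfl le_rfl
    (commutator_mem_commutator hg ht))).1 (by
      rw [commutatorElement_def, d.r_mul (mul_mem (mul_mem hg ht) (inv_mem hg)) (inv_mem ht), d.r_conj hg ht,
        d.r_inv ht, e]; simp)
  have h3 : ∀ {z}, z ∈ Q → d.ψ ⁅z, t⁆ = (2 : F) • d.ψ z := fun hz => by
    rw [d.ψ_comm' ht hz, e, two_smul]; simp [Matrix.neg_mulVec]
  let θ : X →* qdOver F := MonoidHom.mk' (fun g => aff (d.r g) (d.ψ ⁅(g : H), t⁆)) fun a b => by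
    rw [aff_mul, coe_mul, d.r_mul a.2 b.2, commutatorElement_mul_left_eq_conj_mul,
      d.ψ_mul (d.conj_mem a.2 (hc b.2)) (hc a.2), d.act a.2 (hc b.2), add_comm, mv_def]
  have hker : ∀ g : X, θ g = 1 → (g : H) ∈ Q ⊓ 𝐂 X := fun g hg => by
    obtain ⟨e1, e2⟩ := aff_eq_one.1 hg
    have := (hr g.2).1 e1
    rw [h3 this] at e2
    exact (d.ψ_zero this).1 ((smul_eq_zero.1 e2).resolve_left h2)
  have hsurj : Function.Surjective θ := fun x => by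
    obtain ⟨M, c, rfl⟩ := exists_aff x
    obtain ⟨g, hg, rfl⟩ := (d.mem_rim le_rfl).1 (hd'.ge (mem_top M))
    obtain ⟨z, hz, ez⟩ := d.ψ_surj ((2 : F)⁻¹ • (c - d.ψ ⁅g, t⁆))
    refine ⟨⟨z, hQX hz⟩ * ⟨g, hg⟩, ?_⟩
    rw [map_mul]
    change aff _ _ * aff _ _ = _
    rw [aff_mul, (hr (hQX hz)).2 hz, h3 hz, ez, smul_inv_smul₀ h2]
    simp
  have hab : ∀ {a b}, a ∈ Q → b ∈ Q → a * b = b * a := fun ha hb =>
    mem_centralizer_sub.1 (ea_le_cent hQ hb) _ ha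
  have hN : ⁅Q, X⁆ ⊓ 𝐂 X = ⊥ := by
    let l : Q →* H := MonoidHom.mk' (fun z => z * (t * z * t⁻¹)) fun a b => by
      rw [coe_mul, ← conj_mul, mul_assoc, ← mul_assoc (b : H), hab b.2 (d.conj_mem ht a.2)]
      simp only [mul_assoc]
    have hle : ⁅Q, X⁆ ≤ l.ker.map Q.subtype := commutator_le.2 fun z hz g hg => by
      refine ⟨⟨z, hz⟩ * (⟨_, d.conj_mem hg hz⟩ : Q)⁻¹, ?_, by simp [commutatorElement_def, mul_assoc]⟩
      have h5 : z * (t * z * t⁻¹) ∈ Q ⊓ 𝐂 X := (d.ψ_zero (mul_mem hz (d.conj_mem ht hz))).1 (by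
        rw [d.ψ_mul hz (d.conj_mem ht hz), d.act ht hz, e]; simp [Matrix.neg_mulVec])
      have h6 := hab (hc (inv_mem hg)) (d.conj_mem ht hz)
      have h7 := mem_centralizer_sub.1 h5.2 g hg
      rw [SetLike.mem_coe, MonoidHom.mem_ker, map_mul, map_inv, mul_inv_eq_one]
      change z * (t * z * t⁻¹) = g * z * g⁻¹ * (t * (g * z * g⁻¹) * t⁻¹)
      calc _ = g * (z * (t * z * t⁻¹)) * g⁻¹ := by rw [h7]; group
        _ = g * z * (t * z * t⁻¹ * ⁅g⁻¹, t⁆) * ⁅g⁻¹, t⁆⁻¹ * g⁻¹ := by group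
        _ = _ := by rw [← h6, commutatorElement_def]; group
    refine (eq_bot_iff_forall _).2 fun z hz => ?_
    obtain ⟨y, hy, rfl⟩ := hle hz.1
    have h4 : (y : H) * (t * y * t⁻¹) = 1 := hy
    rw [show t * y = y * t from mem_centralizer_sub.1 hz.2 t ht, mul_inv_cancel_right, ← sq] at h4
    exact orderOf_eq_one_iff.1 (Nat.eq_one_of_dvd_coprimes ((Nat.coprime_primes Nat.prime_two Fact.out).2
      (by omega)) (orderOf_dvd_of_pow_eq_one h4) (orderOf_dvd_of_pow_eq_one (ea_pow hQ y.2)))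
  have hXX : ⁅X, X⁆ ≤ X := comm_le_of_le le_rfl le_rfl
  have hi : ⁅X, X⁆ ⊓ (Q ⊓ 𝐂 X) = ⊥ := le_bot_iff.1 (hN ▸ le_inf ((le_inf (le_inf (inf_le_right.trans
    (inf_le_left.trans (hT.le_of_norm (ea_pg hQ) hQX (hT.le.trans h.norm)))) inf_le_left)
    (inf_le_right.trans inf_le_right)).trans ((tr_center hT).trans hd)) (inf_le_right.trans inf_le_right))
  have hs : ⁅X, X⁆ ⊔ (Q ⊓ 𝐂 X) = X := by
    refine le_antisymm (sup_le hXX (inf_le_left.trans hQX)) ((d.le_sup_of_rim_le le_rfl hXX ?_).trans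
      (sup_le le_sup_left (hK.trans ((h.le_sup (commutator_le_left_of_norm h.norm) (norm_comm_right _ _)
      fun hle => h.not_le_Kn (le_Kn_iff.2 ⟨h.norm₀, hle⟩)).trans
      (sup_le_sup_right (commutator_mono hQX le_rfl) _)))))
    obtain ⟨n, hn, hF⟩ := SL2Unip.exists_card_eq_pow (F := F) p
    have := SLnGen.commutator_eq_top (ι := Fin 2) (F := F) (Or.inr (SLnGen.exists_sq_ne_one
      (hF ▸ le_trans (by omega) (Nat.le_self_pow hn.ne' p))))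
    rw [hd', ← this, ND.rim, ← map_subtype_commutator, subgroupOf, comap_map_eq_self_of_injective
      X.subtype_injective, _root_.commutator_def, _root_.commutator_def, map_commutator,
      ← MonoidHom.range_eq_map, ← d.rim_self, hd']
  refine ⟨⟨hXX, inf_le_left.trans hQX, fun a ha b hb => mem_centralizer_sub.1 hb.2 a (hXX ha), hi, hs⟩,
    ⟨MulEquiv.ofBijective (θ.comp (inclusion hXX)) ⟨(injective_iff_map_eq_one _).2 fun g hg =>
      Subtype.ext (hi.le ⟨g.2, hker _ hg⟩), fun x => ?_⟩⟩⟩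
  obtain ⟨⟨g, hg⟩, rfl⟩ := hsurj x
  obtain ⟨a, ha, b, hb, rfl⟩ := (mem_sup_of_norm (hXX.trans h.norm₀)).1 (hs.ge hg)
  refine ⟨⟨a, ha⟩, Eq.symm ((θ.map_mul ⟨a, hXX ha⟩ ⟨b, hQX hb.1⟩).trans (mul_eq_left.2 ?_))⟩
  exact aff_eq_one.2 ⟨(hr (hQX hb.1)).2 hb.1, by rw [h3 hb.1, (d.ψ_zero hb.1).2 hb, smul_zero]⟩

/-- the hypotheses on a maximal local subgroup -/
structure Hy (p : ℕ) (F : Type*) (X T : Subgroup H) : Prop where
  r1 : ∃ M, R1 p (Nat.card F) X T M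
  ch : AmbChar.CharP p X
  mx : ∀ W : Subgroup H, IsPGroup p W → W ≠ ⊥ → X ≤ 𝐍 W → 𝐍 W = X
  nn : ¬ 𝐍 T ≤ X

omit [Field F] [Finite F] [CharP F p] in
theorem Hy.conj {X T : Subgroup H} (h : Hy p F X T) {n : H} (hn : n ∈ 𝐍 T) : Hy p F (cj n X) T := by
  obtain ⟨⟨M, h1⟩, h2, h3, h4⟩ := h
  refine ⟨⟨_, cj_eq_self hn ▸ h1.conj n⟩, h2.conj n, fun W w1 w2 w3 => ?_, fun hle => h4 ?_⟩
  · rw [← h3 (cj n⁻¹ W) (isPGroup_cj w1 _) (by rwa [Ne, cj_eq_bot]) (by rwa [← cj_normalizer, ← cj_le_iff]),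
      cj_normalizer, cj_cj_inv]
  · rwa [← cj_eq_self hn, ← cj_normalizer, cj_le_cj] at hle

theorem Hy.out (hp : 5 ≤ p) {X T : Subgroup H} (h : Hy p F X T) : (∃ M, VS p F X T M) ∧ OutA p X T := by
  obtain ⟨M, h1⟩ := h.r1
  obtain ⟨h2, h3⟩ := pu_amb h1 h.ch fun W w1 w2 w3 => by_contra fun e =>
    h.nn (h.mx W (h1.syl.pg.to_le w1) e w2 ▸ w3)
  exact ⟨⟨M, h2⟩, h3.resolve_right fun ⟨_, _, h⟩ => by have := h.three; omega⟩

omit [Field F] [Finite F] [CharP F p] in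
theorem norm_ZZ {X Y T M M' : Subgroup H} (h : VS p F X T M) (h' : VS p F Y T M') (ho : OutA p X T)
    (hle : Zo p Y ≤ pCoreOf p X) : X ≤ 𝐍 (Zo p X ⊔ Zo p Y) :=
  le_of_syl_of_res h.r1.syl (norm_sup (h.r1.syl.le.trans (norm_Zo p X)) (h'.r1.syl.le.trans (norm_Zo p Y)))
    (norm_of_commutator_le (comm_sup_le (norm_of_le le_sup_left) (norm_of_le le_sup_right)
      (le_sup_of_le_left (commutator_le_left_of_norm ((res_le p X).trans (norm_Zo p X))))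
      (le_sup_of_le_left ((commutator_mono hle le_rfl).trans ho.res))))

omit [Field F] [Finite F] [CharP F p] in
theorem Phi_eq {X Y T : Subgroup H} (h : SylIn p T X) (h' : SylIn p T Y) (e : T = Zo p X ⊔ pCoreOf p Y) :
    Phi (pCoreOf p X) = Phi (pCoreOf p Y ⊓ pCoreOf p X) := by
  rw [← Phi_sup (E := Zo p X) ((isPGroup_pCoreOf p X).to_le inf_le_right) (ea_OZ _ _)
    ((OZ_le_cent _ _).trans (centralizer_anti inf_le_right)), sup_comm, ← sup_inf_of_norm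
    (((Zo_le_syl h).trans h'.le).trans (norm_pCoreOf p Y)) (Zo_le p X), ← e,
    inf_eq_right.2 (pCoreOf_le_syl h)]

end


/-- Let p ≥ 5 be prime and G a maximal p-local subgroup of a finite group H (G is the normalizer of a nontrivial p-subgroup and lies in no other such normalizer). Suppose C_G(O_p(G)) ≤ O_p(G), G/K ≅ PSL₂(p^n) for some normal K and n ≥ 1, a Sylow p-subgroup S of G lies in exactly one maximal subgroup of G, and N_H(S) is not contained in G. Then G = G₀ × E for subgroups G₀ ≅ Qd(p^n) (the natural semidirect product of the plane over the field with p^n elements by SL₂) and E an elementary abelian p-group. -/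
theorem result {H : Type*} [Group H] [Finite H] {p : ℕ} [Fact p.Prime] (hp : 5 ≤ p) (G : Subgroup H) (hloc : ∃ R : Subgroup H, IsPGroup p ↥R ∧ R ≠ ⊥ ∧ G = Subgroup.normalizer (R : Set H)) (hmax : ∀ R : Subgroup H, IsPGroup p ↥R → R ≠ ⊥ → G ≤ Subgroup.normalizer (R : Set H) → Subgroup.normalizer (R : Set H) = G) (S : Sylow p ↥G) (hE₁ : Subgroup.centralizer (Cfsg.pCore p ↥G : Set ↥G) ≤ Cfsg.pCore p ↥G) (hE₂ : ∃! M : Subgroup ↥G, IsCoatom M ∧ (S : Subgroup ↥G) ≤ M) (K : Subgroup ↥G) [K.Normal] (F : Type) [Field F] [Fintype F] (n : ℕ) (hn : 1 ≤ n) (hF : Fintype.card F = p ^ n) (hE₃ : Nonempty (↥G ⧸ K ≃* Matrix.ProjectiveSpecialLinearGroup (Fin 2) F)) (hN : ¬ Subgroup.normalizer (((S : Subgroup ↥G).map G.subtype : Subgroup H) : Set H) ≤ G) : ∃ G₀ E : Subgroup H, Cfsg.IsInternalDirectProduct G₀ E G ∧ Cfsg.IsElementaryAbelian p E ∧ Nonempty (↥G₀ ≃* ↥(Cfsg.qdOver F)) := by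
  have hq : Nat.card F = p ^ n := by rw [Nat.card_eq_fintype_card, hF]
  haveI := charP_of_card hq
  obtain ⟨M, hR⟩ := r1_of S hE₂ hE₃
  have hR := hR.map G.subtype (by rw [ker_subtype, inf_bot_eq]; exact bot_le)
  rw [map_subtype_top] at hR
  generalize (S : Subgroup G).map G.subtype = T at hR hN
  have h : Hy p F G T := ⟨⟨_, hR⟩, AmbChar.charP_iff.2 hE₁, hmax, hN⟩
  obtain ⟨g, hg, hgG⟩ := SetLike.not_le_iff_exists.1 hN
  have h' := h.conj hg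
  obtain ⟨⟨M₀, v⟩, o⟩ := h.out hp
  obtain ⟨⟨M₁, v'⟩, o'⟩ := h'.out hp
  have hZ : Zo p G ≠ ⊥ := fun e => v.nat.not_le (e.le.trans bot_le)
  have key : ∀ W : Subgroup H, IsPGroup p W → G ≤ 𝐍 W → cj g G ≤ 𝐍 W → W = ⊥ := fun W w1 w2 w3 =>
    by_contra fun e => hgG ((h.mx _ (isPGroup_OZ _ _) hZ (norm_Zo p G)).le
      (norm_OZ (norm_pCoreOf_of_norm le_rfl) (mem_normalizer_of_cj_le (w3.trans (h.mx W w1 e w2).le))))
  have s := v.r1.syl
  have s' := v'.r1.syl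
  have h1 : ¬ Zo p (cj g G) ≤ pCoreOf p G := fun hle => by
    have hle' : Zo p G ≤ pCoreOf p (cj g G) := by_contra fun e =>
      (crit_pair v v' (Zo_le_syl s) (Zo_le_syl s') e).1 hle
    exact hZ (le_bot_iff.1 (le_sup_left.trans (key _ (s.pg.to_le (sup_le (Zo_le_syl s) (Zo_le_syl s')))
      (norm_ZZ v v' o hle) (by rw [sup_comm]; exact norm_ZZ v' v o' hle')).le))
  obtain ⟨h2, h3⟩ := crit_pair v' v (Zo_le_syl s') (Zo_le_syl s) h1
  obtain ⟨-, h4⟩ := crit_pair v v' (Zo_le_syl s) (Zo_le_syl s') h2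
  have h5 := (PGFrattini.map_frattini_eq_bot_iff (isPGroup_pCoreOf p G)).1
    (key (Phi (pCoreOf p G)) ((isPGroup_pCoreOf p G).to_le (Phi_le _)) (norm_Phi (norm_pCoreOf p G)) (by
      rw [Phi_eq s s' h3, inf_comm, ← Phi_eq s' s h4]; exact norm_Phi (norm_pCoreOf p _)))
  have h6 : Zo p G = pCoreOf p G := le_antisymm (Zo_le p G) (le_OZ' h5 le_rfl (ea_le_cent h5))
  obtain ⟨h7, h8⟩ := split hp v.nat (ea_OZ _ _) ((Zo_le p G).trans (pCoreOf_le p G))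
    ((le_inf inf_le_left v.Kn_le).trans ((o.cent_le h.ch).trans h6.ge)) s (by
      refine (der_le h4 (s.le.trans (norm_pCoreOf p G)) (s.le.trans (norm_comm_right _ _)) (OZ_cent _ _)
        (commutator_mono h6.ge ((Zo_le_syl s').trans s.le))).trans (sup_le ?_ le_rfl)
      rw [comm_eq_bot_of_le (ea_le_cent h5)]; exact bot_le)
  exact ⟨_, _, h7, ea_of_le (ea_OZ _ _) inf_le_left, h8⟩

end Cfsg.Agent.S2766
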