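import Cfsg.Statements.S2768
import Cfsg.Agent.Lib.Loc.H6Bau

set_option autoImplicit false
open Cfsg

set_option linter.unusedVariables false
set_option linter.unusedSimpArgs false
set_option linter.style.haveILetI false

namespace Cfsg.Agent.S2768

open CA CA.H6Nat CA.H6Nat2 CA.H6Core CA.H6Core2 CA.H6E0 CA.H6Bau CA.Amb CA.AmbSyl CA.AmbCore CA.AmbRes CA.AmbSpe CA.AmbWC Subgroup
open scoped commutatorElement MatrixGroups

/-- Let G be a finite group and p a prime with C_G(O_p(G)) ≤ O_p(G), such that a Sylow p-subgroup S lies in exactly one maximal subgroup of G and G/K ≅ PSL₂(p^n) for some normal K and n ≥ 1. Put J̃(S) = C_S(Z(J(S))), where J(S) is generated by the abelian subgroups of S of largest order. If Z(S) is not normal in G, then J̃(S) is a Sylow p-subgroup of its normal closure ⟨J̃(S)^G⟩. -/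
theorem result {G : Type*} [Group G] [Finite G] {p : ℕ} [Fact p.Prime] (S : Sylow p G) (hE₁ : Subgroup.centralizer (Cfsg.pCore p G : Set G) ≤ Cfsg.pCore p G) (hE₂ : ∃! M : Subgroup G, IsCoatom M ∧ (S : Subgroup G) ≤ M) (K : Subgroup G) [K.Normal] (F : Type) [Field F] [Fintype F] (n : ℕ) (hn : 1 ≤ n) (hF : Fintype.card F = p ^ n) (hE₃ : Nonempty (G ⧸ K ≃* Matrix.ProjectiveSpecialLinearGroup (Fin 2) F)) (hZ : ¬ ((S : Subgroup G) ⊓ Subgroup.centralizer ((S : Subgroup G) : Set G)).Normal) : ∃ P : Sylow p ↥(Subgroup.normalClosure (((S : Subgroup G) ⊓ Subgroup.centralizer (Cfsg.centerThompsonAOf (S : Subgroup G) : Set G)) : Set G)), (P : Subgroup ↥(Subgroup.normalClosure (((S : Subgroup G) ⊓ Subgroup.centralizer (Cfsg.centerThompsonAOf (S : Subgroup G) : Set G)) : Set G))) = (((S : Subgroup G) ⊓ Subgroup.centralizer (Cfsg.centerThompsonAOf (S : Subgroup G) : Set G))).subgroupOf (Subgroup.normalClosure (((S : Subgroup G) ⊓ Subgroup.centralizer (Cfsg.centerThompsonAOf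 (S : Subgroup G) : Set G)) : Set G)) := by
  have hq : Nat.card F = p ^ n := by rw [Nat.card_eq_fintype_card, hF]
  haveI := charP_of_card hq
  obtain ⟨M, hR⟩ := r1_of S hE₂ hE₃
  have hc : AmbChar.CharP p (⊤ : Subgroup G) := AmbChar.charP_top_iff.2 hE₁
  rw [H6J.centerThompsonAOf_eq, H6J.Z, ← OZ_zero]
  have hnt : ¬ ⊤ ≤ 𝐂 (OZ 0 (S : Subgroup G)) := fun h' => hZ (normal_iff_top_le.2
    (by rw [← OZ_zero]; exact norm_of_centralizer h'))
  have : SylIn p (Bm 0 (S : Subgroup G)) (ncl (Bm 0 (S : Subgroup G)) ⊤) := by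
    by_cases hJ : H6J.J 0 (S : Subgroup G) ≤ pCoreOf p ⊤
    · rw [ncl_eq_self (case1 hR hc hnt hJ).2]
      exact sylIn_self (hR.syl.pg.to_le inf_le_left)
    · have := hR.syl.inf_norm (N := ncl (Bm 0 (S : Subgroup G)) ⊤) le_top (norm_ncl _ _)
      rwa [(case2 hR hc hnt hJ rfl).2.2.1] at this
  rw [ncl_top] at this
  exact ⟨this.toSylow, rfl⟩

end Cfsg.Agent.S2768
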