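import Cfsg.Statements.S2770
import Cfsg.Agent.Lib.Loc.H6Bau

set_option autoImplicit false
open Cfsg

set_option linter.unusedVariables false
set_option linter.unusedSimpArgs false
set_option linter.style.haveILetI false

namespace Cfsg.Agent.S2770

open CA CA.H6Nat CA.H6Nat2 CA.H6Core CA.H6Core2 CA.H6E0 CA.H6Bau CA.Amb CA.AmbSyl CA.AmbCore CA.AmbRes CA.AmbSpe CA.AmbWC Subgroup
open scoped commutatorElement MatrixGroups

/-- Let G be a finite group and p a prime with C_G(O_p(G)) ≤ O_p(G), S a Sylow p-subgroup lying in exactly one maximal subgroup of G, and G/K ≅ PSL₂(p^n) for some normal K and n ≥ 1. If Z(S) is not elementary abelian, then either ℧¹(Z(S)) (the subgroup generated by the p-th powers of the elements of Z(S)) is normal in G or C_S(Z(J(S))) is normal in G, J(S) being generated by the abelian subgroups of S of largest order. -/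
theorem result {G : Type*} [Group G] [Finite G] {p : ℕ} [Fact p.Prime] (S : Sylow p G) (hE₁ : Subgroup.centralizer (Cfsg.pCore p G : Set G) ≤ Cfsg.pCore p G) (hE₂ : ∃! M : Subgroup G, IsCoatom M ∧ (S : Subgroup G) ≤ M) (K : Subgroup G) [K.Normal] (F : Type) [Field F] [Fintype F] (n : ℕ) (hn : 1 ≤ n) (hF : Fintype.card F = p ^ n) (hE₃ : Nonempty (G ⧸ K ≃* Matrix.ProjectiveSpecialLinearGroup (Fin 2) F)) (h : ¬ Cfsg.IsElementaryAbelian p ((S : Subgroup G) ⊓ Subgroup.centralizer ((S : Subgroup G) : Set G))) : (Cfsg.powerClosure p 1 ((S : Subgroup G) ⊓ Subgroup.centralizer ((S : Subgroup G) : Set G))).Normal ∨ (((S : Subgroup G) ⊓ Subgroup.centralizer (Cfsg.centerThompsonAOf (S : Subgroup G) : Set G))).Normal := by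
  have hq : Nat.card F = p ^ n := by rw [Nat.card_eq_fintype_card, hF]
  haveI := charP_of_card hq
  obtain ⟨M, hR⟩ := r1_of S hE₂ hE₃
  have hc : AmbChar.CharP p (⊤ : Subgroup G) := AmbChar.charP_top_iff.2 hE₁
  rw [H6J.centerThompsonAOf_eq, H6J.Z, ← OZ_zero (H6J.J 0 _), ← OZ_zero]
  have hle : Cfsg.powerClosure p 1 (OZ 0 (S : Subgroup G)) ≤ OZ 0 (S : Subgroup G) := by
    rw [Cfsg.powerClosure, closure_le]
    rintro _ ⟨x, hx, rfl⟩
    exact pow_mem hx _
  by_cases hnt : ⊤ ≤ 𝐂 (OZ 0 (S : Subgroup G))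
  · exact Or.inl (normal_iff_top_le.2 (norm_of_centralizer (hnt.trans (centralizer_anti hle))))
  by_cases hJ : H6J.J 0 (S : Subgroup G) ≤ pCoreOf p ⊤
  · exact Or.inr (normal_iff_top_le.2 (case1 hR hc hnt hJ).2)
  refine Or.inl (normal_iff_top_le.2 (norm_of_centralizer (cent_symm ?_)))
  rw [Cfsg.powerClosure, closure_le]
  rintro _ ⟨x, hx, rfl⟩
  rw [← OZ_inf hc hR.syl] at hx
  rw [pow_one]
  exact ((nat_OZ hR hc hnt hJ rfl).1.pow_mem hx.1).2

end Cfsg.Agent.S2770
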