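import Cfsg.Statements.S2772
import Cfsg.Agent.Lib.Loc.AmbChar
import Cfsg.Agent.Lib.Loc.AmbS3b
import Cfsg.Agent.Lib.Loc.H6J
-- import your own Cfsg.Agent.* helpers here

set_option autoImplicit false
open Cfsg

namespace Cfsg.Agent.S2772

section Aux
open Subgroup Cfsg CA CA.Amb CA.AmbSyl CA.AmbCore CA.AmbRes CA.AmbChar CA.AmbSpe CA.AmbRed CA.AmbIso CA.AmbS3 CA.AmbS3b
open scoped commutatorElement

theorem idx_le {H : Type*} [Group H] {G B : Subgroup H} [Finite B] {v : H} (h : ∀ g ∈ G, ⁅g, v⁆ ∈ B) :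
    (centralizer {v}).relIndex G ≤ Nat.card B := by
  refine Nat.card_le_card_of_injective (fun q : G ⧸ (centralizer {v}).subgroupOf G =>
    (⟨⁅(q.out : H), v⁆, h _ q.out.2⟩ : B)) fun a b e => ?_
  rw [← a.out_eq, ← b.out_eq]
  refine QuotientGroup.eq.2 (mem_subgroupOf.2 (mem_cent_iff.2 ?_))
  have := mul_right_cancel (Subtype.ext_iff.1 e : (a.out : H) * v * (a.out : H)⁻¹ * v⁻¹ =
    (b.out : H) * v * (b.out : H)⁻¹ * v⁻¹)
  push_cast
  calc _ = (a.out : H)⁻¹ * ((b.out : H) * v * (b.out : H)⁻¹) * a.out := by group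
    _ = v := by rw [← this]; group

end Aux

/-- Sims' Theorem in local form: let H be a finite non-abelian simple group and G a maximal subgroup of H with C_G(O₂(G)) ≤ O₂(G), such that N_H(S) is not contained in G for a Sylow 2-subgroup S of G and G/O₂(G) is dihedral of order 2q for a prime q. Then G is isomorphic to the symmetric group of degree 4 or to its direct product with a group of order 2. -/
theorem result {H : Type*} [Group H] [Finite H] [IsSimpleGroup H] (hna : ¬ IsMulCommutative H) (G : Subgroup H) (hG : IsCoatom G) (hchar : Subgroup.centralizer (Cfsg.pCore 2 ↥G : Set ↥G) ≤ Cfsg.pCore 2 ↥G) (S : Sylow 2 ↥G) (hN : ¬ Subgroup.normalizer (((S : Subgroup ↥G).map G.subtype : Subgroup H) : Set H) ≤ G) (q : ℕ) (hq : q.Prime) (hD : Nonempty (↥G ⧸ Cfsg.pCore 2 ↥G ≃* DihedralGroup q)) : Nonempty (↥G ≃* Equiv.Perm (Fin 4)) ∨ Nonempty (↥G ≃* Equiv.Perm (Fin 4) × Multiplicative (ZMod 2)) := by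
  open Subgroup Cfsg CA CA.Amb CA.AmbSyl CA.AmbCore CA.AmbRes CA.AmbChar CA.AmbSpe CA.AmbRed CA.AmbIso CA.AmbS3 CA.AmbS3b in
  open scoped commutatorElement in
  (
    obtain ⟨e⟩ := hD
    have := NeZero.mk hq.ne_zero
    have hT := sylIn_sylow S
    generalize (S : Subgroup G).map G.subtype = T at hT hN
    obtain ⟨x, x1, x2⟩ := SetLike.not_le_iff_exists.1 hN
    have key : ∀ N, N ≤ G → G ≤ 𝐍 N → x ∈ 𝐍 N → N = ⊥ := fun N a b c =>
      (normal_iff_top_le.2 (hG.2 _ (lt_of_le_of_ne b fun l => x2 (l ▸ c))).ge).eq_bot_or_eq_top.resolve_right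
        fun l => hG.1 (top_le_iff.1 (l ▸ a))
    have hc : CharP 2 G := charP_iff.2 hchar
    have i1 : (pCoreOf 2 G).relIndex G = 2 * q := by
      rw [relIndex, subgroupOf_pCoreOf, index, Nat.card_congr e.toEquiv, DihedralGroup.nat_card]
    have hQ := pCoreOf_le_syl hT
    have q2 : q ≠ 2 := by
      rintro rfl
      have : IsPGroup 2 (G ⧸ pCore 2 G) := IsPGroup.of_card (n := 2) (by
        rw [Nat.card_congr e.toEquiv, DihedralGroup.nat_card]; rfl)
      have h1 := le_pCore (N := ⊤) inferInstance (this.to_subgroup ⊤)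
      rw [pCore_quotient_pCore] at h1
      have h2 := Nat.card_congr e.toEquiv
      rw [DihedralGroup.nat_card, ← card_top, le_bot_iff.1 h1, card_bot] at h2
      omega
    have i2 : (pCoreOf 2 G).relIndex T = 2 ∧ T.relIndex G = q := by
      have h1 := relIndex_mul_relIndex _ _ _ hQ hT.le
      obtain ⟨n, hn⟩ := hT.pg.index ((pCoreOf 2 G).subgroupOf T)
      change (pCoreOf 2 G).relIndex T = _ at hn
      have h2 := hT.not_dvd
      rw [i1, hn] at h1
      rw [hn]
      rcases n with _ | _ | n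
      · exact absurd (Dvd.intro _ (by simpa using h1.symm)) h2
      · simpa using h1
      · exfalso
        refine q2 ((Nat.prime_dvd_prime_iff_eq Nat.prime_two hq).1 ⟨2 ^ n * T.relIndex G, ?_⟩).symm
        apply Nat.eq_of_mul_eq_mul_left two_pos
        rw [← h1]; ring
    have top : ∀ K, T ≤ K → K ≤ G → K = T ∨ K = G := fun K a b =>
      PGBasic.eq_or_eq_of_relIndex_prime hq i2.2 a b
    have T0 : T ≠ ⊥ := hT.ne_bot (by rw [← card_mul_relIndex (pCoreOf_le 2 G), i1]; exact ⟨_ * q, by ring⟩)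
    have nc : ¬ G ≤ 𝐂 (OZ 2 T) := fun k => OZ_ne_bot hT.pg T0 (key _ ((OZ_le 2 T).trans hT.le)
      (norm_of_centralizer k) (normalizer_le_OZ 2 T x1))
    have hV := red_ZL hc
    have cV : G ⊓ 𝐂 (ZL 2 G) ≤ pCoreOf 2 G := by
      rcases top (T ⊔ (G ⊓ 𝐂 (ZL 2 G))) le_sup_left (sup_le hT.le inf_le_left) with k | k
      · exact le_pCoreOf inf_le_left (hT.pg.to_le (le_sup_right.trans k.le))
          (norm_inf le_normalizer (norm_centralizer hV.norm))
      · exact absurd (k.ge.trans (sup_le (le_cent_OZ 2 T) (inf_le_right.trans (centralizer_anti (OZ_le_ZL hT))))) nc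
    have vQ := hV.le_OZ.trans (OZ_le 2 _)
    have vC := cent_symm (hV.le_OZ.trans (OZ_le_cent 2 _))
    have hn := hV.norm
    have hea := hV.ea
    generalize ZL 2 G = V at *
    obtain ⟨A, hA, a1⟩ : ∃ A ∈ H6J.mx 2 T, ¬ A ≤ pCoreOf 2 G := by
      by_contra! k
      have h1 := H6J.J_eq_of_J_le (H6J.J_le_iff.2 k) hQ
      refine H6J.J_ne_bot (p := 2) (n := 2) dvd_rfl (dvd_card_of_isPGroup hT.pg T0) (key _ ((H6J.J_le 2 T).trans hT.le)
        ?_ (H6J.normalizer_le_normalizer_J 2 T x1))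
      rw [← h1]
      exact (norm_pCoreOf 2 G).trans (H6J.normalizer_le_normalizer_J 2 _)
    obtain ⟨a2, a3, a4⟩ := H6J.mem_mx.1 hA
    have a5 := H6J.isAb_iff_isElementaryAbelian.1 a3
    have s1 : pCoreOf 2 G ⊔ A = T := (PGBasic.eq_or_eq_of_relIndex_prime Nat.prime_two i2.1 le_sup_left
      (sup_le hQ a2)).resolve_left fun k => a1 (le_sup_right.trans k.le)
    have nA : ¬ V ≤ 𝐂 A := fun k => a1 ((le_inf (a2.trans hT.le) (cent_symm k)).trans cV)
    have i3 : (𝐂 A).relIndex V = 2 := by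
      have h1 := card_sup_mul_card_inf (H := pCoreOf 2 G ⊓ A) (N := V) ((inf_le_right.trans (a2.trans hT.le)).trans hn)
      have h2 := a4 _ (sup_le (inf_le_right.trans a2) (vQ.trans hQ)) (H6J.isAb_iff_isElementaryAbelian.2
        (ea_sup (ea_of_le a5 inf_le_right) hea (inf_le_left.trans vC)))
      have h3 := card_inf_mul_relIndex (pCoreOf 2 G) A
      rw [← relIndex_sup_of_norm ((a2.trans hT.le).trans (norm_pCoreOf 2 G)), sup_comm, s1, i2.1] at h3
      have h4 := card_inf_mul_relIndex (𝐂 A) V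
      have h5 : Nat.card ↥(pCoreOf 2 G ⊓ A ⊓ V) ≤ Nat.card ↥(𝐂 A ⊓ V) :=
        card_le_of_le (inf_le_inf_right _ (inf_le_right.trans (ea_le_cent a5)))
      have h6 : 0 < Nat.card ↥(pCoreOf 2 G ⊓ A) := Nat.card_pos
      have h7 : 0 < Nat.card ↥(𝐂 A ⊓ V) := Nat.card_pos
      have h8 := mt relIndex_eq_one.1 nA
      have h9 := relIndex_ne_zero (𝐂 A) V
      suffices (𝐂 A).relIndex V ≤ 2 by omega
      refine Nat.le_of_mul_le_mul_left (Nat.le_of_mul_le_mul_left ?_ h7) h6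
      calc _ = Nat.card V * Nat.card ↥(pCoreOf 2 G ⊓ A) := by rw [← h4]; ring
        _ ≤ Nat.card A * Nat.card ↥(𝐂 A ⊓ V) := by rw [mul_comm, ← h1]; exact Nat.mul_le_mul h2 h5
        _ = _ := by rw [← h3]; ring
    have c2 := (comm_two hea a5 (commutator_le_left_of_norm ((a2.trans hT.le).trans hn))
      (fun a ha b hb k l => (mul_mem_of_two i3 ha hb).2 (iff_of_false k l))
      (fun a ha b hb k l => vC ((mul_mem_of_two i2.1 (a2 ha) (a2 hb)).2 (iff_of_false (mt (vC ·) k) (mt (vC ·) l))))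
      nA).1
    obtain ⟨g, g1, g2⟩ : ∃ g ∈ G, ¬ cj g A ≤ T := by
      by_contra! k
      exact a1 (le_pCoreOf_of_forall_conj hT.le hT.pg fun g hg => le_cj_iff.2 (k _ (inv_mem hg)))
    have g3 : cj g A ≤ G := cj_le_of_mem (a2.trans hT.le) g1
    have s2 := (top _ le_sup_left (sup_le hT.le g3)).resolve_left fun k => g2 (le_sup_right.trans k.le)
    have c3 : Nat.card ↥⁅V, cj g A⁆ = 2 := by rw [← cj_eq_self (hn g1), ← cj_commutator, card_cj, c2]
    have b1 := commutator_le_left_of_norm ((a2.trans hT.le).trans hn)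
    have b2 := commutator_le_left_of_norm (g3.trans hn)
    have c4 : Nat.card ↥(⁅V, A⁆ ⊔ ⁅V, cj g A⁆) ≤ 4 := by
      have := card_sup_mul_card_inf (H := ⁅V, A⁆) (N := ⁅V, cj g A⁆)
        (norm_of_centralizer ((b1.trans (ea_le_cent hea)).trans (centralizer_anti b2)))
      have h7 : 0 < Nat.card ↥(⁅V, A⁆ ⊓ ⁅V, cj g A⁆) := Nat.card_pos
      rw [c2, c3] at this
      nlinarith
    have c5 : ⁅V, G⁆ ≤ ⁅V, A⁆ ⊔ ⁅V, cj g A⁆ := by
      have l : ∀ L, ⁅V, L⁆ ≤ ⁅V, A⁆ ⊔ ⁅V, cj g A⁆ → L ≤ 𝐍 (⁅V, A⁆ ⊔ ⁅V, cj g A⁆ : Subgroup H) := fun L k =>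
        norm_of_commutator_le ((commutator_mono (sup_le b1 b2) le_rfl).trans k)
      have l1 : ⁅V, T⁆ ≤ ⁅V, A⁆ ⊔ ⁅V, cj g A⁆ := by
        rw [← s1, sup_comm (pCoreOf 2 G), comm_sup_cent ((a2.trans hT.le).trans hn) vC]; exact le_sup_left
      rw [← s2]
      exact comm_sup_le' (l _ l1) (l _ le_sup_right) l1 le_sup_right
    have p12 : ∀ y ∈ G, y ^ 12 ∈ pCoreOf 2 G := fun y hy => cV ⟨pow_mem hy _, fun v hv => by
      have h1 := (idx_le (G := G) (v := v) fun g hg => c5 (by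
        rw [commutator_comm]; exact commutator_mem_commutator hg hv)).trans c4
      have := pow_mem_of_relIndex_ne_zero_of_dvd (relIndex_ne_zero (centralizer {v}) G) hy (n := 12)
        fun m m1 m2 => by have := m2.trans h1; interval_cases m <;> decide
      exact this.1 v rfl⟩
    obtain rfl : q = 3 := by
      obtain ⟨y, hy⟩ := QuotientGroup.mk_surjective (e.symm (DihedralGroup.r 1))
      have h1 : (DihedralGroup.r 1 : DihedralGroup q) ^ 12 = 1 := by
        rw [← e.apply_symm_apply (DihedralGroup.r 1), ← map_pow, ← hy, ← QuotientGroup.mk_pow,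
          (QuotientGroup.eq_one_iff _).2 (mem_pCoreOf_iff.1 (p12 y y.2)), map_one]
      have h2 := orderOf_dvd_of_pow_eq_one h1
      rw [DihedralGroup.orderOf_r_one, show 12 = 2 ^ 2 * 3 from rfl] at h2
      rcases (Nat.Prime.dvd_mul hq).1 h2 with k | k
      · exact absurd ((Nat.prime_dvd_prime_iff_eq hq Nat.prime_two).1 (hq.dvd_of_dvd_pow k)) q2
      · exact (Nat.prime_dvd_prime_iff_eq hq Nat.prime_three).1 k
    have G0 : G ≠ ⊥ := fun k => T0 (le_bot_iff.1 (hT.le.trans k.le))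
    have nG : ¬ G ≤ cj x G := fun k => G0 (key G le_rfl le_normalizer (mem_normalizer_of_le_cj k))
    have nG' : ¬ cj x G ≤ G := fun k => G0 (key G le_rfl le_normalizer (mem_normalizer_of_cj_le k))
    have hT' : SylIn 2 T (cj x G) := cj_eq_self x1 ▸ hT.conj x
    have e1 : G ⊓ cj x G = T := (top _ (le_inf hT.le hT'.le) inf_le_left).resolve_right
      fun k => nG (k.ge.trans inf_le_right)
    rcases sthree (hG.2 _ (left_lt_sup.2 nG')) (fun N a b => key N (a.trans inf_le_left) norm_of_normal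
      (norm_of_normal (L := ⊤) (mem_top x))) hc (hc.conj x) (e1 ▸ hT) (e1 ▸ hT') i1
      (by rw [← cj_pCoreOf, relIndex_cj, i1]) (e1 ▸ nc)
      (by rw [e1, ← cj_eq_self x1, ← cj_OZ, ← cj_centralizer, cj_le_cj]; exact nc) with ⟨k, -⟩ | ⟨⟨k⟩, -⟩
    · exact Or.inl k
    · exact Or.inr ⟨k.trans MulEquiv.prodComm⟩)

end Cfsg.Agent.S2772
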