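import Cfsg.Statements.S2774
import Cfsg.Agent.Lib.Loc.H6Tr

set_option autoImplicit false
open Cfsg

set_option linter.unusedVariables false
set_option linter.unusedSimpArgs false
set_option linter.style.haveILetI false

namespace Cfsg.Agent.S2774

open CA Subgroup CA.Amb CA.AmbSyl CA.H6Tr


/-- Let p be an odd prime and S a nontrivial Sylow p-subgroup of a finite group G. Then S ∩ G' is generated by the subgroups S ∩ (N_G(K))' as K ranges over the nontrivial characteristic subgroups of S (derived subgroups of the normalizers). -/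
theorem result {G : Type*} [Group G] [Finite G] {p : ℕ} [Fact p.Prime] (hp : p ≠ 2) (S : Sylow p G) (hS : (S : Subgroup G) ≠ ⊥) : (S : Subgroup G) ⊓ commutator G = ⨆ K : {K : Subgroup ↥(S : Subgroup G) // K ≠ ⊥ ∧ K.Characteristic}, (S : Subgroup G) ⊓ ⁅Subgroup.normalizer ((((K : Subgroup ↥(S : Subgroup G))).map (S : Subgroup G).subtype : Subgroup G) : Set G), Subgroup.normalizer ((((K : Subgroup ↥(S : Subgroup G))).map (S : Subgroup G).subtype : Subgroup G) : Set G)⁆ := by
  refine le_antisymm ((H6Tr.main hp _ G (Nat.lt_succ_self _) _ (sylIn_top S) hS).trans (DD_le fun K hK => ?_))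
    (iSup_le fun K => inf_le_inf_left _ (commutator_mono le_top le_top))
  refine le_iSup_of_le ⟨K.subgroupOf S, fun e => hK.2.1 ?_, hK.2.2⟩ ?_
  · rw [← map_subgroupOf_eq_of_le hK.1, e, Subgroup.map_bot]
  · rw [map_subgroupOf_eq_of_le hK.1, top_inf_eq]

end Cfsg.Agent.S2774
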