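import Cfsg.Statements.S2779
import Cfsg.Agent.Lib.Loc.H6Nat2

set_option autoImplicit false
open Cfsg

set_option linter.unusedVariables false
set_option linter.unusedSimpArgs false
set_option linter.style.haveILetI false

namespace Cfsg.Agent.S2779

open CA CA.H6Nat CA.H6Nat2 CA.Amb CA.AmbSyl CA.AmbCore CA.AmbRes CA.AmbSpe Subgroup
open scoped commutatorElement MatrixGroups

/-- Let L act on the elementary abelian p-group V (inside a finite group, by conjugation, faithfully) as SL₂(F) on its natural module, F a field with p^n elements, and let S be a Sylow p-subgroup of L. Then [V, S, S] = 1; |V| = p^(2n) and |C_V(S)| = p^n; and for every nonidentity s ∈ S and every v ∈ V outside C_V(S): C_V(s) = C_V(S) = [V, S] = [V, s] = the subgroup generated by the commutators [v, t], t ∈ S. -/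
theorem result {G : Type*} [Group G] [Finite G] {p : ℕ} [Fact p.Prime] {F : Type*} [Field F] [Fintype F] (n : ℕ) (hF : Fintype.card F = p ^ n) (V L : Subgroup G) (hnat : Cfsg.IsNaturalSL2Module F V L) (hf : L ⊓ Subgroup.centralizer (V : Set G) = ⊥) (S : Sylow p ↥L) (T : Subgroup G) (hT : T = ((S : Subgroup ↥L).map L.subtype)) : ⁅⁅V, T⁆, T⁆ = ⊥ ∧ Nat.card V = p ^ (2 * n) ∧ Nat.card ↥(V ⊓ Subgroup.centralizer ((T : Subgroup G) : Set G)) = p ^ n ∧ ∀ s ∈ T, s ≠ 1 → (V ⊓ Subgroup.centralizer ({s} : Set G)) = (V ⊓ Subgroup.centralizer ((T : Subgroup G) : Set G)) ∧ ⁅V, T⁆ = (V ⊓ Subgroup.centralizer ((T : Subgroup G) : Set G)) ∧ ⁅V, Subgroup.zpowers s⁆ = (V ⊓ Subgroup.centralizer ((T : Subgroup G) : Set G)) ∧ ∀ v ∈ V, v ∉ Subgroup.centralizer (T : Set G) → Subgroup.closure {x : G | ∃ t ∈ T, x = v * t * v⁻¹ * t⁻¹} = (V ⊓ Subgroup.centralizer ((T : Subgroup G) : Set G)) := by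
  have hq : Nat.card F = p ^ n := by rw [Nat.card_eq_fintype_card, hF]
  haveI := charP_of_card hq
  have h : Nt F L V ⊥ := isNatural_iff.1 hnat
  have hS : SylIn p T L := hT ▸ sylIn_sylow S
  have hc := h.cov hS
  have hVc : IsMulCommutative V := H6Basic.isMulCommutative_iff'.2
    (H6Basic.commutator_eq_bot_iff'.1 (le_bot_iff.1 h.der_le))
  refine ⟨le_bot_iff.1 hc.quad', ?_, ?_, fun s hs hs1 => ?_⟩
  · rw [← relIndex_bot_left, h.relIndex, hq, ← pow_mul, mul_comm]
  · rw [← relIndex_bot_left, ← Fx_bot, hc.idx1, hq]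
  have hk : ¬ zpowers s ≤ Kn V ⊥ := fun hle => hs1 (by
    have : s ∈ L ⊓ 𝐂 V := ⟨hS.le hs, Kn_bot V ▸ hle (mem_zpowers s)⟩
    rwa [hf, mem_bot] at this)
  rw [← Fx_bot]
  refine ⟨by rw [← centralizer_zpowers, ← Fx_bot, hc.Fx_eq (zpowers_le.2 hs) hk],
    by rw [← hc.comm_sup, sup_bot_eq], le_antisymm
      ((commutator_mono le_rfl (zpowers_le.2 hs)).trans hc.quad)
      (hc.Fx_le_of (zpowers_le.2 hs) hk bot_le le_rfl), fun v hv hv' => le_antisymm ?_ fun x hx => ?_⟩
  · rw [closure_le]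
    rintro _ ⟨t, ht, rfl⟩
    exact hc.quad (commutator_mem_commutator hv ht)
  · obtain ⟨t, ht, e⟩ := hc.exists_t' hv (by rw [Fx_bot]; exact fun h => hv' h.2) hx
    rw [mem_bot, mul_inv_eq_one] at e
    exact subset_closure ⟨t, ht, e.symm⟩

end Cfsg.Agent.S2779
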