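import Cfsg.Statements.S2780
import Cfsg.Agent.Lib.Loc.H6Nat2

set_option autoImplicit false
open Cfsg

set_option linter.unusedVariables false
set_option linter.unusedSimpArgs false
set_option linter.style.haveILetI false

namespace Cfsg.Agent.S2780

open CA CA.H6Nat CA.H6Nat2 CA.Amb CA.AmbSyl CA.AmbCore CA.AmbRes CA.AmbSpe Subgroup
open scoped commutatorElement MatrixGroups

/-- Let L act on the elementary abelian p-group V (inside a finite group, faithfully) as SL₂(F) on its natural module, F a field with p^n elements, S a Sylow p-subgroup of L. Then: for every g ∈ L not normalizing S, V is the internal direct product of C_V(S) and C_V(gSg⁻¹); every nonidentity element of L of order prime to p acts on V without nonidentity fixed points; and C_V(S) and V/C_V(S) are irreducible for N_L(S): the only N_L(S)-invariant subgroups of C_V(S) are 1 and C_V(S), and the only N_L(S)-invariant subgroups between C_V(S) and V are those two. -/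
theorem result {G : Type*} [Group G] [Finite G] {p : ℕ} [Fact p.Prime] {F : Type*} [Field F] [Fintype F] (n : ℕ) (hF : Fintype.card F = p ^ n) (V L : Subgroup G) (hnat : Cfsg.IsNaturalSL2Module F V L) (hf : L ⊓ Subgroup.centralizer (V : Set G) = ⊥) (S : Sylow p ↥L) (T : Subgroup G) (hT : T = ((S : Subgroup ↥L).map L.subtype)) : (∀ g ∈ L, g ∉ Subgroup.normalizer (T : Set G) → Cfsg.IsInternalDirectProduct (V ⊓ Subgroup.centralizer ((T : Subgroup G) : Set G)) (V ⊓ Subgroup.centralizer ((T.map (MulAut.conj g).toMonoidHom : Subgroup G) : Set G)) V) ∧ (∀ x ∈ L, x ≠ 1 → (orderOf x).Coprime p → (V ⊓ Subgroup.centralizer ({x} : Set G)) = ⊥) ∧ (∀ U : Subgroup G, U ≤ (V ⊓ Subgroup.centralizer ((T : Subgroup G) : Set G)) → L ⊓ Subgroup.normalizer (T : Set G) ≤ Subgroup.normalizer (U : Set G) → U = ⊥ ∨ U = (V ⊓ Subgroup.centralizer ((T : Subgroup G) : Set G))) ∧ (∀ U : Subgroup G, (V ⊓ Subgroup.centralizer ((T : Subgroup G) : Set G)) ≤ U → U ≤ V → L ⊓ Subgroup.normalizer (T : Set G) ≤ Subgroup.normalizer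 (U : Set G) → U = (V ⊓ Subgroup.centralizer ((T : Subgroup G) : Set G)) ∨ U = V) := by
  have hq : Nat.card F = p ^ n := by rw [Nat.card_eq_fintype_card, hF]
  haveI := charP_of_card hq
  have h : Nt F L V ⊥ := isNatural_iff.1 hnat
  have hS : SylIn p T L := hT ▸ sylIn_sylow S
  have hV := H6Basic.commutator_eq_bot_iff'.1 (le_bot_iff.1 h.der_le)
  refine ⟨fun g hg hgn => ?_, fun x hx hx1 ho => ?_, fun U h1 h2 => ?_, fun U h1 h2 h3 => ?_⟩
  · have := h.two hS (hS.conj_mem hg) (by
      rw [Kn_bot, hf, sup_bot_eq]; exact fun hle => hgn (mem_normalizer_of_cj_le hle))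
    rw [Fx_bot, Fx_bot] at this
    exact ⟨inf_le_left, inf_le_left, fun a ha b hb => hV a ha.1 b hb.1, this.1, this.2.1⟩
  · rw [eq_bot_iff]
    intro u hu
    refine h.fpf hx ho (fun hk => hx1 ?_) hu.1 ?_
    · have : x ∈ L ⊓ 𝐂 V := ⟨hx, Kn_bot V ▸ hk⟩
      rwa [hf, mem_bot] at this
    · rw [mem_bot, commutatorElement_eq_one_iff_mul_comm]
      exact (mem_centralizer_singleton_iff.1 hu.2)
  · rw [← Fx_bot] at h1 ⊢
    exact (h.borel hS bot_le (h1.trans (Fx_le _ _ _)) h2).1 h1
  · rw [← Fx_bot] at h1 ⊢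
    exact (h.borel hS bot_le h2 h3).2 h1

end Cfsg.Agent.S2780
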