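import Cfsg.Statements.S2781
import Cfsg.Agent.Lib.Loc.AmbChar
import Cfsg.Agent.Lib.Loc.AmbRed
-- import your own Cfsg.Agent.* helpers here

set_option autoImplicit false
open Cfsg

namespace Cfsg.Agent.S2781

/-- Let H act faithfully by conjugation on the elementary abelian p-subgroup V of a finite group, let O^p(H) be the subgroup of H generated by its elements of order prime to p, and T a Sylow p-subgroup of O^p(H). If V is generated by the H-conjugates of C_V(T) (V is the smallest H-invariant subgroup containing C_V(T)), then V = [V, O^p(H)]·C_V(O^p(H)). -/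
theorem result {G : Type*} [Group G] [Finite G] {p : ℕ} [Fact p.Prime] (V H : Subgroup G) (hV : Cfsg.IsElementaryAbelian p V) (hHV : H ≤ Subgroup.normalizer (V : Set G)) (hf : H ⊓ Subgroup.centralizer (V : Set G) = ⊥) (R : Subgroup G) (hR : R = (Cfsg.pResidual p ↥H).map H.subtype) (S : Sylow p ↥R) (T : Subgroup G) (hT : T = ((S : Subgroup ↥R).map R.subtype)) (hgen : ∀ W : Subgroup G, H ≤ Subgroup.normalizer (W : Set G) → (V ⊓ Subgroup.centralizer ((T : Subgroup G) : Set G)) ≤ W → V ≤ W) : ⁅V, R⁆ ⊔ (V ⊓ Subgroup.centralizer ((R : Subgroup G) : Set G)) = V := by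
  open Subgroup Cfsg CA.Amb CA.AmbSyl CA.AmbCore CA.AmbRes CA.AmbChar CA.AmbWC CA.AmbSpe CA.AmbRed in
  (
    subst hT
    have hR' : R = pResidualOf p H := hR
    have hRH : R ≤ H := hR' ▸ res_le p H
    have hn : H ≤ 𝐍 R := hR' ▸ norm_res p H
    have h1 := inf_cent_syl_eq (ea_le_cent hV) (ea_pg hV) (hRH.trans hHV) (sylIn_sylow S)
    refine le_antisymm (sup_le (commutator_le_left_of_norm (hRH.trans hHV)) inf_le_left) (hgen _
      (norm_sup (norm_commutator hHV hn) (norm_inf hHV (norm_centralizer hn))) ?_)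
    exact h1.le.trans (sup_le_sup_right (inf_le_left.trans (commutator_mono le_rfl (res_le _ _))) _))

end Cfsg.Agent.S2781
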