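import Cfsg.Statements.S2787
import Cfsg.Agent.Lib.Loc.H6Ctl2
import Cfsg.Agent.Lib.Loc.H6Nat
import Cfsg.Agent.Lib.Lin.PSL2Four
import Cfsg.Agent.Lib.Lie.ChevRee
import Cfsg.Agent.Lib.Lie.ReeInv

set_option autoImplicit false
open Cfsg

set_option linter.unusedVariables false
set_option linter.unusedSimpArgs false
set_option linter.style.haveILetI false

namespace Cfsg.Agent.S2787

open CA CA.H6Stab CA.H6Op CA.PSL2Struct
open CA.Amb CA.AmbSyl CA.AmbCore CA.AmbRes CA.AmbSpe Subgroup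
open scoped commutatorElement MatrixGroups

theorem not_sec {Y : Type*} [Group Y] [Finite Y] {p : ℕ} [Fact p.Prime] (hp2 : p ≠ 2)
    (h : ∀ T : Subgroup Y, IsPGroup 2 T → ∀ x ∈ T, ∀ y ∈ T, x * x ≠ 1 → y * y ≠ 1 → x * y = y * x) :
    ¬ Sec SL(2, ZMod p) (⊤ : Subgroup Y) ⊥ := by
  rintro ⟨K, -, ψ, hψ, -⟩
  obtain ⟨φ, hφ⟩ := SL2Sylow2.exists_quaternionHom (F := ZMod p) p hp2
  have h2 : IsPGroup 2 (QuaternionGroup 2) :=
    IsPGroup.of_card (n := 3) (by rw [Nat.card_eq_fintype_card, QuaternionGroup.card]; rfl)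
  obtain ⟨R, -, h3, e⟩ := H6PSolv.exists_lift ψ (L := ⊤) (h2.of_surjective _ φ.rangeRestrict_surjective)
    (by rw [map_top_of_surjective ψ hψ]; exact le_top)
  obtain ⟨x, hx, ex⟩ := e.ge (⟨QuaternionGroup.a 1, rfl⟩ : φ _ ∈ φ.range)
  obtain ⟨y, hy, ey⟩ := e.ge (⟨QuaternionGroup.xa 0, rfl⟩ : φ _ ∈ φ.range)
  have h4 : ∀ (x : K) (a : QuaternionGroup 2), ψ x = φ a → a * a ≠ 1 → (x : Y) * x ≠ 1 := fun x a e h1 h2 =>
    h1 (hφ (by rw [map_mul, ← e, ← map_mul, show x * x = 1 from Subtype.ext h2, map_one, map_one]))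
  have h5 : x * y = y * x := Subtype.ext (h _ (h3.map K.subtype) _ (mem_map_of_mem _ hx) _
    (mem_map_of_mem _ hy) (h4 x _ ex (by decide)) (h4 y _ ey (by decide)))
  have := congrArg ψ h5
  rw [map_mul, map_mul, ex, ey, ← map_mul, ← map_mul] at this
  exact absurd (hφ this) (by decide)

theorem psl_comm {F : Type*} [Field F] [Finite F] (h2 : (2 : F) ≠ 0) (T : Subgroup PSL(2, F))
    (hT : IsPGroup 2 T) : ∀ x ∈ T, ∀ y ∈ T, x * x ≠ 1 → y * y ≠ 1 → x * y = y * x := by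
  obtain ⟨R, -, h3, rfl⟩ := H6PSolv.exists_lift (pr F) (L := ⊤) hT
    (by rw [map_top_of_surjective _ pr_surj]; exact le_top)
  obtain ⟨S, hS⟩ := h3.exists_le_sylow
  obtain ⟨g, hg, hS'⟩ := PSL2Four.exists_sylow_le_D h2 S
  have hs := SS_of_trace_zero h2 hg
  have hle : R.map (pr F) ≤ Db g := map_mono (hS.trans hS')
  exact fun x hx y hy h4 h5 => Tb_comm hs.ns (by_contra fun e => h4 (sq_of_mem_Db hs (hle hx) e))
    (by_contra fun e => h5 (sq_of_mem_Db hs (hle hy) e))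


/-- Let p be a prime and let H act by conjugation on the elementary abelian p-subgroup V of a finite group, irreducibly (no H-invariant subgroups of V other than 1 and V) and nontrivially, and suppose H/C_H(V) is isomorphic to PSL₂(F) for a field F with p^n elements, p^n odd, or p = 3 and H/C_H(V) is isomorphic to a Ree group ²G₂(3^(2m+1)), m ≥ 1. Then no subgroup A of H acting nontrivially on V acts quadratically: [V, A, A] = 1 forces [V, A] = 1. -/
theorem result {G : Type*} [Group G] [Finite G] {p : ℕ} [Fact p.Prime] (V H : Subgroup G) (hV : Cfsg.IsElementaryAbelian p V) (hHV : H ≤ Subgroup.normalizer (V : Set G)) (hirr : ∀ U : Subgroup G, U ≤ V → H ≤ Subgroup.normalizer (U : Set G) → U = ⊥ ∨ U = V) (hnt : ¬ H ≤ Subgroup.centralizer (V : Set G)) [hn : ((Subgroup.centralizer (V : Set G)).subgroupOf H).Normal] (hq : (∃ (F : Type) (_ : Field F) (_ : Fintype F) (n : ℕ), Fintype.card F = p ^ n ∧ Odd (Fintype.card F) ∧ Nonempty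 (↥H ⧸ (Subgroup.centralizer (V : Set G)).subgroupOf H ≃* Matrix.ProjectiveSpecialLinearGroup (Fin 2) F)) ∨ (p = 3 ∧ Cfsg.Lie.IsoRee (↥H ⧸ (Subgroup.centralizer (V : Set G)).subgroupOf H))) (A : Subgroup G) (hA : A ≤ H) (hquad : ⁅⁅V, A⁆, A⁆ = ⊥) : ⁅V, A⁆ = ⊥ := by
  have key : ∀ {Y : Type} [Group Y] [Finite Y], p ≠ 2 → (↥H ⧸ (𝐂 V).subgroupOf H ≃* Y) →
      (∀ T : Subgroup Y, IsPGroup 2 T → ∀ x ∈ T, ∀ y ∈ T, x * x ≠ 1 → y * y ≠ 1 → x * y = y * x) →
      Stab p H V := fun {Y} _ _ hp e h => stab_of_not_sec hp (ea_pg hV) hHV fun hs => not_sec hp h (by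
    rw [← map_subtype_top H] at hs
    have h1 := hs.of_map
    have hk : (e.toMonoidHom.comp (QuotientGroup.mk' _)).ker = (𝐂 V).comap H.subtype := by
      rw [← MonoidHom.comap_ker, (MonoidHom.ker_eq_bot_iff _).2 e.injective, MonoidHom.comap_bot,
        QuotientGroup.ker_mk']; rfl
    rw [← hk] at h1
    exact (H6Ctl2.sec_map_of_ker _ h1).mono le_top le_rfl)
  have hs : Stab p H V := by
    rcases hq with ⟨F, _, _, n, hF, ho, ⟨e⟩⟩ | ⟨rfl, K, _, _, m, -, hK, ⟨e⟩⟩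
    · have h2 : (2 : F) ≠ 0 := fun h => by
        haveI : CharP F 2 := (CharP.charP_iff_prime_eq_zero Nat.prime_two).2 (by exact_mod_cast h)
        obtain ⟨n, -, hn⟩ := FiniteField.card F 2
        rw [hn] at ho
        exact (Nat.not_odd_iff_even.2 ((Nat.even_pow.2 ⟨even_two, n.ne_zero⟩))) ho
      refine key (fun hp => ?_) e (psl_comm h2)
      subst hp
      haveI := H6Nat.charP_of_card (Nat.card_eq_fintype_card.trans hF)
      exact h2 (by exact_mod_cast CharP.cast_eq_zero F 2)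
    · obtain ⟨R, -⟩ := Chev.exists_ree hK
      haveI := Finite.of_equiv _ e.toEquiv
      exact key (by decide) e fun T hT x hx _ _ h _ => absurd (R.sq_of_pgroup hT hx) h
  have hA' : A ≤ Op p H (𝐂 V) := fun a ha => hs.mem (ea_pg hV) hHV (hA ha) (le_bot_iff.1 (hquad ▸
    commutator_mono (commutator_mono le_rfl (zpowers_le.2 ha)) (zpowers_le.2 ha)))
  by_cases h0 : V = ⊥
  · simp [h0]
  obtain ⟨T, hT⟩ := exists_sylIn p (Op p H (𝐂 V))
  have h1 := inf_centralizer_ne_bot hT.pg (ea_pg hV) (hT.le.trans ((Op_le _ _ _).trans hHV)) h0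
  have h2 := (hirr (V ⊓ 𝐂 (Op p H (𝐂 V))) inf_le_left (norm_inf hHV (norm_centralizer
    (norm_Op _ _ _)))).resolve_left fun e => h1 (le_bot_iff.1 (e ▸ le_inf inf_le_left (cent_symm
      (le_of_syl_of_res hT (cent_symm inf_le_right) ((res_Op_le _).trans (centralizer_anti inf_le_left))))))
  exact comm_eq_bot_of_le ((h2.ge.trans inf_le_right).trans (centralizer_anti hA'))

end Cfsg.Agent.S2787
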