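import Cfsg.Statements.S2788
import Cfsg.Agent.Lib.Loc.H6Irr
import Cfsg.Agent.Lib.Grp.Zsig
import Cfsg.Agent.Lib.Perm.PermBasic

set_option autoImplicit false
open Cfsg

set_option linter.unusedVariables false
set_option linter.unusedSimpArgs false
set_option linter.style.haveILetI false

namespace Cfsg.Agent.S2788

open CA CA.H6Nat CA.H6Nat2 CA.H6Irr CA.SL2Unip CA.SL2Torus
open CA.Amb CA.AmbSyl CA.AmbCore CA.AmbRes CA.AmbSpe CA.AmbWC Subgroup
open scoped commutatorElement MatrixGroups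

theorem exists_r {p n : ℕ} (hp : p.Prime) (hn : 2 ≤ n) : ∃ r e : ℕ, r.Prime ∧ r ≠ 2 ∧ r ^ (e + 1) ∣ p ^ n + 1 ∧
    ∀ k, 0 < k → r ^ (e + 1) ∣ p ^ k - 1 → 2 * n ≤ k := by
  by_cases h : p = 2 ∧ 2 * n = 6
  · obtain ⟨rfl, h⟩ := h
    obtain rfl : n = 3 := by omega
    refine ⟨3, 1, Nat.prime_three, by decide, by decide, fun k hk h => by_contra fun h' => ?_⟩
    have : k < 6 := by omega
    interval_cases k <;> simp at h
  obtain ⟨r, h1, h2, h3⟩ := Zsig.zsigmondy p (2 * n) hp.one_lt (by omega) h (by omega)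
  refine ⟨r, 0, h1, ?_, ?_, fun k hk h4 => by_contra fun h' => h3 k hk (by omega) (by simpa using h4)⟩
  · rintro rfl
    have := Nat.one_lt_pow (by omega : 2 * n ≠ 0) hp.one_lt
    refine h3 1 one_pos (by omega) ?_
    rcases Nat.even_or_odd p with h4 | h4
    · obtain ⟨k, hk⟩ := (Nat.even_pow (n := 2 * n)).2 ⟨h4, by omega⟩
      omega
    · obtain ⟨k, rfl⟩ := h4; simp
  · rw [mul_comm, pow_mul, ← Nat.one_pow 2, Nat.sq_sub_sq] at h2
    simpa using (h1.dvd_mul.1 h2).resolve_right (by simpa using h3 n (by omega) (by omega))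

theorem dvd_idx {G : Type*} [Group G] [Finite G] {V : Subgroup G} {x : G} (hx : x ∈ 𝐍 V) {r e : ℕ}
    (hr : r.Prime) (ho : orderOf x = r ^ (e + 1)) :
    r ^ (e + 1) ∣ Nat.card V - Nat.card ↥(V ⊓ centralizer {x ^ r ^ e}) := by
  have := PermBasic.card_dvd_of_semiregular_on (zpowers (ConjAct.toConjAct x))
    ((V : Set G) \ (V ⊓ centralizer {x ^ r ^ e} : Subgroup G)) (Set.toFinite _) ?_ ?_
  · rwa [Nat.card_zpowers, MulEquiv.orderOf_eq, ho, Set.ncard_sdiff (SetLike.coe_mono inf_le_left),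
      ← Nat.card_coe_set_eq, ← Nat.card_coe_set_eq] at this
  · rintro _ ⟨k, rfl⟩ v ⟨h1, h2⟩
    simp only [← map_zpow, ConjAct.toConjAct_smul]
    refine ⟨conj_mem_of_mem_normalizer (zpow_mem hx k) h1, fun h3 => h2 ⟨h1, ?_⟩⟩
    have h4 : x ^ k ∈ centralizer {x ^ r ^ e} := mem_centralizer_singleton_iff.2
      ((Commute.refl x).zpow_left k |>.pow_right _)
    simpa [mul_assoc] using mul_mem (mul_mem (inv_mem h4) h3.2) h4
  · intro h hh v ⟨h1, h2⟩ h3
    haveI : Finite (ConjAct G) := ‹Finite G›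
    obtain ⟨k, rfl⟩ := (mem_powers_iff_mem_zpowers.2 hh :)
    simp only at h3 ⊢
    by_contra h4
    rw [← map_pow, ConjAct.toConjAct_smul, mul_inv_eq_iff_eq_mul] at h3
    refine h2 ⟨h1, mem_centralizer_singleton_iff.2 (mem_centralizer_singleton_iff.1 ?_).symm⟩
    obtain ⟨i, hi, e1⟩ := (Nat.dvd_prime_pow hr).1 (Nat.gcd_dvd_right k (r ^ (e + 1)))
    have h5 : i ≤ e := by_contra fun h5 => h4 (by
      rw [← map_pow, orderOf_dvd_iff_pow_eq_one.1 (ho ▸ (show i = e + 1 by omega) ▸ e1 ▸ Nat.gcd_dvd_left _ _),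
        map_one])
    have h6 : x ^ r ^ i ∈ centralizer {v} := by
      rw [← e1, ← zpow_natCast, Nat.gcd_eq_gcd_ab, zpow_add, zpow_mul, zpow_mul, zpow_natCast, zpow_natCast,
        ← ho, pow_orderOf_eq_one, one_zpow, mul_one]
      exact zpow_mem (mem_centralizer_singleton_iff.2 h3) _
    rw [← Nat.add_sub_cancel' h5, pow_add, pow_mul]
    exact pow_mem h6 _

theorem exists_x {F : Type*} [Field F] [Finite F] {m : ℕ} (h1 : Odd m) (h2 : m ≠ 1) (h3 : m ∣ Nat.card F + 1)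
    {α : F} (hα : α ≠ 0) : ∃ c : SL(2, F), orderOf ((u α * (c * u α * c⁻¹)) ^ 2) = m := by
  obtain ⟨g, hg⟩ := exists_aniso_SL F
  obtain ⟨t, -, ht, -, ho⟩ := (SS.of_aniso hg).exists_gen
  rw [card_C_aniso hg] at ho
  have h4 : orderOf (t ^ (orderOf t / m)) = m := orderOf_pow_orderOf_div (orderOf_pos t).ne' (ho ▸ h3)
  have h5 := pow_mem ht (orderOf t / m)
  generalize t ^ (orderOf t / m) = h at h4 h5
  have h6 : orderOf (h ^ 4) = m := by
    rw [(Nat.Coprime.pow_right 2 (h4 ▸ h1.coprime_two_right) :).orderOf_pow, h4]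
  have e4 : h ^ 4 = h * h * (h * h) := by simp [pow_succ, mul_assoc]
  have h7 : Mat2.NS (h * h).1 := (NS_iff_ne (h * h)).2 ⟨fun e => h2 (by rw [← h6, e4, e]; simp),
    fun e => h2 (by rw [← h6, e4, e]; simp)⟩
  have hs : h.1.trace ≠ 0 := fun e => ((NS_iff_ne _).1 h7).2 (mul_self_of_trace e)
  refine ⟨w0 * dg (Units.mk0 _ (div_ne_zero hs hα)), ?_⟩
  rw [show ∀ a b c : SL(2, F), a * b * c * (a * b)⁻¹ = a * (b * c * b⁻¹) * a⁻¹ from fun _ _ _ => by group,
    dg_conj_u, w0_conj_u]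
  obtain ⟨c, hc⟩ := isConj_iff.1 (((SS.of_aniso hg).of_mem (mul_mem h5 h5) h7).neg.isConj
    (h := u α * l (-((h.1.trace / α) ^ 2 * α))) (by
      have := SL2Basic.det_eq h
      rw [trace_neg']
      simp only [Matrix.trace_fin_two, sl_mul_apply, u_coe, l_coe] at hs ⊢
      simp
      field_simp
      linear_combination 2 * this))
  rw [Units.val_mk0, ← hc, conj_pow, orderOf_conj', neg_sq, ← h6, e4, sq]


/-- Let H act faithfully by conjugation on the elementary abelian p-subgroup V of a finite group with H ≅ SL₂(F), F a field with p^n elements, S a Sylow p-subgroup of H, and A ≤ S a subgroup of order at least 3 acting quadratically on V ([V, A, A] = 1). Then |V/C_V(a)| ≥ p^n for every nonidentity a ∈ A. -/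
theorem result {G : Type*} [Group G] [Finite G] {p : ℕ} [Fact p.Prime] (V H : Subgroup G) (hV : Cfsg.IsElementaryAbelian p V) (hHV : H ≤ Subgroup.normalizer (V : Set G)) (hf : H ⊓ Subgroup.centralizer (V : Set G) = ⊥) {F : Type*} [Field F] [Fintype F] (n : ℕ) (hF : Fintype.card F = p ^ n) (hiso : Nonempty (↥H ≃* Matrix.SpecialLinearGroup (Fin 2) F)) (S : Sylow p ↥H) (T : Subgroup G) (hT : T = ((S : Subgroup ↥H).map H.subtype)) (A : Subgroup G) (hA : A ≤ T) (hA3 : 3 ≤ Nat.card A) (hquad : ⁅⁅V, A⁆, A⁆ = ⊥) : ∀ a ∈ A, a ≠ 1 → p ^ n ≤ ((V ⊓ Subgroup.centralizer ({a} : Set G))).relIndex V := by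
  have hq : Nat.card F = p ^ n := Nat.card_eq_fintype_card.trans hF
  haveI := charP_of_card hq
  obtain ⟨e⟩ := hiso
  obtain ⟨f, hi, h1, h2⟩ := exists_f (sylIn_sylow S) e
  intro a ha ha1
  obtain ⟨_, ⟨α, rfl⟩, rfl⟩ := (hA.trans (hT.trans h2.symm).le) ha
  have hm : ∀ g, f g ∈ H := fun g => h1 ▸ mem_map_of_mem f (mem_top g)
  have hp := (Fact.out : p.Prime)
  have key : ∀ g, g ≠ 1 → ∃ k, 0 < k ∧ (centralizer {f g}).relIndex V = p ^ k := fun g hg => by
    obtain ⟨j, hj⟩ := (ea_pg hV).exists_card_eq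
    obtain ⟨k, -, hk⟩ := (Nat.dvd_prime_pow hp).1 (hj ▸ relIndex_dvd_card (centralizer {f g}) V)
    refine ⟨k, Nat.pos_of_ne_zero fun e => hg (hi ((hf.le ⟨hm g, ?_⟩).trans (map_one f).symm)), hk⟩
    rw [e, pow_zero, relIndex_eq_one, ← centralizer_zpowers] at hk
    exact cent_symm hk (mem_zpowers _)
  obtain ⟨k, hk, e1⟩ := key (uHom α) fun e => ha1 (by rw [e, map_one])
  rw [inf_relIndex_left, e1]
  refine Nat.pow_le_pow_right hp.pos (by_contra fun hlt => ?_)
  obtain ⟨r, j, r1, r2, r3, r4⟩ := exists_r hp (show 2 ≤ n by omega)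
  obtain ⟨c, hc⟩ := exists_x (F := F) (r1.odd_of_ne_two r2).pow (Nat.one_lt_pow j.succ_ne_zero r1.one_lt).ne'
    (hq ▸ r3) (α := α.toAdd) fun e => ha1 (by simp [uHom, e])
  change (centralizer {f (u α.toAdd)}).relIndex V = _ at e1
  generalize u α.toAdd = b at e1 hc
  have h3 := dvd_idx (hHV (hm _)) r1 ((orderOf_injective f hi _).trans hc)
  obtain ⟨i, hi0, e2⟩ := key (((b * (c * b * c⁻¹)) ^ 2) ^ r ^ j) fun e => by
    have := Nat.le_of_dvd (pow_pos r1.pos _) (hc ▸ orderOf_dvd_of_pow_eq_one e)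
    have := Nat.pow_lt_pow_right r1.one_lt j.lt_succ_self
    omega
  rw [← map_pow, ← card_inf_mul_relIndex (centralizer {f (((b * (c * b * c⁻¹)) ^ 2) ^ r ^ j)}) V, e2,
    inf_comm, ← Nat.mul_sub_one] at h3
  have h4 := r4 i hi0 (Nat.Coprime.dvd_of_dvd_mul_left (by
    obtain ⟨l, hl⟩ := ((ea_pg hV).to_le (inf_le_left (b := centralizer
      {f (((b * (c * b * c⁻¹)) ^ 2) ^ r ^ j)}))).exists_card_eq
    rw [hl]
    refine (Nat.Coprime.coprime_dvd_left r3 ?_).pow_right _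
    simpa using Nat.Coprime.pow_left n (Nat.coprime_one_right p) |> fun _ => (by
      rw [← Nat.succ_pred_eq_of_pos (show 0 < n by omega), pow_succ]; simp :
      (p ^ n + 1).Coprime p)) h3)
  have h5 : (centralizer {f (c * b * c⁻¹)}).relIndex V = p ^ k := by
    rw [map_mul, map_mul, map_inv, ← cj_centralizer_singleton, ← cj_eq_self (hHV (hm c)), relIndex_cj, e1]
  have h6 := relIndex_inf_le (H := centralizer {f b}) (K := centralizer {f (c * b * c⁻¹)}) (L := V)
  rw [e1, h5, ← pow_add] at h6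
  have h7 := (H6Core2.idx_anti (B := centralizer {f (((b * (c * b * c⁻¹)) ^ 2) ^ r ^ j)}) (fun v hv => by
    rw [mem_centralizer_singleton_iff, map_pow, map_pow, map_mul]
    exact (Commute.mul_right (mem_centralizer_singleton_iff.1 hv.1)
      (mem_centralizer_singleton_iff.1 hv.2)).pow_right _ |>.pow_right _) V).trans h6
  rw [e2] at h7
  have := (Nat.pow_le_pow_iff_right hp.one_lt).1 h7
  omega

end Cfsg.Agent.S2788
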