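import Cfsg.Statements.S2792
import Cfsg.Agent.Lib.Grp.HallWie

set_option autoImplicit false
open Cfsg

namespace Cfsg.Agent.S2792

open Subgroup CA.BG CA.HallWie

/-- Let S be a Sylow p-subgroup of the finite group G and W a subgroup of S weakly closed in S with respect to G. If S ∩ G' ≠ S ∩ (N_G(W))', then there are x ∈ S, z ∈ W and a maximal subgroup W₀ of W such that the iterated commutator [x, z; p−1] (with [x, z] = x⁻¹z⁻¹xz and [x, z; i+1] = [[x, z; i], z]) lies in W₀ but not in the Frattini subgroup of W₀; in particular [x, z; p−1] ≠ 1. -/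
theorem result {G : Type*} [Group G] [Finite G] {p : ℕ} [Fact p.Prime] (S : Sylow p G) (W : Subgroup G) (hW : Cfsg.IsWeaklyClosed W (S : Subgroup G)) (h : (S : Subgroup G) ⊓ commutator G ≠ (S : Subgroup G) ⊓ ⁅Subgroup.normalizer (W : Set G), Subgroup.normalizer (W : Set G)⁆) : ∃ x ∈ (S : Subgroup G), ∃ z ∈ W, ∃ W₀ : Subgroup ↥W, IsCoatom W₀ ∧ (fun y : G => y⁻¹ * z⁻¹ * y * z)^[p - 1] x ∈ W₀.map W.subtype ∧ (fun y : G => y⁻¹ * z⁻¹ * y * z)^[p - 1] x ∉ ((frattini ↥W₀).map W₀.subtype).map W.subtype := by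
  have hp : p.Prime := Fact.out
  have hSH : (S : Subgroup G) ≤ 𝓝(W) := CA.Trf.sylow_le_normalizer_of_weaklyClosed hW
  have hS := syl_top hp S
  by_cases hc : commutator G ⊓ (S : Subgroup G) ≤ ⁅𝓝(W), 𝓝(W)⁆ ⊔ Phi (S : Subgroup G)
  · refine absurd (le_antisymm ?_ (inf_le_inf_left _ (commutator_mono le_top le_top))) h
    have h1 := CA.NPC2.tate_of_commutator S hSH hc
    have n1 : ∀ K : Subgroup G, K ≤ 𝓝(pResidual p G) := fun K => by rw [normalizer_eq_top]; exact le_top
    have h3 := comm_sup_le (n1 S) (n1 S)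
    rw [sup_comm (S : Subgroup G), CA.PRes.pResidual_sup_sylow] at h3
    refine le_inf inf_le_left ((inf_le_inf_left _ h3).trans ?_)
    rw [inf_comm, sup_inf_of_le_left (n1 _) (der_le _)]
    refine sup_le (der_mono hSH) fun x hx => ?_
    obtain ⟨y, hy, rfl⟩ := h1.le ⟨hx.1, hSH hx.2⟩
    have h2 := (CA.PRes.inf_pResidual_sup_commutator (S.subtype hSH)).le ⟨mem_sup_left hy, hx.2⟩
    rw [← map_subtype_commutator]
    exact mem_map_of_mem _ h2.1
  obtain ⟨C, u, z, h1, h2, h3, h4, h5, h6⟩ := main S hW hc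
  have hC := hS.pi.of_le h1
  refine ⟨u, h1 h2, z, h3, C.subgroupOf W, CA.PGBasic.isCoatom_of_index_prime hp h5, ?_, fun h7 => h6 ?_⟩
  · have : it z (p - 1) u ∈ W := by
      rw [show p - 1 = (p - 2) + 1 by have := hp.two_le; omega, it, Function.iterate_succ_apply]
      exact it_mem (le_norm_self W h3) (mul_mem (conj_mem_of_mem_norm' (hSH (h1 h2)) (inv_mem h3)) h3) _
    exact ⟨⟨_, this⟩, it_mem h4 h2 _, rfl⟩
  · refine map_le_iff_le_comap.2 (Phi_le_of hp (H := C.subgroupOf W) ?_ (commutator_le.2 fun a ha b hb => ?_)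
      fun a ha => ?_) h7
    · exact isPi_of_isPGroup hp (((hS.pi.of_le hW.1).isPGroup hp).to_subgroup _)
    · exact der_le_Phi hp hC (commutator_mem_commutator ha hb)
    · exact pow_mem_Phi hp hC ha

end Cfsg.Agent.S2792
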