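import Cfsg.Statements.S2794
import Cfsg.Agent.Lib.Loc.H6Ctl

set_option autoImplicit false
open Cfsg

set_option linter.unusedVariables false
set_option linter.unusedSimpArgs false
set_option linter.style.haveILetI false

namespace Cfsg.Agent.S2794

open CA CA.H6Ctl CA.H6QdA CA.H6NPC CA.H6PSolv CA.H6Stab CA.H6ZJ CA.H6Op CA.Amb CA.AmbSyl CA.AmbCore CA.AmbRes CA.AmbChar Subgroup
open CA.H6J hiding Z
open scoped MatrixGroups

/-- For an odd prime p and a finite group G, the group Qd(p) is not involved in G if and only if in every section K/R of G, for every Sylow p-subgroup S* of K/R, the centre of J(S*) (J generated by the abelian subgroups of largest order) controls strong fusion in K/R. -/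
theorem result {G : Type*} [Group G] [Finite G] {p : ℕ} [Fact p.Prime] (hp : p ≠ 2) : ¬ Cfsg.Involves ↥(Cfsg.qd p) G ↔ ∀ (K R : Subgroup G) [hR : (R.subgroupOf K).Normal], ∀ T : Sylow p (K ⧸ R.subgroupOf K), Cfsg.ControlsStrongFusion p (Cfsg.centerThompsonAOf (T : Subgroup (K ⧸ R.subgroupOf K))) := by
  rw [involves_iff]
  refine ⟨fun h K R _ T => ?_, fun h h' => ?_⟩
  · rw [centerThompsonAOf_eq]
    exact (ctl_of_free hp (dvd_zero p) fn_id (fun h' => h (sec_quot h')) (sylIn_top T) le_rfl
      (sc_self _ _)).csf ((fn_ZJ (dvd_zero p)).le _)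
  · obtain ⟨K, R, _, ⟨e⟩⟩ := sec_top_iff'.1 h'
    obtain ⟨T⟩ : Nonempty (Sylow p (K ⧸ R.subgroupOf K)) := inferInstance
    obtain ⟨T', -, h2⟩ := h K R T
    rw [centerThompsonAOf_eq] at h2
    exact not_ctl_qd (fn_ZJ (dvd_zero p)) e (sylIn_top T) (sylIn_top T') (ctl_of_set h2)

end Cfsg.Agent.S2794
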