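import Cfsg.Statements.S2800
import Cfsg.Agent.Lib.Fus.FusNil
-- import your own Cfsg.Agent.* helpers here

set_option autoImplicit false
open Cfsg

namespace Cfsg.Agent.S2800

open CA.Fus CA.AmbSyl in
/-- Let S be a Sylow p-subgroup of the finite group G and J(S) the subgroup generated by the abelian subgroups of S of largest order. Suppose p is odd, or the symmetric group of degree 4 is not involved in G. If both C_G(Z(S)) and N_G(J(S)) have normal p-complements, then G has a normal p-complement. -/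
theorem result {G : Type*} [Group G] [Finite G] {p : ℕ} [Fact p.Prime] (S : Sylow p G) (h : p ≠ 2 ∨ ¬ Cfsg.Involves (Equiv.Perm (Fin 4)) G) (hC : Cfsg.HasNormalPComplement p ↥(Subgroup.centralizer (((S : Subgroup G) ⊓ Subgroup.centralizer ((S : Subgroup G) : Set G) : Subgroup G) : Set G))) (hN : Cfsg.HasNormalPComplement p ↥(Subgroup.normalizer ((Cfsg.thompsonSubgroupAOf (S : Subgroup G)) : Set G))) : Cfsg.HasNormalPComplement p G := by
  rw [CA.H6J.thompsonSubgroupAOf_eq] at hN
  have hT := sylIn_top S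
  refine npc_of_inner hT (inner_of_JZ hT.pg (sat_group hT) (h.imp id (group_free hT)) (fun P f hf => ?_)
    fun P f hf => ?_)
  · obtain ⟨g, hg, e⟩ := hf.group
    obtain ⟨t, ht, e'⟩ := conj_of_npc (hT.mono (CA.H6J.le_normalizer_J 0 _) le_top) hN hg
    exact mor_inner.2 ⟨hf.mor.le, t, ht, fun x hx => by
      rw [e x hx, e' x (hf.mor.le hx) (e x hx ▸ hf.mor.mem hx)]⟩
  · obtain ⟨g, hg, e⟩ := hf.group_bot
    obtain ⟨t, ht, e'⟩ := conj_of_npc (hT.mono (CA.AmbRes.cent_symm inf_le_right) le_top) hC hg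
    exact mor_inner.2 ⟨hf.mor.le, t, ht, fun x hx => by
      rw [e x hx, e' x (hf.mor.le hx) (e x hx ▸ hf.mor.mem hx)]⟩

end Cfsg.Agent.S2800
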