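import Cfsg.Statements.S2807
import Cfsg.Agent.Lib.Fus.FusYos
import Cfsg.Agent.Lib.Grp.Trf
-- import your own Cfsg.Agent.* helpers here

set_option autoImplicit false
open Cfsg

namespace Cfsg.Agent.S2807

open CA.Fus CA.AmbSyl in
/-- Let S be a Sylow p-subgroup of the finite group G. If S ∩ G' ≠ S ∩ (N_G(S))' (derived subgroups), then the wreath product Z_p ≀ Z_p — realised as a Sylow p-subgroup of the symmetric group of degree p² — is a homomorphic image of S. -/
theorem result {G : Type*} [Group G] [Finite G] {p : ℕ} [Fact p.Prime] (S : Sylow p G) (h : (S : Subgroup G) ⊓ commutator G ≠ (S : Subgroup G) ⊓ ⁅Subgroup.normalizer ((S : Subgroup G) : Set G), Subgroup.normalizer ((S : Subgroup G) : Set G)⁆) : ∃ (P : Sylow p (Equiv.Perm (Fin (p ^ 2)))) (f : ↥(S : Subgroup G) →* ↥(P : Subgroup (Equiv.Perm (Fin (p ^ 2))))), Function.Surjective f := by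
  have hS := sylIn_top S
  have hN := sylIn_of_le S (Subgroup.le_normalizer (H := (S : Subgroup G)))
  refine yoshida S.isPGroup' (sat_group hS) (sat_ofSub (hTH := hN.le) hN) (sub_iff.2 fun P f hf => ?_)
    (fun P f hf => ?_) fun e => h (le_antisymm ?_ (inf_le_inf_left _ (Subgroup.commutator_mono le_top le_top)))
  · obtain ⟨h1, h2, g, -, h3⟩ := (mor_ofSubgroup _).1 hf
    exact mor_group.2 ⟨h1, h2, g, h3⟩
  · exact (mor_ofSubgroup _).2 ⟨hf.mor.le, fun _ => hf.mor.mem, hf.group⟩
  · refine le_inf inf_le_left ((inf_comm _ _).le.trans (CA.Hyperfocal.commutator_inf_le S fun x hx g hg => ?_))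
    refine (e.ge.trans (focal_le_iff.2 fun P f hf x hx => ?_)) (mem_focal (P := Subgroup.zpowers x) (f := cj g)
      (mor_group.2 ⟨Subgroup.zpowers_le.2 hx, fun y hy => (Subgroup.zpowers_le.2
        ((homOn_cj (S : Subgroup G) g).mem_pre.2 ⟨hx, hg⟩) hy).2, g, fun _ _ => rfl⟩) (Subgroup.mem_zpowers x))
    obtain ⟨h1, -, g, h2, h3⟩ := (mor_ofSubgroup _).1 hf
    rw [h3 x hx]
    exact CA.Hyperfocal.inv_mul_conj_mem_commutator (hN.le (h1 hx)) h2

end Cfsg.Agent.S2807
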