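import Cfsg.Statements.S2856
import Cfsg.Agent.Lib.Loc.AmbChar
import Cfsg.Agent.Lib.Loc.AmbCos
-- import your own Cfsg.Agent.* helpers here

set_option autoImplicit false
open Cfsg

namespace Cfsg.Agent.S2856

/-- Let (M₁, M₂) be an amalgam pair in X satisfying the rank-two standing hypothesis (characteristic p, the normalizers in M₁ and in M₂ of a Sylow p-subgroup of M₁ ∩ M₂ equal and contained in M₁ ∩ M₂, and strongly p-embedded residues), λ a vertex of the coset graph, L_λ the subgroup of its stabilizer generated by the p-elements, Q_λ = O_p of the stabilizer, O^p(L_λ) the subgroup of L_λ generated by its elements of order prime to p, and V_λ^{(k)} the subgroup generated by the Z_μ over the vertices μ at distance at most k from λ (Z_μ being generated by the Ω₁(Z(S)), S a Sylow p-subgroup of the stabilizer of μ). If n ≥ 1 and V_λ^{(n)} ≤ Q_λ, then O^p(L_λ) does not centralize V_λ^{(n)}/[V_λ^{(n)}, Q_λ], that is, [V_λ^{(n)}, O^p(L_λ)] is not contained in [V_λ^{(n)},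 Q_λ]. -/
theorem result {X : Type*} [Group X] {p : ℕ} [Fact p.Prime] (M₁ M₂ : Subgroup X) (h : Cfsg.IsSpeAmalgamPair p M₁ M₂) (lam : Cfsg.CosetVertex M₁ M₂) (n : ℕ) (hn : 1 ≤ n) (V : Subgroup X) (hV : V = Cfsg.vertexVIter p M₁ M₂ n lam) (hVQ : V ≤ Cfsg.vertexQ p lam) : ¬ ⁅V, ((Cfsg.pResidual p ↥(Cfsg.pElementClosure p (MulAction.stabilizer X lam))).map (Cfsg.pElementClosure p (MulAction.stabilizer X lam)).subtype)⁆ ≤ ⁅V, Cfsg.vertexQ p lam⁆ := by
  open Subgroup Cfsg CA.Amb CA.AmbSyl CA.AmbCore CA.AmbRes CA.AmbChar CA.AmbWC CA.AmbSpe CA.AmbRed CA.AmbCos in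
  open scoped commutatorElement in
  (
    have k := cp_of h.1
    intro e
    change ⁅V, pResidualOf p (pElementClosure p (St lam))⁆ ≤ _ at e
    obtain ⟨m, rfl⟩ : ∃ m, n = m + 1 := ⟨n - 1, by omega⟩
    obtain ⟨μ, hμ⟩ := exists_adj lam
    set W := vertexVIter p M₁ M₂ m μ with hW
    have h1 : W ≤ V := hV ▸ V_le_V k.gen m hμ
    have hQW : vertexQ p lam ≤ 𝐍 W := (k.Q_le_adj hμ).trans (norm_V k.gen m μ)
    haveI := k.finQ lam
    have h2 : V ≤ vertexZ p lam ⊔ W := by
      refine CA.Hyperfocal.le_of_le_sup_commutator (isPGroup_pCoreOf p _).isNilpotent hVQ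
        (sup_le (k.Z_le_Q lam) (h1.trans hVQ)) (norm_sup (norm_of_centralizer (k.Q_le_cent lam)) hQW) ?_
      conv_lhs => rw [hV]
      refine V_succ_le k.gen (le_sup_left.trans le_sup_left) fun ν hν => ?_
      obtain ⟨g, hg, rfl⟩ := spe_tr_res h lam μ ν hμ hν
      have := cj_V_le (p := p) k.gen m g⁻¹ (g • μ)
      rw [inv_smul_smul] at this
      refine (le_cj_iff.2 this).trans ((cj_le_ncl W hg).trans ?_)
      rw [ncl_eq_sup]
      exact sup_le_sup le_sup_right ((commutator_mono h1 le_rfl).trans e)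
    have h3 : ⁅V, vertexQ p lam⁆ ≤ W := (commutator_mono h2 le_rfl).trans (comm_sup_le ((k.Z_le_Q lam).trans hQW)
      le_normalizer ((comm_eq_bot_of_le (k.Z_le_cent lam)).le.trans bot_le) (commutator_le_left_of_norm hQW))
    have h4 := spe_eq_bot h hμ (U := W) (h1.trans (hVQ.trans (le_inf (pCoreOf_le p _) (k.Q_le_adj hμ))))
      (norm_of_commutator_le ((commutator_mono h1 le_rfl).trans (e.trans h3))) (norm_V k.gen m μ)
    exact k.Z_ne μ (le_bot_iff.1 ((le_V (by rw [ds_self]; omega)).trans h4.le)))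

end Cfsg.Agent.S2856
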