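import Cfsg.Statements.S3084
import Cfsg.Agent.Lib.Grp.H7Ext

set_option autoImplicit false
open Cfsg

namespace Cfsg.Agent.S3084

open Matrix Subgroup

/-- the sign character -/
def s (a : ZMod 2) : ℝ := if a = 0 then 1 else -1

theorem z2 : ∀ a : ZMod 2, a = 0 ∨ a = 1 := by decide

theorem s_zero : s 0 = 1 := rfl

theorem s_one : s 1 = -1 := rfl

theorem s_add (a b : ZMod 2) : s (a + b) = s a * s b := by
  rcases z2 a with rfl | rfl <;> rcases z2 b with rfl | rfl
  · simp [s_zero]
  · simp [s_zero]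
  · simp [s_zero]
  · rw [show (1 + 1 : ZMod 2) = 0 from rfl, s_zero, s_one]; norm_num

theorem s_sq (a : ZMod 2) : s a * s a = 1 := by
  rcases z2 a with rfl | rfl <;> simp [s_zero, s_one]

theorem s_ne (a : ZMod 2) : s a ≠ 0 := left_ne_zero_of_mul_eq_one (s_sq a)

theorem s_inj {a b : ZMod 2} (h : s a = s b) : a = b := by
  rcases z2 a with rfl | rfl <;> rcases z2 b with rfl | rfl <;> simp only [s_zero, s_one] at h <;>
    first | rfl | norm_num at h

section
variable {U : Type} [AddCommGroup U] [Module (ZMod 2) U] [Fintype U] [DecidableEq U]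
  (β : U →ₗ[ZMod 2] U →ₗ[ZMod 2] ZMod 2)

omit [Fintype U] [DecidableEq U] in
theorem aa (u : U) : u + u = 0 := by
  rw [← two_smul (ZMod 2), show (2 : ZMod 2) = 0 from rfl, zero_smul]

omit [Fintype U] [DecidableEq U] in
theorem aa' (u v : U) : u + (u + v) = v := by rw [← add_assoc, aa, zero_add]

/-- left multiplication in the twisted group algebra -/
def L (u : U) : Matrix U U ℝ := of fun x y => if x = u + y then s (β u y) else 0

theorem mul_L (g : Matrix U U ℝ) (u x y : U) : (g * L β u) x y = g x (u + y) * s (β u y) := by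
  simp [mul_apply, L]

theorem L_mul (g : Matrix U U ℝ) (u x y : U) : (L β u * g) x y = s (β u (u + x)) * g (u + x) y := by
  rw [mul_apply, Finset.sum_eq_single (u + x)]
  · simp [L, aa']
  · intro z _ hz
    have : x ≠ u + z := fun e => hz (by rw [e, aa'])
    simp [L, this]
  · simp

theorem L_L (u v : U) : L β u * L β v = s (β u v) • L β (u + v) := by
  ext x y
  rw [mul_L]
  simp only [L, of_apply, Matrix.smul_apply, smul_eq_mul, add_assoc, map_add, LinearMap.add_apply, s_add]
  split_ifs <;> ring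

omit [Fintype U] in
theorem L_zero : L β 0 = 1 := by
  ext x y
  simp [L, one_apply, s_zero]

omit [Fintype U] in
theorem L_T (u : U) : (L β u)ᵀ = s (β u u) • L β u := by
  ext x y
  simp only [L, of_apply, Matrix.smul_apply, smul_eq_mul, transpose_apply]
  by_cases h : x = u + y
  · subst h
    simp [aa', s_add]
  · have : y ≠ u + x := fun e => h (by rw [e, aa'])
    simp [h, this]

theorem T_L (u : U) : (L β u)ᵀ * L β u = 1 := by
  rw [L_T, smul_mul_assoc, L_L, aa, L_zero, smul_smul, s_sq, one_smul]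

theorem L_T' (u : U) : L β u * (L β u)ᵀ = 1 := mul_eq_one_comm.1 (T_L β u)

theorem L_R (u v : U) : L β u * L β.flip v = L β.flip v * L β u := by
  ext x y
  rw [mul_L, mul_L]
  simp only [L, of_apply, add_left_comm u v y, map_add, LinearMap.add_apply, s_add, LinearMap.flip_apply]
  split_ifs <;> ring

omit [Fintype U] in
theorem L_inj {a b : ZMod 2} {u v : U} (h : s a • L β u = s b • L β v) : u = v ∧ a = b := by
  have h1 := congrFun (congrFun h u) 0
  simp only [L, of_apply, Matrix.smul_apply, smul_eq_mul, add_zero, map_zero, s_zero, if_true, mul_one] at h1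
  split_ifs at h1 with e
  · exact ⟨e, s_inj (by simpa using h1)⟩
  · exact absurd (by simpa using h1) (s_ne a)

variable {β}

theorem scalar (hn : ∀ u, (∀ v, β u v + β v u = 0) → u = 0) {g : Matrix U U ℝ}
    (h1 : ∀ u, g * L β u = L β u * g) (h2 : ∀ u, g * L β.flip u = L β.flip u * g) :
    g = g 0 0 • (1 : Matrix U U ℝ) := by
  ext x y
  by_cases h : x = y
  · subst h
    have := congrFun (congrFun (h1 x) x) 0
    rw [mul_L, L_mul, aa, add_zero, mul_comm] at this
    simp [mul_left_cancel₀ (s_ne _) this]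
  · obtain ⟨u, hu⟩ : ∃ u, β (x + y) u + β u (x + y) ≠ 0 := by
      by_contra! e
      exact h (by rw [← aa' x y, hn _ e, add_zero])
    have e1 := congrFun (congrFun (h1 u) x) (u + y)
    have e2 := congrFun (congrFun (h2 u) x) (u + y)
    rw [mul_L, L_mul, aa'] at e1 e2
    have e3 := (z2 _).resolve_left hu
    have e4 := congrArg s e3
    simp only [map_add, LinearMap.add_apply, s_add, LinearMap.flip_apply, s_one] at e1 e2 e4
    have a1 := s_sq (β u u)
    have a2 := s_sq (β u x)
    have a3 := s_sq (β u y)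
    have a4 := s_sq (β x u)
    have a5 := s_sq (β y u)
    have f1 : g x y = s (β u x) * s (β u y) * g (u + x) (u + y) := by
      linear_combination s (β u u) * s (β u y) * e1 - g x y * (s (β u y) * s (β u y)) * a1 - g x y * a3 +
        s (β u x) * s (β u y) * g (u + x) (u + y) * a1
    have f2 : g x y = s (β x u) * s (β y u) * g (u + x) (u + y) := by
      linear_combination s (β u u) * s (β y u) * e2 - g x y * (s (β y u) * s (β y u)) * a1 - g x y * a5 +
        s (β x u) * s (β y u) * g (u + x) (u + y) * a1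
    have f3 : s (β x u) * s (β y u) = -(s (β u x) * s (β u y)) := by
      linear_combination s (β u x) * s (β u y) * e4 -
        s (β x u) * s (β y u) * (s (β u y) * s (β u y)) * a2 - s (β x u) * s (β y u) * a3
    rw [f3] at f2
    simp only [Matrix.smul_apply, one_apply_ne h, smul_zero]
    linarith

theorem sum_s {f : U →ₗ[ZMod 2] ZMod 2} {v : U} (h : f v ≠ 0) : ∑ w, s (f w) = 0 := by
  have := Equiv.sum_comp (Equiv.addLeft v) fun w => s (f w)
  simp only [Equiv.coe_addLeft, map_add, s_add, (z2 _).resolve_left h, s_one, neg_mul, one_mul,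
    Finset.sum_neg_distrib] at this
  linarith

omit [DecidableEq U] in
theorem half (δ : U →ₗ[ZMod 2] U →ₗ[ZMod 2] ZMod 2) (h : ∀ u, δ u u = 0) :
    ∃ ε : U → ZMod 2, ∀ u v, ε (u + v) = ε u + ε v + δ u v := by
  let b := Module.finBasis (ZMod 2) U
  let γ : U →ₗ[ZMod 2] U →ₗ[ZMod 2] ZMod 2 :=
    b.constr (ZMod 2) fun i => b.constr (ZMod 2) fun j => if i < j then δ (b i) (b j) else 0
  have h1 : ∀ u v, δ u v = δ v u := fun u v => by
    have := h (u + v)
    simp only [map_add, LinearMap.add_apply, h, zero_add, add_zero] at this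
    rw [← aa' (δ v u) (δ u v), this, add_zero]
  have h2 : γ + γ.flip = δ := LinearMap.ext_basis b b fun i j => by
    simp only [γ, LinearMap.add_apply, LinearMap.flip_apply, Module.Basis.constr_basis]
    rcases lt_trichotomy i j with e | rfl | e
    · simp [e, e.not_gt]
    · simp [h]
    · simp [e, e.not_gt, h1 (b i)]
  refine ⟨fun u => γ u u, fun u v => ?_⟩
  simp only [← h2, map_add, LinearMap.add_apply, LinearMap.flip_apply]
  ring

theorem lift (hn : ∀ u, (∀ v, β u v + β v u = 0) → u = 0) (k : U →ₗ[ZMod 2] U)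
    (hk : ∀ u, β (k u) (k u) = β u u) : ∃ g : Matrix U U ℝ, gᵀ * g = 1 ∧
      (∀ u, g * L β.flip u = L β.flip u * g) ∧ ∀ u, ∃ a, g * L β u = s a • (L β (k u) * g) := by
  obtain ⟨ε, hε⟩ := half (β.compl₁₂ k k + β) fun u => by simp [hk, aa]
  simp only [LinearMap.add_apply, LinearMap.compl₁₂_apply] at hε
  let G : U → Matrix U U ℝ := fun w => ∑ u, s (ε u) • (L β (k u) * L β w * (L β u)ᵀ)
  obtain ⟨w, hw⟩ : ∃ w, G w ≠ 0 := by
    by_contra! h
    have h1 : ∑ w, G w * (L β w)ᵀ = 0 := by simp [h]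
    have h2 : ∀ u w, L β (k u) * L β w * (L β u)ᵀ * (L β w)ᵀ =
        s ((β u + β.flip u) w) • (L β (k u) * (L β u)ᵀ) := fun u w => by
      have : L β w * L β u = s ((β u + β.flip u) w) • (L β u * L β w) := by
        rw [L_L, L_L, smul_smul, add_comm w u, LinearMap.add_apply, LinearMap.flip_apply, s_add,
          mul_right_comm, s_sq, one_mul]
      rw [L_T β u, mul_smul_comm, smul_mul_assoc, mul_assoc (L β (k u)), this, mul_smul_comm,
        smul_mul_assoc, mul_assoc, mul_assoc, L_T', mul_one, mul_smul_comm, smul_comm]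
    simp only [G, Finset.sum_mul, smul_mul_assoc, h2] at h1
    rw [Finset.sum_comm, Finset.sum_eq_single 0 (fun u _ hu => by
      obtain ⟨v, hv⟩ : ∃ v, (β u + β.flip u) v ≠ 0 := by
        by_contra! e
        exact hu (hn u e)
      rw [← Finset.smul_sum, ← Finset.sum_smul, sum_s hv, zero_smul, smul_zero]) (by simp)] at h1
    have := congrFun (congrFun h1 0) 0
    simp [L_zero, s_zero, s_ne] at this
  have c1 : ∀ u, G w * L β.flip u = L β.flip u * G w := fun u => by
    simp only [G, Finset.sum_mul, Finset.mul_sum, L_T, smul_mul_assoc, mul_smul_comm]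
    refine Finset.sum_congr rfl fun v _ => ?_
    rw [mul_assoc _ (L β v), L_R, ← mul_assoc, mul_assoc _ (L β w), L_R, ← mul_assoc, L_R]
    simp only [mul_assoc]
  have c2 : ∀ v, G w * L β v = s (ε v) • (L β (k v) * G w) := fun v => by
    simp only [G, Finset.sum_mul, Finset.mul_sum, Finset.smul_sum]
    rw [← Equiv.sum_comp (Equiv.addLeft v)]
    refine Finset.sum_congr rfl fun u _ => ?_
    simp only [Equiv.coe_addLeft, L_T, smul_mul_assoc, mul_smul_comm, mul_assoc]
    rw [L_L β (v + u) v, ← mul_assoc (L β (k v)), L_L β (k v), add_right_comm, aa, zero_add, ← map_add]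
    simp only [smul_mul_assoc, mul_smul_comm, smul_smul]
    congr 1
    simp only [← s_add, hε, map_add, LinearMap.add_apply]
    congr 1
    generalize ε v = a, ε u = b, β (k v) (k u) = c, β v u = d, β v v = e, β u v = f, β u u = g
    revert a b c d e f g
    decide
  generalize G w = g at hw c1 c2
  have c3 := scalar hn (g := gᵀ * g) (fun v => by
      have e1 := congrArg transpose (c2 v)
      rw [transpose_mul, transpose_smul, transpose_mul] at e1
      have e2 : (L β v)ᵀ * gᵀ * (g * L β v) = gᵀ * g := by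
        rw [e1, c2, smul_mul_assoc, mul_smul_comm, smul_smul, s_sq, one_smul, mul_assoc,
          ← mul_assoc _ (L β (k v)), T_L, one_mul]
      conv_rhs => rw [← e2]
      simp only [← mul_assoc, L_T', one_mul])
    fun v => by
      have e1 := congrArg transpose (c1 v)
      rw [transpose_mul, transpose_mul, L_T, smul_mul_assoc, mul_smul_comm] at e1
      rw [mul_assoc, c1, ← mul_assoc, ← smul_right_injective _ (s_ne _) e1, mul_assoc]
  generalize (gᵀ * g) 0 0 = c at c3
  have hc : 0 < c := by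
    obtain ⟨x, y, h⟩ : ∃ x y, g x y ≠ 0 := by
      by_contra! h
      exact hw (ext h)
    have := congrFun (congrFun c3 y) y
    simp only [mul_apply, transpose_apply, Matrix.smul_apply, one_apply_eq, smul_eq_mul, mul_one] at this
    rw [← this]
    exact Finset.sum_pos' (fun i _ => mul_self_nonneg _) ⟨x, Finset.mem_univ _, mul_self_pos.2 h⟩
  refine ⟨(√c)⁻¹ • g, ?_, fun u => ?_, fun u => ⟨ε u, ?_⟩⟩
  · rw [transpose_smul, smul_mul_assoc, mul_smul_comm, c3, smul_smul, smul_smul, ← mul_inv,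
      Real.mul_self_sqrt hc.le, inv_mul_cancel₀ hc.ne', one_smul]
  · rw [smul_mul_assoc, mul_smul_comm, c1]
  · rw [smul_mul_assoc, mul_smul_comm, c2, smul_comm]

theorem kern (hn : ∀ u, (∀ v, β u v + β v u = 0) → u = 0) {g : Matrix U U ℝ} (h1 : gᵀ * g = 1)
    (h2 : ∀ u, g * L β.flip u = L β.flip u * g) (h3 : ∀ u, ∃ a, g * L β u = s a • (L β u * g)) :
    ∃ w a, g = s a • L β w := by
  choose f hf using h3
  have h1' := mul_eq_one_comm.1 h1
  have h4 : ∀ u v, f (u + v) = f u + f v := fun u v => by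
    have e1 : g * (L β u * L β v) = s (f u + f v) • (L β u * L β v * g) := by
      rw [← mul_assoc, hf, smul_mul_assoc, mul_assoc, hf, mul_smul_comm, smul_smul, s_add, mul_assoc]
    rw [L_L, mul_smul_comm, hf, smul_mul_assoc, smul_comm] at e1
    have e2 := congrArg (· * gᵀ) e1
    simp only [smul_mul_assoc, mul_assoc, h1', mul_one, smul_smul, ← s_add] at e2
    exact add_right_cancel (L_inj β e2).2
  obtain ⟨w, hw⟩ := (LinearMap.injective_iff_surjective_of_finrank_eq_finrank (f := β + β.flip)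
    (Subspace.dual_finrank_eq).symm).1 ((injective_iff_map_eq_zero _).2 fun u hu => hn u fun v =>
      LinearMap.congr_fun hu v) ((AddMonoidHom.mk' f h4).toZModLinearMap 2)
  have h5 : ∀ u, β w u + β u w = f u := fun u => LinearMap.congr_fun hw u
  have c := scalar hn (g := L β w * g) (fun u => by
      rw [mul_assoc, hf, mul_smul_comm, ← mul_assoc, ← mul_assoc, L_L, L_L, ← h5, ← smul_mul_assoc,
        smul_smul, s_add, mul_right_comm, s_sq, one_mul, add_comm])
    fun u => by rw [mul_assoc, h2, ← mul_assoc, L_R, mul_assoc]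
  generalize (L β w * g) 0 0 = t at c
  have c1 : g = t • (L β w)ᵀ := by
    rw [← one_mul g, ← T_L β w, mul_assoc, c, mul_smul_comm, mul_one]
  have c2 : t * t = 1 := by
    rw [c1, transpose_smul, transpose_transpose, smul_mul_assoc, mul_smul_comm, L_T', smul_smul] at h1
    simpa using congrFun (congrFun h1 0) 0
  rcases mul_self_eq_one_iff.1 c2 with rfl | rfl
  · exact ⟨w, β w w, by rw [c1, one_smul, L_T]⟩
  · exact ⟨w, 1 + β w w, by rw [c1, L_T, smul_smul, s_add, s_one]⟩

variable {K : Type*} [Group K] (ρ : Representation (ZMod 2) K U) (β)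

/-- `g` induces `k` -/
def Rel (g : Matrix U U ℝ) (k : K) : Prop := ∀ u, ∃ a, g * L β u = s a • (L β (ρ k u) * g)

variable {β ρ}

theorem Rel.mul {g h : Matrix U U ℝ} {k l : K} (h1 : Rel β ρ g k) (h2 : Rel β ρ h l) :
    Rel β ρ (g * h) (k * l) := fun u => by
  obtain ⟨a, ha⟩ := h2 u
  obtain ⟨b, hb⟩ := h1 (ρ l u)
  refine ⟨a + b, ?_⟩
  rw [mul_assoc, ha, mul_smul_comm, ← mul_assoc, hb, smul_mul_assoc, smul_smul, s_add, map_mul,
    mul_assoc, Module.End.mul_apply]

theorem Rel.uniq (hρ : Function.Injective ρ) {g : (Matrix U U ℝ)ˣ} {k l : K} (h1 : Rel β ρ g k)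
    (h2 : Rel β ρ g l) : k = l := hρ (LinearMap.ext fun u => by
  obtain ⟨a, ha⟩ := h1 u
  obtain ⟨b, hb⟩ := h2 u
  have e := congrArg (· * (g⁻¹).1) (ha.symm.trans hb)
  simp only [smul_mul_assoc, Units.mul_inv_cancel_right] at e
  exact (L_inj β e).1)

variable (β ρ)

/-- the extension -/
def R : Subgroup (Matrix U U ℝ)ˣ where
  carrier := {g | g.1ᵀ * g.1 = 1 ∧ (∀ u, g.1 * L β.flip u = L β.flip u * g.1) ∧ ∃ k, Rel β ρ g k}
  one_mem' := ⟨by simp, by simp, 1, fun u => ⟨0, by simp [s_zero]⟩⟩
  mul_mem' := fun {g h} ⟨a1, a2, k, a3⟩ ⟨b1, b2, l, b3⟩ => ⟨by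
      rw [Units.val_mul, transpose_mul, mul_assoc, ← mul_assoc _ g.1, a1, one_mul, b1],
    fun u => by rw [Units.val_mul, mul_assoc, b2, ← mul_assoc, a2, mul_assoc], _, a3.mul b3⟩
  inv_mem' := fun {g} ⟨a1, a2, k, a3⟩ => ⟨by
      rw [Units.inv_eq_of_mul_eq_one_left a1, transpose_transpose, mul_eq_one_comm.1 a1],
    fun u => by
      rw [Units.inv_mul_eq_iff_eq_mul, ← mul_assoc, a2, Units.mul_inv_cancel_right], k⁻¹, fun u => by
      obtain ⟨a, ha⟩ := a3 (ρ k⁻¹ u)
      refine ⟨a, ?_⟩
      rw [Units.inv_mul_eq_iff_eq_mul, mul_smul_comm, ← mul_assoc, ha, smul_mul_assoc, smul_smul, s_sq,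
        one_smul, Units.mul_inv_cancel_right, Representation.self_inv_apply]⟩

theorem main [Nontrivial U] (hρ : Function.Injective ρ) (hn : ∀ u, (∀ v, β u v + β v u = 0) → u = 0)
    (hq : ∀ k u, β (ρ k u) (ρ k u) = β u u) :
    ∃ (R : Type) (_ : Group R) (_ : Finite R) (Q : Subgroup R) (hN : Q.Normal) (e : R ⧸ Q ≃* K)
      (χ : ↥Q →* Multiplicative U), Cfsg.IsExtraspecial 2 ↥Q ∧
      Nat.card ↥Q = 2 ^ (Module.finrank (ZMod 2) U + 1) ∧ Function.Surjective χ ∧
      χ.ker = Subgroup.center ↥Q ∧ (∀ (r : R) (a : ↥Q), χ ⟨r * a * r⁻¹, hN.conj_mem (a : R) a.2 r⟩ =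
        Multiplicative.ofAdd (ρ (e (r : R ⧸ Q)) (Multiplicative.toAdd (χ a)))) ∧
      ∀ a : ↥Q, a * a = 1 ↔ β (Multiplicative.toAdd (χ a)) (Multiplicative.toAdd (χ a)) = 0 := by
  have := Fact.mk Nat.prime_two
  choose κ hκ using fun g : R β ρ => g.2.2.2
  let π : R β ρ →* K := MonoidHom.mk' κ fun g h => (hκ _).uniq hρ ((hκ g).mul (hκ h))
  have hπ : Function.Surjective π := fun k => by
    obtain ⟨g, g1, g2, g3⟩ := lift hn (ρ k) (hq k)
    exact ⟨⟨⟨g, gᵀ, mul_eq_one_comm.1 g1, g1⟩, g1, g2, k, g3⟩, (hκ _).uniq hρ g3⟩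
  choose w a hw using fun g : π.ker => kern hn g.1.2.1 g.1.2.2.1 fun u => by
    have := hκ g.1 u
    rwa [show κ g.1 = 1 from g.2, map_one] at this
  have mk : ∀ (u : U) (b : ZMod 2), ∃ g : π.ker, g.1.1.1 = s b • L β u := fun u b => by
    have e1 : (s b • L β u)ᵀ * (s b • L β u) = 1 := by
      rw [transpose_smul, smul_mul_assoc, mul_smul_comm, T_L, smul_smul, s_sq, one_smul]
    have e2 : Rel β ρ (s b • L β u) 1 := fun v => ⟨β u v + β v u, by
      rw [map_one, Module.End.one_apply, smul_mul_assoc, mul_smul_comm, L_L, L_L, add_comm v u]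
      simp only [smul_smul, s_add]
      congr 1
      linear_combination -s b * s (β u v) * s_sq (β v u)⟩
    exact ⟨⟨⟨⟨_, _, mul_eq_one_comm.1 e1, e1⟩, e1, fun v => by
      rw [smul_mul_assoc, mul_smul_comm, L_R], 1, e2⟩, (hκ _).uniq hρ e2⟩, rfl⟩
  choose m hm using mk
  have ext : ∀ {g h : π.ker}, g.1.1.1 = h.1.1.1 → g = h := fun e =>
    Subtype.ext (Subtype.ext (Units.ext e))
  have mul : ∀ g h : π.ker, (g * h).1.1.1 = s (a g + a h + β (w g) (w h)) • L β (w g + w h) :=
    fun g h => by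
      change g.1.1.1 * h.1.1.1 = _
      rw [hw g, hw h, smul_mul_assoc, mul_smul_comm, L_L, smul_smul, smul_smul, s_add, s_add]
  have wm : ∀ u b, w (m u b) = u := fun u b => (L_inj β ((hw _).symm.trans (hm u b))).1
  let c : CA.H7Ext.Cov 2 π.ker U :=
    { π := w
      ζ := m 0
      π_mul := fun g h => (L_inj β ((hw _).symm.trans (mul g h))).1
      ζ_add := fun x y => ext (by
        change _ = (m 0 x).1.1.1 * (m 0 y).1.1.1
        simp only [hm, L_zero, smul_mul_assoc, one_mul, smul_smul, s_add])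
      surj := fun u => ⟨_, wm u 0⟩
      inj := fun x y e => (L_inj β ((hm 0 x).symm.trans (e ▸ hm 0 y))).2
      ker := fun g => ⟨fun e => ⟨a g, ext (by rw [hm, hw, e])⟩, fun ⟨b, e⟩ => e ▸ wm 0 b⟩
      cent := fun x g => ext (by
        change (m 0 x).1.1.1 * g.1.1.1 = g.1.1.1 * (m 0 x).1.1.1
        simp [hm, L_zero]) }
  have hc : ∀ g, g ∈ center π.ker ↔ w g = 0 := fun g => ⟨fun h => hn _ fun v => by
      have e := congrArg (·.1.1.1) (mem_center_iff.1 h (m v 0))
      simp only [mul, wm] at e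
      have e' := (L_inj β e).2
      rw [add_comm (a g)] at e'
      rw [add_left_cancel e', aa], fun h => by
      obtain ⟨b, rfl⟩ := (c.ker g).1 h
      exact mem_center_iff.2 fun x => (c.cent b x).symm⟩
  have fQ : Finite π.ker := Finite.of_injective (fun g => (w g, a g)) fun g h e =>
    ext (by rw [hw, hw, (Prod.mk.inj e).1, (Prod.mk.inj e).2])
  have fK : Finite K := Finite.of_injective (fun k u => ρ k u) fun k l e => hρ (LinearMap.ext (congrFun e))
  let e := QuotientGroup.quotientKerEquivOfSurjective π hπ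
  have : Finite (R β ρ ⧸ π.ker) := Finite.of_equiv _ e.toEquiv.symm
  refine ⟨R β ρ, inferInstance, Finite.of_subgroup_quotient π.ker, π.ker, inferInstance, e,
    MonoidHom.mk' (fun g => Multiplicative.ofAdd (w g)) fun g h => congrArg _ (c.π_mul g h),
    c.extra (Subgroup.ext fun g => (hc g).trans c.mem_zpowers_iff.symm) inferInstance, c.card_eq',
    fun u => ⟨m u.toAdd 0, congrArg Multiplicative.ofAdd (wm _ 0)⟩,
    Subgroup.ext fun g => (hc g).symm, fun r g => congrArg Multiplicative.ofAdd ?_, fun g => ?_⟩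
  · obtain ⟨b, hb⟩ := hκ r (w g)
    refine (L_inj β (b := a g + b) ((hw _).symm.trans ?_)).1
    change r.1.1 * g.1.1.1 * (r.1⁻¹).1 = _
    rw [hw g, mul_smul_comm, hb, smul_mul_assoc, smul_mul_assoc, Units.mul_inv_cancel_right, smul_smul, s_add]
    rfl
  · change _ ↔ β (w g) (w g) = 0
    have e1 := mul g g
    rw [aa, aa, zero_add] at e1
    refine ⟨fun h => (L_inj β (e1.symm.trans (?_ : _ = s 0 • L β 0))).2, fun h => ext ?_⟩
    · rw [h, s_zero, L_zero, one_smul]; rfl
    · rw [e1, h, s_zero, L_zero, one_smul]; rfl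

end

/-- Let K be a group acting faithfully and linearly on a finite-dimensional vector space U of dimension 2n ≥ 2 over the field with two elements, preserving a quadratic form q whose polar bilinear form is non-degenerate and which vanishes on some n-dimensional subspace (a non-singular form of plus type). Then there is a finite group R with a normal extraspecial 2-subgroup Q of order 2^(2n+1), an isomorphism of R/Q with K, and a surjective homomorphism χ from Q onto (the additive group of) U with kernel the centre of Q, such that χ carries conjugation by any r in R to the action of the image of r in K, and an element a of Q squares to the identity exactly when q vanishes at χ(a). -/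
theorem result {K : Type*} [Group K] {U : Type*} [AddCommGroup U] [Module (ZMod 2) U] [Module.Finite (ZMod 2) U] (n : ℕ) (hn1 : 1 ≤ n) (hn : Module.finrank (ZMod 2) U = 2 * n) (ρ : Representation (ZMod 2) K U) (hρ : Function.Injective ρ) (q : QuadraticForm (ZMod 2) U) (hq : ∀ (k : K) (u : U), q (ρ k u) = q u) (hnd : (QuadraticMap.polarBilin q).Nondegenerate) (hplus : ∃ W : Submodule (ZMod 2) U, Module.finrank (ZMod 2) ↥W = n ∧ ∀ w ∈ W, q w = 0) : ∃ (R : Type) (_ : Group R) (_ : Finite R) (Q : Subgroup R) (hN : Q.Normal) (e : R ⧸ Q ≃* K) (χ : ↥Q →* Multiplicative U), Cfsg.IsExtraspecial 2 ↥Q ∧ Nat.card ↥Q = 2 ^ (2 * n + 1) ∧ Function.Surjective χ ∧ χ.ker = Subgroup.center ↥Q ∧ (∀ (r : R) (a : ↥Q), χ ⟨r * a * r⁻¹, hN.conj_mem (a : R) a.2 r⟩ = Multiplicative.ofAdd (ρ (e (r : R ⧸ Q)) (Multiplicative.toAdd (χ a)))) ∧ ∀ a : ↥Q, a * a = 1 ↔ q (Multiplicative.toAdd (χ a)) = 0 := by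
  obtain ⟨B, hB⟩ := LinearMap.BilinMap.toQuadraticMap_surjective q
  have hB' : ∀ u, B u u = q u := fun u => by rw [← hB]; rfl
  let i : U ≃ₗ[ZMod 2] (Fin (2 * n) → ZMod 2) := (Module.finBasisOfFinrankEq (ZMod 2) U hn).equivFun
  let σ : Representation (ZMod 2) K (Fin (2 * n) → ZMod 2) := i.conjRingEquiv.toMonoidHom.comp ρ
  have hσ : ∀ k u, σ k u = i (ρ k (i.symm u)) := fun k u => rfl
  have : Nonempty (Fin (2 * n)) := ⟨⟨0, by omega⟩⟩
  obtain ⟨R, _, _, Q, hN, e, χ, h1, h2, h3, h4, h5, h6⟩ := main (B.compl₁₂ i.symm.toLinearMap i.symm.toLinearMap) σ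
    (i.conjRingEquiv.injective.comp hρ) (fun u hu => by
      refine i.symm.map_eq_zero_iff.1 (hnd.1 _ fun v => ?_)
      have := hu (i v)
      rw [← hB, LinearMap.BilinMap.polarBilin_toQuadraticMap]
      simpa using this) fun k u => by simp [hσ, hB', hq]
  refine ⟨R, inferInstance, inferInstance, Q, hN, e,
    (AddMonoidHom.toMultiplicative i.symm.toLinearMap.toAddMonoidHom).comp χ, h1, by simpa using h2,
    (i.symm.surjective.comp h3 :), ?_, fun r a => ?_, fun a => ?_⟩
  · rw [← h4]
    exact Subgroup.ext fun a => i.symm.map_eq_zero_iff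
  · rw [MonoidHom.comp_apply, h5]
    exact congrArg Multiplicative.ofAdd (i.symm_apply_apply _)
  · rw [h6, ← hB']
    rfl

end Cfsg.Agent.S3084
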