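import Cfsg.Statements.S3085
import Cfsg.Agent.Lib.Grp.H7Ext

set_option autoImplicit false
open Cfsg

namespace Cfsg.Agent.S3085

open Subgroup CA.H7Ext CA.CForm Module

/-- Let Q be an extraspecial 2-group of order 2^(2n+1) with n ≥ 3 that is of plus type (it contains an elementary abelian subgroup of order 2^(n+1)). Then the group of inner automorphisms of Q has no complement in the full automorphism group of Q: the extension of the inner automorphism group (elementary abelian of order 2^(2n)) by the outer automorphism group (the orthogonal group of plus type) does not split. -/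
theorem result {Q : Type*} [Group Q] [Finite Q] (n : ℕ) (hn : 3 ≤ n) (hQ : Cfsg.IsExtraspecial 2 Q) (hcard : Nat.card Q = 2 ^ (2 * n + 1)) (hplus : ∃ E : Subgroup Q, Cfsg.IsElementaryAbelian 2 E ∧ Nat.card ↥E = 2 ^ (n + 1)) (L : Subgroup (MulAut Q)) : ¬ (Cfsg.Inn Q).IsComplement' L := by
  obtain ⟨k, m, c, hz, hf, -, hc, -⟩ := exists_two hQ
  rw [hc, Nat.pow_right_inj one_lt_two] at hcard
  intro hL
  set f := c.orth
  have inj : ∀ a ∈ L, ∀ b ∈ L, c.ind hz a = c.ind hz b → a = b := fun a ha b hb h => by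
    have h1 : a⁻¹ * b ∈ Inn Q := by
      rw [← c.ker_ind hz, MonoidHom.mem_ker, map_mul, map_inv, h, inv_mul_cancel]
    exact inv_mul_eq_one.1 (Subgroup.disjoint_def.1 hL.disjoint h1 (mul_mem (inv_mem ha) hb))
  have cond : ∀ v, f.Q v = 1 → f.QreflCond v 1 := fun v hv => by
    simp only [Form.QreflCond, hv, Kind.orth_σ, Kind.orth_π, Kind.orth_ε]; decide
  have sur : ∀ v, f.Q v = 1 → ∃ a ∈ L, ∀ y, c.π (a y) = c.π y + f.B v (c.π y) • v := fun v hv => by
    obtain ⟨φ, hφ⟩ := c.ind_surj hz (f.qrefl v 1 (cond v hv))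
    obtain ⟨⟨i, a⟩, rfl⟩ := hL.2 φ
    refine ⟨a, a.2, fun y => ?_⟩
    have h1 : c.ind hz i = 1 := by rw [← MonoidHom.mem_ker, c.ker_ind hz]; exact i.2
    rw [map_mul, h1, one_mul] at hφ
    rw [← c.ind_π hz, hφ, Form.qrefl_apply, one_mul]
  have ext : ∀ a ∈ L, ∀ b ∈ L, (∀ y, c.π (a y) = c.π (b y)) → a = b := fun a ha b hb h =>
    inj a ha b hb (Subtype.ext (LinearEquiv.ext fun v => by
      obtain ⟨y, rfl⟩ := c.surj v
      rw [c.ind_π, c.ind_π, h]))
  have hd : finrank (ZMod 2) (Fin (2 * (k + 1)) → ZMod 2) = 2 * (k + 1) := Module.finrank_fin_fun _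
  obtain ⟨v, hv⟩ := hf.exists_Q_eq (by omega) 1
  have v0 : v ≠ 0 := by rintro rfl; simp at hv
  have two : ∀ u : Fin (2 * (k + 1)) → ZMod 2, u + u = 0 := fun u => by
    rw [← two_smul (ZMod 2), show (2 : ZMod 2) = 0 from rfl, zero_smul]
  have bs : ∀ u, f.B u u = 0 := c.b_self
  obtain ⟨τ, τL, hτ⟩ := sur v hv
  have h1 : ∀ y, f.B v (c.π y) = 0 → ∃ a, τ y = y * c.ζ a := fun y hy =>
    c.π_eq_iff.1 (by rw [hτ, hy, zero_smul, add_zero])
  choose! l hl using h1
  have l1 : ∀ x y, f.B v (c.π x) = 0 → f.B v (c.π y) = 0 → l (x * y) = l x + l y :=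
    fun x y hx hy => c.inj (by
      have := hl (x * y) (by rw [c.π_mul, map_add, hx, hy, add_zero])
      rw [map_mul, hl x hx, hl y hy, mul_assoc, ← mul_assoc _ y, c.cent, mul_assoc, mul_assoc,
        mul_right_inj, mul_right_inj] at this
      rw [c.ζ_add, this])
  have l2 : ∀ x, f.B v (c.π x) = 0 → l (c.s (c.π x)) = l x := fun x hx => by
    obtain ⟨a, ha⟩ := c.π_eq_iff.1 (c.π_s (c.π x))
    have h0 : f.B v (c.π (c.ζ a)) = 0 := by rw [c.π_ζ, map_zero]
    have := hl (c.ζ a) h0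
    rw [c.map_ζ hz, left_eq_mul, c.ζ_eq_one] at this
    rw [ha, l1 _ _ hx h0, this, add_zero]
  have l3 : ∀ u w, f.B v u = 0 → f.B v w = 0 → l (c.s (u + w)) = l (c.s u) + l (c.s w) := by
    intro u w hu hw
    obtain ⟨x, rfl⟩ := c.surj u
    obtain ⟨y, rfl⟩ := c.surj w
    rw [← c.π_mul, l2 _ (by rw [c.π_mul, map_add, hu, hw, add_zero]), l1 _ _ hu hw, l2 _ hu, l2 _ hw]
  let μ : f.perp (ZMod 2 ∙ v) →ₗ[ZMod 2] ZMod 2 :=
    (AddMonoidHom.mk' (fun u : f.perp (ZMod 2 ∙ v) => l (c.s u)) fun u w =>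
      l3 _ _ (f.mem_perp_span_singleton.1 u.2) (f.mem_perp_span_singleton.1 w.2)).toZModLinearMap 2
  have d1 := hf.finrank_perp (ZMod 2 ∙ v)
  have d2 := μ.finrank_range_add_finrank_ker
  have d3 := (LinearMap.range μ).finrank_le
  rw [finrank_span_singleton v0, hd] at d1
  rw [Module.finrank_self] at d3
  obtain ⟨⟨u, hu⟩, u1, u2, u3⟩ := (f.restrict _).exists_singular_of_three_le
    (W := LinearMap.ker μ) (by omega)
  replace hu := f.mem_perp_span_singleton.1 hu
  replace u1 : l (c.s u) = 0 := u1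
  replace u3 : f.Q u = 0 := u3
  have hw : f.Q (v + u) = 1 := by rw [f.Q_add_of_B hu, hv, u3, add_zero]
  have hvw : f.B v (v + u) = 0 := by rw [map_add, bs, hu, add_zero]
  obtain ⟨g, gL, hg⟩ := sur _ hw
  have e1 : τ * τ = 1 := ext _ (mul_mem τL τL) _ (one_mem _) fun y => by
    rw [MulAut.mul_apply, hτ, hτ, map_add, f.B_smul_right, bs, mul_zero, add_zero, add_assoc, two,
      add_zero, MulAut.one_apply]
  have e2 : τ * g = g * τ := ext _ (mul_mem τL gL) _ (mul_mem gL τL) fun y => by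
    rw [MulAut.mul_apply, MulAut.mul_apply, hτ, hg, hg, hτ, map_add (f.B v), map_add (f.B (v + u)),
      f.B_smul_right, f.B_smul_right, hvw, f.eq_zero_symm hvw, mul_zero, mul_zero, add_zero,
      add_zero, add_right_comm]
  obtain ⟨y0, hy0⟩ := hf.exists_B_ne_zero v0
  obtain ⟨y0, rfl⟩ := c.surj y0
  have e3 : c.π (y0⁻¹ * τ y0) = v := by
    rw [c.π_mul, c.π_inv, hτ, (Cov.zmod_two _).resolve_left hy0, one_smul, neg_add_cancel_left]
  have e4 : l (c.s v) ≠ 0 := fun h => by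
    have h2 := hl (y0⁻¹ * τ y0) (by rw [e3, bs])
    rw [← l2 _ (by rw [e3, bs]), e3, h, c.ζ_zero, mul_one, map_mul, map_inv, ← MulAut.mul_apply, e1,
      MulAut.one_apply] at h2
    have h3 : (y0⁻¹ * τ y0) ^ 2 = 1 := by
      rw [pow_two]; nth_rw 1 [← h2]; group
    rw [← c.q_eq_zero, e3] at h3
    exact one_ne_zero (hv.symm.trans h3)
  obtain ⟨y, y1, y2⟩ := hf.exists_perp_B_eq' (W := ZMod 2 ∙ v) (u := v + u) (fun h => by
    obtain ⟨a, ha⟩ := Submodule.mem_span_singleton.1 h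
    obtain rfl | rfl := Cov.zmod_two a
    · rw [← ha, zero_smul, f.Q_zero] at hw; exact zero_ne_one hw
    · rw [one_smul, left_eq_add] at ha; exact u2 (Subtype.ext ha)) 1
  obtain ⟨y, rfl⟩ := c.surj y
  replace y1 := f.mem_perp_span_singleton.1 y1
  have e5 := hg y
  rw [y2, one_smul] at e5
  have e6 : f.B v (c.π (g y)) = 0 := by rw [e5, map_add, y1, hvw, add_zero]
  have e7 := hl _ e6
  rw [← MulAut.mul_apply, e2, MulAut.mul_apply, hl y y1, map_mul, c.map_ζ hz, mul_right_inj,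
    c.inj.eq_iff, ← l2 _ e6, e5, l3 _ _ y1 hvw, l2 _ y1, l3 _ _ (bs v) hu, u1, add_zero,
    left_eq_add] at e7
  exact e4 e7

end Cfsg.Agent.S3085
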