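import Cfsg.Statements.S3099
import Cfsg.Agent.Lib.GW.GW15

set_option autoImplicit false
open Cfsg

namespace Cfsg.Agent.S3099

open CA.GW CA.BG CA.OQuo Subgroup in

/-- Let X be a finite perfect group of 2-rank exactly 1 (X has even order and contains no Klein four-group). Then X modulo its largest normal subgroup of odd order is isomorphic to the special linear group of dimension 2 over a field with q elements for some odd q > 3, or is a non-split double cover of the alternating group of degree 7. -/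
theorem result {X : Type*} [Group X] [Finite X] (hP : Group.IsPerfect X) (h1 : Cfsg.PRankLE 2 1 X) (h2 : Even (Nat.card X)) :
    (∃ (F : Type) (_ : Field F) (_ : Fintype F), Odd (Fintype.card F) ∧ 3 < Fintype.card F ∧
        Nonempty (X ⧸ Cfsg.oddCore X ≃* Matrix.SpecialLinearGroup (Fin 2) F)) ∨
      Cfsg.IsNonsplitDoubleCover (X ⧸ Cfsg.oddCore X) ↥(alternatingGroup (Fin 7)) := by
  have hp : ⁅(⊤ : Subgroup X), (⊤ : Subgroup X)⁆ = ⊤ := hP.commutator_eq_top
  have hp' := mim_perf (qh _) (nO ⊤) hp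
  have hs := not_solv_bar (not_solv_of_perf hp (fun e => by
    rw [← card_top, e, card_bot] at h2; simp at h2) le_rfl)
  obtain ⟨z, h3, h4, C⟩ := (r1_of_rank h1).bar.exists_cz (core_bar ⊤) hs
  obtain ⟨ψ⟩ := nonempty_bar_equiv X
  rcases C.type hs with h | h
  · obtain ⟨F, i1, i2, h5, h6, ⟨e⟩⟩ := C.sl h h3 (mem_zpowers z) (ne_one_of_ord h4)
    rw [res_eq_self hp'] at e
    exact Or.inl ⟨F, i1, i2, h5, h6, ⟨ψ.trans e⟩⟩
  · rw [res_eq_self hp'] at h h3
    exact Or.inr (h.nsdc hp' C.cent h4 h3 ψ)

end Cfsg.Agent.S3099
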