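import Cfsg.Statements.S3103
import Cfsg.Agent.Lib.Grp.L0Con
import Cfsg.Agent.Lib.Lin.A8GL4
import Cfsg.Agent.Lib.Loc.H6PSolv

set_option autoImplicit false
open Cfsg

namespace Cfsg.Agent.S3103

open Subgroup

/-- Let X be a finite 2-constrained group with no nontrivial normal subgroup of odd order such that O₂(X) has sectional 2-rank at most 4. Then X/O₂(X) is isomorphic to a subgroup of the alternating group of degree 8. -/
theorem result {X : Type*} [Group X] [Finite X] (hc : Cfsg.IsPConstrained 2 X) (hO : Cfsg.oddCore X = ⊥)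
    (h4 : Cfsg.SectionalPRankLE 2 4 ↥(Cfsg.pCore 2 X)) :
    ∃ f : X ⧸ Cfsg.pCore 2 X →* ↥(alternatingGroup (Fin 8)), Function.Injective f := by
  have hO' := CA.H6PSolv.pPrimePCore_eq_pCore hO
  have hQ : IsPGroup 2 (pCore 2 X) := CA.Core.isPGroup_pCore
  obtain ⟨φ, hφ⟩ := CA.L0Con.exists_GL (X := X) (p := 2) (d := 4) (by
    obtain ⟨P⟩ : Nonempty (Sylow 2 (pPrimePCore 2 X)) := inferInstance
    have := hc P
    rwa [(P.is_maximal' ((hO' ▸ hQ : IsPGroup 2 (pPrimePCore 2 X)).to_subgroup ⊤) le_top).symm, ← MonoidHom.range_eq_map,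
      range_subtype, hO'] at this) (by
    have hΦ := (CA.PGFrattini.frattini_le_iff hQ).1 le_rfl
    have := h4 ⊤ ((frattini _).subgroupOf ⊤) ⊤ ⟨⟨fun a b => ?_⟩⟩ fun a _ => ?_
    · rwa [card_top, ← index_eq_card, ← relIndex, relIndex_top_right] at this
    · obtain ⟨a, -⟩ := a; obtain ⟨b, -⟩ := b
      obtain ⟨a, rfl⟩ := QuotientGroup.mk_surjective a
      obtain ⟨b, rfl⟩ := QuotientGroup.mk_surjective b
      refine Subtype.ext (QuotientGroup.eq.2 (hΦ.1 ?_))
      simpa [commutatorElement_def, mul_assoc, _root_.commutator] using commutator_mem_commutator (mem_top b.1⁻¹) (mem_top a.1⁻¹)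
    · obtain ⟨a, rfl⟩ := QuotientGroup.mk_surjective a
      exact (QuotientGroup.eq_one_iff _).2 (hΦ.2 a.1))
  obtain ⟨e⟩ := CA.A8GL4.nonempty_SL (F := ZMod 2) (by simp)
  let ψ : GL (Fin 4) (ZMod 2) →* Matrix.SpecialLinearGroup (Fin 4) (ZMod 2) := MonoidHom.mk'
    (fun g => ⟨g.1, by have := g.det_ne_zero; revert this; generalize g.1.det = a; revert a; decide⟩) fun _ _ => rfl
  refine ⟨QuotientGroup.lift _ (e.toMonoidHom.comp (ψ.comp φ)) fun x hx => by simp [show φ x = 1 from hφ.ge hx], ?_⟩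
  rw [injective_iff_map_eq_one]
  intro x hx
  obtain ⟨x, rfl⟩ := QuotientGroup.mk_surjective x
  have : ψ (φ x) = 1 := by simpa using hx
  exact (QuotientGroup.eq_one_iff _).2 (hφ.le (Units.ext (congrArg Subtype.val this)))

end Cfsg.Agent.S3103
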