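import Cfsg.Statements.S3104
import Cfsg.Agent.S3103
import Cfsg.Agent.Lib.Loc.H5Sr2

set_option autoImplicit false
open Cfsg

namespace Cfsg.Agent.S3104

open Subgroup

/-- Let X be a finite nonsolvable 2-constrained group with no nontrivial normal subgroup of odd order such that O₂(X) has sectional 2-rank at most 4, and write Q for X/O₂(X). Then Q is isomorphic to the projective special linear group of dimension 3 over the field with 2 elements, to an alternating group of degree n with 5 ≤ n ≤ 8, to a symmetric group of degree n with 5 ≤ n ≤ 7, or else O₃(Q) has order 3 and Q/O₃(Q) is isomorphic to the alternating or the symmetric group of degree 5 (so Q is the direct product of a group of order 3 with the alternating group of degree 5, or an extension of that direct product by a group of order 2). If moreover X itself has sectional 2-rank at most 4, then Q is not isomorphic to the symmetric group of degree 6 or 7 nor to the alternating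 group of degree 8. -/
theorem result {X : Type*} [Group X] [Finite X] (hns : ¬ Group.IsSolvable X) (hc : Cfsg.IsPConstrained 2 X) (hO : Cfsg.oddCore X = ⊥)
    (h4 : Cfsg.SectionalPRankLE 2 4 ↥(Cfsg.pCore 2 X)) :
    ((∃ (F : Type) (_ : Field F) (_ : Fintype F), Fintype.card F = 2 ∧
          Nonempty (X ⧸ Cfsg.pCore 2 X ≃* Matrix.ProjectiveSpecialLinearGroup (Fin 3) F)) ∨
        (∃ n : ℕ, 5 ≤ n ∧ n ≤ 8 ∧ Nonempty (X ⧸ Cfsg.pCore 2 X ≃* ↥(alternatingGroup (Fin n)))) ∨
        (∃ n : ℕ, 5 ≤ n ∧ n ≤ 7 ∧ Nonempty (X ⧸ Cfsg.pCore 2 X ≃* Equiv.Perm (Fin n))) ∨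
        (Nat.card ↥(Cfsg.pCore 3 (X ⧸ Cfsg.pCore 2 X)) = 3 ∧
          (Nonempty ((X ⧸ Cfsg.pCore 2 X) ⧸ Cfsg.pCore 3 (X ⧸ Cfsg.pCore 2 X) ≃* ↥(alternatingGroup (Fin 5))) ∨
            Nonempty ((X ⧸ Cfsg.pCore 2 X) ⧸ Cfsg.pCore 3 (X ⧸ Cfsg.pCore 2 X) ≃* Equiv.Perm (Fin 5))))) ∧
      (Cfsg.SectionalPRankLE 2 4 X →
        ¬ (Nonempty (X ⧸ Cfsg.pCore 2 X ≃* Equiv.Perm (Fin 6)) ∨ Nonempty (X ⧸ Cfsg.pCore 2 X ≃* Equiv.Perm (Fin 7)) ∨
            Nonempty (X ⧸ Cfsg.pCore 2 X ≃* ↥(alternatingGroup (Fin 8))))) := by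
  obtain ⟨f, hf⟩ := Cfsg.Agent.S3103.result hc hO h4
  have hO' := CA.H6PSolv.pPrimePCore_eq_pCore hO
  have hQ : IsPGroup 2 (pCore 2 X) := CA.Core.isPGroup_pCore
  have hc' : centralizer (pCore 2 X : Set X) ≤ pCore 2 X := by
    obtain ⟨P⟩ : Nonempty (Sylow 2 (pPrimePCore 2 X)) := inferInstance
    have := hc P
    rwa [(P.is_maximal' ((hO' ▸ hQ : IsPGroup 2 (pPrimePCore 2 X)).to_subgroup ⊤) le_top).symm, ← MonoidHom.range_eq_map,
      range_subtype, hO'] at this
  have hq : ¬ Group.IsSolvable (X ⧸ pCore 2 X) := fun e =>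
    hns (CA.H5Sr.solv_of _ (by have := hQ.isNilpotent; infer_instance) e)
  refine ⟨?_, fun h => ?_⟩
  · by_cases hs : ∀ N : Subgroup (X ⧸ pCore 2 X), N.Normal → Group.IsSolvable N → N = ⊥
    · have : Nontrivial (X ⧸ pCore 2 X) := not_subsingleton_iff_nontrivial.1 fun _ => hq inferInstance
      rcases CA.SubA8.main f hf hs with h | h | h | ⟨⟨e⟩⟩
      · exact .inr (.inl h)
      · exact .inr (.inr (.inl ⟨5, by omega, by omega, h⟩))
      · exact .inr (.inr (.inl ⟨6, by omega, by omega, h⟩))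
      · exact .inl ⟨ZMod 2, inferInstance, inferInstance, rfl, ⟨e.trans ((CA.A8GL4.pslEquivSL (n := 3) (by norm_num)
          (by simp)).trans (CA.A8GL4.slEquivGL (by simp))).symm⟩⟩
    · push Not at hs
      obtain ⟨N, _, h1, h2⟩ := hs
      exact .inr (.inr (.inr (CA.H5Sr.caseB f hf hq CA.Core.pCore_quotient_pCore h1 h2)))
  · rintro (⟨⟨e⟩⟩ | ⟨⟨e⟩⟩ | ⟨⟨e⟩⟩)
    · exact CA.H5Sr.noS6 hc' (CA.H7SR.sr_of h) e
    · have := (CA.SubA8.idx f hf).2
      rw [Nat.card_congr e.toEquiv, Nat.card_perm, Nat.card_fin] at this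
      exact absurd this (by decide)
    · exact CA.H5Sr.noA8 hc' (CA.H7SR.sr_of h) e

end Cfsg.Agent.S3104
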