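import Cfsg.Statements.S3105
import Cfsg.Agent.Lib.Loc.H5Sr10
import Cfsg.Agent.Lib.Lin.FieldIso
import Cfsg.Agent.Lib.Loc.H6PSolv

set_option autoImplicit false
open Cfsg

namespace Cfsg.Agent.S3105

open Subgroup CA.H5Sr

/-- Let X be a finite nonsolvable 2-constrained group with no nontrivial normal subgroup of odd order and of sectional 2-rank at most 4, and suppose X/O₂(X) is isomorphic to the projective special linear group of dimension 3 over the field with 2 elements. Then O₂(X) is elementary abelian of order 8 or 16, or is isomorphic to the direct product of a cyclic group of order 4 and an elementary abelian group of order 8. -/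
theorem result {X : Type*} [Group X] [Finite X] (hns : ¬ Group.IsSolvable X) (hc : Cfsg.IsPConstrained 2 X) (hO : Cfsg.oddCore X = ⊥)
    (h4 : Cfsg.SectionalPRankLE 2 4 X) {F : Type*} [Field F] [Fintype F] (hF : Fintype.card F = 2)
    (hQ : Nonempty (X ⧸ Cfsg.pCore 2 X ≃* Matrix.ProjectiveSpecialLinearGroup (Fin 3) F)) :
    (Cfsg.IsElementaryAbelian 2 (Cfsg.pCore 2 X) ∧ (Nat.card ↥(Cfsg.pCore 2 X) = 8 ∨ Nat.card ↥(Cfsg.pCore 2 X) = 16)) ∨
      Nonempty (↥(Cfsg.pCore 2 X) ≃* Multiplicative (ZMod 4) × (Fin 3 → Multiplicative (ZMod 2))) := by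
  obtain ⟨e0⟩ := hQ
  have hF' : Nat.card F = 2 := Nat.card_eq_fintype_card.trans hF
  obtain ⟨k⟩ := CA.FieldIso.nonempty_zmod (F := F) 2 hF'
  let e : X ⧸ pCore 2 X ≃* L := e0.trans ((CA.A8GL4.pslEquivSL (by norm_num) (by rw [hF']; rfl)).trans
    ((CA.A8GL4.slEquivGL hF').trans (CA.FieldIso.glEquiv k)))
  have hO' := CA.H6PSolv.pPrimePCore_eq_pCore hO
  have hQ : IsPGroup 2 (pCore 2 X) := CA.Core.isPGroup_pCore
  have hc' : centralizer (pCore 2 X : Set X) ≤ pCore 2 X := by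
    obtain ⟨P⟩ : Nonempty (Sylow 2 (pPrimePCore 2 X)) := inferInstance
    have := hc P
    rwa [(P.is_maximal' ((hO' ▸ hQ : IsPGroup 2 (pPrimePCore 2 X)).to_subgroup ⊤) le_top).symm, ← MonoidHom.range_eq_map,
      range_subtype, hO'] at this
  let ψ := e.toMonoidHom.comp (QuotientGroup.mk' (pCore 2 X))
  have hψ : Function.Surjective ψ := e.surjective.comp (QuotientGroup.mk'_surjective _)
  have hk : ψ.ker = pCore 2 X := Subgroup.ext fun x =>
    (map_eq_one_iff e e.injective).trans (QuotientGroup.eq_one_iff x)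
  have H : Hyp ψ := ⟨hψ, CA.H7SR.sr_of h4, hk ▸ hQ, hk ▸ fun h => by
      obtain ⟨W, _, _, π, ρ, hπ, hρ, h1⟩ := setup hc'
      obtain ⟨g, hg⟩ := hψ a1
      refine absurd (hg.symm.trans (hk.ge ((h1 g).1 (LinearMap.ext fun w => ?_)))) (by decide)
      obtain ⟨x, hx, rfl⟩ := hπ.surj w
      have h2 := Normal.conj_mem inferInstance x hx g
      have h3 := (hπ.zero _ (mul_mem h2 (inv_mem hx))).2 ((Sq_le (H := (frattini (pCore 2 X)).map
        (pCore 2 X).subtype)).2 (fun q hq => ⟨_, CA.PGFrattini.pow_mem_frattini hQ ⟨q, hq⟩, rfl⟩) (h g x hx))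
      rwa [hπ.mul _ h2 _ (inv_mem hx), hπ.inv hx, add_neg_eq_zero, ← hρ g x hx] at h3⟩
  refine (H.fin (subtype_injective _) ((range_subtype _).trans hk.symm)).imp_left fun h => ⟨⟨⟨⟨fun a b =>
      CA.H7SR.comm_of_sq (h.1 a) (h.1 b) (h.1 _)⟩⟩, fun a ha => congrArg Subtype.val (h.1 ⟨a, ha⟩)⟩, h.2⟩

end Cfsg.Agent.S3105
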