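import Cfsg.Statements.S3106
import Cfsg.Agent.Lib.Loc.H5Sr4
import Cfsg.Agent.Lib.Loc.H5Sr2
import Cfsg.Agent.Lib.Loc.H6PSolv

set_option autoImplicit false
open Cfsg

namespace Cfsg.Agent.S3106

open Subgroup CA.H5Sr

/-- product of two transpositions in `A₅` -/
def t5 (a b c d : Fin 5) (h : a ≠ b ∧ c ≠ d := by decide) : alternatingGroup (Fin 5) :=
  ⟨Equiv.swap a b * Equiv.swap c d, by simp [h.1, h.2]⟩

/-- Let X be a finite nonsolvable 2-constrained group with no nontrivial normal subgroup of odd order and of sectional 2-rank at most 4, and suppose X/O₂(X) contains a subgroup isomorphic to the alternating group of degree 5. Then O₂(X) is elementary abelian of order 16, or O₂(X) is a central product of a quaternion group of order 8 and a dihedral group of order 8 (it has order 32 and is generated by two elementwise-commuting subgroups, one quaternion of order 8 and one dihedral of order 8, meeting in the centre). -/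
theorem result {X : Type*} [Group X] [Finite X] (hns : ¬ Group.IsSolvable X) (hc : Cfsg.IsPConstrained 2 X) (hO : Cfsg.oddCore X = ⊥)
    (h4 : Cfsg.SectionalPRankLE 2 4 X)
    (hQ : ∃ A : Subgroup (X ⧸ Cfsg.pCore 2 X), Nonempty (↥A ≃* ↥(alternatingGroup (Fin 5)))) :
    (Cfsg.IsElementaryAbelian 2 (Cfsg.pCore 2 X) ∧ Nat.card ↥(Cfsg.pCore 2 X) = 16) ∨
      (Nat.card ↥(Cfsg.pCore 2 X) = 32 ∧ ∃ A B : Subgroup ↥(Cfsg.pCore 2 X),
        Nonempty (↥A ≃* QuaternionGroup 2) ∧ Nonempty (↥B ≃* DihedralGroup 4) ∧ (∀ a ∈ A, ∀ b ∈ B, a * b = b * a) ∧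
          A ⊔ B = ⊤ ∧ A ⊓ B = Subgroup.center ↥(Cfsg.pCore 2 X)) := by
  obtain ⟨A, ⟨e⟩⟩ := hQ
  have hO' := CA.H6PSolv.pPrimePCore_eq_pCore hO
  have hQ : IsPGroup 2 (pCore 2 X) := CA.Core.isPGroup_pCore
  have hc' : centralizer (pCore 2 X : Set X) ≤ pCore 2 X := by
    obtain ⟨P⟩ : Nonempty (Sylow 2 (pPrimePCore 2 X)) := inferInstance
    have := hc P
    rwa [(P.is_maximal' ((hO' ▸ hQ : IsPGroup 2 (pPrimePCore 2 X)).to_subgroup ⊤) le_top).symm, ← MonoidHom.range_eq_map,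
      range_subtype, hO'] at this
  have : IsSimpleGroup (alternatingGroup (Fin 5)) := alternatingGroup.isSimpleGroup (by simp)
  let ψ := e.toMonoidHom.comp ((QuotientGroup.mk' (pCore 2 X)).subgroupComap A)
  have hψ : Function.Surjective ψ := e.surjective.comp
    (MonoidHom.subgroupComap_surjective_of_surjective _ A (QuotientGroup.mk'_surjective _))
  have hk : ∀ x, x ∈ ψ.ker ↔ x.1 ∈ pCore 2 X := fun x =>
    (map_eq_one_iff e e.injective).trans (Subtype.ext_iff.trans (QuotientGroup.eq_one_iff x.1))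
  have hle : pCore 2 X ≤ A.comap (QuotientGroup.mk' _) := fun x hx => by
    rw [mem_comap, QuotientGroup.mk'_apply, (QuotientGroup.eq_one_iff x).2 hx]; exact one_mem _
  have hr : (inclusion hle).range = ψ.ker := by
    ext x
    rw [hk]
    exact ⟨by rintro ⟨y, rfl⟩; exact y.2, fun h => ⟨⟨x, h⟩, rfl⟩⟩
  have H : Hyp ψ := ⟨hψ, (CA.H7SR.sr_of h4).comap (subtype_injective _), hr ▸ by
    rw [MonoidHom.range_eq_map]; exact (hQ.to_subgroup ⊤).map _, fun h => by
      obtain ⟨W, _, _, π, ρ, hπ, hρ, h1⟩ := setup hc'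
      obtain ⟨g, hg⟩ := hψ (t5 0 1 2 3)
      refine absurd (hg.symm.trans ((hk g).2 ((h1 g).1 (LinearMap.ext fun w => ?_)))) (by decide)
      obtain ⟨x, hx, rfl⟩ := hπ.surj w
      have h2 := Normal.conj_mem inferInstance x hx g.1
      have h3 := (hπ.zero _ (mul_mem h2 (inv_mem hx))).2 ((Sq_le (H := ((frattini (pCore 2 X)).map
        (pCore 2 X).subtype).comap (A.comap (QuotientGroup.mk' _)).subtype)).2 (fun q hq =>
          ⟨_, CA.PGFrattini.pow_mem_frattini hQ ⟨q.1, (hk q).1 hq⟩, rfl⟩) (h g ⟨x, hle hx⟩ ((hk _).2 hx)))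
      rwa [hπ.mul _ h2 _ (inv_mem hx), hπ.inv hx, add_neg_eq_zero, ← hρ g x hx] at h3⟩
  refine (H.main (s := t5 0 1 1 2 * t5 2 3 3 4) (t := t5 0 1 2 3) (r := t5 0 1 1 2) (by decide) (by decide)
    ⟨by decide, t5 1 4 1 2, by decide +kernel⟩ (by decide) (by decide) (inclusion_injective hle) hr).imp_left fun h => ⟨⟨⟨⟨fun a b =>
      CA.H7SR.comm_of_sq (h.1 a) (h.1 b) (h.1 _)⟩⟩, fun a ha => congrArg Subtype.val (h.1 ⟨a, ha⟩)⟩, h.2⟩

end Cfsg.Agent.S3106
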