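import Cfsg.Statements.S3109
import Cfsg.Agent.Lib.Loc.AmbChar
import Cfsg.Agent.Lib.Loc.Dich
import Cfsg.Agent.S1221
import Cfsg.Agent.S0502
-- import your own Cfsg.Agent.* helpers here

set_option autoImplicit false
open Cfsg

namespace Cfsg.Agent.S3109

/-- Let G be a non-abelian finite simple group in which every 2-local subgroup is 2-constrained, and suppose some Sylow 2-subgroup S of G has a self-centralizing abelian normal subgroup A (C_S(A) = A) of 2-rank at least 3. Then the centralizer of every involution of G has no nontrivial normal subgroup of odd order. -/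
theorem result {G : Type*} [Group G] [Finite G] [IsSimpleGroup G] (hG : ¬ IsMulCommutative G)
    (h2c : ∀ T : Subgroup G, IsPGroup 2 T → T ≠ ⊥ → Cfsg.IsPConstrained 2 ↥(Subgroup.normalizer (T : Set G)))
    (S : Sylow 2 G) (A : Subgroup ↥(S : Subgroup G)) (hAn : A.Normal) (hAab : IsMulCommutative ↥A)
    (hAC : Subgroup.centralizer (A : Set ↥(S : Subgroup G)) = A) (hA3 : ¬ Cfsg.PRankLE 2 2 ↥A) :
    ∀ t : G, orderOf t = 2 → Cfsg.centralizerPPrimeCore 2 t = ⊥ := by
  open Subgroup Cfsg CA CA.Amb CA.AmbSyl CA.AmbCore CA.AmbRes CA.AmbChar Subgroup Cfsg CA CA.Amb CA.AmbSyl CA.AmbCore CA.AmbRes CA.AmbChar CA.AmbFs CA.AmbSpe CA.Dich in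
  open scoped commutatorElement in
  (
    have s : Dich.Con G := fun t ht => by
      have := h2c (zpowers t) (isPGroup_zpowers_of_orderOf (k := 1) ht) fun e =>
        ne_one_of_orderOf (p := 2) ht (e.le (mem_zpowers t))
      rw [H13Con.norm_zpowers_two ht] at this
      exact H13Con.con_iff.1 this
    have a : A ≤ 𝐂 A := hAC.ge
    have n : (H13Con.om A a).Normal := normal_iff_top_le.2 (norm_of_normal.trans (H13Con.norm_om a))
    have e := H13Con.om_ea a
    have c := H13Con.eight_le_om a hA3
    have h3 : ¬ PRankLE 2 2 G := fun h => by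
      have := h _ (ea_map (S : Subgroup G).subtype e).1 (ea_map (S : Subgroup G).subtype e).2
      rw [card_subtype] at this
      omega
    have hO : pPrimeCore 2 G = ⊥ := (Subgroup.Normal.eq_bot_or_eq_top inferInstance).resolve_right fun e => by
      have := Core.coprime_pPrimeCore (p := 2) (G := G)
      rw [e, card_top] at this
      exact Nat.not_even_iff_odd.2 (Nat.coprime_two_right.1 this) (even_of_rank h3)
    refine fun t ht => by_contra fun n => ?_
    obtain ⟨M, h1, h2⟩ := s.main hO (eight_of_conn S (Cfsg.Agent.S0502.result S.2 _ e.1 e.2 c) h3) ht n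
    exact h2 (le_bot_iff.1 ((Cfsg.Agent.S1221.result M h1).trans hO.le)))

end Cfsg.Agent.S3109
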