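import Cfsg.Statements.S3110
import Cfsg.Agent.Lib.Grp.SigE
import Cfsg.Agent.Lib.Grp.H13Con
import Cfsg.Agent.Lib.Loc.ZN6

set_option autoImplicit false
open Cfsg

namespace Cfsg.Agent.S3110

section Aux
open Subgroup CA.BG CA.Sig CA.SigE CA.H13Con CA.Bal2

theorem key {G : Type*} [Group G] [Finite G] {A : Subgroup G} (hA : IsElementaryAbelian 2 A)
    (h3 : 2 ^ 3 ≤ Nat.card A)
    (hc : ∀ a : G, a ^ 2 = 1 → a ≠ 1 → IsPConstrained 2 (centralizer ({a} : Set G))) {t : G}
    (ht : t ^ 2 = 1) (t1 : t ≠ 1) (hn : t ∈ normalizer (A : Set G)) :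
    signalizerClosure A (centralizerPPrimeCore 2) ⊓ centralizer {t} = centralizerPPrimeCore 2 t := by
  have sf : ∀ D : Subgroup G, IsElementaryAbelian 2 D → SF 2 D (centralizerPPrimeCore 2) :=
    fun D hD => sf_cpc hD fun a ha => hc a (hD.2 a ha)
  by_cases hA' : t ∈ A
  · exact (cpl_two (sf A hA) h3).inf_eq (sf A hA) hA' t1
  have tt : t * t = 1 := by rwa [← pow_two]
  have hB : IsElementaryAbelian 2 (A ⊓ centralizer ({t} : Set G) : Subgroup G) := ea_of_le hA inf_le_left
  have h4 : 2 ^ 2 ≤ Nat.card (A ⊓ centralizer ({t} : Set G) : Subgroup G) := by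
    have h5 := h3.trans (CA.H13Misc.card_le_sq hA tt hn)
    obtain ⟨k, hk⟩ := IsPGroup.iff_card.1 (ea_isPGroup hB)
    rw [hk] at h5 ⊢
    rw [← pow_mul] at h5
    exact Nat.pow_le_pow_right two_pos (by have := (Nat.pow_le_pow_iff_right one_lt_two).1 h5; omega)
  obtain ⟨hD, hDc⟩ := CA.ZN6.ea_ext hB (le_cent1_iff.1 inf_le_right) tt fun e => hA' e.1
  rw [← Cpl.closure_eq (sf A hA) inf_le_left h4, Cpl.closure_eq (sf _ hD) le_sup_left h4]
  exact (cpl_two (sf _ hD) (by omega)).inf_eq (sf _ hD) (mem_sup_right (mem_zpowers t)) t1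

end Aux

open Subgroup CA.BG CA.Sig CA.SigE CA.H13Con CA.Bal2 in
/-- Let G be a finite group in which every 2-local subgroup is 2-constrained and some Sylow 2-subgroup has a self-centralizing abelian normal subgroup of 2-rank at least 3, and let S be any Sylow 2-subgroup of G. Then there is a subgroup W of G of odd order such that, for every subgroup B of S of 2-rank at least 2, W is generated by the largest normal odd-order subgroups O(C_G(b)) of the centralizers of the non-identity elements b of B, and W is normalized by the normalizer of every such B. -/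
theorem result {G : Type*} [Group G] [Finite G]
    (h2c : ∀ T : Subgroup G, IsPGroup 2 T → T ≠ ⊥ → Cfsg.IsPConstrained 2 ↥(Subgroup.normalizer (T : Set G)))
    (S : Sylow 2 G) (A : Subgroup ↥(S : Subgroup G)) (hAn : A.Normal) (hAab : IsMulCommutative ↥A)
    (hAC : Subgroup.centralizer (A : Set ↥(S : Subgroup G)) = A) (hA3 : ¬ Cfsg.PRankLE 2 2 ↥A) (S' : Sylow 2 G) :
    ∃ W : Subgroup G, Odd (Nat.card ↥W) ∧
      ∀ B : Subgroup G, B ≤ (S' : Subgroup G) → ¬ Cfsg.PRankLE 2 1 ↥B →
        W = (⨆ b : {b : G // b ∈ B ∧ b ≠ 1}, Cfsg.centralizerPPrimeCore 2 (b : G)) ∧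
        Subgroup.normalizer (B : Set G) ≤ Subgroup.normalizer (W : Set G) := by
  obtain ⟨g, hg⟩ := MulAction.exists_smul_eq G S S'
  have eS : cj g (S : Subgroup G) = S' := by rw [← hg]; rfl
  have a1 : A.map (S : Subgroup G).subtype ≤ centralizer (A.map (S : Subgroup G).subtype : Set G) :=
    comm_iff_le_cent.1 inferInstance
  have a3 := eight_le_om a1 fun h => hA3 fun B hB hB2 => by
    let e := A.equivMapOfInjective _ (S : Subgroup G).subtype_injective
    have := h (B.map e.toMonoidHom) inferInstance (by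
      rintro _ ⟨x, hx, rfl⟩
      rw [← map_pow, hB2 x hx, map_one])
    rwa [card_map_of_injective e.injective] at this
  have hE : IsElementaryAbelian 2 (cj g (om _ a1)) := ea_map (om_ea a1) _
  have nE : (S' : Subgroup G) ≤ normalizer (cj g (om _ a1) : Set G) :=
    eS ▸ norm_cj g ((CA.Amb.norm_map_subtype A).trans (norm_om a1))
  rw [← card_cj g] at a3
  generalize cj g (om _ a1) = E at hE nE a3
  have hc : ∀ a : G, a ^ 2 = 1 → a ≠ 1 → IsPConstrained 2 (centralizer ({a} : Set G)) := fun a h1 h2 => by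
    have o := orderOf_eq_prime h1 h2
    have := h2c (zpowers a) (CA.PLoc.isPGroup_zpowers o) (by simpa using h2)
    rwa [norm_zpowers_two o] at this
  have sf := sf_cpc hE fun a ha => hc a (hE.2 a ha)
  have fW := (cpl_two sf a3).fam_closure sf le_rfl
  refine ⟨signalizerClosure E (centralizerPPrimeCore 2), Nat.coprime_two_right.1 fW.cop, fun B hB h2 => ?_⟩
  have e : signalizerClosure E (centralizerPPrimeCore 2) = signalizerClosure B (centralizerPPrimeCore 2) := by
    refine le_antisymm ?_ (closure_le_of_fam fun b hb b1 => ?_)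
    · obtain ⟨V, h1, h3, h4⟩ : ∃ V : Subgroup B, IsMulCommutative V ∧ (∀ a ∈ V, a ^ 2 = 1) ∧
          2 ^ 1 < Nat.card V := by
        by_contra h
        push Not at h
        exact h2 h
      have hV : IsElementaryAbelian 2 (V.map B.subtype) := ea_map ⟨h1, h3⟩ _
      have l := map_subtype_le V
      refine CA.Hyp.le_of_forall_singleton hV ?_ ((l.trans hB).trans (nE.trans (CA.ZN6.norm_W' E))) fW.cop
        fun v hv v1 => (key hE a3 hc (hV.2 v hv) v1 (nE (hB (l hv)))).le.trans (le_closure (l hv) v1)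
      obtain ⟨k, hk⟩ := IsPGroup.iff_card.1 (ea_isPGroup hV)
      rw [← card_map_of_injective B.subtype_injective, hk] at h4
      rw [hk]
      exact Nat.pow_le_pow_right two_pos ((Nat.pow_lt_pow_iff_right one_lt_two).1 h4)
    · have pb := S'.isPGroup'.to_le (zpowers_le.2 (hB hb))
      obtain ⟨t, ht, o⟩ := CA.AmbSyl.exists_orderOf_eq_of_ne_bot pb (by simpa using b1)
      obtain ⟨k, hk⟩ := IsPGroup.iff_card.1 pb
      have t2 : t ^ 2 = 1 := o ▸ pow_orderOf_eq_one t
      have t1 : t ≠ 1 := by rintro rfl; simp at o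
      have l : centralizer {b} ≤ centralizer {t} := (CA.BG.cent_zpowers b).ge.trans (cent_le_cent1 ht)
      refine le_trans ?_ ((key hE a3 hc t2 t1 (nE (zpowers_le.2 (hB hb) ht))).ge.trans inf_le_left)
      exact (le_inf le_rfl ((CA.Bal.centralizerPPrimeCore_le b).trans l)).trans (cpc_inf_le_of_pLayer
        (con_iff.1 (hc t t2 t1)) (l (mem_cent1_self b)) (by rw [← hk, Nat.card_zpowers]))
  exact ⟨e, e ▸ CA.ZN6.norm_W' B⟩

end Cfsg.Agent.S3110
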