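import Cfsg.Statements.S3773
import Cfsg.Agent.Lib.Grp.H7SR
import Mathlib.FieldTheory.ChevalleyWarning
import Mathlib.LinearAlgebra.QuadraticForm.Basis
import Mathlib.Algebra.Module.ZMod
import Mathlib.Tactic

set_option autoImplicit false
open Cfsg

namespace Cfsg.Agent.S3773

open Subgroup Module MvPolynomial CA.PGBasic CA.PGFrattini CA.H7SR
open scoped commutatorElement

theorem cw1 {V U : Type*} [AddCommGroup V] [Module (ZMod 2) V] [Finite V] [AddCommGroup U]
    [Module (ZMod 2) U] [Finite U] (Q : QuadraticMap (ZMod 2) V U) (h : ∀ x, Q x = 0 → x = 0) :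
    finrank (ZMod 2) V ≤ 2 * finrank (ZMod 2) U := by
  classical
  by_contra! hlt
  let e := Module.finBasis (ZMod 2) V
  let u := Module.finBasis (ZMod 2) U
  let B := Q.toBilin e
  let f : Fin (finrank (ZMod 2) U) → MvPolynomial (Fin (finrank (ZMod 2) V)) (ZMod 2) := fun k =>
    ∑ i, ∑ j, C (u.repr (B (e i) (e j)) k) * (X i * X j)
  have h1 : ∀ k, (f k).totalDegree ≤ 2 := fun k =>
    totalDegree_finsetSum_le fun i _ => totalDegree_finsetSum_le fun j _ =>
      (totalDegree_mul _ _).trans (by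
        rw [totalDegree_C, zero_add]
        exact (totalDegree_mul _ _).trans (by simp))
  have h2 : ∀ x k, eval x (f k) = u.repr (Q (e.equivFun.symm x)) k := fun x k => by
    rw [← Q.toQuadraticMap_toBilin e, LinearMap.BilinMap.toQuadraticMap_apply, e.equivFun_symm_apply]
    simp only [f, B, map_sum, map_mul, eval_C, eval_X, LinearMap.sum_apply, map_smul,
      LinearMap.smul_apply, Finsupp.finset_sum_apply, Finsupp.smul_apply, smul_eq_mul]
    rw [Finset.sum_comm]
    refine Finset.sum_congr rfl fun i _ => ?_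
    rw [Finset.mul_sum]
    exact Finset.sum_congr rfl fun j _ => by ring
  have h3 := char_dvd_card_solutions_of_fintype_sum_lt 2 (f := f) (by
    refine (Finset.sum_le_card_nsmul _ _ 2 fun k _ => h1 k).trans_lt ?_
    simpa [mul_comm] using hlt)
  have h4 : Nat.card {x : Fin (finrank (ZMod 2) V) → ZMod 2 // ∀ k, eval x (f k) = 0} = 1 :=
    Nat.card_eq_one_iff_exists.2 ⟨⟨0, fun k => by rw [h2]; simp⟩, fun x => Subtype.ext
      (e.equivFun.symm.map_eq_zero_iff.1 (h _ (u.repr.map_eq_zero_iff.1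
        (Finsupp.ext fun k => (h2 _ k).symm.trans (x.2 k)))))⟩
  rw [Fintype.card_eq_nat_card] at h3
  omega

theorem cw2 {V U : Type*} [AddCommGroup V] [Module (ZMod 2) V] [Finite V] [AddCommGroup U]
    [Module (ZMod 2) U] [Finite U] (Q : QuadraticMap (ZMod 2) V U) (S : Submodule (ZMod 2) V)
    (h : ∀ x, Q x = 0 → x ∈ S) : Nat.card V ≤ Nat.card S * Nat.card U ^ 2 := by
  obtain ⟨C, hC⟩ := S.exists_isCompl
  have h1 := cw1 (Q.comp C.subtype) fun x hx =>
    Subtype.ext ((Submodule.disjoint_def.1 hC.disjoint) _ (h _ hx) x.2)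
  rw [Module.natCard_eq_pow_finrank (K := ZMod 2) (V := V),
    Module.natCard_eq_pow_finrank (K := ZMod 2) (V := S),
    Module.natCard_eq_pow_finrank (K := ZMod 2) (V := U), ← Submodule.finrank_add_eq_of_isCompl hC,
    ← pow_mul, ← pow_add, Nat.card_zmod]
  exact Nat.pow_le_pow_right (by norm_num) (by omega)

theorem K0 {V U : Type*} [CommGroup V] [Finite V] [CommGroup U] [Finite U] (hV : ∀ v : V, v ^ 2 = 1)
    (hU : ∀ u : U, u ^ 2 = 1) (q : V → U) (h1 : q 1 = 1)
    (hq : ∀ x x' y, q (x * x' * y) / q (x * x') / q y = q (x * y) / q x / q y * (q (x' * y) / q x' / q y))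
    (S : Subgroup V) (h : ∀ x, q x = 1 → x ∈ S) : S.index ≤ Nat.card U ^ 2 := by
  letI : Module (ZMod 2) (Additive V) := AddCommGroup.zmodModule fun x => hV x.toMul
  letI : Module (ZMod 2) (Additive U) := AddCommGroup.zmodModule fun x => hU x.toMul
  have h0 : ∀ a : ZMod 2, a = 0 ∨ a = 1 := by decide
  have h1' : Additive.ofMul (q (Additive.toMul (0 : Additive V))) = 0 := h1
  let Q : QuadraticMap (ZMod 2) (Additive V) (Additive U) :=
    QuadraticMap.ofPolar (fun x => Additive.ofMul (q x.toMul))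
      (fun a x => by rcases h0 a with rfl | rfl <;> simp [h1]) (fun x x' y => hq _ _ _)
      (fun a x y => by rcases h0 a with rfl | rfl <;> simp [h1, QuadraticMap.polar])
  have h2 := cw2 Q (AddSubgroup.toZModSubmodule 2 S.toAddSubgroup) fun x hx => h _ hx
  have h3 := S.card_mul_index
  change Nat.card V ≤ Nat.card S * Nat.card U ^ 2 at h2
  rw [← h3] at h2
  exact Nat.le_of_mul_le_mul_left h2 Nat.card_pos

theorem K {G G' : Type*} [Group G] [Finite G] [Group G'] [Finite G'] (π : G →* G')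
    (W B S : Subgroup G) (T : Subgroup G') (hc : ∀ x y : G, ⁅x, y⁆ ∈ center G) (hB : B ≤ center G)
    (hB2 : ∀ z ∈ B, π (z ^ 2) = 1) (hW : ∀ x ∈ W, x ^ 2 ∈ B) (hT : ∀ x ∈ W, π (x ^ 2) ∈ T)
    (hT1 : ∀ t ∈ T, t ^ 2 = 1) (hBS : B ≤ S) (h0 : ∀ x ∈ W, π (x ^ 2) = 1 → x ∈ S) :
    S.relIndex W ≤ Nat.card T ^ 2 := by
  haveI : B.Normal := ⟨fun n hn g => by
    rw [mem_center_iff.1 (hB hn) g, mul_inv_cancel_right]; exact hn⟩
  have hV : ∀ v : W ⧸ B.subgroupOf W, v ^ 2 = 1 := fun v => by
    obtain ⟨x, rfl⟩ := QuotientGroup.mk_surjective v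
    rw [← QuotientGroup.mk_pow, QuotientGroup.eq_one_iff]; exact hW x x.2
  have hU : ∀ u : T, u ^ 2 = 1 := fun u => Subtype.ext (hT1 u u.2)
  letI : CommGroup (W ⧸ B.subgroupOf W) :=
    { mul_comm := fun a b => comm_of_sq (hV _) (hV _) (hV _) }
  letI : CommGroup T := { mul_comm := fun a b => comm_of_sq (hU _) (hU _) (hU _) }
  let q : W ⧸ B.subgroupOf W → T := Quotient.lift (fun x : W => (⟨π (x ^ 2), hT x x.2⟩ : T))
    fun a b hab => Subtype.ext (by
      have h1 : (a : G)⁻¹ * b ∈ B := QuotientGroup.leftRel_apply (s := B.subgroupOf W).1 hab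
      simp only
      rw [← mul_inv_cancel_left (a : G) b, Commute.mul_pow (mem_center_iff.1 (hB h1) _), map_mul,
        hB2 _ h1, mul_one])
  have e : ∀ a b : W, ((q ((a : W ⧸ B.subgroupOf W) * b) / q a / q b : T) : G') =
      π ⁅(a : G)⁻¹, (b : G)⁆ := fun a b => by
    change π (((a : G) * b) ^ 2) / π ((a : G) ^ 2) / π ((b : G) ^ 2) = _
    rw [← map_div, ← map_div, div_eq_mul_inv ((a * b : G) ^ 2),
      mem_center_iff.1 (inv_mem (hB (hW a a.2)))]
    congr 1
    simp [commutatorElement_def, pow_two, mul_assoc, div_eq_mul_inv]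
  have h1 := K0 hV hU q (Subtype.ext (by change π ((1 : G) ^ 2) = 1; simp)) (fun x x' y => by
    obtain ⟨x, rfl⟩ := QuotientGroup.mk_surjective x
    obtain ⟨x', rfl⟩ := QuotientGroup.mk_surjective x'
    obtain ⟨y, rfl⟩ := QuotientGroup.mk_surjective y
    refine Subtype.ext ?_
    rw [Subgroup.coe_mul, e, e, ← QuotientGroup.mk_mul, e, ← map_mul]
    congr 1
    have := mem_center_iff.1 (hc (x : G)⁻¹ y) (x' : G)⁻¹
    calc _ = (x' : G)⁻¹ * ⁅(x : G)⁻¹, (y : G)⁆ * (y * x' * (y : G)⁻¹) := by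
          simp [commutatorElement_def, mul_assoc]
      _ = _ := by rw [this]; simp [commutatorElement_def, mul_assoc])
    ((S.subgroupOf W).map (QuotientGroup.mk' _)) fun x hx => by
      obtain ⟨x, rfl⟩ := QuotientGroup.mk_surjective x
      exact ⟨x, h0 x x.2 (congrArg Subtype.val hx), rfl⟩
  rwa [index_map_eq _ (QuotientGroup.mk'_surjective _)
    (by rw [QuotientGroup.ker_mk']; exact subgroupOf_mono W hBS)] at h1

/-- Let G be a finite 2-group of nilpotency class at most 2 and exponent dividing 4 in which the elements x with x² = 1 form a subgroup N. Then |G| ≤ |N|³, and |G| < |N|³ unless G is special. -/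
theorem result {G : Type*} [Group G] [Finite G] (hG : IsPGroup 2 G) (hcl : (⊤ : Subgroup G).lowerCentralSeries 2 = ⊥) (hexp : ∀ x : G, x ^ 4 = 1) (hN : ∀ x y : G, x ^ 2 = 1 → y ^ 2 = 1 → (x * y) ^ 2 = 1) : Nat.card G ≤ Nat.card {x : G // x ^ 2 = 1} ^ 3 ∧ (¬ Cfsg.IsSpecial 2 G → Nat.card G < Nat.card {x : G // x ^ 2 = 1} ^ 3) := by
  haveI : Fact (Nat.Prime 2) := ⟨Nat.prime_two⟩
  let N : Subgroup G :=
    { carrier := {x | x ^ 2 = 1}
      mul_mem' := fun ha hb => hN _ _ ha hb
      one_mem' := one_pow 2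
      inv_mem' := fun {x} hx => by
        change x⁻¹ ^ 2 = 1
        rw [inv_pow, show x ^ 2 = 1 from hx, inv_one] }
  change Nat.card G ≤ Nat.card N ^ 3 ∧ (_ → Nat.card G < Nat.card N ^ 3)
  have hc : ∀ x y : G, ⁅x, y⁆ ∈ center G := fun x y => mem_center_iff.2 fun g =>
    (commutatorElement_eq_one_iff_mul_comm.1 (mem_bot.1 (hcl.le (commutator_mem_commutator
      (commutator_mem_commutator (mem_top x) (mem_top y)) (mem_top g))))).symm
  have h1 : ∀ x : G, x ^ 2 ∈ N := fun x => by
    change (x ^ 2) ^ 2 = 1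
    rw [← pow_mul, hexp]
  have h2 : commutator G ≤ N := commutator_le_of_sq_mem h1
  have h2' : commutator G ≤ center G := commutator_le.2 fun x _ y _ => hc x y
  have h3 : ∀ x : G, x ^ 2 ∈ center G := fun x => mem_center_iff.2 fun y => by
    have e1 : ⁅x, y⁆ ^ 2 = 1 := h2 (commutator_mem_commutator (mem_top x) (mem_top y))
    have e2 := mem_center_iff.1 (hc x y) x
    calc y * x ^ 2 = ⁅x, y⁆ ^ 2 * (y * x ^ 2) := by rw [e1, one_mul]
      _ = ⁅x, y⁆ * x * y * x := by simp [commutatorElement_def, pow_two, mul_assoc]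
      _ = _ := by rw [← e2]; simp [commutatorElement_def, pow_two, mul_assoc]
  have ha := K (MonoidHom.id G) ⊤ (N ⊓ center G) N (N ⊓ center G) hc inf_le_right (fun z hz => hz.1)
    (fun x _ => ⟨h1 x, h3 x⟩) (fun x _ => ⟨h1 x, h3 x⟩) (fun z hz => hz.1) inf_le_left fun x _ hx => hx
  rw [relIndex_top_right] at ha
  have h4 := N.card_mul_index
  have hp : 0 < Nat.card N := Nat.card_pos
  have lt : N.index < Nat.card N ^ 2 → Nat.card G < Nat.card N ^ 3 := fun h => by
    rw [← h4, pow_succ']; exact Nat.mul_lt_mul_of_pos_left h hp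
  refine ⟨?_, fun hs => lt ?_⟩
  · rw [← h4, pow_succ']
    exact Nat.mul_le_mul_left _ (ha.trans (Nat.pow_le_pow_left (card_le_of_le inf_le_left) 2))
  by_cases hZ : N ≤ center G
  swap
  · exact ha.trans_lt (Nat.pow_lt_pow_left (card_lt_of_lt (inf_lt_left.2 hZ)) two_ne_zero)
  by_cases hD : N ≤ commutator G
  swap
  · haveI : IsMulCommutative (G ⧸ commutator G) := inferInstanceAs (IsMulCommutative (Abelianization G))
    let f : G →* Abelianization G := (powMonoidHom 2).comp Abelianization.of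
    have e1 : ∀ x, x ∈ f.ker ↔ x ^ 2 ∈ commutator G := fun x => by
      rw [← Abelianization.ker_of, MonoidHom.mem_ker, MonoidHom.mem_ker, map_pow]; rfl
    have hb := K (MonoidHom.id G) f.ker N N (commutator G) hc hZ (fun z hz => hz) (fun x _ => h1 x)
      (fun x hx => (e1 x).1 hx) (fun z hz => h2 hz) le_rfl fun x _ hx => hx
    have e2 : N ≤ f.ker := fun x hx => (e1 x).2 (by rw [show x ^ 2 = 1 from hx]; exact one_mem _)
    have e3 : f.ker.index ≤ (commutator G).relIndex N := by
      rw [index_ker, ← Abelianization.ker_of, relIndex_ker]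
      refine card_le_of_le ?_
      rintro _ ⟨x, rfl⟩
      exact ⟨_, h1 x, map_pow _ _ _⟩
    have e4 := card_mul_relIndex h2
    have e5 := card_lt_of_lt (lt_of_le_not_ge h2 hD)
    calc N.index = N.relIndex f.ker * f.ker.index := (relIndex_mul_index e2).symm
      _ ≤ Nat.card (commutator G) ^ 2 * (commutator G).relIndex N := Nat.mul_le_mul hb e3
      _ = Nat.card (commutator G) * Nat.card N := by rw [← e4]; ring
      _ < _ := by rw [pow_two]; exact Nat.mul_lt_mul_of_pos_right e5 hp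
  have hD' : commutator G = N := le_antisymm h2 hD
  obtain ⟨z, hz, hz'⟩ : ∃ z ∈ center G, z ∉ N := by
    by_contra! h
    have e : center G = N := le_antisymm h hZ
    exact hs ⟨hG, by
      rw [e]
      exact le_antisymm (frattini_le_of_sq_mem h1) (hD.trans (commutator_le_frattini hG)),
      hD'.trans e.symm⟩
  haveI := normal_zpowers (h3 z)
  have e0 : orderOf (z ^ 2) = 2 := orderOf_eq_prime (h1 z) hz'
  have e1 : N.relIndex (N ⊔ zpowers z) = 2 :=
    relIndex_sup_zpowers Nat.prime_two (center_le_normalizer _ hz) hz' (h1 z)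
  have hb := K (QuotientGroup.mk' (zpowers (z ^ 2))) ⊤ (N ⊔ zpowers z) (N ⊔ zpowers z)
    (N.map (QuotientGroup.mk' (zpowers (z ^ 2)))) hc (sup_le hZ (zpowers_le.2 hz)) (fun x hx => by
      obtain ⟨n, hn, i, rfl⟩ := (mem_sup_zpowers (center_le_normalizer _ hz)).1 hx
      rw [Commute.mul_pow (mem_center_iff.1 (hZ hn) _).symm, show n ^ 2 = 1 from hn, one_mul,
        ← zpow_natCast (z ^ i), ← zpow_mul, mul_comm, zpow_mul, zpow_natCast]
      exact (QuotientGroup.eq_one_iff _).2 (zpow_mem_zpowers _ _))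
    (fun x _ => mem_sup_left (h1 x)) (fun x _ => mem_map_of_mem _ (h1 x)) (by
      rintro _ ⟨x, hx, rfl⟩
      rw [← map_pow, show x ^ 2 = 1 from hx, map_one]) le_rfl fun x _ hx => by
      rcases mem_zpowers_two (h1 z) ((QuotientGroup.eq_one_iff _).1 hx) with e | e
      · exact mem_sup_left e
      · rw [← inv_mul_cancel_right x z]
        refine mul_mem (mem_sup_left ?_) (mem_sup_right (mem_zpowers z))
        change (x * z⁻¹) ^ 2 = 1
        rw [Commute.mul_pow (mem_center_iff.1 (inv_mem hz) _), e, inv_pow, mul_inv_cancel]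
  rw [relIndex_top_right, ← relIndex_ker, QuotientGroup.ker_mk'] at hb
  have e2 := card_mul_relIndex (zpowers_le.2 (h1 z))
  rw [Nat.card_zpowers, e0] at e2
  rw [← relIndex_mul_index (le_sup_left : N ≤ N ⊔ zpowers z), e1, ← e2]
  nlinarith

end Cfsg.Agent.S3773
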