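import Cfsg.Statements.S3117
import Cfsg.Agent.S3773
import Cfsg.Agent.Lib.Grp.PGFrattini
import Cfsg.Agent.Lib.Char.CharBurn

set_option autoImplicit false
open Cfsg

namespace Cfsg.Agent.S3117

open Subgroup Group
open scoped commutatorElement

universe u

theorem hom_triv {H Y : Type*} [Group H] [Group Y] [IsPerfect H] (f : H →* Y)
    (h : Group.IsSolvable f.range) (x : H) : f x = 1 := by
  have := IsPerfect.range f
  rcases subsingleton_or_nontrivial f.range with h1 | h1
  · exact congrArg Subtype.val (Subsingleton.elim (⟨f x, x, rfl⟩ : f.range) 1)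
  · exact absurd h (IsPerfect.not_isSolvable _)

section
variable {X : Type u} [Group X] [Finite X]

theorem modEq {r : ℕ} (hr : r.Prime) (σ : MulAut X) (hσ : σ ^ r = 1) (P : X → Prop)
    (hP : ∀ x, P x → P (σ x)) : Nat.card {x // P x} ≡ Nat.card {x // P x ∧ σ x = x} [MOD r] := by
  classical
  have := Fact.mk hr
  have := Fintype.ofFinite X
  let f : Function.End {x // P x} := fun x => ⟨σ x, hP _ x.2⟩
  have h1 : ∀ n x, ((f ^ n) x).1 = (σ ^ n) x := fun n => by
    induction n with
    | zero => exact fun _ => rfl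
    | succ n ih => exact fun x => by rw [pow_succ', pow_succ']; exact congrArg σ (ih x)
  have h2 := Equiv.Perm.card_fixedPoints_modEq (f := f) (p := r) (n := 1)
    (funext fun x => Subtype.ext (by rw [h1, pow_one, hσ]; rfl))
  rw [← Nat.card_eq_fintype_card, ← Nat.card_eq_fintype_card] at h2
  rwa [Nat.card_congr (α := {x // P x ∧ σ x = x}) (β := f.fixedPoints)
    ⟨fun x => ⟨⟨x.1, x.2.1⟩, Subtype.ext x.2.2⟩, fun x => ⟨x.1.1, x.1.2, congrArg Subtype.val x.2⟩,
      fun _ => rfl, fun _ => rfl⟩]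

theorem dvd_card (W : Subgroup X) (P : X → Prop) (hP : ∀ x, ∀ w ∈ W, P x → P (x * w)) :
    Nat.card W ∣ Nat.card {x // P x} := by
  have h := QuotientGroup.card_preimage_mk W (QuotientGroup.mk '' {x | P x})
  have e : (QuotientGroup.mk ⁻¹' (QuotientGroup.mk '' {x | P x}) : Set X) = {x | P x} :=
    Set.Subset.antisymm (fun x hx => by
      obtain ⟨y, h1, h2⟩ := hx
      simpa using hP y _ (QuotientGroup.eq.1 h2) h1) (Set.subset_preimage_image _ _)
  rw [e] at h
  exact ⟨_, h⟩

theorem card_split (P Q : X → Prop) :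
    Nat.card {x // P x} = Nat.card {x // P x ∧ Q x} + Nat.card {x // P x ∧ ¬ Q x} := by
  classical
  have := Fintype.ofFinite X
  simp only [Nat.card_eq_fintype_card, Fintype.card_subtype, ← Finset.filter_filter]
  exact (Finset.card_filter_add_card_filter_not _).symm

theorem fix_idx {r : ℕ} (h2 : IsPGroup 2 X) (hr : r.Prime) {σ : MulAut X} (hσ : orderOf σ = r) :
    ∃ j, (σ.toMonoidHom.eqLocus (MonoidHom.id X)).index = 2 ^ (j + 1) ∧ (r = 2 ∨ r ∣ 2 ^ (j + 1) - 1) := by
  have := Fact.mk Nat.prime_two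
  set C := σ.toMonoidHom.eqLocus (MonoidHom.id X)
  obtain ⟨j, hj⟩ := h2.index C
  obtain ⟨k, hk⟩ := IsPGroup.iff_card.1 (h2.to_subgroup C)
  obtain _ | j := j
  · refine absurd (hσ.symm.trans (orderOf_eq_one_iff.2 (MulEquiv.ext fun x => ?_))) hr.ne_one
    exact (index_eq_one.1 hj ▸ mem_top x : x ∈ C)
  refine ⟨j, hj, ?_⟩
  have h1 := modEq hr σ (hσ ▸ pow_orderOf_eq_one σ) (fun _ => True) fun _ _ => trivial
  have true_and_iff' : ∀ x, True ∧ σ x = x ↔ x ∈ C := fun x => ⟨fun h => h.2, fun h => ⟨trivial, h⟩⟩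
  rw [Nat.card_congr (Equiv.subtypeUnivEquiv fun _ => trivial), ← C.card_mul_index,
    Nat.card_congr (β := C) (Equiv.subtypeEquivRight fun x => true_and_iff' x), hj, hk] at h1
  have h3 := (Nat.modEq_iff_dvd' (Nat.le_mul_of_pos_right _ (Nat.two_pow_pos _))).1 h1.symm
  rw [← Nat.mul_sub_one, hr.dvd_mul] at h3
  exact h3.imp_left fun h => (Nat.prime_dvd_prime_iff_eq hr Nat.prime_two).1 (hr.dvd_of_dvd_pow h)

theorem num : ∀ j ≤ 3, ∀ r ≤ 15, r ≠ 1 → r ≠ 15 → r ∣ 2 ^ (j + 1) - 1 →
    r = 3 ∨ (r = 7 ∧ j = 2) ∨ (r = 5 ∧ j = 3) := by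
  intro j hj r hr
  interval_cases j <;> interval_cases r <;> decide

theorem core (h2 : IsPGroup 2 X) {W : Subgroup X} (hW : ∀ x, x ∈ W ↔ x ^ 2 = 1) (hZ : W ≤ center X)
    (h4 : Nat.card W = 4) (hs : ∀ x, x ^ 2 ∈ W) (hc : ∀ x y : X, ⁅x, y⁆ ∈ center X) {r : ℕ}
    (hr : r.Prime) {σ : MulAut X} (hσ : orderOf σ = r) (hf : ∀ w ∈ W, σ w = w) :
    r = 2 ∨ (r = 3 ∧ ¬ ∀ w ∈ W, w ≠ 1 → Nat.card {x : X // x ^ 2 = w} = 20) ∨
      (r = 5 ∧ ∀ w ∈ W, w ≠ 1 → Nat.card {x : X // x ^ 2 = w} = 20) := by
  classical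
  obtain ⟨j, hj, h1⟩ := fix_idx h2 hr hσ
  set C := σ.toMonoidHom.eqLocus (MonoidHom.id X)
  have hC : ∀ x, x ∈ C ↔ σ x = x := fun _ => Iff.rfl
  have WC : W ≤ C := hf
  have h3 : W.index ≤ 16 := by
    have := Cfsg.Agent.S3773.K (MonoidHom.id X) ⊤ W W W hc hZ (fun z hz => (hW z).1 hz) (fun x _ => hs x)
      (fun x _ => hs x) (fun t ht => (hW t).1 ht) le_rfl fun x _ h => (hW x).2 h
    rwa [relIndex_top_right, h4] at this
  have h5 := W.card_mul_index
  rw [h4] at h5
  have h6 := C.card_mul_index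
  have h7 : 4 ≤ Nat.card C := h4 ▸ card_le_of_le WC
  have sq : ∀ x, ∀ w ∈ W, (x * w) ^ 2 = x ^ 2 := fun x w hw => by
    rw [(show Commute x w from mem_center_iff.1 (hZ hw) x).mul_pow, (hW w).1 hw, mul_one]
  have := Fintype.ofFinite X
  have sum : ∀ P : X → Prop, Nat.card {x // P x} = Nat.card {x // x ^ 2 = 1 ∧ P x} +
      ∑ w ∈ (Finset.univ : Finset W).erase 1, Nat.card {x : X // x ^ 2 = w ∧ P x} := fun P => by
    refine Eq.trans ?_ (Finset.add_sum_erase _ (fun w : W => Nat.card {x : X // x ^ 2 = w ∧ P x})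
      (Finset.mem_univ 1)).symm
    simp only [Nat.card_eq_fintype_card, Fintype.card_subtype]
    rw [Finset.card_eq_sum_card_fiberwise (t := Finset.univ) (f := fun x => (⟨x ^ 2, hs x⟩ : W))
      fun _ _ => Finset.mem_univ _]
    refine Finset.sum_congr rfl fun w _ => ?_
    rw [Finset.filter_filter]
    congr 1
    ext x
    simp [Subtype.ext_iff, and_comm]
  have c3 : ((Finset.univ : Finset W).erase 1).card = 3 := by
    rw [Finset.card_erase_of_mem (Finset.mem_univ _), Finset.card_univ, ← Nat.card_eq_fintype_card, h4]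
  have cW : ∀ P : X → Prop, (∀ w ∈ W, P w) → Nat.card {x // x ^ 2 = 1 ∧ P x} = 4 := fun P h =>
    (Nat.card_congr (Equiv.subtypeEquivRight fun x =>
      ⟨fun a => (hW x).2 a.1, fun a => ⟨(hW x).1 a, h x a⟩⟩)).trans h4
  have big : 4 < C.index → ∀ w ∈ (Finset.univ : Finset W).erase 1,
      r * 4 ≤ Nat.card {x : X // x ^ 2 = w ∧ ¬ σ x = x} ∨ r = 2 := fun h w hw => by
    refine or_iff_not_imp_right.2 fun r2 => Nat.le_of_dvd ?_ (Nat.Coprime.mul_dvd_of_dvd_of_dvd
      ((Nat.coprime_primes hr Nat.prime_two).2 r2 |>.pow_right 2) ?_ (h4 ▸ dvd_card W _ fun x v hv a =>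
        ⟨(sq x v hv).trans a.1, fun e => a.2 (by rwa [map_mul, hf v hv, mul_left_inj] at e)⟩))
    · have w1 : (w : X) ≠ 1 := fun e => (Finset.mem_erase.1 hw).1 (Subtype.ext e)
      have : (zpowers (w : X)).Normal := ⟨fun n hn g => by
        rw [mem_center_iff.1 (hZ (zpowers_le.2 w.2 hn)) g, mul_inv_cancel_right]; exact hn⟩
      have o2 : orderOf (w : X) = 2 := orderOf_eq_prime ((hW _).1 w.2) w1
      by_contra e
      have e1 : IsEmpty {x : X // x ^ 2 = w ∧ ¬ σ x = x} := by
        rcases Nat.card_eq_zero.1 (Nat.eq_zero_of_not_pos e) with a | a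
        · exact a
        · exact absurd a (not_infinite_iff_finite.2 inferInstance)
      have e2 := Cfsg.Agent.S3773.K (QuotientGroup.mk' (zpowers (w : X))) ⊤ W C
        (W.map (QuotientGroup.mk' _)) hc hZ (fun z hz => by rw [(hW z).1 hz, map_one]) (fun x _ => hs x)
        (fun x _ => mem_map_of_mem _ (hs x)) (by
          rintro _ ⟨t, ht, rfl⟩
          rw [← map_pow, (hW t).1 ht, map_one]) WC fun x _ a => by
          obtain ⟨k, hk⟩ := mem_powers_iff_mem_zpowers.2 ((QuotientGroup.eq_one_iff _).1 a)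
          have hk' : (w : X) ^ (k % 2) = x ^ 2 := (o2 ▸ pow_mod_orderOf (w : X) k :).trans hk
          rcases Nat.mod_two_eq_zero_or_one k with b | b <;> rw [b] at hk'
          · exact WC ((hW x).2 (hk'.symm.trans (pow_zero _)))
          · exact by_contra fun c => e1.false ⟨x, hk'.symm.trans (pow_one _), c⟩
      have e3 : Nat.card (W.map (QuotientGroup.mk' (zpowers (w : X)))) = 2 := by
        have := ((zpowers (w : X)).subgroupOf W).card_mul_index
        rw [Nat.card_congr (subgroupOfEquivOfLe (zpowers_le.2 w.2)).toEquiv, Nat.card_zpowers, o2, h4] at this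
        rw [← relIndex_ker, QuotientGroup.ker_mk', relIndex]
        omega
      rw [relIndex_top_right, e3] at e2
      omega
    · have := modEq hr σ (hσ ▸ pow_orderOf_eq_one σ) (fun x => x ^ 2 = w ∧ ¬ σ x = x) fun x a =>
        ⟨by rw [← map_pow, a.1, hf _ w.2], fun e => a.2 (σ.injective e)⟩
      rw [Nat.card_eq_zero (α := {x : X // (x ^ 2 = w ∧ ¬ σ x = x) ∧ σ x = x}).2
        (.inl ⟨fun x => x.2.1.2 x.2.2⟩)] at this
      exact (Nat.modEq_zero_iff_dvd).1 this
  have hX : Nat.card {x : X // True} = Nat.card X := Nat.card_congr (Equiv.subtypeUnivEquiv fun _ => trivial)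
  have tr : ∀ w : X, Nat.card {x : X // x ^ 2 = w ∧ True} = Nat.card {x : X // x ^ 2 = w} := fun w => by simp
  have h8 : j ≤ 3 := by
    by_contra! a
    have : 2 ^ 5 ≤ 2 ^ (j + 1) := Nat.pow_le_pow_right two_pos (by omega)
    have := Nat.mul_le_mul h7 (this.trans hj.ge)
    omega
  refine or_iff_not_imp_left.2 fun r2 => ?_
  replace h1 := h1.resolve_left r2
  have h9 : r = 3 ∨ (r = 7 ∧ j = 2) ∨ (r = 5 ∧ j = 3) := by
    have := Nat.le_of_dvd (by interval_cases j <;> norm_num) h1
    have h10 : r ≤ 15 := by interval_cases j <;> omega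
    exact num j h8 r h10 hr.ne_one (by rintro rfl; norm_num at hr) h1
  have low := fun h => Finset.card_nsmul_le_sum _ _ _ fun w hw => (big h w hw).resolve_right r2
  have s1 := sum fun x => ¬ σ x = x
  have s2 : Nat.card {x // ¬ σ x = x} ≤ Nat.card X := Nat.card_le_card_of_injective _ Subtype.val_injective
  rw [c3] at low
  rcases h9 with rfl | ⟨rfl, rfl⟩ | ⟨rfl, rfl⟩
  · refine .inl ⟨rfl, fun h => ?_⟩
    have s3 := sum fun x => σ x = x
    have s4 := Finset.card_nsmul_le_sum ((Finset.univ : Finset W).erase 1)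
      (fun w => Nat.card {x : X // x ^ 2 = w ∧ σ x = x}) 8 fun w hw => by
        have a := modEq hr σ (hσ ▸ pow_orderOf_eq_one σ) (fun x => x ^ 2 = w) fun x a => by
          rw [← map_pow, a, hf _ w.2]
        rw [h w w.2 fun e => (Finset.mem_erase.1 hw).1 (Subtype.ext e)] at a
        have b := h4 ▸ dvd_card W (fun x => x ^ 2 = w ∧ σ x = x) fun x v hv a =>
          ⟨(sq x v hv).trans a.1, by rw [map_mul, hf v hv, a.2]⟩
        unfold Nat.ModEq at a
        omega
    rw [cW _ hf] at s3
    change Nat.card C = _ at s3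
    rw [c3, smul_eq_mul] at s4
    have : 28 * 2 ^ (j + 1) ≤ _ := Nat.mul_le_mul (show 28 ≤ Nat.card C by omega) hj.ge
    interval_cases j <;> omega
  · have := low (by omega)
    rw [smul_eq_mul] at this
    omega
  · refine .inr ⟨rfl, fun w hw w1 => ?_⟩
    have s3 := sum fun _ => True
    have m : (⟨w, hw⟩ : W) ∈ Finset.univ.erase 1 :=
      Finset.mem_erase.2 ⟨fun e => w1 (congrArg Subtype.val e), Finset.mem_univ _⟩
    have l : ∀ v ∈ (Finset.univ : Finset W).erase 1, 20 ≤ Nat.card {x : X // x ^ 2 = v} := fun v hv => by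
      have := (big (by omega) v hv).resolve_right r2
      rw [card_split _ fun x => σ x = x]
      omega
    simp only [tr] at s3
    rw [hX, ← tr, cW _ fun _ _ => trivial, ← Finset.add_sum_erase _ _ m] at s3
    have s4 := Finset.card_nsmul_le_sum _ _ _ fun v (hv : v ∈ (Finset.univ.erase 1).erase ⟨w, hw⟩) =>
      l v (Finset.mem_of_mem_erase hv)
    rw [Finset.card_erase_of_mem m, c3, smul_eq_mul] at s4
    have := l _ m
    dsimp only at s3 this
    omega

end

theorem main {H : Type*} [Group H] [IsPerfect H] (n : ℕ) : ∀ (X : Type u) [Group X] [Finite X]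
    [MulDistribMulAction H X], Nat.card X < n → IsPGroup 2 X → Nat.card {x : X // x ^ 2 = 1} ≤ 4 →
    ∀ (h : H) (x : X), h • x = x := by
  induction n with
  | zero => exact fun _ _ _ _ h => absurd h (Nat.not_lt_zero _)
  | succ n ih =>
    intro X _ _ _ hn h2 h4
    have := Fact.mk Nat.prime_two
    have ih' : ∀ Y : Subgroup X, Y ≠ ⊤ → (∀ (h : H), ∀ y ∈ Y, h • y ∈ Y) → ∀ (h : H), ∀ y ∈ Y, h • y = y :=
      fun Y a b h y hy => by
        let _ : MulDistribMulAction H Y :=
          { smul := fun h y => ⟨h • y, b h y y.2⟩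
            one_smul := fun y => Subtype.ext (one_smul H _)
            mul_smul := fun g h y => Subtype.ext (mul_smul g h _)
            smul_mul := fun h x y => Subtype.ext (smul_mul' h _ _)
            smul_one := fun h => Subtype.ext (smul_one h) }
        refine congrArg Subtype.val (ih Y ?_ (h2.to_subgroup Y) (le_trans ?_ h4) h ⟨y, hy⟩)
        · have := (card_le_card_group Y).lt_of_ne fun e => a (eq_top_of_card_eq Y e)
          omega
        · exact Nat.card_le_card_of_injective (fun x => ⟨x.1.1, congrArg Subtype.val x.2⟩)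
            fun x y e => Subtype.ext (Subtype.ext (congrArg (fun z : {x : X // x ^ 2 = 1} => z.1) e))
    by_contra! hne
    obtain ⟨h0, x0, hne⟩ := hne
    have hs : Group.IsSolvable X := have := h2.isNilpotent; inferInstance
    have hD : ∀ K : Subgroup X, (∀ (h : H) x, x⁻¹ * h • x ∈ K) → K = ⊤ := fun K hK => by
      refine top_le_iff.1 (le_trans (ge_of_eq (by_contra fun e => ?_))
        ((closure_le K (k := {y | ∃ (h : H) (x : X), y = x⁻¹ * h • x})).2 (by
          rintro _ ⟨h, x, rfl⟩; exact hK h x)))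
      have a := ih' _ e fun h y hy => by
        refine closure_induction (fun _ ⟨g, x, e⟩ => subset_closure ⟨h * g * h⁻¹, h • x, ?_⟩)
          (by simp) (fun x y _ _ a b => smul_mul' h x y ▸ mul_mem a b)
          (fun x _ a => smul_inv' h x ▸ inv_mem a) hy
        rw [e, smul_mul', smul_inv', smul_smul, smul_smul, inv_mul_cancel_right]
      have b := hom_triv (MonoidHom.mk' (fun h : H => x0⁻¹ * h • x0) fun g h => by
        rw [← a g _ (subset_closure ⟨h, x0, rfl⟩), mul_assoc, ← smul_mul', mul_inv_cancel_left, mul_smul])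
        inferInstance h0
      exact hne (inv_mul_eq_one.1 b).symm
    have hZ : ∀ N : Subgroup X, N.Normal → (∀ (h : H), ∀ y ∈ N, h • y = y) → N ≤ center X :=
      fun N hN a y hy => mem_center_iff.2 fun x => mem_centralizer_singleton_iff.1
        (hD (centralizer {y}) (fun h x => mem_centralizer_singleton_iff.2 (by
          have := a h _ (hN.conj_mem y hy x)
          rw [smul_mul', smul_mul', smul_inv', a h y hy] at this
          calc _ = x⁻¹ * (h • x * y * (h • x)⁻¹) * h • x := by group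
            _ = _ := by rw [this]; group)) ▸ mem_top x)
    have hΦ := ih' (frattini X) (fun e => by
        have := frattini_nongenerating (K := ⊥) (by rw [e, bot_sup_eq])
        exact hne (by rw [mem_bot.1 (this.ge (mem_top x0)), smul_one]))
      fun h y hy => characteristic_iff_map_le.1 inferInstance (MulDistribMulAction.toMulEquiv X h) ⟨y, hy, rfl⟩
    have ΦZ := hZ _ inferInstance hΦ
    have hc : ∀ x y : X, ⁅x, y⁆ ∈ center X := fun x y => ΦZ (CA.PGFrattini.comm_mem_frattini h2 x y)
    have sc : ∀ x : X, x ^ 2 ∈ center X := fun x => ΦZ (CA.PGFrattini.pow_mem_frattini h2 x)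
    have cm : ∀ x y z : X, Commute z ⁅x, y⁆ := fun x y z => mem_center_iff.1 (hc x y) z
    have e2 : ∀ x y : X, ⁅x, y⁆ ^ 2 = 1 := fun x y => by
      rw [← CA.PGClassTwo.comm_pow_left (cm _ _ _), commutatorElement_eq_one_iff_mul_comm]
      exact (mem_center_iff.1 (sc x) y).symm
    have e4 : ∀ x y : X, (x * y) ^ 4 = x ^ 4 * y ^ 4 := fun x y => by
      rw [CA.PGClassTwo.mul_pow_eq (cm _ _ _) (cm _ _ _), show Nat.choose 4 2 = 2 * 3 from rfl, pow_mul _ 2 3,
        e2, one_pow, mul_one]
    have e5 : ∀ x : X, x ^ 4 = 1 := fun x => by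
      have := hD (MonoidHom.mk' (fun x : X => x ^ 4) e4).ker fun h x => by
        change (x⁻¹ * h • x) ^ 4 = 1
        rw [e4, ← smul_pow', hΦ h (x ^ 4) (by
          rw [show 4 = 2 * 2 from rfl, pow_mul]; exact CA.PGFrattini.pow_mem_frattini h2 _), inv_pow,
          inv_mul_cancel]
      exact (this ▸ mem_top x : x ∈ MonoidHom.ker _)
    let W : Subgroup X :=
      { carrier := {x | x ^ 2 = 1}
        one_mem' := one_pow 2
        inv_mem' := fun {x} h => by change x⁻¹ ^ 2 = 1; rw [inv_pow, h, inv_one]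
        mul_mem' := fun {x y} a b => by
          classical
          change x ^ 2 = 1 at a
          change y ^ 2 = 1 at b
          by_contra c
          have c1 : ¬ Commute x y := fun e => c (by change (x * y) ^ 2 = 1; rw [e.mul_pow, a, b, one_mul])
          have c2 : ⁅x, y⁆ ≠ 1 := fun e => c1 (commutatorElement_eq_one_iff_commute.1 e)
          have nx : ∀ z ∈ center X, x ≠ z := fun z hz e => c1 (e ▸ (mem_center_iff.1 hz y).symm)
          have ny : ∀ z ∈ center X, y ≠ z := fun z hz e => c1 (e ▸ mem_center_iff.1 hz x)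
          have c3 : y ≠ x * ⁅x, y⁆ := fun e => c1 (e ▸ (Commute.refl x).mul_right (cm _ _ _))
          have c4 : x ≠ y := fun e => c1 (e ▸ Commute.refl x)
          have c5 : ∀ z ∈ center X, x * ⁅x, y⁆ ≠ z := fun z hz e =>
            nx _ (mul_mem hz (inv_mem (hc x y))) (eq_mul_inv_of_mul_eq e)
          have := Fintype.ofFinite X
          have c6 : ({1, ⁅x, y⁆, x, y, x * ⁅x, y⁆} : Finset X) ⊆ Finset.univ.filter fun x => x ^ 2 = 1 := by
            simp [Finset.insert_subset_iff, a, b, e2, (cm x y x).mul_pow]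
          have c7 := Finset.card_le_card c6
          rw [← Fintype.card_subtype, ← Nat.card_eq_fintype_card, Finset.card_insert_of_notMem (by
            simp [c2.symm, (nx 1 (one_mem _)).symm, (ny 1 (one_mem _)).symm, (c5 1 (one_mem _)).symm]),
            Finset.card_insert_of_notMem (by
              simp [(nx _ (hc x y)).symm, (ny _ (hc x y)).symm, nx 1 (one_mem _)]),
            Finset.card_insert_of_notMem (by simp [c4, c2]), Finset.card_pair c3] at c7
          omega }
    have cW : Nat.card W ≤ 4 := h4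
    let Γ := (MulDistribMulAction.toMulAut H X).range
    have key : ∀ r : ℕ, r.Prime → r ∣ Nat.card Γ → r = 2 ∨
        (r = 3 ∧ ¬ (W ≠ ⊤ ∧ Nat.card W = 4 ∧ ∀ w ∈ W, w ≠ 1 → Nat.card {x : X // x ^ 2 = w} = 20)) ∨
        (r = 5 ∧ W ≠ ⊤ ∧ Nat.card W = 4 ∧ ∀ w ∈ W, w ≠ 1 → Nat.card {x : X // x ^ 2 = w} = 20) :=
      fun r hr hd => by
        have := Fact.mk hr
        obtain ⟨⟨_, h, rfl⟩, o⟩ := exists_prime_orderOf_dvd_card' r hd
        rw [← Subgroup.orderOf_coe] at o
        obtain ⟨j, hj, h1⟩ := fix_idx h2 hr o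
        have small : 2 ^ (j + 1) ≤ 4 → r = 2 ∨ r = 3 := fun a => h1.imp_right fun b => by
          have : j ≤ 1 := by
            by_contra! c
            have : 2 ^ 3 ≤ 2 ^ (j + 1) := Nat.pow_le_pow_right two_pos (by omega)
            omega
          interval_cases j
          · exact absurd (Nat.dvd_one.1 b) hr.ne_one
          · exact (Nat.prime_dvd_prime_iff_eq hr Nat.prime_three).1 b
        by_cases a : W = ⊤
        · refine (small (hj ▸ (Nat.le_of_dvd Nat.card_pos (index_dvd_card _)).trans ?_)).imp_right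
            fun e => .inl ⟨e, fun b => b.1 a⟩
          rwa [a, card_top] at cW
        have fW := ih' W a fun h y hy => by change (h • y) ^ 2 = 1; rw [← smul_pow', hy, smul_one]
        have WZ := hZ W ⟨fun y hy g => by change (g * y * g⁻¹) ^ 2 = 1; rw [conj_pow, hy]; simp⟩ fW
        have sW : ∀ x, x ^ 2 ∈ W := fun x => (pow_mul x 2 2).symm.trans (e5 x)
        by_cases b : Nat.card W = 4
        · exact (core h2 (fun _ => Iff.rfl) WZ b sW hc hr o (fW h)).imp_right
            (Or.imp (fun c => ⟨c.1, fun d => c.2 d.2.2⟩) fun c => ⟨c.1, a, b, c.2⟩)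
        refine (small (hj ▸ (index_antitone (H := W) (fW h)).trans ?_)).imp_right
          fun e => .inl ⟨e, fun c => b c.2.1⟩
        have c := Cfsg.Agent.S3773.K (MonoidHom.id X) ⊤ W W W hc WZ (fun z hz => hz) (fun x _ => sW x)
          (fun x _ => sW x) (fun t ht => ht) le_rfl fun x _ h => h
        obtain ⟨k, hk⟩ := IsPGroup.iff_card.1 (h2.to_subgroup W)
        rw [relIndex_top_right] at c
        refine c.trans ?_
        rw [hk] at cW b ⊢
        have : k ≤ 1 := by
          by_contra! d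
          have : 2 ^ 2 ≤ 2 ^ k := Nat.pow_le_pow_right two_pos d
          omega
        interval_cases k <;> norm_num
    refine hne (MulEquiv.congr_fun (hom_triv (MulDistribMulAction.toMulAut H X) ?_ h0) x0)
    by_cases a : W ≠ ⊤ ∧ Nat.card W = 4 ∧ ∀ w ∈ W, w ≠ 1 → Nat.card {x : X // x ^ 2 = w} = 20
    · exact CChar.CharBurn.isSolvable_of_primes (p := 2) (q := 5) fun r hr hd =>
        (key r hr hd).imp_right fun h => (h.resolve_left fun c => c.2 a).1
    · exact CChar.CharBurn.isSolvable_of_primes (p := 2) (q := 3) fun r hr hd =>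
        (key r hr hd).imp_right fun h => (h.resolve_right fun c => a c.2).1

/-- If X is a finite 2-group containing exactly three involutions, then the automorphism group of X is solvable. -/
theorem result {X : Type*} [Group X] [Finite X] (h2 : IsPGroup 2 X) (h3 : Nat.card {x : X // orderOf x = 2} = 3) : Group.IsSolvable (MulAut X) := by
  refine Group.isSolvable_iff_commutator_lt.2 fun H hH => lt_of_le_of_ne (commutator_le_self H) fun e => hH ?_
  have := Subgroup.isPerfect_iff.2 e
  refine (eq_bot_iff_forall H).2 fun h hh => MulEquiv.ext (main (H := H) _ X (Nat.lt_succ_self _) h2 ?_ ⟨h, hh⟩)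
  rw [card_split _ (· = 1), Nat.card_congr (α := {x : X // x ^ 2 = 1 ∧ ¬ x = 1})
    (β := {x : X // orderOf x = 2}) (Equiv.subtypeEquivRight
    fun x => ⟨fun a => orderOf_eq_prime a.1 a.2, fun a => ⟨a ▸ pow_orderOf_eq_one x, fun e => by simp [e] at a⟩⟩), h3]
  have : Subsingleton {x : X // x ^ 2 = 1 ∧ x = 1} := ⟨fun x y => Subtype.ext (x.2.2.trans y.2.2.symm)⟩
  have := Finite.card_le_one_iff_subsingleton.2 this
  omega

end Cfsg.Agent.S3117
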