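import Cfsg.Statements.S3356

set_option autoImplicit false
open Cfsg

namespace Cfsg.Agent.S3356

open Subgroup MulAction Pointwise

section
variable {A N : Type*} [Group A] [Finite A] [Group N] [Finite N] [MulDistribMulAction A N] {k : ℕ}

theorem dvd_card (B : Subgroup A) {Y : Set N} (hY : ∀ g ∈ B, ∀ y ∈ Y, g • y ∈ Y) {t : ℕ}
    (h : ∀ y ∈ Y, t ∣ (stabilizer A y).relIndex B) : t ∣ Y.ncard := by
  let X : SubMulAction B N := ⟨Y, fun g y hy => hY g g.2 y hy⟩
  cases nonempty_fintype (orbitRel.Quotient B X)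
  rw [← Nat.card_coe_set_eq, show Nat.card Y = Nat.card X from rfl,
    Nat.card_congr (selfEquivSigmaOrbitsQuotientStabilizer B X), Nat.card_sigma]
  refine Finset.dvd_sum fun ω _ => ?_
  have : stabilizer B ω.out = (stabilizer A (ω.out : N)).subgroupOf B := Subgroup.ext fun g => Subtype.ext_iff
  exact this ▸ h _ ω.out.2

variable (hk : ∀ x : N, x ≠ 1 → (stabilizer A x).index = k)
include hk

theorem blk {Y : Set N} (h1 : 1 ∉ Y) (hb : ∀ g : A, ∀ y ∈ Y, g • y ∈ Y → ∀ z ∈ Y, g • z ∈ Y) (hc : Y.ncard.Coprime k)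
    {y z : N} (hy : y ∈ Y) (hz : z ∈ Y) : stabilizer A y ≤ stabilizer A z := by
  have le : ∀ y ∈ Y, stabilizer A y ≤ stabilizer A Y := fun y hy g hg =>
    (mem_stabilizer_set_iff_smul_set_subset (Set.toFinite Y)).2 (by
      rintro _ ⟨z, hz, rfl⟩; exact hb g y hy (by rwa [show g • y = y from hg]) z hz)
  have e := fun y hy => (relIndex_mul_index (le y hy)).trans (hk y fun e => h1 (e ▸ hy))
  have := dvd_card (stabilizer A Y) (fun g hg y hy => (mem_stabilizer_set.1 hg y).2 hy)
    (t := (stabilizer A z).relIndex (stabilizer A Y)) fun y hy => dvd_of_eq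
      (Nat.eq_of_mul_eq_mul_right (Nat.pos_of_ne_zero index_ne_zero_of_finite) ((e z hz).trans (e y hy).symm))
  exact (le y hy).trans (relIndex_eq_one.1 (Nat.eq_one_of_dvd_coprimes hc this ⟨_, (e z hz).symm⟩))

theorem cop (M : Subgroup N) (hM : ∀ g : A, ∀ y ∈ M, g • y ∈ M) : (Nat.card M).Coprime k := by
  have := dvd_card (A := A) ⊤ (Y := (M : Set N) \ {1}) (fun g _ y hy => ⟨hM g y hy.1, fun e => hy.2
    (MulAction.injective g (e.trans (smul_one g).symm))⟩) (t := k) fun y hy => by rw [relIndex_top_right, hk y hy.2]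
  rw [Set.ncard_sdiff_singleton_of_mem M.one_mem] at this
  exact ((Nat.coprime_self_sub_right (Nat.card_pos (α := M))).2 (Nat.coprime_one_right _)).coprime_dvd_right this

theorem st_eq {x y : N} (hx : x ≠ 1) (hy : y ≠ 1) (h : stabilizer A x ≤ stabilizer A y) :
    stabilizer A x = stabilizer A y :=
  le_antisymm h (relIndex_eq_one.1 (Nat.eq_of_mul_eq_mul_right (Nat.pos_of_ne_zero index_ne_zero_of_finite)
    ((relIndex_mul_index h).trans (by rw [hk x hx, hk y hy, one_mul]))))

variable (hf : ∀ x : N, x ≠ 1 → ∃ y : N, ¬ stabilizer A x ≤ stabilizer A y)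
include hf

theorem irr (M : Subgroup N) (hM : ∀ g : A, ∀ y ∈ M, g • y ∈ M) (h : M ≠ ⊥) : M = ⊤ := by
  have key : ∀ x, x ∉ M → ∀ y ∈ M, stabilizer A x ≤ stabilizer A y := fun x hx y hy g hg => by
    have := blk hk (Y := (x * ·) '' M) (fun ⟨z, hz, e⟩ => hx (by rw [eq_inv_of_mul_eq_one_left e]; exact inv_mem hz))
      (by
        rintro g _ ⟨y, hy, rfl⟩ ⟨w, hw, e⟩ _ ⟨z, hz, rfl⟩
        refine ⟨w * g • (y⁻¹ * z), mul_mem hw (hM g _ (mul_mem (inv_mem hy) hz)), ?_⟩
        simp only at e ⊢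
        rw [← mul_assoc, e, ← smul_mul']; group)
      (by rw [Set.ncard_image_of_injective _ (mul_right_injective x)]; exact cop hk M hM)
      ⟨1, one_mem _, mul_one x⟩ ⟨y, hy, rfl⟩ hg
    rwa [mem_stabilizer_iff, smul_mul', show g • x = x from hg, mul_right_inj] at this
  obtain ⟨⟨y, hy⟩, y1⟩ := ne_bot_iff_exists_ne_one.1 h
  replace y1 : y ≠ 1 := fun e => y1 (Subtype.ext e)
  have k2 : ∀ x, x ∉ M → stabilizer A x = stabilizer A y := fun x hx =>
    st_eq hk (fun e => hx (e ▸ one_mem _)) y1 (key x hx y hy)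
  refine eq_top_iff.2 fun x _ => by_contra fun hx => ?_
  obtain ⟨z, hz⟩ := hf y y1
  by_cases e : z ∈ M
  exacts [hz (k2 x hx ▸ key x hx z e), hz (k2 z e).ge]

theorem comm (x y : N) : x * y = y * x := by
  have key : ∀ x g : N, stabilizer A x ≤ stabilizer A (g * x * g⁻¹) := fun x g => by
    by_cases hx : x = 1
    · simp [hx]
    refine blk hk (Y := orbit (ConjAct N) x) (fun ⟨g, e⟩ => hx (MulAction.injective g (e.trans (smul_one g).symm))) ?_ ?_
      (mem_orbit_self x) ⟨ConjAct.toConjAct g, rfl⟩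
    · rintro g _ ⟨u, rfl⟩ ⟨w, e⟩ _ ⟨v, rfl⟩
      refine ⟨ConjAct.toConjAct (g • (ConjAct.ofConjAct v * (ConjAct.ofConjAct u)⁻¹)) * w, ?_⟩
      simp only [mul_smul, e]
      simp only [ConjAct.smul_def, ConjAct.ofConjAct_toConjAct, ← smul_inv', ← smul_mul']
      congr 1; group
    · rw [← index_stabilizer]
      exact (by simpa using cop hk ⊤ fun _ _ _ => mem_top _ : (Nat.card N).Coprime k).coprime_dvd_left
        (index_dvd_card (stabilizer (ConjAct N) x))
  have k2 : ∀ x y : N, ¬ stabilizer A x ≤ stabilizer A y → x * y = y * x := fun x y h => by_contra fun n => by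
    have x1 : x ≠ 1 := by rintro rfl; simp at n
    have y1 : y ≠ 1 := by rintro rfl; simp at n
    have c1 : x * y * x⁻¹ * y⁻¹ ≠ 1 := fun e => n (by rwa [mul_inv_eq_one, mul_inv_eq_iff_eq_mul] at e)
    refine h ((st_eq hk x1 c1 fun g hg => ?_).trans (st_eq hk y1 c1 fun g hg => ?_).symm).le
    · have : g • (y * x * y⁻¹) = _ := key x y hg
      rw [mem_stabilizer_iff, show x * y * x⁻¹ * y⁻¹ = x * (y * x * y⁻¹)⁻¹ by group, smul_mul', smul_inv', this,
        show g • x = x from hg]
    · have : g • (x * y * x⁻¹) = _ := key y x hg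
      rw [mem_stabilizer_iff, smul_mul', smul_inv', this, show g • y = y from hg]
  by_cases h : stabilizer A x ≤ stabilizer A y
  swap
  · exact k2 x y h
  by_cases x1 : x = 1
  · simp [x1]
  obtain ⟨z, hz⟩ := hf x x1
  have := k2 x (y * z) fun e => hz fun g hg => by
    have := e hg
    rwa [mem_stabilizer_iff, smul_mul', show g • y = y from h hg, mul_right_inj] at this
  rwa [mul_assoc, ← k2 x z hz, ← mul_assoc, ← mul_assoc, mul_left_inj] at this

end

/-- Let G be a finite 3/2-transitive permutation group: G acts faithfully and transitively on a finite set, the point stabilizers are non-trivial, and for each point a all orbits of G_a on the remaining points have the same size. Suppose G has a regular normal subgroup N and G is not a Frobenius group (some two-point stabilizer is non-trivial). Then N is an elementary abelian p-group for some prime p, and every non-trivial normal subgroup of G contains N (so N is the unique minimal normal subgroup). -/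
theorem result {G Ω : Type*} [Group G] [Finite G]
    [MulAction G Ω] [FaithfulSMul G Ω] [Finite Ω] (htrans : MulAction.IsPretransitive G Ω)
    (hne : ∀ a : Ω, MulAction.stabilizer G a ≠ ⊥)
    (hhalf : ∀ a b c : Ω, b ≠ a → c ≠ a →
      Nat.card (MulAction.orbit (MulAction.stabilizer G a) b) = Nat.card (MulAction.orbit (MulAction.stabilizer G a) c))
    (N : Subgroup G) [hN : N.Normal] (hNt : MulAction.IsPretransitive N Ω) (hNr : ∀ a : Ω, MulAction.stabilizer N a = ⊥)
    (hnotF : ∃ a b : Ω, a ≠ b ∧ MulAction.stabilizer G a ⊓ MulAction.stabilizer G b ≠ ⊥) :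
    (∃ p : ℕ, p.Prime ∧ IsMulCommutative N ∧ ∀ x ∈ N, x ^ p = 1) ∧
    (∀ M : Subgroup G, M.Normal → M ≠ ⊥ → N ≤ M) := by
  obtain ⟨a, b, hab, hne'⟩ := hnotF
  letI : MulDistribMulAction (stabilizer G a) N :=
    MulDistribMulAction.compHom N ((MulAut.conjNormal (H := N)).comp (stabilizer G a).subtype)
  have sm : ∀ (g : stabilizer G a) (x : N), ((g • x : N) : G) = g * x * (g : G)⁻¹ := fun _ _ => rfl
  have inj : ∀ x y : N, (x : G) • a = (y : G) • a → x = y := fun x y e =>
    (inv_mul_eq_one.1 (mem_bot.1 ((hNr a).le (show (y⁻¹ * x) • a = a from by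
      rw [mul_smul, inv_smul_eq_iff]; exact e)))).symm
  have st : ∀ x : N, stabilizer (stabilizer G a) x = stabilizer (stabilizer G a) ((x : G) • a) := fun x => by
    ext g
    have : ((g • x : N) : G) • a = (g : G) • (x : G) • a := by
      rw [sm, mul_smul, mul_smul, show (g : G)⁻¹ • a = a from (g⁻¹).2]
    exact ⟨fun h => this.symm.trans (by rw [show g • x = x from h]), fun h => inj _ _ (this.trans h)⟩
  have hk : ∀ x : N, x ≠ 1 → (stabilizer (stabilizer G a) x).index = (stabilizer (stabilizer G a) b).index :=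
    fun x hx => by
      rw [st, index_stabilizer, index_stabilizer]
      exact hhalf a _ b (fun e => hx (inj _ _ (by simpa using e))) hab.symm
  have hf : ∀ x : N, x ≠ 1 → ∃ y : N, ¬ stabilizer (stabilizer G a) x ≤ stabilizer (stabilizer G a) y := fun x hx => by
    by_contra! q
    have e : stabilizer (stabilizer G a) x = ⊥ := eq_bot_iff.2 fun g hg => Subtype.ext (eq_of_smul_eq_smul fun c : Ω => by
      obtain ⟨y, rfl⟩ := exists_smul_eq N a c
      exact ((st y).le (q y hg)).trans (one_smul _ _).symm)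
    have := hk x hx
    rw [e, index_bot, ← (stabilizer (stabilizer G a) b).card_mul_index,
      mul_eq_right₀ index_ne_zero_of_finite, card_eq_one] at this
    exact hne' (eq_bot_iff.2 fun g hg => congrArg Subtype.val (mem_bot.1 (this.le (show (⟨g, hg.1⟩ : stabilizer G a) ∈ _ from hg.2))))
  have hc := comm hk hf
  obtain ⟨x, hx⟩ := exists_smul_eq N a b
  haveI : Nontrivial N := ⟨x, 1, fun e => hab (by rw [← hx, e, one_smul])⟩
  refine ⟨?_, fun M hM hM1 => ?_⟩
  · obtain ⟨p, pp, hp⟩ := Nat.exists_prime_and_dvd (Finite.one_lt_card (α := N)).ne'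
    haveI := Fact.mk pp
    obtain ⟨y, hy⟩ := exists_prime_orderOf_dvd_card' p hp
    let M : Subgroup N := ⟨⟨⟨{x | x ^ p = 1}, fun {x y} (hx : x ^ p = 1) (hy : y ^ p = 1) => show _ ^ p = 1 by
      rw [Commute.mul_pow (hc x y), hx, hy, mul_one]⟩, one_pow p⟩, fun {x} (hx : x ^ p = 1) => show _ ^ p = 1 by
        rw [inv_pow, hx, inv_one]⟩
    have := irr hk hf M (fun g y hy => show _ ^ p = 1 by rw [← smul_pow', show y ^ p = 1 from hy, smul_one])
      (ne_bot_iff_exists_ne_one.2 ⟨⟨y, orderOf_dvd_iff_pow_eq_one.1 hy.dvd⟩, fun e => pp.one_lt.ne' (by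
        rw [← hy, show y = 1 from congrArg Subtype.val e, orderOf_one])⟩)
    exact ⟨p, pp, ⟨⟨hc⟩⟩, fun x hx => congrArg Subtype.val (this.ge (mem_top (⟨x, hx⟩ : N)))⟩
  refine subgroupOf_eq_top.1 (irr hk hf _ (fun g y hy => hM.conj_mem _ hy g) fun e => hM1 (eq_bot_iff.2 fun g hg => ?_))
  have cm := commute_of_normal_of_disjoint M N hM hN (subgroupOf_eq_bot.1 e) g
  obtain ⟨y, hy⟩ := exists_smul_eq N a (g • a)
  have : g = y := eq_of_smul_eq_smul fun c : Ω => by
    obtain ⟨z, rfl⟩ := exists_smul_eq N a c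
    change g • (z : G) • a = y • z • a
    rw [← mul_smul y, hc y z, ← mul_smul, (cm z hg z.2).eq, mul_smul, ← hy]
    exact (mul_smul z y a).symm
  exact (subgroupOf_eq_bot.1 e).le_bot ⟨hg, this ▸ y.2⟩

end Cfsg.Agent.S3356
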