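import Cfsg.Statements.S3357
import Cfsg.Agent.Lib.Grp.H7FC

set_option autoImplicit false
open Cfsg

namespace Cfsg.Agent.S3357

open CA.H7FC MonoidAlgebra

theorem exists_baseChange.{u} {G : Type*} [Group G] [Finite G] (K : Type) [Field K] [CharZero K] {W : Type u}
    [AddCommGroup W] [Module ℚ W] [Module.Finite ℚ W] [Nontrivial W] (ρ : Representation ℚ G W)
    (h : ∀ a : G, a ≠ 1 → ∑ i ∈ Finset.range (orderOf a), ρ (a ^ i) = 0) :
    ∃ (M : Type u) (_ : AddCommGroup M) (_ : Module K M) (_ : Module.Finite K M) (_ : Nontrivial M)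
      (σ : Representation K G M), ∀ a : G, a ≠ 1 → ∀ v, σ a v = v → v = 0 := by
  let σ : Representation K G (TensorProduct ℚ K W) :=
    { toFun := fun g => (ρ g).baseChange K
      map_one' := by rw [map_one, LinearMap.baseChange_one]
      map_mul' := fun a b => by rw [map_mul, LinearMap.baseChange_mul] }
  refine ⟨_, inferInstance, inferInstance, inferInstance, inferInstance, σ, fun a ha =>
    fpf_of_nrm σ (fun v hv => ?_) ?_⟩
  · rw [← Nat.cast_smul_eq_nsmul K, smul_eq_zero] at hv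
    exact hv.resolve_left (Nat.cast_ne_zero.2 Nat.card_pos.ne')
  · have := congrArg (LinearMap.baseChangeHom ℚ K W W) (h a ha)
    rwa [map_sum, map_zero] at this

theorem exists_rep.{u} {G : Type u} [Group G] (K : Type) [Field K] [CharZero K] (h : FC G) :
    ∃ (M : Type u) (_ : AddCommGroup M) (_ : Module K M) (_ : Module.Finite K M) (_ : Nontrivial M)
      (σ : Representation K G M), ∀ a : G, a ≠ 1 → ∀ v, σ a v = v → v = 0 := by
  haveI := h.finite
  haveI : Nontrivial (ℚ[G] ⧸ nI G ℚ) := Submodule.Quotient.nontrivial_iff.2 h.nI_ne_top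
  haveI : Module.Finite ℚ (ℚ[G] ⧸ nI G ℚ) :=
    Module.Finite.of_surjective (((nI G ℚ).mkQ : ℚ[G] →ₗ[ℚ[G]] _).restrictScalars ℚ)
      (Submodule.mkQ_surjective (nI G ℚ))
  exact exists_baseChange K (qRep G ℚ) fun a ha => qRep_nrm ha

theorem exists_irr {G : Type*} [Group G] {K M : Type*} [Field K] [AddCommGroup M] [Module K M]
    [Module.Finite K M] [Nontrivial M] (σ : Representation K G M)
    (hσ : ∀ a : G, a ≠ 1 → ∀ v, σ a v = v → v = 0) :
    ∃ (n : ℕ) (ρ : G →* GL (Fin n) K), 0 < n ∧ Function.Injective ρ ∧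
      (∀ W : Submodule K (Fin n → K), (∀ g : G, ∀ w ∈ W, (ρ g).1.mulVec w ∈ W) → W = ⊥ ∨ W = ⊤) ∧
      ∀ g : G, g ≠ 1 → ∀ v : Fin n → K, (ρ g).1.mulVec v = v → v = 0 := by
  obtain ⟨U, ⟨hU0, hU⟩, hmin⟩ := exists_minimal_of_wellFoundedLT
    (fun U : Submodule K M => U ≠ ⊥ ∧ ∀ g, ∀ v ∈ U, σ g v ∈ U) ⟨⊤, top_ne_bot, fun _ _ _ => trivial⟩
  let τ : Representation K G U := σ.subrepresentation U fun g v hv => hU g v hv
  let b := Module.finBasis K U
  let ρ0 : G →* Matrix (Fin (Module.finrank K U)) (Fin (Module.finrank K U)) K :=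
    { toFun := fun g => LinearMap.toMatrix b b (τ g)
      map_one' := by rw [map_one, LinearMap.toMatrix_one]
      map_mul' := fun x y => by rw [map_mul, LinearMap.toMatrix_mul] }
  let ρ : G →* GL (Fin (Module.finrank K U)) K := ρ0.toHomUnits
  have hρ : ∀ g v, (ρ g).1.mulVec v = b.equivFun (τ g (b.equivFun.symm v)) := fun g v => by
    have := LinearMap.toMatrix_mulVec_repr b b (τ g) (b.equivFun.symm v)
    rwa [← b.equivFun_apply, LinearEquiv.apply_symm_apply] at this
  have hf : ∀ g, g ≠ 1 → ∀ v, (ρ g).1.mulVec v = v → v = 0 := fun g hg v hv => by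
    have h1 : τ g (b.equivFun.symm v) = b.equivFun.symm v := b.equivFun.injective (by
      rw [LinearEquiv.apply_symm_apply]; exact (hρ g v).symm.trans hv)
    exact b.equivFun.symm.map_eq_zero_iff.1 (Subtype.ext (hσ g hg _ (congrArg Subtype.val h1)))
  haveI := Submodule.nontrivial_iff_ne_bot.2 hU0
  have hn : 0 < Module.finrank K U := Module.finrank_pos
  refine ⟨_, ρ, hn, (injective_iff_map_eq_one _).2 fun g hg => ?_, fun W hW => ?_, hf⟩
  · by_contra h1
    have := hf g h1 (fun _ => 1) (by rw [hg]; simp)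
    simpa using congrFun this ⟨0, hn⟩
  · by_cases h0 : W = ⊥
    · exact Or.inl h0
    let W' := (W.map b.equivFun.symm.toLinearMap).map U.subtype
    have h1 : U ≤ W' := hmin ⟨fun e => h0 (eq_bot_iff.2 fun w hw => b.equivFun.symm.map_eq_zero_iff.1
        (Subtype.ext (e.le ⟨_, ⟨w, hw, rfl⟩, rfl⟩))), by
      rintro g _ ⟨_, ⟨w, hw, rfl⟩, rfl⟩
      refine ⟨τ g (b.equivFun.symm w), ⟨_, hW g w hw, ?_⟩, rfl⟩
      rw [hρ]; exact b.equivFun.symm_apply_apply _⟩ (Submodule.map_subtype_le _ _)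
    refine Or.inr (eq_top_iff.2 fun v _ => ?_)
    obtain ⟨_, ⟨w, hw, rfl⟩, e⟩ := h1 (b.equivFun.symm v).2
    rwa [← b.equivFun.symm.injective (Subtype.ext e)]

/-- Let G be a finite group that occurs as a Frobenius complement. Then G has a faithful irreducible representation over an algebraic closure of the rationals in which no non-identity element of G has 1 as an eigenvalue: there are n ≥ 1 and an injective homomorphism ρ from G to GL(n) over that field, with no invariant subspace other than 0 and the whole space, such that for g ≠ 1 the only vector fixed by ρ(g) is 0. -/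
theorem result {G : Type*} [Group G] [Finite G]
    (hFC : ∃ (L : Type) (_ : Group L) (_ : Finite L) (H : Subgroup L), Cfsg.IsFrobeniusComplement H ∧ Nonempty (G ≃* H)) :
    ∃ (n : ℕ) (ρ : G →* GL (Fin n) (AlgebraicClosure ℚ)), 0 < n ∧ Function.Injective ρ ∧
      (∀ W : Submodule (AlgebraicClosure ℚ) (Fin n → AlgebraicClosure ℚ),
        (∀ g : G, ∀ w ∈ W, ((ρ g : GL (Fin n) (AlgebraicClosure ℚ)) : Matrix (Fin n) (Fin n) (AlgebraicClosure ℚ)).mulVec w ∈ W) → W = ⊥ ∨ W = ⊤) ∧
      ∀ g : G, g ≠ 1 → ∀ v : Fin n → AlgebraicClosure ℚ,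
        ((ρ g : GL (Fin n) (AlgebraicClosure ℚ)) : Matrix (Fin n) (Fin n) (AlgebraicClosure ℚ)).mulVec v = v → v = 0 := by
  obtain ⟨M, _, _, _, _, σ, hσ⟩ := exists_rep (AlgebraicClosure ℚ) hFC
  exact exists_irr σ hσ

end Cfsg.Agent.S3357
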