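import Cfsg.Statements.S3358
import Mathlib
import Cfsg.Agent.Lib.Perm.FcStruct

set_option autoImplicit false
open Cfsg

namespace Cfsg.Agent.S3358

open CA.FcStruct in

/-- Structure of solvable Frobenius complements. Let G be a finite solvable group that occurs as a Frobenius complement. Then G has a normal subgroup G₀ such that G/G₀ is isomorphic to a subgroup of Sym(4) (G₀ is the kernel of a homomorphism to Sym(4)), all Sylow subgroups of G₀ are cyclic, and G₀ has a presentation ⟨x, y | x^n = 1, y^m = 1, x⁻¹ y x = y^r⟩ with n, m ≥ 1, gcd(r − 1, m) = gcd(n, m) = 1 and r^(n/n′) ≡ 1 (mod m), where n′ is the product of the distinct primes dividing n. -/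
theorem result {G : Type*} [Group G] [Finite G] (hsol : Group.IsSolvable G)
    (hFC : ∃ (L : Type) (_ : Group L) (_ : Finite L) (H : Subgroup L), Cfsg.IsFrobeniusComplement H ∧ Nonempty (G ≃* H)) :
    ∃ G₀ : Subgroup G, G₀.Normal ∧
      (∃ f : G →* Equiv.Perm (Fin 4), f.ker = G₀) ∧
      (∀ (p : ℕ) [Fact p.Prime] (P : Sylow p G₀), IsCyclic P) ∧
      ∃ n m r : ℕ, 0 < n ∧ 0 < m ∧ Nat.Coprime (r - 1) m ∧ Nat.Coprime n m ∧ 1 ≤ r ∧
        r ^ (n / ∏ p ∈ n.primeFactors, p) % m = 1 % m ∧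
        Nonempty (G₀ ≃* PresentedGroup
          ({FreeGroup.of (0 : Fin 2) ^ n, FreeGroup.of (1 : Fin 2) ^ m,
            (FreeGroup.of (0 : Fin 2))⁻¹ * FreeGroup.of 1 * FreeGroup.of 0 * (FreeGroup.of (1 : Fin 2) ^ r)⁻¹} :
            Set (FreeGroup (Fin 2)))) := by
  have h := CA.Fc.of_frob hFC
  obtain ⟨N, h1, h2⟩ := exists_str_solvable h
  obtain ⟨f, rfl⟩ : ∃ f : G →* Equiv.Perm (Fin 4), f.ker = N := by
    rcases h2 with rfl | ⟨f, -, rfl⟩ | ⟨f, -, rfl⟩
    · exact ⟨1, MonoidHom.ker_one⟩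
    · let e : DihedralGroup 2 ≃ Fin 4 := Finite.equivFinOfCardEq IsKleinFour.card_four
      refine ⟨(e.permCongrHom.toMonoidHom.comp (MulAction.toPermHom _ (DihedralGroup 2))).comp f, ?_⟩
      rw [← MonoidHom.comap_ker, (MonoidHom.ker_eq_bot_iff _).2
        (e.permCongrHom.injective.comp MulAction.toPerm_injective)]
      rfl
    · exact ⟨f, rfl⟩
  refine ⟨_, inferInstance, ⟨f, rfl⟩, fun _ _ _ => inferInstance, ?_⟩
  obtain ⟨x, y, r, e, hr, c1, c2, r1⟩ := exists_gens (G := f.ker)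
  refine ⟨_, _, r, orderOf_pos x, orderOf_pos y, c1, c2, r1, ?_, nonempty_pres e hr c2⟩
  have c := commute_rad (h.subgroup _) (x := x) (y := y)
    (by simpa using mem_normalizer_of_conj hr (isOfFinOrder_of_finite x) 1) c2
  have := conj_pow_pow hr (orderOf x / ∏ p ∈ (orderOf x).primeFactors, p)
  rw [mul_assoc, ← c.eq, inv_mul_cancel_left] at this
  exact pow_eq_pow_iff_modEq.1 (this.symm.trans (pow_one y).symm)

end Cfsg.Agent.S3358
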