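import Cfsg.Statements.S3370
import Mathlib
import Cfsg.Agent.Lib.Perm.HupTr
import Cfsg.Agent.Lib.Grp.Wrth2

set_option autoImplicit false
open Cfsg

namespace Cfsg.Agent.S3370

open CA.TrLin CA.Half2 CA.HupTr Subgroup

/-- Let q be a prime, V a non-trivial finite vector space over the field with q elements, and G a non-trivial finite p-group (p prime) acting faithfully and linearly on V and transitively on the non-zero vectors. Then either q = 2 and G has prime order p = |V| − 1; or p = 2, V has q elements with q = 2^m + 1 and G is cyclic of order 2^m; or p = 2, q = 3, V has 9 elements and G is cyclic of order 8, quaternion of order 8, or semidihedral of order 16. -/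
theorem result (q : ℕ) [Fact q.Prime] {V : Type*} [AddCommGroup V] [Module (ZMod q) V] [Finite V] [Nontrivial V]
    {G : Type*} [Group G] [Finite G] [Nontrivial G] (p : ℕ) [Fact p.Prime] (hG : IsPGroup p G)
    (ρ : G →* (V ≃ₗ[ZMod q] V)) (hρ : Function.Injective ρ)
    (htrans : ∀ v w : V, v ≠ 0 → w ≠ 0 → ∃ g : G, ρ g v = w) :
    (q = 2 ∧ p = Nat.card V - 1 ∧ Nat.card G = p) ∨
    (p = 2 ∧ Nat.card V = q ∧ (∃ m : ℕ, q = 2 ^ m + 1 ∧ Nat.card G = 2 ^ m) ∧ IsCyclic G) ∨
    (p = 2 ∧ q = 3 ∧ Nat.card V = 9 ∧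
      ((IsCyclic G ∧ Nat.card G = 8) ∨ Nonempty (G ≃* QuaternionGroup 2) ∨ (Cfsg.IsQuasiDihedral G ∧ Nat.card G = 16))) := by
  let _ : DistribMulAction G V := DistribMulAction.compHom V ρ
  have : FaithfulSMul G V := ⟨fun e => hρ (LinearEquiv.ext e)⟩
  have h : Tr G V := htrans
  have hq : q.Prime := Fact.out
  have hp : p.Prime := Fact.out
  have V1 : 1 < Nat.card V := Finite.one_lt_card
  have hh : Half G V := fun a b ha hb =>
    Nat.eq_of_mul_eq_mul_left (by omega) ((h.dvd_card ha).trans (h.dvd_card hb).symm)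
  have reg : (∀ (g : G) (v : V), v ≠ 0 → g • v = v → g = 1) → Nat.card G = Nat.card V - 1 := fun hf =>
    CA.RegLin.Reg.card ⟨h, hf⟩
  obtain ⟨k, hk⟩ := hG.exists_card_eq
  have k0 : k ≠ 0 := fun e => by have : 1 < Nat.card G := Finite.one_lt_card; simp [hk, e] at this
  have hV := Module.natCard_eq_pow_finrank (K := ZMod q) (V := V)
  rw [Nat.card_zmod] at hV
  generalize Module.finrank (ZMod q) V = n at hV
  by_cases p2 : p = 2
  swap
  · have h1 := reg fun g v hv e => by_contra fun g1 =>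
      hv ((CA.Huppert.cyclic_fpf p2 hG hq (nsmul_eq_zero q) hh).2 g g1 v e)
    obtain rfl : q = 2 := by
      obtain ⟨r, hr⟩ := (hp.odd_of_ne_two p2).pow (n := k)
      exact ((Nat.prime_dvd_prime_iff_eq Nat.prime_two hq).1
        (Nat.prime_two.dvd_of_dvd_pow (n := n) (by omega))).symm
    obtain rfl := nt_add hp.one_lt k0 (m := n) (by omega)
    rw [pow_one] at hk
    exact .inl ⟨rfl, by omega, hk⟩
  subst p2
  obtain ⟨v, hv⟩ := exists_ne (0 : V)
  obtain ⟨j, -, hj⟩ := (Nat.dvd_prime_pow hp).1 (Dvd.intro _ ((h.dvd_card hv).trans hk))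
  refine .inr ((nt_sub (q := q) (k := n) (m := j) (by omega)).imp ?_ ?_)
  · rintro rfl
    rw [pow_one] at hV
    have sc : ∀ g : G, ∃ a : ℤ, ∀ x : V, g • x = a • x := fun g => by
      obtain ⟨a, ha⟩ := mem_zmultiples_of_prime_card hV hv (g' := g • v)
      refine ⟨a, fun x => ?_⟩
      obtain ⟨b, rfl⟩ := mem_zmultiples_of_prime_card hV hv (g' := x)
      simp only at ha ⊢
      rw [smul_comm g, ← ha, smul_comm]
    have hc : IsMulCommutative (⊤ : Subgroup G) := ⟨⟨fun a b => Subtype.ext (eq_of_smul_eq_smul (α := V) fun x => by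
      obtain ⟨c, hc⟩ := sc a
      rw [coe_mul, coe_mul, mul_smul, mul_smul, hc, hc, smul_comm])⟩⟩
    have hf := fun (g : G) (v : V) hv e => h.free_of_comm hc (mem_top g) (v := v) hv e
    have := CA.Huppert.isCyclic_of_fpf (E := V) (⊤ : Subgroup G) fun g _ g1 v e => by_contra fun hv => g1 (hf g v hv e)
    exact ⟨rfl, hV, ⟨j, by omega, (reg hf).trans hj⟩, isCyclic_of_surjective _ topEquiv.surjective⟩
  rintro ⟨rfl, rfl⟩
  refine ⟨rfl, rfl, hV, ?_⟩
  rcases half_two hG (by decide) (nsmul_eq_zero 3) hh with ⟨hcy | ⟨m, a, y, hgen, -, hm⟩, hf⟩ |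
    ⟨m, k, j, a, y, hgen, hm1, hk, hj, hm, h1, h2, -⟩ | ⟨u, z, hu⟩
  · exact .inl ⟨hcy, by rw [reg hf, hV]; rfl⟩
  · have h1 := hm.card
    rw [hgen, card_top, reg hf, hV] at h1
    obtain rfl : m = 1 := by
      have := Nat.pow_right_injective le_rfl (show 2 ^ 3 = 2 ^ (m + 2) from h1); omega
    obtain ⟨e⟩ := hm.nonempty_quaternion odd_one rfl
    exact .inr (.inl ⟨topEquiv.symm.trans ((MulEquiv.subgroupCongr hgen.symm).trans e)⟩)
  · rw [← Nat.pow_left_injective two_ne_zero (hV.symm.trans h2)] at h1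
    obtain rfl := Nat.pow_right_injective le_rfl (show 2 ^ 2 = 2 ^ j from h1)
    obtain rfl : k = 1 := by omega
    obtain rfl : m = 2 := by omega
    refine .inr (.inr ⟨CA.Wrth2.isQuasiDihedral_of_equiv (CA.MC3.isQuasiDihedral hm le_rfl)
      ((MulEquiv.subgroupCongr hgen).trans topEquiv), ?_⟩)
    rw [← card_top, ← hgen, hm.card]; rfl
  · obtain ⟨v, v0, hv⟩ := hu.ex
    obtain ⟨w, w0, hw⟩ := hu.symm.ex
    have z0 := fun x => eq_zero_of_fix (t := u) (v := x) hu.two hu.neg
    obtain ⟨g, hg⟩ := h v (v + w) v0 fun e => v0 (z0 v hv (by rw [eq_neg_of_add_eq_zero_left e, smul_neg, hw]))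
    rcases hu.conj g with e | e
    · have := IU.smul_of_comm e hv
      rw [hg, smul_add, hv, add_right_inj] at this
      exact (w0 (z0 w this hw)).elim
    · have := IU.smul_of_swap e hv
      rw [hg, smul_add, hw, add_left_inj] at this
      exact (v0 (z0 v hv this)).elim

end Cfsg.Agent.S3370
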