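import Cfsg.Statements.S3371
import Mathlib
import Cfsg.Agent.Lib.Perm.HupTr
import Cfsg.Agent.Lib.Grp.Wrth2
import Cfsg.Agent.Lib.Perm.PermBasic

set_option autoImplicit false
open Cfsg

namespace Cfsg.Agent.S3371

open CA.TrLin CA.Half2 CA.HupTr CA.RegLin Subgroup

/-- Let q be a prime, V a non-trivial finite vector space over the field with q elements, and G a finite p-group (p prime) acting faithfully and linearly on V such that all G-orbits on the non-zero vectors have the same size. Then one of the following holds: G is cyclic or generalized quaternion and acts semiregularly on the non-zero vectors; or V has q² elements with q = 2^m − 1 and G is dihedral of order 2^(m+1) or semidihedral of order 2^(m+2); or V has q² elements with q = 2^m + 1 and, in suitable coordinates V = F_q², G is exactly the group of maps (x, y) ↦ (a x, ± a⁻¹ y) and (x, y) ↦ (± a⁻¹ y, a x) with a ≠ 0; or V has 81 elements (q = 3) and G is a 2-group.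 -/
theorem result (q : ℕ) [Fact q.Prime] {V : Type*} [AddCommGroup V] [Module (ZMod q) V] [Finite V] [Nontrivial V]
    {G : Type*} [Group G] [Finite G] (p : ℕ) [Fact p.Prime] (hG : IsPGroup p G)
    (ρ : G →* (V ≃ₗ[ZMod q] V)) (hρ : Function.Injective ρ)
    (hhalf : ∀ v w : V, v ≠ 0 → w ≠ 0 → Nat.card {u : V | ∃ g : G, ρ g v = u} = Nat.card {u : V | ∃ g : G, ρ g w = u}) :
    ((IsCyclic G ∨ ∃ n : ℕ, Nonempty (G ≃* QuaternionGroup n)) ∧ ∀ v : V, v ≠ 0 → ∀ g : G, ρ g v = v → g = 1) ∨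
    (Nat.card V = q ^ 2 ∧ ∃ m : ℕ, q = 2 ^ m - 1 ∧
      (Nonempty (G ≃* DihedralGroup (2 ^ m)) ∨ (Cfsg.IsQuasiDihedral G ∧ Nat.card G = 2 ^ (m + 2)))) ∨
    (Nat.card V = q ^ 2 ∧ (∃ m : ℕ, q = 2 ^ m + 1) ∧
      ∃ e : V ≃ₗ[ZMod q] (Fin 2 → ZMod q), ∀ f : (Fin 2 → ZMod q) ≃ₗ[ZMod q] (Fin 2 → ZMod q),
        (∃ g : G, f = e.symm.trans ((ρ g).trans e)) ↔
        ∃ a s : ZMod q, a ≠ 0 ∧ (s = 1 ∨ s = -1) ∧
          ((∀ v, f v = ![a * v 0, s * a⁻¹ * v 1]) ∨ (∀ v, f v = ![s * a⁻¹ * v 1, a * v 0]))) ∨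
    (Nat.card V = 81 ∧ q = 3 ∧ p = 2) := by
  let _ : DistribMulAction G V := DistribMulAction.compHom V ρ
  have : FaithfulSMul G V := ⟨fun e => hρ (LinearEquiv.ext e)⟩
  have hq : q.Prime := Fact.out
  have hh : Half G V := fun a b ha hb => by
    have h1 := CA.PermBasic.card_orbit_mul_card_stabilizer (G := G) a
    have h2 := CA.PermBasic.card_orbit_mul_card_stabilizer (G := G) b
    rw [show Nat.card (MulAction.orbit G a) = Nat.card (MulAction.orbit G b) from hhalf a b ha hb] at h1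
    have : Nonempty (MulAction.orbit G b) := ⟨⟨b, MulAction.mem_orbit_self b⟩⟩
    exact Nat.eq_of_mul_eq_mul_left Nat.card_pos (h1.trans h2.symm)
  by_cases p2 : p = 2
  swap
  · obtain ⟨h1, h2⟩ := CA.Huppert.cyclic_fpf p2 hG hq (nsmul_eq_zero q) hh
    exact .inl ⟨.inl h1, fun v hv g e => by_contra fun g1 => hv (h2 g g1 v e)⟩
  subst p2
  by_cases q2 : q = 2
  · subst q2
    have := subsingleton_of_char hG (nsmul_eq_zero 2) hh
    exact .inl ⟨.inl inferInstance, fun _ _ _ _ => Subsingleton.elim _ _⟩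
  rcases half_two hG (hq.odd_of_ne_two q2) (nsmul_eq_zero q) hh with ⟨hcy, hf⟩ |
    ⟨m, k, j, a, y, hgen, hm1, hk, hj, hm, h1, h2, h3⟩ | ⟨u, z, hu⟩
  · refine .inl ⟨hcy.imp_right fun ⟨m, a, y, hgen, _, hm⟩ => ?_, fun v hv g => hf g v hv⟩
    obtain ⟨e⟩ := hm.nonempty_quaternion odd_one rfl
    exact ⟨_, ⟨topEquiv.symm.trans ((MulEquiv.subgroupCongr hgen.symm).trans e)⟩⟩
  · obtain ⟨d, hd⟩ := card_eq_pow q (fix V y)
    obtain rfl := nt_add hq.one_lt (k := d) (m := j)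
      (fun e => h3 (AddSubgroup.card_eq_one.1 (by rw [hd, e, pow_zero]))) (hd ▸ h1)
    rw [hd, pow_one] at h1 h2
    refine .inr (.inl ⟨h2, j, by omega, ?_⟩)
    interval_cases k
    · obtain rfl : j = m + 1 := by omega
      obtain ⟨e⟩ := hm.nonempty_dihedral Even.zero rfl
      exact .inl ⟨topEquiv.symm.trans ((MulEquiv.subgroupCongr hgen.symm).trans e)⟩
    · obtain rfl : j = m := by omega
      exact .inr ⟨CA.Wrth2.isQuasiDihedral_of_equiv (CA.MC3.isQuasiDihedral hm hm1)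
        ((MulEquiv.subgroupCongr hgen).trans topEquiv), by rw [← card_top, ← hgen, hm.card]⟩
  refine .inr (.inr ?_)
  obtain ⟨⟨m, hm⟩, h1 | ⟨rfl, h1⟩⟩ := card_fix q hG hh hu
  swap
  · exact .inr ⟨by rw [(hu.card hh).1, h1]; rfl, rfl, rfl⟩
  have hV := (hu.card hh).1
  rw [h1] at hV hm
  refine .inl ⟨hV, ⟨m, hm⟩, ?_⟩
  obtain ⟨v, v0, hv⟩ := hu.ex
  obtain ⟨w, w0, hw⟩ := hu.symm.ex
  have hw' : u • w = -w := by rw [mul_smul, hu.neg, smul_neg, neg_eq_iff_eq_neg] at hw; exact hw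
  have z0 := fun x => eq_zero_of_fix (t := u) (v := x) hu.two hu.neg
  let L : (Fin 2 → ZMod q) →ₗ[ZMod q] V := Fintype.linearCombination (ZMod q) ![v, w]
  have hL : ∀ x, L x = x 0 • v + x 1 • w := fun x => by simp [L, Fintype.linearCombination_apply]
  let E := LinearEquiv.ofBijective L ((Nat.bijective_iff_injective_and_card L).2
    ⟨(injective_iff_map_eq_zero L).2 fun x hx => by
      rw [hL] at hx
      have h0 := z0 (x 0 • v) (by rw [smul_comm_zmod, hv])
        (by rw [eq_neg_of_add_eq_zero_left hx, smul_neg, smul_comm_zmod, hw])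
      rw [h0, zero_add] at hx
      funext i
      fin_cases i
      exacts [(smul_eq_zero.1 h0).resolve_right v0, (smul_eq_zero.1 hx).resolve_right w0], by simp [hV]⟩)
  have hE : ∀ x, E x = x 0 • v + x 1 • w := hL
  have k1 : ∀ x : V, u • x = x → ∃ a : ZMod q, x = a • v := fun x hx => by
    obtain ⟨y, rfl⟩ := E.surjective x
    rw [hE] at hx ⊢
    rw [smul_add, smul_comm_zmod u, hv, add_right_inj] at hx
    exact ⟨_, by rw [z0 _ hx (by rw [smul_comm_zmod, hw]), add_zero]⟩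
  have k2 : ∀ x : V, (u * z) • x = x → ∃ a : ZMod q, x = a • w := fun x hx => by
    obtain ⟨y, rfl⟩ := E.surjective x
    rw [hE] at hx ⊢
    rw [smul_add, smul_comm_zmod _ (y 1), hw, add_left_inj] at hx
    exact ⟨_, by rw [z0 _ (by rw [smul_comm_zmod, hv]) hx, zero_add]⟩
  have sw : ∀ a : ZMod q, a ≠ 0 → ∃ g : G, g • v = a • w ∧ g • w = a⁻¹ • v := fun a ha => by
    obtain ⟨g, g1, g2⟩ := (hu.pair hh v0 (smul_ne_zero ha w0) hv (by rw [smul_comm_zmod, hw])).1
    exact ⟨g, g1, by rw [← g2, smul_comm_zmod, inv_smul_smul₀ ha]⟩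
  have dg : ∀ a : ZMod q, a ≠ 0 → ∃ g : G, g • v = a • v ∧ g • w = a⁻¹ • w := fun a ha => by
    obtain ⟨g, g1, g2⟩ := sw a ha
    obtain ⟨g', g3, g4⟩ := (hu.pair hh v0 w0 hv hw).1
    exact ⟨g' * g, by rw [mul_smul, g1, smul_comm_zmod, g4], by rw [mul_smul, g2, smul_comm_zmod, g3]⟩
  have un : ∀ (g g' : G) (a : ZMod q) (x : V), g • v = g' • v → g' • w = a • x →
      ∃ s : ZMod q, (s = 1 ∨ s = -1) ∧ g • w = (s * a) • x := fun g g' a x e e' => by
    rcases hu.stab hh v0 hv (g := g'⁻¹ * g) (by rw [mul_smul, e, inv_smul_smul]) with e | e <;>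
      rw [inv_mul_eq_iff_eq_mul] at e
    · exact ⟨1, .inl rfl, by rw [e, mul_one, one_mul, e']⟩
    · exact ⟨-1, .inr rfl, by rw [e, mul_smul, hw', smul_neg, e', neg_one_mul, neg_smul]⟩
  have sg : ∀ (g : G) (a s : ZMod q) (x : V), (s = 1 ∨ s = -1) → g • w = a • x →
      ∃ g' : G, g' • v = g • v ∧ g' • w = (s * a) • x := fun g a s x hs e => by
    rcases hs with rfl | rfl
    · exact ⟨g, rfl, by rw [one_mul, e]⟩
    · exact ⟨g * u, by rw [mul_smul, hv], by rw [mul_smul, hw', smul_neg, e, neg_one_mul, neg_smul]⟩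
  have key : ∀ (g : G) (f : (Fin 2 → ZMod q) ≃ₗ[ZMod q] (Fin 2 → ZMod q)),
      f = E.symm.symm.trans ((ρ g).trans E.symm) ↔ ∀ x, E (f x) = x 0 • g • v + x 1 • g • w := fun g f => by
    refine LinearEquiv.ext_iff.trans (forall_congr' fun x => ?_)
    change f x = E.symm (g • E x) ↔ _
    rw [LinearEquiv.eq_symm_apply, hE x, smul_add, smul_comm_zmod, smul_comm_zmod]
  refine ⟨E.symm, fun f => ⟨fun ⟨g, hg⟩ => ?_, fun ⟨a, s, a0, hs, hf⟩ => ?_⟩⟩
  · rw [key] at hg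
    have gv : g • v ≠ 0 := by rwa [Ne, smul_eq_zero_iff_eq]
    rcases hu.conj g with e | e
    · obtain ⟨a, ha⟩ := k1 _ (IU.smul_of_comm e hv)
      have a0 : a ≠ 0 := fun e => gv (by rw [ha, e, zero_smul])
      obtain ⟨g', g1, g2⟩ := dg a a0
      obtain ⟨s, hs, hs'⟩ := un g g' _ _ (ha.trans g1.symm) g2
      exact ⟨a, s, a0, hs, .inl fun x => E.injective (by
        rw [hg, hE, ha, hs', smul_smul, smul_smul, mul_comm, mul_comm (x 1)]; rfl)⟩
    · obtain ⟨a, ha⟩ := k2 _ (IU.smul_of_swap e hv)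
      have a0 : a ≠ 0 := fun e => gv (by rw [ha, e, zero_smul])
      obtain ⟨g', g1, g2⟩ := sw a a0
      obtain ⟨s, hs, hs'⟩ := un g g' _ _ (ha.trans g1.symm) g2
      exact ⟨a, s, a0, hs, .inr fun x => E.injective (by
        rw [hg, hE, ha, hs', smul_smul, smul_smul, mul_comm, mul_comm (x 1), add_comm]; rfl)⟩
  · rcases hf with hf | hf
    · obtain ⟨g, g1, g2⟩ := dg a a0
      obtain ⟨g', g3, g4⟩ := sg g _ s _ hs g2
      exact ⟨g', (key _ _).2 fun x => by
        rw [hf, hE, g3, g1, g4, smul_smul, smul_smul, mul_comm (x 0), mul_comm (x 1)]; rfl⟩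
    · obtain ⟨g, g1, g2⟩ := sw a a0
      obtain ⟨g', g3, g4⟩ := sg g _ s _ hs g2
      exact ⟨g', (key _ _).2 fun x => by
        rw [hf, hE, g3, g1, g4, smul_smul, smul_smul, mul_comm (x 0), mul_comm (x 1), add_comm]; rfl⟩

end Cfsg.Agent.S3371
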