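import Cfsg.Statements.S3375
import Mathlib

set_option autoImplicit false
open Cfsg

namespace Cfsg.Agent.S3375

/-- Let γ be an automorphism of order 2 of a finite group H. (i) If γ fixes only the identity, then H is abelian and γ inverts every element. (ii) If γ has exactly two fixed points and H has a subgroup of index 2, then H has a γ-invariant abelian subgroup of index 2 on which γ acts by inversion. -/
theorem result {H : Type*} [Group H] [Finite H] (γ : MulAut H) (hγ : orderOf γ = 2) :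
    ((∀ h : H, γ h = h → h = 1) → (∀ a b : H, a * b = b * a) ∧ ∀ h : H, γ h = h⁻¹) ∧
    ((Nat.card {h : H // γ h = h} = 2 ∧ ∃ M : Subgroup H, M.index = 2) →
      ∃ A : Subgroup H, A.index = 2 ∧ IsMulCommutative A ∧ (∀ a ∈ A, γ a ∈ A) ∧ ∀ a ∈ A, γ a = a⁻¹) := by
  have inv : ∀ h, γ (γ h) = h := fun h => by
    have := pow_orderOf_eq_one γ
    rw [hγ, pow_two] at this
    exact MulEquiv.congr_fun this h
  have comm : ∀ a b : H, γ a = a⁻¹ → γ b = b⁻¹ → γ (a * b) = (a * b)⁻¹ → a * b = b * a := by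
    intro a b ha hb hab
    rw [map_mul, ha, hb, ← mul_inv_rev, inv_inj] at hab
    exact hab.symm
  have main : ∀ (C M : Subgroup H), (∀ h, h ∈ C ↔ γ h = h) → (∀ h, h * (γ h)⁻¹ ∈ M) →
      Nat.card M = C.index → ∀ a ∈ M, γ a = a⁻¹ := by
    intro C M hC hM hc a ha
    let F : H ⧸ C → M := fun q => ⟨q.out * (γ q.out)⁻¹, hM _⟩
    have hF : Function.Injective F := by
      intro q r e
      have e1 : q.out * (γ q.out)⁻¹ = r.out * (γ r.out)⁻¹ := congrArg Subtype.val e
      rw [← q.out_eq', ← r.out_eq', QuotientGroup.eq, hC, map_mul, map_inv]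
      calc (γ q.out)⁻¹ * γ r.out = q.out⁻¹ * (q.out * (γ q.out)⁻¹) * γ r.out := by group
        _ = q.out⁻¹ * r.out := by rw [e1]; group
    have hb := (Nat.bijective_iff_injective_and_card F).2 ⟨hF, hc.symm⟩
    obtain ⟨q, hq⟩ := hb.2 ⟨a, ha⟩
    have e : q.out * (γ q.out)⁻¹ = a := congrArg Subtype.val hq
    rw [← e, map_mul, map_inv, inv]; group
  let C : Subgroup H := γ.toMonoidHom.eqLocus (MonoidHom.id H)
  have hC : ∀ h, h ∈ C ↔ γ h = h := fun h => Iff.rfl
  refine ⟨fun h => ?_, fun ⟨h2, M, hM⟩ => ?_⟩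
  · have h1 : C = ⊥ := (Subgroup.eq_bot_iff_forall _).2 fun x hx => h x hx
    have h2 := main C ⊤ hC (fun _ => Subgroup.mem_top _) (by
      rw [h1, Subgroup.index_bot, Subgroup.card_top])
    exact ⟨fun a b => comm a b (h2 _ trivial) (h2 _ trivial) (h2 _ trivial), fun a => h2 a trivial⟩
  · obtain ⟨A, hA, hAi⟩ : ∃ A : Subgroup H, A.index = 2 ∧ ∀ h, γ h ∈ A ↔ h ∈ A := by
      have mm := fun a b => Subgroup.mul_mem_iff_of_index_two hM (a := a) (b := b)
      by_cases h : ∀ x, γ x ∈ M ↔ x ∈ M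
      · exact ⟨M, hM, h⟩
      obtain ⟨a, ha⟩ := not_forall.1 h
      let A : Subgroup H :=
        { carrier := {x | γ x ∈ M ↔ x ∈ M}
          mul_mem' := fun {x y} hx hy => by
            simp only [Set.mem_setOf_eq, map_mul, mm] at *; tauto
          one_mem' := by simp
          inv_mem' := fun {x} hx => by simpa using hx }
      have hA : ∀ x, x ∈ A ↔ (γ x ∈ M ↔ x ∈ M) := fun x => Iff.rfl
      refine ⟨A, Subgroup.index_eq_two_iff.2 ⟨a, fun b => ?_⟩, fun x => ?_⟩
      · rw [hA, hA, map_mul, mm, mm]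
        unfold Xor
        by_cases p1 : γ b ∈ M <;> by_cases p2 : γ a ∈ M <;> by_cases p3 : b ∈ M <;>
          by_cases p4 : a ∈ M <;> simp only [p1, p2, p3, p4] at ha ⊢ <;> simp at ha ⊢
      · rw [hA, hA, inv]; tauto
    have h3 := main C A hC (fun h => by
      rw [Subgroup.mul_mem_iff_of_index_two hA, inv_mem_iff, hAi]) (by
      have a := A.card_mul_index
      have b := C.card_mul_index
      have c : Nat.card C = 2 := h2
      rw [hA] at a; rw [c] at b; omega)
    refine ⟨A, hA, ⟨⟨fun a b => Subtype.ext ?_⟩⟩, fun a ha => (hAi a).2 ha, h3⟩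
    exact comm a b (h3 _ a.2) (h3 _ b.2) (h3 _ (A.mul_mem a.2 b.2))

end Cfsg.Agent.S3375
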