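import Cfsg.Statements.S3379
import Mathlib
import Cfsg.Agent.Lib.Perm.FcStruct

set_option autoImplicit false
open Cfsg

namespace Cfsg.Agent.S3379

open CA.FcStruct in

/-- Let G be a finite group all of whose Sylow subgroups are cyclic. Then G is generated by two elements x and y of coprime orders n and m with x⁻¹yx = y^r, where gcd(r − 1, m) = 1 and r^n ≡ 1 (mod m). -/
theorem result {G : Type*} [Group G] [Finite G]
    (hZ : ∀ (p : ℕ) [Fact p.Prime] (P : Sylow p G), IsCyclic (P : Subgroup G)) :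
    ∃ (x y : G) (n m r : ℕ), Subgroup.closure {x, y} = ⊤ ∧ orderOf x = n ∧ orderOf y = m ∧
      x⁻¹ * y * x = y ^ r ∧ Nat.Coprime (r - 1) m ∧ Nat.Coprime n m ∧ 1 ≤ r ∧ r ^ n % m = 1 % m := by
  have : IsZGroup G := ⟨fun p hp P => by have := Fact.mk hp; exact hZ p P⟩
  obtain ⟨x, y, r, e, h, c1, c2, h1⟩ := exists_gens (G := G)
  refine ⟨x, y, _, _, r, ?_, rfl, rfl, h, c1, c2, h1, ?_⟩
  · rw [Set.insert_eq, Subgroup.closure_union, ← Subgroup.zpowers_eq_closure, ← Subgroup.zpowers_eq_closure, e]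
  · have := conj_pow_pow h (orderOf x)
    rw [pow_orderOf_eq_one, inv_one, one_mul, mul_one] at this
    exact pow_eq_pow_iff_modEq.1 (this.symm.trans (pow_one y).symm)

end Cfsg.Agent.S3379
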