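import Cfsg.Statements.S3380
import Mathlib
import Cfsg.Agent.Lib.Perm.Half2
import Cfsg.Agent.Lib.Grp.Wrth2

set_option autoImplicit false
open Cfsg

namespace Cfsg.Agent.S3380

open CA.TrLin CA.Half2 CA.RegLin Subgroup

theorem indep {G V : Type*} [Group G] [AddCommGroup V] [DistribMulAction G V] {ι : Type*} {x z : G}
    (hxz : Commute x z) {p : ℕ} (hz : ∀ i : ℤ, ¬ (p : ℤ) ∣ i → ∀ a : V, z ^ i • a = a → a = 0) (c : ι → ℤ)
    (hc : ∀ i j, (p : ℤ) ∣ c i - c j → i = j) (s : Finset ι) :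
    ∀ v : ι → V, (∀ i ∈ s, x • v i = z ^ c i • v i) → ∑ i ∈ s, v i = 0 → ∀ i ∈ s, v i = 0 := by
  classical
  induction s using Finset.induction_on with
  | empty => simp
  | insert k s hk ih =>
    intro v hv h0
    have h1 := ih (fun i => x • v i - z ^ c k • v i)
      (fun i hi => CA.Huppert.eig_step hxz (hv i (Finset.mem_insert_of_mem hi))) (by
        rw [Finset.sum_insert hk, add_eq_zero_iff_neg_eq] at h0
        rw [Finset.sum_sub_distrib, ← Finset.smul_sum, ← Finset.smul_sum, ← h0, smul_neg, smul_neg,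
          hv k (Finset.mem_insert_self k s), sub_self])
    have h2 : ∀ i ∈ s, v i = 0 := fun i hi => CA.Huppert.eig_zero hz (fun e => hk (hc i k e ▸ hi))
      (hv i (Finset.mem_insert_of_mem hi)) (h1 i hi)
    rw [Finset.sum_insert hk, Finset.sum_eq_zero h2, add_zero] at h0
    exact Finset.forall_mem_insert _ _ _ |>.2 ⟨h0, h2⟩

/-- Let a finite p-group G act faithfully and irreducibly on a non-trivial finite vector space V over the field with q elements (q prime), and suppose G is not cyclic, generalized quaternion, dihedral or semidihedral. Then G has a subgroup H of index p and V is the direct sum of p subspaces, each invariant under H, on none of which H acts faithfully, and which every element of G outside H permutes in a single p-cycle. -/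
theorem result
    (q : ℕ) [Fact q.Prime] {V : Type*} [AddCommGroup V] [Module (ZMod q) V] [Finite V] [Nontrivial V]
    {G : Type*} [Group G] [Finite G] (p : ℕ) [Fact p.Prime] (hG : IsPGroup p G)
    (ρ : G →* (V ≃ₗ[ZMod q] V)) (hρ : Function.Injective ρ)
    (hirr : ∀ W : Submodule (ZMod q) V, (∀ g : G, ∀ w ∈ W, ρ g w ∈ W) → W = ⊥ ∨ W = ⊤)
    (hnc : ¬ IsCyclic G) (hnq : ∀ n : ℕ, ¬ Nonempty (G ≃* QuaternionGroup n))
    (hnd : ∀ n : ℕ, ¬ Nonempty (G ≃* DihedralGroup n)) (hnsd : ¬ Cfsg.IsQuasiDihedral G) :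
    ∃ (H : Subgroup G) (W : Fin p → Submodule (ZMod q) V), H.index = p ∧
      iSup W = ⊤ ∧ iSupIndep W ∧
      (∀ h ∈ H, ∀ i, ∀ w ∈ W i, ρ h w ∈ W i) ∧
      (∀ i, ∃ h ∈ H, h ≠ 1 ∧ ∀ w ∈ W i, ρ h w = w) ∧
      ∀ g : G, g ∉ H → ∃ σ : Equiv.Perm (Fin p), orderOf σ = p ∧ ∀ i, (W i).map (ρ g : V →ₗ[ZMod q] V) = W (σ i) := by
  let _ : DistribMulAction G V := DistribMulAction.compHom V ρ
  have : FaithfulSMul G V := ⟨fun e => hρ (LinearEquiv.ext e)⟩
  have hI : Irr V (⊤ : Subgroup G) := irr_iff.2 fun W hW => hirr W fun g => hW g trivial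
  have hp : p.Prime := Fact.out
  have hcen : ∀ x ∈ center G, x ≠ 1 → ∀ a : V, x • a = a → a = 0 := fun x hx x1 a ha => by
    rcases hI (fix V x) (fun g _ w hw => by
      rw [mem_fix, ← mul_smul, ← mem_center_iff.1 hx g, mul_smul, mem_fix.1 hw]) with e | e
    · exact AddSubgroup.mem_bot.1 (e ▸ ha)
    · exact (x1 (eq_of_smul_eq_smul (α := V) fun v => (e.ge trivial : v ∈ fix V x).trans (one_smul G v).symm)).elim
  rcases tri hG with h | ⟨R, _, hRe, hRc⟩ | ⟨-, m, a, y, hgen, h⟩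
  · exact (hnc h).elim
  swap
  · have e := topEquiv.symm.trans (MulEquiv.subgroupCongr hgen.symm)
    rcases h with ⟨-, h⟩ | ⟨hm, k, hk, h⟩
    · exact (hnq _ ((h.nonempty_quaternion odd_one rfl).map e.trans)).elim
    interval_cases k
    · exact (hnd _ ((h.nonempty_dihedral Even.zero rfl).map e.trans)).elim
    · exact (hnsd (CA.Wrth2.isQuasiDihedral_of_equiv (CA.MC3.isQuasiDihedral h hm) e.symm)).elim
  obtain ⟨x, z, hzc, hzo, hx, hxc, ⟨a, a0, ha⟩, hconj⟩ := exists_xz hG hcen hRe hRc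
  have hz : ∀ i : ℤ, ¬ (p : ℤ) ∣ i → ∀ a : V, z ^ i • a = a → a = 0 := fun i hi =>
    hcen _ (zpow_mem hzc i) fun e => hi (hzo ▸ orderOf_dvd_iff_zpow_eq_one.2 e)
  have hxz : Commute x z := mem_center_iff.1 hzc x
  have zc : ∀ (i : ℤ) g, g * z ^ i = z ^ i * g := fun i => mem_center_iff.1 (zpow_mem hzc i)
  have zeq : ∀ i j : ℤ, (p : ℤ) ∣ i - j → z ^ i = z ^ j := fun i j h =>
    (CA.PGCyclicMax.zpow_eq_zpow hzo).2 h
  have : NeZero p := ⟨hp.ne_zero⟩
  let W : ZMod p → Submodule (ZMod q) V := fun i => AddSubgroup.toZModSubmodule q (fix V (z ^ (-(i.cast : ℤ)) * x))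
  have hs : ∀ (g : G) (v : V), g • v = ρ g v := fun _ _ => rfl
  have hW : ∀ i v, v ∈ W i ↔ x • v = z ^ (i.cast : ℤ) • v := fun i v => by
    change (z ^ (-(i.cast : ℤ)) * x) • v = v ↔ _
    rw [mul_smul, zpow_neg, inv_smul_eq_iff]
  have mv : ∀ (g : G) (i : ℤ), g * x * g⁻¹ = x * z ^ i → ∀ j, ∀ v ∈ W j, g • v ∈ W (j - i) := fun g i h j v hv => by
    rw [hW] at hv ⊢
    have h1 : x * g = z ^ (-i) * g * x := by
      calc x * g = z ^ (-i) * (z ^ i * x) * g := by group
        _ = z ^ (-i) * (g * x * g⁻¹) * g := by rw [h, zc]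
        _ = _ := by group
    rw [← mul_smul, h1, mul_smul, mul_smul, hv, ← mul_smul g, zc, mul_smul, ← mul_smul, ← zpow_add,
      zeq _ (j - i).cast ((ZMod.intCast_zmod_eq_zero_iff_dvd _ _).1 (by simp; ring))]
  have hH : ∀ (g : G) (i : ℤ), g * x * g⁻¹ = x * z ^ i → (g ∈ centralizer {x} ↔ (i : ZMod p) = 0) := fun g i h => by
    rw [mem_centralizer_singleton_iff, ← mul_inv_eq_iff_eq_mul, h, mul_eq_left, ZMod.intCast_zmod_eq_zero_iff_dvd,
      ← hzo, orderOf_dvd_iff_zpow_eq_one]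
  have e : ZMod p ≃ Fin p := (ZMod.finEquiv p).symm.toEquiv
  refine ⟨centralizer {x}, W ∘ e.symm, ?_, ?_, ?_, fun h hh i w hw => ?_, fun i => ⟨z ^ (-((e.symm i).cast : ℤ)) * x,
    mem_centralizer_singleton_iff.2 (by rw [mul_assoc, ← mul_assoc x, zc, mul_assoc]),
    fun e => hxc (eq_inv_of_mul_eq_one_right e ▸ inv_mem (zpow_mem hzc _)), fun w hw => hw⟩, fun g hg => ?_⟩
  · choose f hf using hconj
    let φ : G →* Multiplicative (ZMod p) := MonoidHom.mk' (fun g => Multiplicative.ofAdd (f g : ZMod p)) fun g h => by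
      rw [← ofAdd_add, ← Int.cast_add]
      congr 1
      rw [ZMod.intCast_eq_intCast_iff_dvd_sub, ← CA.PGCyclicMax.zpow_eq_zpow hzo, ← mul_right_inj x, ← hf,
        show g * h * x * (g * h)⁻¹ = g * (h * x * h⁻¹) * g⁻¹ by group, hf h, ← mul_assoc g, mul_assoc _ _ g⁻¹,
        ← zc, ← mul_assoc, hf, zpow_add, mul_assoc]
    have hk : φ.ker = centralizer {x} := Subgroup.ext fun g => (hH g _ (hf g)).symm
    have h1 := φ.range.card_subgroup_dvd_card
    rw [← index_ker, hk, Nat.card_eq_fintype_card, Fintype.card_multiplicative, ZMod.card, Nat.dvd_prime hp] at h1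
    exact h1.resolve_left fun e => hxc (mem_center_iff.2 fun g =>
      mem_centralizer_singleton_iff.1 ((index_eq_one.1 e).ge (mem_top g)))
  · refine (e.symm.iSup_comp (g := W)).trans ?_
    refine (hirr _ fun g w hw => ?_).resolve_left fun h => a0 ((Submodule.mem_bot _).1 (h.le
      (Submodule.mem_iSup_of_mem 0 ((hW _ _).2 (by simpa using ha)))))
    obtain ⟨i, hi⟩ := hconj g
    exact (iSup_le fun j v hv => Submodule.mem_iSup_of_mem _ (mv g i hi j v hv) :
      iSup W ≤ (iSup W).comap (ρ g : V →ₗ[ZMod q] V)) hw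
  · refine iSupIndep.comp ((iSupIndep_iff_finsetSum_eq_zero_imp_eq_zero W).2 fun s v hv =>
      indep hxz hz (fun i : ZMod p => (i.cast : ℤ)) (fun i j h => ?_) s v fun i hi => (hW _ _).1 (hv i hi))
      e.symm.injective
    simpa [sub_eq_zero] using (ZMod.intCast_zmod_eq_zero_iff_dvd _ _).2 h
  · simpa [hs] using mv h 0 (by rw [zpow_zero, mul_one, mem_centralizer_singleton_iff.1 hh, mul_inv_cancel_right]) _ w hw
  · obtain ⟨i, hi⟩ := hconj g
    have i0 : (i : ZMod p) ≠ 0 := fun e => hg ((hH g i hi).2 e)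
    refine ⟨e.permCongrHom (Equiv.addRight (-(i : ZMod p))), ?_, fun j => le_antisymm ?_ fun v hv => ?_⟩
    · rw [MulEquiv.orderOf_eq]
      refine orderOf_eq_prime (Equiv.ext fun x => by rw [Equiv.Perm.coe_pow, Equiv.coe_addRight, add_right_iterate]; simp) fun e => i0 ?_
      simpa using DFunLike.congr_fun e 0
    · rintro _ ⟨v, hv, rfl⟩
      simpa [sub_eq_add_neg, hs] using mv g i hi _ v hv
    · refine ⟨g⁻¹ • v, ?_, smul_inv_smul g v⟩
      simpa using mv g⁻¹ (-i) (by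
        rw [inv_inv, mul_assoc, inv_mul_eq_iff_eq_mul, ← mul_assoc, mul_inv_eq_iff_eq_mul.1 hi, mul_assoc, mul_assoc,
          zc, ← mul_assoc (z ^ i), ← zpow_add, add_neg_cancel, zpow_zero, one_mul]) _ v hv

end Cfsg.Agent.S3380
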