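import Cfsg.Statements.S3381

set_option autoImplicit false
open Cfsg

namespace Cfsg.Agent.S3381

open Module

theorem card_fib {α β : Type*} [Finite α] [Finite β] (f : α → β) {n : ℕ} (h : ∀ b, Nat.card {a // f a = b} = n) :
    Nat.card α = Nat.card β * n := by
  cases nonempty_fintype β
  rw [← Nat.card_congr (Equiv.sigmaFiberEquiv f), Nat.card_sigma]
  simp [h]

/-- Let G be a finite group acting faithfully and linearly on a non-trivial finite vector space V over the field with q elements (q prime) so that every non-zero vector has a stabilizer of order 2, and suppose G has a central involution. Then V has q^(2r) elements for some r and G contains exactly q^r + 1 non-central involutions. -/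
theorem result
    (q : ℕ) [Fact q.Prime] {V : Type*} [AddCommGroup V] [Module (ZMod q) V] [Finite V] [Nontrivial V]
    {G : Type*} [Group G] [Finite G] (ρ : G →* (V ≃ₗ[ZMod q] V)) (hρ : Function.Injective ρ)
    (hstab : ∀ v : V, v ≠ 0 → Nat.card {g : G // ρ g v = v} = 2)
    (z : G) (hz : orderOf z = 2) (hzc : z ∈ Subgroup.center G) :
    ∃ r : ℕ, Nat.card V = q ^ (2 * r) ∧
      Nat.card {g : G // orderOf g = 2 ∧ g ∉ Subgroup.center G} = q ^ r + 1 := by
  classical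
  let C : G → Submodule (ZMod q) V := fun g => LinearMap.ker ((ρ g).toLinearMap - 1)
  have mC : ∀ g v, v ∈ C g ↔ ρ g v = v := fun g v => by simp [C, sub_eq_zero]
  have mul : ∀ g h v, ρ (g * h) v = ρ g (ρ h v) := fun g h v => by rw [map_mul]; rfl
  have st : ∀ v : V, v ≠ 0 → ∃ t, t ≠ 1 ∧ ρ t v = v ∧ ∀ s, ρ s v = v → s = 1 ∨ s = t := fun v hv => by
    obtain ⟨⟨t, h1⟩, h2, h3⟩ := (Nat.card_eq_two_iff' (⟨1, by simp⟩ : {g : G // ρ g v = v})).1 (hstab v hv)
    exact ⟨t, fun e => h2 (Subtype.ext e), h1, fun s hs => or_iff_not_imp_left.2 fun e =>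
      congrArg Subtype.val (h3 ⟨s, hs⟩ fun e' => e (congrArg Subtype.val e'))⟩
  choose! τ t1 t2 t3 using st
  have uq : ∀ s t v, s ≠ 1 → t ≠ 1 → s ≠ t → ρ s v = v → ρ t v = v → v = 0 := fun s t v h1 h2 h3 h4 h5 =>
    by_contra fun hv => h3 (((t3 v hv s h4).resolve_left h1).trans ((t3 v hv t h5).resolve_left h2).symm)
  have t4 : ∀ v, v ≠ 0 → τ v * τ v = 1 := fun v hv =>
    (t3 v hv _ (by rw [mul, t2 v hv, t2 v hv])).resolve_right fun e => t1 v hv (mul_eq_left.1 e)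
  have sq : ∀ g : G, orderOf g = 2 ↔ g * g = 1 ∧ g ≠ 1 := fun g => by rw [orderOf_eq_prime_iff, pow_two]
  have neg : ∀ z, orderOf z = 2 → z ∈ Subgroup.center G → (∀ v, ρ z v = -v) ∧ ∀ v, ρ z v = v → v = 0 := fun z hz hc => by
    obtain ⟨z2, z1⟩ := (sq z).1 hz
    have k1 : ∀ v, ρ z v ≠ v → ρ z v = -v := fun v hv => by
      have h0 : v ≠ 0 := fun e => hv (by simp [e])
      refine eq_neg_of_add_eq_zero_right (uq z (τ v) _ z1 (t1 v h0) (fun e => hv (e ▸ t2 v h0)) ?_ ?_)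
      · rw [map_add, ← mul, z2, add_comm]; simp
      · rw [map_add, ← mul, Subgroup.mem_center_iff.1 hc, mul, t2 v h0]
    have k2 : ∀ w, ρ z w = w → w = 0 := fun w hw => by_contra fun w0 => by
      obtain ⟨v, hv⟩ : ∃ v, ρ z v ≠ v := by
        by_contra! e
        exact z1 (hρ (by rw [map_one]; exact LinearEquiv.ext e))
      have e1 := k1 (v + w) fun e => hv (by rwa [map_add, hw, add_left_inj] at e)
      rw [map_add, hw, k1 v hv, neg_add, add_right_inj, eq_neg_iff_add_eq_zero, ← two_smul (ZMod q),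
        smul_eq_zero_iff_left w0] at e1
      exact hv (by rw [k1 v hv, neg_eq_iff_add_eq_zero, ← two_smul (ZMod q), e1, zero_smul])
    exact ⟨fun v => by by_cases e : ρ z v = v; exacts [by simp [k2 v e], k1 v e], k2⟩
  obtain ⟨z2, z1⟩ := (sq z).1 hz
  obtain ⟨n1, n2⟩ := neg z hz hzc
  have zz : ∀ t, t * z * z = t := fun t => by rw [mul_assoc, z2, mul_one]
  have i1 : ∀ t, t * t = 1 ∧ t ≠ 1 ∧ t ≠ z → t * z * (t * z) = 1 ∧ t * z ≠ 1 ∧ t * z ≠ z := fun t h =>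
    ⟨by rw [← mul_assoc, mul_assoc t, ← Subgroup.mem_center_iff.1 hzc t, ← mul_assoc, h.1, one_mul, z2],
      fun e => h.2.2 (by rw [← zz t, e, one_mul]), fun e => h.2.1 (mul_eq_right.1 e)⟩
  have i2 : ∀ v, v ≠ 0 → τ v * τ v = 1 ∧ τ v ≠ 1 ∧ τ v ≠ z := fun v hv =>
    ⟨t4 v hv, t1 v hv, fun e => hv (n2 v (e ▸ t2 v hv))⟩
  have d1 : ∀ s t, s ≠ 1 → t ≠ 1 → s ≠ t → finrank (ZMod q) (C s) + finrank (ZMod q) (C t) ≤ finrank (ZMod q) V :=
    fun s t h1 h2 h3 => by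
      rw [← Submodule.finrank_sup_add_finrank_inf_eq, eq_bot_iff.2 (show C s ⊓ C t ≤ ⊥ from fun v hv =>
        uq s t v h1 h2 h3 ((mC _ _).1 hv.1) ((mC _ _).1 hv.2)), finrank_bot]
      exact Submodule.finrank_le _
  have d2 : ∀ t, t * t = 1 → finrank (ZMod q) V ≤ finrank (ZMod q) (C t) + finrank (ZMod q) (C (t * z)) := fun t h => by
    rw [← ((ρ t).toLinearMap - 1).finrank_range_add_finrank_ker, add_comm]
    refine Nat.add_le_add_left (Submodule.finrank_mono ?_) _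
    rintro _ ⟨v, rfl⟩
    simp [mC, mul, n1, ← mul t t, h]
  have d3 : ∀ t, t * t = 1 ∧ t ≠ 1 ∧ t ≠ z → ∃ v, v ≠ 0 ∧ ρ t v = v := fun t h => by
    by_contra! e
    refine h.2.2 (hρ (LinearEquiv.ext fun v => ?_))
    rw [n1]
    exact eq_neg_of_add_eq_zero_right (by_contra fun e' => e _ e' (by rw [map_add, ← mul, h.1, add_comm]; simp))
  have d4 : ∀ t, t * t = 1 ∧ t ≠ 1 ∧ t ≠ z → finrank (ZMod q) V = 2 * finrank (ZMod q) (C t) := fun t h => by
    have h' := i1 t h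
    obtain ⟨a, a0, ha⟩ := d3 t h
    obtain ⟨b, b0, hb⟩ := d3 _ h'
    have nt : t ≠ t * z := fun e => z1 (left_eq_mul.1 e)
    have v0 : a + b ≠ 0 := fun e => b0 (uq _ _ b h.2.1 h'.2.1 nt
      (by rw [eq_neg_of_add_eq_zero_right e, map_neg, ha]) hb)
    have hs := i2 _ v0
    have hs' := i1 _ hs
    have e0 := t2 _ v0
    have e1 : τ (a + b) ≠ t := fun e => b0 (uq _ _ b h.2.1 h'.2.1 nt (by rwa [e, map_add, ha, add_right_inj] at e0) hb)
    have e2 : τ (a + b) ≠ t * z := fun e =>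
      a0 (uq _ _ a h.2.1 h'.2.1 nt ha (by rwa [e, map_add, hb, add_left_inj] at e0))
    have := d1 _ _ hs.2.1 h.2.1 e1
    have := d1 _ _ hs.2.1 h'.2.1 e2
    have := d1 _ _ hs'.2.1 h.2.1 fun e => e2 (by rw [← e, zz])
    have := d1 _ _ hs'.2.1 h'.2.1 fun e => e1 (mul_right_cancel e)
    have := d2 _ h.1
    have := d2 _ hs.1
    have := d1 _ _ h.2.1 h'.2.1 nt
    omega
  have i3 : ∀ g, orderOf g = 2 ∧ g ∉ Subgroup.center G ↔ g * g = 1 ∧ g ≠ 1 ∧ g ≠ z := fun g =>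
    ⟨fun h => ⟨((sq g).1 h.1).1, ((sq g).1 h.1).2, fun e => h.2 (e ▸ hzc)⟩, fun h => ⟨(sq g).2 ⟨h.1, h.2.1⟩, fun e =>
      h.2.2 (hρ (LinearEquiv.ext fun v => ((neg g ((sq g).2 ⟨h.1, h.2.1⟩) e).1 v).trans (n1 v).symm))⟩⟩
  obtain ⟨v, hv⟩ := exists_ne (0 : V)
  obtain ⟨r, hr⟩ : ∃ r, finrank (ZMod q) V = 2 * r := ⟨_, d4 _ (i2 v hv)⟩
  have c1 : Nat.card V = q ^ (2 * r) := by rw [Module.natCard_eq_pow_finrank (K := ZMod q), hr, Nat.card_zmod]
  have cz : ∀ (W : Type _) [AddCommGroup W] [Finite W], Nat.card {w : W // w ≠ 0} = Nat.card W - 1 := fun W _ _ => by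
    cases nonempty_fintype W
    simp
  have := card_fib (fun v : {v : V // v ≠ 0} => (⟨τ v, (i3 _).2 (i2 _ v.2)⟩ : {g : G // orderOf g = 2 ∧ g ∉ Subgroup.center G}))
    (n := q ^ r - 1) fun ⟨t, ht⟩ => by
      have h := (i3 t).1 ht
      have e : finrank (ZMod q) (C t) = r := by have := d4 t h; omega
      rw [show q ^ r = Nat.card (C t) by rw [Module.natCard_eq_pow_finrank (K := ZMod q), e, Nat.card_zmod], ← cz]
      exact Nat.card_congr ⟨fun v => ⟨⟨v.1, (mC _ _).2 ((congrArg (fun s => ρ s v.1)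
        (show τ v.1 = t from congrArg Subtype.val v.2)).symm.trans (t2 _ v.1.2))⟩,
        fun e => v.1.2 (congrArg Subtype.val e)⟩, fun w => ⟨⟨w.1, fun e => w.2 (Subtype.ext e)⟩, Subtype.ext
          ((t3 _ (fun e => w.2 (Subtype.ext e)) t ((mC _ _).1 w.1.2)).resolve_left h.2.1).symm⟩, fun _ => rfl, fun _ => rfl⟩
  refine ⟨r, c1, ?_⟩
  have r0 : r ≠ 0 := by have := finrank_pos (R := ZMod q) (M := V); omega
  rw [cz, c1, mul_comm 2, pow_mul, ← one_pow 2, Nat.sq_sub_sq, one_pow] at this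
  exact (Nat.eq_of_mul_eq_mul_right (Nat.sub_pos_of_lt (Nat.one_lt_pow r0 (Fact.out : q.Prime).one_lt)) this).symm

end Cfsg.Agent.S3381
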