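import Cfsg.Statements.S3382
import Mathlib

set_option autoImplicit false
open Cfsg

namespace Cfsg.Agent.S3382

section abs
variable {G : Type*} [Group G] {φ : MulAut G} {r : ℕ}

theorem fix_of_pow (hr : Odd r) (h : φ ^ r = 1) {x : G} {k : ℕ} (hx : (φ ^ 2 ^ k) x = x) : φ x = x := by
  have h1 : φ ^ 2 ^ k ∈ MulAction.stabilizer (MulAut G) x := hx
  have h2 : φ ^ r ∈ MulAction.stabilizer (MulAut G) x := h ▸ one_mem _
  have h3 := mul_mem (zpow_mem h1 (Nat.gcdA (2 ^ k) r)) (zpow_mem h2 (Nat.gcdB (2 ^ k) r))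
  rwa [← zpow_natCast, ← zpow_natCast φ r, ← zpow_mul, ← zpow_mul, ← zpow_add, ← Nat.gcd_eq_gcd_ab,
    (Nat.coprime_two_left.2 hr).pow_left k, Nat.cast_one, zpow_one] at h3

theorem fix_of_mul (hr : Odd r) (h : φ ^ r = 1) {x y : G} {k : ℕ} (hx : φ x = x * y) (hy : φ y = y)
    (h2 : y ^ 2 ^ k = 1) : φ x = x := by
  have : ∀ n, (φ ^ n) x = x * y ^ n := fun n => by
    induction n with
    | zero => simp
    | succ n ih => rw [pow_succ', MulAut.mul_apply, ih, map_mul, hx, map_pow, hy, pow_succ', mul_assoc]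
  exact fix_of_pow hr h (k := k) (by rw [this, h2, mul_one])

theorem eq_one_of (hr : Odd r) (h : φ ^ r = 1) {k : ℕ} (hG : ∀ y : G, y ^ 2 ^ k = 1) (H : G → Prop)
    (h1 : ∀ x, H x → φ x = x) (h2 : ∀ x y, ¬ H x → ¬ H y → H (x⁻¹ * y)) : φ = 1 := by
  ext x
  by_cases hx : H x
  · exact h1 x hx
  · by_cases hx' : H (φ x)
    · exact φ.injective (h1 _ hx')
    · exact fix_of_mul hr h (mul_inv_cancel_left x _).symm (h1 _ (h2 _ _ hx hx')) (hG _)

theorem isP [Finite G] (h : ∀ (φ : MulAut G) (r : ℕ), Odd r → φ ^ r = 1 → φ = 1) : IsPGroup 2 (MulAut G) := fun φ => by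
  obtain ⟨k, r, hr, e⟩ := Nat.exists_eq_two_pow_mul_odd (orderOf_pos φ).ne'
  exact ⟨k, h _ r hr (by rw [← pow_mul, ← e, pow_orderOf_eq_one])⟩
end abs

theorem zm2 : ∀ a : ZMod 2, a ≠ 0 → a = 1 := by decide

section lin
variable {F : Type*} [Field F] {f g : (Fin 2 → F) ≃ₗ[F] (Fin 2 → F)} {a b c d : F}

def Dg (f : (Fin 2 → F) ≃ₗ[F] (Fin 2 → F)) (a b : F) : Prop := ∀ v, f v = ![a * v 0, b * v 1]
def An (f : (Fin 2 → F) ≃ₗ[F] (Fin 2 → F)) (a b : F) : Prop := ∀ v, f v = ![a * v 1, b * v 0]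

theorem Dg.mul (h : Dg f a b) (h' : Dg g c d) : Dg (f * g) (a * c) (b * d) := fun v => by
  rw [LinearEquiv.mul_apply, h', h]; simp [mul_assoc]
theorem Dg.mul' (h : Dg f a b) (h' : An g c d) : An (f * g) (a * c) (b * d) := fun v => by
  rw [LinearEquiv.mul_apply, h', h]; simp [mul_assoc]
theorem An.mul (h : An f a b) (h' : Dg g c d) : An (f * g) (a * d) (b * c) := fun v => by
  rw [LinearEquiv.mul_apply, h', h]; simp [mul_assoc]
theorem An.mul' (h : An f a b) (h' : An g c d) : Dg (f * g) (a * d) (b * c) := fun v => by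
  rw [LinearEquiv.mul_apply, h', h]; simp [mul_assoc]
theorem Dg.one : Dg (1 : (Fin 2 → F) ≃ₗ[F] (Fin 2 → F)) 1 1 := fun v => by
  ext i; fin_cases i <;> simp
theorem Dg.ext (h : Dg f a b) (h' : Dg g c d) (e : a = c) (e' : b = d) : f = g :=
  LinearEquiv.ext fun v => by rw [h, h', e, e']
theorem An.ext (h : An f a b) (h' : An g c d) (e : a = c) (e' : b = d) : f = g :=
  LinearEquiv.ext fun v => by rw [h, h', e, e']
theorem Dg.inj (h : Dg f a b) (h' : Dg f c d) : a = c ∧ b = d := by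
  have := (h ![1, 1]).symm.trans (h' _)
  simpa using this
theorem An.inj (h : An f a b) (h' : An f c d) : a = c ∧ b = d := by
  have := (h ![1, 1]).symm.trans (h' _)
  simpa using this
theorem Dg.not (h : Dg f a b) (h' : An f c d) : a = 0 := by
  have := congrFun ((h ![1, 0]).symm.trans (h' _)) 0
  simpa using this
theorem Dg.pow (h : Dg f a b) (n : ℕ) : Dg (f ^ n) (a ^ n) (b ^ n) := by
  induction n with
  | zero => simpa using Dg.one
  | succ n ih => simpa only [pow_succ] using ih.mul h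

theorem exists_Dg (ha : a ≠ 0) (hb : b ≠ 0) : ∃ f, Dg f a b :=
  ⟨LinearEquiv.piCongrRight fun i => LinearEquiv.smulOfUnit (![Units.mk0 a ha, Units.mk0 b hb] i), fun v => by
    ext i; fin_cases i <;> simp [LinearEquiv.smulOfUnit, Units.smul_def]⟩

theorem exists_An : ∃ f : (Fin 2 → F) ≃ₗ[F] (Fin 2 → F), An f 1 1 :=
  ⟨LinearEquiv.funCongrLeft F F (Equiv.swap 0 1), fun v => by ext i; fin_cases i <;> simp⟩
end lin

/-- Let q = 2^m + 1 be a prime other than 5. Then the automorphism group of the group of linear maps of F_q² of the forms (x, y) ↦ (a x, ± a⁻¹ y) and (x, y) ↦ (± a⁻¹ y, a x) with a ≠ 0 is itself a 2-group. -/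
theorem result (q m : ℕ) [Fact q.Prime] (hq : q = 2 ^ m + 1) (hq5 : q ≠ 5)
    (T : Subgroup ((Fin 2 → ZMod q) ≃ₗ[ZMod q] (Fin 2 → ZMod q)))
    (hT : ∀ f, f ∈ T ↔ ∃ a s : ZMod q, a ≠ 0 ∧ (s = 1 ∨ s = -1) ∧
      ((∀ v, f v = ![a * v 0, s * a⁻¹ * v 1]) ∨ (∀ v, f v = ![s * a⁻¹ * v 1, a * v 0]))) :
    IsPGroup 2 (MulAut T) := by
  have hp : q.Prime := Fact.out
  have hT' : ∀ f : T, ∃ a s : ZMod q, a ≠ 0 ∧ (s = 1 ∨ s = -1) ∧ (Dg f.1 a (s * a⁻¹) ∨ An f.1 (s * a⁻¹) a) :=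
    fun f => (hT f).1 f.2
  have hpow : ∀ a : ZMod q, a ≠ 0 → a ^ 2 ^ m = 1 := fun a ha => by
    have := ZMod.pow_card_sub_one_eq_one ha
    rwa [Nat.sub_eq_of_eq_add hq] at this
  have hs : ∀ s : ZMod q, s = 1 ∨ s = -1 → s * s = 1 := by rintro s (rfl | rfl) <;> simp
  have hG : ∀ y : T, y ^ 2 ^ (m + 2) = 1 := fun y => by
    obtain ⟨a, s, ha, h1, h | h⟩ := hT' y
    · refine Subtype.ext ((h.pow _).ext Dg.one ?_ ?_)
      · rw [pow_add, pow_mul, hpow a ha, one_pow]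
      · rw [mul_pow, pow_succ' 2, pow_mul, sq, hs s h1, one_pow, inv_pow, pow_mul', pow_succ 2, pow_mul, hpow a ha]; simp
    · rw [pow_succ' 2, pow_mul, pow_succ' 2, pow_mul, sq y]
      have : (y * y) ^ 2 = 1 := Subtype.ext (((h.mul' h).pow 2).ext Dg.one (by
        rw [inv_mul_cancel_right₀ ha, sq, hs s h1]) (by rw [mul_left_comm, mul_inv_cancel₀ ha, mul_one, sq, hs s h1]))
      rw [this, one_pow]
  have : Finite T := Finite.of_injective (fun f : T => (f.1 : (Fin 2 → ZMod q) → Fin 2 → ZMod q))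
    fun f g e => Subtype.ext (DFunLike.coe_injective e)
  have hinv : ∀ x : T, x⁻¹ = x ^ (2 ^ (m + 2) - 1) := fun x => by
    rw [inv_eq_iff_mul_eq_one, ← pow_succ', Nat.sub_add_cancel Nat.one_le_two_pow, hG]
  refine isP fun φ r hr h => ?_
  obtain ⟨w, hw⟩ := exists_An (F := ZMod q)
  have wT : w ∈ T := (hT w).2 ⟨1, 1, one_ne_zero, .inl rfl, .inr (by simpa [An] using hw)⟩
  obtain ⟨z, hz⟩ := exists_Dg (F := ZMod q) (neg_ne_zero.2 one_ne_zero) (neg_ne_zero.2 one_ne_zero)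
  have zT : z ∈ T := (hT z).2 ⟨-1, 1, by simp, .inl rfl, .inl (by simpa [Dg] using hz)⟩
  have hzz : (⟨z, zT⟩ : T) ^ 2 ^ 1 = 1 := Subtype.ext ((hz.pow _).ext Dg.one (by simp) (by simp))
  have hA : ∀ x y : T, ∀ a b c d, An x.1 a b → An y.1 c d → a ≠ 0 → b ≠ 0 → Dg (x⁻¹ * y).1 (b⁻¹ * d) (a⁻¹ * c) :=
    fun x y a b c d hx hy ha hb => by
      obtain ⟨a', s, ha', h1, h | h⟩ := hT' (x⁻¹ * y)
      · have := (hx.mul h).inj (by rwa [← Subgroup.coe_mul, mul_inv_cancel_left])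
        rwa [← this.1, ← this.2, inv_mul_cancel_left₀ ha, inv_mul_cancel_left₀ hb]
      · exact (mul_ne_zero ha ha' ((hx.mul' h).not (c := c) (d := d) (by rwa [← Subgroup.coe_mul, mul_inv_cancel_left]))).elim
  by_cases h2 : (1 : ZMod q) = -1
  · refine eq_one_of hr h hG (· = 1) (by rintro _ rfl; exact map_one _) fun x y hx hy => ?_
    have h3 : ∀ a : ZMod q, a ≠ 0 → a = 1 := fun a ha => by
      have : q ∣ 2 := (ZMod.natCast_eq_zero_iff 2 q).1 (by push_cast; linear_combination h2)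
      obtain rfl := (Nat.prime_dvd_prime_iff_eq hp Nat.prime_two).1 this
      exact zm2 a ha
    have h4 : ∀ x : T, x ≠ 1 → An x.1 1 1 := fun x hx => by
      obtain ⟨a, s, ha, h1, h⟩ := hT' x
      rw [h3 a ha, h3 s (by rcases h1 with rfl | rfl <;> simp), inv_one, mul_one] at h
      exact h.resolve_left fun h => hx (Subtype.ext (h.ext Dg.one rfl rfl))
    rw [Subtype.ext ((h4 x hx).ext (h4 y hy) rfl rfl), inv_mul_cancel]
  have hzc : ∀ x : T, x * ⟨z, zT⟩ = ⟨z, zT⟩ * x := fun x => by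
    obtain ⟨a, s, ha, h1, h | h⟩ := hT' x
    exacts [Subtype.ext ((h.mul hz).ext (hz.mul h) (mul_comm _ _) (mul_comm _ _)),
      Subtype.ext ((h.mul hz).ext (hz.mul' h) (mul_comm _ _) (mul_comm _ _))]
  obtain ⟨e, he⟩ := exists_Dg (F := ZMod q) one_ne_zero (neg_ne_zero.2 one_ne_zero)
  have eT : e ∈ T := (hT e).2 ⟨1, -1, by simp, .inr rfl, .inl (by simpa [Dg] using he)⟩
  have z1 : (⟨z, zT⟩ : T) ≠ 1 := fun h => h2 (Dg.one.inj (show Dg 1 _ _ from (show z = 1 from congrArg Subtype.val h) ▸ hz)).1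
  have hfz : φ ⟨z, zT⟩ = ⟨z, zT⟩ := by
    have h3 : ∀ x, x * φ ⟨z, zT⟩ = φ ⟨z, zT⟩ * x := fun x => by
      obtain ⟨x, rfl⟩ := φ.surjective x
      rw [← map_mul, hzc, map_mul]
    have h4 : φ ⟨z, zT⟩ ^ 2 ^ 1 = 1 := by rw [← map_pow, hzz, map_one]
    obtain ⟨a, s, ha, h1, h5 | h5⟩ := hT' (φ ⟨z, zT⟩)
    · have h6 := ((hw.mul h5).inj (by rw [show w * _ = _ from congrArg Subtype.val (h3 ⟨w, wT⟩)]; exact h5.mul' hw)).1
      have h7 := ((h5.pow _).inj (show Dg _ 1 1 by rw [← Subgroup.coe_pow, h4]; exact Dg.one)).1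
      rw [one_mul, mul_one] at h6
      rw [h6] at h5
      rcases sq_eq_one_iff.1 h7 with rfl | rfl
      · exact (z1 (φ.injective ((Subtype.ext (h5.ext Dg.one rfl rfl)).trans (map_one _).symm))).elim
      · exact Subtype.ext (h5.ext hz rfl rfl)
    · have h6 := ((he.mul' h5).inj (by rw [show e * _ = _ from congrArg Subtype.val (h3 ⟨e, eT⟩)]; exact h5.mul he)).2
      exact (h2 (mul_left_cancel₀ ha (by linear_combination -h6))).elim
  by_cases h3 : ∀ a : ZMod q, a ≠ 0 → a * a = 1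
  · have h4 : ∀ a : ZMod q, a ≠ 0 → a⁻¹ = a := fun a ha => inv_eq_of_mul_eq_one_right (h3 a ha)
    have h5 : ∀ x : T, x * x ≠ 1 ↔ ∃ a, a ≠ 0 ∧ An x.1 (-a) a := fun x => by
      obtain ⟨a, s, ha, h1, h⟩ := hT' x
      rw [h4 a ha] at h
      refine ⟨fun hx => ?_, ?_⟩
      · rcases h with h | h
        · exact (hx (Subtype.ext ((h.mul h).ext Dg.one (h3 a ha) (by
            linear_combination (a * a) * hs s h1 + h3 a ha)))).elim
        · rcases h1 with rfl | rfl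
          · exact (hx (Subtype.ext ((h.mul' h).ext Dg.one (by simpa using h3 a ha) (by simpa using h3 a ha)))).elim
          · exact ⟨a, ha, by simpa using h⟩
      · rintro ⟨b, hb, h⟩ hx
        have := ((h.mul' h).inj (show Dg _ 1 1 by rw [← Subgroup.coe_mul, hx]; exact Dg.one)).1
        exact h2 (by linear_combination -this - h3 b hb)
    refine eq_one_of hr h hG (fun x => ∃ a, a ≠ 0 ∧ (Dg x.1 a a ∨ An x.1 (-a) a)) ?_ fun x y hx hy => ?_
    · rintro x ⟨a, ha, hx | hx⟩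
      · rcases mul_self_eq_one_iff.1 (h3 a ha) with rfl | rfl
        · rw [show x = 1 from Subtype.ext (hx.ext Dg.one rfl rfl), map_one]
        · rw [show x = ⟨z, zT⟩ from Subtype.ext (hx.ext hz rfl rfl), hfz]
      · obtain ⟨b, hb, h6⟩ := (h5 (φ x)).1 (by rw [← map_mul, Ne, map_eq_one_iff _ φ.injective]; exact (h5 x).2 ⟨a, ha, hx⟩)
        rcases mul_self_eq_mul_self_iff.1 ((h3 b hb).trans (h3 a ha).symm) with rfl | rfl
        · exact Subtype.ext (h6.ext hx rfl rfl)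
        · exact fix_of_mul hr h (Subtype.ext (h6.ext (hx.mul hz) (by ring) (by ring))) hfz hzz
    · have h6 : ∀ x : T, (¬ ∃ a, a ≠ 0 ∧ (Dg x.1 a a ∨ An x.1 (-a) a)) → ∃ a, a ≠ 0 ∧ (Dg x.1 a (-a) ∨ An x.1 a a) :=
        fun x hx => by
          obtain ⟨a, s, ha, rfl | rfl, h | h⟩ := hT' x <;> rw [h4 a ha] at h <;> simp only [one_mul, neg_mul] at h
          exacts [(hx ⟨a, ha, .inl h⟩).elim, ⟨a, ha, .inr h⟩, ⟨a, ha, .inl h⟩, (hx ⟨a, ha, .inr h⟩).elim]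
      have h7 : x⁻¹ = x := inv_eq_of_mul_eq_one_right (not_not.1 fun h => by
        obtain ⟨a, ha, h⟩ := (h5 x).1 h
        exact hx ⟨a, ha, .inr h⟩)
      rw [h7]
      obtain ⟨a, ha, hx | hx⟩ := h6 x hx <;> obtain ⟨b, hb, hy | hy⟩ := h6 y hy
      · exact ⟨_, mul_ne_zero ha hb, .inl (by simpa using hx.mul hy)⟩
      · exact ⟨_, neg_ne_zero.2 (mul_ne_zero ha hb), .inr (by simpa using hx.mul' hy)⟩
      · exact ⟨_, mul_ne_zero ha hb, .inr (by simpa using hx.mul hy)⟩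
      · exact ⟨_, mul_ne_zero ha hb, .inl (hx.mul' hy)⟩
  obtain ⟨g, g0, hg⟩ : ∃ g : ZMod q, g ≠ 0 ∧ g ^ 4 ≠ 1 := by
    obtain ⟨g, hg⟩ := IsCyclic.exists_ofOrder_eq_natCard (α := (ZMod q)ˣ)
    rw [Nat.card_units, Nat.card_zmod] at hg
    refine ⟨g, g.ne_zero, fun h4 => ?_⟩
    have h5 : orderOf g ∣ 2 ^ 2 := orderOf_dvd_of_pow_eq_one (Units.ext (by simpa using h4))
    rw [hg, Nat.sub_eq_of_eq_add hq, Nat.pow_dvd_pow_iff_le_right one_lt_two] at h5
    refine h3 fun a ha => ?_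
    have := hpow a ha
    interval_cases m
    · rw [pow_zero, pow_one] at this; rw [this, one_mul]
    · rwa [← sq]
    · exact (hq5 hq).elim
  obtain ⟨d, hd⟩ := exists_Dg g0 (inv_ne_zero g0)
  have dT : d ∈ T := (hT d).2 ⟨g, 1, g0, .inl rfl, .inl (by simpa [Dg] using hd)⟩
  have hD : ∀ x : T, (∃ a b, a ≠ 0 ∧ Dg x.1 a b) ↔ ∀ y : T, x * (y * y) = y * y * x := fun x => by
    refine ⟨fun ⟨a, b, _, hx⟩ y => ?_, fun hx => ?_⟩
    · obtain ⟨c, s, -, -, h | h⟩ := hT' y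
      exacts [Subtype.ext ((hx.mul (h.mul h)).ext ((h.mul h).mul hx) (mul_comm _ _) (mul_comm _ _)),
        Subtype.ext ((hx.mul (h.mul' h)).ext ((h.mul' h).mul hx) (mul_comm _ _) (mul_comm _ _))]
    · obtain ⟨a, s, ha, -, h | h⟩ := hT' x
      · exact ⟨_, _, ha, h⟩
      · have := ((h.mul (hd.mul hd)).inj (by
          rw [show x.1 * (d * d) = _ from congrArg Subtype.val (hx ⟨d, dT⟩)]; exact (hd.mul hd).mul' h)).2
        refine (hg (mul_left_cancel₀ ha ?_)).elim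
        field_simp at this
        linear_combination a * this
  have hφ : ∀ x : T, (∃ a b, a ≠ 0 ∧ Dg x.1 a b) → ∃ a b, a ≠ 0 ∧ Dg (φ x).1 a b := fun x hx => (hD _).2 fun y => by
    obtain ⟨y, rfl⟩ := φ.surjective y
    rw [← map_mul, ← map_mul, (hD x).1 hx, map_mul, map_mul]
  have h4 : ∀ x : T, ∀ a b, Dg x.1 a b → x * x = 1 → x = 1 ∨ x = ⟨z, zT⟩ ∨ x = ⟨e, eT⟩ ∨ x = ⟨e, eT⟩ * ⟨z, zT⟩ :=
    fun x a b hx h1 => by
      have := (hx.mul hx).inj (show Dg _ 1 1 by rw [← Subgroup.coe_mul, h1]; exact Dg.one)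
      rcases mul_self_eq_one_iff.1 this.1 with rfl | rfl <;> rcases mul_self_eq_one_iff.1 this.2 with rfl | rfl
      exacts [.inl (Subtype.ext (hx.ext Dg.one rfl rfl)), .inr (.inr (.inl (Subtype.ext (hx.ext he rfl rfl)))),
        .inr (.inr (.inr (Subtype.ext (hx.ext (he.mul hz) (by simp) (by simp))))), .inr (.inl (Subtype.ext (hx.ext hz rfl rfl)))]
  have hfe : φ ⟨e, eT⟩ = ⟨e, eT⟩ := by
    obtain ⟨a, b, -, h5⟩ := hφ ⟨e, eT⟩ ⟨_, _, one_ne_zero, he⟩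
    rcases h4 _ a b h5 (by rw [← map_mul, show (⟨e, eT⟩ * ⟨e, eT⟩ : T) = 1 from
      Subtype.ext ((he.mul he).ext Dg.one (by simp) (by simp)), map_one]) with h6 | h6 | h6 | h6
    · exact (h2 (Dg.one.inj (show Dg 1 _ _ from (show e = 1 from congrArg Subtype.val ((map_eq_one_iff _ φ.injective).1 h6)) ▸ he)).2).elim
    · exact (h2 (he.inj (show Dg e _ _ from (show z = e from (congrArg Subtype.val (φ.injective (h6.trans hfz.symm))).symm) ▸ hz)).1).elim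
    · exact h6
    · exact fix_of_mul hr h h6 hfz hzz
  have h5 : ∀ k, ∀ x : T, (∃ a b, a ≠ 0 ∧ Dg x.1 a b) → x ^ 2 ^ k = 1 → φ x = x := fun k => by
    induction k with
    | zero => intro x _ hx; rw [pow_zero, pow_one] at hx; rw [hx, map_one]
    | succ k ih =>
      rintro x ⟨a, b, ha, hx⟩ hk
      have h6 := ih (x * x) ⟨_, _, mul_ne_zero ha ha, hx.mul hx⟩ (by rwa [← sq, ← pow_mul, ← pow_succ'])
      obtain ⟨c, d, hc, h7⟩ := hφ x ⟨a, b, ha, hx⟩
      have h8 : Commute x (φ x) := Subtype.ext ((hx.mul h7).ext (h7.mul hx) (mul_comm _ _) (mul_comm _ _))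
      have h9 : x⁻¹ * φ x * (x⁻¹ * φ x) = 1 := by
        rw [← sq, h8.inv_left.mul_pow, sq, sq, ← map_mul, h6]; group
      refine fix_of_mul hr h (mul_inv_cancel_left x _).symm ?_ (hG _)
      rcases h4 _ _ _ (by rw [hinv]; exact (hx.pow _).mul h7) h9 with h | h | h | h <;> rw [h]
      exacts [map_one _, hfz, hfe, by rw [map_mul, hfz, hfe]]
  refine eq_one_of hr h hG _ (fun x hx => h5 _ x hx (hG x)) fun x y hx hy => ?_
  obtain ⟨a, s, ha, h1, h6⟩ := hT' x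
  obtain ⟨b, t, hb, -, h7⟩ := hT' y
  exact ⟨_, _, mul_ne_zero (inv_ne_zero ha) hb, hA x y _ _ _ _ (h6.resolve_left fun h => hx ⟨_, _, ha, h⟩)
    (h7.resolve_left fun h => hy ⟨_, _, hb, h⟩) (mul_ne_zero (by rcases h1 with rfl | rfl <;> simp) (inv_ne_zero ha)) ha⟩

end Cfsg.Agent.S3382
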