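import Cfsg.Statements.S3383
import Mathlib
import Cfsg.Agent.Lib.Grp.Frob

set_option autoImplicit false
open Cfsg

namespace Cfsg.Agent.S3383

/-- Let H be a Frobenius complement in a finite group L and K the Frobenius kernel (as a subgroup). Then K is characteristic in L, and every normal subgroup of L either contains K or is contained in K. -/
theorem result {L : Type*} [Group L] [Finite L]
    (H : Subgroup L) (hH : Cfsg.IsFrobeniusComplement H)
    (K : Subgroup L) (hK : (K : Set L) = Cfsg.frobeniusKernel H) :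
    K.Characteristic ∧ ∀ N : Subgroup L, N.Normal → K ≤ N ∨ N ≤ K := by
  have mem : ∀ x, x ∈ K ↔ x ∈ Cfsg.frobeniusKernel H := fun x => by rw [← hK]; rfl
  have hn : K.Normal := ⟨fun x hx g => (mem _).2 (CA.Frob.conj_mem_kernel ((mem x).1 hx) g)⟩
  have key : ∀ N : Subgroup L, N.Normal → K ≤ N ∨ N ≤ K := by
    intro N hN
    refine or_iff_not_imp_right.2 fun h => ?_
    obtain ⟨x, hx, hxK⟩ := SetLike.not_le_iff_exists.1 h
    let F : K → K := fun k => ⟨k * (x * (k : L)⁻¹ * x⁻¹), K.mul_mem k.2 (hn.conj_mem _ (K.inv_mem k.2) x)⟩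
    have hF : Function.Injective F := by
      intro a b e
      have e1 : (a : L) * (x * (a : L)⁻¹ * x⁻¹) = b * (x * (b : L)⁻¹ * x⁻¹) := congrArg Subtype.val e
      by_contra hne
      have h1 : ((b : L)⁻¹ * a) ≠ 1 := fun h => hne (Subtype.ext (inv_mul_eq_one.1 h).symm)
      refine hxK ((mem x).2 (CA.Frob.mem_kernel_of_commute hH ((mem _).1
        (K.mul_mem (K.inv_mem b.2) a.2)) h1 ?_))
      calc (b : L)⁻¹ * a * x = (b : L)⁻¹ * (a * (x * (a : L)⁻¹ * x⁻¹)) * x * a := by group
        _ = x * ((b : L)⁻¹ * a) := by rw [e1]; group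
    intro k hk
    obtain ⟨a, ha⟩ := Finite.surjective_of_injective hF ⟨k, hk⟩
    have e : (a : L) * (x * (a : L)⁻¹ * x⁻¹) = k := congrArg Subtype.val ha
    rw [← e, show (a : L) * (x * (a : L)⁻¹ * x⁻¹) = (a * x * (a : L)⁻¹) * x⁻¹ by group]
    exact N.mul_mem (hN.conj_mem x hx a) (N.inv_mem hx)
  refine ⟨Subgroup.characteristic_iff_map_eq.2 fun φ => ?_, key⟩
  have hc : Nat.card (K.map φ.toMonoidHom) = Nat.card K :=
    Subgroup.card_map_of_injective φ.injective
  rcases key (K.map φ.toMonoidHom) (hn.map _ φ.surjective) with h | h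
  · exact (Subgroup.eq_of_le_of_card_ge h hc.le).symm
  · exact Subgroup.eq_of_le_of_card_ge h hc.ge

end Cfsg.Agent.S3383
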