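import Cfsg.Statements.S3419
import Cfsg.Agent.Lib.Loc.SpecAn

set_option autoImplicit false
open Cfsg

namespace Cfsg.Agent.S3419

open CA.SpecAn

/-- Let n ≥ 5 and let G be a finite group with the same order and the same set of element orders as the alternating group of degree n. Then G is not solvable. -/
theorem result {G : Type*} [Group G] [Finite G] (n : ℕ) (hn : 5 ≤ n)
    (hcard : Nat.card G = Nat.card ↥(alternatingGroup (Fin n)))
    (hspec : Set.range (orderOf : G → ℕ) = Set.range (orderOf : ↥(alternatingGroup (Fin n)) → ℕ)) :
    ¬ Group.IsSolvable G := by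
  intro hs
  have hc := card_two (by omega) hcard
  have key : (∃ p q : ℕ, p.Prime ∧ q.Prime ∧ p < q ∧ n < 2 * p ∧ q ≤ n) → False := fun h => by
    obtain ⟨N, H, a, b, c, d, e, f⟩ := main hn hcard hspec h
    exact e ⟨⟨IsSimpleGroup.comm_iff_isSolvable.2 inferInstance⟩⟩
  rcases le_or_gt 11 n with h | h
  · exact key (two_primes h)
  by_cases h5 : n = 5
  · exact key ⟨3, 5, by norm_num, by norm_num, by omega, by omega, by omega⟩
  by_cases h6 : n = 6
  · subst h6
    have e : Nat.card G = 360 := by simp only [Nat.factorial] at hc; omega
    obtain ⟨g, hg⟩ := solv_pq hs (p := 5) (q := 3) (by norm_num) (by norm_num) (by norm_num) (by norm_num [e])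
      (by norm_num [e]) (by norm_num [e]) (by norm_num [e]) (by norm_num) (by norm_num) (by norm_num)
    exact no_pq hspec (by norm_num) (by norm_num) (by norm_num) (by norm_num) g hg
  by_cases h10 : n = 10
  · subst h10
    have e : Nat.card G = 1814400 := by simp only [Nat.factorial] at hc; omega
    obtain ⟨g, hg⟩ := solv_pq hs (p := 7) (q := 5) (by norm_num) (by norm_num) (by norm_num) (by norm_num [e])
      (by norm_num [e]) (by norm_num [e]) (by norm_num [e]) (by norm_num) (by norm_num) (by norm_num)
    exact no_pq hspec (by norm_num) (by norm_num) (by norm_num) (by norm_num) g hg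
  exact key ⟨5, 7, by norm_num, by norm_num, by omega, by omega, by omega⟩

end Cfsg.Agent.S3419
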