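import Cfsg.Statements.S3430
import Cfsg.Agent.Lib.Grp.H7Zsig

set_option autoImplicit false
open Cfsg

namespace Cfsg.Agent.S3430

/-- Let q, n ≥ 2 be integers. Unless (n = 2 and q + 1 = 2^s·3^t for some s ≥ 0 and t ≤ 1), or (q = 2 and n ∈ {4, 6, 10, 12, 18}), or (q = 3 and n ∈ {4, 6}), or (q, n) = (5, 6), there is a prime p dividing q^n − 1 but no q^i − 1 with 1 ≤ i < n (a primitive prime divisor), such that p > n + 1 or p² divides q^n − 1. -/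
theorem result (q n : ℕ) (hq : 2 ≤ q) (hn : 2 ≤ n)
    (h1 : ¬ (n = 2 ∧ ∃ s t : ℕ, t ≤ 1 ∧ q + 1 = 2 ^ s * 3 ^ t))
    (h2 : ¬ (q = 2 ∧ (n = 4 ∨ n = 6 ∨ n = 10 ∨ n = 12 ∨ n = 18)))
    (h3 : ¬ (q = 3 ∧ (n = 4 ∨ n = 6))) (h4 : ¬ (q = 5 ∧ n = 6)) :
    ∃ p : ℕ, p.Prime ∧ p ∣ q ^ n - 1 ∧ (∀ i : ℕ, 1 ≤ i → i < n → ¬ p ∣ q ^ i - 1) ∧ (n + 1 < p ∨ p ^ 2 ∣ q ^ n - 1) := by
  rcases hn.eq_or_lt with rfl | hn3
  · obtain ⟨s, m, hm, e1⟩ := Nat.exists_eq_pow_mul_and_not_dvd (n := q + 1) (by omega) 2 (by norm_num)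
    have hm0 : m ≠ 0 := by rintro rfl; simp at hm
    obtain ⟨t, k, hk, e2⟩ := Nat.exists_eq_pow_mul_and_not_dvd hm0 3 (by norm_num)
    have hd : q + 1 ∣ q ^ 2 - 1 := ⟨q - 1, by rw [← Nat.sq_sub_sq q 1]⟩
    have hprim : ∀ p : ℕ, p.Prime → p ≠ 2 → p ∣ q + 1 → ∀ i : ℕ, 1 ≤ i → i < 2 → ¬ p ∣ q ^ i - 1 := by
      intro p hp hp2 h i hi1 hi2 h'
      obtain rfl : i = 1 := by omega
      have := Nat.dvd_sub h h'
      rw [pow_one, show q + 1 - (q - 1) = 2 by omega] at this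
      exact hp2 ((Nat.prime_dvd_prime_iff_eq hp Nat.prime_two).1 this)
    by_cases hk1 : k = 1
    · have ht : 2 ≤ t := by
        by_contra ht
        exact h1 ⟨rfl, s, t, by omega, by rw [e1, e2, hk1, mul_one]⟩
      have h9 : 3 ^ 2 ∣ q + 1 := by
        rw [e1, e2]; exact ((pow_dvd_pow 3 ht).mul_right _).mul_left _
      exact ⟨3, Nat.prime_three, ((Dvd.intro 3 rfl).trans h9).trans hd,
        hprim 3 Nat.prime_three (by norm_num) ((Dvd.intro 3 rfl).trans h9), Or.inr (h9.trans hd)⟩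
    · obtain ⟨p, hp, hpk⟩ := Nat.exists_prime_and_dvd hk1
      have hpm : p ∣ m := e2 ▸ hpk.mul_left _
      have hp2 : p ≠ 2 := by rintro rfl; exact hm hpm
      have hp3 : p ≠ 3 := by rintro rfl; exact hk hpk
      have hpq : p ∣ q + 1 := e1 ▸ hpm.mul_left _
      exact ⟨p, hp, hpq.trans hd, hprim p hp hp2 hpq, Or.inl (by have := hp.two_le; omega)⟩
  by_cases he : (q, n) ∈ CA.H7Zsig.exc
  · simp only [CA.H7Zsig.exc, List.mem_cons, Prod.mk.injEq, List.not_mem_nil, or_false] at he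
    rcases he with ⟨rfl, rfl⟩ | ⟨rfl, rfl⟩ | ⟨rfl, rfl⟩ | ⟨rfl, rfl⟩ | ⟨rfl, rfl⟩ | ⟨rfl, rfl⟩ | ⟨rfl, rfl⟩ |
      ⟨rfl, rfl⟩ | ⟨rfl, rfl⟩ | ⟨rfl, rfl⟩ | ⟨rfl, rfl⟩ | ⟨rfl, rfl⟩ | ⟨rfl, rfl⟩
    iterate 8 (exfalso; simp at h2 h3 h4)
    · exact ⟨7, by norm_num, by norm_num, fun i h1 h2 => by interval_cases i <;> norm_num, by norm_num⟩
    · exact ⟨17, by norm_num, by norm_num, fun i h1 h2 => by interval_cases i <;> norm_num, by norm_num⟩
    · exact ⟨41, by norm_num, by norm_num, fun i h1 h2 => by interval_cases i <;> norm_num, by norm_num⟩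
    · exact ⟨7, by norm_num, by norm_num, fun i h1 h2 => by interval_cases i <;> norm_num, by norm_num⟩
    · exact ⟨13, by norm_num, by norm_num, fun i h1 h2 => by interval_cases i <;> norm_num, by norm_num⟩
  obtain ⟨m, hm, hc, hle⟩ := CA.H7Zsig.main hn3 hq he
  have hprim : ∀ p : ℕ, p.Prime → p ∣ m → ∀ i : ℕ, 1 ≤ i → i < n → ¬ p ∣ q ^ i - 1 :=
    fun p hp h i h1 h2 h' => hp.one_lt.ne' (Nat.eq_one_of_dvd_coprimes (hc i h1 h2) h h')
  by_contra hcon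
  push Not at hcon
  have hall : ∀ {p : ℕ}, p.Prime → p ∣ m → p = n + 1 := fun {p} hp h => by
    have h1 := (hcon p hp (h.trans hm) (hprim p hp h)).1
    have h2 := Nat.le_of_dvd (by have := hp.two_le; omega)
      (CA.H7Zsig.prim_modEq hp hq (by omega) (h.trans hm) (hprim p hp h))
    have := hp.two_le
    omega
  have hpow := Nat.eq_prime_pow_of_unique_prime_dvd (n := m) (p := n + 1) (by omega) hall
  set e := m.primeFactorsList.length
  have he2 : 2 ≤ e := by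
    by_contra h
    have : (n + 1) ^ e ≤ (n + 1) ^ 1 := Nat.pow_le_pow_right (by omega) (by omega)
    rw [pow_one] at this
    omega
  obtain ⟨p, hp, hpm⟩ := Nat.exists_prime_and_dvd (n := m) (by omega)
  refine (hcon p hp (hpm.trans hm) (hprim p hp hpm)).2 (Dvd.dvd.trans ?_ hm)
  rw [hpow, hall hp hpm]
  exact pow_dvd_pow _ he2

end Cfsg.Agent.S3430
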