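import Cfsg.Statements.S3431
import Cfsg.Agent.Lib.Grp.H8Nse2

set_option autoImplicit false
open Cfsg

namespace Cfsg.Agent.S3431

open CA.H8Nse CA.H8Ord

theorem card_alt (n c : ℕ) (h : 1 < n ∧ n.factorial / 2 = c := by decide) :
    Nat.card (alternatingGroup (Fin n)) = c := by
  haveI := Fin.nontrivial_iff_two_le.2 h.1
  rw [nat_card_alternatingGroup, Nat.card_fin, h.2]

theorem l4 : [1, 2, 3].map (ss (alternatingGroup (Fin 4))) = [1, 3, 8] := by
  simp only [List.map, ss_one, ss_alt 4 2 3, ss_alt 4 3 8]

theorem l5 : [1, 2, 3, 5].map (ss (alternatingGroup (Fin 5))) = [1, 15, 20, 24] := by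
  simp only [List.map, ss_one, ss_alt 5 2 15, ss_alt 5 3 20, ss_alt 5 5 24]

theorem l6 : [1, 2, 3, 4, 5].map (ss (alternatingGroup (Fin 6))) = [1, 45, 80, 90, 144] := by
  simp only [List.map, ss_one, ss_alt 6 2 45, ss_alt 6 3 80, ss_alt 6 4 90, ss_alt 6 5 144]


/-- Let n be 4, 5 or 6 and let G be a finite group whose set of sizes of same-order classes (the set of numbers #{g : o(g) = m} over the element orders m of G) equals that of the alternating group of degree n. Then G is isomorphic to that alternating group. -/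
theorem result {G : Type*} [Group G] [Finite G] (n : ℕ) (hn : n = 4 ∨ n = 5 ∨ n = 6)
    (h : ((fun m : ℕ => Nat.card {g : G // orderOf g = m}) '' Set.range (orderOf : G → ℕ)) = ((fun m : ℕ => Nat.card {g : ↥(alternatingGroup (Fin n)) // orderOf g = m}) '' Set.range (orderOf : ↥(alternatingGroup (Fin n)) → ℕ))) :
    Nonempty (G ≃* ↥(alternatingGroup (Fin n))) := by
  rcases hn with rfl | rfl | rfl
  · have := vals [1, 2, 3] (by decide) (by rw [l4, card_alt 4 12]; rfl) h
    rw [l4] at this
    exact a4 this.1 this.2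
  · have := vals [1, 2, 3, 5] (by decide) (by rw [l5, card_alt 5 60]; rfl) h
    rw [l5] at this
    exact a5 this.1 this.2
  · have := vals [1, 2, 3, 4, 5] (by decide) (by rw [l6, card_alt 6 360]; rfl) h
    rw [l6] at this
    exact a6 this.1 this.2

end Cfsg.Agent.S3431
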