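import Cfsg.Statements.S3704
import Mathlib
import Cfsg.Agent.Lib.Perm.PermChar

set_option autoImplicit false
open Cfsg

namespace Cfsg.Agent.S3704

open MulAction CA.PermChar CA.PermBasic

/-- Let G be a finite group acting faithfully and 2-transitively on a finite set Ω of size n, and let H be a subgroup of index n in G which is not transitive on Ω and fixes no point of Ω. Then H has exactly two orbits on Ω. -/
theorem result {G Ω : Type*} [Group G] [Finite G] [MulAction G Ω] [FaithfulSMul G Ω] [Finite Ω] (h2 : MulAction.IsMultiplyPretransitive G Ω 2) (H : Subgroup G) (hidx : H.index = Nat.card Ω) (hnt : ¬ MulAction.IsPretransitive H Ω) (hfix : ∀ a : Ω, ∃ h : H, h • a ≠ a) : Nat.card (MulAction.orbitRel.Quotient H Ω) = 2 := by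
  have := Fintype.ofFinite G
  have : Nontrivial Ω := by
    by_contra h
    rw [not_nontrivial_iff_subsingleton] at h
    exact hnt ⟨fun a b => ⟨1, Subsingleton.elim _ _⟩⟩
  have hX : 1 < Nat.card Ω := Finite.one_lt_card
  have : IsPretransitive G Ω := is_one_pretransitive_iff.1 (mpt_of_le h2 (by norm_num) hX)
  have h1 := card_orbits_prod (G := G) ((1 : G) : G ⧸ H) Ω
  rw [stabilizer_quotient] at h1
  have h3 := pc_eq_of_two h2 (G ⧸ H) hidx (by
    rw [h1]
    exact fun h => hnt ((pretransitive_iff_subsingleton_quotient _ _).2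
      (Nat.card_eq_one_iff_unique.1 h).1))
  obtain ⟨o⟩ : Nonempty Ω := inferInstance
  have h4 := inner_pc_pc (G := G) (X := G ⧸ H) Ω
  rw [h3, inner_pc_self o, (rank_eq_two_iff o).2 h2, h1] at h4
  exact_mod_cast h4.symm

end Cfsg.Agent.S3704
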