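import Cfsg.Statements.S3705
import Mathlib
import Cfsg.Agent.Lib.Perm.ON5

set_option autoImplicit false
open Cfsg

namespace Cfsg.Agent.S3705

/-- Let G be a finite group acting faithfully and 2-transitively on a finite set Ω of size n, and let H be a subgroup of index n in G which is not transitive on Ω and fixes no point of Ω. Suppose H has a nontrivial solvable normal subgroup N that fixes some point of Ω. Then there are an integer m ≥ 2 and a finite field F with #Ω = (#F^(m+1) − 1)/(#F − 1), and G has a normal subgroup isomorphic to PSL_{m+1}(F) whose centralizer in G is trivial (so that G lies between PSL_{m+1}(F) and its automorphism group). -/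
theorem result {G Ω : Type*} [Group G] [Finite G] [MulAction G Ω] [FaithfulSMul G Ω] [Finite Ω] (h2 : MulAction.IsMultiplyPretransitive G Ω 2) (H : Subgroup G) (hidx : H.index = Nat.card Ω) (hnt : ¬ MulAction.IsPretransitive H Ω) (hfix : ∀ a : Ω, ∃ h : H, h • a ≠ a) (N : Subgroup H) (hN : N.Normal) (hN1 : N ≠ ⊥) (hsol : Group.IsSolvable N) (hNfix : ∃ a : Ω, ∀ x ∈ N, x • a = a) : ∃ (m : ℕ) (F : Type) (_ : Field F) (_ : Fintype F), 2 ≤ m ∧ Nat.card Ω = (Fintype.card F ^ (m + 1) - 1) / (Fintype.card F - 1) ∧ ∃ N : Subgroup G, N.Normal ∧ Nonempty (N ≃* Matrix.ProjectiveSpecialLinearGroup (Fin (m + 1)) F) ∧ Subgroup.centralizer (N : Set G) = ⊥ := by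
  obtain ⟨a, ha⟩ := hNfix
  obtain ⟨A, h3, h4, h5, h6⟩ := CA.ON.abel_of_solv le_rfl Subgroup.le_normalizer hsol hN1
  have : A.Normal := Subgroup.normalizer_eq_top_iff.1
    (eq_top_iff.2 ((Subgroup.normalizer_eq_top N).ge.trans h6))
  exact CA.ON.of_abel h2 H hidx hnt hfix (N := A.map H.subtype) (Subgroup.map_subtype_le _)
    (fun e => h4 ((Subgroup.map_eq_bot_iff_of_injective _ (Subgroup.subtype_injective _)).1 e))
    inferInstance (CA.Rad.le_normalizer_map_subtype A) (a := a)
    (by rintro _ ⟨n, hn, rfl⟩; exact ha n (h3 hn))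

end Cfsg.Agent.S3705
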