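import Cfsg.Statements.S3733
import Cfsg.Agent.Lib.Grp.Coprime2

set_option autoImplicit false
open Cfsg

namespace Cfsg.Agent.S3733

/-- Let A and V be subgroups of a finite group with V abelian and nontrivial and A normalizing V. Suppose a nonempty finite family of proper subgroups of A partitions A: every non-identity element of A lies in exactly one member. If the number of members minus one is coprime to the order of V, then some member B of the family has a non-identity fixed point on V, that is V ∩ C(B) ≠ 1. -/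
theorem result {G : Type*} [Group G] [Finite G] (A V : Subgroup G) (hVab : IsMulCommutative V) (hV : V ≠ ⊥) (hAV : A ≤ Subgroup.normalizer (V : Set G)) (𝒜 : Finset (Subgroup G)) (hne : 𝒜.Nonempty) (hprop : ∀ B ∈ 𝒜, B < A) (hpart : ∀ a ∈ A, a ≠ 1 → ∃! B, B ∈ 𝒜 ∧ a ∈ B) (hk : (𝒜.card - 1).Coprime (Nat.card V)) : ∃ B ∈ 𝒜, V ⊓ Subgroup.centralizer (B : Set G) ≠ ⊥ := by
  classical
  by_contra hcon
  push Not at hcon
  let := CA.Act.conjAct hAV
  obtain ⟨v, hv⟩ := Subgroup.ne_bot_iff_exists_ne_one.mp hV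
  have hinj : Set.InjOn (fun B : Subgroup G => B.subgroupOf A) 𝒜 := by
    intro B hB C hC e
    have := Subgroup.subgroupOf_inj.mp e
    rwa [inf_eq_left.mpr (hprop B hB).le, inf_eq_left.mpr (hprop C hC).le] at this
  refine hv (CA.Act.eq_one_of_pow_eq_one hk ?_)
  rw [← Finset.card_image_of_injOn hinj]
  refine CA.Act.pow_eq_one_of_partition _ (hne.image _) (fun a ha => ?_) (fun B hB w hw => ?_) v
  · obtain ⟨B, ⟨h1, h2⟩, h3⟩ := hpart a a.2 (fun e => ha (Subtype.ext e))
    refine ⟨B.subgroupOf A, ⟨Finset.mem_image_of_mem _ h1, h2⟩, ?_⟩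
    rintro C ⟨hC, haC⟩
    obtain ⟨D, hD, rfl⟩ := Finset.mem_image.mp hC
    rw [h3 D ⟨hD, haC⟩]
  · obtain ⟨B, hB', rfl⟩ := Finset.mem_image.mp hB
    exact Subtype.ext ((hcon B hB').le ⟨w.2, Subgroup.mem_centralizer_iff.mpr fun b hb =>
      (CA.Coprime2.conjAct_smul_eq_iff hAV ⟨b, (hprop B hB').le hb⟩ w).mp (hw _ hb)⟩)

end Cfsg.Agent.S3733
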