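import Cfsg.Statements.S3734
import Cfsg.Agent.Lib.Odd.BG4x3

set_option autoImplicit false
open Cfsg

namespace Cfsg.Agent.S3734

open Subgroup CA.BG CA.OQuo in

/-- Let A and G be subgroups of a finite group with A abelian, A normalizing G and the orders of A and G coprime. Then G is generated by the fixed-point subgroups C_G(B) of those subgroups B of A for which A/B is cyclic (that is, A = ⟨B, a⟩ for some a), and [G, A] is generated by the commutator subgroups [C_G(B), A] over the same subgroups B. -/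
theorem result {X : Type*} [Group X] [Finite X] (A G : Subgroup X) (hAab : IsMulCommutative A) (hAG : A ≤ Subgroup.normalizer (G : Set X)) (hcop : (Nat.card A).Coprime (Nat.card G)) : (⨆ B ∈ {B : Subgroup X | B ≤ A ∧ ∃ a ∈ A, B ⊔ Subgroup.zpowers a = A}, G ⊓ Subgroup.centralizer (B : Set X)) = G ∧ (⨆ B ∈ {B : Subgroup X | B ≤ A ∧ ∃ a ∈ A, B ⊔ Subgroup.zpowers a = A}, ⁅G ⊓ Subgroup.centralizer (B : Set X), A⁆) = ⁅G, A⁆ := by
  have key : ∀ L : Subgroup X, (∀ B : Subgroup X, B ≤ A → (∃ a ∈ A, B ⊔ zpowers a = A) →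
      G ⊓ centralizer (B : Set X) ≤ L) → G ≤ L := by
    intro L hL
    refine coprime_abelian_gen_cent hAab hAG hcop.symm fun B hB hc => hL B hB ?_
    obtain ⟨x, hx, h⟩ := hc
    exact ⟨x, hx, le_antisymm (sup_le hB (zpowers_le.2 hx)) (by rwa [sup_comm])⟩
  have nB : ∀ B : Subgroup X, B ≤ A → A ≤ 𝓝(G ⊓ centralizer (B : Set X)) := fun B hB =>
    norm_inf hAG (CA.Coprime.le_normalizer_centralizer (norm_of_comm hAab hB))
  constructor
  · refine le_antisymm (iSup₂_le fun B _ => inf_le_left) (key _ fun B h1 h2 => ?_)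
    exact le_iSup₂_of_le B ⟨h1, h2⟩ le_rfl
  · set L := ⨆ B ∈ {B : Subgroup X | B ≤ A ∧ ∃ a ∈ A, B ⊔ zpowers a = A},
      ⁅G ⊓ centralizer (B : Set X), A⁆ with hL
    have nL : ∀ Y : Subgroup X, (∀ B : Subgroup X, B ≤ A → Y ≤ 𝓝(⁅G ⊓ centralizer (B : Set X), A⁆)) →
        Y ≤ 𝓝(L) := by
      intro Y hY
      rw [hL]
      intro y hy
      apply CA.Coprime.mem_normalizer_iff_conj_smul_eq.2
      simp only [CA.Coprime.conj_smul_eq_map, Subgroup.map_iSup]
      refine iSup_congr fun B => iSup_congr fun hB => ?_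
      rw [← CA.Coprime.conj_smul_eq_map]
      exact CA.Coprime.mem_normalizer_iff_conj_smul_eq.1 (hY B hB.1 hy)
    have h1 : G ⊓ 𝓒(A) ≤ 𝓝(L) := nL _ fun B hB =>
      CA.Coprime.le_normalizer_commutator
        ((inf_le_inf_left G (centralizer_le hB)).trans le_normalizer)
        (inf_le_right.trans (centralizer_le_normalizer _))
    have h2 : A ≤ 𝓝(L) := nL _ fun B hB => le_norm_comm_right _ _
    have h3 : G ≤ L ⊔ (G ⊓ 𝓒(A)) := key _ fun B hB hc => by
      have hc' : (♯(G ⊓ centralizer (B : Set X) : Subgroup X)).Coprime ♯A :=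
        hcop.symm.coprime_dvd_left (card_dvd inf_le_left)
      refine (coprime_cent_prod (nB B hB) hc' (Or.inl (solv_of_comm hAab))).ge.trans ?_
      exact sup_le_sup (le_iSup₂_of_le B ⟨hB, hc⟩ le_rfl)
        (inf_le_inf_right _ inf_le_left)
    refine le_antisymm (iSup₂_le fun B _ => comm_mono inf_le_left le_rfl) ?_
    refine (comm_le_of_mul_cent (N := L) fun k hk => ?_).trans (CA.Coprime.commutator_le_left h2)
    have := h3 hk
    rw [sup_comm] at this
    obtain ⟨n, hn, c, hc, e⟩ := (CA.Coprime.mem_sup_iff' h1).1 this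
    exact ⟨n, hn, c, hc.2, e⟩

end Cfsg.Agent.S3734
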