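import Cfsg.Statements.S3735
import Cfsg.Agent.Lib.Odd.BG4x3

set_option autoImplicit false
open Cfsg

namespace Cfsg.Agent.S3735

open Subgroup CA.BG CA.OQuo in

/-- Clifford's Theorem for actions on finite abelian groups, first part. Let H and V be subgroups of a finite group with V abelian and H normalizing V, and let A be a normal subgroup of H. If every H-invariant subgroup of V has an H-invariant complement in V, then every A-invariant subgroup of V has an A-invariant complement in V. -/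
theorem result {G : Type*} [Group G] [Finite G] (H A V : Subgroup G) (hVab : IsMulCommutative V) (hHV : H ≤ Subgroup.normalizer (V : Set G)) (hAH : A ≤ H) (hAn : H ≤ Subgroup.normalizer (A : Set G)) (hss : ∀ U : Subgroup G, U ≤ V → H ≤ Subgroup.normalizer (U : Set G) → ∃ W : Subgroup G, W ≤ V ∧ H ≤ Subgroup.normalizer (W : Set G) ∧ U ⊓ W = ⊥ ∧ U ⊔ W = V) (U : Subgroup G) (hUV : U ≤ V) (hAU : A ≤ Subgroup.normalizer (U : Set G)) : ∃ W : Subgroup G, W ≤ V ∧ A ≤ Subgroup.normalizer (W : Set G) ∧ U ⊓ W = ⊥ ∧ U ⊔ W = V := by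
  set S : Subgroup G := ⨆ M ∈ {M : Subgroup G | M ≤ V ∧ MinNormal M A}, M with hS
  have hSV : S ≤ V := iSup₂_le fun M hM => hM.1
  have hHS : H ≤ 𝓝(S) := by
    intro h hh
    refine mem_norm_of_cj_le (cj_le_iff.2 (iSup₂_le fun M hM => cj_le_iff.1 ?_))
    have hA : cj h A = A := cj_of_mem_norm (hAn hh)
    have hA' : cj h⁻¹ A = A := cj_of_mem_norm (hAn (inv_mem hh))
    refine le_iSup₂_of_le (cj h M) ⟨?_, ?_, ?_, ?_⟩ le_rfl
    · exact (cj_mono h hM.1).trans (cj_of_mem_norm (hHV hh)).le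
    · exact fun e => hM.2.1 (cj_eq_bot.1 e)
    · exact hA.ge.trans (norm_cj h hM.2.2.1)
    · intro L h1 h2 h3
      have := hM.2.2.2 (cj h⁻¹ L) (le_cj_iff.1 h1) (fun e => h2 (cj_eq_bot.1 e))
        (hA'.ge.trans (norm_cj _ h3))
      rw [← this, cj_cj_inv]
  obtain ⟨W0, h1, h2, h3, h4⟩ := hss S hSV hHS
  have hW0 : W0 = ⊥ := by
    by_contra hne
    obtain ⟨L, hL, hm⟩ := exists_minNormal (hAH.trans h2) hne
    refine hm.1 (CA.BG.eq_bot_mono (le_inf ?_ hL) h3)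
    exact le_iSup₂_of_le L ⟨hL.trans h1, hm⟩ le_rfl
  rw [hW0, sup_bot_eq] at h4
  obtain ⟨W, -, ⟨k1, k2, k3⟩, kmax⟩ := exists_maximal_ge
    (P := fun W : Subgroup G => W ≤ V ∧ A ≤ 𝓝(W) ∧ U ⊓ W = ⊥) (H := ⊥)
    ⟨bot_le, by rw [normalizer_eq_top]; exact le_top, inf_bot_eq _⟩
  refine ⟨W, k1, k2, k3, le_antisymm (sup_le hUV k1) (h4.ge.trans (iSup₂_le fun M hM => ?_))⟩
  by_contra hn
  have h5 : M ⊓ (U ⊔ W) = ⊥ := by
    by_contra hne
    exact hn (inf_eq_left.1 (hM.2.2.2 _ inf_le_left hne (norm_inf hM.2.2.1 (norm_sup hAU k2))))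
  have h6 : W ⊔ M = W := by
    refine kmax _ ⟨sup_le k1 hM.1, norm_sup k2 hM.2.2.1, ?_⟩ le_sup_left
    rw [eq_bot_iff]
    intro u hu
    obtain ⟨w, hw, m, hm, e⟩ := (mem_sup_norm (k1.trans (norm_of_comm hVab hM.1))).1 (mem_inf.1 hu).2
    have hm1 : m ∈ M ⊓ (U ⊔ W) := by
      refine mem_inf.2 ⟨hm, ?_⟩
      have : m = w⁻¹ * u := by rw [← e]; group
      rw [this]
      exact mul_mem (inv_mem (mem_sup_right hw)) (mem_sup_left (mem_inf.1 hu).1)
    rw [h5, mem_bot] at hm1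
    rw [hm1, mul_one] at e
    rw [← k3]
    exact mem_inf.2 ⟨(mem_inf.1 hu).1, e ▸ hw⟩
  exact hn ((le_sup_right.trans h6.le).trans le_sup_right)

end Cfsg.Agent.S3735
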