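import Cfsg.Statements.S3737
import Cfsg.Agent.Lib.Grp.H2Baer

set_option autoImplicit false
open Cfsg

namespace Cfsg.Agent.S3737

open Subgroup CA.BG CA.OQuo in

/-- Thompson's strengthening of the P × Q lemma for odd primes. Let p be an odd prime and let P, Q and G be subgroups of a finite group with P a p-group, Q of order prime to p and normalized by P, and G a p-group normalized by both P and Q. If every element of G centralized by P is centralized by Q, then Q centralizes G. -/
theorem result {X : Type*} [Group X] [Finite X] {p : ℕ} [Fact p.Prime] (hp : p ≠ 2) (P Q G : Subgroup X) (hP : IsPGroup p P) (hQ : (Nat.card Q).Coprime p) (hPQ : P ≤ Subgroup.normalizer (Q : Set X)) (hG : IsPGroup p G) (hPG : P ≤ Subgroup.normalizer (G : Set X)) (hQG : Q ≤ Subgroup.normalizer (G : Set X)) (hC : G ⊓ Subgroup.centralizer (P : Set X) ≤ Subgroup.centralizer (Q : Set X)) : Q ≤ Subgroup.centralizer (G : Set X) := by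
  have hpp : p.Prime := Fact.out
  by_cases h0 : G = ⊥
  · rw [h0, cent_bot]; exact le_top
  obtain ⟨K, hK, -, h1, h2, h3⟩ := critical_odd hpp hp (isPi_of_isPGroup hpp hG) h0
  refine h3 Q hQG ((isPi_compl_iff_coprime hpp).2 hQ) ?_
  have hPK : P ≤ 𝓝(K) := hK.le_norm hPG
  have hQK : Q ≤ 𝓝(K) := hK.le_norm hQG
  obtain ⟨m, hm⟩ := hpp.odd_of_ne_two hp
  let D : CA.H2Baer.Dat K :=
    { m := m + 1
      cen := fun a b c => Subtype.ext (by
        have := (mem_inf.1 (h1 (commutator_mem_commutator (hK.le a.2) b.2))).2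
        exact (mem_cent.1 this c c.2).symm)
      half := fun x => Subtype.ext (by
        have := h2 x x.2
        change (x : X) ^ (m + 1) * (x : X) ^ (m + 1) = x
        rw [← pow_add, show m + 1 + (m + 1) = p + 1 by omega, pow_succ, this, one_mul]) }
  have key := CA.H2Baer.pq_class2 (hG.to_le hK.le) K.normalizerMonoidHom
    (P := P.subgroupOf 𝓝(K)) (Q := Q.subgroupOf 𝓝(K)) hP.comap_subtype
    (by rwa [CA.Coprime.card_subgroupOf hQK])
    (fun u hu => by
      rw [mem_normalizer_iff]
      intro q
      exact mem_normalizer_iff.1 (hPQ hu) q)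
    (fun x hx q hq => by
      have : (x : X) ∈ G ⊓ centralizer (P : Set X) := by
        refine mem_inf.2 ⟨hK.le x.2, mem_cent.2 fun u hu => ?_⟩
        have := congrArg Subtype.val (hx ⟨u, hPK hu⟩ hu)
        exact mul_inv_eq_iff_eq_mul.1 this
      exact Subtype.ext (mul_inv_eq_iff_eq_mul.2 (mem_cent.1 (hC this) q hq))) D
  intro q hq
  refine mem_cent.2 fun k hk => ?_
  have := congrArg Subtype.val (key ⟨q, hQK hq⟩ hq ⟨k, hk⟩)
  exact (mul_inv_eq_iff_eq_mul.1 this).symm

end Cfsg.Agent.S3737
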