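import Cfsg.Statements.S3738
import Cfsg.Agent.Lib.Grp.FrobCrit
import Cfsg.Agent.Lib.Grp.Rk2

set_option autoImplicit false
open Cfsg

namespace Cfsg.Agent.S3738

open Subgroup CA.Rk2 CA.PGNormalCyclic CA.Two

theorem core {T : Type*} [Group T] [Finite T] [Nontrivial T] (hT : IsPGroup 2 T) (h2 : PRankLE 2 2 T)
    {φ : MulAut T} (hφ : ∀ x, φ x = x → x = 1) {n : ℕ} (ho : orderOf φ = 3 ^ n) : orderOf φ = 3 := by
  haveI : Fact (Nat.Prime 2) := ⟨Nat.prime_two⟩
  haveI := hT.center_nontrivial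
  obtain ⟨z, hz, ho2⟩ := CA.BG.exists_orderOf_eq Nat.prime_two
    ((CA.BG.isPi_of_isPGroup Nat.prime_two (hT.to_subgroup (center T))).dvd_card
      ((nontrivial_iff_ne_bot _).1 inferInstance))
  have hz1 : z ≠ 1 := fun h => by simp [h] at ho2
  have hz2 : z ^ 2 = 1 := ho2 ▸ pow_orderOf_eq_one z
  have hφz : φ z ∈ center T := (mem_center_map φ).2 hz
  obtain ⟨h3, h4⟩ := four_of_commute Nat.prime_two ho2 (y := φ z) (by rw [← map_pow, hz2, map_one])
    (fun h => by
      rcases (mem_zpowers_two hz2).1 h with h | h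
      · exact hz1 (by simpa using h)
      · exact hz1 (hφ z h)) (mem_center_iff.1 hφz z)
  have hc : zpowers z ⊔ zpowers (φ z) ≤ center T := sup_le (zpowers_le.2 hz) (zpowers_le.2 hφz)
  have hV : Om (zpowers z ⊔ zpowers (φ z)) := ⟨isKleinFour_of h4 h3.2, hc, fun x hx =>
    mem_of_rank h2 (isKleinFour_of h4 h3.2) (fun y hy => (mem_center_iff.1 (hc hy) x).symm) hx⟩
  obtain ⟨ρ, hρ, h5⟩ := hV.exists_cub hT fun z _ => hφ z
  obtain ⟨k, rfl⟩ := mem_powers_iff_mem_zpowers.2 hρ
  have h6 := orderOf_dvd_of_pow_eq_one ((pow_mul φ k 3).trans h5.pow_three)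
  rcases n with _ | _ | n
  · exact absurd (hφ z (by rw [orderOf_eq_one_iff.1 ho]; rfl)) hz1
  · simpa using ho
  · rw [ho, pow_succ] at h6
    obtain ⟨j, rfl⟩ := (dvd_pow_self 3 (Nat.succ_ne_zero n)).trans (Nat.dvd_of_mul_dvd_mul_right (by decide) h6)
    refine absurd (h5.fpf z ?_) hz1
    show (φ ^ (3 * j)) z = z
    rw [pow_mul]
    exact MulAction.mem_stabilizer_iff.1 (pow_mem (MulAction.mem_stabilizer_iff.2 (show (φ ^ 3) • z = z by
      simpa [pow_succ] using hV.rrr (fun z _ => hφ z) (mem_sup_left (mem_zpowers z)))) j)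

/-- Let d be a non-identity 3-element of a finite group and P a 2-subgroup normalized by d on which ⟨d⟩ acts faithfully (no non-identity power of d centralizes P) and without non-identity fixed points (C_P(d) = 1). If every abelian subgroup of P has 2-rank at most 2, then d has order 3. -/
theorem result {X : Type*} [Group X] [Finite X] (d : X) (n : ℕ) (hn : 1 ≤ n) (hd : orderOf d = 3 ^ n) (P : Subgroup X) (hP : IsPGroup 2 P) (hdP : d ∈ Subgroup.normalizer (P : Set X)) (hfaith : Subgroup.zpowers d ⊓ Subgroup.centralizer (P : Set X) = ⊥) (hfpf : P ⊓ Subgroup.centralizer {d} = ⊥) (hrank : ∀ V : Subgroup X, V ≤ P → IsMulCommutative V → Cfsg.PRankLE 2 2 V) : orderOf d = 3 := by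
  have h1 : d ≠ 1 := fun h => by
    rw [h, orderOf_one] at hd
    exact (Nat.one_lt_pow (by omega) (by decide)).ne hd
  haveI : Nontrivial P := (nontrivial_iff_ne_bot _).2 fun h => h1 (mem_bot.1 (hfaith.le
    ⟨mem_zpowers d, by rw [h, CA.BG.cent_bot]; trivial⟩))
  have ho : orderOf (P.normalizerMonoidHom ⟨d, hdP⟩) = orderOf d := by
    refine orderOf_eq_orderOf_iff.2 fun k => ⟨fun h => mem_bot.1 (hfaith.le ⟨pow_mem (mem_zpowers d) k,
      fun x hx => ?_⟩), fun h => ?_⟩
    · rw [← map_pow] at h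
      exact (mul_inv_eq_iff_eq_mul.1 (congrArg Subtype.val (DFunLike.congr_fun h ⟨x, hx⟩))).symm
    · rw [← map_pow, show (⟨d, hdP⟩ : normalizer (P : Set X)) ^ k = 1 from Subtype.ext h, map_one]
  rw [← ho] at hd ⊢
  refine core hP (fun A hA hA2 => ?_) (fun x hx => Subtype.ext (mem_bot.1 (hfpf.le ⟨x.2, ?_⟩))) hd
  · have := hrank (A.map P.subtype) (map_subtype_le A) inferInstance ⊤
      (by haveI : IsMulCommutative (A.map P.subtype) := inferInstance; infer_instance) (by
      rintro ⟨_, a, ha, rfl⟩ -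
      exact Subtype.ext (show ((a ^ 2 : P) : X) = 1 from congrArg Subtype.val (hA2 a ha)))
    rwa [card_top, card_map_of_injective P.subtype_injective] at this
  · exact mem_centralizer_singleton_iff.2 (mul_inv_eq_iff_eq_mul.1 (congrArg Subtype.val hx)).symm

end Cfsg.Agent.S3738
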