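import Cfsg.Statements.S3739
import Cfsg.Agent.Lib.Grp.FrobCrit
import Cfsg.Agent.Lib.Solv.HH2
import Cfsg.Agent.Lib.Odd.BG4a
import Cfsg.Agent.S3738

set_option autoImplicit false
open Cfsg

namespace Cfsg.Agent.S3739

open Subgroup CA.BG CA.OQuo CA.PGNormalCyclic

theorem fix4 {G : Type*} [Group G] [Finite G] {W A : Subgroup G} (hW : ♯W ≤ 4) (hA : IsPi {3} A)
    (hn : A ≤ 𝓝(W)) (hW2 : IsPi {2} W) (h : W ⊓ 𝓒(A) ≠ ⊥) : A ≤ 𝓒(W) := by
  have h1 := CA.BG4.card_modEq_cent Nat.prime_three hA hn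
  have h2 := (hW2.inf_left 𝓒(A)).dvd_card h
  have h3 := card_dvd (inf_le_left : W ⊓ 𝓒(A) ≤ W)
  have h4 := card_pos' W
  have h5 := card_pos' (W ⊓ 𝓒(A))
  refine cent_symm ((eq_of_le_of_card_le (inf_le_left : W ⊓ 𝓒(A) ≤ W) ?_).ge.trans inf_le_right)
  unfold Nat.ModEq at h1
  omega

/-- Let G be a finite group with C_G(O₂(G)) ≤ O₂(G) containing an element of order 6, and let d be a non-identity 3-element of G normalizing a nontrivial elementary abelian 2-subgroup W with C_W(d) = 1. Then G has an elementary abelian subgroup of order 8. -/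
theorem result {G : Type*} [Group G] [Finite G] (hchar : Subgroup.centralizer (Cfsg.pCore 2 G : Set G) ≤ Cfsg.pCore 2 G) (hsix : ∃ g : G, orderOf g = 6) (d : G) (hd1 : d ≠ 1) (hd : IsPGroup 3 ↥(Subgroup.zpowers d)) (W : Subgroup G) (hW : Cfsg.IsElementaryAbelian 2 W) (hW1 : W ≠ ⊥) (hdW : d ∈ Subgroup.normalizer (W : Set G)) (hfpf : W ⊓ Subgroup.centralizer {d} = ⊥) : ∃ E : Subgroup G, Cfsg.IsElementaryAbelian 2 E ∧ Nat.card E = 8 := by
  haveI : Fact (Nat.Prime 2) := ⟨Nat.prime_two⟩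
  by_contra h8
  have hr : ∀ E : Subgroup G, IsElementaryAbelian 2 E → ♯E ≤ 4 := fun E hE => by
    by_contra! h
    obtain ⟨k, hk⟩ := (isPi_of_elem Nat.prime_two hE).exists_card Nat.prime_two
    obtain ⟨A, -, hA⟩ := prk_of_elem_card (k := 3) Nat.prime_two hE (by
      rw [hk] at h ⊢
      exact Nat.pow_le_pow_right two_pos ((Nat.pow_lt_pow_iff_right (a := 2) (n := 2) (by decide)).1 h))
    exact h8 ⟨A, hA.1, hA.2⟩
  set Q := pCore 2 G
  have hQ : IsPi {2} Q := CA.HH.isPi_pcore Nat.prime_two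
  have hW2 := isPi_of_elem Nat.prime_two hW
  have hD : IsPi {3} (zpowers d) := isPi_of_isPGroup Nat.prime_three hd
  have hnW : zpowers d ≤ 𝓝(W) := zpowers_le.2 hdW
  rw [← cent_zpowers] at hfpf
  have hW4 : ♯W = 4 := by
    have h1 := CA.BG4.card_modEq_cent Nat.prime_three hD hnW
    have h2 := hW2.dvd_card hW1
    have h3 := hr W hW
    have h4 := card_pos' W
    rw [hfpf, card_bot] at h1
    unfold Nat.ModEq at h1
    omega
  have hinv : ∀ t ∈ 𝓒(W), t ^ 2 = 1 → t ∈ W := fun t ht h2 =>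
    (eq_of_le_of_card_le le_sup_left (hW4 ▸ hr _ (isElementaryAbelian_sup_zpowers hW ht h2))).ge
      (mem_sup_right (mem_zpowers t))
  have hR : IsPi {2} (W ⊔ Q : Subgroup G) := hW2.sup hQ (top_le_norm _ _)
  have hZ : W ≤ 𝓩(W ⊔ Q) := by
    obtain ⟨z, hz, ho⟩ := exists_orderOf_eq Nat.prime_two
      ((hR.inf_left _).dvd_card (hR.center_ne_bot (ne_bot_mono le_sup_left hW1)))
    have h1 : z ∈ W := hinv z (cent_anti le_sup_left hz.2) (ho ▸ pow_orderOf_eq_one z)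
    have h2 : zpowers d ≤ 𝓝(W ⊓ 𝓩(W ⊔ Q)) :=
      norm_inf hnW ((norm_sup hnW (top_le_norm _ _)).trans (norm_center _))
    have h3 := CA.BG4.card_modEq_cent Nat.prime_three hD h2
    rw [CA.BG.eq_bot_mono (inf_le_inf_right _ inf_le_left) hfpf, card_bot] at h3
    have h4 := (hW2.inf_left 𝓩(W ⊔ Q)).dvd_card (ne_bot_of_mem ⟨h1, hz⟩ fun h => by simp [h] at ho)
    have h5 := card_pos' (W ⊓ 𝓩(W ⊔ Q))
    refine (eq_of_le_of_card_le (inf_le_left : W ⊓ 𝓩(W ⊔ Q) ≤ W) ?_).ge.trans inf_le_right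
    unfold Nat.ModEq at h3
    omega
  have hWQ : Q ≤ 𝓒(W) := cent_symm ((hZ.trans inf_le_right).trans (cent_anti le_sup_right))
  have hWQ' : W ≤ Q := (cent_symm hWQ).trans hchar
  haveI hWn : W.Normal := ⟨fun w hw g => hinv _ (hWQ (Normal.conj_mem inferInstance w (hWQ' hw) g))
    (by rw [conj_pow, hW.2 w hw]; simp)⟩
  have hfix : ∀ A : Subgroup G, IsPi {3} A → ¬ A ≤ 𝓒(W) → Q ⊓ 𝓒(A) = ⊥ := fun A hA h => by
    by_contra h1
    obtain ⟨t, ht, ho⟩ := exists_orderOf_eq Nat.prime_two ((hQ.inf_left _).dvd_card h1)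
    exact h (fix4 hW4.le hA (top_le_norm _ _) hW2 (ne_bot_of_mem
      ⟨hinv t (hWQ ht.1) (ho ▸ pow_orderOf_eq_one t), ht.2⟩ fun h => by simp [h] at ho))
  have hdc : ¬ zpowers d ≤ 𝓒(W) := fun h => hW1 (le_bot_iff.1 (hfpf ▸ le_inf le_rfl (cent_symm h)))
  have hfa : ∀ A : Subgroup G, IsPi {3} A → A ⊓ 𝓒(Q) = ⊥ := fun A hA =>
    CA.BG.eq_bot_mono (inf_le_inf_left _ hchar) (inf_eq_bot_of_cop (hA.coprime_ne hQ (by decide)))
  have hd3 : orderOf d = 3 := by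
    obtain ⟨n, hn⟩ := hD.exists_card Nat.prime_three
    rw [Nat.card_zpowers] at hn
    refine S3738.result d n (Nat.pos_of_ne_zero fun h => hd1 (by simpa [h] using hn)) hn Q
      (hQ.isPGroup Nat.prime_two) (top_le_norm _ _ (mem_top d)) (hfa _ hD)
      (cent_zpowers d ▸ hfix _ hD hdc) fun V _ _ A hA hA2 => ?_
    rw [← card_map_of_injective V.subtype_injective]
    refine hr _ ⟨inferInstance, ?_⟩
    rintro _ ⟨a, ha, rfl⟩
    exact congrArg Subtype.val (hA2 a ha)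
  have h3 : 3 ∣ ♯𝓒(W) := by
    obtain ⟨g, hg⟩ := hsix
    have hy : orderOf (g ^ 2) = 3 := by rw [orderOf_pow, hg]; rfl
    have ht : orderOf (g ^ 3) = 2 := by rw [orderOf_pow, hg]; rfl
    have hc : zpowers (g ^ 3) ≤ 𝓒(zpowers (g ^ 2)) := cent_of_comm (comm_of_cyclic (cyc_zpowers g))
      (zpowers_le.2 (pow_mem (mem_zpowers g) _)) (zpowers_le.2 (pow_mem (mem_zpowers g) _))
    have hY : IsPi {3} (zpowers (g ^ 2)) := isPi_of_card_eq Nat.prime_three (by rw [Nat.card_zpowers, hy])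
    have hT : IsPi {2} (zpowers (g ^ 3)) := isPi_of_card_eq Nat.prime_two (by rw [Nat.card_zpowers, ht])
    refine hy ▸ orderOf_dvd_card_of_mem (zpowers_le.1 ?_)
    by_contra h
    have h1 : W ⊓ 𝓒(zpowers (g ^ 2)) = ⊥ := not_not.1 (mt (fix4 hW4.le hY (top_le_norm _ _) hW2) h)
    have h2 := hT.meet_cent hW2 (top_le_norm _ _) hW1
    have h4 := CA.BG4.card_modEq_cent Nat.prime_three hY
      (norm_inf (top_le_norm W _) (norm_cent (norm_of_cent (cent_symm hc))))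
    rw [CA.BG.eq_bot_mono (inf_le_inf_right _ inf_le_left) h1, card_bot] at h4
    have h5 := (hW2.inf_left _).dvd_card h2
    have h6 := card_pos' (W ⊓ 𝓒(zpowers (g ^ 3)))
    have h7 : W ≤ 𝓒(zpowers (g ^ 3)) := by
      refine (eq_of_le_of_card_le (inf_le_left : W ⊓ _ ≤ W) ?_).ge.trans inf_le_right
      unfold Nat.ModEq at h4
      omega
    have h9 := h1.le ⟨hinv _ (cent_symm h7 (mem_zpowers _)) (ht ▸ pow_orderOf_eq_one _), hc (mem_zpowers _)⟩
    rw [mem_bot.1 h9] at ht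
    simp at ht
  obtain ⟨S, hS, hdS⟩ := syl_superset Nat.prime_three hD le_top
  have hSK := hS.inf_normal (N := 𝓒(W)) le_top (norm_cent (top_le_norm _ _))
  obtain ⟨Y, hY1, hY2, hY3⟩ := CA.BG4.exists_normal_prime Nat.prime_three hS.pi hSK.pi
    (norm_inf (le_norm_self _) (norm_cent (top_le_norm _ _))) (hSK.ne_bot Nat.prime_three rfl h3)
  have hYc : zpowers d ≤ 𝓒(Y) := hdS.trans hY2
  have hYp : (♯Y).Prime := hY3 ▸ Nat.prime_three
  have hE : IsPi {3} (zpowers d ⊔ Y : Subgroup G) := hS.pi.of_le (sup_le hdS (hY1.trans inf_le_left))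
  have hEe : IsElementaryAbelian 3 (Y ⊔ zpowers d) := isElementaryAbelian_sup_zpowers
    ⟨comm_of_cyclic (isCyclic_of_prime hYp), fun y hy =>
      orderOf_dvd_iff_pow_eq_one.1 (hY3 ▸ orderOf_dvd_card_of_mem hy)⟩ (hYc (mem_zpowers d))
    (hd3 ▸ pow_orderOf_eq_one d)
  rw [sup_comm] at hEe
  have hdY : zpowers d ⊓ 𝓒(W) = ⊥ :=
    inf_eq_bot_of_prime_not_le (by rw [Nat.card_zpowers, hd3]; exact Nat.prime_three) hdc
  have hK : (zpowers d ⊔ Y) ⊓ 𝓒(W) = Y := by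
    rw [sup_inf_of_le_right (norm_of_cent hYc) (hY1.trans inf_le_right), hdY, bot_sup_eq]
  refine ne_bot_of_prime hYp (le_bot_iff.1 (hfa Y (hE.of_le le_sup_right) ▸ le_inf le_rfl (cent_symm
    (coprime_abelian_gen_cent1 hEe.1 (not_isCyclic_of_elementary (by decide) hEe.2 ?_) (top_le_norm _ _)
      (hQ.coprime_ne hE (by decide)) fun a ha h1 => ?_))))
  · rw [card_sup_of_disjoint (norm_of_cent hYc) (CA.BG.eq_bot_mono (inf_le_inf_left _ (hY1.trans inf_le_right)) hdY),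
      Nat.card_zpowers, hd3, hY3]
    decide
  · by_cases h : a ∈ 𝓒(W)
    · rw [cent_eq_cent1_of_prime hYp (hK.le ⟨ha, h⟩) h1]; exact inf_le_right
    · rw [← cent_zpowers, hfix _ (hE.of_le (zpowers_le.2 ha)) (mt zpowers_le.1 h)]; exact bot_le

end Cfsg.Agent.S3739
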