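import Cfsg.Statements.S3740
import Cfsg.Agent.Lib.Grp.FrobCrit
import Cfsg.Agent.Lib.Lin.SL2Class
import Cfsg.Agent.Lib.Lin.SL2Dickson
import Cfsg.Agent.Lib.Lin.SL2Sylow2
import Cfsg.Agent.Lib.Lin.SLnCard

set_option autoImplicit false
open Cfsg

namespace Cfsg.Agent.S3740

open Subgroup CA.BG CA.OQuo CA.SL2Torus CA.SL2Basic
open scoped commutatorElement MatrixGroups

theorem key {F : Type} [Field F] [Fintype F] {p : ℕ} [hp : Fact p.Prime] [CharP F p] (h2 : p ≠ 2)
    {a g : SL(2, F)} (ha : orderOf a = p) {n : ℕ} (hn : n.Coprime p) (hg : g ^ n = 1)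
    (h : a * g * a⁻¹ ∈ C g) : g = 1 ∨ g = -1 := by
  by_contra h0
  have h1 := not_not.1 (mt (not_NS_iff_eq g).1 h0)
  have h3 := SS_of_pow h1 (fun h => hp.out.one_lt.ne' (hn.symm.eq_one_of_dvd
    ((CharP.cast_eq_zero_iff F p n).1 h))) (Or.inl hg)
  have h4 : ¬ a ^ 4 = 1 := fun h => h2 ((Nat.prime_dvd_prime_iff_eq hp.out Nat.prime_two).1
    (hp.out.dvd_of_dvd_pow (n := 2) (ha ▸ orderOf_dvd_of_pow_eq_one h)))
  by_cases h5 : a ∈ C g
  · refine (not_SS_iff a).2 (Or.inl (trace_of_pow_char p (k := 1) ?_)) (h3.of_mem h5 ((NS_iff_ne a).2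
      ⟨fun h => h4 (by rw [h, one_pow]), fun h => h4 (by rw [h]; exact Even.neg_one_pow (by decide))⟩))
    rw [pow_one, ← ha, pow_orderOf_eq_one]
  · refine h4 ?_
    rw [show 4 = 2 * 2 by rfl, pow_mul, sq a, h3.sq_of_mem_D (h3.mem_D_of_conj (self_mem_C g) h1 h) h5]
    exact neg_one_sq

/-- Let F be a finite field of odd characteristic p and let a be a p-element of SL₂(F) normalizing a subgroup R of order prime to p with [R, a] ≠ 1. Then p = 3, R is a quaternion group of order 8, and R⟨a⟩ is isomorphic to SL₂(3). -/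
theorem result (F : Type) [Field F] [Fintype F] {p : ℕ} [Fact p.Prime] [CharP F p] (hp : p ≠ 2) (a : Matrix.SpecialLinearGroup (Fin 2) F) (ha : IsPGroup p ↥(Subgroup.zpowers a)) (R : Subgroup (Matrix.SpecialLinearGroup (Fin 2) F)) (hR : (Nat.card R).Coprime p) (haR : a ∈ Subgroup.normalizer (R : Set (Matrix.SpecialLinearGroup (Fin 2) F))) (hnt : ⁅R, Subgroup.zpowers a⁆ ≠ ⊥) : p = 3 ∧ Nonempty (↥R ≃* QuaternionGroup 2) ∧ Nonempty (↥(R ⊔ Subgroup.zpowers a) ≃* Matrix.SpecialLinearGroup (Fin 2) (ZMod 3)) := by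
  have pp : p.Prime := Fact.out
  have h2 := two_ne_zero_of_char (F := F) p hp
  have ha1 : a ≠ 1 := fun h => hnt (by simp [h])
  obtain ⟨m, hm⟩ := ha ⟨a, mem_zpowers a⟩
  have ho : orderOf a = p := orderOf_of_trace p (trace_of_pow_char p (congrArg Subtype.val hm)) ha1
  have hn : zpowers a ≤ 𝓝(R) := zpowers_le.2 haR
  have hk : ∀ g ∈ R, a * g * a⁻¹ ∈ C g → g = 1 ∨ g = -1 := fun g hg =>
    key hp ho hR (orderOf_dvd_iff_pow_eq_one.1 (orderOf_dvd_card_of_mem hg))
  have hR2 : IsPi {2} R := fun r hr hd => by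
    by_contra h
    haveI := Fact.mk hr
    obtain ⟨P, hP, hPn⟩ := coprime_Sylow_exists hr hn (by rwa [Nat.card_zpowers, ho])
      (Or.inl (solv_of_nil (nil_of_cyc (cyc_zpowers a))))
    have hc := CA.SL2Class.isCyclic_of_isPGroup r h (fun h => pp.one_lt.ne' ((hR.coprime_dvd_left hd).symm.eq_one_of_dvd
      ((CharP.cast_eq_zero_iff F p r).1 h))) P (hP.pi.isPGroup hr)
    obtain ⟨g, hg, h1⟩ := exists_orderOf_eq hr (hP.dvd_card hr rfl hd)
    rcases hk g (hP.le hg) (cent_le_cent1 hg (comm_iff_le_cent.1 (comm_of_cyclic hc)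
      (conj_mem_of_norm hPn (mem_zpowers a) hg))) with rfl | rfl
    · exact hr.one_lt.ne (by simpa using h1)
    · exact h (h1.symm.trans (orderOf_neg_one h2))
  obtain ⟨k, hk1, ⟨e⟩⟩ := CA.SL2Sylow2.quaternion_of_unique (hR2.isPGroup Nat.prime_two)
    (fun x y hx hy => Subtype.ext ((eq_neg_one_of_orderOf h2 _ ((orderOf_coe x).trans hx)).trans
      (eq_neg_one_of_orderOf h2 _ ((orderOf_coe y).trans hy)).symm)) fun hc =>
      hnt (comm_eq_bot_iff.2 fun g hg => by
        rcases hk g hg (cent_le_cent1 hg (comm_iff_le_cent.1 (comm_of_cyclic hc)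
          (conj_mem_of_mem_norm haR hg))) with rfl | rfl
        · exact one_mem _
        · exact mem_cent.2 fun x _ => by simp)
  obtain rfl : k = 1 := by
    set g := e.symm (QuaternionGroup.a 1)
    have hg : orderOf (g : SL(2, F)) = 2 * 2 ^ k := by
      rw [orderOf_coe, e.symm.orderOf_eq, QuaternionGroup.orderOf_a_one]
    have h3 : 2 ≤ 2 ^ k := Nat.le_self_pow (by omega) 2
    rcases h : e ⟨_, conj_mem_of_mem_norm haR g.2⟩ with i | i
    · have h4 : ⟨_, conj_mem_of_mem_norm haR g.2⟩ * g = g * ⟨_, conj_mem_of_mem_norm haR g.2⟩ :=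
        e.injective (by simp [h, g, add_comm])
      rcases hk g g.2 (mem_C_iff.2 (congrArg Subtype.val h4)) with h5 | h5
      · rw [h5, orderOf_one] at hg; omega
      · rw [h5, orderOf_neg_one h2] at hg; omega
    · have h4 := congrArg orderOf h
      rw [e.orderOf_eq, QuaternionGroup.orderOf_xa, ← orderOf_coe] at h4
      have h5 := (MulAut.conj a).orderOf_eq (g : SL(2, F))
      rw [MulAut.conj_apply, h4, hg] at h5
      exact Nat.pow_right_injective le_rfl (show 2 ^ k = 2 ^ 1 by omega)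
  have hc : ♯R = 8 := by rw [Nat.card_congr e.toEquiv, Nat.card_eq_fintype_card, QuaternionGroup.card]; rfl
  obtain ⟨r, hr, hne⟩ : ∃ r ∈ R, a * (r * a * r⁻¹) ≠ r * a * r⁻¹ * a := by
    by_contra! h
    refine hnt (comm_eq_bot_iff.2 fun r hr => ?_)
    rw [cent_zpowers, mem_cent1, ← commutatorElement_eq_one_iff_mul_comm, ← orderOf_eq_one_iff]
    refine Nat.eq_one_of_dvd_coprimes hR (orderOf_dvd_card_of_mem
      (comm_le_left hn (commutator_mem_commutator hr (mem_zpowers a)))) (orderOf_dvd_of_pow_eq_one ?_)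
    rw [commutatorElement_def, (show Commute a _ from h r hr).symm.inv_right.mul_pow, conj_pow, inv_pow, ← ho,
      pow_orderOf_eq_one]
    simp
  have ha' : a ∈ R ⊔ zpowers a := mem_sup_right (mem_zpowers a)
  obtain ⟨L, hL, ⟨f⟩⟩ := CA.SL2Dickson.exists_sl2p p hp (R ⊔ zpowers a) ha'
    (mul_mem (mul_mem (mem_sup_left hr) ha') (inv_mem (mem_sup_left hr))) (m := 1) (n := 1)
    (by rw [pow_one, ← ho, pow_orderOf_eq_one]) (by rw [pow_one, conj_pow, ← ho, pow_orderOf_eq_one]; simp) hne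
  have h3 := Nat.le_of_dvd (Nat.mul_pos (card_pos' _) (card_pos' _)) (card_sup_dvd hn)
  rw [sup_comm, Nat.card_zpowers, ho, hc] at h3
  have h4 := Nat.card_congr f.toEquiv
  rw [CA.SLnCard.card_SL2, Nat.card_zmod] at h4
  obtain rfl : p = 3 := by
    have h5 := (h4.ge.trans (card_le_of_le' hL)).trans h3
    have h6 := Nat.le_of_mul_le_mul_left h5 pp.pos
    have := pp.two_le
    have : p < 4 := by
      by_contra! h
      have : 4 * 4 ≤ p ^ 2 := sq p ▸ Nat.mul_le_mul h h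
      omega
    omega
  exact ⟨rfl, ⟨e⟩, ⟨eq_of_le_of_card_le hL (h3.trans h4.ge) ▸ f⟩⟩

end Cfsg.Agent.S3740
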