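import Cfsg.Statements.S3741
import Cfsg.Agent.Lib.Odd.BG4x2

set_option autoImplicit false
open Cfsg

namespace Cfsg.Agent.S3741

open Subgroup CA.BG CA.BG4 CA.OQuo
open scoped commutatorElement

theorem aux {G : Type*} [Group G] [Finite G] {p : ℕ} (hp : p.Prime) {A B : Subgroup G}
    (hA : IsPi {p} A) (hB : IsPi {p} B) (hAB : ⁅A, B⁆ ≤ A) (hcard : ♯⁅A, B⁆ ≤ p) :
    𝓒(B).relIndex A ≤ 𝓒(A).relIndex B := by
  have hZ : A ≤ 𝓒(⁅A, B⁆) := cent_of_card' hp hA (normalizer_commutator_ge_left A B)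
    (by simpa using dvd_pow_of_le (k := 1) hp (hA.of_le hAB) (by simpa using hcard))
  have key : ∀ n, ∀ K : Subgroup G, ♯K = n → 𝓒(A) ⊓ B ≤ K → K ≤ B →
      𝓒(K).relIndex A * ♯(𝓒(A) ⊓ B) ≤ ♯K := by
    intro n
    induction n using Nat.strong_induction_on with
    | _ n ih =>
    intro K hn h1 h2
    rcases h1.eq_or_lt with e | hlt
    · rw [← e, relIndex_eq_one.2 (cent_symm inf_le_left), one_mul]
    obtain ⟨L, l1, l2, l3, -⟩ := exists_below hp (hB.of_le h2) hlt
    obtain ⟨x, x1, x2, x3⟩ := exists_sup_zpowers hp l2 l3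
    have h3 := ih _ (hn ▸ card_lt_of_lt (lt_of_le_of_ne l2 fun e => x2 (e ▸ x1))) L rfl l1 (l2.trans h2)
    have h4 := Nat.le_of_dvd (Nat.mul_pos (Nat.pos_of_ne_zero (relIndex_ne_zero' _ _)) (card_pos' _))
      (relIndex_cent_sup_zpowers_dvd (R := A) (K := L) (x := x) (inf_le_left.trans hZ) fun g hg => by
        rw [comm_symm]; exact commutator_mem_commutator (h2 x1) hg)
    rw [x3] at h4
    rw [← card_mul_relIndex l2, l3]
    calc _ ≤ 𝓒(L).relIndex A * p * ♯(𝓒(A) ⊓ B) :=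
          Nat.mul_le_mul_right _ (h4.trans (Nat.mul_le_mul_left _ hcard))
      _ = 𝓒(L).relIndex A * ♯(𝓒(A) ⊓ B) * p := by ring
      _ ≤ _ := Nat.mul_le_mul_right _ h3
  have := key _ B rfl inf_le_right le_rfl
  rw [← card_inf_mul_relIndex 𝓒(A) B, mul_comm] at this
  exact Nat.le_of_mul_le_mul_left this (card_pos' _)

/-- Let A and B be subgroups of a finite p-group with [A, B] ≤ A ∩ B and [A, B] of order at most p. Then |A : C_A(B)| = |B : C_B(A)|. -/
theorem result {G : Type*} [Group G] [Finite G] {p : ℕ} [Fact p.Prime] (hG : IsPGroup p G) (A B : Subgroup G) (hAB : ⁅A, B⁆ ≤ A ⊓ B) (hcard : Nat.card ↥⁅A, B⁆ ≤ p) : (A ⊓ Subgroup.centralizer (B : Set G)).relIndex A = (B ⊓ Subgroup.centralizer (A : Set G)).relIndex B := by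
  have hp : p.Prime := Fact.out
  have h := fun K : Subgroup G => isPi_of_isPGroup hp (hG.to_subgroup K)
  rw [inf_relIndex_left, inf_relIndex_left]
  exact le_antisymm (aux hp (h A) (h B) (hAB.trans inf_le_left) hcard)
    (aux hp (h B) (h A) (comm_symm A B ▸ hAB.trans inf_le_right) (comm_symm A B ▸ hcard))

end Cfsg.Agent.S3741
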