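import Cfsg.Statements.S3745
import Cfsg.Agent.Lib.Odd.BGCoprime
import Cfsg.Agent.Lib.Odd.BGQuo

set_option autoImplicit false
open Cfsg

namespace Cfsg.Agent.S3745

open Subgroup CA CA.BG CA.OQuo

universe u

theorem aux (π : Set ℕ) (n : ℕ) : ∀ {G : Type u} [Group G] [Finite G] (A K X : Subgroup G),
    ♯K ≤ n → A ≤ 𝓝(K) → (♯K).Coprime ♯A → Group.IsSolvable K → X ≤ K → IsPi π X → A ≤ 𝓝(X) →
    ∃ H, Hall π H K ∧ A ≤ 𝓝(H) ∧ X ≤ H := by
  induction n with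
  | zero => intro G _ _ A K X h; exact absurd (card_pos' K) (by omega)
  | succ n ih =>
  intro G _ _ A K X hn hA hc hs hX hπ hAX
  by_cases hK : K = ⊥
  · subst hK
    exact ⟨⊥, hall_self (isPi_bot π), hA, hX⟩
  obtain ⟨M, hMK, hM⟩ := exists_minNormal (sup_le hA (le_norm_self K) : A ⊔ K ≤ 𝓝(K)) hK
  obtain ⟨q, hq, hMe⟩ := hM.elem (solv_of_le hs hMK)
  have hMq := isPi_of_elem hq hMe
  have hAM : A ≤ 𝓝(M) := le_sup_left.trans hM.2.1
  have hKM : K ≤ 𝓝(M) := le_sup_right.trans hM.2.1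
  obtain ⟨Y, hY, hAY, hXY⟩ := ih (A /ᵍ M) (K /ᵍ M) (X /ᵍ M)
    (by have := card_quo_lt_of_le hKM hMK hM.1; omega) (norm_quo M hA) (cop_mim hc _)
    (solv_quo M hs) (quo_mono M hX) (hπ.mim _) (norm_quo M hAX)
  have hXY' : X ≤ mpre (qh M) Y := (quo_le_iff (hX.trans hKM)).1 hXY
  have hAY' := norm_qpre hAM hAY
  by_cases hqπ : q ∈ π
  · exact ⟨_, hall_qpre (hMq.sub hqπ) hMK hKM hY, hAY', hXY'⟩
  have hM' : IsPi πᶜ M := hMq.sub hqπ
  have hH1 : mpre (qh M) Y ≤ K := qpre_le hKM hMK hY.le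
  have hs1 := solv_of_le hs hH1
  obtain ⟨H, hH, hAH⟩ := coprime_Hall_exists π hAY' (cop_mono hc hH1 le_rfl) hs1
  have hi : PiNat πᶜ ((mpre (qh M) Y).relIndex K) := by
    rw [relIndex_mpre _ _ hKM]; exact hY.idx
  have hXM : X ⊔ M ≤ mpre (qh M) Y := sup_le hXY' (le_qpre Y)
  have hi2 : PiNat π ((X ⊔ M).relIndex (mpre (qh M) Y)) := by
    refine PiNat.of_dvd ?_ (relIndex_dvd_of_le_left _ (le_sup_right : M ≤ X ⊔ M))
    rw [← card_quo (qpre_le_norm Y), quo_mpre]; exact hY.pi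
  have h1 := hH.inf_of_idx hXM hi2
  have h2 : Hall π X (X ⊔ M) := hall_sup_normal hπ (hX.trans hKM) hM'
  have hAXM := norm_sup hAX hAM
  obtain ⟨c, hc1, hc2⟩ := coprime_Hall_trans hAXM (cop_mono hc (hXM.trans hH1) le_rfl)
    (solv_of_le hs1 hXM) h1 (norm_inf hAH hAXM) h2 hAX
  refine ⟨cj c H, (hH.of_idx hH1 hi).cj_mem (hH1 (hXM hc1.1)), ?_, ?_⟩
  · have := norm_cj c hAH
    rwa [cj_of_mem_cent hc1.2] at this
  · rw [← hc2]; exact cj_mono c inf_le_left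

/-- Coprime action on a solvable group and Hall subgroups. Let A and G be subgroups of a finite group with A normalizing G, the orders of A and G coprime, and G solvable, and let π be a set of primes. Then (a) G has an A-invariant Hall π-subgroup; (b) any two A-invariant Hall π-subgroups of G are conjugate by an element of C_G(A); (c) every A-invariant π-subgroup of G lies in an A-invariant Hall π-subgroup of G. -/
theorem result {X : Type*} [Group X] [Finite X] (A G : Subgroup X) (hAG : A ≤ Subgroup.normalizer (G : Set X)) (hcop : (Nat.card A).Coprime (Nat.card G)) (hsolv : Group.IsSolvable G) (π : Set ℕ) : (∃ H : Subgroup X, Cfsg.IsPiHallOf π H G ∧ A ≤ Subgroup.normalizer (H : Set X)) ∧ (∀ H₁ H₂ : Subgroup X, Cfsg.IsPiHallOf π H₁ G → A ≤ Subgroup.normalizer (H₁ : Set X) → Cfsg.IsPiHallOf π H₂ G → A ≤ Subgroup.normalizer (H₂ : Set X) → ∃ c ∈ G ⊓ Subgroup.centralizer (A : Set X), H₂ = H₁.map (MulAut.conj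 c).toMonoidHom) ∧ (∀ U : Subgroup X, U ≤ G → A ≤ Subgroup.normalizer (U : Set X) → (∀ p : ℕ, p.Prime → p ∣ Nat.card U → p ∈ π) → ∃ H : Subgroup X, Cfsg.IsPiHallOf π H G ∧ A ≤ Subgroup.normalizer (H : Set X) ∧ U ≤ H) := by
  refine ⟨coprime_Hall_exists π hAG hcop.symm hsolv, fun H₁ H₂ h1 h2 h3 h4 => ?_,
    fun U h1 h2 h3 => aux π _ A G U le_rfl hAG hcop.symm hsolv h1 h3 h2⟩
  obtain ⟨c, hc, h⟩ := coprime_Hall_trans hAG hcop.symm hsolv h1 h2 h3 h4
  exact ⟨c, hc, h.symm⟩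

end Cfsg.Agent.S3745
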