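import Cfsg.Statements.S3746
import Cfsg.Agent.Lib.Grp.Bal2

set_option autoImplicit false
open Cfsg

namespace Cfsg.Agent.S3746

open Subgroup CA.Rad CA.Core CA.Fitting CA.Subn CA.Quasi CA.Comp CA.Fstar CA.PLoc CA.PComp CA.Bal CA.Bal2 in
/-- Let Z ≤ Z(G) be a central subgroup of a finite group G and E a subgroup of G containing Z whose image E/Z is a component of G/Z (subnormal and quasisimple). Then the derived subgroup [E, E] is a component of G. -/
theorem result {G : Type*} [Group G] [Finite G] (Z : Subgroup G) (hZ : Z ≤ Subgroup.center G) [Z.Normal] (E : Subgroup G) (hZE : Z ≤ E) (hE : Cfsg.IsComponent (E.map (QuotientGroup.mk' Z))) : Cfsg.IsComponent ⁅E, E⁆ := by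
  have h1 : (⁅E, E⁆ : Subgroup G).map (QuotientGroup.mk' Z) = E.map (QuotientGroup.mk' Z) := by
    rw [map_commutator, comp_perfect hE]
  have h2 : E ≤ ⁅E, E⁆ ⊔ center G := by
    have := map_le_map_iff.1 h1.ge
    rw [QuotientGroup.ker_mk'] at this
    exact this.trans (sup_le_sup_left hZ _)
  have hle : ⁅E, E⁆ ≤ E := CA.Coprime.commutator_le_left le_normalizer
  have h3 : ⁅⁅E, E⁆, ⁅E, E⁆⁆ = ⁅E, E⁆ := le_antisymm (commutator_mono hle hle)
    ((commutator_mono h2 h2).trans (commutator_sup_center _).le)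
  have h4 : E.IsSubnormal := by
    have := hE.1.comap (QuotientGroup.mk' Z)
    rwa [comap_map_eq, QuotientGroup.ker_mk', sup_eq_left.2 hZE] at this
  refine ⟨subnormal_of_le_normalizer hle
    (CA.Rad.le_normalizer_commutator le_normalizer le_normalizer) h4,
    qs_of_map h3 (QuotientGroup.mk' Z) ?_ (h1 ▸ hE.2)⟩
  rw [QuotientGroup.ker_mk']
  exact inf_le_right.trans (hZ.trans (center_le_centralizer _))

end Cfsg.Agent.S3746
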