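import Cfsg.Statements.S3747
import Cfsg.Agent.Lib.Grp.Bal2

set_option autoImplicit false
open Cfsg

namespace Cfsg.Agent.S3747

open Subgroup CA.Rad CA.Core CA.Fitting CA.Subn CA.Quasi CA.Comp CA.Fstar CA.PLoc CA.PComp CA.Bal CA.Bal2 in
/-- Let G be a finite group. (a) If K is a component of G with trivial centre, then the normal closure of K in G is a minimal normal subgroup of G. (b) If the Fitting subgroup of G is trivial, then the layer E(G) is generated by the minimal normal subgroups of G. -/
theorem result {G : Type*} [Group G] [Finite G] : (∀ K : Subgroup G, Cfsg.IsComponent K → Subgroup.center ↥K = ⊥ → (Subgroup.normalClosure (K : Set G) ≠ ⊥ ∧ ∀ N : Subgroup G, N.Normal → N ≤ Subgroup.normalClosure (K : Set G) → N = ⊥ ∨ N = Subgroup.normalClosure (K : Set G))) ∧ (Cfsg.fittingSubgroup G = ⊥ → sSup {N : Subgroup G | N ≠ ⊥ ∧ N.Normal ∧ ∀ N' : Subgroup G, N'.Normal → N' ≤ N → N' = ⊥ ∨ N' = N} = Cfsg.layer G) := by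
  have key : ∀ K : Subgroup G, IsComponent K → center K = ⊥ → (normalClosure (K : Set G) ≠ ⊥ ∧
      ∀ N : Subgroup G, N.Normal → N ≤ normalClosure (K : Set G) →
        N = ⊥ ∨ N = normalClosure (K : Set G)) := fun K hK hZ => by
    refine ⟨fun h => comp_ne_bot hK (le_bot_iff.1 (h ▸ le_normalClosure)), fun N hN hle => ?_⟩
    rcases comp_le_or_le_centralizer hK hN.isSubnormal with h | h
    · exact Or.inr (le_antisymm hle (normalClosure_le_normal h))
    left
    have h1 : normalClosure (K : Set G) ≤ centralizer (N : Set G) := normalClosure_le_normal h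
    have h2 := sSup_inf_centralizer_eq
      (S := Set.range fun g : G => K.map (MulAut.conj g).toMonoidHom) (by
        rintro _ ⟨g, rfl⟩; exact comp_map_conj hK g)
    rw [sSup_range, ← normalClosure_eq_iSup] at h2
    refine le_bot_iff.1 ((le_inf hle (le_centralizer_iff.1 h1)).trans (h2.le.trans
      (iSup_le ?_)))
    rintro ⟨_, g, rfl⟩
    have h3 := map_subtype_center K
    rw [hZ, Subgroup.map_bot] at h3
    have h4 := congrArg (Subgroup.map (MulAut.conj g).toMonoidHom) h3
    rw [Subgroup.map_bot, map_inf _ _ _ (MulAut.conj g).injective, map_equiv_centralizer] at h4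
    exact h4.ge
  refine ⟨key, fun hF => le_antisymm (sSup_le ?_) (layer_le fun K hK => ?_)⟩
  · rintro N ⟨h1, h2, h3⟩
    have h4 := fstar_inf_ne_bot h2.isSubnormal h1
    rw [fstar_eq_layer_of_fitting_eq_bot hF] at h4
    exact inf_eq_right.1 ((h3 _ inferInstance inf_le_right).resolve_left h4)
  · have h1 : center K = ⊥ := by
      rw [← map_eq_bot_iff_of_injective _ K.subtype_injective, map_subtype_center, ← le_bot_iff,
        ← hF]
      exact comp_inf_centralizer_le_fitting hK
    exact le_normalClosure.trans (le_sSup ⟨(key K hK h1).1, inferInstance, (key K hK h1).2⟩)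

end Cfsg.Agent.S3747
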