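import Cfsg.Statements.S3749
import Cfsg.Agent.Lib.Odd.BG1
import Cfsg.Agent.Lib.Odd.BGCoprime

set_option autoImplicit false
open Cfsg

namespace Cfsg.Agent.S3749

open Subgroup CA CA.BG

/-- Call a proper subgroup M of G primitive when M = N_G(N) for every non-trivial normal subgroup N of M. Let M be a primitive subgroup of the finite group G, p a prime with O_p(M) ≠ 1, and N a normal subgroup of G with M ∩ N = 1. Then p does not divide the order of N; for every prime q there is exactly one Sylow q-subgroup of N normalized by M; and if the order of N has at least two prime divisors then M is not a maximal subgroup of G. -/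
theorem result {G : Type*} [Group G] [Finite G] (M : Subgroup G) (hM : M ≠ ⊤) (hprim : ∀ N : Subgroup G, N ≤ M → M ≤ Subgroup.normalizer (N : Set G) → N ≠ ⊥ → Subgroup.normalizer (N : Set G) = M) {p : ℕ} [Fact p.Prime] (hOp : Cfsg.pCore p ↥M ≠ ⊥) (N : Subgroup G) [N.Normal] (hMN : M ⊓ N = ⊥) : ¬ p ∣ Nat.card N ∧ (∀ q : ℕ, [Fact q.Prime] → ∃! Q : Sylow q ↥N, M ≤ Subgroup.normalizer ((Q : Subgroup ↥N).map N.subtype : Set G)) ∧ ((∃ q r : ℕ, q.Prime ∧ r.Prime ∧ q ≠ r ∧ q ∣ Nat.card N ∧ r ∣ Nat.card N) → ¬ IsCoatom M) := by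
  have hp := (Fact.out : p.Prime)
  have hO : 𝓞({p}, M) ≠ ⊥ := by
    rwa [core_p_eq hp, Ne, map_eq_bot_iff_of_injective _ M.subtype_injective]
  set O := 𝓞({p}, M)
  have hO' : IsPi {p} O := core_pi _ _
  have h1 : N ⊓ 𝓒(O) = ⊥ := BG.eq_bot_mono (le_inf (inf_le_right.trans ((cent_le_norm O).trans
    (hprim O (core_le _ _) (le_norm_core _ _) hO).le)) inf_le_left) hMN
  have h2 : ¬ p ∣ ♯N := fun h => by
    obtain ⟨S, hS, h2⟩ := syl_superset hp hO' le_top
    have h3 := hS.inf_normal le_top (top_le_norm N S)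
    exact hO'.meet_cent h3.pi (norm_inf (le_norm_of_le h2) (top_le_norm N O))
      (h3.ne_bot hp rfl h) (BG.eq_bot_mono (inf_le_inf_right _ inf_le_right) h1)
  have hc := ((isPi_compl_iff hp).2 h2).coprime' hO'
  have hs : Group.IsSolvable O ∨ Group.IsSolvable N := Or.inl (hO'.isSolvable hp)
  have h3 : ∀ q, q.Prime → ∀ P Q, Syl q P N → O ≤ 𝓝(P) → Syl q Q N → O ≤ 𝓝(Q) → P = Q := by
    intro q hq P Q h3 h4 h5 h6
    obtain ⟨x, hx, rfl⟩ := coprime_Sylow_trans hq (top_le_norm N O) hc hs h3 h4 h5 h6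
    rw [mem_bot.1 (h1.le hx), cj_one]
  have h4 : ∀ q, q.Prime → ∃ Q, Syl q Q N ∧ M ≤ 𝓝(Q) := fun q hq => by
    obtain ⟨Q, h4, h5⟩ := coprime_Sylow_exists hq (top_le_norm N O) hc hs
    refine ⟨Q, h4, fun m hm => mem_norm_iff_cj.2 (h3 q hq _ _ (h4.cj_norm (top_le_norm N M hm)) ?_
      h4 h5)⟩
    exact (cj_of_mem_norm (le_norm_core {p} M hm)).ge.trans (norm_cj m h5)
  refine ⟨h2, fun q hq => ?_, fun ⟨q, r, hq, hr, h5, h6, h7⟩ h8 => ?_⟩
  · obtain ⟨Q, h5, h6⟩ := h4 q hq.out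
    obtain ⟨S, rfl⟩ := h5.exists_sylow hq.out
    exact ⟨S, h6, fun T hT => Sylow.ext (map_injective N.subtype_injective (h3 q hq.out _ _
      (syl_map hq.out T) ((core_le _ _).trans hT) h5 ((core_le _ _).trans h6)))⟩
  · obtain ⟨Q, h9, h10⟩ := h4 q hq
    have h11 := h8.2 (M ⊔ Q) (left_lt_sup.2 fun h => h9.ne_bot hq rfl h6
      (BG.eq_bot_mono (le_inf h h9.le) hMN))
    have h12 := sup_inf_of_le_right h10 h9.le
    rw [h11, top_inf_eq, hMN, bot_sup_eq] at h12
    exact h5 (h9.pi r hr (h12 ▸ h7)).symm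

end Cfsg.Agent.S3749
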