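import Cfsg.Statements.S3750
import Cfsg.Agent.Lib.Loc.AmbChar
import Cfsg.Agent.Lib.Loc.BendM
-- import your own Cfsg.Agent.* helpers here

set_option autoImplicit false
open Cfsg

namespace Cfsg.Agent.S3750

/-- Call a proper subgroup M of G primitive when M = N_G(N) for every non-trivial normal subgroup N of M. Let M be a primitive subgroup of the finite group G and N a normal subgroup of G with M ∩ F*(N) ≠ 1. Then F(G) = 1 and F*(N) = F*(G) = E(G); in particular every minimal normal subgroup of G is contained in N. -/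
theorem result {G : Type*} [Group G] [Finite G] (M : Subgroup G) (hM : M ≠ ⊤) (hprim : ∀ N : Subgroup G, N ≤ M → M ≤ Subgroup.normalizer (N : Set G) → N ≠ ⊥ → Subgroup.normalizer (N : Set G) = M) (N : Subgroup G) [N.Normal] (hMF : M ⊓ (Cfsg.generalizedFittingSubgroup ↥N).map N.subtype ≠ ⊥) : Cfsg.fittingSubgroup G = ⊥ ∧ (Cfsg.generalizedFittingSubgroup ↥N).map N.subtype = Cfsg.generalizedFittingSubgroup G ∧ Cfsg.generalizedFittingSubgroup G = Cfsg.layer G ∧ ∀ K : Subgroup G, K.Normal → K ≠ ⊥ → (∀ K' : Subgroup G, K'.Normal → K' ≤ K → K' = ⊥ ∨ K' = K) → K ≤ N := by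
  open Subgroup Cfsg CA CA.Amb CA.AmbSyl CA.AmbCore CA.AmbRes CA.AmbChar CA.AmbFs CA.AmbSpe CA.BendM in
  open scoped commutatorElement in
  (
    have cf : ∀ K : Subgroup G, K.Normal → K ≤ M → K = ⊥ := fun K hK l => by_contra fun n =>
      hM (top_le_iff.1 ((normal_iff_top_le.1 hK).trans (hprim K l norm_of_normal n).le))
    have nF : (FS N).Normal := normal_iff_top_le.2 (norm_FS norm_of_normal)
    have c : 𝐂 (FS N) ≤ M := (centralizer_anti inf_le_right).trans ((centralizer_le_normalizer _).trans
      (hprim _ inf_le_left (norm_inf le_normalizer norm_of_normal) hMF).le)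
    have c0 : 𝐂 (FS N) = ⊥ := cf _ (normal_iff_top_le.2 (norm_centralizer norm_of_normal)) c
    have sN : SN ⊤ N := SN.of_norm le_top norm_of_normal
    have f0 : FL N = ⊥ := by_contra fun n => inf_cent_ne_bot (isNilpotent_FL N) n (le_bot_iff.1 (le_trans (by
      rw [FS_eq, Amb.centralizer_sup]
      exact le_inf (inf_le_left.trans (cent_symm (EL_le_cent_FL N))) inf_le_right) c0.le))
    have e : FS N = EL N := by rw [FS_eq, f0, sup_bot_eq]
    have EN : EL N ≤ layer G := (SN.EL_le sN).trans EL_top.le
    have g0 : fittingSubgroup G = ⊥ := le_bot_iff.1 (le_trans (Comp.fitting_le_centralizer_layer.trans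
      (centralizer_anti (e.le.trans EN))) c0.le)
    have e2 := Fstar.fstar_eq_layer_of_fitting_eq_bot g0
    refine ⟨g0, ?_, e2, fun K hK h1 h2 => ?_⟩
    · rw [e2]
      refine le_antisymm (e.le.trans EN) (Comp.layer_le fun K hK => ?_)
      exact (Comp.comp_le_or_le_centralizer hK nF.isSubnormal).elim id fun h =>
        absurd (le_bot_iff.1 (h.trans c0.le)) (Comp.comp_ne_bot hK)
    · rcases h2 (K ⊓ FS N) inferInstance inf_le_left with h | h
      · exact absurd (le_bot_iff.1 ((Fitting.le_centralizer_of_inf_eq_bot norm_of_normal norm_of_normal h).trans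
          c0.le)) h1
      · exact h.ge.trans (inf_le_right.trans (FS_le N)))

end Cfsg.Agent.S3750
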