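import Cfsg.Statements.S3751
import Cfsg.Agent.Lib.Odd.BG1

set_option autoImplicit false
open Cfsg

namespace Cfsg.Agent.S3751

open Subgroup CA CA.BG

/-- `p`-local subgroups -/
def Loc {G : Type*} [Group G] (p : ℕ) (M : Subgroup G) : Prop :=
  ∃ T : Subgroup G, IsPGroup p T ∧ T ≠ ⊥ ∧ M = 𝓝(T)

/-- maximal `p`-local subgroups -/
def MLoc {G : Type*} [Group G] (p : ℕ) (M : Subgroup G) : Prop :=
  Loc p M ∧ ∀ L, Loc p L → M ≤ L → L = M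

theorem Loc.cj {G : Type*} [Group G] [Finite G] {p : ℕ} (hp : p.Prime) {M : Subgroup G} (h : Loc p M)
    (g : G) : Loc p (cj g M) := by
  obtain ⟨T, h1, h2, rfl⟩ := h
  exact ⟨_, ((isPi_of_isPGroup hp h1).cj g).isPGroup hp, fun h => h2 (by
    rw [cj_eq_iff.1 h]; exact Subgroup.map_bot _), cj_norm g T⟩

theorem MLoc.cj {G : Type*} [Group G] [Finite G] {p : ℕ} (hp : p.Prime) {M : Subgroup G}
    (h : MLoc p M) (g : G) : MLoc p (cj g M) :=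
  ⟨h.1.cj hp g, fun L hL h1 => by
    rw [← h.2 _ (hL.cj hp g⁻¹) (cj_le_iff.1 h1), ← cj_mul, mul_inv_cancel, cj_one]⟩

/-- Two distinct subgroups M₁, M₂ of G form a primitive pair when, for {i, j} = {1, 2}, every non-trivial normal subgroup A of M_i contained in M₁ ∩ M₂ satisfies N_{M_j}(A) = M₁ ∩ M₂; the pair has characteristic p when moreover C_{M_i}(O_p(M_i)) ≤ O_p(M_i) for both i and O_p(M₁)O_p(M₂) ≤ M₁ ∩ M₂. Let G be a finite group, p a prime dividing its order, with O_p(G) = 1 and every p-local subgroup of characteristic p. Then either G has a primitive pair of characteristic p, or every maximal p-local subgroup M of G is strongly p-embedded in G: M is a proper subgroup, p divides its order, and for every g ∉ M the order of M ∩ gMg⁻¹ is prime to p. -/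
theorem result {G : Type*} [Group G] [Finite G] {p : ℕ} [Fact p.Prime] (hloc : Cfsg.IsOfLocalCharacteristic p G) (hOp : Cfsg.pCore p G = ⊥) : (∃ M₁ M₂ : Subgroup G, M₁ ≠ M₂ ∧ (∀ A : Subgroup G, A ≠ ⊥ → A ≤ M₁ ⊓ M₂ → (M₁ ≤ Subgroup.normalizer (A : Set G) → M₂ ⊓ Subgroup.normalizer (A : Set G) = M₁ ⊓ M₂) ∧ (M₂ ≤ Subgroup.normalizer (A : Set G) → M₁ ⊓ Subgroup.normalizer (A : Set G) = M₁ ⊓ M₂)) ∧ Subgroup.centralizer (Cfsg.pCore p ↥M₁ : Set ↥M₁) ≤ Cfsg.pCore p ↥M₁ ∧ Subgroup.centralizer (Cfsg.pCore p ↥M₂ : Set ↥M₂) ≤ Cfsg.pCore p ↥M₂ ∧ (Cfsg.pCore p ↥M₁).map M₁.subtype ⊔ (Cfsg.pCore p ↥M₂).map M₂.subtype ≤ M₁ ⊓ M₂) ∨ (∀ M : Subgroup G, (∃ T : Subgroup G, IsPGroup p T ∧ T ≠ ⊥ ∧ M = Subgroup.normalizer (T : Set G)) → (∀ L : Subgroup G, (∃ T : Subgroup G, IsPGroup p T ∧ T ≠ ⊥ ∧ L = Subgroup.normalizer (T : Set G)) → M ≤ L → L = M) → M ≠ ⊤ ∧ p ∣ Nat.card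 M ∧ ∀ g : G, g ∉ M → ¬ p ∣ Nat.card ↥(M ⊓ M.map (MulAut.conj g).toMonoidHom)) := by
  have hp := (Fact.out : p.Prime)
  refine or_iff_not_imp_right.2 fun h => ?_
  have hch : ∀ M : Subgroup G, Loc p M → centralizer (pCore p M : Set M) ≤ pCore p M := by
    rintro _ ⟨T, h1, h2, rfl⟩; exact hloc.2 T h1 h2
  have hprim : ∀ M : Subgroup G, MLoc p M → ∀ A, A ≠ ⊥ → A ≤ M → M ≤ 𝓝(A) → 𝓝(A) = M := by
    intro M hM A h1 h2 h3
    have h4 : 𝓞({p}, A) ≠ ⊥ := fun h4 => by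
      have h5 : A ≤ 𝓒(𝓞({p}, M)) := cent_of_norm_disjoint (h2.trans (le_norm_core _ _))
        ((core_le _ _).trans h3) (by rw [inf_comm, ← core_eq_inf h2 h3, h4])
      refine h1 (BG.eq_bot_mono (le_core ((core_pi {p} M).of_le fun a ha => ?_) le_rfl
        le_normalizer) h4)
      rw [core_p_eq hp] at h5 ⊢
      exact ⟨⟨a, h2 ha⟩, hch M hM.1 fun y hy => Subtype.ext (h5 ha _ ⟨y, hy, rfl⟩), rfl⟩
    exact le_antisymm ((norm_le_norm_core {p} A).trans (hM.2 _ ⟨_, (core_pi {p} A).isPGroup hp, h4,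
      rfl⟩ (norm_core _ h3)).le) h3
  have hne : ∀ M : Subgroup G, Loc p M → M ≠ ⊥ := by
    rintro _ ⟨T, h1, h2, rfl⟩; exact ne_bot_mono le_normalizer h2
  obtain ⟨S₀, hS₀⟩ : ∃ S : Subgroup G, IsPi {p} S ∧ S ≠ ⊥ ∧
      ∃ M₁ M₂, MLoc p M₁ ∧ MLoc p M₂ ∧ M₁ ≠ M₂ ∧ S ≤ M₁ ∧ S ≤ M₂ := by
    by_contra h1
    refine h fun M h2 h3 => ⟨?_, ?_, fun g hg h4 => h1 ?_⟩
    · obtain ⟨T, h4, h5, rfl⟩ := h2
      intro h6
      haveI := normalizer_eq_top_iff.1 h6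
      refine h5 (BG.eq_bot_mono (le_core (isPi_of_isPGroup hp h4) le_top h6.ge) ?_)
      rw [core_p_top hp, hOp]
    · obtain ⟨T, h4, h5, rfl⟩ := h2
      exact ((isPi_of_isPGroup hp h4).dvd_card h5).trans (card_dvd le_normalizer)
    · obtain ⟨X, h5, h6⟩ := exists_card_eq_prime hp h4
      exact ⟨X, isPi_of_card_eq hp h6, ne_bot_of_prime (h6 ▸ hp), M, _, ⟨h2, h3⟩,
        MLoc.cj hp ⟨h2, h3⟩ g, fun h7 => hg ((hprim M ⟨h2, h3⟩ M (hne M h2) le_rfl le_normalizer).le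
          (mem_norm_iff_cj.2 h7.symm)), h5.trans inf_le_left, h5.trans inf_le_right⟩
  obtain ⟨S, -, ⟨h1, h2, M₁, M₂, h3, h4, h5, h6, h7⟩, hmax⟩ := exists_maximal_ge (P := fun S =>
    IsPi {p} S ∧ S ≠ ⊥ ∧ ∃ M₁ M₂, MLoc p M₁ ∧ MLoc p M₂ ∧ M₁ ≠ M₂ ∧ S ≤ M₁ ∧ S ≤ M₂) hS₀
  obtain ⟨M₃, h8, h9, h10⟩ := exists_maximal_ge (P := Loc p) ⟨S, h1.isPGroup hp, h2, rfl⟩
  have key : ∀ M, MLoc p M → S ≤ M → M ≠ M₃ → Syl p S M := fun M hM hS hn => by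
    obtain ⟨T, hT, h11⟩ := syl_superset hp h1 (le_inf hS le_normalizer)
    refine Hall.syl_of_norm hp ?_
    rwa [hmax T ⟨hT.pi, ne_bot_mono h11 h2, M, M₃, hM, ⟨h9, h10⟩, hn, hT.le.trans inf_le_left,
      hT.le.trans (inf_le_right.trans h8)⟩ h11] at hT
  have key2 : ∀ M M', MLoc p M → S ≤ M → Syl p S M' → MLoc p M' → M ≠ M' →
      ∃ M'', MLoc p M'' ∧ M' ≠ M'' ∧ Syl p S M'' := fun M M' hM hS hS' hM' hn => by
    by_cases h11 : Syl p S M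
    · exact ⟨M, hM, hn.symm, h11⟩
    obtain ⟨T, hT, h12⟩ := syl_superset hp h1 (le_inf hS le_normalizer)
    obtain ⟨x, hx, h13⟩ := SetLike.not_le_iff_exists.1 fun h13 : T ≤ M' =>
      h11 (Hall.syl_of_norm hp (hS'.eq_of_le hT.pi h12 h13 ▸ hT))
    refine ⟨_, hM'.cj hp x, fun h14 => h13 ((hprim M' hM' M' (hne M' hM'.1) le_rfl le_normalizer).le
      (mem_norm_iff_cj.2 h14.symm)), ?_⟩
    rw [← cj_of_mem_norm (hT.le hx).2]
    exact hS'.cj x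
  obtain ⟨L₁, L₂, k1, k2, k3, k4, k5⟩ : ∃ L₁ L₂, MLoc p L₁ ∧ MLoc p L₂ ∧ L₁ ≠ L₂ ∧ Syl p S L₁ ∧
      Syl p S L₂ := by
    by_cases h11 : M₁ = M₃
    · have := key M₂ h4 h7 (h11 ▸ h5.symm)
      obtain ⟨L, k1, k2, k3⟩ := key2 M₁ M₂ h3 h6 this h4 h5
      exact ⟨M₂, L, h4, k1, k2, this, k3⟩
    · have := key M₁ h3 h6 h11
      obtain ⟨L, k1, k2, k3⟩ := key2 M₂ M₁ h4 h7 this h3 h5.symm
      exact ⟨M₁, L, h3, k1, k2, this, k3⟩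
  refine ⟨L₁, L₂, k3, fun A hA hA' => ⟨fun h => ?_, fun h => ?_⟩, hch _ k1.1, hch _ k2.1, ?_⟩
  · rw [hprim L₁ k1 A hA (hA'.trans inf_le_left) h, inf_comm]
  · rw [hprim L₂ k2 A hA (hA'.trans inf_le_right) h]
  · rw [← core_p_eq hp, ← core_p_eq hp]
    exact (sup_le k4.core_le k5.core_le).trans (le_inf k4.le k5.le)

end Cfsg.Agent.S3751
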