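import Cfsg.Statements.S3752
import Cfsg.Agent.Lib.Loc.AmbChar
import Cfsg.Agent.Lib.Loc.BendM
-- import your own Cfsg.Agent.* helpers here

set_option autoImplicit false
open Cfsg

namespace Cfsg.Agent.S3752

/-- Bender's Theorem on primitive pairs. Two distinct subgroups M₁, M₂ of G form a primitive pair when, for {i, j} = {1, 2}, every non-trivial normal subgroup A of M_i contained in M₁ ∩ M₂ satisfies N_{M_j}(A) = M₁ ∩ M₂; the pair has characteristic p when moreover C_{M_i}(O_p(M_i)) ≤ O_p(M_i) for both i and O_p(M₁)O_p(M₂) ≤ M₁ ∩ M₂. If (M₁, M₂) is a primitive pair of the finite group G with F*(M₁) ≤ M₂ and F*(M₂) ≤ M₁, then for some prime p the pair has characteristic p. -/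
theorem result {G : Type*} [Group G] [Finite G] (M₁ M₂ : Subgroup G) (hne : M₁ ≠ M₂) (hP : ∀ A : Subgroup G, A ≠ ⊥ → A ≤ M₁ ⊓ M₂ → (M₁ ≤ Subgroup.normalizer (A : Set G) → M₂ ⊓ Subgroup.normalizer (A : Set G) = M₁ ⊓ M₂) ∧ (M₂ ≤ Subgroup.normalizer (A : Set G) → M₁ ⊓ Subgroup.normalizer (A : Set G) = M₁ ⊓ M₂)) (h₁ : (Cfsg.generalizedFittingSubgroup ↥M₁).map M₁.subtype ≤ M₂) (h₂ : (Cfsg.generalizedFittingSubgroup ↥M₂).map M₂.subtype ≤ M₁) : ∃ p : ℕ, p.Prime ∧ Subgroup.centralizer (Cfsg.pCore p ↥M₁ : Set ↥M₁) ≤ Cfsg.pCore p ↥M₁ ∧ Subgroup.centralizer (Cfsg.pCore p ↥M₂ : Set ↥M₂) ≤ Cfsg.pCore p ↥M₂ ∧ (Cfsg.pCore p ↥M₁).map M₁.subtype ⊔ (Cfsg.pCore p ↥M₂).map M₂.subtype ≤ M₁ ⊓ M₂ := by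
  open Subgroup Cfsg CA CA.Amb CA.AmbSyl CA.AmbCore CA.AmbRes CA.AmbChar CA.AmbFs CA.AmbSpe CA.BendM in
  open scoped commutatorElement in
  (
    obtain ⟨p, hp, k1, k2⟩ := bender0 (A := M₁) (B := M₂)
      (fun Q a b c d => ((hP Q a (le_inf b c)).1 d).le.trans inf_le_left)
      (fun Q a b c d => ((hP Q a (le_inf c b)).2 d).le.trans inf_le_right) hne h₁ h₂
    haveI := Fact.mk hp
    refine ⟨p, hp, Fstar.fstar_eq_pCore_iff.1 (Fstar.fstar_eq_pCore_of_isPGroup (pg_iff.1 k1)),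
      Fstar.fstar_eq_pCore_iff.1 (Fstar.fstar_eq_pCore_of_isPGroup (pg_iff.1 k2)), sup_le
      (le_inf (map_subtype_le _) ((map_mono (Fstar.pCore_le_fstar p)).trans h₁))
      (le_inf ((map_mono (Fstar.pCore_le_fstar p)).trans h₂) (map_subtype_le _))⟩)

end Cfsg.Agent.S3752
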