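import Cfsg.Statements.S3753
import Cfsg.Agent.Lib.Loc.H6Stab

set_option autoImplicit false
open Cfsg

namespace Cfsg.Agent.S3753

open Subgroup CA.Amb CA.AmbSyl CA.AmbCore CA.AmbRes CA.AmbChar CA.H6Op CA.H6Stab
open scoped commutatorElement

section
variable {G : Type*} [Group G] [Finite G] {p : ℕ} [hp : Fact p.Prime] {M M' Q A B D H : Subgroup G}

def F (Q A : Subgroup G) : Prop :=
  A ≤ Q ∧ Q ≤ 𝐍 A ∧ A ≤ 𝐂 A ∧ ∀ x ∈ Q, ⁅⁅A, zpowers x⁆, zpowers x⁆ = ⊥ → x ∈ 𝐂 A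

def St (p : ℕ) (M : Subgroup G) : Prop := ∀ V : Subgroup G, IsPGroup p V → M ≤ 𝐍 V → Stab p M V

theorem quad (hB : B ≤ 𝐂 B) (hA : A ≤ 𝐍 B) {y : G} (hy : y ∈ B) : ⁅⁅A, zpowers y⁆, zpowers y⁆ = ⊥ :=
  comm_eq_bot_of_le (((commutator_mono le_rfl (zpowers_le.2 hy)).trans (commutator_le_right_of_norm hA)).trans
    (hB.trans (centralizer_anti (zpowers_le.2 hy))))

theorem F.sup (hA : F Q A) (hB : F Q B) : F Q (A ⊔ B) := by
  have h1 : B ≤ 𝐂 A := fun y hy => hA.2.2.2 y (hB.1 hy) (quad hB.2.2.1 (hA.1.trans hB.2.1) hy)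
  refine ⟨sup_le hA.1 hB.1, norm_sup hA.2.1 hB.2.1, ?_, fun x hx h => ?_⟩
  · rw [centralizer_sup]
    exact sup_le (le_inf hA.2.2.1 (cent_symm h1)) (le_inf h1 hB.2.2.1)
  · rw [centralizer_sup]
    exact ⟨hA.2.2.2 x hx (le_bot_iff.1 (h ▸ commutator_mono (commutator_mono le_sup_left le_rfl) le_rfl)),
      hB.2.2.2 x hx (le_bot_iff.1 (h ▸ commutator_mono (commutator_mono le_sup_right le_rfl) le_rfl))⟩

theorem exV (hM : CharP p M) (hs : St p M) (h0 : M ≠ ⊥) (hQ : IsPGroup p Q) (hQM : Q ≤ M)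
    (hT : pCoreOf p M ≤ Q) : ∃ V, V ≠ ⊥ ∧ M ≤ 𝐍 V ∧ F Q V := by
  obtain ⟨S, hS, hQS⟩ := exists_sylIn_ge hQ hQM
  have hZ : S ⊓ 𝐂 S ≤ 𝐂 (pCoreOf p M) := inf_le_right.trans (centralizer_anti (hT.trans hQS))
  have h1 : ncl (S ⊓ 𝐂 S) M ≤ pCoreOf p M :=
    ncl_le (hM.le_of_cent (inf_le_left.trans hS.le) hZ) (norm_pCoreOf p M)
  have h2 : ncl (S ⊓ 𝐂 S) M ≤ 𝐂 (pCoreOf p M) := ncl_le_cent (norm_pCoreOf p M) hZ
  refine ⟨ncl (S ⊓ 𝐂 S) M, fun h => ?_, norm_ncl _ _, h1.trans hT, hQM.trans (norm_ncl _ _),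
    h2.trans (centralizer_anti h1), fun x hx h => ?_⟩
  · haveI : Nontrivial S := (nontrivial_iff_ne_bot _).2 fun h =>
      hM.pCoreOf_ne_bot h0 (le_bot_iff.1 (h ▸ hT.trans hQS))
    have := (nontrivial_iff_ne_bot _).1 (hS.pg.center_nontrivial)
    rw [Ne, ← map_eq_bot_iff_of_injective _ S.subtype_injective, map_subtype_center] at this
    exact this (le_bot_iff.1 (h ▸ le_ncl _ _))
  · have hp' := (isPGroup_pCoreOf p M).to_le h1
    have h3 := (hs _ hp' (norm_ncl _ _)).mem hp' (norm_ncl _ _) (hQM hx) h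
    refine cent_symm (ncl_le_cent (norm_Op p M _) (cent_symm ((Op_le_sup hS).trans ?_))) h3
    exact sup_le (cent_symm inf_le_right) (centralizer_anti (le_ncl _ _))

theorem inf_le (hH : H ≤ M) (hn : M ≤ 𝐍 H) (hT : pCoreOf p M ≤ H) (hE : pResidualOf p H ≤ M')
    (hT' : pCoreOf p M' ≤ M) : H ⊓ pCoreOf p M' ≤ pCoreOf p M := by
  obtain ⟨P, hP, h1⟩ := exists_sylIn_ge (isPGroup_sup_of_norm
    ((isPGroup_pCoreOf p M').to_le (inf_le_right : H ⊓ pCoreOf p M' ≤ _)) (isPGroup_pCoreOf p M)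
    ((inf_le_left.trans hH).trans (norm_pCoreOf p M))) (sup_le inf_le_left hT)
  have h2 : pResidualOf p H ⊓ pCoreOf p M' ≤ pCoreOf p M :=
    (le_pCoreOf inf_le_left ((isPGroup_pCoreOf p M').to_le inf_le_right)
      (norm_inf le_normalizer (hE.trans (norm_pCoreOf p M')))).trans
      (pCoreOf_le_of_norm ((res_le p H).trans hH) (norm_res_of_norm hn))
  refine (le_pCoreOf_of_forall_conj hP.le hP.pg fun g hg y hy => ?_).trans (pCoreOf_le_of_norm hH hn)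
  rw [← syl_sup_res hP, sup_comm] at hg
  obtain ⟨e, he, s, hs, rfl⟩ := (mem_sup_of_norm' (hP.le.trans (norm_res p H))).1 hg
  rw [← cj_cj, cj_eq_self_of_mem hs, mem_cj, show e⁻¹ * y * e = (e⁻¹ * y * e * y⁻¹) * y by group]
  refine mul_mem (h1 (mem_sup_right (h2 ⟨?_, mul_mem (inv_conj_mem_of_mem_normalizer
    (norm_pCoreOf p M' (hE he)) hy.2) (Subgroup.inv_mem _ hy.2)⟩))) (h1 (mem_sup_left hy))
  rw [mul_assoc e⁻¹, mul_assoc e⁻¹]
  exact Subgroup.mul_mem _ (inv_mem he) (conj_mem_of_mem_normalizer (norm_res p H hy.1) he)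

theorem F.nc (hM : CharP p M) (hs : St p M) (hT' : pCoreOf p M' ≤ M)
    (hD : F (pCoreOf p M ⊔ pCoreOf p M') D) (hC : M ⊓ 𝐂 D ≤ M') :
    F (pCoreOf p M ⊔ pCoreOf p M') (ncl D M) := by
  have hQ : pCoreOf p M ⊔ pCoreOf p M' ≤ M := sup_le (pCoreOf_le p M) hT'
  have h1 : D ≤ pCoreOf p M := fun d hd => by
    rw [← Op_eq_pCoreOf (charP_iff_isPGroup.1 hM)]
    exact (hs _ (isPGroup_pCoreOf p M) (norm_pCoreOf p M)).mem (isPGroup_pCoreOf p M) (norm_pCoreOf p M)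
      (hQ (hD.1 hd)) (quad hD.2.2.1 (le_sup_left.trans hD.2.1) hd)
  have h2 : ncl D M ≤ pCoreOf p M := ncl_le h1 (norm_pCoreOf p M)
  have key : ∀ g ∈ M, ∀ x ∈ pCoreOf p M, ⁅⁅cj g D, zpowers x⁆, zpowers x⁆ = ⊥ →
      cj g D ≤ 𝐂 (zpowers x) := fun g hg x hx h => by
    have h3 := hD.2.2.2 (g⁻¹ * x * g⁻¹⁻¹) (mem_sup_left
      (conj_mem_of_mem_normalizer (norm_pCoreOf p M (inv_mem hg)) hx)) (by
        rw [← cj_zpowers, ← cj_inv_cj g D, ← cj_commutator, ← cj_commutator, h, cj_bot])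
    rw [cj_le_iff, cj_centralizer, cj_zpowers]
    exact cent_symm (zpowers_le.2 h3)
  have key2 : ∀ x ∈ pCoreOf p M, (∀ g ∈ M, ⁅⁅cj g D, zpowers x⁆, zpowers x⁆ = ⊥) →
      x ∈ 𝐂 (ncl D M) := fun x hx h =>
    cent_symm (ncl_le_iff.2 fun g hg => key g hg x hx (h g hg)) (mem_zpowers x)
  refine ⟨h2.trans le_sup_left, hQ.trans (norm_ncl _ _), ncl_le_iff.2 fun h hh y hy =>
    key2 y (h2 (cj_le_ncl D hh hy)) fun g hg => quad ?_ (((cj_le_ncl D hg).trans h2).trans ?_) hy,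
    fun x hx h => key2 x ?_ fun g hg =>
      le_bot_iff.1 (h ▸ commutator_mono (commutator_mono (cj_le_ncl D hg) le_rfl) le_rfl)⟩
  · rw [← cj_centralizer]; exact cj_mono h hD.2.2.1
  · rw [← cj_normalizer, ← cj_eq_self (norm_pCoreOf p M hh)]
    exact cj_mono h (le_sup_left.trans hD.2.1)
  · have hp' := (isPGroup_pCoreOf p M).to_le h2
    have h3 := (hs _ hp' (norm_ncl _ _)).mem hp' (norm_ncl _ _) (hQ hx) h
    obtain ⟨t, ht, t', ht', rfl⟩ := (mem_sup_of_norm' (hT'.trans (norm_pCoreOf p M))).1 hx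
    exact mul_mem ht (inf_le (Op_le p M _) (norm_Op p M _) (pCoreOf_le_Op p M _)
      ((le_inf ((res_le p _).trans (Op_le p M _)) ((res_Op_le _).trans
        (centralizer_anti (le_ncl D M)))).trans hC) hT'
      ⟨(mul_mem_cancel_left (pCoreOf_le_Op p M _ ht)).1 h3, ht'⟩)

theorem st_of (hM : CharP p M) (h : AbSyl 2 M) : St p M := fun V hV hn => by
  by_cases h2 : p = 2
  · subst h2
    intro A hA hA2 _
    haveI := h _ (sup_le hA (pCoreOf_le 2 M))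
      (isPGroup_sup_of_norm hA2 (isPGroup_pCoreOf 2 M) (hA.trans (norm_pCoreOf 2 M)))
    exact (hM.le_of_cent hA ((le_sup_left.trans (le_centralizer _)).trans
      (centralizer_anti le_sup_right))).trans (pCoreOf_le_Op 2 M _)
  · exact stab_of_abSyl h2 hV hn h
end

/-- Two distinct subgroups M₁, M₂ of G form a primitive pair when, for {i, j} = {1, 2}, every non-trivial normal subgroup A of M_i contained in M₁ ∩ M₂ satisfies N_{M_j}(A) = M₁ ∩ M₂; the pair has characteristic p when moreover C_{M_i}(O_p(M_i)) ≤ O_p(M_i) for both i and O_p(M₁)O_p(M₂) ≤ M₁ ∩ M₂. If the finite group G has a primitive pair (M₁, M₂) of characteristic p for some prime p, then M₁ or M₂ has non-abelian Sylow 2-subgroups. In particular no group of odd order has a primitive pair of characteristic p. -/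
theorem result {G : Type*} [Group G] [Finite G] {p : ℕ} [Fact p.Prime] (M₁ M₂ : Subgroup G) (hne : M₁ ≠ M₂) (hP : ∀ A : Subgroup G, A ≠ ⊥ → A ≤ M₁ ⊓ M₂ → (M₁ ≤ Subgroup.normalizer (A : Set G) → M₂ ⊓ Subgroup.normalizer (A : Set G) = M₁ ⊓ M₂) ∧ (M₂ ≤ Subgroup.normalizer (A : Set G) → M₁ ⊓ Subgroup.normalizer (A : Set G) = M₁ ⊓ M₂)) (hc₁ : Subgroup.centralizer (Cfsg.pCore p ↥M₁ : Set ↥M₁) ≤ Cfsg.pCore p ↥M₁) (hc₂ : Subgroup.centralizer (Cfsg.pCore p ↥M₂ : Set ↥M₂) ≤ Cfsg.pCore p ↥M₂) (hO : (Cfsg.pCore p ↥M₁).map M₁.subtype ⊔ (Cfsg.pCore p ↥M₂).map M₂.subtype ≤ M₁ ⊓ M₂) : (∃ S : Sylow 2 ↥M₁, ¬ IsMulCommutative (S : Subgroup ↥M₁)) ∨ (∃ S : Sylow 2 ↥M₂, ¬ IsMulCommutative (S : Subgroup ↥M₂)) := by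
  haveI : Fact (Nat.Prime 2) := ⟨Nat.prime_two⟩
  by_contra! h
  have c1 : CharP p M₁ := charP_iff.2 hc₁
  have c2 : CharP p M₂ := charP_iff.2 hc₂
  have s1 := st_of c1 (abSyl_of_sylow default (h.1 _))
  have s2 := st_of c2 (abSyl_of_sylow default (h.2 _))
  change pCoreOf p M₁ ⊔ pCoreOf p M₂ ≤ _ at hO
  have t1 : pCoreOf p M₁ ≤ M₂ := (le_sup_left.trans hO).trans inf_le_right
  have t2 : pCoreOf p M₂ ≤ M₁ := (le_sup_right.trans hO).trans inf_le_left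
  have n1 : M₁ ≠ ⊥ := fun h1 => by
    by_cases h2 : M₂ = ⊥
    · exact hne (h1.trans h2.symm)
    · exact c2.pCoreOf_ne_bot h2 (le_bot_iff.1 (h1 ▸ t2))
  have n2 : M₂ ≠ ⊥ := fun h2 => c1.pCoreOf_ne_bot n1 (le_bot_iff.1 (h2 ▸ t1))
  have hQ := isPGroup_sup_of_norm (isPGroup_pCoreOf p M₁) (isPGroup_pCoreOf p M₂)
    (t1.trans (norm_pCoreOf p M₂))
  obtain ⟨V₁, v0, v1, v2⟩ := exV c1 s1 n1 hQ (hO.trans inf_le_left) le_sup_left
  obtain ⟨V₂, w0, w1, w2⟩ := exV c2 s2 n2 hQ (hO.trans inf_le_right) le_sup_right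
  obtain ⟨D, ⟨hD, hVD⟩, hmax⟩ := Set.Finite.exists_maximal (Set.toFinite
    {D | F (pCoreOf p M₁ ⊔ pCoreOf p M₂) D ∧ V₁ ⊔ V₂ ≤ D}) ⟨_, v2.sup w2, le_rfl⟩
  have d1 : M₁ ≤ 𝐍 D := by
    have h1 := hD.nc c1 s1 t2 (le_trans (inf_le_inf_left _ ((centralizer_anti (le_sup_right.trans hVD)).trans
      (norm_of_centralizer le_rfl))) (((hP V₂ w0 (w2.1.trans hO)).2 w1).le.trans inf_le_right))
    rw [le_antisymm (le_ncl D M₁) (hmax ⟨h1, hVD.trans (le_ncl _ _)⟩ (le_ncl _ _))]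
    exact norm_ncl _ _
  have d2 : M₂ ≤ 𝐍 D := by
    have h1 := F.nc c2 s2 t1 (sup_comm (pCoreOf p M₁) _ ▸ hD) (le_trans (inf_le_inf_left _
      ((centralizer_anti (le_sup_left.trans hVD)).trans
      (norm_of_centralizer le_rfl))) (((hP V₁ v0 (v2.1.trans hO)).1 v1).le.trans inf_le_left))
    rw [sup_comm] at h1
    rw [le_antisymm (le_ncl D M₂) (hmax ⟨h1, hVD.trans (le_ncl _ _)⟩ (le_ncl _ _))]
    exact norm_ncl _ _
  obtain ⟨e1, e2⟩ := hP D (fun h => v0 (le_bot_iff.1 (h ▸ le_sup_left.trans hVD))) (hD.1.trans hO)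
  exact hne (((inf_eq_left.2 d1).symm.trans (e2 d2)).trans ((inf_eq_left.2 d2).symm.trans (e1 d1)).symm)

end Cfsg.Agent.S3753
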