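import Cfsg.Statements.S3754
import Cfsg.Agent.Lib.Loc.AmbRes
import Cfsg.Agent.Lib.Grp.Hyp
import Cfsg.Agent.Lib.Solv.HH3
import Cfsg.Agent.Lib.Grp.PRes

set_option autoImplicit false
open Cfsg

namespace Cfsg.Agent.S3754

open Subgroup CA.BG CA.OQuo
open scoped commutatorElement

theorem map_cj {G H : Type*} [Group G] [Group H] (f : G →* H) (g : G) (K : Subgroup G) :
    (cj g K).map f = cj (f g) (K.map f) := by
  simp only [cj_def, Subgroup.map_map]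
  congr 1
  ext x
  simp

theorem main {M : Type*} [Group M] [Finite M] {p : ℕ} [hp : Fact p.Prime] (hM : IsPSolvable p M)
    (A : Subgroup M) (hA : IsPGroup p A) (hΦ : Phi A ≤ pCore p M) (hnot : ¬ A ≤ pCore p M) :
    ∃ x ∈ (pPrimeCore p (M ⧸ pCore p M)).comap (QuotientGroup.mk' (pCore p M)),
      x ∈ pResidualOf p (A ⊔ cj x A) ∧
      pResidualOf p (A ⊔ cj x A) ≤ (pPrimeCore p (M ⧸ pCore p M)).comap (QuotientGroup.mk' (pCore p M)) ∧
      ⁅pResidualOf p (A ⊔ cj x A), A⁆ = pResidualOf p (A ⊔ cj x A) ∧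
      (A ⊓ 𝓞({p}, A ⊔ cj x A)).relIndex A = p ∧
      ⁅A ⊓ 𝓞({p}, A ⊔ cj x A), A ⊔ cj x A⁆ ≤ pCore p M := by
  set f := QuotientGroup.mk' (pCore p M) with hf
  set F := pPrimeCore p (M ⧸ pCore p M) with hF
  have hk : f.ker = pCore p M := QuotientGroup.ker_mk' _
  have hAπ : IsPi {p} A := isPi_of_isPGroup hp.out hA
  have hFπ : IsPi {p}ᶜ F := CA.HH.isPi_p'core hp.out
  have hBπ : IsPi {p} (A.map f) := isPi_of_isPGroup hp.out (hA.map f)
  have hel : IsElementaryAbelian p (A.map f) := by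
    refine ⟨comm_iff_der_eq_bot.2 ?_, ?_⟩
    · rw [← Subgroup.map_commutator, Subgroup.map_eq_bot_iff, hk]
      exact (der_le_Phi hp.out hAπ).trans hΦ
    · rintro _ ⟨a, ha, rfl⟩
      rw [← map_pow, ← MonoidHom.mem_ker, hk]
      exact hΦ (pow_mem_Phi hp.out hAπ ha)
  have hne : A.map f ≠ ⊥ := by rwa [Ne, Subgroup.map_eq_bot_iff, hk]
  have hFn : ∀ X : Subgroup (M ⧸ pCore p M), X ≤ 𝓝(F) := fun X => le_normalizer_of_normal
  have hd : A.map f ⊓ F = ⊥ := hBπ.inf_eq_bot hFπ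
  have hnc : ¬ F ≤ 𝓒(A.map f) := fun h => hne (le_bot_iff.1 (hd ▸ le_inf le_rfl
    ((cent_symm h).trans (CA.HH.cent_p'core (CA.H12PSolv.psolv_quotient hM _) (CA.HH.pcore_quot hp.out)))))
  obtain ⟨B, hB, hBi, hBc⟩ : ∃ B ≤ A.map f, B.relIndex (A.map f) = p ∧ ¬ F ⊓ 𝓒(B) ≤ 𝓒(A.map f) := by
    by_contra! h
    exact hnc (CA.Hyp.le_of_forall_hyperplane hel hne (hFn _) ((isPi_compl_iff_coprime hp.out).1 hFπ) h)
  set W := (F ⊓ 𝓒(B)).comap f with hW
  have hAW : A ≤ 𝓝(W) := by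
    have h1 : A.map f ≤ 𝓝(F ⊓ 𝓒(B)) := norm_inf (hFn _) (norm_cent (norm_of_comm hel.1 hB))
    exact (map_le_iff_le_comap.1 h1).trans (le_normalizer_comap f)
  have hex : ∃ n, ∃ y ∈ W, f y ∉ 𝓒(A.map f) ∧ ♯(A ⊔ cj y A : Subgroup M) = n := by
    obtain ⟨y, hy, hy'⟩ := SetLike.not_le_iff_exists.1 hBc
    obtain ⟨y, rfl⟩ := QuotientGroup.mk'_surjective _ y
    exact ⟨_, y, hy, hy', rfl⟩
  classical
  obtain ⟨y, hyW, hyc, hyn⟩ := Nat.find_spec hex
  have hLW : ∀ y ∈ W, A ⊔ cj y A ≤ A ⊔ W := fun y hy =>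
    sup_le le_sup_left (cj_le_of_mem (mem_sup_right hy) le_sup_left)
  have hRW : ∀ y ∈ W, pResidualOf p (A ⊔ cj y A) ≤ W := fun y hy =>
    CA.AmbRes.res_le_of_le_sup hA hAW (hLW y hy)
  obtain ⟨T, hT, hAT⟩ := syl_superset hp.out hAπ (le_sup_left : A ≤ A ⊔ cj y A)
  have hTf : T.map f = A.map f := by
    refine (hall_sup_normal hBπ (hFn _) hFπ).eq_of_le
      (isPi_of_isPGroup hp.out ((hT.pi.isPGroup hp.out).map f)) (map_mono hAT) ?_
    refine (map_mono (hT.le.trans (hLW y hyW))).trans ?_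
    rw [Subgroup.map_sup]
    exact sup_le_sup_left ((map_comap_le _ _).trans inf_le_left) _
  obtain ⟨z, hz, hzT⟩ := hT.syl_le_conj hp.out (hAπ.cj y) le_sup_right
  obtain ⟨u, hu, t, ht, rfl⟩ := CA.PRes.exists_mul_eq_of_isSylowIn ((syl_iff hp.out).1 hT) hz
  rw [cj_mul, cj_of_mem ht] at hzT
  have huW : u ∈ W := hRW y hyW hu
  have huc : f u ∉ 𝓒(A.map f) := fun h => hyc (by
    have h1 := map_mono (f := f) hzT
    rw [map_cj, map_cj, hTf, cj_of_mem_cent h] at h1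
    have h2 : zpowers (f y) ≤ 𝓝(A.map f) := zpowers_le.2 (mem_norm_of_cj_le h1)
    refine comm_eq_bot_iff.1 (le_bot_iff.1 (hd ▸ le_inf (comm_le_right h2) ?_)) (mem_zpowers _)
    exact (commutator_mono (zpowers_le.2 hyW.1) le_rfl).trans (comm_le_left (hFn _)))
  have huL : u ∈ A ⊔ cj y A := CA.AmbRes.res_le p _ hu
  have hL : A ⊔ cj u A = A ⊔ cj y A := eq_of_le_of_card_le
    (sup_le le_sup_left (cj_le_of_mem huL le_sup_left))
    (hyn ▸ Nat.find_min' hex ⟨u, huW, huc, rfl⟩)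
  change u ∈ pResidualOf p _ at hu
  rw [← hL] at hu
  set L := A ⊔ cj u A with hLd
  set R := pResidualOf p L with hR
  have hRL : R ≤ L := CA.AmbRes.res_le p _
  have hAR : A ≤ 𝓝(R) := le_sup_left.trans (CA.AmbRes.norm_res p L)
  have hBL : L.map f ≤ 𝓒(B) := by
    rw [hLd, Subgroup.map_sup, map_cj]
    have h1 : A.map f ≤ 𝓒(B) := cent_of_comm hel.1 le_rfl hB
    exact sup_le h1 (cj_le_of_mem huW.2 h1)
  have hA0 : ⁅A ⊓ B.comap f, L⁆ ≤ pCore p M := by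
    refine le_of_le_of_eq ?_ hk
    rw [← Subgroup.map_eq_bot_iff, Subgroup.map_commutator, comm_eq_bot_iff]
    exact ((map_mono inf_le_right).trans (map_comap_le _ _)).trans (cent_symm hBL)
  have hi : (A ⊓ B.comap f).relIndex A = p := by
    rw [inf_relIndex_left, relIndex_comap, hBi]
  have h0 : A ⊓ B.comap f ≤ A ⊓ 𝓞({p}, L) := by
    refine le_inf inf_le_left (le_sup_left.trans (le_core (K := (A ⊓ B.comap f) ⊔ (pCore p M ⊓ L))
      ((hAπ.inf_left _).sup ((CA.HH.isPi_pcore hp.out).inf_left _) ?_)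
      (sup_le (inf_le_left.trans le_sup_left) inf_le_right) ?_))
    · exact norm_inf le_normalizer_of_normal (le_norm_of_le (inf_le_left.trans le_sup_left))
    · have hn : L ≤ 𝓝(pCore p M ⊓ L) := norm_inf le_normalizer_of_normal (le_norm_self _)
      refine norm_of_comm_le_left ?_
      refine (CA.AmbRes.comm_sup_le (M := pCore p M ⊓ L) ((inf_le_left.trans le_sup_left).trans hn)
        (inf_le_right.trans hn) (le_inf hA0 (comm_le_of_le (inf_le_left.trans le_sup_left) le_rfl))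
        (comm_le_left hn)).trans le_sup_right
  have h1 : ¬ A ≤ 𝓞({p}, L) := fun h => huc (by
    have h2 : L ≤ 𝓞({p}, L) := sup_le h (by
      rw [← cj_of_mem_norm (le_norm_core {p} L (hRL hu))]; exact cj_mono _ h)
    have h3 : R = ⊥ := CA.AmbRes.res_eq_bot_of_isPGroup (((core_pi {p} L).of_le h2).isPGroup hp.out)
    rw [h3, mem_bot] at hu
    rw [hu, map_one]; exact one_mem _)
  have h2 : A ⊓ 𝓞({p}, L) = A ⊓ B.comap f := by
    have h3 := relIndex_mul_relIndex _ _ _ h0 (inf_le_left : A ⊓ 𝓞({p}, L) ≤ A)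
    rw [hi] at h3
    rcases (Nat.dvd_prime hp.out).1 (Dvd.intro_left _ h3) with h4 | h4
    · exact absurd ((relIndex_eq_one.1 h4).trans inf_le_right) h1
    · rw [h4] at h3
      exact le_antisymm (relIndex_eq_one.1 ((Nat.mul_eq_right hp.out.ne_zero).1 h3)) h0
  refine ⟨u, huW.1, hu, (hRW u huW).trans (comap_mono inf_le_left), ?_, h2 ▸ hi, h2 ▸ hA0⟩
  refine le_antisymm (comm_le_left hAR) (CA.AmbRes.res_le_of_le_sup hA (CA.AmbRes.norm_comm_right R A) ?_)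
  refine sup_le le_sup_left fun x hx => ?_
  obtain ⟨a, ha, rfl⟩ := mem_cj'.1 hx
  have : u * a * u⁻¹ = ⁅u, a⁆ * a := by simp [commutatorElement_def]
  rw [this]
  exact mul_mem (mem_sup_right (commutator_mem_commutator hu ha)) (mem_sup_left ha)

/-- Let M be a finite p-soluble group and A a p-subgroup of M with Φ(A) ≤ O_p(M) but A ≰ O_p(M). Then there is x ∈ O_{p,p'}(M) such that L = ⟨A, xAx⁻¹⟩ satisfies: x ∈ O^p(L) and O^p(L) ≤ O_{p,p'}(M); [O^p(L), A] = O^p(L); A ∩ O_p(L) has index p in A; and [A ∩ O_p(L), L] ≤ O_p(M). Here O^p(L) is the subgroup generated by the p'-elements of L and O_{p,p'}(M) the preimage of O_{p'}(M/O_p(M)). -/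
theorem result {M : Type*} [Group M] [Finite M] {p : ℕ} [Fact p.Prime] (hM : Cfsg.IsPSolvable p M) (A : Subgroup M) (hA : IsPGroup p A) (hΦ : (frattini ↥A).map A.subtype ≤ Cfsg.pCore p M) (hnot : ¬ A ≤ Cfsg.pCore p M) : ∃ x ∈ (Cfsg.pPrimeCore p (M ⧸ Cfsg.pCore p M)).comap (QuotientGroup.mk' (Cfsg.pCore p M)), x ∈ (Cfsg.pResidual p ↥(A ⊔ A.map (MulAut.conj x).toMonoidHom)).map (A ⊔ A.map (MulAut.conj x).toMonoidHom).subtype ∧ (Cfsg.pResidual p ↥(A ⊔ A.map (MulAut.conj x).toMonoidHom)).map (A ⊔ A.map (MulAut.conj x).toMonoidHom).subtype ≤ (Cfsg.pPrimeCore p (M ⧸ Cfsg.pCore p M)).comap (QuotientGroup.mk' (Cfsg.pCore p M)) ∧ ⁅(Cfsg.pResidual p ↥(A ⊔ A.map (MulAut.conj x).toMonoidHom)).map (A ⊔ A.map (MulAut.conj x).toMonoidHom).subtype, A⁆ = (Cfsg.pResidual p ↥(A ⊔ A.map (MulAut.conj x).toMonoidHom)).map (A ⊔ A.map (MulAut.conj x).toMonoidHom).subtype ∧ (A ⊓ (Cfsg.pCore p ↥(A ⊔ A.map (MulAut.conj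 x).toMonoidHom)).map (A ⊔ A.map (MulAut.conj x).toMonoidHom).subtype).relIndex A = p ∧ ⁅A ⊓ (Cfsg.pCore p ↥(A ⊔ A.map (MulAut.conj x).toMonoidHom)).map (A ⊔ A.map (MulAut.conj x).toMonoidHom).subtype, A ⊔ A.map (MulAut.conj x).toMonoidHom⁆ ≤ Cfsg.pCore p M := by
  have h := main hM A hA hΦ hnot
  simp only [core_p_eq (Fact.out : p.Prime)] at h
  exact h

end Cfsg.Agent.S3754
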