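import Cfsg.Statements.S3756
import Cfsg.Agent.S2796

set_option autoImplicit false
open Cfsg

namespace Cfsg.Agent.S3756

open Subgroup CA.Amb CA.AmbSyl CA.AmbCore CA.H6Stab

theorem sec_local {G X : Type*} [Group G] [Group X] [Finite G] (h : Sec X (⊤ : Subgroup G) ⊥)
    (A : Subgroup X) [A.Normal] (hA : IsPGroup 2 A) (hne : A ≠ ⊥) :
    ∃ P : Subgroup G, IsPGroup 2 P ∧ P ≠ ⊥ ∧ Sec X (𝐍 P) ⊥ := by
  have : Fact (Nat.Prime 2) := ⟨Nat.prime_two⟩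
  obtain ⟨K, -, ψ, hψ, -⟩ := h
  obtain ⟨T, hT, hm, hn⟩ := CA.H6Dih.exists_syl_lift hψ A hA
  have h4 : Sec X (𝐍 T) ⊥ := ⟨𝐍 T, le_rfl, ψ.comp (𝐍 T).subtype,
    fun y => (hn y).elim fun n h => ⟨⟨n, h.1⟩, h.2⟩,
    fun x hx => by rw [mem_bot] at hx; rw [MonoidHom.comp_apply, coe_subtype, hx, map_one]⟩
  have h5 := h4.map_injective K.subtype_injective
  rw [map_subtype_normalizer] at h5
  refine ⟨_, hT.map K.subtype, fun h0 => hne ?_, h5.mono inf_le_right bot_le⟩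
  rw [map_eq_bot_iff_of_injective _ K.subtype_injective] at h0
  rw [← hm, h0, Subgroup.map_bot]

theorem key {G : Type*} [Group G] [Finite G] {A T : Subgroup G} (hT : SylIn 2 T ⊤) (hA : A ≤ T)
    (hc : ∀ (P : Subgroup G) (g : G), P ≤ T → cj g P ≤ T → ∃ x ∈ 𝐍 A, ∀ a ∈ P, g * a * g⁻¹ = x * a * x⁻¹)
    {P : Subgroup G} (hP : P ≤ T) (h2 : IsOfCharacteristicTwo ↥(𝐍 P)) : 𝐍 P ≤ 𝐍 A := by
  have : Fact (Nat.Prime 2) := ⟨Nat.prime_two⟩
  have hTA : T ≤ 𝐍 A := fun t ht => by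
    obtain ⟨x, hx, e⟩ := hc T t le_rfl (cj_le_of_mem le_rfl ht)
    exact mem_normalizer_of_cj_le (cj_le_iff'.2 fun a ha => by
      rw [e a (hA ha)]; exact conj_mem_of_mem_normalizer hx ha)
  set Q := pCoreOf 2 (𝐍 P) with hQ
  have hPQ : P ≤ Q := le_pCoreOf le_normalizer (hT.pg.to_le hP) le_rfl
  have hCQ : 𝐂 Q ≤ Q := fun c hc' => by
    have h1 : c ∈ 𝐍 P := centralizer_le_normalizer _ (centralizer_anti hPQ hc')
    have : (⟨c, h1⟩ : 𝐍 P) ∈ pCore 2 ↥(𝐍 P) := h2 (mem_centralizer_sub.2 fun y hy =>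
      Subtype.ext (mem_centralizer_sub.1 hc' y (mem_pCoreOf_iff.2 hy)))
    exact mem_pCoreOf_iff.2 this
  obtain ⟨g, -, hg⟩ := hT.exists_conj_le (isPGroup_pCoreOf 2 (𝐍 P)) le_top
  obtain ⟨n, hn, e⟩ := hc P g hP ((cj_mono g hPQ).trans hg)
  have h1 : g⁻¹ * n ∈ 𝐍 P := centralizer_le_normalizer _ (mem_centralizer_sub.2 fun a ha => by
    have := e a ha
    calc a * (g⁻¹ * n) = g⁻¹ * (g * a * g⁻¹) * n := by group
      _ = g⁻¹ * n * a := by rw [this]; group)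
  have h3 : cj n Q ≤ T := by
    have : cj n Q = cj g (cj (g⁻¹ * n) Q) := by rw [cj_cj, mul_inv_cancel_left]
    rw [this, cj_eq_self (norm_pCoreOf 2 _ h1)]
    exact hg
  intro l hl
  obtain ⟨m, hm, e'⟩ := hc (cj n Q) (n * l * n⁻¹) h3 (by
    rw [cj_cj, inv_mul_cancel_right, ← cj_cj, cj_eq_self (norm_pCoreOf 2 _ hl)]; exact h3)
  have h4 : n⁻¹ * m⁻¹ * n * l ∈ Q := hCQ (mem_centralizer_sub.2 fun a ha => by
    have := e' _ (conj_mem_cj.2 ha)
    calc a * (n⁻¹ * m⁻¹ * n * l) = n⁻¹ * m⁻¹ * (m * (n * a * n⁻¹) * m⁻¹) * (n * l) := by group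
      _ = n⁻¹ * m⁻¹ * n * l * a := by rw [← this]; group)
  have h5 := hTA (h3 (conj_mem_cj.2 h4))
  have : l = n⁻¹ * m * (n * (n⁻¹ * m⁻¹ * n * l) * n⁻¹) * n := by group
  rw [this]
  exact mul_mem (mul_mem (mul_mem (inv_mem hn) hm) h5) hn

/-- Let G be a finite group of even order with O₂(G) = 1 such that every 2-local subgroup of G is solvable, of characteristic 2, and has no section isomorphic to the symmetric group of degree 4. Then every maximal 2-local subgroup of G is strongly embedded in G. -/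
theorem result {G : Type*} [Group G] [Finite G] (heven : Even (Nat.card G)) (hO : Cfsg.pCore 2 G = ⊥) (hloc : ∀ M : Subgroup G, Cfsg.IsTwoLocal M → Group.IsSolvable M ∧ Cfsg.IsOfCharacteristicTwo ↥M ∧ ¬ Cfsg.Involves (Equiv.Perm (Fin 4)) ↥M) (M : Subgroup G) (hM : Cfsg.IsMaximalTwoLocal M) : Cfsg.IsStronglyEmbedded M := by
  have : Fact (Nat.Prime 2) := ⟨Nat.prime_two⟩
  have hfree : ¬ Involves (Equiv.Perm (Fin 4)) G := fun h => by
    obtain ⟨φ, h1, h2, h3⟩ := CA.H6Dih.exists_hom_S4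
    obtain ⟨P, k1, k2, k3⟩ := sec_local (involves_iff.1 h) φ.ker h2 (fun h0 => by
      rw [h0] at h3
      have : Equiv.swap (0 : Fin 4) 1 ∈ (⊥ : Subgroup (Equiv.Perm (Fin 4))) :=
        h3 (mem_centralizer_sub.2 fun y hy => by rw [mem_bot.1 hy, one_mul, mul_one])
      exact absurd (mem_bot.1 this) (by decide))
    exact (hloc _ ⟨P, k1, k2, rfl⟩).2.2 (involves_iff.2 (sec_top_iff.2 k3))
  obtain ⟨S⟩ : Nonempty (Sylow 2 G) := inferInstance
  obtain ⟨-, hAe, -, T, hAT, hc⟩ := Cfsg.Agent.S2796.result hfree (fun K R _ hc => by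
    refine (CA.S4F.ckw_of_solvable ?_).comp
    by_cases h0 : pCore 2 (K ⧸ R.subgroupOf K) = ⊥
    · rw [h0] at hc
      have : Subsingleton (K ⧸ R.subgroupOf K) := ⟨fun a b => by
        have k : ∀ a : K ⧸ R.subgroupOf K, a = 1 := fun a => mem_bot.1 (hc (mem_centralizer_sub.2
          fun y hy => by rw [mem_bot.1 hy, one_mul, mul_one]))
        rw [k a, k b]⟩
      infer_instance
    · obtain ⟨P, k1, k2, L, k3, ψ, k4, -⟩ := sec_local (G := G) ⟨K, le_top, QuotientGroup.mk' _,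
        QuotientGroup.mk'_surjective _, fun x hx => by
          rw [mem_bot, OneMemClass.coe_eq_one] at hx; rw [hx, map_one]⟩ _ (isPGroup_pCore 2 _) h0
      have := (hloc _ ⟨P, k1, k2, rfl⟩).1
      have : Group.IsSolvable L := Group.isSolvable_of_isSolvable_injective (f := inclusion k3) (inclusion_injective k3)
      exact Group.isSolvable_of_surjective k4) S _ rfl _ rfl
  set A := (Subgroup.normalClosure (((Cfsg.omegaOne 2 ((S : Subgroup G) ⊓ Subgroup.centralizer ((S : Subgroup G) : Set G))).subgroupOf (Subgroup.normalizer (Cfsg.thompsonSubgroupOf 2 (S : Subgroup G) : Set G)) : Subgroup _) : Set _)).map (Subgroup.normalizer (Cfsg.thompsonSubgroupOf 2 (S : Subgroup G) : Set G)).subtype with hA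
  have hAne : A ≠ ⊥ := fun h0 => by
    obtain ⟨z, hz, h2⟩ := exists_orderOf_eq_of_ne_bot (S.isPGroup'.to_le inf_le_left) (center_ne_bot S.isPGroup'
      ((sylIn_top S).ne_bot (by rw [card_top]; exact even_iff_two_dvd.1 heven)))
    have h3 : z ∈ 𝐍 (Cfsg.thompsonSubgroupOf 2 (S : Subgroup G)) := by
      rw [CA.H6J.thompsonSubgroupOf_eq]; exact CA.H6J.le_normalizer_J _ _ hz.1
    have h4 : z ∈ A := ⟨⟨z, h3⟩, subset_normalClosure (mem_subgroupOf.2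
      (CA.H6J.mem_omegaOne hz (orderOf_dvd_iff_pow_eq_one.1 h2.dvd))), rfl⟩
    rw [h0, mem_bot] at h4
    rw [h4, orderOf_one] at h2; omega
  have hT := sylIn_top T
  have hk : ∀ P : Subgroup G, P ≤ T → P ≠ ⊥ → 𝐍 P ≤ 𝐍 A := fun P h1 h2 =>
    key hT hAT (fun P g k1 k2 => (hc P k1).2 g (by
      rintro _ ⟨a, ha, rfl⟩; exact k2 (conj_mem_cj.2 ha))) h1 (hloc _ ⟨P, hT.pg.to_le h1, h2, rfl⟩).2.1
  have hTA : (T : Subgroup G) ≤ 𝐍 A := le_normalizer.trans (hk T le_rfl fun h0 => hAne (le_bot_iff.1 (h0 ▸ hAT)))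
  have hT' := hT.mono hTA le_top
  have hse : ∀ s g : G, s ∈ 𝐍 A → orderOf s = 2 → g * s * g⁻¹ ∈ 𝐍 A → g ∈ 𝐍 A := fun s g h1 h2 h3 => by
    have h4 : IsPGroup 2 (zpowers s) := isPGroup_zpowers_of_orderOf (k := 1) h2
    obtain ⟨h, hh, k1⟩ := hT'.exists_conj_le h4 (zpowers_le.2 h1)
    obtain ⟨k, hk', k2⟩ := hT'.exists_conj_le (isPGroup_cj h4 g) (by rw [cj_zpowers]; exact zpowers_le.2 h3)
    obtain ⟨x, hx, e⟩ := (hc (cj h (zpowers s)) k1).2 (k * g * h⁻¹) (by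
      rintro _ ⟨a, ha, rfl⟩
      refine k2 ?_
      have : k * g * h⁻¹ * a * (k * g * h⁻¹)⁻¹ = k * (g * (h⁻¹ * a * h) * g⁻¹) * k⁻¹ := by group
      show k * g * h⁻¹ * a * (k * g * h⁻¹)⁻¹ ∈ _
      rw [this]
      exact conj_mem_cj.2 (conj_mem_cj.2 (mem_cj.1 ha)))
    have h5 : x⁻¹ * (k * g * h⁻¹) ∈ 𝐍 A := hk _ k1 (fun h0 => by
        rw [cj_eq_bot, zpowers_eq_bot] at h0; rw [h0, orderOf_one] at h2; omega)
      (centralizer_le_normalizer _ (mem_centralizer_sub.2 fun a ha => by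
        have := e a ha
        calc a * (x⁻¹ * (k * g * h⁻¹)) = x⁻¹ * (x * a * x⁻¹) * (k * g * h⁻¹) := by group
          _ = x⁻¹ * (k * g * h⁻¹) * a := by rw [← this]; group))
    have : g = k⁻¹ * (x * (x⁻¹ * (k * g * h⁻¹))) * h := by group
    rw [this]
    exact mul_mem (mul_mem (inv_mem hk') (mul_mem hx h5)) hh
  obtain ⟨⟨P, hP, hne, rfl⟩, hmax⟩ := hM
  obtain ⟨u, -, hu⟩ := hT.exists_conj_le hP le_top
  have e : cj u⁻¹ (𝐍 A) = 𝐍 P := hmax _ ⟨cj u⁻¹ A, isPGroup_cj (hT.pg.to_le hAT) _, by rwa [Ne, cj_eq_bot],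
    cj_normalizer _ _⟩ (by
      rw [← cj_le_iff, cj_normalizer]; exact hk _ hu (by rwa [Ne, cj_eq_bot]))
  refine ⟨fun h0 => hne (le_bot_iff.1 (hO ▸ le_pCore (normal_iff_top_le.2 h0.ge) hP)),
    even_iff_two_dvd.2 (dvd_card_of_le hP hne le_normalizer), fun g hg => ?_⟩
  rw [← Nat.not_even_iff_odd, even_iff_two_dvd]
  intro h
  obtain ⟨t, ⟨h1, s, hs, rfl⟩, h2⟩ := exists_orderOf_eq_of_dvd h
  rw [← e] at h1 hs hg
  refine hg (mem_cj_inv.2 (hse (u * s * u⁻¹) _ (mem_cj_inv.1 hs) ?_ ?_))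
  · rw [MulEquiv.toMonoidHom_eq_coe, MonoidHom.coe_coe, MulEquiv.orderOf_eq] at h2
    rw [← h2]; exact (MulAut.conj u).orderOf_eq s
  · have := mem_cj_inv.1 h1
    convert this using 1
    simp only [MulEquiv.toMonoidHom_eq_coe, MonoidHom.coe_coe, MulAut.conj_apply]; group

end Cfsg.Agent.S3756
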