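import Cfsg.Statements.S3758
import Cfsg.Agent.Lib.Loc.AmbChar
import Cfsg.Agent.Lib.Loc.ZN7
import Cfsg.Agent.S3759
-- import your own Cfsg.Agent.* helpers here

set_option autoImplicit false
open Cfsg

namespace Cfsg.Agent.S3758

/-- Let G be a finite group of even order in which every 2-local subgroup is solvable and C_G(Ω₁(Z(S))) ≤ N_G(S) for every Sylow 2-subgroup S, and suppose O_{2'}(G) = 1 = O₂(G). Fix a Sylow 2-subgroup S, put Z = Ω₁(Z(S)), H = O²(G) (generated by the elements of odd order) and R = S ∩ H. Then one of the following holds: H has a strongly embedded subgroup; R is dihedral (of order at least 4) or semidihedral; Z ∩ R has order 2 and is weakly closed in R with respect to H; or Z has order 4 and is exactly the subgroup generated by the involutions of R. -/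
theorem result {G : Type*} [Group G] [Finite G] (heven : Even (Nat.card G)) (hN : ∀ L : Subgroup G, Cfsg.IsTwoLocal L → Group.IsSolvable L) (hZ : ∀ S : Sylow 2 G, Subgroup.centralizer (Cfsg.omegaOne 2 ((S : Subgroup G) ⊓ Subgroup.centralizer ((S : Subgroup G) : Set G)) : Set G) ≤ Subgroup.normalizer ((S : Subgroup G) : Set G)) (hO' : Cfsg.pPrimeCore 2 G = ⊥) (hO : Cfsg.pCore 2 G = ⊥) (S : Sylow 2 G) : (∃ M : Subgroup ↥(Cfsg.pResidual 2 G), Cfsg.IsStronglyEmbedded M) ∨ ((∃ n : ℕ, 2 ≤ n ∧ Nonempty (↥((S : Subgroup G) ⊓ Cfsg.pResidual 2 G) ≃* DihedralGroup n)) ∨ Cfsg.IsQuasiDihedral ↥((S : Subgroup G) ⊓ Cfsg.pResidual 2 G)) ∨ (Nat.card ↥(Cfsg.omegaOne 2 ((S : Subgroup G) ⊓ Subgroup.centralizer ((S : Subgroup G) : Set G)) ⊓ Cfsg.pResidual 2 G) = 2 ∧ ∀ h ∈ Cfsg.pResidual 2 G, ∀ z ∈ Cfsg.omegaOne 2 ((S : Subgroup G) ⊓ Subgroup.centralizer ((S : Subgroup G) : Set G)) ⊓ Cfsg.pResidual 2 G, h * z * h⁻¹ ∈ (S : Subgroup G) → h * z * h⁻¹ ∈ Cfsg.omegaOne 2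 ((S : Subgroup G) ⊓ Subgroup.centralizer ((S : Subgroup G) : Set G))) ∨ (Nat.card ↥(Cfsg.omegaOne 2 ((S : Subgroup G) ⊓ Subgroup.centralizer ((S : Subgroup G) : Set G))) = 4 ∧ Cfsg.omegaOne 2 ((S : Subgroup G) ⊓ Cfsg.pResidual 2 G) = Cfsg.omegaOne 2 ((S : Subgroup G) ⊓ Subgroup.centralizer ((S : Subgroup G) : Set G))) := by
  open Subgroup Cfsg CA CA.Amb CA.AmbSyl CA.AmbCore CA.AmbRes CA.AmbChar CA.AmbSpe CA.ZN3 CA.ZN6 CA.ZN7 in
  open scoped commutatorElement in
  (
    have hC : ∀ t : G, orderOf t = 2 → Group.IsSolvable (centralizer {t}) := fun t ht => by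
      have := hN _ (loc (isPGroup_zpowers' (p := 2) (by rw [pow_two, sq_of_ord ht]))
        (by rw [Ne, zpowers_eq_bot]; exact ne_one_of_orderOf ht))
      rw [← centralizer_zpowers]
      exact Group.isSolvable_of_isSolvable_injective (inclusion_injective (centralizer_le_normalizer _))
    rcases S3759.result heven hC hZ hO' hO S with c | c | c | c
    · exact Or.inl c
    · exact Or.inr (Or.inr (Or.inl c))
    · exact Or.inr (Or.inr (Or.inr c))
    · exact (thm1' (sylIn_top S) heven hN (hZ S) hO' hO c).imp id Or.inl)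

end Cfsg.Agent.S3758
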