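import Cfsg.Statements.S3760
import Cfsg.Agent.Lib.Loc.H6Basic

set_option autoImplicit false
open Cfsg

namespace Cfsg.Agent.S3760

open CA.H6Basic MulAction

/-- Let the group G act transitively on a set X, let x ∈ X with stabilizer H = G_x, and let K ≤ H. Then N_G(K) acts transitively on the set of fixed points of K if and only if every G-conjugate of K contained in H is already an H-conjugate of K. -/
theorem result {G : Type*} [Group G] {X : Type*} [MulAction G X] (htrans : ∀ a b : X, ∃ g : G, g • a = b) (x : X) (K : Subgroup G) (hK : K ≤ MulAction.stabilizer G x) : (∀ a b : X, (∀ k ∈ K, k • a = a) → (∀ k ∈ K, k • b = b) → ∃ g ∈ Subgroup.normalizer (K : Set G), g • a = b) ↔ ∀ g : G, K.map (MulAut.conj g).toMonoidHom ≤ MulAction.stabilizer G x → ∃ h ∈ MulAction.stabilizer G x, K.map (MulAut.conj g).toMonoidHom = K.map (MulAut.conj h).toMonoidHom := by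
  constructor
  · intro h g hg
    obtain ⟨n, hn, e⟩ := h x (g⁻¹ • x) (fun k hk => hK hk) fun k hk => by
      have : (g * k * g⁻¹) • x = x := hg (conj_mem_cj hk)
      rw [smul_smul, eq_comm, inv_smul_eq_iff, smul_smul, ← mul_assoc, this]
    refine ⟨g * n, by rw [mem_stabilizer_iff, mul_smul, e, smul_inv_smul], ?_⟩
    show cj g K = cj (g * n) K
    rw [cj_mul, cj_eq_self hn]
  · have key : (∀ g : G, cj g K ≤ stabilizer G x → ∃ h ∈ stabilizer G x, cj g K = cj h K) →
        ∀ a : X, (∀ k ∈ K, k • a = a) → ∃ n ∈ Subgroup.normalizer (K : Set G), n • a = x := by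
      intro h a ha
      obtain ⟨g, hg⟩ := htrans a x
      obtain ⟨y, hy, e⟩ := h g (cj_le_iff'.2 fun k hk => by
        rw [mem_stabilizer_iff, ← hg, mul_smul, inv_smul_smul, mul_smul, ha k hk])
      refine ⟨y⁻¹ * g, cj_eq_self_iff.1 (by rw [cj_mul, e, cj_inv_cj]), ?_⟩
      rw [mul_smul, hg, inv_smul_eq_iff, hy]
    intro h a b ha hb
    obtain ⟨n, hn, e⟩ := key h a ha
    obtain ⟨m, hm, e'⟩ := key h b hb
    exact ⟨m⁻¹ * n, mul_mem (inv_mem hm) hn, by rw [mul_smul, e, inv_smul_eq_iff, e']⟩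

end Cfsg.Agent.S3760
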