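import Cfsg.Statements.S3761
import Cfsg.Agent.Lib.Grp.H7Reg
import Cfsg.Agent.Lib.Grp.PGCritical
import Cfsg.Agent.Lib.Loc.Amb

set_option autoImplicit false
open Cfsg

namespace Cfsg.Agent.S3761

open Subgroup CA.PGBasic CA.PGNormalCyclic CA.PGCyclicMax CA.PGDihedral CA.PGCritical CA.H7Reg
open CA.Amb (centralizer_zpowers)
open scoped commutatorElement

/-- Let G be a finite non-abelian p-group with a cyclic normal subgroup U of order p^n such that C_G(U) = U. Then either p = 2 and G is dihedral, generalized quaternion or semidihedral of order 2^(n+1); or, writing U₁ for the subgroup generated by the p-th powers of elements of U and M = C_G(U₁), the subgroup U has index p in M and the subgroup Ω₁(M) generated by the elements of M of order dividing p is elementary abelian of order p² and characteristic in G. -/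
theorem result {G : Type*} [Group G] [Finite G] {p : ℕ} [Fact p.Prime] (hG : IsPGroup p G) (hna : ¬ IsMulCommutative G) (U : Subgroup G) [U.Normal] (hU : IsCyclic U) (n : ℕ) (hUn : Nat.card U = p ^ n) (hC : Subgroup.centralizer (U : Set G) = U) : (p = 2 ∧ Nat.card G = 2 ^ (n + 1) ∧ ((∃ m : ℕ, Nonempty (G ≃* DihedralGroup m)) ∨ (∃ m : ℕ, Nonempty (G ≃* QuaternionGroup m)) ∨ Cfsg.IsQuasiDihedral G)) ∨ (U.relIndex (Subgroup.centralizer (Cfsg.powerClosure p 1 U : Set G)) = p ∧ Cfsg.IsElementaryAbelian p (Cfsg.omegaOne p (Subgroup.centralizer (Cfsg.powerClosure p 1 U : Set G))) ∧ Nat.card ↥(Cfsg.omegaOne p (Subgroup.centralizer (Cfsg.powerClosure p 1 U : Set G))) = p ^ 2 ∧ (Cfsg.omegaOne p (Subgroup.centralizer (Cfsg.powerClosure p 1 U : Set G))).Characteristic) := by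
  have hp : p.Prime := Fact.out
  obtain ⟨a, rfl⟩ := (Subgroup.isCyclic_iff_exists_zpowers_eq_top U).1 hU
  have ha : orderOf a = p ^ n := by rw [← Nat.card_zpowers, hUn]
  have hC' : ∀ g, g * a = a * g → g ∈ zpowers a := fun g h => by
    rw [← hC, centralizer_zpowers]; exact mem_centralizer_singleton_iff.2 h
  have hne : zpowers a ≠ ⊤ := fun h => hna (by
    haveI : IsCyclic G := isCyclic_iff_exists_zpowers_eq_top.2 ⟨a, h⟩
    infer_instance)
  rcases selfcentralizing_cyclic hG ha hC' hne with ⟨rfl, y, e, h⟩ | ⟨y, h, e⟩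
  · have hy := dqs_notMem ha h
    have hc : Nat.card G = 2 ^ (n + 1) := by
      rw [← card_top (G := G), ← e, card_sup_zpowers hp (dqs_normalizer h) hy (dqs_sq_mem h), hUn,
        pow_succ]
    refine Or.inl ⟨rfl, hc, ?_⟩
    obtain ⟨hn, h | h | h⟩ := h
    · exact Or.inl ⟨_, nonempty_mulEquiv_dihedral ha hy h.1 h.2 e⟩
    · refine Or.inr (Or.inl ⟨_, nonempty_mulEquiv_quaternion ?_ hy h.1 h.2 e⟩)
      rw [ha, ← pow_succ']; congr 1; omega
    · exact Or.inr (Or.inr ⟨n, h.1, hc, a, y, ha,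
        orderOf_eq_prime h.2.1 (fun h => hy (h ▸ one_mem _)), h.2.2⟩)
  right
  have pc : ∀ b : G, Cfsg.powerClosure p 1 (zpowers b) = zpowers (b ^ p) := fun b => by
    refine le_antisymm (pc_le_iff.2 ?_) (zpowers_le.2 ?_)
    · rintro _ ⟨k, rfl⟩
      exact ⟨k, by simp only [pow_one, ← zpow_natCast, ← zpow_mul, mul_comm]⟩
    · simpa using pow_mem_pc (p := p) (n := 1) (mem_zpowers b)
  have e' : centralizer (Cfsg.powerClosure p 1 (zpowers a) : Set G) = zpowers a ⊔ zpowers y := by
    rw [pc, centralizer_zpowers, e]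
  have hy := modular_notMem hp ha h
  have ho : Cfsg.omegaOne p (zpowers a ⊔ zpowers y) = zpowers (a ^ p ^ (n - 1)) ⊔ zpowers y := by
    refine le_antisymm ((closure_le _).2 fun x hx => modular_omega hp ha h hx.1 hx.2) fun x hx => ?_
    exact subset_closure ⟨sup_le_sup_right (zpowers_le.2 (pow_mem (mem_zpowers a) _)) _ hx,
      (modular_four hp ha h).1.2 x hx⟩
  refine ⟨?_, ?_, ?_, ?_⟩
  · rw [e']
    exact relIndex_sup_zpowers hp (le_normalizer_of_normal (mem_top y)) hy (h.2.2.1 ▸ one_mem _)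
  · rw [e', ho]; exact (modular_four hp ha h).1
  · rw [e', ho]; exact (modular_four hp ha h).2
  by_cases hA : ∀ x : G, x ^ p = 1 → x * a ^ p = a ^ p * x
  · have : Cfsg.omegaOne p (centralizer (Cfsg.powerClosure p 1 (zpowers a) : Set G)) =
        closure {x : G | x ^ p = 1} := by
      unfold Cfsg.omegaOne
      congr 1
      ext x
      refine ⟨fun h => h.2, fun h => ⟨?_, h⟩⟩
      rw [pc, centralizer_zpowers]
      exact mem_centralizer_singleton_iff.2 (hA x h)
    rw [this]
    exact characteristic_closure_pow_eq_one p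
  suffices (Cfsg.powerClosure p 1 (zpowers a)).Characteristic from
    characteristic_closure fun φ x hx =>
      ⟨apply_mem_of_characteristic _ φ hx.1, by rw [← map_pow, hx.2, map_one]⟩
  push Not at hA
  obtain ⟨x, hx, hxa⟩ := hA
  obtain ⟨u, hu⟩ := exists_conj_eq_zpow (a := a) (le_normalizer_of_normal (mem_top x))
  obtain ⟨m, rfl⟩ := Nat.exists_eq_add_of_le' (le_trans one_le_two h.1)
  have h1 := pow_conj_eq hu p
  rw [hx, one_mul, inv_one, mul_one] at h1
  have h2 : (p : ℤ) ^ (m + 1) ∣ u ^ p - 1 := by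
    have := (zpow_eq_zpow ha (j := 1)).1 (h1.symm.trans (zpow_one a).symm)
    exact_mod_cast this
  have h3 : ¬ (p : ℤ) ^ m ∣ u - 1 := fun ⟨v, hv⟩ => hxa (by
    have := conj_zpow_eq hu p
    rw [zpow_natCast] at this
    rw [← mul_inv_eq_iff_eq_mul, this, ← zpow_natCast, zpow_eq_zpow ha]
    exact ⟨v, by push_cast; rw [pow_succ]; linear_combination (p : ℤ) * hv⟩)
  obtain rfl : p = 2 := by
    by_contra h
    exact h3 (nt_odd hp h h2)
  obtain ⟨v, hv⟩ := (nt_two h2).resolve_left h3
  have hm : 2 ≤ m := by have := h.2.1 rfl; omega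
  obtain ⟨k, rfl⟩ := Nat.exists_eq_add_of_le' hm
  have h4 : commutator G ≤ zpowers a := by
    rw [_root_.commutator_def, commutator_le]
    intro g _ g' _
    obtain ⟨i, hi⟩ := exists_conj_eq_zpow (a := a) (le_normalizer_of_normal (mem_top g))
    obtain ⟨j, hj⟩ := exists_conj_eq_zpow (a := a) (le_normalizer_of_normal (mem_top g'))
    have e1 : g * g' * a * (g * g')⁻¹ = g' * g * a * (g' * g)⁻¹ := by
      rw [show g * g' * a * (g * g')⁻¹ = g * (g' * a * g'⁻¹) * g⁻¹ by group,
        show g' * g * a * (g' * g)⁻¹ = g' * (g * a * g⁻¹) * g'⁻¹ by group, hi, hj,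
        conj_zpow_eq hi, conj_zpow_eq hj, mul_comm]
    have e2 := hC' ((g' * g)⁻¹ * (g * g')) (by
      calc _ = (g' * g)⁻¹ * (g * g' * a * (g * g')⁻¹) * (g * g') := by group
        _ = _ := by rw [e1]; group)
    have := (inferInstance : (zpowers a).Normal).conj_mem _ e2 (g' * g)
    convert this using 1
    rw [commutatorElement_def]; group
  have h5 : zpowers (a ^ 2) ≤ commutator G := by
    have h6 : a ^ (u - 1) ∈ commutator G := by
      rw [zpow_sub, ← hu, zpow_one]
      exact commutator_mem_commutator (mem_top x) (mem_top a)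
    have h7 : IsCoprime (2 ^ (k + 1) * v - 1 : ℤ) (2 ^ (k + 2)) :=
      IsCoprime.pow_right ⟨-1, 2 ^ k * v, by ring⟩
    obtain ⟨s, t, hst⟩ := h7
    rw [zpowers_le]
    convert zpow_mem h6 s using 1
    rw [← zpow_mul, ← zpow_natCast, zpow_eq_zpow ha]
    exact ⟨t, by push_cast; linear_combination (-2) * hst - s * hv⟩
  have h8 : (zpowers (a ^ 2)).relIndex (zpowers a) = 2 := relIndex_zpowers hp (fun ⟨i, hi⟩ => by
    have hi' : a ^ (2 * i) = a ^ (1 : ℤ) := by rw [zpow_mul, zpow_one]; exact_mod_cast hi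
    obtain ⟨j, hj⟩ := (zpow_eq_zpow ha).1 hi'
    push_cast at hj
    rw [pow_succ, mul_comm _ 2, mul_assoc] at hj
    omega) (mem_zpowers _)
  rcases eq_or_eq_of_relIndex_prime hp h8 h5 h4 with h9 | h9
  · rw [pc, ← h9]; infer_instance
  · rw [← h9]
    exact characteristic_closure (by
      rintro φ _ ⟨x, hx, rfl⟩
      exact ⟨φ x, apply_mem_of_characteristic _ φ hx, map_pow _ _ _⟩)

end Cfsg.Agent.S3761
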