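import Cfsg.Statements.S3764
import Cfsg.Agent.Lib.Solv.HH2

set_option autoImplicit false
open Cfsg

namespace Cfsg.Agent.S3764

open Subgroup CA CA.BG CA.HH CA.BGRep Module

/-- Let p, q, r be distinct primes and let X, Q, V be subgroups of a finite group with X of order r, Q an extraspecial q-group normalized by X with C_Q(X) = Z(Q), and V an elementary abelian p-group normalized by X and Q on which XQ acts faithfully ((X ⊔ Q) ∩ C(V) = 1). If C_V(X) = 1, then q = 2, r = 2^n + 1 for some n, and Q has order 2^(2n+1). -/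
theorem result {G : Type*} [Group G] [Finite G] {p q r : ℕ} (hp : p.Prime) (hq : q.Prime) (hr : r.Prime) (hpq : p ≠ q) (hpr : p ≠ r) (hqr : q ≠ r) (X Q V : Subgroup G) (hX : Nat.card X = r) (hQ : Cfsg.IsExtraspecial q ↥Q) (hXQ : X ≤ Subgroup.normalizer (Q : Set G)) (hCQ : Q ⊓ Subgroup.centralizer (X : Set G) = (Subgroup.center ↥Q).map Q.subtype) (hV : Cfsg.IsElementaryAbelian p V) (hXV : X ≤ Subgroup.normalizer (V : Set G)) (hQV : Q ≤ Subgroup.normalizer (V : Set G)) (hfaith : (X ⊔ Q) ⊓ Subgroup.centralizer (V : Set G) = ⊥) (hCV : V ⊓ Subgroup.centralizer (X : Set G) = ⊥) : q = 2 ∧ ∃ n : ℕ, r = 2 ^ n + 1 ∧ Nat.card Q = 2 ^ (2 * n + 1) := by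
  haveI := Fact.mk hp
  have hXp : (♯X).Prime := hX ▸ hr
  obtain ⟨x, hx, hx1⟩ := exists_ne_one (ne_bot_of_prime hXp)
  obtain rfl := eq_zpowers_of_prime hXp hx hx1
  have hQ' := isPi_of_isPGroup hq hQ.1.1
  have hZ : ♯(𝓩(Q)) = q := by rw [← map_center, card_map_of_injective Q.subtype_injective, hQ.2]
  have hZp : (♯(𝓩(Q))).Prime := hZ ▸ hq
  have hΦ : Phi Q = 𝓩(Q) := by rw [← map_center, ← hQ.1.2.1]; rfl
  have hd : ⁅Q, Q⁆ = 𝓩(Q) := by rw [← map_center, ← hQ.1.2.2, map_subtype_commutator]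
  rw [map_center] at hCQ
  have hf : ⁅Q, zpowers x⁆ = Q := Phi_nongen (comm_le_left hXQ) (by
    rw [hΦ, ← hCQ, coprime_cent_prod hXQ (hQ'.coprime_ne (isPi_of_card_eq hr hX) hqr)
      (Or.inr (hQ'.isSolvable hq))])
  rw [Nat.card_zpowers] at hX
  have hk : (♯Q : Fb p) ≠ 0 := cast_ne_zero_Fb ((isPi_compl_iff hp).1 (hQ'.ne hpq.symm))
  obtain ⟨Z, w, h3, h4, h5, h6, h7⟩ := cop_core' (ρ := krep hV) hQV
    (hXV hx) (hXQ hx) (hX ▸ hr) hk
    (cast_ne_zero_Fb (by rw [hX, Nat.prime_dvd_prime_iff_eq hp hr]; exact hpr)) hf.ge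
    (by rw [hd, comm_eq_bot_iff.2 inf_le_right]; exact bot_le) (inf_le_left : 𝓩(Q) ≤ Q)
    ((sup_le le_normalizer hXQ).trans (norm_center Q))
    (fun h1 => ne_bot_of_prime hZp (BG.eq_bot_mono
      (le_inf (inf_le_left.trans le_sup_right) (h1.trans rker_krep.le)) hfaith))
    (Fix_krep_eq_bot hXV hCV)
  rw [hX] at h4 h5
  obtain ⟨j, h8, h9⟩ := eq_pow_of_relIndex hq hQ' h5 h4
  have h10 : q = 2 := by
    have : Even (q ^ j) := h9 ▸ hr.even_sub_one (by omega)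
    exact (hq.even_iff).1 (Nat.even_pow.1 this).1
  have h11 : Z = 𝓩(Q) := by
    refine le_antisymm (fun g hg => ⟨h3 hg, mem_cent.2 fun y hy => ?_⟩) fun g hg =>
      (h7 g hg.1).2 fun y hy => by
        rw [commutatorElement_eq_one_iff_mul_comm.2 (mem_cent.1 hg.2 y hy), rp_one]; rfl
    rw [← commutatorElement_eq_one_iff_mul_comm]
    by_contra h12
    have h13 := hd.le (commutator_mem_commutator hy (h3 hg))
    refine h6 ?_
    rw [eq_zpowers_of_prime hZp h13 h12, mem_Fix_zpowers (hQV h13.1)]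
    exact (h7 g (h3 hg)).1 hg y hy
  refine ⟨h10, j, by rw [← h10]; omega, ?_⟩
  rw [← card_mul_relIndex h3, h4, h11, hZ, h9, h10]; ring

end Cfsg.Agent.S3764
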