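import Cfsg.Statements.S3765
import Cfsg.Agent.Lib.Solv.HH2

set_option autoImplicit false
open Cfsg

namespace Cfsg.Agent.S3765

open Subgroup CA CA.BG CA.HH CA.BGRep Module

/-- Let p, q, r be distinct primes and let X, Q, V be subgroups of a finite group with X of order r normalizing the q-group Q and acting faithfully on it (X ∩ C(Q) = 1), and V a nontrivial elementary abelian p-group normalized by X and Q on which XQ acts faithfully. If q = 2 and r has the form 2^n + 1, assume in addition that Q is abelian. Then C_V(X) ≠ 1. -/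
theorem result {G : Type*} [Group G] [Finite G] {p q r : ℕ} (hp : p.Prime) (hq : q.Prime) (hr : r.Prime) (hpq : p ≠ q) (hpr : p ≠ r) (hqr : q ≠ r) (X Q V : Subgroup G) (hX : Nat.card X = r) (hQ : IsPGroup q Q) (hXQ : X ≤ Subgroup.normalizer (Q : Set G)) (hXfaith : X ⊓ Subgroup.centralizer (Q : Set G) = ⊥) (hV : Cfsg.IsElementaryAbelian p V) (hV1 : V ≠ ⊥) (hXV : X ≤ Subgroup.normalizer (V : Set G)) (hQV : Q ≤ Subgroup.normalizer (V : Set G)) (hfaith : (X ⊔ Q) ⊓ Subgroup.centralizer (V : Set G) = ⊥) (hexc : q = 2 → (∃ n : ℕ, r = 2 ^ n + 1) → IsMulCommutative Q) : V ⊓ Subgroup.centralizer (X : Set G) ≠ ⊥ := by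
  intro hCV
  haveI := Fact.mk hp
  have hXp : (♯X).Prime := hX ▸ hr
  obtain ⟨x, hx, hx1⟩ := exists_ne_one (ne_bot_of_prime hXp)
  obtain rfl := eq_zpowers_of_prime hXp hx hx1
  have hQ' := isPi_of_isPGroup hq hQ
  rw [Nat.card_zpowers] at hX
  obtain ⟨R, hR, h⟩ := exists_crit_of_pi hq hQ' hXQ le_rfl le_normalizer
    (hQ'.coprime_ne (isPi_of_card_eq hr ((Nat.card_zpowers x).trans hX)) hqr)
    fun h => hx1 (mem_bot.1 (hXfaith ▸ ⟨hx, cent_symm h hx⟩ : x ∈ (⊥ : Subgroup G)))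
  have hk : (♯R : Fb p) ≠ 0 := cast_ne_zero_Fb ((isPi_compl_iff hp).1 (h.pi.ne hpq.symm))
  obtain ⟨Z, w, h3, h4, h5, h6, h7⟩ := cop_core' (ρ := krep hV) (hR.trans hQV)
    (hXV hx) (h.norm hx) (hX ▸ hr) hk
    (cast_ne_zero_Fb (by rw [hX, Nat.prime_dvd_prime_iff_eq hp hr]; exact hpr)) h.comm_eq.ge
    (by rw [h.class2]; exact bot_le) le_rfl (sup_le le_normalizer h.norm)
    (fun h1 => h.ne_bot (BG.eq_bot_mono
      (le_inf (hR.trans le_sup_right) (h1.trans rker_krep.le)) hfaith)) (Fix_krep_eq_bot hXV hCV)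
  rw [hX] at h4 h5
  obtain ⟨j, h8, h9⟩ := eq_pow_of_relIndex hq h.pi h5 h4
  have h10 : q = 2 := by
    have : Even (q ^ j) := h9 ▸ hr.even_sub_one (by omega)
    exact (hq.even_iff).1 (Nat.even_pow.1 this).1
  have hc := comm_of_le (hexc h10 ⟨j, by rw [← h10]; omega⟩) hR
  have : Z.relIndex R = 1 := relIndex_eq_one.2 fun g hg => (h7 g hg).2 fun y hy => by
    rw [commutatorElement_eq_one_iff_mul_comm.2 (mem_cent.1 (comm_iff_le_cent.1 hc hg) y hy),
      rp_one]; rfl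
  rw [this] at h4
  nlinarith

end Cfsg.Agent.S3765
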