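import Cfsg.Statements.S3766
import Cfsg.Agent.Lib.Odd.BG1b
import Cfsg.Agent.Lib.Grp.L0K2

set_option autoImplicit false
open Cfsg

namespace Cfsg.Agent.S3766

open CA.BG Subgroup
open scoped commutatorElement

/-- Let G be a finite solvable group and N a normal subgroup of G. Call a pair V < U of normal subgroups of G a chief factor of G when no normal subgroup of G lies strictly between them; an element g centralizes the chief factor U/V when u g u⁻¹ g⁻¹ ∈ V for all u ∈ U. Then an element of G lies in the Fitting subgroup F(N) if and only if it lies in N and centralizes every chief factor of G; and also if and only if it lies in N and centralizes every chief factor U/V of G with U ≤ F(N). -/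
theorem result {G : Type*} [Group G] [Finite G] (hG : Group.IsSolvable G) (N : Subgroup G) [N.Normal] (g : G) : (g ∈ (Cfsg.fittingSubgroup ↥N).map N.subtype ↔ g ∈ N ∧ ∀ U V : Subgroup G, (U.Normal ∧ V.Normal ∧ V < U ∧ ∀ W : Subgroup G, W.Normal → V ≤ W → W ≤ U → W = V ∨ W = U) → ∀ u ∈ U, u * g * u⁻¹ * g⁻¹ ∈ V) ∧ (g ∈ (Cfsg.fittingSubgroup ↥N).map N.subtype ↔ g ∈ N ∧ ∀ U V : Subgroup G, (U.Normal ∧ V.Normal ∧ V < U ∧ ∀ W : Subgroup G, W.Normal → V ≤ W → W ≤ U → W = V ∨ W = U) → U ≤ (Cfsg.fittingSubgroup ↥N).map N.subtype → ∀ u ∈ U, u * g * u⁻¹ * g⁻¹ ∈ V) := by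
  set F := (Cfsg.fittingSubgroup ↥N).map N.subtype
  have hF : F = fittingSubgroup G ⊓ N := CA.Core.map_fitting_eq_of_subnormal (Normal.isSubnormal ‹_›)
  have ch : ∀ U V : Subgroup G, (U.Normal ∧ V.Normal ∧ V < U ∧
      ∀ W : Subgroup G, W.Normal → V ≤ W → W ≤ U → W = V ∨ W = U) ↔ ChiefFactor ⊤ V U := fun U V =>
    ⟨fun ⟨a, b, c, d⟩ => ⟨c, le_top, top_le_norm U ⊤, top_le_norm V ⊤,
      fun L x y z => d L (normal_of_top_le_norm z) x y⟩,
     fun ⟨a, _, c, d, e⟩ => ⟨normal_of_top_le_norm c, normal_of_top_le_norm d, a,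
      fun W x y z => e W y z (top_le_norm W ⊤)⟩⟩
  have h1 : g ∈ F → g ∈ N ∧ ∀ U V : Subgroup G, (U.Normal ∧ V.Normal ∧ V < U ∧
      ∀ W : Subgroup G, W.Normal → V ≤ W → W ≤ U → W = V ∨ W = U) → ∀ u ∈ U, u * g * u⁻¹ * g⁻¹ ∈ V := by
    rw [hF]
    refine fun h => ⟨h.2, fun U V c u hu => ?_⟩
    have := Fitting_stab_chief ((ch U V).1 c)
    rw [fit_top, commutator_comm] at this
    exact this (commutator_mem_commutator hu h.1)
  have h2 : (g ∈ N ∧ ∀ U V : Subgroup G, (U.Normal ∧ V.Normal ∧ V < U ∧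
      ∀ W : Subgroup G, W.Normal → V ≤ W → W ≤ U → W = V ∨ W = U) → U ≤ F →
      ∀ u ∈ U, u * g * u⁻¹ * g⁻¹ ∈ V) → g ∈ F := by
    rintro ⟨hg, h⟩
    set K := normalClosure ({g} : Set G)
    have hK : K ≤ N := normalClosure_le_normal (by simpa using hg)
    have := chief_stab_sub_Fitting (H := ⊤) (K := K) (solv_top _) le_top (top_le_norm _ _) ?_
    · rw [fit_top] at this
      exact hF.ge ⟨this (subset_normalClosure rfl), hg⟩
    intro V U c hU
    rw [fit_top] at hU
    obtain ⟨a, b, c', d⟩ := (ch U V).2 c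
    by_cases e : U ⊓ N ≤ V
    · exact (le_inf (commutator_le_right _ _) ((commutator_le_left _ _).trans hK)).trans e
    have k : IsChiefFactor U V := ⟨c', a, b, d⟩
    have k2 := CA.L0K.chief_inf k N e
    have k3 : K ≤ CA.H6Basic.commInto (U ⊓ N) V := by
      have := CA.L0K.commInto_normal (U ⊓ N) V
      refine normalClosure_le_normal (Set.singleton_subset_iff.2 (CA.H6Basic.mem_commInto.2
        ⟨le_normalizer_of_normal (mem_top g), fun y hy => ?_⟩))
      have := (h _ _ ⟨k2.2.1, k2.2.2.1, k2.1, k2.2.2.2⟩ (hF.ge.trans' (inf_le_inf_right N hU)) y hy).1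
      rw [← commutatorElement_inv]
      exact inv_mem this
    rw [← CA.L0K.chief_cover k inf_le_left e, commutator_comm]
    refine (CA.L0K.comm_sup_le _ _ _).trans (sup_le ?_ le_rfl)
    rw [commutator_comm]
    exact (CA.H6Basic.le_commInto_iff.1 k3).2
  exact ⟨⟨h1, fun h => h2 ⟨h.1, fun U V c _ => h.2 U V c⟩⟩,
    ⟨fun h => ⟨(h1 h).1, fun U V c _ => (h1 h).2 U V c⟩, h2⟩⟩

end Cfsg.Agent.S3766
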