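import Cfsg.Statements.S3767
import Cfsg.Agent.Lib.Solv.HS1

set_option autoImplicit false
open Cfsg

namespace Cfsg.Agent.S3767

open Subgroup CA.BG CA.OQuo CA.BGRep Module
open scoped commutatorElement

theorem bound {k W : Type*} [Field k] [AddCommGroup W] [Module k W] [IsAlgClosed k]
    [FiniteDimensional k W] (f : End k W) {r : ℕ} (hk : (r : k) ≠ 0) (hf : f ^ r = 1)
    {C : Submodule k (End k W)} (hC : ∀ T : End k W, f * T = T * f → T ∈ C) (a : ℕ) :
    (2 * a + 1) * finrank k W ≤ finrank k C + r * (a ^ 2 + a) := by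
  classical
  have hr : 0 < r := Nat.pos_of_ne_zero fun h => hk (by simp [h])
  obtain ⟨b, ω, hb, hω⟩ := CChar.CharRep.exists_eigenbasis_of_pow_eq_one f hk hf
  let I := {ij : Fin (finrank k W) × Fin (finrank k W) // ω ij.1 = ω ij.2}
  have li : LinearIndependent k fun t : I => (⟨b.end t.1, hC _ (b.ext fun l => by
      simp only [Module.End.mul_apply, hb, map_smul, Basis.end_apply_apply]
      split_ifs with h
      · rw [hb, t.2, h]
      · simp)⟩ : C) :=
    LinearIndependent.of_comp C.subtype (b.end.linearIndependent.comp _ Subtype.val_injective)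
  have h1 : Fintype.card I ≤ finrank k C := li.fintype_card_le_finrank
  let S := Polynomial.nthRootsFinset r (1 : k)
  have hS : S.card ≤ r := (Multiset.toFinset_card_le _).trans (Polynomial.card_nthRoots _ 1)
  have hm : ∀ i, ω i ∈ S := fun i => (Polynomial.mem_nthRootsFinset hr 1).2 (hω i)
  have h3 : Fintype.card I = ∑ z ∈ S, (Finset.univ.filter fun i => ω i = z).card ^ 2 := by
    rw [Fintype.card_subtype, Finset.card_eq_sum_card_fiberwise
      (f := fun ij : Fin (finrank k W) × Fin (finrank k W) => ω ij.1) (fun i _ => hm i.1)]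
    refine Finset.sum_congr rfl fun z _ => ?_
    rw [sq, ← Finset.card_product]
    congr 1
    ext ij
    simp only [Finset.mem_filter, Finset.mem_univ, true_and, Finset.mem_product]
    exact ⟨fun h => ⟨h.2, h.1 ▸ h.2⟩, fun h => ⟨h.1.trans h.2.symm, h.1⟩⟩
  have h2 : finrank k W = ∑ z ∈ S, (Finset.univ.filter fun i => ω i = z).card := by
    rw [← Finset.card_eq_sum_card_fiberwise (fun i _ => hm i), Finset.card_univ, Fintype.card_fin]
  refine le_trans ?_ (add_le_add h1 (Nat.mul_le_mul_right _ hS))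
  rw [h3, ← smul_eq_mul S.card, ← Finset.sum_const, ← Finset.sum_add_distrib]
  conv_lhs => rw [h2]
  rw [Finset.mul_sum]
  refine Finset.sum_le_sum fun z _ => ?_
  generalize (Finset.univ.filter fun i => ω i = z).card = n
  rcases le_or_gt n a with h | h
  · obtain ⟨c, rfl⟩ := Nat.exists_eq_add_of_le h; nlinarith
  · obtain ⟨c, rfl⟩ := Nat.exists_eq_add_of_lt h; nlinarith

theorem arith {N h m : ℕ} (h0 : 0 < h) (h1 : N ^ 2 + h = h * m + 1)
    (h2 : ∀ a, (2 * a + 1) * N ≤ m + h * (a ^ 2 + a)) : h ∣ N + 1 ∨ h ∣ N - 1 := by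
  have h3 := h2 (N / h)
  have h4 := Nat.div_add_mod N h
  have h5 := Nat.mod_lt N h0
  generalize N / h = a at *
  generalize N % h = b at *
  subst h4
  have h6 : h * b + 1 ≤ b * b + h := by nlinarith
  rcases Nat.lt_or_ge b 2 with h7 | h7
  · interval_cases b
    · have : h ∣ 1 := (Nat.dvd_add_right (Dvd.intro m rfl)).1 (h1 ▸ Dvd.intro (h * a ^ 2 + 1) (by ring))
      exact Or.inl (this.trans (one_dvd _))
    · exact Or.inr ⟨a, by simp⟩
  · have : h = b + 1 := by
      obtain ⟨c, rfl⟩ := Nat.exists_eq_add_of_lt h5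
      obtain ⟨d, rfl⟩ := Nat.exists_eq_add_of_le h7
      nlinarith
    exact Or.inl ⟨a + 1, by rw [this]; ring⟩

/-- Let P be an extraspecial p-group of order p^(2n+1) and H a cyclic group of order h prime to p acting on P (inside a common finite group: H normalizes P) so that C_P(x) = Z(P) for every non-identity x ∈ H. Then h divides p^n + 1 or h divides p^n − 1. -/
theorem result {G : Type*} [Group G] [Finite G] {p : ℕ} [Fact p.Prime] (P H : Subgroup G) (hP : Cfsg.IsExtraspecial p ↥P) (n : ℕ) (hn : Nat.card P = p ^ (2 * n + 1)) (hH : IsCyclic H) (hcop : (Nat.card H).Coprime p) (hHP : H ≤ Subgroup.normalizer (P : Set G)) (hfix : ∀ x ∈ H, x ≠ 1 → P ⊓ Subgroup.centralizer {x} = (Subgroup.center ↥P).map P.subtype) : Nat.card H ∣ p ^ n + 1 ∨ Nat.card H ∣ p ^ n - 1 := by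
  have hp : p.Prime := Fact.out
  rw [map_center] at hfix
  obtain ⟨δ, rfl⟩ := exists_zpowers_of_cyc hH
  have hZ : ♯𝓩(P) = p := by rw [← map_center, card_map_of_injective P.subtype_injective, hP.2]
  have hd : ⁅P, P⁆ ≤ 𝓩(P) := by
    rw [← map_center, ← hP.1.2.2, _root_.commutator_def, Subgroup.map_commutator, ← MonoidHom.range_eq_map,
      range_subtype]
  have hL : P ⊔ zpowers δ ≤ 𝓒(𝓩(P)) := sup_le (cent_symm inf_le_right) fun x hx => by
    by_cases h : x = 1
    · rw [h]; exact one_mem _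
    · exact le_cent1_iff.1 ((hfix x hx h).ge.trans inf_le_right)
  have hZL : 𝓩(P) ≤ P ⊔ zpowers δ := inf_le_left.trans le_sup_left
  obtain ⟨U, hU, h0, h1, hi⟩ := exists_irr_res_Fix
    (ρ := Representation.leftRegular ℂ ↥(P ⊔ zpowers δ)) le_rfl hZL (norm_of_cent hL)
    (Nat.cast_ne_zero.2 (card_ne_zero' _)) (fun h => by
      obtain ⟨z, hz, hz1⟩ := exists_ne_one (ne_bot_of_prime (hZ ▸ hp : (♯𝓩(P)).Prime))
      have h2 := LinearMap.congr_fun (mem_rker.1 (h hz)).2 (MonoidAlgebra.single 1 1)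
      rw [rp_of_mem _ (hZL hz), Representation.ofMulAction_single, Module.End.one_apply,
        MonoidAlgebra.single_left_inj one_ne_zero] at h2
      exact hz1 (by simpa using congrArg Subtype.val h2))
  haveI : Nontrivial U := Submodule.nontrivial_iff_ne_bot.2 h0
  have hk : 𝓩(P) ⊓ rker (res _ le_rfl U hU) = ⊥ := inf_eq_bot_of_prime_not_le (hZ ▸ hp) fun h =>
    h0 (le_bot_iff.1 (h1 ▸ le_inf le_rfl fun w hw x hx => ((mem_rker_res _ _).1 (h hx)).2 w hw))
  have hZr : Zr (res _ le_rfl U hU) P = 𝓩(P) := le_antisymm (le_inf Zr_le (comm_eq_bot_iff.1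
    (le_bot_iff.1 (hk ▸ le_inf ((commutator_mono Zr_le le_rfl).trans hd)
      ((le_Zr_iff le_sup_left Zr_le).1 le_rfl))))) ((le_Zr_iff le_sup_left inf_le_left).2
      ((comm_eq_bot_iff.2 inf_le_right).le.trans bot_le))
  have hδ : δ ∈ P ⊔ zpowers δ := mem_sup_right (mem_zpowers δ)
  rw [Nat.card_zpowers] at hcop ⊢
  obtain ⟨-, h2, h3⟩ := CA.HS.hh_irr rfl hi (hHP (mem_zpowers δ)) (Nat.cast_ne_zero.2 (card_ne_zero' _))
    (Nat.cast_ne_zero.2 (orderOf_pos δ).ne') (hn ▸ hcop.symm.pow_left _) (fun z hz => hi.schur _ fun x hx => by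
      rw [hZr] at hz
      rw [← rp_mul _ (hZL hz) hx, ← rp_mul _ hx (hZL hz), mem_cent.1 (hL hx) z hz])
    (hZr ▸ hd) fun c hc h => hZr ▸ (hfix c hc h).le
  have h4 : finrank ℂ U = p ^ n := by
    have h5 := card_mul_relIndex (inf_le_left : 𝓩(P) ≤ P)
    rw [← hZr, ← h2, hZr, hZ, hn, pow_succ' p, mul_comm 2, pow_mul] at h5
    exact Nat.pow_left_injective two_ne_zero (Nat.eq_of_mul_eq_mul_left hp.pos h5)
  rw [← h4]
  refine arith (orderOf_pos δ) h3 (bound (rp (res _ le_rfl U hU) δ)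
    (Nat.cast_ne_zero.2 (orderOf_pos δ).ne') (by rw [← rp_pow _ hδ, pow_orderOf_eq_one, rp_one]) fun T hT => ?_)
  rw [mem_Fix_zpowers hδ, rp_linHom hδ, hT, mul_assoc, rp_mul_inv _ hδ, mul_one]

end Cfsg.Agent.S3767
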