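import Cfsg.Statements.S3768
import Cfsg.Agent.Lib.Grp.Frob2
import Cfsg.Agent.Lib.Char.CharBurn

set_option autoImplicit false
open Cfsg

namespace Cfsg.Agent.S3768

open CA.Frob2 Subgroup
open scoped commutatorElement

/-- Let G be a finite Frobenius group with Frobenius complement R and Frobenius kernel K (the identity together with the elements in no conjugate of R), and let N be a normal subgroup of G not containing K. Then G/N is a Frobenius group with Frobenius complement RN/N whose Frobenius kernel is the image of K. -/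
theorem result {G : Type*} [Group G] [Finite G] (R : Subgroup G) (hR : Cfsg.IsFrobeniusComplement R) (N : Subgroup G) [N.Normal] (hKN : ¬ Cfsg.frobeniusKernel R ⊆ N) : Cfsg.IsFrobeniusComplement (R.map (QuotientGroup.mk' N)) ∧ Cfsg.frobeniusKernel (R.map (QuotientGroup.mk' N)) = QuotientGroup.mk' N '' Cfsg.frobeniusKernel R := by
  obtain ⟨K, hK, hKn, hc⟩ := CChar.CharBurn.exists_frobeniusKernel hR.2.2
  obtain ⟨-, -, -, hs⟩ := of_coe_eq_kernel hR hK
  rw [← hK] at hKN ⊢
  have hNK : N ≤ K := by
    by_contra h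
    obtain ⟨x, hx, hx'⟩ := SetLike.not_le_iff_exists.1 h
    obtain ⟨k, -, y, hy, hy1, rfl⟩ := hs.exists_conj le_normalizer_of_normal
      (by rw [sup_comm, hc.sup_eq_top]; exact mem_top x) hx'
    have h1 : y ∈ N := by simpa [mul_assoc] using Normal.conj_mem ‹_› _ hx k⁻¹
    refine hKN fun a ha => ?_
    obtain ⟨z, -, rfl⟩ := exists_commutator_eq (le_normalizer_of_normal (mem_top y)) (hs y hy hy1) ha
    exact mul_mem (Normal.conj_mem ‹_› _ h1 z) (inv_mem h1)
  have hf := QuotientGroup.mk'_surjective N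
  have := hKn.map _ hf
  have h1 : K.map (QuotientGroup.mk' N) ⊔ R.map (QuotientGroup.mk' N) = ⊤ := by
    rw [← Subgroup.map_sup, hc.sup_eq_top, map_top_of_surjective _ hf]
  have h2 : Semireg (K.map (QuotientGroup.mk' N)) (R.map (QuotientGroup.mk' N)) := by
    refine semireg_iff.2 ?_
    rintro _ ⟨r, hr, rfl⟩ h1 _ ⟨k, hk, rfl⟩ e
    have hr1 : r ≠ 1 := by rintro rfl; exact h1 (map_one _)
    have h3 : ⁅k, r⁆ ∈ N := by
      rw [← QuotientGroup.eq_one_iff]
      change QuotientGroup.mk' N _ = 1
      rw [map_commutatorElement, commutatorElement_eq_one_iff_mul_comm, e]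
    obtain ⟨y, hy, e'⟩ := exists_commutator_eq (le_normalizer_of_normal (mem_top r))
      ((hs.mono hNK le_rfl) r hr hr1) h3
    have := hs.eq_one hr hr1 (mul_mem (inv_mem (hNK hy)) hk) (by
      rw [commutatorElement_def, commutatorElement_def, mul_left_inj] at e'
      calc _ = y⁻¹ * (y * r * y⁻¹) * k := by group
        _ = _ := by rw [e']; group)
    rw [inv_mul_eq_one] at this
    exact (QuotientGroup.eq_one_iff k).2 (this ▸ hy)
  refine ⟨isFrob_of_semireg h1 (fun h => hKN ?_) (fun h => hR.1 ?_) h2, ?_⟩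
  · rwa [Subgroup.map_eq_bot_iff, QuotientGroup.ker_mk'] at h
  · rw [Subgroup.map_eq_bot_iff, QuotientGroup.ker_mk'] at h
    exact hc.disjoint.symm.eq_bot_of_le (h.trans hNK)
  · rw [kernel_eq_of_semireg h1 h2, coe_map]

end Cfsg.Agent.S3768
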