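import Cfsg.Statements.S3770
import Cfsg.Agent.Lib.Odd.BG3a
import Cfsg.Agent.Lib.Char.CharBurn
import Cfsg.Agent.Lib.Grp.Kegel
import Cfsg.Agent.Lib.Grp.Frob2

set_option autoImplicit false
open Cfsg

namespace Cfsg.Agent.S3770

open Subgroup CA CA.BG CA.OQuo

/-- Let G and V be subgroups of a finite group with G a Frobenius group with complement R of prime order and kernel K, G normalizing V, and V an elementary abelian ℓ-group for a prime ℓ not dividing the order of G. If C_V(R) has order ℓ, then the derived subgroup of K centralizes V. -/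
theorem result {X : Type*} [Group X] [Finite X] (G : Subgroup X) (V : Subgroup X) {ℓ : ℕ} (hℓ : ℓ.Prime) (hV : Cfsg.IsElementaryAbelian ℓ V) (hℓG : ¬ ℓ ∣ Nat.card G) (hGV : G ≤ Subgroup.normalizer (V : Set X)) (R : Subgroup ↥G) (hR : Cfsg.IsFrobeniusComplement R) (hRp : (Nat.card R).Prime) (hCV : Nat.card ↥(V ⊓ Subgroup.centralizer ((R.map G.subtype : Subgroup X) : Set X)) = ℓ) : ⁅Subgroup.closure (Subtype.val '' Cfsg.frobeniusKernel R), Subgroup.closure (Subtype.val '' Cfsg.frobeniusKernel R)⁆ ≤ Subgroup.centralizer (V : Set X) := by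
  obtain ⟨N, hN, hNn, -⟩ := CChar.CharBurn.exists_frobeniusKernel hR.2.2
  obtain ⟨-, -, -, hsr⟩ := CA.Frob2.of_coe_eq_kernel hR hN
  have he : Subgroup.closure (Subtype.val '' Cfsg.frobeniusKernel R) = N.map G.subtype := by
    rw [← hN]; exact closure_eq (N.map G.subtype)
  rw [he]
  have hnil : Group.IsNilpotent N :=
    CA.Kegel.isNilpotent_of_semireg (le_normalizer_of_normal) hR.1 hsr
  have e := (equivMapOfInjective N G.subtype G.subtype_injective)
  have hs : Group.IsSolvable (N.map G.subtype) :=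
    Group.isSolvable_of_surjective (f := e.toMonoidHom) e.surjective
  have hc : ♯(R.map G.subtype) = ♯R := card_map_of_injective G.subtype_injective
  have hn : R.map G.subtype ≤ 𝓝(N.map G.subtype) :=
    (map_mono (le_normalizer_of_normal (H := N))).trans (le_normalizer_map _)
  refine Frobenius_prime_cent_le hℓ hs hn (hc ▸ hRp) ?_ hV ((map_subtype_le _).trans hGV)
    ((map_subtype_le _).trans hGV) (fun h => hℓG (h.trans (card_dvd (map_subtype_le _)))) hCV.le
  rw [eq_bot_iff]
  rintro _ ⟨⟨x, hx, rfl⟩, h2⟩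
  obtain ⟨r, hr, hr1⟩ := exists_ne_one hR.1
  have := hsr.eq_one hr hr1 hx (Subtype.ext (mem_cent.1 h2 r ⟨r, hr, rfl⟩))
  rw [this]; exact one_mem _

end Cfsg.Agent.S3770
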