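import Cfsg.Statements.S3772
import Cfsg.Agent.Lib.Grp.H7Ext2

set_option autoImplicit false
open Cfsg

namespace Cfsg.Agent.S3772

open Subgroup CA.H7Ext CA.CForm

/-- Let G be a finite 2-group whose Frattini subgroup Φ(G) has order 2, with |G : Φ(G)| = 2^d, and let j be the number of elements x of G with x² = 1. Then j = 2^d, or j = 2^d + 2^(d−r) or j = 2^d − 2^(d−r) for some positive integer r with 2r ≤ d. Moreover if d = 2r and j is 2^d + 2^r or 2^d − 2^r, then G is extraspecial. -/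
theorem result {G : Type*} [Group G] [Finite G] (hG : IsPGroup 2 G) (hΦ : Nat.card (frattini G) = 2) (d : ℕ) (hd : (frattini G).index = 2 ^ d) : (Nat.card {x : G // x ^ 2 = 1} = 2 ^ d ∨ ∃ r : ℕ, 1 ≤ r ∧ 2 * r ≤ d ∧ (Nat.card {x : G // x ^ 2 = 1} = 2 ^ d + 2 ^ (d - r) ∨ Nat.card {x : G // x ^ 2 = 1} + 2 ^ (d - r) = 2 ^ d)) ∧ (∀ r : ℕ, d = 2 * r → (Nat.card {x : G // x ^ 2 = 1} = 2 ^ d + 2 ^ r ∨ Nat.card {x : G // x ^ 2 = 1} + 2 ^ r = 2 ^ d) → Cfsg.IsExtraspecial 2 G) := by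
  haveI := isCyclic_of_prime_card hΦ
  obtain ⟨z, hz⟩ := IsCyclic.exists_generator (α := frattini G)
  have h1 : frattini G = zpowers (z : G) := le_antisymm (fun x hx => by
    obtain ⟨k, hk⟩ := hz ⟨x, hx⟩; exact ⟨k, congrArg Subtype.val hk⟩) (zpowers_le.2 z.2)
  obtain ⟨n, c, hc⟩ := exists_cov (p := 2) (z := (z : G)) (by rw [← Nat.card_zpowers, ← h1, hΦ])
    (CA.PGBasic.le_center_of_card_eq hG hΦ z.2)
    (fun x y => h1 ▸ CA.PGFrattini.comm_mem_frattini hG x y)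
    (fun x => h1 ▸ CA.PGFrattini.pow_mem_frattini hG x)
  have h2 := c.card_eq'
  rw [← (frattini G).card_mul_index, hΦ, hd, Module.finrank_fin_fun, ← pow_succ',
    Nat.pow_right_inj one_lt_two, add_left_inj] at h2
  subst h2
  have h3 := card_sing c.orth
  rw [← c.card_sq, Module.finrank_fin_fun] at h3
  rcases h3 with h3 | h3 | ⟨r, a1, a2, a3⟩
  · refine ⟨Or.inl h3, fun r _ h => ?_⟩
    have : 0 < 2 ^ r := by positivity
    omega
  · rw [(CA.PGFrattini.frattini_eq_bot_iff hG).2 ⟨?_, fun x => c.q_eq_zero.1 (h3 _)⟩, card_bot] at hΦ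
    · omega
    · exact ⟨⟨fun x y => c.b_eq_zero.1 (by
        have := c.q_add (c.π x) (c.π y)
        rwa [show c.q _ = 0 from h3 _, show c.q _ = 0 from h3 _, show c.q _ = 0 from h3 _, zero_add,
          zero_add, eq_comm] at this)⟩⟩
  · refine ⟨Or.inr ⟨r, a1, by omega, a3⟩, fun s hs h => ?_⟩
    have e1 : 0 < 2 ^ s := by positivity
    have e2 : 0 < 2 ^ (d - r) := by positivity
    have e3 : 2 ^ s = 2 ^ (d - r) := by omega
    rw [Nat.pow_right_inj one_lt_two] at e3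
    have e4 : c.orth.perp ⊤ = ⊥ := Submodule.finrank_eq_zero.1 (by omega)
    haveI : Nonempty (Fin d) := ⟨⟨0, by omega⟩⟩
    refine c.extra (c.nondeg_iff.1 fun u hu => ?_) inferInstance
    rw [← Submodule.mem_bot (ZMod 2), ← e4]
    exact c.orth.mem_perp'.2 fun x _ => hu x

end Cfsg.Agent.S3772
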