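import Cfsg.Statements.S3774
import Cfsg.Agent.Lib.Solv.PX1

set_option autoImplicit false
open Cfsg

namespace Cfsg.Agent.S3774

open Subgroup CA CA.BG

/-- Let G be a nontrivial finite 2-group whose automorphism group permutes the involutions of G transitively. Then every involution of G is central, so that the involutions together with 1 form the subgroup Ω₁(Z(G)), and if this subgroup has order q then |G| is a power of q. -/
theorem result {G : Type*} [Group G] [Finite G] [Nontrivial G] (hG : IsPGroup 2 G) (htrans : ∀ x y : G, x ≠ 1 → x ^ 2 = 1 → y ≠ 1 → y ^ 2 = 1 → ∃ a : MulAut G, a x = y) : (∀ x : G, x ^ 2 = 1 → x ∈ Subgroup.center G) ∧ ∃ m : ℕ, Nat.card G = Nat.card {z : G // z ^ 2 = 1} ^ m := by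
  have hc : ∀ x : G, x ^ 2 = 1 → x ∈ center G := fun x hx => by
    obtain ⟨z, -, hz, ho⟩ := PGBasic.exists_mem_center_orderOf hG (M := ⊤) top_ne_bot
    by_cases h : x = 1
    · rw [h]; exact one_mem _
    obtain ⟨a, rfl⟩ := htrans z x (fun h => by simp [h] at ho) (ho ▸ pow_orderOf_eq_one z) h hx
    exact (characteristic_iff_map_le.1 inferInstance a) (mem_map_of_mem _ hz)
  refine ⟨hc, ?_⟩
  let Z : Subgroup G := ⟨⟨⟨{z | z ^ 2 = 1}, fun {a b} ha hb => by
    rw [Set.mem_ofPred, Commute.mul_pow (mem_center_iff.1 (hc b hb) a), ha, hb, one_mul]⟩,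
    one_pow 2⟩, fun {a} ha => by rw [Set.mem_ofPred, inv_pow, ha, inv_one]⟩
  change ∃ m, _ = ♯Z ^ m
  obtain ⟨n, hn⟩ := IsPGroup.iff_card.1 hG
  obtain ⟨d, hd⟩ := PGBasic.exists_card_eq_pow hG Z
  have ho : ∀ x : G, x ≠ 1 → 2 ∣ orderOf x := fun x hx => by
    obtain ⟨k, hk⟩ := IsPGroup.iff_orderOf.1 hG x
    rcases k with _ | k
    · exact absurd (orderOf_eq_one_iff.1 hk) hx
    · rw [hk]; exact dvd_pow_self 2 k.succ_ne_zero
  let f : {x : G // x ∈ (⊤ : Subgroup G) ∧ x ≠ 1} → {x : G // x ∈ Z ∧ x ≠ 1} := fun x =>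
    ⟨x.1 ^ (orderOf x.1 / 2), show _ ^ 2 = 1 by
      rw [← pow_mul, Nat.div_mul_cancel (ho _ x.2.2), pow_orderOf_eq_one],
      pow_ne_one_of_lt_orderOf (Nat.div_pos (Nat.le_of_dvd (orderOf_pos _) (ho _ x.2.2)) two_pos).ne'
        (Nat.div_lt_self (orderOf_pos _) one_lt_two)⟩
  obtain ⟨x, hx⟩ := exists_ne (1 : G)
  have h1 := PX.card_eq_mul_of_fiber f (n := Nat.card {a // f a = f ⟨x, mem_top x, hx⟩}) fun b => by
    set c := f ⟨x, mem_top x, hx⟩
    have key : ∀ b c : {x : G // x ∈ Z ∧ x ≠ 1}, Nat.card {a // f a = b} ≤ Nat.card {a // f a = c} := by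
      intro b c
      obtain ⟨a, ha⟩ := htrans b.1 c.1 b.2.2 b.2.1 c.2.2 c.2.1
      refine Nat.card_le_card_of_injective (fun y => ⟨⟨a y.1.1, mem_top _, by simpa using y.1.2.2⟩,
        Subtype.ext ?_⟩) fun y z h => Subtype.ext (Subtype.ext (a.injective
          (congrArg (fun t => t.1.1) h)))
      have hy : y.1.1 ^ (orderOf y.1.1 / 2) = b.1 := congrArg Subtype.val y.2
      change a y.1.1 ^ (orderOf (a y.1.1) / 2) = c.1
      rw [← ha, ← hy, MulEquiv.orderOf_eq, map_pow]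
    exact le_antisymm (key b c) (key c b)
  rw [PX.card_ne_one, PX.card_ne_one, card_top, hn, hd] at h1
  have h2 : 2 ^ d - 1 ∣ 2 ^ n - 1 := ⟨_, h1⟩
  have h3 := Nat.pow_sub_one_gcd_pow_sub_one 2 d n
  rw [Nat.gcd_eq_left h2] at h3
  have h4 : d = d.gcd n := Nat.pow_right_injective le_rfl (by
    have := Nat.one_le_two_pow (n := d); have := Nat.one_le_two_pow (n := d.gcd n)
    change 2 ^ d = 2 ^ d.gcd n; omega)
  obtain ⟨m, rfl⟩ : d ∣ n := h4 ▸ Nat.gcd_dvd_right d n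
  exact ⟨m, by rw [hn, hd, pow_mul]⟩

end Cfsg.Agent.S3774
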