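import Cfsg.Statements.S3775
import Cfsg.Agent.Lib.Grp.FrobCrit

set_option autoImplicit false
open Cfsg

namespace Cfsg.Agent.S3775

open Subgroup CA.BG CA.OQuo SemidirectProduct
open scoped commutatorElement

section
variable {A : Type*} [CommGroup A] [Finite A] {p : ℕ} [hp : Fact p.Prime] {X : Subgroup (MulAut A)}

def Iv (X : Subgroup (MulAut A)) (B : Subgroup A) : Prop := ∀ x ∈ X, ∀ b ∈ B, x b ∈ B

theorem iv_iff {B : Subgroup A} : (∀ x ∈ X, B.map x.toMonoidHom = B) ↔ Iv X B := by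
  refine ⟨fun h x hx b hb => h x hx ▸ mem_map_of_mem _ hb, fun h x hx => le_antisymm ?_ fun b hb => ?_⟩
  · rintro _ ⟨b, hb, rfl⟩; exact h x hx b hb
  · exact ⟨x⁻¹ b, h _ (inv_mem hx) b hb, by simp⟩

theorem iv_ker (n : ℕ) : Iv X (powMonoidHom n : A →* A).ker := fun x _ b hb => by
  rw [MonoidHom.mem_ker, powMonoidHom_apply] at hb ⊢
  rw [← map_pow, hb, map_one]

theorem Iv.map {B : Subgroup A} (h : Iv X B) (n : ℕ) : Iv X (B.map (powMonoidHom n)) := by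
  rintro x hx _ ⟨b, hb, rfl⟩
  exact ⟨x b, h x hx b hb, by simp⟩

theorem Iv.comap {B : Subgroup A} (h : Iv X B) (n : ℕ) : Iv X (B.comap (powMonoidHom n)) :=
  fun x hx b hb => by simpa using h x hx _ hb

theorem Iv.sup {B C : Subgroup A} (h : Iv X B) (h' : Iv X C) : Iv X (B ⊔ C) := fun x hx y hy => by
  obtain ⟨b, hb, c, hc, rfl⟩ := mem_sup.1 hy
  rw [map_mul]
  exact mul_mem (mem_sup_left (h x hx b hb)) (mem_sup_right (h' x hx c hc))

theorem iv_norm {B : Subgroup A} :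
    Iv X B ↔ (inr : X →* A ⋊[X.subtype] X).range ≤ 𝓝(B.map (inl : A →* A ⋊[X.subtype] X)) := by
  haveI : Finite (A ⋊[X.subtype] X) := Finite.of_equiv _ equivProd.symm
  constructor
  · rintro h _ ⟨x, rfl⟩
    refine mem_norm_of_cj_le fun y hy => ?_
    obtain ⟨_, ⟨b, hb, rfl⟩, rfl⟩ := mem_cj'.1 hy
    exact ⟨_, h x x.2 b hb, (inl_aut (φ := X.subtype) x b).trans (by rw [map_inv])⟩
  · intro h x hx b hb
    have := conj_mem_of_norm h (⟨⟨x, hx⟩, rfl⟩) (mem_map_of_mem _ hb)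
    rw [← map_inv, ← inl_aut] at this
    exact (mem_map_iff_mem inl_injective).1 this

theorem back {U V : Subgroup A} {W : Subgroup (A ⋊[X.subtype] X)} (h : W ≤ V.map inl)
    (hn : (inr : X →* A ⋊[X.subtype] X).range ≤ 𝓝(W)) :
    ∃ W' : Subgroup A, W'.map inl = W ∧ Iv X W' := by
  have h1 : (W.comap inl).map inl = W := map_comap_eq_self (h.trans (map_le_range _ _))
  exact ⟨_, h1, iv_norm.2 (h1.symm ▸ hn)⟩

omit [Finite A] hp in
theorem card_r : ♯(inr : X →* A ⋊[X.subtype] X).range = Nat.card X :=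
  (Nat.card_congr (MonoidHom.ofInjective inr_injective).toEquiv).symm

theorem m1 (hX : (Nat.card X).Coprime p) {N U V : Subgroup A} (hNV : N ≤ V) (h2 : ∀ x ∈ V, x ^ p ∈ N)
    (hV : Iv X V) (hN : Iv X N) (hUV : U ≤ V) (hU : Iv X U) :
    ∃ W, N ≤ W ∧ Iv X W ∧ U ⊓ W ≤ N ∧ U ⊔ W = V := by
  haveI : Finite (A ⋊[X.subtype] X) := Finite.of_equiv _ equivProd.symm
  obtain ⟨W, h3, h4, h5, h6, h7⟩ := CA.BG4.maschke_quo hp.out
    (map_mono (f := (inl : A →* A ⋊[X.subtype] X)) hNV) (by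
      rw [← Subgroup.map_commutator, commutator_eq_bot_iff_le_centralizer.2 fun a _ b _ => mul_comm _ _]
      simp) (by rintro _ ⟨x, hx, rfl⟩; exact ⟨_, h2 x hx, map_pow _ _ _⟩) (iv_norm.1 hV) (iv_norm.1 hN)
    ((isPi_compl_iff_coprime hp.out).2 (by rw [card_r]; exact hX)) (map_mono hUV) (iv_norm.1 hU)
  obtain ⟨W, rfl, h8⟩ := back (U := U) h4 h5
  rw [← map_inf _ _ _ inl_injective, map_le_map_iff_of_injective inl_injective] at h6
  rw [← Subgroup.map_sup] at h7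
  exact ⟨W, (map_le_map_iff_of_injective inl_injective).1 h3, h8, h6, map_injective inl_injective h7⟩

theorem m2 (hA : IsPGroup p A) (hX : (Nat.card X).Coprime p) {U W : Subgroup A} (hU : Iv X U)
    (h1 : U ⊓ W = ⊥) (h2 : U ⊔ W = ⊤) : ∃ W, Iv X W ∧ U ⊓ W = ⊥ ∧ U ⊔ W = ⊤ := by
  haveI : Finite (A ⋊[X.subtype] X) := Finite.of_equiv _ equivProd.symm
  obtain ⟨W, h4, h5, h6, h7⟩ := CA.BG4.invariant_compl
    (V := (⊤ : Subgroup A).map (inl : A →* A ⋊[X.subtype] X)) (W := W.map inl) inferInstance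
    (iv_norm.1 fun _ _ _ _ => mem_top _)
    ((isPi_of_isPGroup hp.out ((hA.to_subgroup ⊤).map _)).coprime
      ((isPi_compl_iff_coprime hp.out).2 (by rw [card_r]; exact hX))) (map_mono le_top) (iv_norm.1 hU)
    (map_mono le_top) (by rw [← map_inf _ _ _ inl_injective, h1, Subgroup.map_bot])
    (by rw [← Subgroup.map_sup, h2])
  obtain ⟨W, rfl, h8⟩ := back (U := U) h4 h5
  rw [← map_inf _ _ _ inl_injective, map_eq_bot_iff_of_injective _ inl_injective] at h6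
  rw [← Subgroup.map_sup] at h7
  exact ⟨W, h8, h6, map_injective inl_injective h7⟩

theorem exists_p (hA : IsPGroup p A) {H : Subgroup A} (h : H ≠ ⊥) : ∃ y ∈ H, y ≠ 1 ∧ y ^ p = 1 := by
  obtain ⟨y, hy, h1⟩ := exists_orderOf_eq hp.out
    ((isPi_of_isPGroup hp.out (hA.to_subgroup H)).dvd_card h)
  exact ⟨y, hy, fun h => hp.out.one_lt.ne (by rw [← h1, h, orderOf_one]), h1 ▸ pow_orderOf_eq_one y⟩

theorem dvd_of {H : Subgroup A} {b : A} (hb : b ^ p = 1) (h : b ∉ H) {m : ℕ} (hm : b ^ m ∈ H) : p ∣ m := by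
  by_contra h1
  obtain ⟨k, hk⟩ := exists_pow_eq_self_of_coprime (x := b) (n := m)
    (((Nat.coprime_comm.1 ((Nat.Prime.coprime_iff_not_dvd hp.out).2 h1))).coprime_dvd_right
      (orderOf_dvd_of_pow_eq_one hb))
  exact h (hk ▸ pow_mem hm k)

theorem split (hA : IsPGroup p A) (hX : (Nat.card X).Coprime p) {B : Subgroup A} (hB : Iv X B)
    (hBe : ∀ b ∈ B, b ^ p = 1) (hb : B ≠ ⊥) {a : A} (hap : a ^ p = 1) (haB : a ∉ B) :
    ∃ C D : Subgroup A, C ≠ ⊥ ∧ D ≠ ⊥ ∧ Iv X C ∧ Iv X D ∧ C ⊓ D = ⊥ ∧ C ⊔ D = ⊤ := by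
  classical
  obtain ⟨e, he, he'⟩ : ∃ e, (∀ a : A, a ^ p ^ (e + 1) = 1) ∧ ∃ a : A, a ^ p ^ e ≠ 1 := by
    have hex : ∃ n, ∀ a : A, a ^ p ^ n = 1 := by
      obtain ⟨n, hn⟩ := IsPGroup.iff_card.1 hA
      exact ⟨n, fun a => hn ▸ pow_card_eq_one'⟩
    obtain h | ⟨e, h⟩ := (Nat.find hex).eq_zero_or_eq_succ_pred.imp_right fun h => (⟨_, h⟩ : ∃ e, _ = e + 1)
    · exact absurd (by simpa [h] using Nat.find_spec hex a) fun h1 : a = 1 => haB (h1 ▸ one_mem _)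
    · exact ⟨e, by simpa [h] using Nat.find_spec hex,
        by simpa using Nat.find_min hex (m := e) (by omega)⟩
  obtain ⟨B0, hB0, ⟨h01, h02⟩, h03⟩ := exists_minimal_le (P := fun H : Subgroup A => Iv X H ∧ H ≠ ⊥)
    (H := (⊤ : Subgroup A).map (powMonoidHom (p ^ e))) ⟨Iv.map (fun _ _ _ _ => mem_top _) _, by
      obtain ⟨a, ha⟩ := he'
      exact ne_bot_of_mem (mem_map_of_mem _ (mem_top a)) ha⟩
  have h04 : ∀ b ∈ B0, b ^ p = 1 := fun b hb => by
    obtain ⟨a, -, rfl⟩ := hB0 hb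
    rw [powMonoidHom_apply, ← pow_mul, ← pow_succ, he]
  obtain ⟨C0, -, h11, h12, h13⟩ := m1 hX (N := ⊥) (U := B0) (V := (powMonoidHom p : A →* A).ker) bot_le
    (fun x hx => hx) (iv_ker p) (fun x _ b hb => by rw [mem_bot.1 hb, map_one]; exact one_mem _) h04 h01
  have h14 : C0 ≠ ⊥ := fun h => by
    rw [h, sup_bot_eq] at h13
    exact haB (h03 B ⟨hB, hb⟩ (h13 ▸ hBe) ▸ h13 ▸ hap)
  obtain ⟨C, hC0, ⟨hC1, hC2⟩, hC3⟩ := exists_maximal_ge (P := fun H : Subgroup A => Iv X H ∧ B0 ⊓ H ≤ ⊥)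
    ⟨h11, h12⟩
  have key1 : ∀ a : A, a ^ p ∈ C → a ∈ B0 ⊔ C := fun a ha => by
    obtain ⟨W, h1, h2, h3, h4⟩ := m1 hX (N := C) (U := B0 ⊔ C) (V := C.comap (powMonoidHom p))
      (fun c hc => pow_mem hc p) (fun x hx => hx) (hC1.comap p) hC1
      (sup_le (fun b hb => by rw [mem_comap, powMonoidHom_apply, h04 b hb]; exact one_mem _)
        fun c hc => pow_mem hc p) (h01.sup hC1)
    rw [hC3 W ⟨h2, (le_inf inf_le_left ((inf_le_inf_right _ le_sup_left).trans h3)).trans hC2⟩ h1,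
      sup_assoc, sup_idem] at h4
    exact h4.ge ha
  obtain ⟨D, -, ⟨hD1, hD2⟩, hD3⟩ := exists_maximal_ge (P := fun H : Subgroup A => C ⊓ H = ⊥ ∧
    ∀ d ∈ H, d ^ p = 1 → ∃ d' ∈ H, d' ^ p ^ e = d) (H := ⊥)
    ⟨inf_bot_eq _, fun d hd _ => ⟨1, one_mem _, by rw [mem_bot.1 hd, one_pow]⟩⟩
  have key2 : B0 ≤ C ⊔ D := fun b hb => by
    by_contra hbn
    obtain ⟨a, -, rfl⟩ := hB0 hb
    rw [powMonoidHom_apply] at hb hbn
    have h1 : ∀ y ∈ D ⊔ zpowers a, y ^ p = 1 → ∃ d ∈ D, ∃ m : ℕ, y = d ^ p ^ e * (a ^ p ^ e) ^ m := by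
      intro y hy hyp
      obtain ⟨d, hd, _, hk, rfl⟩ := mem_sup.1 hy
      obtain ⟨k, rfl⟩ := (mem_powers_iff_mem_zpowers.2 hk)
      have h2 : ∀ i ≤ e, p ^ i ∣ k := fun i => by
        induction i with
        | zero => simp
        | succ i ih =>
          intro hi
          obtain ⟨m, rfl⟩ := ih (by omega)
          rw [pow_succ]
          refine mul_dvd_mul_left _ (dvd_of (h04 _ hb) (fun h => hbn (mem_sup_right h)) ?_)
          have h3 : (d * a ^ (p ^ i * m)) ^ p ^ (e - i) = 1 := by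
            rw [show e - i = 1 + (e - (i + 1)) by omega, pow_add, pow_one, pow_mul, hyp, one_pow]
          rw [mul_pow, ← pow_mul, mul_right_comm, ← pow_add, show i + (e - i) = e by omega, pow_mul] at h3
          exact (mul_eq_one_iff_inv_eq.1 h3) ▸ inv_mem (pow_mem hd _)
      obtain ⟨m, rfl⟩ := h2 e le_rfl
      simp only [pow_mul] at hyp ⊢
      rw [mul_pow, ← pow_mul _ m, mul_comm m, pow_mul, h04 _ hb, one_pow, mul_one] at hyp
      obtain ⟨d', hd', rfl⟩ := hD2 d hd hyp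
      exact ⟨d', hd', m, rfl⟩
    have h2 := hD3 (D ⊔ zpowers a) ⟨by
      by_contra h
      obtain ⟨y, hy, hy1, hyp⟩ := exists_p hA h
      obtain ⟨d, hd, m, rfl⟩ := h1 y hy.2 hyp
      obtain ⟨m, rfl⟩ := dvd_of (h04 _ hb) hbn (m := m) (by
        simpa using mul_mem (inv_mem (mem_sup_right (pow_mem hd (p ^ e)))) (mem_sup_left hy.1))
      rw [pow_mul, h04 _ hb, one_pow, mul_one] at hy hy1
      exact hy1 (mem_bot.1 (hD1.le ⟨hy.1, pow_mem hd _⟩)), fun y hy hyp => by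
        obtain ⟨d, hd, m, rfl⟩ := h1 y hy hyp
        exact ⟨d * a ^ m, mul_mem (mem_sup_left hd) (mem_sup_right (pow_mem (mem_zpowers a) m)),
          by rw [mul_pow, ← pow_mul, ← pow_mul, mul_comm m]⟩⟩ le_sup_left
    exact hbn (mem_sup_right (pow_mem (h2.le (mem_sup_right (mem_zpowers a))) _))
  have key3 : ∀ i ≤ e + 1, ∀ a : A, a ^ p ^ i ∈ C → a ∈ C ⊔ D := fun i => by
    induction i with
    | zero => exact fun _ a ha => mem_sup_left (by simpa using ha)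
    | succ i ih =>
      intro hi a ha
      rw [pow_succ, pow_mul] at ha
      obtain ⟨c, hc, d, hd, h1⟩ := mem_sup.1 (sup_le key2 le_sup_left (key1 _ ha))
      rw [← h1, mul_pow] at ha
      obtain ⟨d', hd', rfl⟩ := hD2 d hd (mem_bot.1 (hD1.le
        ⟨(mul_mem_cancel_left (pow_mem hc p)).1 ha, pow_mem hd p⟩))
      have h2 := ih (by omega) (a / d' ^ p ^ (e - i)) (by
        rw [div_pow, ← pow_mul, ← pow_add, show e - i + i = e by omega, ← h1, mul_div_cancel_right]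
        exact hc)
      simpa using mul_mem h2 (mem_sup_right (pow_mem hd' (p ^ (e - i))))
  obtain ⟨D', h1, h2, h3⟩ := m2 hA hX hC1 hD1
    (top_unique fun a _ => key3 _ le_rfl a (by rw [he]; exact one_mem _))
  refine ⟨C, D', ne_bot_mono hC0 h14, fun h => h02 ?_, hC1, h1, h2, h3⟩
  rw [h, sup_bot_eq] at h3
  simpa [h3] using hC2

theorem omega (h : ∀ B : Subgroup A, Iv X B → (∀ b ∈ B, b ^ p = 1) → B = ⊥ ∨ ∀ a : A, a ∈ B ↔ a ^ p = 1)
    (i : ℕ) : ∀ B : Subgroup A, Iv X B → (∀ b ∈ B, b ^ p ^ i = 1) →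
      ∃ j : ℕ, ∀ a : A, a ∈ B ↔ a ^ p ^ j = 1 := by
  have key : ∀ i, ∀ B : Subgroup A, Iv X B → (∀ b ∈ B, b ^ p ^ (i + 1) = 1) → (∃ b ∈ B, b ^ p ^ i ≠ 1) →
      ∀ a : A, a ^ p ^ (i + 1) = 1 → a ∈ B := fun i => by
    induction i with
    | zero =>
      rintro B hB h1 ⟨b, hb, h2⟩ a ha
      simp only [zero_add, pow_one, pow_zero] at h1 h2 ha
      exact ((h B hB h1).resolve_left (ne_bot_of_mem hb h2) a).2 ha
    | succ i ih =>
      rintro B hB h1 ⟨b, hb, h2⟩ a ha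
      obtain ⟨c, hc, h3⟩ := ((h _ (hB.map (p ^ (i + 1))) (by
        rintro _ ⟨x, hx, rfl⟩
        rw [powMonoidHom_apply, ← pow_mul, ← pow_succ, h1 x hx])).resolve_left
        (ne_bot_of_mem (mem_map_of_mem _ hb) h2) (a ^ p ^ (i + 1))).2 (by rw [← pow_mul, ← pow_succ, ha])
      have h4 := ih (B ⊓ (powMonoidHom (p ^ (i + 1)) : A →* A).ker)
        (fun x hx y hy => ⟨hB x hx y hy.1, iv_ker _ x hx y hy.2⟩) (fun y hy => hy.2)
        ⟨b ^ p, ⟨pow_mem hb p, by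
          show (b ^ p) ^ p ^ (i + 1) = 1
          rw [← pow_mul, ← pow_succ', h1 b hb]⟩,
          by rwa [← pow_mul, ← pow_succ']⟩ (a / c) (by rw [div_pow, ← h3, powMonoidHom_apply, div_self'])
      simpa using mul_mem h4.1 hc
  induction i with
  | zero => exact fun B _ h1 => ⟨0, fun a => ⟨h1 a, fun h => by rw [show a = 1 by simpa using h]; exact one_mem _⟩⟩
  | succ i ih =>
    intro B hB h1
    by_cases h2 : ∃ b ∈ B, b ^ p ^ i ≠ 1
    · exact ⟨i + 1, fun a => ⟨h1 a, key i B hB h1 h2 a⟩⟩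
    · exact ih B hB (by simpa using h2)
end

/-- Let A be a finite abelian p-group and X a group of automorphisms of A of order prime to p. Call a subgroup of A invariant when every element of X maps it onto itself. Then the following are equivalent: (i) A is not the direct product of two nontrivial invariant subgroups; (ii) every invariant subgroup of A is one of the subgroups Ω_i(A) = {a : a^(p^i) = 1}; (iii) the subgroup Ω₁(A) of elements of order dividing p has no invariant subgroups other than 1 and itself. -/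
theorem result {A : Type*} [CommGroup A] [Finite A] {p : ℕ} [Fact p.Prime] (hA : IsPGroup p A) (X : Subgroup (MulAut A)) (hX : (Nat.card X).Coprime p) : ((¬ ∃ B C : Subgroup A, B ≠ ⊥ ∧ C ≠ ⊥ ∧ (∀ x ∈ X, B.map x.toMonoidHom = B) ∧ (∀ x ∈ X, C.map x.toMonoidHom = C) ∧ B ⊓ C = ⊥ ∧ B ⊔ C = ⊤) ↔ (∀ B : Subgroup A, (∀ x ∈ X, B.map x.toMonoidHom = B) → ∃ i : ℕ, ∀ a : A, a ∈ B ↔ a ^ p ^ i = 1)) ∧ ((∀ B : Subgroup A, (∀ x ∈ X, B.map x.toMonoidHom = B) → ∃ i : ℕ, ∀ a : A, a ∈ B ↔ a ^ p ^ i = 1) ↔ (∀ B : Subgroup A, (∀ x ∈ X, B.map x.toMonoidHom = B) → (∀ b ∈ B, b ^ p = 1) → B = ⊥ ∨ ∀ a : A, a ∈ B ↔ a ^ p = 1)) := by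
  simp only [iv_iff]
  obtain ⟨n, hn⟩ := IsPGroup.iff_card.1 hA
  have h32 := fun h => fun B hB => omega (X := X) (p := p) h n B hB fun b _ => hn ▸ pow_card_eq_one'
  have hΩ : ∀ B : Subgroup A, B ≠ ⊥ → (∃ i : ℕ, ∀ a : A, a ∈ B ↔ a ^ p ^ i = 1) →
      ∀ a : A, a ^ p = 1 → a ∈ B := by
    rintro B hB ⟨i, hi⟩ a ha
    rcases i with _ | i
    · exact absurd (Subgroup.eq_bot_iff_forall _ |>.2 fun x hx => by simpa using (hi x).1 hx) hB
    · exact (hi a).2 (by rw [pow_succ', pow_mul, ha, one_pow])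
  refine ⟨⟨fun h => h32 fun B hB hBe => ?_, ?_⟩, fun h B hB hBe => ?_, h32⟩
  · by_contra! h1
    obtain ⟨a, ha⟩ := h1.2
    rcases ha with ha | ha
    · exact ha.2 (hBe a ha.1)
    · exact h (split hA hX hB hBe h1.1 ha.2 ha.1)
  · rintro h ⟨B, C, hB, hC, hB1, hC1, h1, -⟩
    obtain ⟨y, hy, hy1, hyp⟩ := exists_p hA hB
    exact hy1 (Subgroup.mem_bot.1 (h1.le ⟨hy, hΩ C hC (h C hC1) y hyp⟩))
  · exact or_iff_not_imp_left.2 fun h1 a => ⟨hBe a, hΩ B h1 (h B hB) a⟩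

end Cfsg.Agent.S3775
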