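import Cfsg.Statements.S3776
import Cfsg.Agent.Lib.Lie.H4HigD

set_option autoImplicit false
open Cfsg

namespace Cfsg.Agent.S3776


/-- Let G be a finite non-abelian 2-group with more than one involution admitting a solvable group of automorphisms that permutes its involutions transitively. Then the derived subgroup, the Frattini subgroup and the centre of G coincide and consist exactly of the elements x with x² = 1. -/
theorem result {G : Type*} [Group G] [Finite G] (hG : IsPGroup 2 G) (hna : ¬ IsMulCommutative G) (htwo : ∃ x y : G, x ≠ y ∧ x ≠ 1 ∧ x ^ 2 = 1 ∧ y ≠ 1 ∧ y ^ 2 = 1) (hY : ∃ Y : Subgroup (MulAut G), Group.IsSolvable Y ∧ ∀ x y : G, x ≠ 1 → x ^ 2 = 1 → y ≠ 1 → y ^ 2 = 1 → ∃ a ∈ Y, a x = y) : commutator G = frattini G ∧ frattini G = Subgroup.center G ∧ ∀ x : G, x ∈ Subgroup.center G ↔ x ^ 2 = 1 := by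
  open Subgroup CA.H4Hig in
  obtain ⟨x, y, hxy, hx1, hx, hy1, hy⟩ := htwo
  obtain ⟨Y, hY, htr⟩ := hY
  simp only [pow_two] at hx hy htr ⊢
  have : Nontrivial G := ⟨x, y, hxy⟩
  obtain ⟨z, -, hz, hz2⟩ := CA.PGBasic.exists_mem_center_orderOf hG (M := ⊤) top_ne_bot
  have hz1 : z ≠ 1 := by rintro rfl; simp at hz2
  have hzz : z * z = 1 := by rw [← pow_two, ← hz2, pow_orderOf_eq_one]
  have hc : ∀ u : G, u * u = 1 → ∀ w, u * w = w * u := fun u hu w => by
    by_cases h1 : u = 1
    · simp [h1]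
    obtain ⟨k, -, rfl⟩ := htr z u hz1 hzz h1 hu
    obtain ⟨w, rfl⟩ := k.surjective w
    rw [← map_mul, ← map_mul, Subgroup.mem_center_iff.1 hz w]
  let Z : Subgroup G :=
    { carrier := {u | u * u = 1}
      one_mem' := one_mul 1
      mul_mem' := fun {a b} ha hb => by
        show a * b * (a * b) = 1
        rw [mul_assoc, ← mul_assoc b, ← hc a ha b, mul_assoc, hb, mul_one, ha]
      inv_mem' := fun {a} ha => by
        show a⁻¹ * a⁻¹ = 1
        rw [← mul_inv_rev, ha, inv_one] }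
  obtain ⟨ξ, h⟩ := CA.H4Hig.exists_hig (Z := Z) hG (fun _ => Iff.rfl) hc (by
    let _ := Fintype.ofFinite Z
    rw [Nat.card_eq_fintype_card, Fintype.two_lt_card_iff]
    exact ⟨1, ⟨x, hx⟩, ⟨y, hy⟩, fun e => hx1 (congrArg Subtype.val e).symm,
      fun e => hy1 (congrArg Subtype.val e).symm, fun e => hxy (congrArg Subtype.val e)⟩) Y
    fun a ha b hb ha1 hb1 => htr a b ha1 ha hb1 hb
  obtain ⟨n, hn, -⟩ := h.card
  have h0 : n ≠ 0 := by rintro rfl; have := h.two; omega
  let _ := Fintype.ofFinite (GaloisField 2 n)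
  have hF : Fintype.card (GaloisField 2 n) = Nat.card Z := by
    rw [hn, ← Nat.card_eq_fintype_card, GaloisField.card 2 n h0]
  have hna' : ∃ x ∈ (⊤ : Subgroup G), ∃ y ∈ (⊤ : Subgroup G), x * y ≠ y * x := by
    by_contra! h1
    exact hna ⟨⟨fun a b => h1 a trivial b trivial⟩⟩
  have hs := CA.H4Hig.spec h hF hna'
  have h1 : Subgroup.center G = Z := le_antisymm
    (fun u hu => hs.center u trivial fun w _ => (Subgroup.mem_center_iff.1 hu w).symm)
    fun u hu => Subgroup.mem_center_iff.2 fun w => (hc u hu w).symm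
  have h2 : frattini G ≤ Z := CA.PGFrattini.frattini_le_of_sq_mem fun u => by
    rw [pow_two]; exact hs.sq u trivial
  have h3 : Z ≤ commutator G := h.Z_le_of_ne_bot hF le_top (h.inv.commutator h.inv) fun e => by
    obtain ⟨a, -, b, -, hab⟩ := hna'
    exact hab (commutatorElement_eq_one_iff_mul_comm.1 (Subgroup.mem_bot.1
      (e ▸ Subgroup.commutator_mem_commutator (Subgroup.mem_top a) (Subgroup.mem_top b))))
  have h4 := CA.PGFrattini.commutator_le_frattini hG
  exact ⟨le_antisymm h4 (h2.trans h3), h1 ▸ le_antisymm h2 (h3.trans h4), fun u => h1 ▸ Iff.rfl⟩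

end Cfsg.Agent.S3776
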