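import Cfsg.Statements.S3778
import Mathlib.GroupTheory.Nilpotent

set_option autoImplicit false
open Cfsg

namespace Cfsg.Agent.S3778

open Subgroup
open scoped commutatorElement

variable {G : Type*} [Group G]

/-- elements acting trivially on `γ_i / γ_(i+2)` -/
def DD (G : Type*) [Group G] (i : ℕ) : Subgroup G where
  carrier := {x | ∀ y ∈ (⊤ : Subgroup G).lowerCentralSeries i,
    ⁅y, x⁆ ∈ (⊤ : Subgroup G).lowerCentralSeries (i + 2)}
  one_mem' := by intro y _; simp
  mul_mem' := by
    intro a b ha hb y hy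
    have h1 := ha y hy
    have h2 := (inferInstance : ((⊤ : Subgroup G).lowerCentralSeries (i + 2)).Normal).conj_mem _ (hb y hy) a
    have : ⁅y, a * b⁆ = ⁅y, a⁆ * (a * ⁅y, b⁆ * a⁻¹) := by simp only [commutatorElement_def]; group
    rw [this]; exact mul_mem h1 h2
  inv_mem' := by
    intro a ha y hy
    have h2 := (inferInstance : ((⊤ : Subgroup G).lowerCentralSeries (i + 2)).Normal).conj_mem _ (inv_mem (ha y hy)) a⁻¹
    have : ⁅y, a⁻¹⁆ = a⁻¹ * ⁅y, a⁆⁻¹ * a⁻¹⁻¹ := by simp only [commutatorElement_def]; group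
    rw [this]; exact h2

theorem DD_ne_top {i : ℕ} (h : (⊤ : Subgroup G).lowerCentralSeries (i + 1) ≠ ⊥)
    [Group.IsNilpotent G] : DD G i ≠ ⊤ := by
  intro hD
  have h1 : (⊤ : Subgroup G).lowerCentralSeries (i + 1) ≤ (⊤ : Subgroup G).lowerCentralSeries (i + 2) := by
    rw [Subgroup.lowerCentralSeries_succ, commutator_le]
    intro y hy x _
    have hx : x ∈ DD G i := hD ▸ mem_top x
    exact hx y hy
  have h2 : ∀ k, (⊤ : Subgroup G).lowerCentralSeries (i + 1) ≤ (⊤ : Subgroup G).lowerCentralSeries (i + 1 + k) := by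
    intro k
    induction k with
    | zero => exact le_rfl
    | succ k ih => exact h1.trans (commutator_mono ih le_rfl)
  obtain ⟨c, hc⟩ := Subgroup.nilpotent_iff_lowerCentralSeries.1 (inferInstance : Group.IsNilpotent G)
  apply h
  have := (h2 c).trans (Subgroup.lowerCentralSeries_antitone ⊤ (show c ≤ i + 1 + c by omega))
  rwa [hc, le_bot_iff] at this

theorem step [Finite G] {p : ℕ} [Fact p.Prime] (hG : IsPGroup p G) (x : G) (i : ℕ) (hx : x ∉ DD G i) :
    p ∣ (centralizer ({x} : Set G) ⊔ (⊤ : Subgroup G).lowerCentralSeries (i + 1)).relIndex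
      (centralizer ({x} : Set G) ⊔ (⊤ : Subgroup G).lowerCentralSeries i) := by
  obtain ⟨k, hk⟩ := (hG.to_subgroup (centralizer ({x} : Set G) ⊔ (⊤ : Subgroup G).lowerCentralSeries i)).index
    ((centralizer ({x} : Set G) ⊔ (⊤ : Subgroup G).lowerCentralSeries (i + 1)).subgroupOf _)
  have hk' : (centralizer ({x} : Set G) ⊔ (⊤ : Subgroup G).lowerCentralSeries (i + 1)).relIndex
      (centralizer ({x} : Set G) ⊔ (⊤ : Subgroup G).lowerCentralSeries i) = p ^ k := hk
  rcases k with _ | k
  · exfalso
    rw [pow_zero, relIndex_eq_one] at hk'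
    apply hx
    intro y hy
    have hy' := hk' (mem_sup_right hy)
    have hy2 : y ∈ ((centralizer ({x} : Set G) ⊔ (⊤ : Subgroup G).lowerCentralSeries (i + 1) : Subgroup G) : Set G) := hy'
    rw [mul_normal] at hy2
    obtain ⟨c, hc, z, hz, rfl⟩ := hy2
    have hcx : x * c = c * x := by simpa using (mem_centralizer_iff.1 hc x rfl)
    have h3 : ⁅z, x⁆ ∈ (⊤ : Subgroup G).lowerCentralSeries (i + 2) :=
      commutator_mem_commutator hz (mem_top x)
    have h4 := (inferInstance : ((⊤ : Subgroup G).lowerCentralSeries (i + 2)).Normal).conj_mem _ h3 c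
    have : ⁅c * z, x⁆ = c * ⁅z, x⁆ * c⁻¹ := by
      simp only [commutatorElement_def]
      have h5 : c⁻¹ * x⁻¹ = x⁻¹ * c⁻¹ := by rw [← mul_inv_rev, ← mul_inv_rev, hcx]
      calc c * z * x * (c * z)⁻¹ * x⁻¹ = c * z * x * z⁻¹ * (c⁻¹ * x⁻¹) := by group
        _ = _ := by rw [h5]; group
    show ⁅c * z, x⁆ ∈ _
    rw [this]; exact h4
  · rw [hk']; exact dvd_pow_self p (by omega)

open Classical in
theorem pow_dvd [Finite G] {p : ℕ} [Fact p.Prime] (hG : IsPGroup p G) (x : G) (k : ℕ) :
    p ^ ((Finset.range k).filter (fun i => x ∉ DD G i)).card ∣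
      (centralizer ({x} : Set G) ⊔ (⊤ : Subgroup G).lowerCentralSeries k).index := by
  induction k with
  | zero => simp
  | succ k ih =>
    have hle : centralizer ({x} : Set G) ⊔ (⊤ : Subgroup G).lowerCentralSeries (k + 1) ≤
        centralizer ({x} : Set G) ⊔ (⊤ : Subgroup G).lowerCentralSeries k :=
      sup_le_sup_left (Subgroup.lowerCentralSeries_antitone ⊤ (Nat.le_succ k)) _
    rw [← relIndex_mul_index hle, Finset.range_add_one, Finset.filter_insert]
    split_ifs with h
    · exact ih.mul_left _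
    · rw [Finset.card_insert_of_notMem (by simp), pow_succ, mul_comm (p ^ _)]
      exact Nat.mul_dvd_mul (step hG x k h) ih

open Classical in
theorem count [Finite G] {p : ℕ} [Fact p.Prime] (hG : IsPGroup p G) (b : ℕ)
    (hb : ∀ x : G, (centralizer ({x} : Set G)).index ≤ p ^ b) (k : ℕ)
    (hk : ∀ i < k, DD G i ≠ ⊤) : k * (p - 1) * Nat.card G + p * b ≤ p * b * Nat.card G := by
  haveI := Fintype.ofFinite G
  have hp : p.Prime := Fact.out
  have h1 : ∀ x : G, ((Finset.range k).filter (fun i => x ∉ DD G i)).card ≤ b := by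
    intro x
    have := (pow_dvd hG x k).trans (index_dvd_of_le le_sup_left)
    have h2 := (Nat.le_of_dvd (Nat.pos_of_ne_zero FiniteIndex.index_ne_zero) this).trans (hb x)
    exact (Nat.pow_le_pow_iff_right hp.one_lt).1 h2
  have h2 : ∑ x : G, ((Finset.range k).filter (fun i => x ∉ DD G i)).card + b ≤ b * Nat.card G := by
    rw [← Finset.add_sum_erase _ _ (Finset.mem_univ (1 : G))]
    have h0 : ((Finset.range k).filter (fun i => (1 : G) ∉ DD G i)).card = 0 := by
      simp [one_mem]
    have h3 := Finset.sum_le_card_nsmul (Finset.univ.erase (1 : G)) _ b (fun x _ => h1 x)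
    rw [Finset.card_erase_of_mem (Finset.mem_univ _), smul_eq_mul, Finset.card_univ,
      ← Nat.card_eq_fintype_card] at h3
    have hpos : 0 < Nat.card G := Nat.card_pos
    obtain ⟨m, hm⟩ : ∃ m, Nat.card G = m + 1 := ⟨Nat.card G - 1, by omega⟩
    rw [hm] at h3 ⊢
    simp only [Nat.add_sub_cancel] at h3
    nlinarith
  have h3 : ∑ x : G, ((Finset.range k).filter (fun i => x ∉ DD G i)).card =
      ∑ i ∈ Finset.range k, (Finset.univ.filter (fun x : G => x ∉ DD G i)).card := by
    simp only [Finset.card_filter]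
    rw [Finset.sum_comm]
  have h4 : ∀ i ∈ Finset.range k, (p - 1) * Nat.card G ≤ p * (Finset.univ.filter (fun x : G => x ∉ DD G i)).card := by
    intro i hi
    have hne := hk i (Finset.mem_range.1 hi)
    obtain ⟨j, hj⟩ := hG.index (DD G i)
    have hj0 : j ≠ 0 := by
      rintro rfl
      exact hne (index_eq_one.1 (by simpa using hj))
    have hpi : p ≤ (DD G i).index := by
      rw [hj]; exact Nat.le_self_pow hj0 p
    have hc : (Finset.univ.filter (fun x : G => x ∈ DD G i)).card = Nat.card (DD G i) := by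
      rw [Nat.card_eq_fintype_card, Fintype.card_subtype]
    have hs := Finset.card_filter_add_card_filter_not (s := (Finset.univ : Finset G)) (fun x : G => x ∈ DD G i)
    rw [hc, Finset.card_univ, ← Nat.card_eq_fintype_card] at hs
    have hm := (DD G i).index_mul_card
    obtain ⟨r, hr⟩ : ∃ r, p = r + 1 := ⟨p - 1, by have := hp.one_lt; omega⟩
    have h5 : p * Nat.card (DD G i) ≤ Nat.card G := by rw [← hm]; exact Nat.mul_le_mul_right _ hpi
    subst hr
    simp only [Nat.add_sub_cancel]
    nlinarith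
  have h5 := Finset.card_nsmul_le_sum _ _ _ h4
  rw [Finset.card_range, smul_eq_mul, ← Finset.mul_sum, ← h3] at h5
  nlinarith

/-- If G is a finite p-group in which every conjugacy class has at most p^b elements (every element has centralizer of index at most p^b), then G is abelian when b = 0, and when b ≥ 1 its nilpotency class c satisfies (c − 1)(p − 1) < bp, that is c < bp/(p − 1) + 1, and hence c ≤ 2b. -/
theorem result {G : Type*} [Group G] [Finite G] {p : ℕ} [Fact p.Prime] (hG : IsPGroup p G) (b : ℕ) (hb : ∀ x : G, (Subgroup.centralizer ({x} : Set G)).index ≤ p ^ b) : ∃ c : ℕ, (⊤ : Subgroup G).lowerCentralSeries c = ⊥ ∧ (b ≠ 0 → (c - 1) * (p - 1) < b * p ∧ c ≤ 2 * b) ∧ (b = 0 → c ≤ 1) := by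
  have hp : p.Prime := Fact.out
  haveI := hG.isNilpotent
  have hk : ∀ i < Group.nilpotencyClass G - 1, DD G i ≠ ⊤ := by
    intro i hi
    apply DD_ne_top
    rw [Ne, Subgroup.lowerCentralSeries_eq_bot_iff_nilpotencyClass_le]
    omega
  have h := count hG b hb _ hk
  have hpos : 0 < Nat.card G := Nat.card_pos
  have hp2 := hp.two_le
  refine ⟨Group.nilpotencyClass G, Subgroup.lowerCentralSeries_nilpotencyClass, fun hb0 => ?_, fun hb0 => ?_⟩
  · have h1 : (Group.nilpotencyClass G - 1) * (p - 1) < b * p := by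
      have hpb : 0 < p * b := Nat.mul_pos (by omega) (by omega)
      have : (Group.nilpotencyClass G - 1) * (p - 1) * Nat.card G < b * p * Nat.card G := by
        rw [mul_comm b p]; omega
      exact Nat.lt_of_mul_lt_mul_right this
    refine ⟨h1, ?_⟩
    obtain ⟨r, rfl⟩ : ∃ r, p = r + 2 := ⟨p - 2, by omega⟩
    have h2 : (Group.nilpotencyClass G - 1) * (r + 1) < (2 * b) * (r + 1) := by
      have : r + 2 - 1 = r + 1 := rfl
      rw [this] at h1
      nlinarith
    have := Nat.lt_of_mul_lt_mul_right h2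
    omega
  · subst hb0
    simp only [mul_zero, zero_mul, add_zero, nonpos_iff_eq_zero, mul_eq_zero] at h
    omega

end Cfsg.Agent.S3778
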