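import Cfsg.Statements.S3780
import Cfsg.Agent.Lib.Grp.PGFrattini

set_option autoImplicit false
open Cfsg

namespace Cfsg.Agent.S3780

open Subgroup CA

theorem card_ker_pow {M : Type*} [AddCommGroup M] [Finite M] (f : AddMonoid.End M) (k : ℕ) :
    Nat.card {x // (f ^ k) x = 0} ≤ Nat.card {x // f x = 0} ^ k := by
  induction k with
  | zero =>
    rw [pow_zero, pow_zero]
    exact Finite.card_le_one_iff_subsingleton.2 ⟨fun x y => Subtype.ext (x.2.trans y.2.symm)⟩
  | succ k ih =>
    let g : M →+ M := (f ^ (k + 1) : AddMonoid.End M)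
    let f' : M →+ M := f
    let g' : M →+ M := (f ^ k : AddMonoid.End M)
    change Nat.card g.ker ≤ _
    rw [← (f'.comp g.ker.subtype).ker.card_mul_index, AddSubgroup.index_ker, pow_succ']
    refine Nat.mul_le_mul (Nat.card_le_card_of_injective (fun x => ⟨x.1.1, x.2⟩)
      fun x y h => Subtype.ext (Subtype.ext (congrArg (fun t : {x // f x = 0} => t.1) h)))
      ((AddSubgroup.card_le_of_le (K := g'.ker) ?_).trans ih)
    rintro _ ⟨x, rfl⟩
    exact x.2

/-- Let V be a finite abelian p-group and α an automorphism of V of order p whose fixed-point subgroup has order p^n. Then V can be generated by pn elements: some subset of V with at most pn elements generates V. -/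
theorem result {V : Type*} [CommGroup V] [Finite V] {p : ℕ} [Fact p.Prime] (hV : IsPGroup p V) (α : MulAut V) (hα : orderOf α = p) (n : ℕ) (hfix : Nat.card {v : V // α v = v} = p ^ n) : ∃ S : Finset V, S.card ≤ p * n ∧ Subgroup.closure (S : Set V) = ⊤ := by
  have hp := (Fact.out : p.Prime)
  let a : AddMonoid.End (Additive V) := MonoidHom.toAdditive α.toMonoidHom
  have h1 : ∀ k, ∀ v : V, (a ^ k) (Additive.ofMul v) = Additive.ofMul ((α ^ k) v) := by
    intro k
    induction k with
    | zero => intro v; rfl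
    | succ k ih => intro v; rw [pow_succ, pow_succ]; exact ih (α v)
  have h2 : a ^ p = 1 := AddMonoidHom.ext fun v => (h1 p v.toMul).trans (by
    rw [← hα, pow_orderOf_eq_one]; rfl)
  obtain ⟨r, hr⟩ := (Commute.one_right (a - 1)).exists_add_pow_prime_eq hp
  rw [sub_add_cancel, h2, one_pow, add_comm _ 1, add_assoc, left_eq_add, add_eq_zero_iff_eq_neg] at hr
  have h3 : Nat.card (powMonoidHom p : V →* V).ker ≤ p ^ (p * n) := by
    rw [mul_comm, pow_mul, ← hfix]
    have h5 : ∀ v : (powMonoidHom p : V →* V).ker, ((a - 1) ^ p) (Additive.ofMul v.1) = 0 := by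
      intro v
      rw [hr, mul_assoc, mul_assoc, ← nsmul_eq_mul]
      change -(p • ((a - 1) * (1 * r)) (Additive.ofMul v.1)) = 0
      rw [← map_nsmul, ← ofMul_pow, show v.1 ^ p = 1 from v.2, ofMul_one, map_zero, neg_zero]
    have h6 : ∀ v : {x // (a - 1) x = 0}, α v.1.toMul = v.1.toMul := fun v =>
      congrArg Additive.toMul (sub_eq_zero.1 v.2)
    exact le_trans (Nat.card_le_card_of_injective (fun v => ⟨Additive.ofMul v.1, h5 v⟩)
      fun x y h => Subtype.ext (congrArg (fun t : {x // ((a - 1) ^ p) x = 0} => t.1) h))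
      ((card_ker_pow (a - 1) p).trans (Nat.pow_le_pow_left (Nat.card_le_card_of_injective
        (fun v : {x // (a - 1) x = 0} => (⟨v.1.toMul, h6 v⟩ : {v : V // α v = v}))
        fun x y h => Subtype.ext
          (congrArg (fun t : {v : V // α v = v} => t.1) h)) p))
  have h4 : frattini V = (powMonoidHom p : V →* V).range := le_antisymm
    ((PGFrattini.frattini_le_iff hV).2 ⟨((commutator_eq_bot_iff_center_eq_top V).2 CommGroup.center_eq_top).le.trans bot_le,
      fun x => ⟨x, rfl⟩⟩)
    (by rintro _ ⟨x, rfl⟩; exact PGFrattini.pow_mem_frattini hV x)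
  obtain ⟨T, h5, h6⟩ := PGFrattini.exists_basis hV (PGFrattini.index_frattini_eq hV)
  refine ⟨T, ?_, h6⟩
  rw [h5, ← Nat.pow_le_pow_iff_right hp.one_lt, ← PGFrattini.index_frattini_eq hV, h4, index_range]
  exact h3

end Cfsg.Agent.S3780
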