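import Cfsg.Statements.S3783
import Cfsg.Agent.Lib.Solv.HH3

set_option autoImplicit false
open Cfsg

namespace Cfsg.Agent.S3783

open Subgroup CA CA.BG CA.HH

/-- Let G be a finite p-soluble group in which, for every prime q ≠ p, the Sylow q-subgroups are abelian. If the Sylow p-subgroups of G have exponent dividing p^n, then G has p-length at most n. -/
theorem result {G : Type*} [Group G] [Finite G] {p : ℕ} [Fact p.Prime] (hG : Cfsg.IsPSolvable p G) (hab : ∀ (q : ℕ) [Fact q.Prime], q ≠ p → ∀ Q : Sylow q G, IsMulCommutative (Q : Subgroup G)) (n : ℕ) (hexp : ∀ (P : Sylow p G), ∀ x ∈ (P : Subgroup G), x ^ p ^ n = 1) : Cfsg.PLengthLE p n G := by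
  have hp := (Fact.out : p.Prime)
  refine PL_of_exp hG (fun m q j Q h1 h2 h3 h4 h5 => ?_) fun x hx => ?_
  · haveI := Fact.mk h2
    obtain ⟨S, hS⟩ := le_sylow h2 h5
    refine comm_of_le (hab q ?_ S) hS
    rintro rfl
    have := (Nat.dvd_sub_iff_right (Nat.one_le_pow m _ hp.pos) (dvd_pow_self q (by omega))).1
      (h4 ▸ dvd_pow_self q (by omega))
    exact hp.one_lt.ne' (Nat.dvd_one.1 this)
  · obtain ⟨S, hS⟩ := le_sylow hp (isPi_zpowers.2 hx)
    exact hexp S x (hS (mem_zpowers x))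

end Cfsg.Agent.S3783
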