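import Cfsg.Statements.S3785
import Cfsg.Agent.Lib.Solv.HH2

set_option autoImplicit false
open Cfsg

namespace Cfsg.Agent.S3785

open Subgroup CA CA.BG

/-- Let G be a finite solvable group whose Fitting subgroup F(G) has odd order. If an element g of G commutes with every element of prime order of F(G), then g ∈ F(G). -/
theorem result {G : Type*} [Group G] [Finite G] (hG : Group.IsSolvable G) (hodd : Odd (Nat.card (Cfsg.fittingSubgroup G))) (g : G) (hg : ∀ x ∈ Cfsg.fittingSubgroup G, (orderOf x).Prime → g * x = x * g) : g ∈ Cfsg.fittingSubgroup G := by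
  rw [← fit_top] at hodd hg ⊢
  set F := 𝓕((⊤ : Subgroup G))
  set C := centralizer {x | x ∈ F ∧ (orderOf x).Prime}
  have hF : ⊤ ≤ 𝓝(F) := le_norm_fit ⊤
  haveI hC : C.Normal := ⟨fun c hc y => mem_centralizer_iff.2 fun x hx => by
    have := mem_centralizer_iff.1 hc (y⁻¹ * x * y) ⟨conj_mem_of_mem_norm' (hF (mem_top y)) hx.1, by
      rw [show y⁻¹ * x * y = y⁻¹ * x * y⁻¹⁻¹ by rw [inv_inv], ← MulAut.conj_apply, MulEquiv.orderOf_eq]
      exact hx.2⟩
    calc x * (y * c * y⁻¹) = y * (y⁻¹ * x * y * c) * y⁻¹ := by group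
      _ = _ := by rw [this]; group⟩
  have k1 : ∀ r, r.Prime → ∀ T ≤ C, IsPi {r}ᶜ T → T ≤ 𝓒(𝓞({r}, (⊤ : Subgroup G))) := by
    intro r hr T hT hp
    by_cases h : 𝓞({r}, (⊤ : Subgroup G)) = ⊥
    · rw [h]; exact cent_symm bot_le
    refine coprime_odd_faithful_Ohm1 hr (ne_two_of_odd hodd (((core_pi _ _).dvd_card h).trans
      (card_dvd (core_p_le_fit hr _)))) (core_pi _ _) (le_top.trans (le_norm_core _ _))
      ((core_pi _ _).coprime hp) (cent_symm (omega_le_iff.2 fun x hx h1 => ?_))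
    by_cases h2 : x = 1
    · rw [h2]; exact one_mem _
    · haveI := Fact.mk hr
      exact mem_cent.2 fun t ht => (mem_centralizer_iff.1 (hT ht) x ⟨core_p_le_fit hr _ hx, by
        rw [orderOf_eq_prime h1 h2]; exact hr⟩).symm
  refine (show C ≤ F from le_of_forall_syl fun q hq _ => ?_)
    (mem_centralizer_iff.2 fun x hx => (hg x hx.1 hx.2).symm)
  obtain ⟨S, hS⟩ := syl_exists hq C
  have h1 : S ≤ 𝓒(𝓞({q}ᶜ, F)) := cent_symm (le_of_forall_syl fun r hr hd => by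
    obtain ⟨P, hP⟩ := syl_exists hr 𝓞({q}ᶜ, F)
    exact ⟨P, hP, (hP.pi.le_core_of_le_fit (hP.le.trans (core_le _ _))).trans
      (cent_symm (k1 r hr S hS.le (hS.pi.ne (Ne.symm (core_pi {q}ᶜ F r hr hd)))))⟩)
  have h2 : Syl q S (C ⊓ 𝓒(𝓞({q}ᶜ, F))) := hS.of_le (le_inf hS.le h1) inf_le_left
  have h3 : C ⊓ 𝓒(𝓞({q}ᶜ, F)) ≤ 𝓝(S) := le_of_forall_syl fun r hr _ => by
    by_cases h : r = q
    · exact ⟨S, h ▸ h2, le_normalizer⟩
    obtain ⟨T, hT⟩ := syl_exists hr (C ⊓ 𝓒(𝓞({q}ᶜ, F)))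
    have h4 : T ≤ F := (le_inf le_top (by
      rw [← nil_core_sup {q} (fit_nil ⊤), core_fit hq]
      exact le_cent_sup (k1 q hq T (hT.le.trans inf_le_left) (hT.pi.ne h))
        (hT.le.trans inf_le_right))).trans (cent_fit_le inferInstance)
    exact ⟨T, hT, norm_of_cent (((hT.pi.ne h).le_core_of_nil h4 (fit_nil ⊤)).trans (cent_symm h1))⟩
  exact ⟨S, hS, le_fit (hS.pi.isNilpotent hq) le_top ((norm_inf (top_le_norm _ _)
    (norm_cent (norm_core _ hF))).trans (h2.norm_of_normal h3))⟩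

end Cfsg.Agent.S3785
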