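import Cfsg.Statements.S3786
import Cfsg.Agent.Lib.Solv.HH8

set_option autoImplicit false
open Cfsg

namespace Cfsg.Agent.S3786

open Subgroup CA.BG CA.HH

/-- The Hall–Higman bound on p-length. Let p be an odd prime and G a finite p-soluble group whose Sylow p-subgroups have exponent dividing p^e. (a) If p is not of the form 2^k + 1, or if the Sylow 2-subgroups of G are abelian, then G has p-length at most e. (b) In every case G has p-length at most 2e. -/
theorem result {G : Type*} [Group G] [Finite G] {p : ℕ} [Fact p.Prime] (hp : p ≠ 2) (hG : Cfsg.IsPSolvable p G) (e : ℕ) (hexp : ∀ (P : Sylow p G), ∀ x ∈ (P : Subgroup G), x ^ p ^ e = 1) : (((¬ ∃ k : ℕ, p = 2 ^ k + 1) ∨ ∀ S : Sylow 2 G, IsMulCommutative (S : Subgroup G)) → Cfsg.PLengthLE p e G) ∧ Cfsg.PLengthLE p (2 * e) G := by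
  have hp' : p.Prime := Fact.out
  have hE : Ex p G e := fun x hx => by
    obtain ⟨S, hS⟩ := le_sylow hp' (isPi_zpowers.2 hx)
    exact hexp S x (hS (mem_zpowers x))
  refine ⟨fun h => PL_of_exp hG (fun m q j Q h1 hq hj hm hQ => ?_) hE, PL_two_mul hp hG hE⟩
  have hodd : Odd (p ^ m) := (hp'.odd_of_ne_two hp).pow
  have hq2 : q = 2 := by
    have h2 : 2 ∣ q ^ j := by
      rw [← hm]
      obtain ⟨t, ht⟩ := hodd
      exact ⟨t, by omega⟩
    exact ((Nat.prime_dvd_prime_iff_eq Nat.prime_two hq).1 (Nat.prime_two.dvd_of_dvd_pow h2)).symm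
  subst hq2
  rcases h with h | h
  · exfalso
    have h3 : p - 1 ∣ 2 ^ j := by
      rw [← hm]; simpa using Nat.sub_dvd_pow_sub_pow p 1 m
    obtain ⟨k, -, hk⟩ := (Nat.dvd_prime_pow Nat.prime_two).1 h3
    exact h ⟨k, by have := hp'.one_lt; omega⟩
  · obtain ⟨S, hS⟩ := le_sylow hq hQ
    exact comm_iff_le_cent.2 (hS.trans ((comm_iff_le_cent.1 (h S)).trans (cent_anti hS)))

end Cfsg.Agent.S3786
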