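import Cfsg.Statements.S3787
import Cfsg.Agent.Lib.Solv.HH5

set_option autoImplicit false
open Cfsg

namespace Cfsg.Agent.S3787

open Subgroup CA CA.BG CA.HH

/-- Let G be a finite p-soluble group, p an odd prime not of the form 2^k + 1, and suppose the wreath product C_p ≀ C_p (of order p^(p+1)) is not involved in a Sylow p-subgroup of G: no section of a Sylow p-subgroup is isomorphic to it. Then G has p-length at most 1. -/
theorem result {G : Type*} [Group G] [Finite G] {p : ℕ} [Fact p.Prime] (hp2 : p ≠ 2) (hnf : (¬ ∃ k : ℕ, p = 2 ^ k + 1)) (hG : Cfsg.IsPSolvable p G) (P : Sylow p G) (hwr : ∀ (W : Type) [Group W] [Finite W], (∃ (B : Subgroup W) (t : W), B.Normal ∧ IsMulCommutative B ∧ (∀ b ∈ B, b ^ p = 1) ∧ Nat.card B = p ^ p ∧ orderOf t = p ∧ t ∉ B ∧ Nat.card W = p ^ (p + 1) ∧ Nat.card ↥(B ⊓ Subgroup.centralizer ({t} : Set W)) = p) → ¬ Cfsg.Involves W ↥(P : Subgroup G)) : Cfsg.PLengthLE p 1 G := by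
  have hp := (Fact.out : p.Prime)
  refine PL_of_quot_p'core hp (PL_of_quot_pcore hp ((PL_zero_iff hp).2 (not_dvd_of_wr_free
    (H12PSolv.psolv_quotient hG _) (p'core_quot hp) (fun q j Q h1 h2 h3 h4 => ?_)
    fun R hR W _ _ hW hI => ?_)))
  · have h5 : 2 ∣ q ^ j := h3 ▸ even_iff_two_dvd.1 (hp.even_sub_one hp2)
    obtain rfl := (Nat.prime_dvd_prime_iff_eq Nat.prime_two h1).1 (Nat.prime_two.dvd_of_dvd_pow h5)
    exact absurd ⟨j, by have := hp.pos; omega⟩ hnf
  · obtain ⟨R, h1, rfl⟩ := exists_lift hp (QuotientGroup.mk'_surjective _) hR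
    obtain ⟨S, hS⟩ := le_sylow hp h1
    exact hwr W hW (Fus.involves_of_inj (S.equiv P).toMonoidHom (S.equiv P).injective
      (Fus.involves_of_inj (inclusion hS) (inclusion_injective _)
      (Fus.involves_of_surj _ (MonoidHom.subgroupMap_surjective _ R) hI)))

end Cfsg.Agent.S3787
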