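import Cfsg.Statements.S3788
import Cfsg.Agent.Lib.Solv.HH5

set_option autoImplicit false
open Cfsg

namespace Cfsg.Agent.S3788

open Subgroup CA CA.BG CA.HH

/-- Let G be a finite p-soluble group, P a Sylow p-subgroup of G and A a cyclic normal subgroup of P. If p is odd, or if no section of G is isomorphic to the symmetric group of degree 4, then A ≤ O_{p',p}(G). -/
theorem result {G : Type*} [Group G] [Finite G] {p : ℕ} [Fact p.Prime] (hG : Cfsg.IsPSolvable p G) (P : Sylow p G) (A : Subgroup G) (hAP : A ≤ (P : Subgroup G)) (hAn : (P : Subgroup G) ≤ Subgroup.normalizer (A : Set G)) (hA : IsCyclic A) (h : p ≠ 2 ∨ ¬ Cfsg.Involves (Equiv.Perm (Fin 4)) G) : A ≤ Cfsg.pPrimePCore p G := by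
  have hp := (Fact.out : p.Prime)
  set f := QuotientGroup.mk' (pPrimeCore p G)
  have hf : Function.Surjective f := QuotientGroup.mk'_surjective _
  have hs := H12PSolv.psolv_quotient hG (pPrimeCore p G)
  have h1 : IsPi {p} (A.map f) :=
    ((isPi_of_isPGroup hp P.isPGroup').of_le hAP).nat.of_dvd (card_map_dvd _ _)
  have h2 : IsCyclic (A.map f) := isCyclic_of_surjective _ (f.subgroupMap_surjective A)
  have h3 : pCore p (G ⧸ pPrimeCore p G) ≤ 𝓝(A.map f) :=
    (IsPGroup.le_sylow_of_normal ((isPi_pcore hp).isPGroup hp) (P.mapSurjective hf)).trans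
      ((map_mono hAn).trans (le_normalizer_map f))
  refine map_le_iff_le_comap.1 ?_
  by_cases h4 : p = 2
  · subst h4
    exact cyc_le_two hs (p'core_quot hp) (fun h5 => h.resolve_left (by simp)
      (Fus.involves_of_surj f hf h5)) h2 h1 h3
  · exact cyc_le_odd h4 hs (p'core_quot hp) h2 h1 h3

end Cfsg.Agent.S3788
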