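import Cfsg.Statements.S3789
import Cfsg.Agent.Lib.Solv.HH4

set_option autoImplicit false
open Cfsg

namespace Cfsg.Agent.S3789

open Subgroup CA CA.BG CA.HH

/-- Let p be an odd prime and G a finite p-soluble group whose Sylow p-subgroups have derived length at most d. Then G has p-length at most d. -/
theorem result {G : Type*} [Group G] [Finite G] {p : ℕ} [Fact p.Prime] (hp : p ≠ 2) (hG : Cfsg.IsPSolvable p G) (d : ℕ) (hd : ∀ P : Sylow p G, derivedSeries ↥(P : Subgroup G) d = ⊥) : Cfsg.PLengthLE p d G := by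
  have hp' := (Fact.out : p.Prime)
  refine PL_ind (p := p) (fun G _ k => ∀ P : Subgroup G, IsPi {p} P → der P k = ⊥)
    (fun G _ _ h h1 => ?_) (fun G _ _ k h Q hQ => ?_) (fun G _ _ k hs hO h Q hQ => ?_) d G hG
    fun P hP => ?_
  · obtain ⟨x, hx⟩ := exists_prime_orderOf_dvd_card' p h1
    have := h (zpowers x) (isPi_of_card_eq hp' (by rw [Nat.card_zpowers, hx]))
    rw [der_zero, zpowers_eq_bot] at this
    exact hp'.one_lt.ne (by rw [← hx, this, orderOf_one])
  · obtain ⟨P, hP, rfl⟩ := exists_lift hp' (QuotientGroup.mk'_surjective _) hQ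
    rw [← map_der, h P hP, Subgroup.map_bot]
  · have hP : IsPi {p} (Q.comap (QuotientGroup.mk' (pCore p G))) :=
      isPi_comap _ (by rw [QuotientGroup.ker_mk']; exact isPi_pcore hp') hQ
    have := der_drop hp hs hO hP (QuotientGroup.le_comap_mk' _ _) (h _ hP)
    rw [← map_comap_eq_self_of_surjective (QuotientGroup.mk'_surjective (pCore p G)) Q, ← map_der,
      Subgroup.map_eq_bot_iff, QuotientGroup.ker_mk']
    exact this
  · obtain ⟨S, hS⟩ := le_sylow hp' hP
    exact BG.eq_bot_mono (der_mono' hS d) (der_eq_bot_iff.2 (hd S))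

end Cfsg.Agent.S3789
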