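import Cfsg.Statements.S3790
import Cfsg.Agent.Lib.Solv.HH4

set_option autoImplicit false
open Cfsg

namespace Cfsg.Agent.S3790

open Subgroup CA CA.BG CA.HH

universe u

theorem aux {p : ℕ} (hp : p.Prime) {r : ℕ} (q : Fin r → ℕ) (hq : ∀ i, (q i).Prime ∧ q i ≠ p)
    (l : Fin r → ℕ) (S : Finset (Fin r)) :
    ∀ (G : Type u) [Group G] [Finite G],
      (∀ s : ℕ, s.Prime → s ∣ Nat.card G → s ≠ p → ∃ i ∈ S, q i = s) →
      (∀ i ∈ S, PLengthLE (q i) (l i) G) → PLengthLE p (∏ i ∈ S, (1 + l i)) G := by
  induction S using Finset.induction_on with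
  | empty =>
    intro G _ _ hc hl
    refine PL_one_of_isPGroup hp fun s hs h => ?_
    by_contra h1
    obtain ⟨i, hi, -⟩ := hc s hs (by rwa [card_top] at h) h1
    exact Finset.notMem_empty i hi
  | insert a S ha ih =>
    rw [Finset.prod_insert ha]
    have hqa := (hq a).1
    suffices h : ∀ (m : ℕ) (G : Type u) [Group G] [Finite G],
        (∀ s : ℕ, s.Prime → s ∣ Nat.card G → s ≠ p → ∃ i ∈ insert a S, q i = s) →
        (∀ i ∈ S, PLengthLE (q i) (l i) G) → PLengthLE (q a) m G →
        PLengthLE p ((1 + m) * ∏ i ∈ S, (1 + l i)) G from fun G _ _ hc hl =>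
      h _ G hc (fun i hi => hl i (Finset.mem_insert_of_mem hi)) (hl a (Finset.mem_insert_self a S))
    have base : ∀ (G : Type u) [Group G] [Finite G],
        (∀ s : ℕ, s.Prime → s ∣ Nat.card G → s ≠ p → ∃ i ∈ insert a S, q i = s) →
        (∀ i ∈ S, PLengthLE (q i) (l i) G) → ¬ q a ∣ Nat.card G →
        PLengthLE p (∏ i ∈ S, (1 + l i)) G := fun G _ _ hc hl h => ih G (fun s hs h1 h2 => by
      obtain ⟨i, hi, rfl⟩ := hc s hs h1 h2
      exact ⟨i, (Finset.mem_insert.1 hi).resolve_left fun h3 => h (h3 ▸ h1), rfl⟩) hl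
    intro m
    induction m with
    | zero =>
      intro G _ _ hc hl h
      rw [add_zero, one_mul]
      exact base G hc hl ((PL_zero_iff hqa).1 h)
    | succ m ihm =>
      intro G _ _ hc hl h
      have h1 := base (ups (q a) G 1) (fun s hs h => hc s hs (h.trans (card_subgroup_dvd_card _)))
        (fun i hi => PL_subgroup (hq i).1 (hl i hi) _)
        (by rw [ups_one hqa]; exact (isPi_compl_iff hqa).1 (isPi_p'core hqa))
      have h2 := ihm (G ⧸ ups (q a) G 2) (fun s hs h => hc s hs (h.trans (card_quotient_dvd_card _)))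
        (fun i hi => PL_quot (hq i).1 (hl i hi) _) (PL_quot_two hqa h)
      have h3 := PL_of_ker' hp (QuotientGroup.map (ups (q a) G 1) (ups (q a) G 2) (MonoidHom.id G)
        ((ups_le_succ hqa 1).trans (comap_id _).ge)) (by
          rw [QuotientGroup.ker_map, comap_id]
          have := ups_idx (G := G) hqa 1
          rw [← relIndex_mk, show pset (q a) 1 = {q a} from if_neg (by decide)] at this
          exact IsPi.ne this (hq a).2) h2
      have := PL_ext hp _ h1 h3
      rwa [show (1 + (m + 1)) * ∏ i ∈ S, (1 + l i) =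
        ∏ i ∈ S, (1 + l i) + (1 + m) * ∏ i ∈ S, (1 + l i) by ring]

/-- Let G be a finite solvable group and p a prime. Suppose p₁, …, p_r are distinct primes, all different from p, that include every prime dividing the order of G other than p, and that G has p_i-length at most l_i for each i. Then G has p-length at most the product of the numbers 1 + l_i. -/
theorem result {G : Type*} [Group G] [Finite G] (hG : Group.IsSolvable G) (p : ℕ) [Fact p.Prime] (r : ℕ) (q : Fin r → ℕ) (hq : ∀ i, (q i).Prime ∧ q i ≠ p) (hinj : Function.Injective q) (hcover : ∀ s : ℕ, s.Prime → s ∣ Nat.card G → s ≠ p → ∃ i, q i = s) (l : Fin r → ℕ) (hl : ∀ i, Cfsg.PLengthLE (q i) (l i) G) : Cfsg.PLengthLE p (Finset.univ.prod fun i => 1 + l i) G := by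
  exact aux Fact.out q hq l _ G (fun s h1 h2 h3 => (hcover s h1 h2 h3).imp fun i h =>
    ⟨Finset.mem_univ i, h⟩) fun i _ => hl i

end Cfsg.Agent.S3790
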