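import Cfsg.Statements.S3791
import Cfsg.Agent.Lib.Solv.HH4

set_option autoImplicit false
open Cfsg

namespace Cfsg.Agent.S3791

open Subgroup CA CA.BG CA.HH

universe u

theorem card_lt {G : Type*} [Group G] [Finite G] {N : Subgroup G} (h : N ≠ ⊥) :
    Nat.card (G ⧸ N) < Nat.card G := by
  rw [← index_eq_card, ← N.index_mul_card]
  exact lt_mul_of_one_lt_right (Nat.pos_of_ne_zero N.index_ne_zero_of_finite)
    ((one_lt_card_iff_ne_bot N).2 h)

theorem der_le_of_quot {G : Type*} [Group G] (N : Subgroup G) [N.Normal] {n : ℕ}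
    (h : derivedSeries (G ⧸ N) n = ⊥) : derivedSeries G n ≤ N := by
  rw [← map_derivedSeries_eq (QuotientGroup.mk'_surjective N), Subgroup.map_eq_bot_iff,
    QuotientGroup.ker_mk'] at h
  exact h

theorem aux {r : ℕ} (q : Fin r → ℕ) (hq : ∀ i, (q i).Prime) (hinj : Function.Injective q)
    (d : Fin r → ℕ) (n : ℕ) :
    ∀ {G : Type u} [Group G] [Finite G], Nat.card G ≤ n → Group.IsSolvable G →
      (∀ s : ℕ, s.Prime → s ∣ Nat.card G → ∃ i, q i = s) →
      (∀ i, ∀ P : Subgroup G, IsPi {q i} P → der P (d i) = ⊥) →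
      ∀ l : Fin r → ℕ, (∀ i, PLengthLE (q i) (l i) G) →
      derivedSeries G (∑ i, d i * l i) = ⊥ := by
  induction n with
  | zero => intro G _ _ h; exact absurd h (Nat.card_pos.ne' ∘ Nat.le_zero.1)
  | succ n ih =>
  intro G _ _ hn hs hc hd l hl
  have step : ∀ (N : Subgroup G) [N.Normal], N ≠ ⊥ → ∀ l : Fin r → ℕ,
      (∀ i, PLengthLE (q i) (l i) (G ⧸ N)) → derivedSeries G (∑ i, d i * l i) ≤ N := by
    intro N _ hN l hl
    refine der_le_of_quot N (ih (by have := card_lt hN; omega) inferInstance
      (fun s hs h => hc s hs (h.trans (card_quotient_dvd_card N))) (fun i Q hQ => ?_) l hl)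
    obtain ⟨P, hP, rfl⟩ := exists_lift (hq i) (QuotientGroup.mk'_surjective _) hQ
    rw [← map_der, hd i P hP, Subgroup.map_bot]
  by_cases ht : (⊤ : Subgroup G) = ⊥
  · exact BG.eq_bot_mono le_top ht
  obtain ⟨p, hp, hO⟩ := exists_core_ne_bot (H := (⊤ : Subgroup G)) inferInstance ht
  rw [core_p_top hp] at hO
  have hpG : p ∣ Nat.card G := ((isPi_pcore hp).dvd_card hO).trans (card_subgroup_dvd_card _)
  obtain ⟨i, rfl⟩ := hc p hp hpG
  by_cases hO' : pPrimeCore (q i) G = ⊥
  · obtain ⟨k, hk⟩ : ∃ k, l i = k + 1 := Nat.exists_eq_succ_of_ne_zero fun h =>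
      (PL_zero_iff hp).1 (h ▸ hl i) hpG
    have h1 := step _ hO (Function.update l i k) fun j => by
      by_cases hj : j = i
      · subst hj
        rw [Function.update_self]
        exact PL_quot_pcore hp hO' (hk ▸ hl j)
      · rw [Function.update_of_ne hj]
        exact PL_quot (hq j) (hl j) _
    have h2 : ∑ j, d j * l j = ∑ j, d j * Function.update l i k j + d i := by
      have h3 : ∑ j ∈ Finset.univ.erase i, d j * Function.update l i k j =
          ∑ j ∈ Finset.univ.erase i, d j * l j := Finset.sum_congr rfl fun j hj => by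
        rw [Function.update_of_ne (Finset.ne_of_mem_erase hj)]
      rw [← Finset.add_sum_erase _ _ (Finset.mem_univ i),
        ← Finset.add_sum_erase _ (fun j => d j * Function.update l i k j) (Finset.mem_univ i), h3,
        Function.update_self, hk]
      ring
    rw [h2, ← der_top, der_add, der_top]
    exact BG.eq_bot_mono (der_mono' h1 _) (hd i _ (isPi_pcore hp))
  · exact BG.eq_bot_mono (le_inf (step _ hO l fun j => PL_quot (hq j) (hl j) _)
      (step _ hO' l fun j => PL_quot (hq j) (hl j) _))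
      ((isPi_pcore hp).inf_eq_bot (isPi_p'core hp))

/-- The Hall–Higman bound on derived length: let G be a finite solvable group, let p₁, …, p_r be distinct primes that include every prime dividing the order of G, and suppose that for each i the Sylow p_i-subgroups of G have derived length at most d_i and G has p_i-length at most l_i. Then G has derived length at most Σ d_i l_i. -/
theorem result {G : Type*} [Group G] [Finite G] (hG : Group.IsSolvable G) (r : ℕ) (q : Fin r → ℕ) (hq : ∀ i, (q i).Prime) (hinj : Function.Injective q) (hcover : ∀ s : ℕ, s.Prime → s ∣ Nat.card G → ∃ i, q i = s) (d l : Fin r → ℕ) (hd : ∀ i, ∀ P : Subgroup G, (haveI := Fact.mk (hq i); ∃ S : Sylow (q i) G, (S : Subgroup G) = P) → derivedSeries ↥P (d i) = ⊥) (hl : ∀ i, Cfsg.PLengthLE (q i) (l i) G) : derivedSeries G (Finset.univ.sum fun i => d i * l i) = ⊥ := by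
  refine aux q hq hinj d _ le_rfl hG hcover (fun i P hP => ?_) l hl
  obtain ⟨S, hS⟩ := le_sylow (hq i) hP
  exact BG.eq_bot_mono (der_mono' hS _) (der_eq_bot_iff.2 (hd i S ⟨S, rfl⟩))

end Cfsg.Agent.S3791
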