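import Cfsg.Statements.S3792
import Cfsg.Agent.Lib.Solv.H2Pow
import Cfsg.Agent.Lib.Grp.Subn

set_option autoImplicit false
open Cfsg

namespace Cfsg.Agent.S3792

section
open Subgroup CA.OQuo CA.BG CA.H12PSolv CA.H2Pow CA.HH
open scoped commutatorElement

variable {G : Type*} [Group G] [Finite G] {p : ℕ} [hp : Fact p.Prime]

/-- all commutators with `z` are `p'`-elements -/
def J (p : ℕ) (z : G) : Prop := ∀ g : G, PiNat {p}ᶜ (orderOf ⁅g, z⁆)

theorem J_of [IsSimpleGroup G] (hO : pCore p G = ⊥) (h3 : ∀ x y w : G, closure {x, y, w} ≠ ⊤) {z : G}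
    (h : ∀ K : Subgroup G, K ≠ ⊤ → z ∈ K → In p K z) : J p z := by
  have h' : ∀ (g : G) (K : Subgroup G), K ≠ ⊤ → g * z * g⁻¹ ∈ K → In p K (g * z * g⁻¹) := fun g K hK hz => by
    have := (h (K.comap (MulAut.conj g).toMonoidHom) (fun e => hK (by
      rw [← map_comap_eq_self_of_surjective (f := (MulAut.conj g).toMonoidHom) (MulAut.conj g).surjective K, e,
        map_top_of_surjective _ (MulAut.conj g).surjective])) hz).map (MulAut.conj g).toMonoidHom
    rwa [map_comap_eq_self_of_surjective (MulAut.conj g).surjective] at this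
  have oc : ∀ a b : G, orderOf (a * b * a⁻¹) = orderOf b := fun a b => (MulAut.conj a).orderOf_eq b
  let U : Subgroup G :=
    { carrier := {u | ∀ g, PiNat {p}ᶜ (orderOf ⁅u, g * z * g⁻¹⁆)}
      one_mem' := fun g => by rw [commutatorElement_one_left, orderOf_one]; exact piNat_one _
      inv_mem' := fun {u} hu g => by
        have := hu g
        rw [← orderOf_inv, ← oc u⁻¹] at this
        convert this using 2
        simp only [commutatorElement_def]; group
      mul_mem' := fun {a b} ha hb g => by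
        obtain ⟨N, M, h1, h2, h4, h5, h6⟩ := h' g _ (h3 (g * z * g⁻¹) a b) (subset_closure (by simp))
        have key : ∀ u ∈ closure {g * z * g⁻¹, a, b}, PiNat {p}ᶜ (orderOf ⁅u, g * z * g⁻¹⁆) →
            ⁅u, g * z * g⁻¹⁆ ∈ N := fun u hu h7 => by
          obtain ⟨n, hn⟩ := h6 _ (mul_mem ((mem_normalizer_iff.1 (h2 hu) _).1 h5) (inv_mem h5))
          exact mem_of_pow hp.out hn h7
        have a1 : a ∈ closure {g * z * g⁻¹, a, b} := subset_closure (by simp)
        have := mul_mem ((mem_normalizer_iff.1 (h1 a1) _).1 (key b (subset_closure (by simp)) (hb g)))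
          (key a a1 (ha g))
        convert h4.orderOf this using 2
        simp only [commutatorElement_def]; group }
  have hU : U.Normal := ⟨fun u hu c g => by
    have := hu (c⁻¹ * g)
    rw [← oc c] at this
    convert this using 2
    simp only [commutatorElement_def]; group⟩
  rcases hU.eq_bot_or_eq_top with e | e
  · by_cases h1 : z = 1
    · intro g; rw [h1, commutatorElement_one_right, orderOf_one]; exact piNat_one _
    exfalso
    refine h1 (mem_bot.1 (hO ▸ CA.Subn.baer_suzuki (p := p) (zpowers z) (fun a => ?_) (mem_zpowers z)))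
    refine IsPi.isPGroup hp.out fun q hq hd => ?_
    by_contra hqp
    haveI := Fact.mk hq
    obtain ⟨u, hu⟩ := exists_prime_orderOf_dvd_card' q hd
    rw [← orderOf_coe] at hu
    have h2 : (u : G) ∈ U := fun g => by
      obtain ⟨N, M, h1, h2, h4, h5, h6⟩ := h _ (h3 z a g) (subset_closure (by simp))
      have z1 : z ∈ closure {z, a, g} := subset_closure (by simp)
      have g1 : g ∈ closure {z, a, g} := subset_closure (by simp)
      have h7 : (u : G) ∈ M := sup_le (zpowers_le.2 h5) (by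
        rw [MonoidHom.map_zpowers]
        exact zpowers_le.2 ((mem_normalizer_iff.1 (h2 (subset_closure (by simp))) _).1 h5)) u.2
      obtain ⟨n, hn⟩ := h6 _ h7
      have h8 := mem_of_pow hp.out hn (hu ▸ (piNat_prime hq).2 hqp)
      have := mul_mem h8 ((mem_normalizer_iff.1 (h1 (mul_mem (mul_mem g1 z1) (inv_mem g1))) _).1 (inv_mem h8))
      convert h4.orderOf this using 2
      simp only [commutatorElement_def]; group
    rw [e, mem_bot] at h2
    rw [h2, orderOf_one] at hu
    exact hq.one_lt.ne hu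
  · intro g
    simpa using (e.ge (mem_top g) : g ∈ U) 1

theorem central (hs : IsPSolvable p G) (hO : pPrimeCore p G = ⊥) {z : G} (h : J p z) : z ∈ center G := by
  have key : ∀ g, ⁅g, z⁆ ∈ pCore p G → g * z = z * g := fun g hg =>
    commutatorElement_eq_one_iff_mul_comm.1 (eq_one_of (pi_core.orderOf hg) (h g))
  have h1 : z ∈ pCore p G := centralizer_pCore_le hs hO fun r hr => key r (by
    rw [commutatorElement_def, mul_assoc, mul_assoc, ← mul_assoc z]
    exact mul_mem hr (Normal.conj_mem inferInstance _ (inv_mem hr) z))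
  exact mem_center_iff.2 fun g => key g (mul_mem (Normal.conj_mem inferInstance _ h1 g) (inv_mem h1))

theorem step (h2 : p ≠ 2) {K : Subgroup G} (hs : IsPSolvable p K) {e : ℕ}
    (he : ∀ x : G, PiNat {p} (orderOf x) → J p (x ^ p ^ (e + 1))) :
    (∀ P : Subgroup G, IsPi {p} P → P ≤ K → ∀ g ∈ P, ∀ h ∈ P, In p K ⁅g ^ p ^ e, h ^ p ^ e⁆) ∧
    ((∀ P : Subgroup G, IsPi {p} P → ∀ g ∈ P, ∀ h ∈ P, J p ⁅g ^ p ^ e, h ^ p ^ e⁆) →
      ∀ x ∈ K, PiNat {p} (orderOf x) → In p K (x ^ p ^ e)) := by
  let π := QuotientGroup.mk' (pPrimeCore p K)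
  have s1 := psolv_quotient hs (pPrimeCore p K)
  have o1 : pPrimeCore p (K ⧸ pPrimeCore p K) = ⊥ := CA.Core.pPrimeCore_quotient_pPrimeCore
  let Z := center (K ⧸ pPrimeCore p K)
  let ρ := QuotientGroup.mk' Z
  have s2 := psolv_quotient s1 Z
  have o2 := CA.H13Ext.core_quot_eq_bot o1 Z le_rfl
  have hf : Function.Surjective (ρ.comp π) := (QuotientGroup.mk'_surjective _).comp (QuotientGroup.mk'_surjective _)
  have hJ : ∀ x : K, J p (x : G) → (ρ.comp π) x = 1 := fun x hx =>
    (QuotientGroup.eq_one_iff _).2 (central s1 o1 fun g => by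
      obtain ⟨g, rfl⟩ := QuotientGroup.mk'_surjective (pPrimeCore p K) g
      rw [← map_commutatorElement]
      exact (hx g).of_dvd ((orderOf_map_dvd _ _).trans (Subgroup.orderOf_coe _).symm.dvd))
  have hI : ∀ x : K, (ρ.comp π) x ∈ pCore p _ → In p K (x : G) := fun x hx => by
    have h1 : π x ∈ pCore p _ := by
      refine CA.Core.le_pCore (N := (pCore p _).comap ρ) ?_ hx
      refine IsPGroup.comap_of_ker_isPGroup CA.Core.isPGroup_pCore _ ?_
      rw [QuotientGroup.ker_mk']
      exact CA.Core.isPGroup_pCore.to_le ((center_le_centralizer _).trans (centralizer_pCore_le s1 o1))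
    have := (in_top_of_core π (by rw [QuotientGroup.ker_mk']; exact pi_core') h1).map K.subtype
    rwa [← MonoidHom.range_eq_map, range_subtype] at this
  have hE : Ex p _ (e + 1) := fun y hy => by
    obtain ⟨x, h1, rfl⟩ := exists_lift_el hp.out hf hy
    rw [← map_pow]
    exact hJ _ (he x (by rwa [Subgroup.orderOf_coe]))
  refine ⟨fun P h1 h3 g hg h hh => hI ⁅(⟨g, h3 hg⟩ : K) ^ p ^ e, (⟨h, h3 hh⟩ : K) ^ p ^ e⁆ ?_,
    fun hc x hx h1 => hI ((⟨x, hx⟩ : K) ^ p ^ e) ?_⟩
  · rw [← QuotientGroup.eq_one_iff]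
    have := cm_of_ex h2 s2 o2 hE ((P.subgroupOf K).map ((QuotientGroup.mk' _).comp (ρ.comp π)))
      (PiNat.of_dvd h1 ((card_map_dvd _ _).trans (card_comap_dvd_of_injective _ _ (subtype_injective K))))
      _ ⟨⟨g, h3 hg⟩, hg, rfl⟩ _ ⟨⟨h, h3 hh⟩, hh, rfl⟩
    rwa [← map_pow, ← map_pow, ← map_commutatorElement] at this
  · rw [← QuotientGroup.eq_one_iff]
    have := ex_of_cm h2 s2 o2 hE (fun P hP => by
      obtain ⟨P', h3, rfl⟩ := exists_lift hp.out hf hP
      rintro _ ⟨a, ha, rfl⟩ _ ⟨b, hb, rfl⟩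
      rw [← map_pow, ← map_pow, ← map_commutatorElement]
      exact hJ _ (hc (P'.map K.subtype) (PiNat.of_dvd h3 (card_map_dvd _ _)) _ ⟨a, ha, rfl⟩ _ ⟨b, hb, rfl⟩))
      (((QuotientGroup.mk' _).comp (ρ.comp π)) ⟨x, hx⟩)
      (h1.of_dvd ((orderOf_map_dvd _ _).trans (Subgroup.orderOf_coe _).symm.dvd))
    rwa [← map_pow] at this
end

open Subgroup CA.OQuo CA.BG CA.H2Pow in
open scoped commutatorElement in

/-- Powell's Theorem: let G be a finite non-abelian simple group and p an odd prime dividing its order such that every proper subgroup of G is p-soluble. Then G can be generated by three elements. -/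
theorem result {G : Type*} [Group G] [Finite G] [IsSimpleGroup G] (hna : ¬ IsMulCommutative G) {p : ℕ} [Fact p.Prime] (hp : p ≠ 2) (hdvd : p ∣ Nat.card G) (hprop : ∀ H : Subgroup G, H ≠ ⊤ → Cfsg.IsPSolvable p ↥H) : ∃ x y z : G, Subgroup.closure ({x, y, z} : Set G) = ⊤ := by
  have hp' : p.Prime := Fact.out
  by_contra! h3
  obtain ⟨P⟩ : Nonempty (Sylow p G) := inferInstance
  have hP : (P : Subgroup G) ≠ ⊤ := fun e => by
    have h1 : IsPGroup p G := (e ▸ P.isPGroup').of_equiv topEquiv
    rcases (inferInstance : (center G).Normal).eq_bot_or_eq_top with h | h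
    · exact (nontrivial_iff_ne_bot _).1 h1.center_nontrivial h
    · exact hna ⟨⟨fun a b => mem_center_iff.1 (h.ge (mem_top b)) a⟩⟩
  have hO : pCore p G = ⊥ := (inferInstance : (pCore p G).Normal).eq_bot_or_eq_top.resolve_right fun e =>
    hP (top_le_iff.1 (e ▸ CA.Core.isPGroup_pCore.le_sylow_of_normal P))
  have fin : ∀ z, PiNat {p} (orderOf z) → (∀ u, In p (closure {z, u}) z) → J p z := fun z h1 h2 =>
    J_of hO h3 fun K hK hz => in_of_pairs (hprop K hK) hz h1 fun u _ => h2 u
  have down : ∀ e, (∀ x : G, PiNat {p} (orderOf x) → J p (x ^ p ^ (e + 1))) →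
      ∀ x : G, PiNat {p} (orderOf x) → J p (x ^ p ^ e) := fun e he x hx => by
    have hc : ∀ P : Subgroup G, IsPi {p} P → ∀ g ∈ P, ∀ h ∈ P, J p ⁅g ^ p ^ e, h ^ p ^ e⁆ := by
      intro P h1 g hg h hh
      have h2 : closure {g, h} ≤ P := (closure_le _).2 (by rintro _ (rfl | rfl) <;> assumption)
      have g1 : g ∈ closure {g, h} := subset_closure (by simp)
      have g2 : h ∈ closure {g, h} := subset_closure (by simp)
      have g3 : ⁅g ^ p ^ e, h ^ p ^ e⁆ ∈ closure {g, h} := mul_mem (mul_mem (mul_mem (pow_mem g1 _)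
        (pow_mem g2 _)) (inv_mem (pow_mem g1 _))) (inv_mem (pow_mem g2 _))
      refine fin _ (h1.orderOf (h2 g3)) fun u => ?_
      have h4 : closure {g, h} ≤ closure {g, h, u} := closure_mono (by rintro _ (rfl | rfl) <;> simp)
      refine ((step hp (hprop _ (h3 g h u)) he).1 _ (h1.of_le h2) h4 g g1 h g2).mono ((closure_le _).2 ?_)
      rintro _ (rfl | rfl)
      exacts [h4 g3, subset_closure (by simp)]
    refine fin _ (hx.of_dvd (orderOf_pow_dvd _)) fun u => ?_
    have x1 : x ∈ closure {x, u, u} := subset_closure (by simp)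
    refine ((step hp (hprop _ (h3 x u u)) he).2 hc x x1 hx).mono ((closure_le _).2 ?_)
    rintro _ (rfl | rfl)
    exacts [pow_mem x1 _, subset_closure (by simp)]
  have all : ∀ e, (∀ x : G, PiNat {p} (orderOf x) → J p (x ^ p ^ e)) →
      ∀ x : G, PiNat {p} (orderOf x) → J p x := fun e => by
    induction e with
    | zero => simp
    | succ e ih => exact fun h => ih (down e h)
  have hJ := all (Nat.card G) fun x hx g => by
    obtain ⟨k, hk⟩ := hx.exists_pow hp' (orderOf_pos x).ne'
    have : x ^ p ^ Nat.card G = 1 := orderOf_dvd_iff_pow_eq_one.1 (hk ▸ pow_dvd_pow p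
      ((Nat.lt_pow_self hp'.one_lt).le.trans (hk ▸ Nat.le_of_dvd Nat.card_pos (orderOf_dvd_natCard x))))
    rw [this, commutatorElement_one_right, orderOf_one]; exact piNat_one _
  have hpi := isPi_of_isPGroup hp' P.isPGroup'
  have hN : normalizer (P : Set G) ≤ centralizer (P : Set G) := fun g hg x hx =>
    (commutatorElement_eq_one_iff_mul_comm.1 (eq_one_of (hpi.orderOf (mul_mem
      ((mem_normalizer_iff.1 hg x).1 hx) (inv_mem hx))) (hJ x (hpi.orderOf hx) g))).symm
  have hc := MonoidHom.ker_transferSylow_isComplement' P hN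
  rcases (inferInstance : (MonoidHom.transferSylow P hN).ker.Normal).eq_bot_or_eq_top with h | h
  · rw [h] at hc
    exact hP (isComplement'_bot_left.1 hc)
  · rw [h] at hc
    exact P.ne_bot_of_dvd_card hdvd (isComplement'_top_left.1 hc)

end Cfsg.Agent.S3792
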