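import Cfsg.Statements.S3794
import Cfsg.Agent.Lib.Solv.FpfRed

set_option autoImplicit false
open Cfsg

namespace Cfsg.Agent.S3794

open Subgroup CA.FpfRed CA.Coprime CA.Frob2
open scoped commutatorElement IsMulCommutative

universe u v

theorem modl {A : Type v} [Group A] [Finite A] (a : A) (ha : ∀ b : A, b ∈ zpowers a)
    (h4 : a ^ 4 = 1) (h2 : 2 ∣ Nat.card A)
    (Γ : Type u) [Group Γ] [Finite Γ] (H : Subgroup Γ) (ι : A →* Γ) (V : Type u) [Group V]
    [Finite V] [IsMulCommutative V] [MulDistribMulAction Γ V] (p : ℕ) (h : Setup H ι)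
    (m : Mod p H ι V) : ⁅H, H⁆ = ⊥ := by
  haveI := h.normal
  have hodd : Odd (Nat.card H) := Nat.coprime_two_left.1 (h.cop.coprime_dvd_left h2)
  obtain ⟨s, hs⟩ : ∃ s, s = ι a := ⟨_, rfl⟩
  have s4 : s * s * (s * s) = 1 := by
    have : s ^ 4 = 1 := by rw [hs, ← map_pow, h4, map_one]
    rw [← this]; simp [pow_succ, mul_assoc]
  have fH : ∀ x ∈ H, s * x * s⁻¹ = x → x = 1 := fun x hx e => h.fpf x hx fun b => by
    obtain ⟨k, rfl⟩ := mem_zpowers_iff.1 (ha b)
    rw [map_zpow, ← hs]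
    exact Commute.zpow_left (mul_inv_eq_iff_eq_mul.1 e) k
  have fV : ∀ v : V, s • v = v → v = 1 := fun v e => m.fpf v fun b => by
    obtain ⟨k, rfl⟩ := mem_zpowers_iff.1 (ha b)
    rw [map_zpow, ← hs]
    exact MulAction.mem_fixedBy_zpow e k
  have sH : s ∈ normalizer (H : Set Γ) := le_normalizer_of_normal (mem_top s)
  have inv1 : ∀ c ∈ H, s * s * c * (s * s)⁻¹ = c → s * c * s⁻¹ = c⁻¹ := fun c hc e =>
    inv_of_fpf hodd sH fH hc (mul_inv_eq_iff_eq_mul.1 e)
  -- two commuting inverted elements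
  have ab : ∀ x ∈ H, ¬ p ∣ orderOf x → s * s * x * (s * s)⁻¹ = x⁻¹ →
      x * (s * x * s⁻¹) = s * x * s⁻¹ * x → x = 1 := by
    intro x hx hpx hi hc
    obtain ⟨y, hy⟩ : ∃ y, y = s * x * s⁻¹ := ⟨_, rfl⟩
    rw [← hy] at hc
    have hyH : y ∈ H := hy ▸ h.normal.conj_mem x hx s
    have hsy : s * y * s⁻¹ = x⁻¹ := by rw [← hi, hy]; group
    let N : Subgroup Γ := zpowers y ⊔ zpowers x
    have hn : zpowers y ≤ normalizer (zpowers x : Set Γ) := by
      refine (zpowers_le.2 ?_).trans (centralizer_le_normalizer _)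
      intro z hz
      obtain ⟨k, rfl⟩ := mem_zpowers_iff.1 hz
      exact Commute.zpow_left hc k
    have mN : ∀ n ∈ N, ∃ i j : ℤ, n = y ^ i * x ^ j := by
      intro n hn'
      obtain ⟨_, ⟨i, rfl⟩, _, ⟨j, rfl⟩, e⟩ := (mem_sup_iff hn).1 hn'
      exact ⟨i, j, e.symm⟩
    have hNH : N ≤ H := sup_le (zpowers_le.2 hyH) (zpowers_le.2 hx)
    have sN : s ∈ normalizer (N : Set Γ) := by
      refine mem_normalizer_fintype fun n hn' => ?_
      obtain ⟨i, j, rfl⟩ := mN n hn'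
      have : s * (y ^ i * x ^ j) * s⁻¹ = (s * y * s⁻¹) ^ i * (s * x * s⁻¹) ^ j := by
        rw [conj_zpow, conj_zpow]; group
      rw [this, hsy, ← hy]
      exact mul_mem (zpow_mem (inv_mem (mem_sup_right (mem_zpowers x))) i)
        (zpow_mem (mem_sup_left (mem_zpowers y)) j)
    have iN : ∀ n ∈ N, s * s * n * (s * s)⁻¹ = n⁻¹ := by
      intro n hn'
      obtain ⟨i, j, rfl⟩ := mN n hn'
      have e1 : s * s * y * (s * s)⁻¹ = y⁻¹ := by
        calc s * s * y * (s * s)⁻¹ = s * (s * y * s⁻¹) * s⁻¹ := by group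
          _ = _ := by rw [hsy, hy]; group
      have : s * s * (y ^ i * x ^ j) * (s * s)⁻¹ =
          (s * s * y * (s * s)⁻¹) ^ i * (s * s * x * (s * s)⁻¹) ^ j := by
        rw [conj_zpow, conj_zpow]; group
      rw [this, e1, hi, inv_zpow, inv_zpow, ← mul_inv_rev]
      exact congrArg _ (Commute.zpow_zpow hc j i)
    have cN : (Nat.card N).Coprime p := by
      have e1 : orderOf y = orderOf x := by rw [hy]; exact (MulAut.conj s).orderOf_eq x
      have e2 := ((Nat.Prime.coprime_iff_not_dvd m.prime).2 hpx).symm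
      exact CA.Core.coprime_card_sup hn (by rwa [Nat.card_zpowers, e1]) (by rwa [Nat.card_zpowers])
    have sr : Semireg N (zpowers s) := by
      intro r hr hr1
      rw [inf_centralizer_eq_bot_iff]
      intro n hn' e
      obtain ⟨k, rfl⟩ := mem_zpowers_iff.1 hr
      have s4' : s ^ (4 : ℤ) = 1 := by rw [← s4]; simp [zpow_ofNat, pow_succ, mul_assoc]
      have e2 : s * s * n = n * (s * s) := by
        have e3 : Commute (s ^ k) n := e
        have e4 : s ^ k = s ^ (k % 4) := by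
          conv_lhs => rw [← Int.mul_ediv_add_emod k 4, zpow_add, zpow_mul, s4', one_zpow, one_mul]
        have : k % 4 = 0 ∨ k % 4 = 1 ∨ k % 4 = 2 ∨ k % 4 = 3 := by omega
        rcases this with e5 | e5 | e5 | e5 <;> rw [e5] at e4
        · exact absurd (by simpa using e4) hr1
        · rw [e4, zpow_one] at e3; exact e3.mul_left e3
        · rw [e4, zpow_two] at e3; exact e3
        · rw [e4] at e3
          have e6 := e3.mul_left e3
          rwa [show s ^ (3 : ℤ) * s ^ (3 : ℤ) = s ^ (4 : ℤ) * (s * s) by group, s4', one_mul] at e6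
      refine eq_one_of_eq_inv (odd_orderOf hodd (hNH hn')) ?_
      rw [← iN n hn', e2]; group
    refine m.faith x hx fun v => CA.Fpf.fixed_of_frobenius (zpowers_le.2 sN) sr
      (m.cop_card ((Nat.Prime.coprime_iff_not_dvd m.prime).1 cN.symm))
      (fun v hv => fV v (hv s (mem_zpowers s))) (mem_sup_right (mem_zpowers x)) v
  -- `s²` centralizes all invariant `p'`-subgroups
  have cent : ∀ (n : ℕ) (Q : Subgroup Γ), Nat.card Q = n → Q ≤ H → s ∈ normalizer (Q : Set Γ) →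
      ¬ p ∣ Nat.card Q → ∀ x ∈ Q, s * s * x * (s * s)⁻¹ = x := by
    intro n
    induction n using Nat.strong_induction_on with
    | _ n ih =>
    intro Q hn hQ hsQ hp x hx
    by_cases hb : Q = ⊥
    · rw [hb, mem_bot] at hx; simp [hx]
    have hlt := CA.Fitting.commutator_lt_of_isSolvable (h.solv_of hQ) hb
    have h1 := ih _ (hn ▸ card_lt hlt) ⁅Q, Q⁆ rfl (hlt.le.trans hQ)
      (le_normalizer_commutator (zpowers_le.2 hsQ) (zpowers_le.2 hsQ) (mem_zpowers s))
      (fun hd => hp (hd.trans (card_dvd_of_le hlt.le)))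
    have hoQ : Odd (Nat.card Q) := hodd.of_dvd_nat (card_dvd_of_le hQ)
    obtain ⟨w, hw, h3, h5⟩ := exists_inv_fix hoQ (mul_mem hsQ hsQ) hx (by rw [s4]; simp)
    suffices w = 1 by simpa [this] using h5
    refine ab w (hQ hw) (fun hd => hp (hd.trans (orderOf_dvd_natCard Q hw))) h3 ?_
    obtain ⟨y, hy⟩ : ∃ y, y = s * w * s⁻¹ := ⟨_, rfl⟩
    rw [← hy]
    have hyQ : y ∈ Q := hy ▸ (mem_normalizer_iff.1 hsQ w).1 hw
    have hsy : s * y * s⁻¹ = w⁻¹ := by rw [← h3, hy]; group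
    have hc : w * y * w⁻¹ * y⁻¹ ∈ ⁅Q, Q⁆ := commutator_mem_commutator hw hyQ
    have h6 := commute_of_inv (le_normalizer_commutator le_normalizer le_normalizer hw)
      (odd_orderOf hoQ hw) h1 h3 hc
    have h7 := inv1 _ (hQ (hlt.le hc)) (h1 _ hc)
    have h8 : s * (w * y * w⁻¹ * y⁻¹) * s⁻¹ = y * w⁻¹ * y⁻¹ * w := by
      calc s * (w * y * w⁻¹ * y⁻¹) * s⁻¹
          = (s * w * s⁻¹) * (s * y * s⁻¹) * (s * w * s⁻¹)⁻¹ * (s * y * s⁻¹)⁻¹ := by group
        _ = _ := by rw [hsy, ← hy]; group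
    have h9 : y * w⁻¹ * y⁻¹ * w = w * y * w⁻¹ * y⁻¹ := by
      calc y * w⁻¹ * y⁻¹ * w = w⁻¹ * (w * y * w⁻¹ * y⁻¹ * w) := by group
        _ = _ := by rw [← h6]; group
    have h10 := eq_one_of_eq_inv (odd_orderOf hoQ (hlt.le hc)) (by rw [← h7, h8, h9])
    calc w * y = (w * y * w⁻¹ * y⁻¹) * (y * w) := by group
      _ = _ := by rw [h10, one_mul]
  obtain ⟨F, hFn, hFH, -, hFp, hFc, -⟩ := m.exists_fit h
  have hF := cent _ F rfl hFH (le_normalizer_of_normal (mem_top s)) hFp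
  refine comm_of_inv (t := s) fun x hx => inv1 x hx ?_
  obtain ⟨w, hw, h3, h5⟩ := exists_inv_fix hodd (mul_mem sH sH) hx (by rw [s4]; simp)
  suffices w = 1 by simpa [this] using h5
  have h6 : w ∈ F := hFc ⟨hw, fun c hc => (commute_of_inv (le_normalizer_of_normal (mem_top w))
    (odd_orderOf hodd hw) hF h3 hc).symm⟩
  exact eq_one_of_eq_inv (odd_orderOf hodd hw) (by rw [← h3, hF w h6])

/-- Let G be a finite solvable group with an automorphism σ satisfying σ⁴ = 1 and fixing only the identity. Then the derived subgroup G' is nilpotent. -/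
theorem result {G : Type*} [Group G] [Finite G] (hG : Group.IsSolvable G) (σ : MulAut G) (hσ : σ ^ 4 = 1) (hfpf : ∀ g : G, σ g = g → g = 1) : Group.IsNilpotent (commutator G) := by
  by_cases h1 : σ = 1
  · haveI : Subsingleton G := ⟨fun a b => by rw [hfpf a (by simp [h1]), hfpf b (by simp [h1])]⟩
    infer_instance
  haveI : Fact (Nat.Prime 2) := ⟨Nat.prime_two⟩
  have h2 : IsPGroup 2 (zpowers σ) := by
    obtain ⟨k, -, e⟩ := (Nat.dvd_prime_pow Nat.prime_two (m := 2)).1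
      (orderOf_dvd_of_pow_eq_one hσ)
    exact IsPGroup.of_card (by rw [Nat.card_zpowers, e])
  haveI : Nontrivial (zpowers σ) := (nontrivial_iff_ne_bot _).2 (by simpa using h1)
  obtain ⟨k, hk, e⟩ := h2.nontrivial_iff_card.1 inferInstance
  have hf : ∀ g : G, (∀ a : zpowers σ, a • g = g) → g = 1 := fun g hg =>
    hfpf g (hg ⟨σ, mem_zpowers σ⟩)
  exact reduce_der (A := zpowers σ) hG (cop_of_isPGroup Nat.prime_two h2 hf) hf
    (modl ⟨σ, mem_zpowers σ⟩ (fun ⟨b, k, hk⟩ => ⟨k, Subtype.ext hk⟩) (Subtype.ext hσ)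
      (e ▸ dvd_pow_self 2 hk.ne'))

end Cfsg.Agent.S3794
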