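import Cfsg.Statements.S3795
import Cfsg.Agent.Lib.Solv.HS5
import Cfsg.Agent.S3794

set_option autoImplicit false
open Cfsg

namespace Cfsg.Agent.S3795

open Subgroup CA.HS CA.FpfRed CA.BG CA.OQuo

theorem four {G : Type*} [Group G] [Finite G] {A H : Subgroup G} (h : St A H) (hA : IsCyclic A)
    (h4 : ♯A ∣ 2 ^ 2) : gi H 2 = ⊥ := by
  obtain ⟨δ, rfl⟩ := exists_zpowers_of_cyc hA
  have hδ := h.norm (mem_zpowers δ)
  have h1 := Cfsg.Agent.S3794.result h.solv (mel (cact H) δ) (by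
    rw [← mel_pow _ hδ, orderOf_dvd_iff_pow_eq_one.1 (Nat.card_zpowers δ ▸ h4), mel_one])
    fun g hg => Subtype.ext (mem_bot.1 (h.fpf ▸ ⟨g.2, by
      rw [cent_zpowers]
      exact mem_cent1.2 (mul_inv_eq_iff_eq_mul.1
        ((coe_mel_cact hδ g).symm.trans (congrArg Subtype.val hg))).symm⟩))
  refine gi_succ_of_nil (gam_le_lcs H 1) ?_
  have := CA.Core.isNilpotent_map h1 H.subtype
  rwa [commutator_def, map_commutator, ← MonoidHom.range_eq_map, range_subtype] at this

/-- Gross's Theorem: let G be a finite solvable group with an automorphism σ of order 2^n, n > 1, fixing only the identity. Then G has Fitting height at most 2n − 2: G has Fitting height at most m when there is a chain of normal subgroups 1 = F₀ ≤ F₁ ≤ ⋯ ≤ F_m = G with each F_{i+1}/F_i nilpotent. -/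
theorem result {G : Type*} [Group G] [Finite G] (hG : Group.IsSolvable G) (σ : MulAut G) (n : ℕ) (hn : 1 < n) (hσ : orderOf σ = 2 ^ n) (hfpf : ∀ g : G, σ g = g → g = 1) : ∃ F : Fin ((2 * n - 2) + 1) → Subgroup G, F 0 = ⊥ ∧ F (Fin.last (2 * n - 2)) = ⊤ ∧ Monotone F ∧ (∀ i, (F i).Normal) ∧ ∀ i : Fin (2 * n - 2), ∃ k : ℕ, (F i.succ).lowerCentralSeries k ≤ F i.castSucc := by
  have hf : ∀ g : G, (∀ a : zpowers σ, a • g = g) → g = 1 := fun g h => hfpf g (h ⟨σ, mem_zpowers σ⟩)
  have hc : Nat.card (zpowers σ) = 2 ^ n := by rw [Nat.card_zpowers, hσ]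
  obtain ⟨m, rfl⟩ : ∃ m, n = m + 2 := ⟨n - 2, by omega⟩
  refine chain_of (eq_bot_of_gi_range (SemidirectProduct.inl_injective
    (φ := MulDistribMulAction.toMulAut (zpowers σ) G)) ?_)
  rw [show 2 * (m + 2) - 2 = 2 * m + 2 by omega]
  exact gross four m (st_sd hG (cop_of_isPGroup Nat.prime_two (IsPGroup.of_card hc) hf) hf)
    (isCyclic_of_surjective _ (MonoidHom.rangeRestrict_surjective _)) (hc ▸ Subgroup.card_range_dvd _)

end Cfsg.Agent.S3795
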