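import Cfsg.Statements.S3796
import Cfsg.Agent.Lib.Solv.HS5

set_option autoImplicit false
open Cfsg

namespace Cfsg.Agent.S3796

open Subgroup CA.HS CA.FpfRed

/-- Ward's Theorem: let G be a finite solvable group and A an elementary abelian group of automorphisms of G of order p² (p a prime) with no non-identity common fixed point. Then G has Fitting height at most 2: G has Fitting height at most m when there is a chain of normal subgroups 1 = F₀ ≤ F₁ ≤ ⋯ ≤ F_m = G with each F_{i+1}/F_i nilpotent. -/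
theorem result {G : Type*} [Group G] [Finite G] (hG : Group.IsSolvable G) {p : ℕ} (hp : p.Prime) (A : Subgroup (MulAut G)) (hA : Cfsg.IsElementaryAbelian p A) (hcard : Nat.card A = p ^ 2) (hfpf : ∀ g : G, (∀ a ∈ A, a g = g) → g = 1) : ∃ F : Fin (2 + 1) → Subgroup G, F 0 = ⊥ ∧ F (Fin.last 2) = ⊤ ∧ Monotone F ∧ (∀ i, (F i).Normal) ∧ ∀ i : Fin 2, ∃ k : ℕ, (F i.succ).lowerCentralSeries k ≤ F i.castSucc := by
  have hf : ∀ g : G, (∀ a : A, a • g = g) → g = 1 := fun g h => hfpf g fun a ha => h ⟨a, ha⟩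
  refine chain_of (eq_bot_of_gi_range SemidirectProduct.inl_injective (ward hp hp
    (st_sd hG (cop_of_isPGroup hp (IsPGroup.of_card hcard) hf) hf)
    (by rw [← sq, ← hcard]; exact Subgroup.card_range_dvd _) (Or.inr ?_)))
  rintro _ ⟨a, rfl⟩
  rw [← map_pow, show a ^ p = 1 from Subtype.ext (hA.2 a a.2), map_one]

end Cfsg.Agent.S3796
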