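import Cfsg.Statements.S3797
import Cfsg.Agent.Lib.Solv.H2One
import Cfsg.Agent.Lib.Odd.BG1b

set_option autoImplicit false
open Cfsg

namespace Cfsg.Agent.S3797

open Subgroup CA.BG CA.OQuo in
theorem homo {A : Type*} [CommGroup A] [Finite A] (hA : IsPGroup 2 A)
    (h : ∀ x y : A, x ≠ 1 → x ^ 2 = 1 → y ≠ 1 → y ^ 2 = 1 → ∃ a : MulAut A, a x = y) :
    ∃ m r : ℕ, Nonempty (A ≃* (Fin r → Multiplicative (ZMod (2 ^ m)))) := by
  classical
  obtain ⟨ι, _, n, hn, ⟨e⟩⟩ := CommGroup.equiv_prod_multiplicative_zmod_of_finite A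
  have h1 : ∀ i, ∃ k, n i = 2 ^ (k + 1) := fun i => by
    obtain ⟨k, hk⟩ := (IsPGroup.iff_orderOf.1 (hA.of_surjective ((Pi.evalMonoidHom _ i).comp e.toMonoidHom)
      ((Function.surjective_eval i).comp e.surjective))) (Multiplicative.ofAdd 1)
    rw [orderOf_ofAdd_eq_addOrderOf, ZMod.addOrderOf_one] at hk
    rcases k with _ | k
    · have := hn i; simp at hk; omega
    · exact ⟨k, hk⟩
  choose k hk using h1
  obtain rfl : n = fun i => 2 ^ (k i + 1) := funext hk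
  have ord : ∀ i, orderOf (Multiplicative.ofAdd (1 : ZMod (2 ^ (k i + 1)))) = 2 ^ (k i + 1) := fun i => by
    rw [orderOf_ofAdd_eq_addOrderOf, ZMod.addOrderOf_one]
  let u : ι → A := fun i => e.symm (Pi.mulSingle i (Multiplicative.ofAdd 1))
  have ne : ∀ i, e (u i ^ 2 ^ k i) i ≠ 1 := fun i hi => by
    simp only [u, map_pow, MulEquiv.apply_symm_apply, Pi.pow_apply, Pi.mulSingle_eq_same] at hi
    have := Nat.le_of_dvd (by positivity) (ord i ▸ orderOf_dvd_of_pow_eq_one hi)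
    exact absurd (Nat.pow_lt_pow_right one_lt_two (k i).lt_succ_self) (not_lt.2 this)
  have n1 : ∀ i, u i ^ 2 ^ k i ≠ 1 := fun i hi => ne i (by rw [hi, map_one]; rfl)
  have n2 : ∀ i, (u i ^ 2 ^ k i) ^ 2 = 1 := fun i => by
    rw [← pow_mul, ← pow_succ, ← map_pow, ← Pi.mulSingle_pow, orderOf_dvd_iff_pow_eq_one.1 (ord i).dvd]; simp
  have le : ∀ i j, k j ≤ k i := fun i j => by
    by_contra! hl
    obtain ⟨a, ha⟩ := h _ _ (n1 j) (n2 j) (n1 i) (n2 i)
    refine ne i ?_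
    rw [← ha, map_pow, map_pow, Pi.pow_apply]
    refine orderOf_dvd_iff_pow_eq_one.1 ((_root_.orderOf_dvd_natCard _).trans ?_)
    rw [Nat.card_congr Multiplicative.toAdd, Nat.card_zmod]
    exact pow_dvd_pow 2 hl
  obtain ⟨m, hm⟩ : ∃ m, ∀ i, k i = m := by
    rcases isEmpty_or_nonempty ι with _ | ⟨⟨i⟩⟩
    exacts [⟨0, fun i => isEmptyElim i⟩, ⟨k i, fun j => (le i j).antisymm (le j i)⟩]
  obtain rfl : k = fun _ => m := funext hm
  exact ⟨m + 1, Fintype.card ι, ⟨e.trans (MulEquiv.arrowCongr (Fintype.equivFin ι) (MulEquiv.refl _))⟩⟩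

/-- Let G be a finite solvable group of even order whose Sylow 2-subgroups contain more than one involution, and suppose all involutions of G are conjugate. Then G has 2-length at most 1, and a Sylow 2-subgroup S of G is either homocyclic (a direct product of cyclic groups of one common order) or a non-abelian 2-group with more than one involution admitting a solvable group of automorphisms transitive on its involutions. -/
theorem result {G : Type*} [Group G] [Finite G] (hG : Group.IsSolvable G) (heven : Even (Nat.card G)) (S : Sylow 2 G) (htwo : ∃ x y : G, x ∈ (S : Subgroup G) ∧ y ∈ (S : Subgroup G) ∧ x ≠ y ∧ x ≠ 1 ∧ x ^ 2 = 1 ∧ y ≠ 1 ∧ y ^ 2 = 1) (hconj : ∀ x y : G, x ≠ 1 → x ^ 2 = 1 → y ≠ 1 → y ^ 2 = 1 → IsConj x y) : Cfsg.PLengthLE 2 1 G ∧ ((∃ m r : ℕ, Nonempty (↥(S : Subgroup G) ≃* (Fin r → Multiplicative (ZMod (2 ^ m))))) ∨ (¬ IsMulCommutative (S : Subgroup G) ∧ ∃ Y : Subgroup (MulAut ↥(S : Subgroup G)), Group.IsSolvable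 Y ∧ ∀ x y : ↥(S : Subgroup G), x ≠ 1 → x ^ 2 = 1 → y ≠ 1 → y ^ 2 = 1 → ∃ a ∈ Y, a x = y)) := by
  open Subgroup CA.BG CA.OQuo in
  obtain ⟨x, y, hx, hy, hxy, x1, x2, y1, y2⟩ := htwo
  let π := QuotientGroup.mk' (pPrimeCore 2 G)
  have hπ := QuotientGroup.mk'_surjective (pPrimeCore 2 G)
  have hS : CA.BG.IsPi {2} (S : Subgroup G) := CA.BG.isPi_of_isPGroup Nat.prime_two S.2
  have hO : (Nat.card (pPrimeCore 2 G)).Coprime 2 := CA.Core.coprime_pPrimeCore
  have inj : ∀ a ∈ (S : Subgroup G), ∀ b ∈ (S : Subgroup G), π a = π b → a = b := fun a ha b hb e => by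
    have h1 : a⁻¹ * b ∈ pPrimeCore 2 G := QuotientGroup.eq.1 e
    obtain ⟨k, hk⟩ := IsPGroup.iff_orderOf.1 S.2 ⟨_, mul_mem (inv_mem ha) hb⟩
    rw [← Subgroup.orderOf_coe] at hk
    exact inv_mul_eq_one.1 (orderOf_eq_one_iff.1 (Nat.Coprime.eq_one_of_dvd
      ((hO.coprime_dvd_left (Subgroup.orderOf_dvd_natCard _ h1)).pow_right k) hk.dvd))
  have lift : ∀ t : G ⧸ pPrimeCore 2 G, t ≠ 1 → t ^ 2 = 1 → ∃ s, π s = t ∧ s ≠ 1 ∧ s ^ 2 = 1 := fun t t1 t2 => by
    obtain ⟨g, rfl⟩ := hπ t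
    obtain ⟨k, hk⟩ := Nat.coprime_two_right.1 hO
    have h1 : π (g ^ Nat.card (pPrimeCore 2 G)) = π g := by rw [map_pow, hk, pow_succ, pow_mul, t2]; simp
    refine ⟨_, h1, fun e => t1 (by rw [← h1, e, map_one]), ?_⟩
    rw [← pow_mul, mul_comm, pow_mul]
    exact orderOf_dvd_iff_pow_eq_one.1 (Subgroup.orderOf_dvd_natCard _ ((QuotientGroup.eq_one_iff _).1 t2))
  have h1 : (S : Subgroup G).map π ≤ pCore 2 _ := CA.H2One.syl_le_core inferInstance
    CA.Core.pPrimeCore_quotient_pPrimeCore (CA.BG.PiNat.of_dvd hS (Subgroup.card_map_dvd _ π))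
    (x := π x) (y := π y) (fun e => hxy (inj x hx y hy e)) (fun e => x1 (inj x hx 1 (one_mem _) e))
    (by rw [← map_pow, x2, map_one]) (fun e => y1 (inj y hy 1 (one_mem _) e)) (by rw [← map_pow, y2, map_one])
    fun a b a1 a2 b1 b2 => by
      obtain ⟨s, rfl, s1, s2⟩ := lift a a1 a2
      obtain ⟨t, rfl, t1, t2⟩ := lift b b1 b2
      exact π.map_isConj (hconj s t s1 s2 t1 t2)
  have h2 : (S : Subgroup G) ≤ pPrimePCore 2 G := Subgroup.map_le_iff_le_comap.1 h1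
  refine ⟨(CA.BG.pLengthLE_one_iff 2 G).2 (((Nat.prime_two.coprime_iff_not_dvd).2 S.not_dvd_index).symm.coprime_dvd_left
    (Subgroup.index_dvd_of_le h2)), ?_⟩
  have h3 : pCore 2 _ = (S : Subgroup G).map π := (S.mapSurjective hπ).3 CA.Core.isPGroup_pCore h1
  haveI : (pPrimePCore 2 G).Normal := Subgroup.Normal.comap inferInstance _
  have h4 : Subgroup.normalizer ((S : Subgroup G) : Set G) ⊔ pPrimeCore 2 G = ⊤ := by
    have := S.normalizer_sup_eq_top' h2
    rw [pPrimePCore, h3, Subgroup.comap_map_eq, QuotientGroup.ker_mk', ← sup_assoc] at this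
    exact top_le_iff.1 (this.ge.trans (sup_le_sup_right (sup_le le_rfl Subgroup.le_normalizer) _))
  have h5 : ∀ x y : ↥(S : Subgroup G), x ≠ 1 → x ^ 2 = 1 → y ≠ 1 → y ^ 2 = 1 →
      ∃ a ∈ (S : Subgroup G).normalizerMonoidHom.range, a x = y := fun a b a1 a2 b1 b2 => by
    obtain ⟨g, hg⟩ := isConj_iff.1 (hconj a b (by simpa using a1) (congrArg Subtype.val a2) (by simpa using b1)
      (congrArg Subtype.val b2))
    obtain ⟨n, hn, o, ho, rfl⟩ := (Subgroup.mem_sup_of_normal_right).1 (h4 ▸ Subgroup.mem_top g)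
    refine ⟨_, ⟨⟨n, hn⟩, rfl⟩, Subtype.ext (inj _ (Subtype.prop _) _ b.2 ?_)⟩
    show π (n * a * n⁻¹) = _
    simp only [← hg, map_mul, map_inv, show π o = 1 from (QuotientGroup.eq_one_iff _).2 ho, mul_one]
  by_cases hc : IsMulCommutative (S : Subgroup G)
  · letI : CommGroup (S : Subgroup G) := { (inferInstance : Group _) with mul_comm := hc.is_comm.comm }
    exact Or.inl (homo S.2 fun a b a1 a2 b1 b2 => (h5 a b a1 a2 b1 b2).imp fun _ h => h.2)
  · exact Or.inr ⟨hc, _, Group.isSolvable_of_surjective (MonoidHom.rangeRestrict_surjective _), h5⟩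

end Cfsg.Agent.S3797
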