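import Cfsg.Statements.S3798
import Cfsg.Agent.Lib.Solv.HH3
import Cfsg.Agent.Lib.Grp.Fus2

set_option autoImplicit false
open Cfsg

namespace Cfsg.Agent.S3798

open Subgroup CA.BG CA.HH CA.H12PSolv CA.Core

theorem compl_norm {G : Type*} [Group G] [Finite G] {π : Set ℕ} {R K : Subgroup G} [R.Normal]
    [K.Normal] (h1 : R ≤ K) (h2 : IsPi π R) (h3 : PiNat πᶜ (R.relIndex K))
    (hs : Group.IsSolvable R) : ∃ Q, IsPi πᶜ Q ∧ Q ⊔ R = K ∧ 𝓝(Q) ⊔ R = ⊤ := by
  obtain ⟨Q, a, b, c, -⟩ := CA.Fus2.exists_complement_in h1 le_normalizer_of_normal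
    (h2.nat.coprime h3)
  have hQ : IsPi πᶜ Q := isPi_iff.2 (b ▸ h3)
  refine ⟨Q, hQ, c, eq_top_iff.2 fun g _ => ?_⟩
  obtain ⟨k, hk, e⟩ := coprime_conj_le (A := Q) (K := R) (B := cj g Q) le_normalizer_of_normal
    (h2.coprime hQ) (c ▸ (cj_mono g a).trans (cj_of_mem_norm (le_normalizer_of_normal (mem_top g))).le)
    (h2.coprime (hQ.cj g)) (Or.inr (Or.inr hs))
  rw [← cj_mul] at e
  rw [sup_comm]
  exact (mem_sup_norm' le_normalizer_of_normal).2 ⟨k⁻¹, inv_mem hk, _, mem_norm_of_cj_le e, by group⟩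

theorem main {G : Type*} [Group G] [Finite G] {p : ℕ} [hp : Fact p.Prime] (h2 : p ≠ 2)
    (hG : IsPSolvable p G) (hO : pPrimeCore p G = ⊥)
    (h : ∀ W : Subgroup G, W.Characteristic → IsPi {p} W → W ≠ ⊥ → ∀ x, orderOf x = p → x ∈ W) :
    ¬ p ∣ Nat.card (G ⧸ pCore p G) := by
  intro hd
  have hR := isPi_pcore (G := G) hp.out
  have hC := centralizer_pCore_le hG hO
  have hR0 : pCore p G ≠ ⊥ := fun e => by
    have : pCore p G = ⊤ := eq_top_iff.2 (le_trans (by rw [e, cent_bot]) hC)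
    rw [← index_eq_card, this, index_top] at hd
    exact hp.out.one_lt.ne' (Nat.dvd_one.1 hd)
  obtain ⟨K, hK⟩ : ∃ K, K = (pPrimeCore p (G ⧸ pCore p G)).comap (QuotientGroup.mk' _) := ⟨_, rfl⟩
  haveI : K.Characteristic := hK ▸ Characteristic.comap_quotient_mk inferInstance
  have hRK : pCore p G ≤ K := by
    rw [hK]; exact (QuotientGroup.ker_mk' _).ge.trans (ker_le_comap _ _)
  obtain ⟨Q, q1, q2, q3⟩ := compl_norm hRK hR (by
    rw [← relIndex_mk, hK, map_comap_eq_self_of_surjective (QuotientGroup.mk'_surjective _)]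
    exact (isPi_p'core hp.out).nat) (hR.isSolvable hp.out)
  have hcop : (♯(pCore p G)).Coprime ♯Q := hR.coprime q1
  by_cases h0 : pCore p G ⊓ 𝓒(Q) = ⊥
  · rw [← coprime_norm_cent le_normalizer_of_normal hcop] at h0
    have : p ∣ ♯𝓝(Q) := by
      refine hd.trans ?_
      rw [← index_eq_card, ← relIndex_top_right, ← q3, relIndex_sup_norm le_normalizer_of_normal]
      exact relIndex_dvd_card' _ _
    obtain ⟨x, hx, ho⟩ := exists_orderOf_eq hp.out this
    have h3 : x ∈ pCore p G ⊓ 𝓝(Q) := ⟨h _ inferInstance hR hR0 x ho, hx⟩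
    rw [h0, mem_bot] at h3
    rw [h3, orderOf_one] at ho
    exact hp.out.one_lt.ne ho
  obtain ⟨y, hy, ho⟩ := exists_orderOf_eq hp.out ((hR.inf_left _).dvd_card h0)
  have hy1 : y ≠ 1 := fun e => hp.out.one_lt.ne (by rw [← ho, e, orderOf_one])
  have h3 := h (pCore p G ⊓ 𝓒(pCore p G)) inferInstance (hR.inf_left _) (hR.center_ne_bot hR0) y ho
  have h4 := h (pCore p G ⊓ 𝓒(K)) inferInstance (hR.inf_left _)
    (ne_bot_of_mem (x := y) ⟨hy.1, by rw [← q2, cent_sup]; exact ⟨hy.2, h3.2⟩⟩ hy1)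
  have h5 : Q ≤ 𝓒(pCore p G) := by
    refine coprime_odd_faithful_Ohm1 hp.out h2 hR le_normalizer_of_normal hcop (cent_symm ?_)
    rw [omega_le_iff]
    intro x _ hx
    by_cases e : x = 1
    · rw [e]; exact one_mem _
    · exact cent_anti (q2 ▸ le_sup_left) (h4 x (orderOf_eq_prime hx e)).2
  have h6 : K = pCore p G := by rw [← q2, sup_eq_right.2 (h5.trans hC)]
  have h7 : pPrimeCore p (G ⧸ pCore p G) = ⊥ := by
    rw [← map_comap_eq_self_of_surjective (QuotientGroup.mk'_surjective _) (pPrimeCore p _), ← hK, h6,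
      Subgroup.map_eq_bot_iff, QuotientGroup.ker_mk']
  have := core_ne_bot (psolv_quotient hG (pCore p G)) (M := ⊤) (fun e => by
    rw [← card_top, e, card_bot] at hd
    exact hp.out.one_lt.ne' (Nat.dvd_one.1 hd))
  rw [h7, pcore_quot hp.out] at this
  simp at this

/-- The Gaschütz–Yen Theorem: let G be a finite p-soluble group, p an odd prime dividing its order, such that the automorphism group of G permutes the subgroups of G of order p transitively. Then G has p-length at most 1. -/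
theorem result {G : Type*} [Group G] [Finite G] {p : ℕ} [Fact p.Prime] (hp : p ≠ 2) (hdvd : p ∣ Nat.card G) (hG : Cfsg.IsPSolvable p G) (htrans : ∀ U V : Subgroup G, Nat.card U = p → Nat.card V = p → ∃ a : MulAut G, U.map a.toMonoidHom = V) : Cfsg.PLengthLE p 1 G := by
  have hp' : p.Prime := Fact.out
  refine PL_of_quot_p'core hp' (PL_of_quot_pcore hp' ((PL_zero_iff hp').2
    (main hp (psolv_quotient hG _) (p'core_quot hp') fun W hW h1 h2 x hx => ?_)))
  have hs := QuotientGroup.mk'_surjective (pPrimeCore p G)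
  have lift : ∀ x : G ⧸ pPrimeCore p G, orderOf x = p →
      ∃ y : G, orderOf y = p ∧ QuotientGroup.mk' _ y = x := by
    intro x hx
    obtain ⟨y, h3, h4⟩ := exists_lift_el hp' hs (y := x) (by rw [hx]; exact (piNat_prime hp').2 rfl)
    refine ⟨y, orderOf_eq_prime ?_ ?_, h4⟩
    · have h5 : y ^ p ∈ pPrimeCore p G := by
        rw [← QuotientGroup.eq_one_iff, ← QuotientGroup.mk'_apply, map_pow, h4]
        exact orderOf_dvd_iff_pow_eq_one.1 hx.dvd
      exact orderOf_eq_one_iff.1 ((h3.of_dvd (orderOf_pow_dvd _)).eq_one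
        ((isPi_p'core hp').orderOf h5))
    · rintro rfl
      rw [← h4, map_one, orderOf_one] at hx
      exact hp'.one_lt.ne hx
  obtain ⟨w, hw, ho⟩ := exists_orderOf_eq hp' (h1.dvd_card h2)
  obtain ⟨x, h3, rfl⟩ := lift x hx
  obtain ⟨w, h4, rfl⟩ := lift w ho
  obtain ⟨a, ha⟩ := htrans (zpowers w) (zpowers x) (by rw [Nat.card_zpowers, h4])
    (by rw [Nat.card_zpowers, h3])
  have h5 := characteristic_iff_map_le.1 (Characteristic.comap_quotient_mk hW) a
  have h6 : zpowers w ≤ W.comap (QuotientGroup.mk' _) := zpowers_le.2 hw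
  exact h5 (map_mono h6 (ha ▸ mem_zpowers x))

end Cfsg.Agent.S3798
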