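import Cfsg.Statements.S3799
import Cfsg.Agent.Lib.Grp.H7Ext
import Cfsg.Agent.Lib.Lin.SLnGen
import Cfsg.Agent.Lib.Grp.PGClassTwo

set_option autoImplicit false
open Cfsg

namespace Cfsg.Agent.S3799

section
open Subgroup CA
open scoped commutatorElement
variable {E : Type*} [Group E] [Finite E] {p n : ℕ} [hp : Fact p.Prime]

theorem quot_elem {g : ℕ → E} (hg : closure (Set.range g) = ⊤) {N : Subgroup E} [N.Normal]
    (h1 : ∀ i j, ⁅g i, g j⁆ ∈ N) (h2 : ∀ i, g i ^ p ∈ N) : (∀ x y : E, ⁅x, y⁆ ∈ N) ∧ ∀ x : E, x ^ p ∈ N := by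
  let f := QuotientGroup.mk' N
  have k : ∀ x y, ⁅x, y⁆ ∈ N ↔ Commute (f x) (f y) := fun x y => by
    rw [← commutatorElement_eq_one_iff_commute, ← map_commutatorElement]; exact (QuotientGroup.eq_one_iff _).symm
  have c : ∀ x y, Commute (f x) (f y) := fun x y =>
    closure_induction₂ (p := fun x y _ _ => Commute (f x) (f y))
      (by rintro _ _ ⟨i, rfl⟩ ⟨j, rfl⟩; exact (k _ _).1 (h1 i j)) (by simp) (by simp)
      (fun a b c _ _ _ h h' => by rw [map_mul]; exact h.mul_left h')
      (fun a b c _ _ _ h h' => by rw [map_mul]; exact h.mul_right h')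
      (fun a b _ _ h => by rw [map_inv]; exact h.inv_left)
      (fun a b _ _ h => by rw [map_inv]; exact h.inv_right) (hg.ge (mem_top x)) (hg.ge (mem_top y))
  refine ⟨fun x y => (k x y).2 (c x y), fun x => (QuotientGroup.eq_one_iff _).1 (show f (x ^ p) = 1 from ?_)⟩
  rw [map_pow]
  refine closure_induction (p := fun x _ => f x ^ p = 1) ?_ (by simp)
    (fun a b _ _ h h' => by rw [map_mul, (c a b).mul_pow, h, h', one_mul])
    (fun a _ h => by rw [map_inv, inv_pow, h, inv_one]) (hg.ge (mem_top x))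
  rintro _ ⟨i, rfl⟩
  rw [← map_pow]; exact (QuotientGroup.eq_one_iff _).2 (h2 i)

/-- `g 0` is central, and `g (2k+1), g (2k+2)` are hyperbolic pairs -/
theorem extra_top {g : ℕ → E} (hg : closure (Set.range g) = ⊤) (hn : 0 < n) (h0 : ∀ i, 2 * n < i → g i = 1)
    (hz : orderOf (g 0) = p) (h1 : ∀ i ≤ 2 * n, ∀ j < i, ⁅g j, g i⁆ = if j % 2 = 1 ∧ i = j + 1 then g 0 else 1)
    (h2 : ∀ i, g i ^ p ∈ zpowers (g 0)) :
    IsExtraspecial p E ∧ Nat.card E = p ^ (2 * n + 1) ∧ center E = zpowers (g 0) := by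
  have c0 : ∀ i, Commute (g 0) (g i) := fun i => by
    rcases Nat.eq_zero_or_pos i with rfl | hi
    · exact Commute.refl _
    rcases Nat.lt_or_ge (2 * n) i with h | h
    · rw [h0 i h]; exact Commute.one_right _
    · exact commutatorElement_eq_one_iff_commute.1 ((h1 i h 0 hi).trans (if_neg (by omega)))
  have hc : g 0 ∈ center E := by
    rw [← centralizer_univ, ← coe_top, ← hg, centralizer_closure]
    rintro _ ⟨i, rfl⟩; exact (c0 i).symm
  have : (zpowers (g 0)).Normal := ⟨fun x hx y => by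
    rwa [mem_center_iff.1 (zpowers_le.2 hc hx) y, mul_inv_cancel_right]⟩
  have lt : ∀ i j, j < i → ⁅g j, g i⁆ ∈ zpowers (g 0) := fun i j h => by
    rcases Nat.lt_or_ge (2 * n) i with h' | h'
    · rw [h0 i h']; simp
    · rw [h1 i h' j h]; split_ifs <;> simp
  obtain ⟨h3, h4⟩ := quot_elem (p := p) hg (N := zpowers (g 0)) (fun i j => by
    rcases lt_trichotomy i j with h | rfl | h
    · exact lt _ _ h
    · simp
    · rw [← commutatorElement_inv]; exact inv_mem (lt _ _ h)) h2
  obtain ⟨m, c, hζ⟩ := H7Ext.exists_cov hz hc h3 h4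
  have b1 : ∀ i ≤ 2 * n, ∀ j < i, c.b (c.π (g j)) (c.π (g i)) = if j % 2 = 1 ∧ i = j + 1 then 1 else 0 :=
    fun i hi j hj => c.inj (by rw [c.ζ_b, h1 i hi j hj]; split_ifs; exacts [hζ.symm, c.ζ_zero.symm])
  let v : Fin (2 * n) → Fin m → ZMod p := fun i => c.π (g (i + 1))
  let w : Fin (2 * n) → Fin m → ZMod p := fun i => if i.1 % 2 = 0 then c.π (g (i + 2)) else -c.π (g i)
  have hB : ∀ u v, c.B u v = c.b u v := fun _ _ => rfl
  have d : ∀ i j, c.B (v j) (w i) = if i = j then 1 else 0 := fun i j => by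
    have hi := i.2; have hj := j.2
    simp only [v, w, Fin.ext_iff]
    split_ifs with e1 e2 e2
    · rw [hB, b1 _ (by omega) _ (by omega), if_pos (by omega)]
    · rw [hB]
      rcases lt_trichotomy (j.1 + 1) (i + 2) with h | h | h
      · rw [b1 _ (by omega) _ h, if_neg (by omega)]
      · rw [h, c.b_self]
      · rw [c.b_symm, b1 _ (by omega) _ h, if_neg (by omega), neg_zero]
    · rw [map_neg, hB, c.b_symm, neg_neg, b1 _ (by omega) _ (by omega), if_pos (by omega)]
    · rw [map_neg, hB, neg_eq_zero]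
      rcases lt_trichotomy (j.1 + 1) i with h | h | h
      · rw [b1 _ (by omega) _ h, if_neg (by omega)]
      · rw [h, c.b_self]
      · rw [c.b_symm, b1 _ (by omega) _ h, if_neg (by omega), neg_zero]
  have li : LinearIndependent (ZMod p) v := LinearIndependent.of_pairwise_dual_eq_zero_one v (fun i => c.B.flip (w i))
    (fun i j h => (d i j).trans (if_neg h)) fun i => (d i i).trans (if_pos rfl)
  have sp : ⊤ ≤ Submodule.span (ZMod p) (Set.range v) := fun u _ => by
    obtain ⟨x, rfl⟩ := c.surj u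
    refine closure_induction (p := fun x _ => c.π x ∈ Submodule.span (ZMod p) (Set.range v)) ?_
      (c.π_one ▸ zero_mem _) (fun a b _ _ h h' => c.π_mul a b ▸ add_mem h h')
      (fun a _ h => c.π_inv a ▸ neg_mem h) (hg.ge (mem_top x))
    rintro _ ⟨i, rfl⟩
    rcases i with _ | i
    · rw [← hζ, c.π_ζ]; exact zero_mem _
    rcases Nat.lt_or_ge i (2 * n) with h | h
    · exact Submodule.subset_span ⟨⟨i, h⟩, rfl⟩
    · rw [h0 _ (by omega), c.π_one]; exact zero_mem _
  have hZ := c.nondeg_iff.1 fun u hu => by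
    obtain ⟨a, rfl⟩ := (Submodule.mem_span_range_iff_exists_fun _).1 (sp (Submodule.mem_top (x := u)))
    refine Finset.sum_eq_zero fun i _ => ?_
    have := hu (w i)
    rw [← hB, map_sum, LinearMap.sum_apply] at this
    simp only [map_smul, LinearMap.smul_apply, d, smul_eq_mul, mul_ite, mul_one, mul_zero, Finset.sum_ite_eq,
      Finset.mem_univ, if_true] at this
    rw [this, zero_smul]
  have hr := Module.finrank_eq_card_basis (Module.Basis.mk li sp)
  rw [Fintype.card_fin] at hr
  exact ⟨c.extra hZ (Module.nontrivial_of_finrank_pos (R := ZMod p) (by omega)), by rw [c.card_eq', hr], hζ ▸ hZ⟩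
end

section
open Matrix
open scoped commutatorElement
variable {ι F : Type*} [DecidableEq ι] [Fintype ι] [Field F]

theorem tv_comm {a b c d : ι} (h1 : a ≠ b) (h2 : c ≠ d) (h3 : b ≠ c) (h4 : d ≠ a) :
    ⁅SpecialLinearGroup.transvection h1 (1 : F), SpecialLinearGroup.transvection h2 (1 : F)⁆ = 1 := by
  rw [commutatorElement_eq_one_iff_mul_comm]
  apply Subtype.ext
  simp only [Matrix.SpecialLinearGroup.coe_mul, Matrix.SpecialLinearGroup.transvection_coe, mul_add, add_mul, one_mul, mul_one,
    single_mul_single_of_ne _ _ _ _ h3, single_mul_single_of_ne _ _ _ _ h4, add_zero]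
  abel

theorem tv_pow {a b : ι} (h1 : a ≠ b) (k : ℕ) :
    SpecialLinearGroup.transvection h1 (1 : F) ^ k = SpecialLinearGroup.transvection h1 (k : F) := by
  induction k with
  | zero => simp
  | succ k ih => rw [pow_succ, ih, Nat.cast_succ, SpecialLinearGroup.transvection_add]

theorem tv_ne {a b : ι} (h1 : a ≠ b) : SpecialLinearGroup.transvection h1 (1 : F) ≠ 1 := by
  intro h
  have := (SpecialLinearGroup.transvection_mem_center_iff h1 (1 : F)).1 (h ▸ Subgroup.one_mem _)
  exact one_ne_zero this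

/-- source index -/
def src (n i : ℕ) (h : i ≤ 2 * n) : Fin (n + 2) := ⟨if i % 2 = 1 then 0 else i / 2, by split_ifs <;> omega⟩
/-- target index -/
def tgt (n i : ℕ) (h : i ≤ 2 * n) : Fin (n + 2) := ⟨if i % 2 = 1 then (i + 1) / 2 else n + 1, by split_ifs <;> omega⟩

theorem st_ne (n i : ℕ) (h : i ≤ 2 * n) : src n i h ≠ tgt n i h := by
  simp only [src, tgt, Ne, Fin.mk.injEq]; split_ifs <;> omega

/-- generators -/
def gen (F : Type*) [Field F] (n i : ℕ) : SpecialLinearGroup (Fin (n + 2)) F :=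
  if h : i ≤ 2 * n then SpecialLinearGroup.transvection (st_ne n i h) 1 else 1

theorem gen_comm (n i : ℕ) (hi : i ≤ 2 * n) (j : ℕ) (hj : j < i) :
    ⁅gen F n j, gen F n i⁆ = if j % 2 = 1 ∧ i = j + 1 then gen F n 0 else 1 := by
  have hj' : j ≤ 2 * n := by omega
  simp only [gen, dif_pos hi, dif_pos hj', dif_pos (Nat.zero_le (2 * n))]
  split_ifs with h
  · obtain ⟨h1, rfl⟩ := h
    have e1 : src n j hj' = src n 0 (Nat.zero_le _) := by simp [src, h1]
    have e2 : src n (j + 1) hi = tgt n j hj' := by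
      simp only [src, tgt, Fin.mk.injEq]; split_ifs <;> omega
    have e3 : tgt n (j + 1) hi = tgt n 0 (Nat.zero_le _) := by
      simp only [src, tgt, Fin.mk.injEq]; split_ifs <;> omega
    have key : ∀ {a b c d a' d' : Fin (n + 2)} (h1 : a ≠ b) (h2 : c ≠ d) (h3 : a' ≠ d'), a = a' → c = b → d = d' →
        ⁅SpecialLinearGroup.transvection h1 (1 : F), SpecialLinearGroup.transvection h2 (1 : F)⁆ =
          SpecialLinearGroup.transvection h3 (1 : F) := by
      intro a b c d a' d' h1 h2 h3 e1 e2 e3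
      subst e1 e2 e3
      rw [CA.SLnGen.commutator_transvection h3 h1 h2, one_mul]
    exact key _ _ _ e1 e2 e3
  · rw [not_and_or] at h
    apply tv_comm
    · intro e; have e' := congrArg Fin.val e; simp only [src, tgt] at e'; split_ifs at e' <;> omega
    · intro e; have e' := congrArg Fin.val e; simp only [src, tgt] at e'; split_ifs at e' <;> omega

theorem gen_pow (p : ℕ) [Fact p.Prime] (n i : ℕ) : gen (ZMod p) n i ^ p = 1 := by
  unfold gen
  split_ifs
  · rw [tv_pow, ZMod.natCast_self, SpecialLinearGroup.transvection_coeff_zero]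
  · exact one_pow _

end

/-- For every odd prime p and every n ≥ 1 there is an extraspecial p-group of order p^(1+2n) and exponent p; concretely, the general linear group of degree n + 2 over the field with p elements contains such a subgroup. -/
theorem result (p : ℕ) [Fact p.Prime] (hp : p ≠ 2) (n : ℕ) (hn : 1 ≤ n) : ∃ E : Subgroup (Matrix.GeneralLinearGroup (Fin (n + 2)) (ZMod p)), Cfsg.IsExtraspecial p ↥E ∧ Nat.card E = p ^ (1 + 2 * n) ∧ ∀ x ∈ E, x ^ p = 1 := by
  let f : Matrix.SpecialLinearGroup (Fin (n + 2)) (ZMod p) →* Matrix.GeneralLinearGroup (Fin (n + 2)) (ZMod p) :=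
    Matrix.SpecialLinearGroup.toGL
  have hf : Function.Injective f := Matrix.SpecialLinearGroup.toGL_injective
  let γ : ℕ → Matrix.GeneralLinearGroup (Fin (n + 2)) (ZMod p) := fun i => f (gen (ZMod p) n i)
  let E := Subgroup.closure (Set.range γ)
  let g : ℕ → E := fun i => ⟨γ i, Subgroup.subset_closure ⟨i, rfl⟩⟩
  have hg : Subgroup.closure (Set.range g) = ⊤ := by
    apply Subgroup.map_injective E.subtype_injective
    rw [MonoidHom.map_closure, ← Set.range_comp, ← MonoidHom.range_eq_map, Subgroup.range_subtype]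
    rfl
  have hp1 : ∀ i, g i ^ p = 1 := fun i => Subtype.ext (by
    show f _ ^ p = 1
    rw [← map_pow, gen_pow, map_one])
  obtain ⟨h1, h2, h3⟩ := extra_top (p := p) (n := n) hg (by omega)
    (fun i hi => Subtype.ext (by
      show f _ = 1
      rw [gen, dif_neg (by omega), map_one]))
    (orderOf_eq_prime (hp1 0) (fun h => by
      have h' : f (gen (ZMod p) n 0) = f 1 := by rw [map_one]; exact congrArg Subtype.val h
      have := hf h'
      rw [gen, dif_pos (Nat.zero_le _)] at this
      exact tv_ne _ this))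
    (fun i hi j hj => Subtype.ext (by
      have h0 := congrArg f (gen_comm (F := ZMod p) n i hi j hj)
      rw [map_commutatorElement] at h0
      refine h0.trans ?_
      split_ifs
      · rfl
      · exact map_one f))
    (fun i => by rw [hp1]; exact Subgroup.one_mem _)
  refine ⟨E, h1, by rw [h2, add_comm], fun x hx => ?_⟩
  have := CA.PGClassTwo.pow_eq_one_of_mem_closure (G := E) h1.1.2.2.le
    (CA.PGClassTwo.odd_of_ne_two Fact.out hp) (g := ⟨x, hx⟩)
    (Subgroup.closure_mono (by rintro _ ⟨i, rfl⟩; exact hp1 i) (hg.ge (Subgroup.mem_top _)))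
  exact congrArg Subtype.val this

end Cfsg.Agent.S3799
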