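import Cfsg.Statements.S3801
import Cfsg.Agent.Lib.Solv.H9Two2

set_option autoImplicit false
open Cfsg

namespace Cfsg.Agent.S3801

/-- Gross's bound on 2-length: if G is a finite solvable group whose Sylow 2-subgroups have exponent dividing 2^e with e ≥ 1, then G has 2-length at most 2e − 1. -/
theorem result {G : Type*} [Group G] [Finite G] (hG : Group.IsSolvable G) (e : ℕ) (he : 1 ≤ e) (hexp : ∀ (P : Sylow 2 G), ∀ x ∈ (P : Subgroup G), x ^ 2 ^ e = 1) : Cfsg.PLengthLE 2 (2 * e - 1) G := by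
  obtain ⟨e, rfl⟩ : ∃ e', e = e' + 1 := ⟨e - 1, by omega⟩
  rw [show 2 * (e + 1) - 1 = 2 * e + 1 by omega]
  refine CA.H9Two.PL_two e G hG fun x hx => ?_
  obtain ⟨S, hS⟩ := CA.HH.le_sylow Nat.prime_two (CA.BG.isPi_zpowers.2 hx)
  exact hexp S x (hS (Subgroup.mem_zpowers x))

end Cfsg.Agent.S3801
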