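import Cfsg.Statements.S3979
import Cfsg.Agent.Lib.Grp.SchurExt

set_option autoImplicit false
open Cfsg

namespace Cfsg.Agent.S3979

/-- A finite cyclic group has trivial Schur multiplier: every finite stem extension of it is an isomorphism, said through `HasCyclicSchurMultiplier G 1`. -/
theorem result {G : Type*} [Group G] [Finite G] [IsCyclic G] : Cfsg.HasCyclicSchurMultiplier G 1 := by
  refine CA.SchurHopf.has_one fun Γ _ _ τ hτ => ?_
  have h := hτ.2.2
  rwa [CA.SchurExt.commutator_eq_bot_of_cyclic hτ.2.1, le_bot_iff] at h

end Cfsg.Agent.S3979
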