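import Cfsg.Statements.S3950
import Cfsg.Agent.Lib.Grp.SchurExt
import Cfsg.Agent.S3979

set_option autoImplicit false
open Cfsg

namespace Cfsg.Agent.S3950

open CA.SchurHopf CA.SchurExt

/-- A finite abelian group has trivial Schur multiplier if and only if it is cyclic. -/
theorem result {G : Type*} [CommGroup G] [Finite G] : Cfsg.HasCyclicSchurMultiplier G 1 ↔ IsCyclic G := by
  refine ⟨fun h => ?_, fun h => Cfsg.Agent.S3979.result⟩
  obtain ⟨ι, _, n, hn, ⟨e⟩⟩ := CommGroup.equiv_prod_multiplicative_zmod_of_finite G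
  have hcop : Pairwise (Function.onFun Nat.Coprime n) := by
    intro i j hij
    classical
    by_contra hc
    obtain ⟨p, hp, h1, h2⟩ := Nat.Prime.not_coprime_iff_dvd.mp hc
    haveI := Fact.mk hp
    let φ : ∀ k, p ∣ n k → G → ZMod p := fun k hk g => ZMod.castHom hk (ZMod p) (e g k).toAdd
    have hφ : ∀ k hk g g', φ k hk (g * g') = φ k hk g + φ k hk g' := fun k hk g g' => by
      simp only [φ, map_mul, Pi.mul_apply, toAdd_mul, map_add]
    let β : G →* G →* Multiplicative (ZMod p) := MonoidHom.mk' (fun g => MonoidHom.mk'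
      (fun g' => Multiplicative.ofAdd (φ i h1 g * φ j h2 g')) fun a b => by
        rw [hφ, mul_add, ofAdd_add]) fun a b => by
        ext c; simp [hφ, add_mul]
    have h3 := mult_eq_bot h (proj β) proj_surj proj_central
    let x := e.symm (Pi.mulSingle i (Multiplicative.ofAdd 1))
    let y := e.symm (Pi.mulSingle j (Multiplicative.ofAdd 1))
    have h4 : inl β (β x y * (β y x)⁻¹) ∈ mult (proj β) := ⟨rfl, inl_mem (Commute.all _ _)⟩
    rw [h3, Subgroup.mem_bot] at h4
    have h5 : β x y * (β y x)⁻¹ = 1 := congrArg Heis.a h4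
    simp [β, φ, x, y, Pi.mulSingle_eq_of_ne hij, Pi.mulSingle_eq_of_ne hij.symm, ZMod.cast_one h1,
      ZMod.cast_one h2] at h5
  have e2 := (ZMod.prodEquivPi n hcop).toAddEquiv.toMultiplicative
  have e3 := (e.trans (MulEquiv.piMultiplicative _).symm).trans e2.symm
  exact isCyclic_of_surjective e3.symm e3.symm.surjective

end Cfsg.Agent.S3950
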