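import Cfsg.Statements.S3951
import Cfsg.Agent.Lib.Grp.SchurExt

set_option autoImplicit false
open Cfsg

namespace Cfsg.Agent.S3951

open CA.SchurHopf CA.SchurExt
open scoped commutatorElement

/-- For positive integers `m` and `n` with `n` dividing `m`, the Schur multiplier of the abelian group `ZMod m × ZMod n` (written multiplicatively) is cyclic of order `n`. In particular the elementary abelian group of order `p ^ 2` has multiplier of order `p`. -/
theorem result (m n : ℕ) [NeZero m] [NeZero n] (hnm : n ∣ m) : Cfsg.HasCyclicSchurMultiplier (Multiplicative (ZMod m × ZMod n)) n := by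
  let β : Multiplicative (ZMod m × ZMod n) →* Multiplicative (ZMod m × ZMod n) →* Multiplicative (ZMod n) :=
    MonoidHom.mk' (fun g => MonoidHom.mk'
      (fun g' => Multiplicative.ofAdd (ZMod.castHom hnm (ZMod n) g.toAdd.1 * g'.toAdd.2)) fun a b => by
        rw [toAdd_mul, Prod.snd_add, mul_add, ofAdd_add]) fun a b => by
        refine MonoidHom.ext fun c => ?_
        simp only [MonoidHom.mk'_apply, MonoidHom.mul_apply, toAdd_mul, Prod.fst_add, map_add, add_mul,
          ofAdd_add]
  have hβ : ∀ g g', β g g' = Multiplicative.ofAdd (ZMod.castHom hnm (ZMod n) g.toAdd.1 * g'.toAdd.2) :=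
    fun _ _ => rfl
  refine has_of_card (σ := proj β) ⟨proj_surj, proj_central, fun x hx => ?_⟩ (kerEquiv β) ?_
  · have := inl_mem (β := β) (Commute.all (Multiplicative.ofAdd (1, 0)) (Multiplicative.ofAdd (0, x.a.toAdd)))
    convert this
    ext1
    · simp [hβ, ZMod.cast_one hnm]
    · exact hx
  · intro Γ _ _ τ hτ
    obtain ⟨x, hx⟩ := hτ.1 (Multiplicative.ofAdd (1, 0))
    obtain ⟨y, hy⟩ := hτ.1 (Multiplicative.ofAdd (0, 1))
    have h1 : τ y * τ x * (τ y)⁻¹ = τ x ^ (1 : ℤ) := by rw [mul_comm (τ y)]; simp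
    have h2 : Subgroup.closure {τ x, τ y} = ⊤ := by
      rw [eq_top_iff]
      rintro g -
      have : g = τ x ^ g.toAdd.1.val * τ y ^ g.toAdd.2.val := by
        rw [hx, hy]
        apply Multiplicative.toAdd.injective
        ext <;> simp
      rw [this]
      exact Subgroup.mul_mem _ (Subgroup.pow_mem _ (Subgroup.subset_closure (by simp)) _)
        (Subgroup.pow_mem _ (Subgroup.subset_closure (by simp)) _)
    have h3 := commutator_eq_zpowers hτ.1 hτ.2.1 h1 h2
    obtain ⟨h4, h5⟩ := conj_comm_eq hτ.2.1 h1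
    have h6 : y ^ n ∈ Subgroup.center Γ := hτ.2.1 (by
      rw [MonoidHom.mem_ker, map_pow, hy]
      apply Multiplicative.toAdd.injective
      ext <;> simp)
    have h7 : Commute y ⁅y, x⁆ := by
      rw [zpow_one, mul_inv_eq_iff_eq_mul] at h5; exact h5
    have h8 : ∀ k : ℕ, ⁅y ^ k, x⁆ = ⁅y, x⁆ ^ k := by
      intro k
      induction k with
      | zero => simp
      | succ k ih =>
        have : ⁅y ^ (k + 1), x⁆ = y * ⁅y ^ k, x⁆ * y⁻¹ * ⁅y, x⁆ := by
          simp only [commutatorElement_def, pow_succ']; group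
        rw [this, ih, (h7.pow_right k).eq, mul_inv_cancel_right, pow_succ]
    have h9 : ⁅y, x⁆ ^ n = 1 := by
      rw [← h8, commutatorElement_eq_one_iff_mul_comm, Subgroup.mem_center_iff.mp h6]
    rw [show Nat.card (Multiplicative (ZMod n)) = n from Nat.card_zmod n]
    exact card_ker_le (d := 1) (h3 ▸ hτ.2.2) (NeZero.pos n) (one_dvd _) fun e _ => by
      rw [mul_comm, pow_mul, h9, one_pow]

end Cfsg.Agent.S3951
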