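import Cfsg.Statements.S3952
import Cfsg.Agent.Lib.Grp.SchurExt
import Cfsg.Agent.Lib.Char.CharOrth

set_option autoImplicit false
open Cfsg

namespace Cfsg.Agent.S3952

open CA.SchurHopf CChar.CharOrth CChar.CharRep CChar.CharFun

theorem central_char {Γ : Type*} [Group Γ] [Finite Γ] {Z : Subgroup Γ} (h1 : Z ≤ Subgroup.center Γ)
    (h2 : Z ≤ commutator Γ) (χ : IrrCharacter Γ) : ∃ (d : ℕ) (μ : Z →* ℂˣ), χ.1 1 = d ∧ μ ^ d = 1 ∧
      ∀ z : Z, χ.1 z = μ z * d := by
  obtain ⟨χ, n, ρ, hρ, rfl⟩ := χ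
  have hs : ∀ z : Z, ∃ c : ℂ, ρ z = c • (1 : (Fin n → ℂ) →ₗ[ℂ] (Fin n → ℂ)) := fun z =>
    exists_eq_smul_of_commute ρ (ρ z) fun g => by
      rw [← map_mul, ← map_mul, Subgroup.mem_center_iff.mp (h1 z.2)]
  choose c hc using hs
  haveI := nontrivial_of_isIrreducible ρ
  have hinj : ∀ a b : ℂ, a • (1 : (Fin n → ℂ) →ₗ[ℂ] (Fin n → ℂ)) = b • 1 → a = b := fun a b h => by
    obtain ⟨v, hv⟩ := exists_ne (0 : Fin n → ℂ)
    exact smul_left_injective ℂ hv (LinearMap.congr_fun h v)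
  let μ : Z →* ℂ := ⟨⟨c, hinj _ _ (by rw [← hc]; simp)⟩, fun a b => hinj _ _ (by
    rw [← hc, Subgroup.coe_mul, map_mul, hc, hc, smul_mul_smul_comm, one_mul])⟩
  refine ⟨n, μ.toHomUnits, by simp, MonoidHom.ext fun z => Units.ext ?_, fun z => ?_⟩
  · have h3 : (LinearMap.det.comp ρ).toHomUnits z = 1 :=
      Abelianization.commutator_subset_ker _ (h2 z.2)
    have h4 : LinearMap.det (ρ z) = 1 := congrArg Units.val h3
    rw [hc, LinearMap.det_smul] at h4
    simpa [μ] using h4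
  · show LinearMap.trace ℂ _ (ρ z) = c z * n
    rw [hc, map_smul]; simp

/-- If `A` is the Schur multiplier of the finite group `Q`, then the square of the exponent of `A` divides the order of `Q`. -/
theorem result {Q : Type*} [Group Q] [Finite Q] {A : Type*} [CommGroup A] (hA : Cfsg.HasSchurMultiplier Q A) : Monoid.exponent A ^ 2 ∣ Nat.card Q := by
  classical
  obtain ⟨⟨Γ, _, _, σ, hσ, ⟨e⟩⟩, -⟩ := hA
  letI : CommGroup σ.ker := { (inferInstance : Group σ.ker) with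
    mul_comm := fun a b => Subtype.ext (Subgroup.mem_center_iff.mp (hσ.2.1 b.2) a.1) }
  obtain ⟨e1⟩ := CommGroup.monoidHom_mulEquiv_of_hasEnoughRootsOfUnity σ.ker ℂ
  haveI : Finite A := Finite.of_equiv _ e.toEquiv
  obtain ⟨a, ha⟩ := Monoid.exists_orderOf_eq_exponent (G := A) Monoid.ExponentExists.of_finite
  set lam := (e1.trans e).symm a
  have hl : orderOf lam = Monoid.exponent A := by rw [← ha]; exact MulEquiv.orderOf_eq _ _
  choose d μ hd hμ hχ using central_char hσ.2.1 hσ.2.2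
  haveI := Fintype.ofFinite σ.ker
  have h1 : ∑ z : σ.ker, regChar Γ z * (lam⁻¹ z : ℂˣ) = Nat.card Γ := by
    rw [Finset.sum_eq_single 1 (fun z _ hz => by
      rw [regChar_of_ne (fun h => hz (Subtype.ext h)), zero_mul]) (by simp)]
    simp [regChar_one]
  have h2 : ∑ z : σ.ker, regChar Γ z * (lam⁻¹ z : ℂˣ) =
      Nat.card σ.ker * ∑ χ : IrrCharacter Γ with μ χ = lam, (d χ : ℂ) ^ 2 := by
    simp only [← sum_degree_mul_apply, Finset.sum_mul]
    rw [Finset.sum_comm, Finset.sum_filter, Finset.mul_sum]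
    refine Finset.sum_congr rfl fun χ _ => ?_
    have h3 : ∀ z : σ.ker, χ.1 1 * χ.1 z * (lam⁻¹ z : ℂˣ) =
        (d χ : ℂ) ^ 2 * ((Units.coeHom ℂ).comp (μ χ * lam⁻¹)) z := fun z => by
      rw [hd, hχ]; simp; ring
    simp only [h3, ← Finset.mul_sum]
    rw [sum_hom_units]
    by_cases h : μ χ = lam
    · rw [if_pos h, if_pos (by ext z; simp [h]), Nat.card_eq_fintype_card, mul_comm]
    · rw [if_neg h, if_neg, Nat.cast_zero, mul_zero, mul_zero]
      intro h4
      apply h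
      rw [← mul_inv_eq_one]
      exact MonoidHom.ext fun z => Units.ext (DFunLike.congr_fun h4 z)
  have h3 : Nat.card Q = ∑ χ : IrrCharacter Γ with μ χ = lam, (d χ) ^ 2 := by
    have h4 := Subgroup.card_mul_index σ.ker
    rw [Subgroup.index_ker, MonoidHom.range_eq_top.mpr hσ.1, Subgroup.card_top] at h4
    rw [h2, ← h4, Nat.cast_mul, mul_right_inj' (Nat.cast_ne_zero.mpr Nat.card_pos.ne')] at h1
    exact_mod_cast h1.symm
  rw [h3, ← hl]
  refine Finset.dvd_sum fun χ hχ => pow_dvd_pow_of_dvd (orderOf_dvd_of_pow_eq_one ?_) 2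
  rw [← (Finset.mem_filter.mp hχ).2, hμ]

end Cfsg.Agent.S3952
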