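import Cfsg.Statements.S3953
import Cfsg.Agent.Lib.Grp.SchurTr

set_option autoImplicit false
open Cfsg

namespace Cfsg.Agent.S3953

open CA.SchurHopf CA.SchurExt CA.SchurTr

/-- Let `P` be a Sylow `p`-subgroup of the finite group `G`, let `A` be the Schur multiplier of `G` and `B` that of `P`. Then the `p`-primary component of `A` is isomorphic to a direct factor of `B`: there are subgroups `C` and `D` of `B` meeting trivially and generating `B`, with `C` isomorphic to the `p`-primary component of `A`. -/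
theorem result {G : Type*} [Group G] [Finite G] (p : ℕ) [Fact p.Prime] (P : Sylow p G) {A B : Type*} [CommGroup A] [CommGroup B] (hA : Cfsg.HasSchurMultiplier G A) (hB : Cfsg.HasSchurMultiplier P B) : ∃ C D : Subgroup B, C ⊓ D = ⊥ ∧ C ⊔ D = ⊤ ∧ Nonempty (CommGroup.primaryComponent A p ≃* C) := by
  obtain ⟨tr, cor, h⟩ := exists_tr_cor hA hB
  have hp : p.Prime := Fact.out
  have hcop : Nat.Coprime (P : Subgroup G).index p :=
    ((Nat.Prime.coprime_iff_not_dvd hp).mpr P.not_dvd_index).symm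
  have key : ∀ (a : A) (k : ℕ), a ^ p ^ k = 1 → Nat.Coprime (P : Subgroup G).index (orderOf a) :=
    fun a k hk => (hcop.pow_right k).coprime_dvd_right (orderOf_dvd_of_pow_eq_one hk)
  have hmem : ∀ a : A, a ∈ CommGroup.primaryComponent A p ↔ ∃ k, a ^ p ^ k = 1 := fun a =>
    Iff.rfl
  have hinj : ∀ a ∈ CommGroup.primaryComponent A p, cor (tr a) = 1 → a = 1 := by
    intro a ha h1
    obtain ⟨k, hk⟩ := (hmem a).mp ha
    obtain ⟨m, hm⟩ := exists_pow_eq_self_of_coprime (key a k hk)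
    rw [← hm, ← h, h1, one_pow]
  refine ⟨(CommGroup.primaryComponent A p).map tr, cor.ker, ?_, ?_, ?_⟩
  · rw [eq_bot_iff]
    rintro _ ⟨⟨a, ha, rfl⟩, h1⟩
    rw [hinj a ha h1, map_one]; exact Subgroup.one_mem _
  · rw [eq_top_iff]
    rintro b -
    obtain ⟨k, hk⟩ := P.isPGroup'.exists_card_eq
    have h1 : cor b ^ p ^ k = 1 := by
      rw [← map_pow, ← hk, pow_card_eq_one hB, map_one]
    obtain ⟨m, hm⟩ := exists_pow_eq_self_of_coprime (key _ k h1)
    rw [show b = tr (cor b ^ m) * ((tr (cor b ^ m))⁻¹ * b) by group]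
    refine Subgroup.mul_mem_sup ⟨_, Subgroup.pow_mem _ ((hmem _).mpr ⟨k, h1⟩) m, rfl⟩ ?_
    rw [MonoidHom.mem_ker, map_mul, map_inv, h, ← pow_mul, mul_comm m, pow_mul, hm, inv_mul_cancel]
  · obtain ⟨e, -⟩ := equiv_of_map_inj (K := CommGroup.primaryComponent A p) tr rfl (by
      rw [eq_bot_iff]
      rintro a ⟨h1, ha⟩
      exact hinj a ha (by rw [show tr a = 1 from h1, map_one]))
    exact ⟨e⟩

end Cfsg.Agent.S3953
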