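import Cfsg.Statements.S3955
import Cfsg.Agent.Lib.Grp.SchurTr
import Cfsg.Agent.Lib.Char.Proj

set_option autoImplicit false
open Cfsg

namespace Cfsg.Agent.S3955

open CA.SchurHopf CA.SchurExt CA.SchurTr

/-- Let `Q` be a finite group with Schur multiplier `A`, and let `σ : Γ →* Q` be a finite stem extension whose kernel is isomorphic to `A` (a Schur covering group of `Q`). Then every homomorphism `γ` from `Q` to the quotient of `GL n ℂ` by its centre lifts along `σ`: there is a homomorphism `ρ : Γ →* GL n ℂ` which, followed by the quotient map, equals `γ ∘ σ`. -/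
theorem result {Q : Type*} [Group Q] [Finite Q] {A : Type*} [CommGroup A] (hA : Cfsg.HasSchurMultiplier Q A) {Γ : Type*} [Group Γ] [Finite Γ] (σ : Γ →* Q) (hσ : Cfsg.IsStemExtension σ) (hk : Nonempty (σ.ker ≃* A)) (n : ℕ) (γ : Q →* (GL (Fin n) ℂ ⧸ Subgroup.center (GL (Fin n) ℂ))) : ∃ ρ : Γ →* GL (Fin n) ℂ, (QuotientGroup.mk' (Subgroup.center (GL (Fin n) ℂ))).comp ρ = γ.comp σ := by
  rcases Nat.eq_zero_or_pos n with rfl | hn
  · exact ⟨1, MonoidHom.ext fun _ => Subsingleton.elim _ _⟩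
  haveI : Nonempty (Fin n) := ⟨⟨0, hn⟩⟩
  obtain ⟨φ, hφ⟩ := exists_lift (can Q) σ hσ.1 hσ.2.1
  have hs := pE_surj (can_surj Q)
  have h1 : Function.Surjective φ := surj_of_stem hσ φ (hφ ▸ hs)
  have h4 := map_mult hσ.2.1 φ (hφ ▸ hs)
  rw [hφ, mult_eq_ker hσ] at h4
  obtain ⟨f, hf, hf2⟩ := exists_surj_of_map φ h4
  obtain ⟨e⟩ := hk
  obtain ⟨e'⟩ := unique (has_can Q) hA
  haveI := finite_right (has_can Q)
  have hinj := (equiv_of_surj_of_card_le f hf (Nat.card_congr (e'.trans e.symm).toEquiv).le).1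
  have hker : ∀ k ∈ φ.ker, pE (can Q) k = 1 := fun k hk => by
    rw [← hφ, MonoidHom.comp_apply, show φ k = 1 from hk, map_one]
  -- lift through the free group
  obtain ⟨l0, hl0⟩ := exists_lift (γ.comp (can Q)) (QuotientGroup.mk' _) (QuotientGroup.mk'_surjective _)
    (QuotientGroup.ker_mk' _).le
  let l : E (can Q) →* GL (Fin n) ℂ := l0.comp (QuotientGroup.map _ _ (MonoidHom.id _)
    (Subgroup.commutator_mono (fun x hx => by
      rw [MonoidHom.mem_ker, MonoidHom.comp_apply, show can Q x = 1 from hx, map_one]) le_top))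
  have hl : ∀ x, ((l x : GL (Fin n) ℂ) : GL (Fin n) ℂ ⧸ Subgroup.center _) = γ (pE _ x) := fun x => by
    obtain ⟨x, rfl⟩ := QuotientGroup.mk_surjective x
    exact DFunLike.congr_fun hl0 (x : E (γ.comp (can Q)))
  have hsc : Function.Injective (Matrix.GeneralLinearGroup.scalar (Fin n) : ℂˣ →* GL (Fin n) ℂ) :=
    fun a b h => Units.ext (Matrix.scalar_inj.mp (congrArg Units.val h))
  have hmem : ∀ k : φ.ker, (l.comp φ.ker.subtype) k ∈
      (Matrix.GeneralLinearGroup.scalar (Fin n) : ℂˣ →* GL (Fin n) ℂ).range := fun k => by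
    rw [← Matrix.GeneralLinearGroup.center_eq_range_scalar, ← QuotientGroup.eq_one_iff]
    exact (hl k).trans (by rw [hker k k.2, map_one])
  let χ : φ.ker →* ℂˣ := (MonoidHom.ofInjective hsc).symm.toMonoidHom.comp
    ((l.comp φ.ker.subtype).codRestrict _ hmem)
  have hχ : ∀ k : φ.ker, Matrix.GeneralLinearGroup.scalar (Fin n) (χ k) = l k := fun k =>
    MonoidHom.apply_ofInjective_symm hsc _
  obtain ⟨ψ, hψ, -⟩ := CA.Proj.exists_extend φ.ker.subtype (commutator _) le_rfl χ fun k hk => by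
    have h5 : (⟨k, hker k k.2, hk⟩ : M (can Q)) = 1 := hinj (Subtype.ext (by
      rw [hf2, map_one]; exact k.2))
    have h6 : (k : E (can Q)) = 1 := congrArg Subtype.val h5
    rw [show k = 1 from Subtype.ext h6, map_one]
  have hz : ∀ a : ℂˣ, Matrix.GeneralLinearGroup.scalar (Fin n) a ∈ Subgroup.center (GL (Fin n) ℂ) :=
    fun a => by rw [Matrix.GeneralLinearGroup.center_eq_range_scalar]; exact ⟨a, rfl⟩
  have hc : ∀ (a : ℂˣ) (g : GL (Fin n) ℂ), g * Matrix.GeneralLinearGroup.scalar (Fin n) a =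
      Matrix.GeneralLinearGroup.scalar (Fin n) a * g := fun a g =>
    Subgroup.mem_center_iff.mp (hz a) g
  let l' : E (can Q) →* GL (Fin n) ℂ := MonoidHom.mk'
    (fun x => Matrix.GeneralLinearGroup.scalar (Fin n) (ψ x)⁻¹ * l x) fun a b => by
      rw [map_mul, map_mul, mul_inv, map_mul, mul_assoc, mul_assoc, ← mul_assoc (l a), hc, mul_assoc]
  obtain ⟨ρ, hρ⟩ := exists_factor φ h1 l' fun k hk => by
    show Matrix.GeneralLinearGroup.scalar (Fin n) (ψ k)⁻¹ * l k = 1
    rw [← hχ ⟨k, hk⟩, ← hψ, map_inv]; exact inv_mul_cancel _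
  refine ⟨ρ, MonoidHom.ext fun g => ?_⟩
  obtain ⟨x, rfl⟩ := h1 g
  rw [MonoidHom.comp_apply, hρ, MonoidHom.comp_apply, ← MonoidHom.comp_apply σ φ, hφ, ← hl]
  show ((Matrix.GeneralLinearGroup.scalar (Fin n) (ψ x)⁻¹ * l x : GL (Fin n) ℂ) :
    GL (Fin n) ℂ ⧸ Subgroup.center _) = _
  rw [QuotientGroup.mk_mul, (QuotientGroup.eq_one_iff _).mpr (hz _), one_mul]

end Cfsg.Agent.S3955
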