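import Cfsg.Statements.S3956
import Cfsg.Agent.Lib.Grp.SchurTr
import Cfsg.Agent.Lib.Char.CharKer

set_option autoImplicit false
universe u v
open Cfsg

namespace Cfsg.Agent.S3956

open CA.SchurHopf CA.SchurExt CA.SchurTr

theorem exists_sep {Γ : Type*} [Group Γ] [Finite Γ] {z : Γ} (hz : z ≠ 1) :
    ∃ (n : ℕ) (ρ : Γ →* GL (Fin n) ℂ), ρ z ≠ 1 ∧
      Subgroup.center Γ ≤ (Subgroup.center (GL (Fin n) ℂ)).comap ρ := by
  by_contra hcon
  refine hz (CChar.CharKer.eq_one_of_forall_irr ?_)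
  rintro _ ⟨n, ρ, hρ, rfl⟩
  let ρ' : Γ →* GL (Fin n) ℂ :=
    ((LinearMap.toMatrixAlgEquiv' (R := ℂ) (n := Fin n)).toMulEquiv.toMonoidHom.comp ρ).toHomUnits
  have h1 : ρ' z = 1 := by
    by_contra h
    refine hcon ⟨n, ρ', h, fun y hy => ?_⟩
    obtain ⟨c, hc⟩ := CChar.CharRep.exists_eq_smul_of_commute ρ (ρ y) fun g => by
      rw [← map_mul, ← map_mul, Subgroup.mem_center_iff.mp hy]
    rw [Subgroup.mem_comap, Matrix.GeneralLinearGroup.mem_center_iff_val_mem_range_scalar]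
    refine ⟨c, ?_⟩
    show _ = LinearMap.toMatrixAlgEquiv' (ρ y)
    rw [hc, map_smul, map_one, Matrix.scalar_apply, Matrix.smul_one_eq_diagonal]
  have h2 : LinearMap.toMatrixAlgEquiv' (ρ z) = 1 := congrArg Units.val h1
  rw [map_eq_one_iff _ (AlgEquiv.injective _)] at h2
  show LinearMap.trace ℂ _ (ρ z) = LinearMap.trace ℂ _ (ρ 1)
  rw [h2, map_one ρ]

/-- Let `σ : Γ →* Q` be a finite stem extension of the finite group `Q` such that every homomorphism from `Q` to the quotient of `GL n ℂ` by its centre, for every `n`, lifts along `σ` to a homomorphism `Γ →* GL n ℂ`. Then `σ` is a Schur covering group of `Q`: for every finite stem extension `τ : Δ →* Q` with `Δ` in the same universe as `Q`, the kernel of `τ` is a homomorphic image of the kernel of `σ`. -/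
theorem result {Q : Type u} [Group Q] [Finite Q] {Γ : Type v} [Group Γ] [Finite Γ] (σ : Γ →* Q) (hσ : Cfsg.IsStemExtension σ) (hlift : ∀ (n : ℕ) (γ : Q →* (GL (Fin n) ℂ ⧸ Subgroup.center (GL (Fin n) ℂ))), ∃ ρ : Γ →* GL (Fin n) ℂ, (QuotientGroup.mk' (Subgroup.center (GL (Fin n) ℂ))).comp ρ = γ.comp σ) (Δ : Type u) [Group Δ] [Finite Δ] (τ : Δ →* Q) (hτ : Cfsg.IsStemExtension τ) : ∃ π : σ.ker →* τ.ker, Function.Surjective π := by
  obtain ⟨φ, hφ⟩ := exists_lift (can Q) σ hσ.1 hσ.2.1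
  have hs := pE_surj (can_surj Q)
  have h4 := map_mult hσ.2.1 φ (hφ ▸ hs)
  rw [hφ, mult_eq_ker hσ] at h4
  obtain ⟨⟨Γ₀, _, _, σ₀, hσ₀, ⟨e₀⟩⟩, -⟩ := has_can Q
  obtain ⟨φ₀, hφ₀⟩ := exists_lift (can Q) σ₀ hσ₀.1 hσ₀.2.1
  have h5 := map_mult hσ₀.2.1 φ₀ (hφ₀ ▸ hs)
  rw [hφ₀, mult_eq_ker hσ₀] at h5
  obtain ⟨f, hf, hf2⟩ := exists_surj_of_map φ₀ h5
  haveI := finite_right (has_can Q)
  have hinj := (equiv_of_surj_of_card_le f hf (Nat.card_congr e₀.toEquiv).ge).1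
  obtain ⟨e, -⟩ := equiv_of_map_inj φ h4 (by
    rw [eq_bot_iff]
    rintro m ⟨h1, h2⟩
    by_contra h3
    have h6 : φ₀ m ≠ 1 := fun h => h3 (congrArg Subtype.val (show (⟨m, h2⟩ : M (can Q)) = 1 from
      hinj (Subtype.ext (by rw [hf2, map_one]; exact h))))
    obtain ⟨n, ρ₀, h7, h8⟩ := exists_sep h6
    obtain ⟨γ, hγ⟩ := exists_factor σ₀ hσ₀.1 ((QuotientGroup.mk' (Subgroup.center _)).comp ρ₀)
      fun x hx => (QuotientGroup.eq_one_iff _).mpr (h8 (hσ₀.2.1 hx))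
    obtain ⟨ρ, hρ⟩ := hlift n γ
    have h9 := eq_on_commutator (QuotientGroup.ker_mk' (Subgroup.center (GL (Fin n) ℂ))).le
      (φ := ρ₀.comp φ₀) (ψ := ρ.comp φ) (by
        rw [← MonoidHom.comp_assoc, ← MonoidHom.comp_assoc, hρ, MonoidHom.comp_assoc φ, hφ, ← hφ₀]
        exact MonoidHom.ext fun x => (hγ _).symm) h2.2
    apply h7
    rw [← MonoidHom.comp_apply, h9, MonoidHom.comp_apply, show φ m = 1 from h1, map_one])
  obtain ⟨g, hg⟩ := surj_stem (has_can Q) hτ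
  exact ⟨g.comp e.symm.toMonoidHom, hg.comp e.symm.surjective⟩

end Cfsg.Agent.S3956
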