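import Cfsg.Statements.S3959
import Cfsg.Agent.Lib.Grp.SchurExt

set_option autoImplicit false
universe u v w
open Cfsg

namespace Cfsg.Agent.S3959

open CA.SchurHopf CA.SchurExt
open scoped commutatorElement TensorProduct

/-- the tensor product of the abelianizations -/
abbrev T (Q₁ Q₂ : Type*) [Group Q₁] [Group Q₂] :=
  Multiplicative (TensorProduct ℤ (Additive (Abelianization Q₁)) (Additive (Abelianization Q₂)))

/-- pure tensors -/
def tm {Q₁ Q₂ : Type*} [Group Q₁] [Group Q₂] (a : Q₁) (b : Q₂) : T Q₁ Q₂ :=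
  Multiplicative.ofAdd (Additive.ofMul (Abelianization.of a) ⊗ₜ[ℤ] Additive.ofMul (Abelianization.of b))

section
variable {Q₁ Q₂ : Type*} [Group Q₁] [Group Q₂]

theorem tm_mul_left (a a' : Q₁) (b : Q₂) : tm (a * a') b = tm a b * tm a' b := by
  simp only [tm, map_mul, ofMul_mul, TensorProduct.add_tmul, ofAdd_add]

theorem tm_mul_right (a : Q₁) (b b' : Q₂) : tm a (b * b') = tm a b * tm a b' := by
  simp only [tm, map_mul, ofMul_mul, TensorProduct.tmul_add, ofAdd_add]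

theorem tm_one_left (b : Q₂) : tm (1 : Q₁) b = 1 := by simp [tm]

theorem tm_one_right (a : Q₁) : tm a (1 : Q₂) = 1 := by simp [tm]

theorem tm_gen (H : Subgroup (T Q₁ Q₂)) (h : ∀ a b, tm a b ∈ H) (t : T Q₁ Q₂) : t ∈ H := by
  have : ∀ s, Multiplicative.ofAdd s ∈ H := fun s => by
    induction s using TensorProduct.induction_on with
    | zero => exact H.one_mem
    | tmul x y =>
      obtain ⟨a, ha⟩ : ∃ a, Abelianization.of a = x.toMul := Quot.mk_surjective _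
      obtain ⟨b, hb⟩ : ∃ b, Abelianization.of b = y.toMul := Quot.mk_surjective _
      have := h a b
      rwa [tm, ha, hb] at this
    | add x y hx hy => exact H.mul_mem hx hy
  exact this t.toAdd

theorem exists_tensor_lift {C : Type*} [CommGroup C] (f : Q₁ →* Q₂ →* C) :
    ∃ g : T Q₁ Q₂ →* C, ∀ a b, g (tm a b) = f a b := by
  let f1 : Abelianization Q₁ →* Abelianization Q₂ →* C :=
    Abelianization.lift (MonoidHom.mk' (fun a => Abelianization.lift (f a)) fun a b => by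
      ext; simp)
  let f2 : Additive (Abelianization Q₁) →+ Additive (Abelianization Q₂) →+ Additive C :=
    AddMonoidHom.mk' (fun a => MonoidHom.toAdditive (f1 a.toMul)) fun a b => by
      ext; simp
  let f3 := TensorProduct.liftAddHom (R := ℤ) f2 (fun r a b => by
    simp only [map_zsmul, AddMonoidHom.smul_apply])
  exact ⟨AddMonoidHom.toMultiplicativeLeft f3, fun a b => rfl⟩

instance finT [Finite Q₁] [Finite Q₂] : Finite (T Q₁ Q₂) := by
  haveI : Group.FG (T Q₁ Q₂) := Group.fg_iff.mpr ⟨Set.range fun x : Q₁ × Q₂ => tm x.1 x.2,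
    eq_top_iff.mpr fun t _ => tm_gen _ (fun a b => Subgroup.subset_closure (Set.mem_range_self (a, b))) t,
    Set.finite_range _⟩
  refine CommGroup.finite_of_fg_torsion _ fun t => ?_
  refine tm_gen (CommGroup.torsion (T Q₁ Q₂)) (fun a b => ?_) t
  exact MonoidHom.isOfFinOrder (MonoidHom.mk' (fun a : Q₁ => tm a b) fun x y => tm_mul_left x y b)
    (isOfFinOrder_of_finite a)

end

/-- Let `Q₁` and `Q₂` be finite groups with Schur multipliers `A` and `B`. Then the Schur multiplier of `Q₁ × Q₂` is isomorphic to `A × B × (Q₁ᵃᵇ ⊗ Q₂ᵃᵇ)`, the last factor being the tensor product over the integers of the commutator quotients, written multiplicatively. -/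
theorem result {Q₁ : Type u} {Q₂ : Type v} [Group Q₁] [Group Q₂] [Finite Q₁] [Finite Q₂] {A B : Type w} [CommGroup A] [CommGroup B] (hA : Cfsg.HasSchurMultiplier Q₁ A) (hB : Cfsg.HasSchurMultiplier Q₂ B) : Cfsg.HasSchurMultiplier (Q₁ × Q₂) (A × B × Multiplicative (TensorProduct ℤ (Additive (Abelianization Q₁)) (Additive (Abelianization Q₂)))) := by
  obtain ⟨⟨Γ₁, _, _, σ₁, h₁, ⟨e₁⟩⟩, -⟩ := id hA
  obtain ⟨⟨Γ₂, _, _, σ₂, h₂, ⟨e₂⟩⟩, -⟩ := id hB
  let β : Γ₁ × Γ₂ →* Γ₁ × Γ₂ →* T Q₁ Q₂ := MonoidHom.mk' (fun x => MonoidHom.mk'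
    (fun y => tm (σ₁ x.1) (σ₂ y.2)) fun a b => by simp [tm_mul_right]) fun a b =>
      MonoidHom.ext fun c => by simp [tm_mul_left]
  have hβ : ∀ x y, β x y = tm (σ₁ x.1) (σ₂ y.2) := fun _ _ => rfl
  let σ : Heis β →* Q₁ × Q₂ := (σ₁.prodMap σ₂).comp (proj β)
  have hσ : ∀ x, x ∈ σ.ker ↔ σ₁ x.g.1 = 1 ∧ σ₂ x.g.2 = 1 := fun x => Prod.ext_iff
  let i₁ : Γ₁ →* Heis β := MonoidHom.mk' (fun a => ⟨1, (a, 1)⟩) fun a b => by
    ext <;> simp [hβ, tm_one_right]
  let i₂ : Γ₂ →* Heis β := MonoidHom.mk' (fun a => ⟨1, (1, a)⟩) fun a b => by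
    ext <;> simp [hβ, tm_one_left]
  refine has_of_card (σ := σ) ⟨?_, ?_, ?_⟩ ?_ ?_
  · rintro ⟨q₁, q₂⟩
    obtain ⟨a, rfl⟩ := h₁.1 q₁
    obtain ⟨b, rfl⟩ := h₂.1 q₂
    exact ⟨⟨1, (a, b)⟩, rfl⟩
  · intro x hx
    obtain ⟨h3, h4⟩ := (hσ x).mp hx
    rw [Subgroup.mem_center_iff]
    intro y
    ext
    · simp [hβ, h3, h4, tm_one_left, tm_one_right, mul_comm]
    · exact Subgroup.mem_center_iff.mp (h₁.2.1 h3) _
    · exact Subgroup.mem_center_iff.mp (h₂.2.1 h4) _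
  · intro x hx
    obtain ⟨h3, h4⟩ := (hσ x).mp hx
    have : x = inl β x.a * i₁ x.g.1 * i₂ x.g.2 := by
      ext <;> simp [hβ, i₁, i₂, h3, h4, tm_one_left, tm_one_right]
    rw [this]
    refine Subgroup.mul_mem _ (Subgroup.mul_mem _ ?_ ?_) ?_
    · refine tm_gen ((commutator _).comap (inl β)) (fun a b => ?_) _
      obtain ⟨a, rfl⟩ := h₁.1 a
      obtain ⟨b, rfl⟩ := h₂.1 b
      have := inl_mem (β := β) (g := (a, 1)) (h := (1, b)) (by ext <;> simp)
      simpa [hβ, tm_one_left] using this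
    · have := Subgroup.mem_map_of_mem i₁ (h₁.2.2 h3)
      rw [commutator_def, Subgroup.map_commutator] at this
      exact Subgroup.commutator_mono le_top le_top this
    · have := Subgroup.mem_map_of_mem i₂ (h₂.2.2 h4)
      rw [commutator_def, Subgroup.map_commutator] at this
      exact Subgroup.commutator_mono le_top le_top this
  · refine MulEquiv.trans ?_ (e₁.prodCongr (e₂.prodCongr (MulEquiv.refl _)))
    exact
      { toFun := fun x => (⟨x.1.g.1, ((hσ _).mp x.2).1⟩, ⟨x.1.g.2, ((hσ _).mp x.2).2⟩, x.1.a)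
        invFun := fun y => ⟨⟨y.2.2, (y.1, y.2.1)⟩, (hσ _).mpr ⟨y.1.2, y.2.1.2⟩⟩
        left_inv := fun _ => rfl
        right_inv := fun _ => rfl
        map_mul' := fun x y => Prod.ext rfl (Prod.ext rfl (by
          simp [hβ, ((hσ _).mp x.2).1, tm_one_left])) }
  · intro Γ _ _ τ hτ
    letI : CommGroup τ.ker := { (inferInstance : Group τ.ker) with
      mul_comm := fun a b => Subtype.ext (Subgroup.mem_center_iff.mp (hτ.2.1 b.2) a.1) }
    let H₁ : Subgroup (Q₁ × Q₂) := (MonoidHom.inl Q₁ Q₂).range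
    let H₂ : Subgroup (Q₁ × Q₂) := (MonoidHom.inr Q₁ Q₂).range
    have hA' := congr_left hA (MonoidHom.ofInjective (f := MonoidHom.inl Q₁ Q₂)
      fun a b h => congrArg Prod.fst h)
    have hB' := congr_left hB (MonoidHom.ofInjective (f := MonoidHom.inr Q₁ Q₂)
      fun a b h => congrArg Prod.snd h)
    obtain ⟨f₁, hf₁⟩ := surj_mult hA' _ (res_surj hτ.1 H₁) (res_central hτ.2.1 H₁)
    obtain ⟨f₂, hf₂⟩ := surj_mult hB' _ (res_surj hτ.1 H₂) (res_central hτ.2.1 H₂)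
    choose s hs using hτ.1
    have hk : ∀ a b, ⁅s (a, 1), s (1, b)⁆ ∈ τ.ker := fun a b => by
      rw [MonoidHom.mem_ker, map_commutatorElement, hs, hs, commutatorElement_eq_one_iff_mul_comm]
      simp
    have hcen : ∀ a b g, g * ⁅s (a, 1), s (1, b)⁆ = ⁅s (a, 1), s (1, b)⁆ * g := fun a b g =>
      Subgroup.mem_center_iff.mp (hτ.2.1 (hk a b)) g
    obtain ⟨f₃, hf₃⟩ := exists_tensor_lift (C := τ.ker) (MonoidHom.mk' (fun a => MonoidHom.mk'
      (fun b => ⟨_, hk a b⟩) fun b b' => Subtype.ext (by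
        show ⁅s (a, 1), s (1, b * b')⁆ = ⁅s (a, 1), s (1, b)⁆ * ⁅s (a, 1), s (1, b')⁆
        rw [comm_eq_of_map_eq hτ.2.1 (a' := s (a, 1)) (b' := s (1, b) * s (1, b')) rfl (by simp [hs])]
        have : ⁅s (a, 1), s (1, b) * s (1, b')⁆ =
            ⁅s (a, 1), s (1, b)⁆ * (s (1, b) * ⁅s (a, 1), s (1, b')⁆ * (s (1, b))⁻¹) := by
          simp only [commutatorElement_def]; group
        rw [this, hcen a b' (s (1, b)), mul_inv_cancel_right])) fun a a' =>
      MonoidHom.ext fun b => Subtype.ext (by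
        show ⁅s (a * a', 1), s (1, b)⁆ = ⁅s (a, 1), s (1, b)⁆ * ⁅s (a', 1), s (1, b)⁆
        rw [comm_eq_of_map_eq hτ.2.1 (a' := s (a, 1) * s (a', 1)) (b' := s (1, b)) (by simp [hs]) rfl]
        have : ⁅s (a, 1) * s (a', 1), s (1, b)⁆ =
            s (a, 1) * ⁅s (a', 1), s (1, b)⁆ * (s (a, 1))⁻¹ * ⁅s (a, 1), s (1, b)⁆ := by
          simp only [commutatorElement_def]; group
        rw [this, hcen a' b (s (a, 1)), mul_inv_cancel_right, hcen]))
    haveI := finite_right hA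
    haveI := finite_right hB
    let K₁ := ⁅H₁.comap τ, H₁.comap τ⁆
    let K₂ := ⁅H₂.comap τ, H₂.comap τ⁆
    let K₃ := f₃.range.map τ.ker.subtype
    haveI : H₁.Normal := by
      refine ⟨?_⟩
      rintro _ ⟨a, rfl⟩ g
      exact ⟨g.1 * a * g.1⁻¹, by ext <;> simp⟩
    haveI : H₂.Normal := by
      refine ⟨?_⟩
      rintro _ ⟨a, rfl⟩ g
      exact ⟨g.2 * a * g.2⁻¹, by ext <;> simp⟩
    have hK₃ : K₃ ≤ τ.ker := Subgroup.map_subtype_le _
    haveI : K₃.Normal := normal_of_central (hK₃.trans hτ.2.1)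
    have hle : commutator Γ ≤ K₁ ⊔ K₂ ⊔ K₃ := by
      refine commutator_le_of_gens (fun g => ⟨s g, hs g⟩) hτ.2.1
        (S := (H₁.comap τ : Set Γ) ∪ H₂.comap τ) ?_ _ ?_
      · rw [eq_top_iff]
        rintro ⟨a, b⟩ -
        rw [show (a, b) = (a, 1) * (1, b) by simp]
        exact Subgroup.mul_mem _ (Subgroup.subset_closure ⟨s (a, 1), Or.inl ⟨a, (hs _).symm⟩, hs _⟩)
          (Subgroup.subset_closure ⟨s (1, b), Or.inr ⟨b, (hs _).symm⟩, hs _⟩)
      · have h3 : ∀ x ∈ H₁.comap τ, ∀ y ∈ H₂.comap τ, ⁅x, y⁆ ∈ K₁ ⊔ K₂ ⊔ K₃ := by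
          rintro x ⟨a, ha⟩ y ⟨b, hb⟩
          refine Subgroup.mem_sup_right ⟨_, ⟨tm a b, hf₃ a b⟩, ?_⟩
          exact comm_eq_of_map_eq hτ.2.1 ((hs _).trans ha) ((hs _).trans hb)
        rintro x (hx | hx) y (hy | hy)
        · exact Subgroup.mem_sup_left (Subgroup.mem_sup_left (Subgroup.commutator_mem_commutator hx hy))
        · exact h3 x hx y hy
        · rw [← commutatorElement_inv]; exact Subgroup.inv_mem _ (h3 y hy x hx)
        · exact Subgroup.mem_sup_left (Subgroup.mem_sup_right (Subgroup.commutator_mem_commutator hx hy))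
    refine Nat.card_le_card_of_surjective (fun x : A × B × T Q₁ Q₂ =>
      (⟨(f₁ x.1).1.1, mem_ker_res.mp (f₁ x.1).2.1⟩ * ⟨(f₂ x.2.1).1.1, mem_ker_res.mp (f₂ x.2.1).2.1⟩ *
        f₃ x.2.2 : τ.ker)) ?_
    rintro ⟨z, hz⟩
    have h4 := hle (hτ.2.2 hz)
    rw [← SetLike.mem_coe, Subgroup.mul_normal] at h4
    obtain ⟨y, hy, _, ⟨_, ⟨t, rfl⟩, rfl⟩, rfl⟩ := h4
    rw [Subgroup.mul_normal] at hy
    obtain ⟨a, ha, b, hb, rfl⟩ := hy
    obtain ⟨a', ha'⟩ : τ a ∈ H₁ := Subgroup.commutator_le_self (H₁.comap τ) ha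
    obtain ⟨b', hb'⟩ : τ b ∈ H₂ := Subgroup.commutator_le_self (H₂.comap τ) hb
    have h5 : τ a * τ b = 1 := by
      rw [← map_mul]
      simpa using τ.ker.mul_mem hz (τ.ker.inv_mem (f₃ t).2)
    rw [← ha', ← hb', Prod.ext_iff] at h5
    simp only [MonoidHom.inl_apply, MonoidHom.inr_apply, Prod.mk_mul_mk, mul_one, one_mul,
      Prod.fst_one, Prod.snd_one] at h5
    have h6 : a ∈ τ.ker ⊓ K₁ := ⟨show τ a = 1 by rw [← ha', h5.1, map_one], ha⟩
    have h7 : b ∈ τ.ker ⊓ K₂ := ⟨show τ b = 1 by rw [← hb', h5.2, map_one], hb⟩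
    rw [← map_mult_res] at h6 h7
    obtain ⟨a, h6, rfl⟩ := h6
    obtain ⟨b, h7, rfl⟩ := h7
    obtain ⟨x, hx⟩ := hf₁ ⟨a, h6⟩
    obtain ⟨y, hy⟩ := hf₂ ⟨b, h7⟩
    exact ⟨(x, y, t), Subtype.ext (by simp [hx, hy])⟩

end Cfsg.Agent.S3959
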