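import Cfsg.Statements.S3960
import Cfsg.Agent.Lib.Grp.SchurExt

set_option autoImplicit false
universe u
open Cfsg

namespace Cfsg.Agent.S3960

open CA.SchurHopf CA.SchurExt

/-- A finite perfect group `Q` has a universal central extension: a finite perfect group `G` in the universe of `Q` and a surjective homomorphism `π : G →* Q` with central kernel such that for every group `X` in that universe and every surjective homomorphism `ξ : X →* Q` with central kernel there is exactly one homomorphism `η : G →* X` with `ξ ∘ η = π`. -/
theorem result {Q : Type u} [Group Q] [Finite Q] (hQ : Group.IsPerfect Q) : ∃ (G : Type u) (_ : Group G) (_ : Finite G) (π : G →* Q), Group.IsPerfect G ∧ Function.Surjective π ∧ π.ker ≤ Subgroup.center G ∧ ∀ (X : Type u) [Group X] (ξ : X →* Q), Function.Surjective ξ → ξ.ker ≤ Subgroup.center X → ∃! η : G →* X, ξ.comp η = π := by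
  have hs := pE_surj (can_surj Q)
  have hc := pE_central (can Q)
  let π : commutator (E (can Q)) →* Q := (pE (can Q)).comp (commutator _).subtype
  have hπ : Function.Surjective π := by
    intro q
    have h1 : q ∈ (commutator (E (can Q))).map (pE (can Q)) := by
      rw [commutator_def, Subgroup.map_commutator, ← MonoidHom.range_eq_map,
        MonoidHom.range_eq_top.mpr hs, ← commutator_def, hQ.commutator_eq_top]
      trivial
    obtain ⟨x, hx, rfl⟩ := h1
    exact ⟨⟨x, hx⟩, rfl⟩
  have hperf : commutator (commutator (E (can Q))) = ⊤ := by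
    apply Subgroup.map_injective (commutator (E (can Q))).subtype_injective
    rw [map_commutator_eq hc _ hπ, ← MonoidHom.range_eq_map, Subgroup.range_subtype]
  refine ⟨commutator (E (can Q)), inferInstance, finite_commutator hs hc, π, ⟨hperf⟩, hπ, ?_, ?_⟩
  · intro x hx
    rw [Subgroup.mem_center_iff]
    exact fun y => Subtype.ext (Subgroup.mem_center_iff.mp (hc hx) _)
  · intro X _ ξ h1 h2
    obtain ⟨φ, hφ⟩ := exists_lift (can Q) ξ h1 h2
    have h3 : ξ.comp (φ.comp (commutator _).subtype) = π := by rw [← MonoidHom.comp_assoc, hφ]
    refine ⟨φ.comp (commutator _).subtype, h3, fun η hη => MonoidHom.ext fun x => ?_⟩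
    exact eq_on_commutator h2 (hη.trans h3.symm) (hperf ▸ trivial)

end Cfsg.Agent.S3960
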