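import Cfsg.Statements.S3961
import Cfsg.Agent.Lib.Grp.SchurExt
import Cfsg.Agent.S3962

set_option autoImplicit false
universe u v
open Cfsg

namespace Cfsg.Agent.S3961

open CA.SchurHopf CA.SchurExt

/-- Let `π : G →* Q` be a surjective homomorphism with central kernel from a finite perfect group `G` (a perfect cover of `Q`). Then `π` is universal, in the sense that every surjective homomorphism `ξ : X →* Q` with central kernel from a group `X` in the universe of `G` admits a homomorphism `η : G →* X` with `ξ ∘ η = π`, if and only if `G` has trivial Schur multiplier. -/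
theorem result {G : Type u} {Q : Type v} [Group G] [Group Q] [Finite G] (hG : Group.IsPerfect G) (π : G →* Q) (hπ : Function.Surjective π) (hker : π.ker ≤ Subgroup.center G) : (∀ (X : Type u) [Group X] (ξ : X →* Q), Function.Surjective ξ → ξ.ker ≤ Subgroup.center X → ∃ η : G →* X, ξ.comp η = π) ↔ Cfsg.HasCyclicSchurMultiplier G 1 := by
  have hG' := hG.commutator_eq_top
  constructor
  · intro h
    refine has_one fun Γ _ _ τ hτ => ?_
    have hΓ : commutator Γ = ⊤ := by
      refine eq_top_of_gens hτ.1 (S := commutator Γ) ?_ hτ.2.2 le_rfl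
      rw [← Subgroup.coe_map, Subgroup.closure_eq, commutator_def, Subgroup.map_commutator,
        ← MonoidHom.range_eq_map, MonoidHom.range_eq_top.mpr hτ.1, ← commutator_def, hG']
    have h1 := Cfsg.Agent.S3962.result ⟨hΓ⟩ τ hτ.1 hτ.2.1
    obtain ⟨η, hη⟩ := h Γ (π.comp τ) (hπ.comp hτ.1) (fun x hx => by
      have : τ x ∈ Subgroup.center G := hker hx
      rw [← h1, ← Subgroup.mem_comap, Subgroup.comap_map_eq_self hτ.2.1] at this
      exact this)
    have h2 : ∀ g, τ (η g) = g := fun g =>
      eq_on_commutator hker (φ := τ.comp η) (ψ := MonoidHom.id G) hη (hG' ▸ trivial)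
    have h3 := surj_of_stem hτ η fun g => ⟨g, h2 g⟩
    rw [eq_bot_iff]
    intro x hx
    obtain ⟨g, rfl⟩ := h3 x
    rw [MonoidHom.mem_ker, h2] at hx
    simp [hx]
  · intro h X _ ξ h1 h2
    let P := (π.comp (MonoidHom.fst G X)).eqLocus (ξ.comp (MonoidHom.snd G X))
    let ψ : P →* G := (MonoidHom.fst G X).comp P.subtype
    have hs : Function.Surjective ψ := fun g => by
      obtain ⟨x, hx⟩ := h1 (π g)
      exact ⟨⟨(g, x), hx.symm⟩, rfl⟩
    have hc : ψ.ker ≤ Subgroup.center P := by
      rintro ⟨⟨g, x⟩, hx⟩ h3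
      obtain rfl : g = 1 := h3
      have h4 : x ∈ ξ.ker := (show π 1 = ξ x from hx).symm.trans (map_one π)
      rw [Subgroup.mem_center_iff]
      exact fun y => Subtype.ext (Prod.ext (by simp) (Subgroup.mem_center_iff.mp (h2 h4) _))
    have h3 := mult_eq_bot h ψ hs hc
    obtain ⟨e, he⟩ := equiv_of_map_inj (K := commutator P) (L := ⊤) ψ (by
      rw [commutator_def, Subgroup.map_commutator, ← MonoidHom.range_eq_map,
        MonoidHom.range_eq_top.mpr hs, ← commutator_def, hG']) h3
    refine ⟨(MonoidHom.snd G X).comp (P.subtype.comp ((commutator P).subtype.comp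
      (e.symm.toMonoidHom.comp Subgroup.topEquiv.symm.toMonoidHom))), MonoidHom.ext fun g => ?_⟩
    have h4 := he (e.symm ⟨g, trivial⟩)
    rw [e.apply_symm_apply] at h4
    have h5 := (e.symm ⟨g, trivial⟩).1.2
    exact h5.symm.trans (congrArg π h4.symm)

end Cfsg.Agent.S3961
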