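import Cfsg.Statements.S3964
import Cfsg.Agent.Lib.Grp.SchurMeta

set_option autoImplicit false
open Cfsg

namespace Cfsg.Agent.S3964

/-- For odd `n` the dihedral group of order `2 n` has trivial Schur multiplier. -/
theorem result (n : ℕ) (hn : Odd n) : Cfsg.HasCyclicSchurMultiplier (DihedralGroup n) 1 := by
  haveI : NeZero n := ⟨by rintro rfl; simp at hn⟩
  refine CA.SchurHopf.has_one fun Γ _ _ τ hτ => ?_
  have := CA.SchurMeta.dihedral_le n hτ
  rw [show Nat.gcd n 2 = 1 from Nat.coprime_two_right.mpr hn] at this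
  exact Subgroup.eq_bot_of_card_le _ this

end Cfsg.Agent.S3964
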