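import Cfsg.Statements.S3965
import Cfsg.Agent.Lib.Grp.SchurMeta

set_option autoImplicit false
open Cfsg

namespace Cfsg.Agent.S3965

/-- For even `n ≥ 2` the dihedral group of order `2 n` has Schur multiplier cyclic of order `2`. -/
theorem result (n : ℕ) [NeZero n] (hn : Even n) : Cfsg.HasCyclicSchurMultiplier (DihedralGroup n) 2 := by
  obtain ⟨h1, h2⟩ := CA.SchurMeta.quatDih_stem n hn
  have h3 : Nat.card (Multiplicative (ZMod 2)) = 2 := Nat.card_zmod 2
  refine CA.SchurHopf.has_of_card h1 (mulEquivOfPrimeCardEq h2 h3) fun Γ _ _ τ hτ => ?_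
  rw [h3]
  exact (CA.SchurMeta.dihedral_le n hτ).trans (Nat.gcd_le_right _ two_pos)

end Cfsg.Agent.S3965
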