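import Cfsg.Statements.S3967
import Cfsg.Agent.Lib.Grp.SchurMeta
import Cfsg.Agent.Lib.Grp.SchurTr

set_option autoImplicit false
open Cfsg

namespace Cfsg.Agent.S3967

open CA.SchurHopf CA.SchurExt CA.SchurMeta CA.SchurTr
open scoped commutatorElement

/-- relators -/
abbrev rels (m n r s : ℕ) : Set (FreeGroup Bool) :=
  {FreeGroup.of true ^ m, (FreeGroup.of false) ^ n * (FreeGroup.of true ^ s)⁻¹,
    FreeGroup.of false * FreeGroup.of true * (FreeGroup.of false)⁻¹ * (FreeGroup.of true ^ r)⁻¹}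

/-- a concrete metacyclic group -/
theorem exists_model (M n r s : ℕ) (hM : 0 < M) (hn : 0 < n) (hr : r ^ n ≡ 1 [MOD M])
    (hs : s * r ≡ s [MOD M]) : ∃ (Γ : Type) (_ : Group Γ) (_ : Finite Γ) (x y : Γ),
      orderOf x = M ∧ y ^ n = x ^ s ∧ y * x * y⁻¹ = x ^ r ∧ Subgroup.closure {x, y} = ⊤ ∧
      ∀ (G : Type) [Group G] (a b : G), a ^ M = 1 → b ^ n = a ^ s → b * a * b⁻¹ = a ^ r →
        ∃ σ : Γ →* G, σ x = a ∧ σ y = b := by
  haveI : NeZero M := ⟨hM.ne'⟩
  have hr' : (r : ZMod M) ^ n = 1 := by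
    have := (ZMod.natCast_eq_natCast_iff _ _ _).mpr hr
    simpa using this
  have hs' : (s : ZMod M) * r = s := by
    have := (ZMod.natCast_eq_natCast_iff _ _ _).mpr hs
    simpa using this
  let u : (ZMod M)ˣ := Units.ofPowEqOne (r : ZMod M) n hr' hn.ne'
  let α : MulAut (Multiplicative (ZMod M)) := AddEquiv.toMultiplicative (u.mulLeftLinearEquiv ℤ _).toAddEquiv
  have hα : ∀ z, α z = z ^ r := fun z => by
    apply Multiplicative.toAdd.injective
    show (r : ZMod M) * z.toAdd = _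
    simp
  have hαk : ∀ (k : ℕ) z, (α ^ k) z = z ^ r ^ k := fun k => by
    induction k with
    | zero => simp
    | succ k ih => intro z; rw [pow_succ, MulAut.mul_apply, hα, map_pow, ih, ← pow_mul, ← pow_succ]
  let φ : Multiplicative ℤ →* MulAut (Multiplicative (ZMod M)) := zpowersHom _ α
  let x₀ : Multiplicative (ZMod M) ⋊[φ] Multiplicative ℤ := .inl (Multiplicative.ofAdd 1)
  let y₀ : Multiplicative (ZMod M) ⋊[φ] Multiplicative ℤ := .inr (Multiplicative.ofAdd 1)
  have hxy : y₀ * x₀ * y₀⁻¹ = x₀ ^ r := by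
    simp only [x₀, y₀]
    rw [← map_inv, ← SemidirectProduct.inl_aut, ← map_pow, ← hα]; simp [φ]
  have hgen : Subgroup.closure {x₀, y₀} = ⊤ := by
    rw [eq_top_iff]
    rintro g -
    rw [← SemidirectProduct.inl_left_mul_inr_right g]
    refine Subgroup.mul_mem _ ?_ ?_
    · have : g.left = Multiplicative.ofAdd 1 ^ g.left.toAdd.val := by
        apply Multiplicative.toAdd.injective; simp
      rw [this, map_pow]
      exact Subgroup.pow_mem _ (Subgroup.subset_closure (by simp [x₀])) _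
    · have : g.right = Multiplicative.ofAdd 1 ^ g.right.toAdd := by
        apply Multiplicative.toAdd.injective; simp
      rw [this, map_zpow]
      exact Subgroup.zpow_mem _ (Subgroup.subset_closure (by simp [y₀])) _
  have hord : orderOf x₀ = M := by
    rw [orderOf_injective _ SemidirectProduct.inl_injective, orderOf_ofAdd_eq_addOrderOf,
      ZMod.addOrderOf_one]
  let w := y₀ ^ n * (x₀ ^ s)⁻¹
  have hw : w ∈ Subgroup.center _ := by
    rw [Subgroup.mem_center_iff]
    intro g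
    have : g ∈ Subgroup.centralizer {w} := by
      refine (Subgroup.closure_le (Subgroup.centralizer {w})).mpr ?_ (hgen ▸ Subgroup.mem_top g)
      rintro g (rfl | rfl)
      · rw [SetLike.mem_coe, Subgroup.mem_centralizer_singleton_iff]
        refine (Commute.mul_right ?_ ((Commute.refl _).pow_right s).inv_right).eq
        have h1 : ∀ k : ℕ, y₀ ^ k * x₀ * (y₀ ^ k)⁻¹ = x₀ ^ r ^ k := fun k => by
          induction k with
          | zero => simp
          | succ k ih =>
            have : y₀ ^ (k + 1) * x₀ * (y₀ ^ (k + 1))⁻¹ = y₀ * (y₀ ^ k * x₀ * (y₀ ^ k)⁻¹) * y₀⁻¹ := by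
              rw [pow_succ']; group
            rw [this, ih, ← conj_pow, hxy, ← pow_mul, pow_succ']
        have h2 := h1 n
        rw [(pow_eq_pow_iff_modEq.mpr (by rw [hord]; exact hr) : x₀ ^ r ^ n = x₀ ^ 1), pow_one,
          mul_inv_eq_iff_eq_mul] at h2
        exact h2.symm
      · rw [SetLike.mem_coe, Subgroup.mem_centralizer_singleton_iff]
        refine (Commute.mul_right ((Commute.refl _).pow_right n) (Commute.inv_right ?_)).eq
        have h2 : y₀ * x₀ ^ s * y₀⁻¹ = x₀ ^ s := by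
          rw [← conj_pow, hxy, ← pow_mul, mul_comm]
          exact pow_eq_pow_iff_modEq.mpr (by rw [hord]; exact hs)
        exact mul_inv_eq_iff_eq_mul.mp h2
    exact Subgroup.mem_centralizer_singleton_iff.mp this
  haveI := normal_of_central (Subgroup.zpowers_le.mpr hw)
  let q := QuotientGroup.mk' (Subgroup.zpowers w)
  have hq : q y₀ ^ n = q x₀ ^ s := by
    rw [← mul_inv_eq_one, ← map_pow q, ← map_pow q, ← map_inv q, ← map_mul q]
    exact (QuotientGroup.eq_one_iff _).mpr (Subgroup.mem_zpowers w)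
  refine ⟨_ ⧸ Subgroup.zpowers w, inferInstance, ?_, q x₀, q y₀, ?_, hq, ?_, ?_, ?_⟩
  · refine Finite.of_surjective (fun z : Multiplicative (ZMod M) × Fin n =>
      q (.inl z.1) * q y₀ ^ (z.2 : ℕ)) fun g => ?_
    obtain ⟨g, rfl⟩ := QuotientGroup.mk'_surjective _ g
    have hn' : (n : ℤ) ≠ 0 := by omega
    have h1 := Int.emod_nonneg g.right.toAdd hn'
    have h2 := Int.emod_lt_of_pos g.right.toAdd (show (0 : ℤ) < n by omega)
    refine ⟨(g.left * (Multiplicative.ofAdd 1 ^ s) ^ (g.right.toAdd / n),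
      ⟨(g.right.toAdd % n).toNat, by omega⟩), ?_⟩
    have : g.right = Multiplicative.ofAdd 1 ^ ((n : ℤ) * (g.right.toAdd / n) + g.right.toAdd % n) := by
      apply Multiplicative.toAdd.injective; simp [Int.mul_ediv_add_emod]
    conv_rhs => rw [← SemidirectProduct.inl_left_mul_inr_right g, this]
    simp only [map_mul, map_zpow, map_pow, zpow_add, zpow_mul, zpow_natCast]
    rw [← zpow_natCast (q y₀) (Int.toNat _), Int.toNat_of_nonneg h1, mul_assoc]
    exact congrArg (fun t => _ * (t ^ _ * _)) hq.symm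
  · refine Eq.trans (orderOf_eq_orderOf_iff.mpr fun k =>
      ⟨fun h => ?_, fun h => by rw [← map_pow q, h, map_one]⟩) hord
    rw [← map_pow q] at h
    obtain ⟨t, ht⟩ := (QuotientGroup.eq_one_iff _).mp h
    have h1 := congrArg (SemidirectProduct.rightHom (φ := φ)) (show w ^ t = _ from ht)
    simp only [w, x₀, y₀, map_zpow, map_mul, map_inv, map_pow, SemidirectProduct.rightHom_inl,
      SemidirectProduct.rightHom_inr, one_pow, inv_one, mul_one] at h1
    replace h1 := congrArg Multiplicative.toAdd h1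
    simp [hn.ne'] at h1
    rw [← ht, h1]; simp
  · rw [← map_inv q, ← map_mul q, ← map_mul q, hxy, map_pow]
  · rw [← Set.image_pair, ← MonoidHom.map_closure, hgen, ← MonoidHom.range_eq_map,
      MonoidHom.range_eq_top.mpr (QuotientGroup.mk'_surjective _)]
  · intro G _ a b h1 h2 h3
    let f₁ : Multiplicative (ZMod M) →* G := MonoidHom.mk' (fun z => a ^ z.toAdd.val) fun z z' => by
      rw [toAdd_mul, ZMod.val_add, ← pow_add]
      exact pow_eq_pow_iff_modEq.mpr ((Nat.mod_modEq _ _).of_dvd (orderOf_dvd_of_pow_eq_one h1))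
    have hf₁ : f₁ (Multiplicative.ofAdd 1) = a := by
      show a ^ (1 : ZMod M).val = a
      rw [← Nat.cast_one, ZMod.val_natCast]
      exact (pow_eq_pow_iff_modEq.mpr ((Nat.mod_modEq _ _).of_dvd
        (orderOf_dvd_of_pow_eq_one h1))).trans (pow_one a)
    have hc : ∀ z, f₁ (α z) = b * f₁ z * b⁻¹ := fun z => by
      rw [hα, map_pow]
      show (a ^ _) ^ r = b * a ^ _ * b⁻¹
      rw [← conj_pow, h3, ← pow_mul, ← pow_mul, mul_comm]
    let σ₀ := SemidirectProduct.lift f₁ (zpowersHom G b) (φ := φ) fun g => MonoidHom.ext fun z => by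
      show f₁ ((α ^ g.toAdd) z) = b ^ g.toAdd * f₁ z * (b ^ g.toAdd)⁻¹
      generalize g.toAdd = k
      induction k using Int.induction_on generalizing z with
      | zero => simp
      | succ k ih => rw [zpow_add_one, MulAut.mul_apply, ih, hc]; group
      | pred k ih =>
        obtain ⟨z, rfl⟩ := α.surjective z
        rw [zpow_sub_one, MulAut.mul_apply, ih, hc]
        simp only [MulAut.inv_apply, MulEquiv.symm_apply_apply]; group
    have e1 : σ₀ x₀ = a := by simp [σ₀, x₀, hf₁]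
    have e2 : σ₀ y₀ = b := by simp [σ₀, y₀]
    refine ⟨QuotientGroup.lift _ σ₀ (Subgroup.zpowers_le.mpr ?_), e1, e2⟩
    simp [MonoidHom.mem_ker, w, e1, e2, h2]

theorem exists_coprime (a b k : ℕ) (hk : 0 < k) (h : Nat.Coprime a b) :
    ∃ t, Nat.Coprime (a + b * t) k := by
  refine ⟨∏ p ∈ k.primeFactors with ¬ p ∣ a, p, Nat.coprime_of_dvd fun p hp h1 h2 => ?_⟩
  by_cases h3 : p ∣ a
  · have h4 := (Nat.dvd_add_right h3).mp h1
    rcases hp.dvd_mul.mp h4 with h5 | h5
    · exact hp.one_lt.ne' (Nat.eq_one_of_dvd_coprimes h h3 h5)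
    · obtain ⟨q, hq, h6⟩ := (Prime.dvd_finset_prod_iff hp.prime _).mp h5
      rw [Finset.mem_filter, Nat.mem_primeFactors] at hq
      rw [(Nat.prime_dvd_prime_iff_eq hp hq.1.1).mp h6] at h3
      exact hq.2 h3
  · refine h3 ((Nat.dvd_add_left (Dvd.dvd.mul_left ?_ b)).mp h1)
    exact Finset.dvd_prod_of_mem _ (by simp [hp, h2, hk.ne', h3])

theorem geom (r n : ℕ) : (r + 1) ^ n = r * (∑ i ∈ Finset.range n, (r + 1) ^ i) + 1 := by
  induction n with
  | zero => simp
  | succ n ih => rw [Finset.sum_range_succ, mul_add, pow_succ, add_right_comm, ← ih]; ring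

/-- Let `m, n ≥ 1`, `r ≥ 1` with `r ^ n ≡ 1 (mod m)`, and `l` a natural number; put `d = gcd(m, r - 1)`, `t = m l / d` and `h = d · gcd(m, 1 + r + ⋯ + r^(n-1)) / m`. The group presented by generators `a, b` and relations `a ^ m = 1`, `b ^ n = a ^ t`, `b a b⁻¹ = a ^ r` (a metacyclic group of order `m n`) has Schur multiplier cyclic of order `gcd(l, h)`. -/
theorem result (m n r l : ℕ) (hm : 0 < m) (hn : 0 < n) (hr : 0 < r) (hrn : r ^ n ≡ 1 [MOD m]) : Cfsg.HasCyclicSchurMultiplier (PresentedGroup ({FreeGroup.of true ^ m, (FreeGroup.of false) ^ n * (FreeGroup.of true ^ (m * l / Nat.gcd m (r - 1)))⁻¹, FreeGroup.of false * FreeGroup.of true * (FreeGroup.of false)⁻¹ * (FreeGroup.of true ^ r)⁻¹} : Set (FreeGroup Bool))) (Nat.gcd l (Nat.gcd m (r - 1) * Nat.gcd m (∑ i ∈ Finset.range n, r ^ i) / m)) := by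
  obtain ⟨r, rfl⟩ : ∃ r', r = r' + 1 := Nat.exists_eq_add_of_le' hr
  rw [show r + 1 - 1 = r from rfl]
  set g := Nat.gcd m r with hg
  set S := ∑ i ∈ Finset.range n, (r + 1) ^ i with hS
  have hg0 : 0 < g := Nat.gcd_pos_of_pos_left _ hm
  obtain ⟨m', hm'⟩ : g ∣ m := Nat.gcd_dvd_left _ _
  obtain ⟨r', hr'⟩ : g ∣ r := Nat.gcd_dvd_right _ _
  have hcop : Nat.Coprime r' m' := by
    have := Nat.coprime_div_gcd_div_gcd (m := m) (n := r) hg0
    rw [← hg] at this
    nth_rw 1 [hm', hr'] at this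
    rw [Nat.mul_div_cancel_left _ hg0, Nat.mul_div_cancel_left _ hg0] at this
    exact this.symm
  have hm'0 : 0 < m' := Nat.pos_of_mul_pos_left (hm' ▸ hm)
  have hmS : m' ∣ S := by
    have h1 : m ∣ r * S := by
      have := (Nat.modEq_iff_dvd' (Nat.one_le_pow _ _ hr)).mp hrn.symm
      rwa [geom, Nat.add_sub_cancel] at this
    rw [hm', hr', mul_assoc] at h1
    exact hcop.symm.dvd_of_dvd_mul_left (Nat.dvd_of_mul_dvd_mul_left hg0 h1)
  obtain ⟨e, he⟩ : m' ∣ Nat.gcd m S := Nat.dvd_gcd (hm' ▸ dvd_mul_left _ _) hmS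
  have he0 : 0 < e := Nat.pos_of_mul_pos_left (he ▸ Nat.gcd_pos_of_pos_left _ hm)
  have h1 : g * Nat.gcd m S / m = e := by
    rw [he, ← mul_assoc, ← hm', Nat.mul_div_cancel_left _ hm]
  have h2 : m * l / g = m' * l := by
    rw [hm', mul_assoc, Nat.mul_div_cancel_left _ hg0]
  rw [h1, h2]
  set k := Nat.gcd l e with hk
  have hk0 : 0 < k := Nat.gcd_pos_of_pos_right _ he0
  have hke : k ∣ e := Nat.gcd_dvd_right _ _
  have hkl : k ∣ l := Nat.gcd_dvd_left _ _
  have heg : e ∣ g := by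
    have : m' * e ∣ m' * g := by rw [← he, mul_comm m', ← hm']; exact Nat.gcd_dvd_left _ _
    exact Nat.dvd_of_mul_dvd_mul_left hm'0 this
  obtain ⟨t, ht⟩ := exists_coprime r' m' k hk0 hcop
  set ρ := r + m * t with hρ
  have hρ' : ρ = g * (r' + m' * t) := by rw [hρ, mul_add, ← mul_assoc, ← hm', ← hr']
  have hmod : ρ + 1 ≡ r + 1 [MOD m] := by
    rw [hρ, add_right_comm]; exact Nat.add_mul_mod_self_left ..
  obtain ⟨Γ, _, _, x, y, o1, o2, o3, o4, o5⟩ := exists_model (m * k) n (ρ + 1) (m' * l)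
    (Nat.mul_pos hm hk0) hn (by
      rw [geom]
      refine (Nat.modEq_iff_dvd' (Nat.le_add_left _ _)).mpr ?_ |>.symm
      rw [Nat.add_sub_cancel, hρ', mul_right_comm, hm', mul_assoc g]
      refine Dvd.dvd.mul_right (Nat.mul_dvd_mul_left g ?_) _
      refine (Nat.mul_dvd_mul_left m' hke).trans (he ▸ ?_)
      have h3 : S ≡ ∑ i ∈ Finset.range n, (ρ + 1) ^ i [MOD Nat.gcd m S] :=
        Nat.ModEq.of_dvd (Nat.gcd_dvd_left _ _) (Nat.ModEq.sum fun i _ => (hmod.pow i).symm)
      have := (h3.dvd_iff dvd_rfl).mp (Nat.gcd_dvd_right _ _)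
      rwa [hρ'] at this) (by
      rw [mul_add, mul_one]
      refine ((Nat.modEq_iff_dvd' (Nat.le_add_left _ _)).mpr ?_).symm
      obtain ⟨l', hl'⟩ := hkl
      rw [Nat.add_sub_cancel, hρ', hm', hl']
      exact ⟨l' * (r' + m' * t), by ring⟩)
  set G := PresentedGroup (rels m n (r + 1) (m' * l))
  let a : G := PresentedGroup.of true
  let b : G := PresentedGroup.of false
  have ha : a ^ m = 1 := PresentedGroup.one_of_mem (x := FreeGroup.of true ^ m) (by simp)
  have hb : b ^ n = a ^ (m' * l) := mul_inv_eq_one.mp (PresentedGroup.one_of_mem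
    (x := (FreeGroup.of false) ^ n * (FreeGroup.of true ^ (m' * l))⁻¹) (by simp))
  have hc : b * a * b⁻¹ = a ^ (r + 1) := mul_inv_eq_one.mp (PresentedGroup.one_of_mem
    (x := FreeGroup.of false * FreeGroup.of true * (FreeGroup.of false)⁻¹ *
      (FreeGroup.of true ^ (r + 1))⁻¹) (by simp))
  have hgen : Subgroup.closure {a, b} = ⊤ := by
    rw [← PresentedGroup.closure_range_of]
    congr 1
    ext z
    simp [a, b, eq_comm, or_comm]
  obtain ⟨σ, s1, s2⟩ := o5 G a b (by rw [pow_mul, ha, one_pow]) hb (hc.trans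
    (pow_eq_pow_iff_modEq.mpr (hmod.symm.of_dvd (orderOf_dvd_of_pow_eq_one ha))))
  have hσ : Function.Surjective σ := by
    rw [← MonoidHom.range_eq_top, eq_top_iff, ← hgen, Subgroup.closure_le]
    rintro _ (rfl | rfl)
    exacts [⟨x, s1⟩, ⟨y, s2⟩]
  have hxM : x ^ (m * k) = 1 := o1 ▸ pow_orderOf_eq_one x
  have hcen : x ^ m ∈ Subgroup.center Γ := by
    rw [Subgroup.mem_center_iff]
    intro z
    have : z ∈ Subgroup.centralizer {x ^ m} := by
      refine (Subgroup.closure_le (Subgroup.centralizer {x ^ m})).mpr ?_ (o4 ▸ Subgroup.mem_top z)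
      rintro z (rfl | rfl)
      · exact Subgroup.mem_centralizer_singleton_iff.mpr ((Commute.refl _).pow_right m)
      · refine Subgroup.mem_centralizer_singleton_iff.mpr (mul_inv_eq_iff_eq_mul.mp ?_)
        rw [← conj_pow, o3, ← pow_mul, add_mul, one_mul, pow_add, mul_eq_right]
        obtain ⟨c, hc⟩ := hke.trans heg
        rw [hρ', hc, show k * c * (r' + m' * t) * m = m * k * (c * (r' + m' * t)) by ring, pow_mul, hxM,
          one_pow]
    exact Subgroup.mem_centralizer_singleton_iff.mp this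
  haveI := normal_of_central (Subgroup.zpowers_le.mpr hcen)
  let q := QuotientGroup.mk' (Subgroup.zpowers (x ^ m))
  have hqx : q x ^ m = 1 := (QuotientGroup.eq_one_iff (x ^ m)).mpr (Subgroup.mem_zpowers _)
  let τ : G →* Γ ⧸ Subgroup.zpowers (x ^ m) := PresentedGroup.toGroup
    (f := fun i => if i then q x else q y) (by
      rintro _ (rfl | rfl | rfl)
      · simpa using hqx
      · simp only [map_mul, map_pow, map_inv, FreeGroup.lift_apply_of, if_true, Bool.false_eq_true, if_false]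
        rw [← map_pow, o2, map_pow, mul_inv_cancel]
      · simp only [map_mul, map_pow, map_inv, FreeGroup.lift_apply_of, if_true, Bool.false_eq_true, if_false]
        rw [← map_inv, ← map_mul, ← map_mul, o3, map_pow, mul_inv_eq_one]
        exact pow_eq_pow_iff_modEq.mpr (hmod.of_dvd (orderOf_dvd_of_pow_eq_one hqx)))
  have hτa : τ a = q x := PresentedGroup.toGroup.of _
  have hτb : τ b = q y := PresentedGroup.toGroup.of _
  have hτ : τ.comp σ = q := MonoidHom.eq_of_eqOn_dense o4 (by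
    rintro _ (rfl | rfl)
    · simp [s1, hτa]
    · simp [s2, hτb])
  have hker : σ.ker = Subgroup.zpowers (x ^ m) := by
    apply le_antisymm
    · intro z hz
      rw [← QuotientGroup.eq_one_iff, ← QuotientGroup.mk'_apply]
      show q z = 1
      rw [← hτ, MonoidHom.comp_apply, show σ z = 1 from hz, map_one]
    · rw [Subgroup.zpowers_le, MonoidHom.mem_ker, map_pow, s1, ha]
  have horda : orderOf a = m := by
    refine Nat.dvd_antisymm (orderOf_dvd_of_pow_eq_one ha) ?_
    have h3 : x ^ orderOf a ∈ σ.ker := by rw [MonoidHom.mem_ker, map_pow, s1, pow_orderOf_eq_one]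
    rw [hker] at h3
    obtain ⟨j, hj⟩ := h3
    have h4 : x ^ ((m : ℤ) * j) = x ^ (orderOf a : ℤ) := by rw [zpow_mul]; simpa using hj
    rw [zpow_eq_zpow_iff_modEq, o1] at h4
    have h5 := (h4.of_dvd (show (m : ℤ) ∣ (m * k : ℕ) by simp)).dvd
    exact Int.natCast_dvd_natCast.mp ((dvd_sub_left (dvd_mul_right _ _)).mp h5)
  have hcard : Nat.card (Multiplicative (ZMod k)) = k := Nat.card_zmod k
  refine has_of_card (σ := σ) ⟨hσ, hker ▸ Subgroup.zpowers_le.mpr hcen, ?_⟩ ?_ ?_
  · rw [hker, Subgroup.zpowers_le]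
    have h3 : x ^ ρ ∈ commutator Γ := by
      rw [show x ^ ρ = ⁅y, x⁆ by rw [commutatorElement_def, o3, pow_succ, mul_inv_cancel_right]]
      exact Subgroup.commutator_mem_commutator (Subgroup.mem_top _) (Subgroup.mem_top _)
    have h4 : Nat.gcd ρ (m * k) = g := by
      rw [hρ', hm', mul_assoc, Nat.gcd_mul_left, Nat.Coprime.mul_right ?_ ht, mul_one]
      exact (Nat.coprime_add_mul_left_left r' m' t).mpr hcop
    have h5 : x ^ g ∈ commutator Γ := by
      have h6 : x ^ g = (x ^ ρ) ^ Nat.gcdA ρ (m * k) * (x ^ (m * k)) ^ Nat.gcdB ρ (m * k) := by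
        rw [← h4, ← zpow_natCast, Nat.gcd_eq_gcd_ab, zpow_add, zpow_mul, zpow_mul, zpow_natCast, zpow_natCast]
      rw [h6, hxM, one_zpow, mul_one]
      exact Subgroup.zpow_mem _ h3 _
    rw [hm', pow_mul]
    exact Subgroup.pow_mem _ h5 _
  · refine (MulEquiv.subgroupCongr hker).trans (mulEquivOfCyclicCardEq ?_)
    rw [hcard, Nat.card_zpowers, orderOf_pow' _ hm.ne', o1, Nat.gcd_mul_right_left,
      Nat.mul_div_cancel_left _ hm]
  · intro Δ _ _ ψ hψ
    obtain ⟨u, hu⟩ := hψ.1 a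
    obtain ⟨v, hv⟩ := hψ.1 b
    have h3 : ψ v * ψ u * (ψ v)⁻¹ = ψ u ^ ((r + 1 : ℕ) : ℤ) := by rw [hu, hv, hc, zpow_natCast]
    have h4 := commutator_eq_zpowers hψ.1 hψ.2.1 h3 (by rw [hu, hv, hgen])
    obtain ⟨h5, h6⟩ := conj_comm_eq hψ.2.1 h3
    rw [zpow_natCast] at h6
    have h7 : (v ^ n)⁻¹ * u ^ (m' * l) ∈ Subgroup.center Δ := hψ.2.1 (by
      simp [MonoidHom.mem_ker, hu, hv, hb])
    have h8 : u ^ m ∈ Subgroup.center Δ := hψ.2.1 (by simp [MonoidHom.mem_ker, hu, ha])
    have h9 : ⁅v, u⁆ ^ m = 1 := by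
      rw [← comm_pow_right h5, commutatorElement_eq_one_iff_mul_comm]
      exact Subgroup.mem_center_iff.mp h8 v
    have h10 : ⁅v, u⁆ ^ (m' * l) = 1 := by
      rw [← comm_pow_right h5, commutatorElement_eq_one_iff_commute]
      have : Commute v _ := Subgroup.mem_center_iff.mp h7 v
      simpa using ((Commute.refl v).pow_right n).mul_right this
    have h11 : ⁅v, u⁆ ^ S = 1 := by
      rw [hS, ← comm_pow_left h6, commutatorElement_eq_one_iff_commute]
      have : Commute u _ := Subgroup.mem_center_iff.mp h7 u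
      simpa using (this.mul_right ((Commute.refl u).pow_right (m' * l)).inv_right).inv_right.symm
    have h12 : ⁅v, u⁆ ^ (m' * k) = 1 := by
      rw [hk, ← Nat.gcd_mul_left, ← he]
      exact pow_gcd_eq_one.mpr ⟨h10, pow_gcd_eq_one.mpr ⟨h9, h11⟩⟩
    rw [hcard]
    refine card_ker_le (d := m') (h4 ▸ hψ.2.2) hk0 ?_ ?_
    · have h13 : ψ ⁅v, u⁆ = a ^ r := by
        rw [map_commutatorElement, commutatorElement_def, hu, hv, hc, pow_succ a, mul_inv_cancel_right]
      haveI : Finite G := Finite.of_surjective _ hσ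
      rw [h13, orderOf_pow, horda, ← hg]
      nth_rw 1 [hm']
      rw [Nat.mul_div_cancel_left _ hg0]
    · rintro _ ⟨c, rfl⟩
      rw [mul_right_comm, pow_mul, h12, one_pow]

end Cfsg.Agent.S3967
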