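import Cfsg.Statements.S3970
import Cfsg.Agent.Lib.Odd.BG1b
import Cfsg.Agent.Lib.Grp.Fus3
import Cfsg.Agent.Lib.Grp.NPC2
import Cfsg.Agent.S0205

set_option autoImplicit false
open Cfsg

namespace Cfsg.Agent.S3970

open CA.BG CA.OQuo Subgroup

theorem solv_of_hasPC {G : Type*} [Group G] [Finite G] (h : HasPC 2 (⊤ : Subgroup G)) : Group.IsSolvable G := by
  obtain ⟨S, hS⟩ := syl_exists Nat.prime_two (⊤ : Subgroup G)
  have h1 : Group.IsSolvable 𝓞({2}ᶜ, (⊤ : Subgroup G)) := by
    apply S0205.result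
    have := (isPi_compl_iff Nat.prime_two).1 (core_pi {2}ᶜ (⊤ : Subgroup G))
    exact Nat.odd_iff.2 (by omega)
  have := solv_sup (hS.pi.isSolvable Nat.prime_two) h1 (le_top.trans (le_norm_core _ _))
  rw [h.sup_syl hS] at this
  exact Group.isSolvable_of_surjective (f := (⊤ : Subgroup G).subtype) (fun x => ⟨⟨x, mem_top x⟩, rfl⟩)

/-- Let `G` be a finite group such that for every prime `p` dividing its order, other than the largest such prime, the Sylow `p`-subgroups are abelian and generated by at most two elements, and suppose `12` does not divide the order of `G`. Then `G` is solvable. In particular a group of cube-free order not divisible by `12` is solvable. -/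
theorem result {G : Type*} [Group G] [Finite G] (h : ∀ p : ℕ, p.Prime → p ∣ Nat.card G → (∃ q : ℕ, q.Prime ∧ q ∣ Nat.card G ∧ p < q) → ∀ P : Sylow p G, IsMulCommutative (P : Subgroup G) ∧ Group.rank (P : Subgroup G) ≤ 2) (h12 : ¬ 12 ∣ Nat.card G) : Group.IsSolvable G := by
  apply solv_of_hasPC
  obtain ⟨P⟩ : Nonempty (Sylow 2 G) := inferInstance
  have hS := syl_top Nat.prime_two P
  by_cases h2 : 2 ∣ Nat.card G
  swap
  · exact hasPC_of_not_dvd Nat.prime_two (by rwa [card_top])
  by_cases hq : ∃ q : ℕ, q.Prime ∧ q ∣ Nat.card G ∧ 2 < q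
  swap
  · refine hasPC_of_nil 2 (IsPi.isNilpotent Nat.prime_two fun q hq' hd => ?_)
    rw [card_top] at hd
    by_contra hne
    exact hq ⟨q, hq', hd, lt_of_le_of_ne hq'.two_le (Ne.symm hne)⟩
  obtain ⟨hc, hr⟩ := h 2 Nat.prime_two h2 hq P
  by_cases h4 : 4 ∣ Nat.card G
  · have h3 : ¬ 3 ∣ Nat.card G := fun h3 => h12 (Nat.Coprime.mul_dvd_of_dvd_of_dvd (by norm_num) h3 h4)
    refine burnside_hasPC Nat.prime_two hS (inf_le_right.trans
      (CA.NPC2.normalizer_le_centralizer_of_forall P hc fun g hg ho => ?_))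
    by_contra hn
    obtain ⟨r, hr1, hr2, i, h1, h2, h3'⟩ := CA.Fus3.exists_prime_dvd_of_rank P.2 hg hn ho
    have : i = 1 ∨ i = 2 := by omega
    rcases this with rfl | rfl
    · exact hr1.one_lt.ne' (Nat.dvd_one.1 h3')
    · have := (Nat.prime_dvd_prime_iff_eq hr1 Nat.prime_three).1 h3'
      exact h3 (this ▸ hr2.trans (orderOf_dvd_natCard g))
  · refine cyclic_pdiv_normal_complement Nat.prime_two hS ?_ fun q hq _ => hq.two_le
    obtain ⟨k, hk⟩ := hS.pi.exists_card Nat.prime_two
    have hd : 2 ^ k ∣ Nat.card G := hk ▸ card_subgroup_dvd_card _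
    rcases k with _ | _ | k
    · rw [pow_zero, card_eq_one] at hk; rw [hk]; exact cyc_bot
    · exact isCyclic_of_prime (by rw [hk]; exact Nat.prime_two)
    · exact absurd (Dvd.dvd.trans ⟨2 ^ k, by ring⟩ hd) h4

end Cfsg.Agent.S3970
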