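import Cfsg.Statements.S3971
import Cfsg.Agent.Lib.Odd.BG1b
import Cfsg.Agent.Lib.Grp.Fus3
import Cfsg.Agent.Lib.Grp.Hyperfocal

set_option autoImplicit false
open Cfsg

namespace Cfsg.Agent.S3971

open CA.BG CA.OQuo Subgroup

/-- Let `G` be a finite group of order `2 ^ a * n` with `n` odd and not divisible by `3`, and suppose `G` has an element of order `2 ^ (a - 1)` (so a Sylow `2`-subgroup has a cyclic subgroup of index at most `2`). Then `G` has a normal subgroup of order `n`. -/
theorem result {G : Type*} [Group G] [Finite G] (a n : ℕ) (hG : Nat.card G = 2 ^ a * n) (hn : Odd n) (h3 : ¬ 3 ∣ n) (hx : ∃ x : G, orderOf x = 2 ^ (a - 1)) : ∃ N : Subgroup G, N.Normal ∧ Nat.card N = n := by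
  classical
  obtain ⟨x, hx⟩ := hx
  have h2n : ¬ 2 ∣ n := fun h => (Nat.not_even_iff_odd.2 hn) (even_iff_two_dvd.2 h)
  obtain ⟨S, hS, hxS⟩ := syl_superset Nat.prime_two (isPi_zpowers.2 (hx ▸ piNat_pow Nat.prime_two _))
    (le_top : zpowers x ≤ ⊤)
  obtain ⟨P, rfl⟩ := hS.exists_sylow_top Nat.prime_two
  have hcard : ♯(P : Subgroup G) = 2 ^ a := by
    rw [P.card_eq_multiplicity, hG, Nat.factorization_mul (by positivity) (by rintro rfl; simp at hn),
      Finsupp.add_apply, Nat.factorization_eq_zero_of_not_dvd h2n, Nat.prime_two.factorization_pow]; simp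
  have hi : (zpowers x).relIndex P ≤ 2 := by
    have := card_mul_relIndex hxS
    rw [Nat.card_zpowers, hx, hcard] at this
    rcases a with _ | a
    · simp only [Nat.zero_sub, pow_zero, one_mul] at this; omega
    · rw [Nat.add_sub_cancel, pow_succ] at this
      exact (Nat.eq_of_mul_eq_mul_left (by positivity) this).le
  have hnpc : HasNormalPComplement 2 G := by
    refine CA.Hyperfocal.hasNPC_of_forall_le_sylow P fun Q hQ _ g hg ho => ?_
    by_contra hc
    obtain ⟨r, hr1, hr2, i, h1, h2, h3'⟩ := CA.Fus3.exists_prime_dvd_of_rank (P.2.to_le hQ) hg hc ho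
    have hrk : Group.rank Q ≤ 2 := by
      obtain ⟨y, hy⟩ := exists_zpowers_of_cyc (cyc_of_le (cyc_zpowers x) (inf_le_left : zpowers x ⊓ Q ≤ _))
      have hle : (zpowers x).relIndex Q ≤ 2 := (relIndex_le_of_le_right hQ (relIndex_ne_zero' _ _)).trans hi
      obtain ⟨w, hw⟩ : ∃ w, closure (({y, w} : Finset G) : Set G) = Q := by
        by_cases hQx : Q ≤ zpowers x
        · refine ⟨y, ?_⟩
          rw [inf_of_le_right hQx] at hy
          simp [← hy, zpowers_eq_closure]
        · obtain ⟨w, hw1, hw2⟩ := SetLike.not_le_iff_exists.1 hQx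
          refine ⟨w, ?_⟩
          have hyQ : y ∈ Q := (hy ▸ mem_zpowers y : y ∈ zpowers x ⊓ Q).2
          have hle2 : closure (({y, w} : Finset G) : Set G) ≤ Q := by
            rw [closure_le]; intro u hu; simp at hu; rcases hu with rfl | rfl; exacts [hyQ, hw1]
          have hlt : zpowers x ⊓ Q < closure (({y, w} : Finset G) : Set G) := by
            refine lt_of_le_of_ne (by rw [← hy, zpowers_le_iff]; exact subset_closure (by simp)) fun he => hw2 ?_
            exact (he ▸ (subset_closure (by simp) : w ∈ closure (({y, w} : Finset G) : Set G)) : w ∈ zpowers x ⊓ Q).1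
          apply eq_of_le_of_card_le hle2
          have c1 := card_inf_mul_relIndex (zpowers x) Q
          obtain ⟨m, hm⟩ := card_dvd hlt.le
          have c2 := card_lt_of_lt hlt
          have c3 := card_pos' (zpowers x ⊓ Q)
          have : 2 ≤ m := by
            by_contra hh
            have : m = 0 ∨ m = 1 := by omega
            rcases this with rfl | rfl <;> omega
          nlinarith
      rw [← Subgroup.rank_congr hw]
      exact (rank_closure_finset_le_card _).trans Finset.card_le_two
    have : i = 1 ∨ i = 2 := by omega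
    rcases this with rfl | rfl
    · exact hr1.one_lt.ne' (Nat.dvd_one.1 h3')
    · have := (Nat.prime_dvd_prime_iff_eq hr1 Nat.prime_three).1 h3'
      have h4 : 3 ∣ 2 ^ a * n := hG ▸ this ▸ hr2.trans (orderOf_dvd_natCard g)
      exact h3 ((Nat.Coprime.dvd_mul_left (Nat.Coprime.pow_right _ (by decide))).1 h4)
  obtain ⟨P', N, hN, hc⟩ := hnpc
  refine ⟨N, hN, ?_⟩
  have := hc.card_mul
  rw [hG, (syl_top Nat.prime_two P').card_eq hS, hcard, mul_comm] at this
  exact Nat.eq_of_mul_eq_mul_left (by positivity) this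

end Cfsg.Agent.S3971
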