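import Cfsg.Statements.S3973
import Cfsg.Agent.Lib.Grp.SchurTr

set_option autoImplicit false
open Cfsg

namespace Cfsg.Agent.S3973

open CA.SchurHopf CA.SchurExt CA.SchurTr
open Module

/-- If a finite group is presented by `n` generators and a finite set of `r` relators, then its Schur multiplier can be generated by `r - n` elements. In particular a finite group with a presentation having as many relators as generators has trivial Schur multiplier. -/
theorem result (n : ℕ) (rels : Finset (FreeGroup (Fin n))) [Finite (PresentedGroup (rels : Set (FreeGroup (Fin n))))] {A : Type*} [CommGroup A] [Finite A] (hA : Cfsg.HasSchurMultiplier (PresentedGroup (rels : Set (FreeGroup (Fin n)))) A) : Group.rank A ≤ rels.card - n := by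
  classical
  set G := PresentedGroup (rels : Set (FreeGroup (Fin n)))
  let π : FreeGroup (Fin n) →* G := PresentedGroup.mk _
  have hπ : Function.Surjective π := PresentedGroup.mk_surjective _
  obtain ⟨e⟩ := unique hA (has_M hπ)
  haveI := finite_right (has_M hπ)
  rw [Group.rank_congr e]
  letI : CommGroup (pE π).ker := { (inferInstance : Group (pE π).ker) with
    mul_comm := fun a b => Subtype.ext (Subgroup.mem_center_iff.mp (pE_central _ b.2) a.1) }
  let g : rels → (pE π).ker := fun r => ⟨(r.1 : E π), PresentedGroup.one_of_mem (Finset.mem_coe.mpr r.2)⟩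
  let f : (rels → ℤ) →ₗ[ℤ] Additive (pE π).ker :=
    Fintype.linearCombination ℤ fun r => Additive.ofMul (g r)
  have hf : Function.Surjective f := by
    let H : Subgroup (E π) := (AddSubgroup.toSubgroup' (LinearMap.range f).toAddSubgroup).map
      (pE π).ker.subtype
    haveI : H.Normal := normal_of_central ((Subgroup.map_subtype_le _).trans (pE_central π))
    have h1 : Subgroup.normalClosure (rels : Set (FreeGroup (Fin n))) ≤
        H.comap (QuotientGroup.mk' _) := by
      refine Subgroup.normalClosure_le_normal fun r hr => ⟨g ⟨r, hr⟩, ⟨Pi.single ⟨r, hr⟩ 1, ?_⟩, rfl⟩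
      simp only [f, Fintype.linearCombination_apply_single, one_smul]
      rfl
    rintro ⟨x, hx⟩
    obtain ⟨x, rfl⟩ := QuotientGroup.mk_surjective x
    obtain ⟨y, ⟨c, hc⟩, hy⟩ := h1 ((QuotientGroup.eq_one_iff x).mp hx)
    exact ⟨c, hc.trans (congrArg Additive.ofMul (Subtype.ext hy))⟩
  -- exponent sums
  let a0 : FreeGroup (Fin n) →* Multiplicative (Fin n → ℤ) :=
    FreeGroup.lift fun i => Multiplicative.ofAdd (Pi.single i 1)
  let a1 : E π →* Multiplicative (Fin n → ℤ) := QuotientGroup.lift _ a0
    ((Subgroup.commutator_mono le_top le_top).trans (Abelianization.commutator_subset_ker a0))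
  let a : Additive (pE π).ker →ₗ[ℤ] (Fin n → ℤ) :=
    (MonoidHom.toAdditiveLeft (a1.comp (pE π).ker.subtype)).toIntLinearMap
  have hN : Nat.card G ≠ 0 := Nat.card_pos.ne'
  have h2 : n ≤ finrank ℤ (LinearMap.range (a ∘ₗ f)) := by
    have h3 : LinearMap.range ((Nat.card G : ℤ) • (LinearMap.id : (Fin n → ℤ) →ₗ[ℤ] (Fin n → ℤ))) ≤
        LinearMap.range (a ∘ₗ f) := by
      rw [LinearMap.range_comp_of_range_eq_top _ (LinearMap.range_eq_top.mpr hf),
        LinearMap.range_eq_map, ← (Pi.basisFun ℤ (Fin n)).span_eq, Submodule.map_span_le]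
      rintro _ ⟨i, rfl⟩
      refine ⟨Additive.ofMul ⟨((FreeGroup.of i ^ Nat.card G : FreeGroup (Fin n)) : E π), ?_⟩, ?_⟩
      · show π _ = 1
        rw [map_pow, pow_card_eq_one']
      · show (a0 (FreeGroup.of i ^ Nat.card G)).toAdd = _
        simp [a0]
    have h4 := Submodule.finrank_mono h3
    rwa [LinearMap.finrank_range_of_inj (fun x y h => funext fun i =>
      mul_left_cancel₀ (Nat.cast_ne_zero.mpr hN : (Nat.card G : ℤ) ≠ 0) (congrFun h i)),
      Module.finrank_fin_fun] at h4
  have h3 := Submodule.finrank_quotient_add_finrank (LinearMap.ker (a ∘ₗ f))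
  rw [(a ∘ₗ f).quotKerEquivRange.finrank_eq, Module.finrank_fintype_fun_eq_card, Fintype.card_coe] at h3
  let b := Module.finBasis ℤ (LinearMap.ker (a ∘ₗ f))
  -- elements killed by `a` lie in the multiplier
  have h4 : ∀ x : (pE π).ker, a (Additive.ofMul x) = 0 → (x : E π) ∈ commutator (E π) := by
    intro x hx
    let c : Multiplicative (Fin n → ℤ) →* Abelianization (E π) := AddMonoidHom.toMultiplicativeLeft
      (Fintype.linearCombination ℤ fun i =>
        Additive.ofMul (Abelianization.of ((FreeGroup.of i : FreeGroup (Fin n)) : E π))).toAddMonoidHom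
    have h5 : c.comp a1 = Abelianization.of := by
      ext i
      show c (a0 (FreeGroup.of i)) = _
      simp [c, a0]
    rw [← Abelianization.ker_of, MonoidHom.mem_ker, ← h5, MonoidHom.comp_apply,
      show a1 x = 1 from hx, map_one]
  let F : LinearMap.ker (a ∘ₗ f) →ₗ[ℤ] Additive (M π) :=
    (AddMonoidHom.mk' (fun v => Additive.ofMul ⟨(f v).toMul, (f v).toMul.2, h4 _ v.2⟩) fun v w => by
      apply Additive.toMul.injective
      apply Subtype.ext
      simp).toIntLinearMap
  have hF : Function.Surjective F := by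
    rintro ⟨x, h5, h6⟩
    obtain ⟨c, hc⟩ := hf (Additive.ofMul ⟨x, h5⟩)
    refine ⟨⟨c, ?_⟩, ?_⟩
    · rw [LinearMap.mem_ker, LinearMap.comp_apply, hc]
      exact Abelianization.commutator_subset_ker a1 h6
    · exact Subtype.ext (congrArg (fun y : Additive (pE π).ker => (y.toMul : E π)) hc)
  refine (Group.rank_le (S := Finset.univ.image fun i => (F (b i)).toMul) ?_).trans
    (Finset.card_image_le.trans (by simp only [Finset.card_univ, Fintype.card_fin]; omega))
  rw [eq_top_iff]
  rintro x -
  obtain ⟨v, hv⟩ := hF (Additive.ofMul x)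
  rw [show x = (F v).toMul by rw [hv]; rfl, ← b.sum_repr v, map_sum, toMul_sum]
  refine Subgroup.prod_mem _ fun i _ => ?_
  rw [map_smul, toMul_zsmul]
  exact Subgroup.zpow_mem _ (Subgroup.subset_closure (by simp)) _

end Cfsg.Agent.S3973
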