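import Cfsg.Statements.S3977
import Cfsg.Agent.Lib.Odd.BGRank
import Cfsg.Agent.Lib.Grp.PGFrattini

set_option autoImplicit false
open Cfsg

namespace Cfsg.Agent.S3977

open Subgroup CA.BG CA.PGBasic CA.PGFrattini CA.PGNormalCyclic CA.PGCyclicMax

/-- Let `p` be a prime and `G` a group of order `p ^ m` which has exactly one subgroup of order `p ^ s`, where `1 ≤ s < m`, and where `s ≥ 2` if `p = 2`. Then `G` is cyclic. (For `p = 2` and `s = 1` the generalized quaternion groups also occur; that case is the classical criterion for a unique involution.) -/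
theorem result {G : Type*} [Group G] [Finite G] (p m s : ℕ) (hp : p.Prime) (hG : Nat.card G = p ^ m) (hs : 1 ≤ s) (hsm : s < m) (h2 : p ≠ 2 ∨ 2 ≤ s) (huniq : ∀ H K : Subgroup G, Nat.card H = p ^ s → Nat.card K = p ^ s → H = K) : IsCyclic G := by
  haveI : Fact p.Prime := ⟨hp⟩
  have hP : IsPGroup p G := IsPGroup.of_card hG
  have hT : IsPi {p} (⊤ : Subgroup G) := isPi_of_isPGroup hp (hP.to_subgroup _)
  have hc : ∀ j ≤ m, p ^ j ≤ ♯(⊤ : Subgroup G) := fun j hj => by
    rw [card_top, hG]; exact Nat.pow_le_pow_right hp.pos hj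
  obtain ⟨H, -, hH⟩ := exists_card_pow hp hT (hc s hsm.le)
  have key : ∀ x : G, x ^ p ^ s = 1 → x ∈ H := by
    intro x hx
    obtain ⟨i, hi, e⟩ := (Nat.dvd_prime_pow hp).1 (orderOf_dvd_of_pow_eq_one hx)
    obtain ⟨C, h1, -, h2⟩ := exists_card_between hp hT (A := zpowers x) le_top
      (by rw [Nat.card_zpowers, e]) hi (hc s hsm.le)
    exact huniq C H h2 hH ▸ h1 (mem_zpowers x)
  obtain ⟨K, hHK, -, hK⟩ := exists_card_between hp hT (A := H) le_top hH (Nat.le_succ s) (hc _ hsm)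
  have hKc : IsCyclic K := by
    refine isCyclic_of_unique_coatom (M := H.subgroupOf K) (fun h => ?_) fun L hL => ?_
    · have := card_le_of_le (subgroupOf_eq_top.1 h)
      rw [hK, hH] at this
      exact absurd this (not_le.2 (Nat.pow_lt_pow_right hp.one_lt (Nat.lt_succ_self s)))
    · have h1 := L.card_mul_index
      rw [index_eq_of_isCoatom (hP.to_subgroup K) hL, hK, pow_succ] at h1
      have h2 := huniq (L.map K.subtype) H (by
        rw [card_map_of_injective K.subtype_injective]; exact Nat.eq_of_mul_eq_mul_right hp.pos h1) hH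
      rw [← h2, subgroupOf, comap_map_eq_self_of_injective K.subtype_injective]
  have hHc : IsCyclic H := Subgroup.isCyclic_of_le hHK
  rcases trichotomy hP with h | ⟨E, -, hE, hc⟩ | ⟨rfl, n, a, y, ha, -, h, -⟩
  · exact h
  · refine absurd (Subgroup.isCyclic_of_le (H' := H) fun x hx => key x ?_)
      (not_isCyclic_of_elementary hp.pos hE.2 ?_)
    · obtain ⟨t, rfl⟩ := Nat.exists_eq_add_of_le' hs
      rw [pow_succ', pow_mul, hE.2 x hx, one_pow]
    · rw [hc]; nlinarith [hp.two_le]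
  exfalso
  obtain ⟨t, rfl⟩ := Nat.exists_eq_add_of_le' (h2.resolve_left (by simp))
  obtain ⟨k, rfl⟩ := Nat.exists_eq_add_of_le' h.1
  have four : ∀ x : G, x ^ 4 = 1 → x ∈ H := fun x hx => key x (by
    rw [pow_add, mul_comm, pow_mul]; norm_num [hx])
  have ha1 : a ^ 2 ^ (k + 2) = 1 := ha ▸ pow_orderOf_eq_one a
  have hy : y ∈ H := four y (by
    rw [show (4 : ℕ) = 2 * 2 by rfl, pow_mul]
    rcases h.2 with h | h | h
    · rw [h.1, one_pow]
    · rw [h.1, ← pow_mul]; exact ha1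
    · rw [h.2.1, one_pow])
  have hb : a ^ 2 ^ k ∈ H := four _ (by rw [← pow_mul, ← ha1]; congr 1; ring)
  obtain ⟨u, hu, ⟨v, hv⟩, -⟩ := dqs_conj h
  have h3 := conj_zpow_eq hu (2 ^ k)
  have h4 : y * a ^ 2 ^ k = a ^ 2 ^ k * y := congrArg Subtype.val
    (hHc.isMulCommutative.is_comm.comm (⟨y, hy⟩ : H) ⟨_, hb⟩)
  rw [show (2 : ℤ) ^ k = ((2 ^ k : ℕ) : ℤ) by push_cast; rfl, zpow_natCast, h4,
    mul_inv_cancel_right, ← zpow_natCast, zpow_eq_zpow ha] at h3
  push_cast at h3
  rw [show (2 : ℤ) ^ k - u * 2 ^ k = 2 ^ k * (1 - u) by ring, pow_add,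
    Int.mul_dvd_mul_iff_left (by positivity)] at h3
  omega

end Cfsg.Agent.S3977
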