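import Cfsg.Statements.S3980
import Cfsg.Agent.S3959

set_option autoImplicit false
universe u v w
open Cfsg

namespace Cfsg.Agent.S3980

open CA.SchurHopf Cfsg.Agent.S3959

/-- Let `Q₁` and `Q₂` be finite groups whose commutator quotients have coprime orders, with Schur multipliers `A` and `B`. Then the Schur multiplier of `Q₁ × Q₂` is isomorphic to `A × B`. -/
theorem result {Q₁ : Type u} {Q₂ : Type v} [Group Q₁] [Group Q₂] [Finite Q₁] [Finite Q₂] {A B : Type w} [CommGroup A] [CommGroup B] (hA : Cfsg.HasSchurMultiplier Q₁ A) (hB : Cfsg.HasSchurMultiplier Q₂ B) (hcop : Nat.Coprime (Nat.card (Abelianization Q₁)) (Nat.card (Abelianization Q₂))) : Cfsg.HasSchurMultiplier (Q₁ × Q₂) (A × B) := by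
  have h := Cfsg.Agent.S3959.result hA hB
  haveI : Unique (T Q₁ Q₂) := ⟨⟨1⟩, fun t => by
    refine tm_gen ⊥ (fun a b => ?_) t
    have h1 : tm a b ^ Nat.card (Abelianization Q₁) = 1 := by
      refine ((MonoidHom.mk' (fun a : Q₁ => tm a b) fun x y => tm_mul_left x y b).map_pow a _).symm.trans ?_
      show tm _ _ = 1
      rw [tm, map_pow, pow_card_eq_one']; simp
    have h2 : tm a b ^ Nat.card (Abelianization Q₂) = 1 := by
      refine ((MonoidHom.mk' (fun b : Q₂ => tm a b) fun x y => tm_mul_right a x y).map_pow b _).symm.trans ?_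
      show tm _ _ = 1
      rw [tm, map_pow, pow_card_eq_one']; simp
    have := (pow_gcd_eq_one.mpr ⟨h1, h2⟩)
    rwa [hcop, pow_one] at this⟩
  exact congr_right h ((MulEquiv.refl A).prodCongr MulEquiv.prodUnique)

end Cfsg.Agent.S3980
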