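import Cfsg.Statements.S3992
import Cfsg.Agent.S1475
import Cfsg.Agent.Lib.Grp.Core
import Cfsg.Agent.Lib.Char.CharBurn

set_option autoImplicit false
open Cfsg

namespace Cfsg.Agent.S3992

open CA.Core Subgroup

theorem comm_sub {X : Type*} [Group X] [Finite X] (hpp : ∀ g : X, g ≠ 1 → IsPrimePow (orderOf g)) {A B : Subgroup X}
    (hB : B ≠ ⊥) (h : ∀ a ∈ A, ∀ b ∈ B, a * b = b * a) : ∃ p : ℕ, p.Prime ∧ IsPGroup p A := by
  obtain ⟨⟨b, hb⟩, hb1⟩ := ne_bot_iff_exists_ne_one.1 hB
  have hb1' : b ≠ 1 := fun e => hb1 (Subtype.ext e)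
  obtain ⟨p, hp, hd⟩ := Nat.exists_prime_and_dvd (mt orderOf_eq_one_iff.1 hb1')
  refine ⟨p, hp, fun a => ?_⟩
  by_cases ha : (a : X) = 1
  · exact ⟨0, Subtype.ext (by simpa using ha)⟩
  obtain ⟨q, k, hq, hk, e⟩ := (isPrimePow_nat_iff _).1 (hpp a ha)
  by_cases hqp : q = p
  · subst hqp
    exact ⟨k, Subtype.ext (by simpa [e] using pow_orderOf_eq_one (a : X))⟩
  exfalso
  obtain ⟨g, hg⟩ := S1475.exists_mul (h a a.2 b hb) hq hp hqp (e ▸ dvd_pow_self q hk.ne') hd
  have g1 : g ≠ 1 := fun e1 => by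
    rw [e1, orderOf_one] at hg
    exact hq.one_lt.ne' (Nat.eq_one_of_mul_eq_one_right hg.symm)
  obtain ⟨t, j, ht, -, e2⟩ := (isPrimePow_nat_iff _).1 (hpp g g1)
  rw [hg] at e2
  exact hqp (((Nat.prime_dvd_prime_iff_eq hq ht).1 (hq.dvd_of_dvd_pow (e2 ▸ dvd_mul_right q p))).trans
    ((Nat.prime_dvd_prime_iff_eq hp ht).1 (hp.dvd_of_dvd_pow (e2 ▸ dvd_mul_left p q))).symm)

theorem uniq_min {X : Type*} [Group X] [Finite X] [Nontrivial X] (hpp : ∀ g : X, g ≠ 1 → IsPrimePow (orderOf g))
    (hc : ∀ p : ℕ, p.Prime → pCore p X = ⊥) :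
    ∃ M : Subgroup X, M.Normal ∧ M ≠ ⊥ ∧ ∀ N : Subgroup X, N.Normal → N ≠ ⊥ → M ≤ N := by
  obtain ⟨M, ⟨hM, hM1⟩, hmin⟩ := (wellFounded_lt (α := Subgroup X)).has_min
    {N : Subgroup X | N.Normal ∧ N ≠ ⊥} ⟨⊤, inferInstance, top_ne_bot⟩
  refine ⟨M, hM, hM1, fun N hN hN1 => ?_⟩
  by_cases hi : M ⊓ N = ⊥
  · obtain ⟨p, hp, hP⟩ := comm_sub hpp (A := M) hN1 fun a ha b hb =>
      commute_of_normal_of_disjoint M N hM hN (disjoint_iff.2 hi) a b ha hb
    exact absurd (le_bot_iff.1 ((le_pCore hP).trans (hc p hp).le)) hM1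
  · have := hmin (M ⊓ N) ⟨inferInstance, hi⟩
    exact inf_eq_left.1 (((inf_le_left : M ⊓ N ≤ M).lt_or_eq).resolve_left this)

theorem main {X : Type*} [Group X] [Finite X] [Nontrivial X] (hpp : ∀ g : X, g ≠ 1 → IsPrimePow (orderOf g))
    (hc : ∀ N : Subgroup X, N.Normal → Group.IsSolvable N → N = ⊥) :
    ∃ M : Subgroup X, M.Normal ∧ IsSimpleGroup M ∧ ¬ IsMulCommutative M ∧
      ∀ N : Subgroup X, N.Normal → N ≠ ⊥ → M ≤ N := by
  have hc' : ∀ p : ℕ, p.Prime → pCore p X = ⊥ := fun p hp => by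
    haveI := Fact.mk hp
    exact hc _ inferInstance (isSolvable_of_isPGroup isPGroup_pCore)
  obtain ⟨M, hM, hM1, hmin⟩ := uniq_min hpp hc'
  haveI : Nontrivial M := (nontrivial_iff_ne_bot M).2 hM1
  obtain ⟨K, hK, hK1, hKmin⟩ := uniq_min (X := M)
    (fun g hg => by rw [← Subgroup.orderOf_coe]; exact hpp g fun e => hg (Subtype.ext e))
    (fun p hp => (map_eq_bot_iff_of_injective _ M.subtype_injective).1
      (le_bot_iff.1 ((map_pCore_le_of_normal M).trans (hc' p hp).le)))
  haveI : K.Characteristic := characteristic_iff_le_comap.2 fun φ => hKmin _ (hK.comap _) fun e => hK1 (by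
    have := congrArg (map φ.toMonoidHom) e
    rwa [map_comap_eq_self_of_surjective φ.surjective, Subgroup.map_bot] at this)
  have hKt : K = ⊤ := by
    have h1 := hmin (K.map M.subtype) inferInstance
      (fun e => hK1 ((map_eq_bot_iff_of_injective _ M.subtype_injective).1 e))
    refine eq_top_iff.2 fun x _ => ?_
    obtain ⟨y, hy, e⟩ := h1 x.2
    rwa [← (Subtype.ext e : y = x)]
  refine ⟨M, hM, ⟨fun N hN => ?_⟩, fun h => hM1 (hc M hM (isSolvable_of_isMulCommutative h)), hmin⟩
  by_cases h : N = ⊥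
  · exact Or.inl h
  · exact Or.inr (eq_top_iff.2 (hKt ▸ hKmin N hN h))

/-- Let G be a finite non-solvable group in which every element has prime-power order, and let R be its largest solvable normal subgroup. Then R is a p-group for some prime p; G/R has a non-abelian simple normal subgroup contained in every nontrivial normal subgroup of G/R (its unique minimal normal subgroup); and the order of every solvable subgroup of G has at most two prime divisors. -/
theorem result {G : Type*} [Group G] [Finite G] (hns : ¬ Group.IsSolvable G) (hpp : ∀ g : G, g ≠ 1 → IsPrimePow (orderOf g))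
    (R : Subgroup G) [R.Normal] (hRs : Group.IsSolvable ↥R) (hRmax : ∀ N : Subgroup G, N.Normal → Group.IsSolvable ↥N → N ≤ R) :
    (∃ p : ℕ, p.Prime ∧ IsPGroup p ↥R) ∧
      (∃ M : Subgroup (G ⧸ R), M.Normal ∧ IsSimpleGroup ↥M ∧ ¬ IsMulCommutative ↥M ∧
        ∀ N : Subgroup (G ⧸ R), N.Normal → N ≠ ⊥ → M ≤ N) ∧
      ∀ H : Subgroup G, Group.IsSolvable ↥H → (Nat.card ↥H).primeFactors.card ≤ 2 := by
  have h3 : ∀ H : Subgroup G, Group.IsSolvable ↥H → (Nat.card ↥H).primeFactors.card ≤ 2 := fun H hH =>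
    S1475.result fun g => by
      by_cases hg : g = 1
      · exact Or.inr hg
      · left; rw [← Subgroup.orderOf_coe]; exact hpp g fun e => hg (Subtype.ext e)
  have hker : Group.IsSolvable (QuotientGroup.mk' R).ker := by rw [QuotientGroup.ker_mk']; exact hRs
  have hq : ¬ Group.IsSolvable (G ⧸ R) := fun h => hns (by
    have := isSolvable_comap (A := (⊤ : Subgroup (G ⧸ R))) inferInstance (QuotientGroup.mk' R) hker
    rw [comap_top] at this
    exact isSolvable_of_equiv topEquiv this)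
  refine ⟨?_, ?_, h3⟩
  · by_cases h1 : (Nat.card R).primeFactors.card ≤ 1
    · obtain ⟨p, hp⟩ := Finset.card_le_one_iff_subset_singleton.mp h1
      by_cases hR : Nat.card R = 1
      · exact ⟨2, Nat.prime_two, IsPGroup.of_card (n := 0) (by simpa using hR)⟩
      obtain ⟨q, hq, hd⟩ := Nat.exists_prime_and_dvd hR
      have hqp : ∀ r : ℕ, r.Prime → r ∣ Nat.card R → r = p := fun r hr hd =>
        Finset.mem_singleton.1 (hp (Nat.mem_primeFactors.2 ⟨hr, hd, Nat.card_pos.ne'⟩))
      refine ⟨q, hq, IsPGroup.of_card (n := (Nat.card R).primeFactorsList.length) ?_⟩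
      exact Nat.eq_prime_pow_of_unique_prime_dvd Nat.card_pos.ne' fun {d} hd' hdd =>
        (hqp d hd' hdd).trans (hqp q hq hd).symm
    · exfalso
      have hG : ¬ (Nat.card G).primeFactors.card ≤ 2 := fun h =>
        hns (CChar.CharBurn.isSolvable_of_card_primeFactors_le h)
      have h2 := h3 R hRs
      obtain ⟨r, hr, hr'⟩ : ∃ r ∈ (Nat.card G).primeFactors, r ∉ (Nat.card R).primeFactors := by
        by_contra hc
        push Not at hc
        exact hG ((Finset.card_le_card hc).trans h2)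
      have rp := Nat.prime_of_mem_primeFactors hr
      haveI := Fact.mk rp
      obtain ⟨g, hg⟩ := exists_prime_orderOf_dvd_card' r (Nat.dvd_of_mem_primeFactors hr)
      have hs : Group.IsSolvable (zpowers g ⊔ R : Subgroup G) :=
        isSolvable_sup_normal (isSolvable_of_isMulCommutative inferInstance) hRs
      have h4 := h3 _ hs
      have hsub : insert r (Nat.card R).primeFactors ⊆ (Nat.card (zpowers g ⊔ R : Subgroup G)).primeFactors := by
        intro t ht
        rcases Finset.mem_insert.1 ht with rfl | ht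
        · refine Nat.mem_primeFactors.2 ⟨rp, ?_, Nat.card_pos.ne'⟩
          rw [← hg, ← Nat.card_zpowers]
          exact card_dvd_of_le le_sup_left
        · exact Nat.mem_primeFactors.2 ⟨Nat.prime_of_mem_primeFactors ht,
            (Nat.dvd_of_mem_primeFactors ht).trans (card_dvd_of_le le_sup_right), Nat.card_pos.ne'⟩
      have := Finset.card_le_card hsub
      rw [Finset.card_insert_of_notMem hr'] at this
      omega
  · haveI : Nontrivial (G ⧸ R) := by
      by_contra h
      rw [not_nontrivial_iff_subsingleton] at h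
      exact hq inferInstance
    refine main (fun g hg => ?_) fun N hN hs => ?_
    · obtain ⟨x, rfl⟩ := QuotientGroup.mk'_surjective R g
      have hx : x ≠ 1 := fun e => hg (by rw [e, map_one])
      obtain ⟨p, k, hp, hk, e⟩ := (isPrimePow_nat_iff _).1 (hpp x hx)
      obtain ⟨j, -, ej⟩ := (Nat.dvd_prime_pow hp).1 (e ▸ orderOf_map_dvd (QuotientGroup.mk' R) x)
      refine (isPrimePow_nat_iff _).2 ⟨p, j, hp, Nat.pos_of_ne_zero fun e0 => hg ?_, ej.symm⟩
      rw [e0, pow_zero] at ej
      exact orderOf_eq_one_iff.1 ej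
    · have h1 := hRmax _ (hN.comap _) (isSolvable_comap hs (QuotientGroup.mk' R) hker)
      refine eq_bot_iff.2 fun g hg => ?_
      obtain ⟨x, rfl⟩ := QuotientGroup.mk'_surjective R g
      exact (QuotientGroup.eq_one_iff x).2 (h1 hg)

end Cfsg.Agent.S3992
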