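import Cfsg.Statements.S3994
import Cfsg.Agent.Lib.Grp.L0Frob
import Cfsg.Agent.Lib.Lin.PSL2Four

set_option autoImplicit false
open Cfsg

namespace Cfsg.Agent.S3994

open Subgroup

/-- Let G be a finite group and n a positive integer. The number of elements of G whose order is divisible by n is either 0 or divisible by the largest divisor of the order of G that is coprime to n. -/
theorem result {G : Type*} [Group G] [Finite G] (n : ℕ) (hn : 0 < n) :
    Nat.card {g : G // n ∣ orderOf g} = 0 ∨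
      (Nat.card G / Nat.gcd (Nat.card G) (n ^ Nat.card G)) ∣ Nat.card {g : G // n ∣ orderOf g} := by
  right
  classical
  set m := Nat.card G / Nat.gcd (Nat.card G) (n ^ Nat.card G) with hm
  have hG : Nat.card G ≠ 0 := Nat.card_pos.ne'
  have hmG : m ∣ Nat.card G := Nat.div_dvd_of_dvd (Nat.gcd_dvd_left _ _)
  have hc : n.Coprime m := by
    refine Nat.coprime_of_dvd fun q hq h1 h2 => ?_
    have h3 : q ^ (Nat.card G).factorization q ∣ Nat.gcd (Nat.card G) (n ^ Nat.card G) :=
      Nat.dvd_gcd (Nat.ordProj_dvd _ _) ((pow_dvd_pow _ (Nat.factorization_lt q hG).le).trans (pow_dvd_pow_of_dvd h1 _))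
    have h4 := Nat.mul_dvd_mul h3 h2
    rw [hm, Nat.mul_div_cancel' (Nat.gcd_dvd_left _ _), ← pow_succ] at h4
    exact Nat.pow_succ_factorization_not_dvd hG hq h4
  have ho : ∀ g : G, n ∣ orderOf g ↔ n ∣ orderOf (g ^ m) := fun g => by
    refine ⟨fun h => ?_, fun h => h.trans (orderOf_pow_dvd m)⟩
    refine hc.dvd_of_dvd_mul_right (h.trans (orderOf_dvd_of_pow_eq_one ?_))
    rw [mul_comm, pow_mul, pow_orderOf_eq_one]
  haveI := Fintype.ofFinite G
  haveI := Fintype.ofFinite (ConjClasses G)
  rw [Nat.card_eq_fintype_card, Fintype.card_subtype,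
    Finset.card_eq_sum_card_fiberwise (f := fun g => ConjClasses.mk (g ^ m)) (t := Finset.univ) (fun _ _ => Finset.mem_univ _)]
  refine Finset.dvd_sum fun c _ => ?_
  obtain ⟨y, rfl⟩ := ConjClasses.mk_surjective c
  by_cases hy : n ∣ orderOf y
  · have e : ((Finset.univ.filter fun g : G => n ∣ orderOf g).filter fun g => ConjClasses.mk (g ^ m) = ConjClasses.mk y).card =
        Nat.card {g : G // g ^ m ∈ MulAction.orbit (ConjAct G) y} := by
      rw [Nat.card_eq_fintype_card, Fintype.card_subtype, Finset.filter_filter]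
      congr 1
      refine Finset.filter_congr fun g _ => ?_
      rw [ConjAct.mem_orbit_conjAct, ConjClasses.mk_eq_mk_iff_isConj, and_iff_right_iff_imp, ho]
      intro h
      obtain ⟨u, hu⟩ := isConj_iff.1 h
      rwa [← hu, CA.PSL2Struct.orderOf_conj] at hy
    rw [e, CA.PSL2Four.card_eq_mul_of_fibers (fun g : {g : G // g ^ m ∈ MulAction.orbit (ConjAct G) y} =>
      (⟨g.1 ^ m, g.2⟩ : MulAction.orbit (ConjAct G) y)) (Nat.card {x : G // x ^ m = y})]
    · have h1 := CA.L0Frob.gcd_dvd_card_pow_eq m y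
      refine dvd_trans ?_ (Nat.mul_dvd_mul_left _ h1)
      have h2 : Nat.card (MulAction.orbit (ConjAct G) y) * Nat.card (centralizer ({y} : Set G)) = Nat.card G := by
        rw [nat_card_centralizer_nat_card_stabilizer, ← Nat.card_prod]
        exact Nat.card_congr (MulAction.orbitProdStabilizerEquivGroup (ConjAct G) y)
      rw [← Nat.gcd_mul_left, h2]
      exact Nat.dvd_gcd (dvd_mul_left _ _) hmG
    · rintro ⟨z, hz⟩
      obtain ⟨u, rfl⟩ := isConj_iff.1 (ConjAct.mem_orbit_conjAct.1 hz).symm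
      refine Nat.card_congr ⟨fun a => ⟨u⁻¹ * a.1.1 * u, ?_⟩, fun a => ⟨⟨u * a.1 * u⁻¹, ?_⟩, Subtype.ext ?_⟩,
        fun a => Subtype.ext (Subtype.ext (by simp [mul_assoc])), fun a => Subtype.ext (by simp [mul_assoc])⟩
      · have : a.1.1 ^ m = u * y * u⁻¹ := congrArg Subtype.val a.2
        have h := conj_pow (a := u⁻¹) (b := a.1.1) (i := m)
        rw [inv_inv] at h
        rw [h, this]; group
      · rw [conj_pow, a.2]; exact hz
      · show (u * a.1 * u⁻¹) ^ m = _
        rw [conj_pow, a.2]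
  · rw [Finset.filter_eq_empty_iff.2, Finset.card_empty]
    · exact dvd_zero _
    intro g hg h
    obtain ⟨u, hu⟩ := isConj_iff.1 (ConjClasses.mk_eq_mk_iff_isConj.1 h)
    exact hy (by rw [← hu, CA.PSL2Struct.orderOf_conj, ← ho]; exact (Finset.mem_filter.1 hg).2)

end Cfsg.Agent.S3994
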