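import Cfsg.Statements.S3997
import Cfsg.Agent.Lib.Grp.L0Syl

set_option autoImplicit false
open Cfsg

namespace Cfsg.Agent.S3997

open Subgroup CA.L0Syl CA.SylIn

/-- Let G and H be finite groups with the same order type: for every m they have the same number of elements of order m. If G is nilpotent then so is H. -/
theorem result {G H : Type*} [Group G] [Finite G] [Group H] [Finite H] (hT : (∀ m : ℕ, Nat.card {g : G // orderOf g = m} = Nat.card {h : H // orderOf h = m})) (hG : Group.IsNilpotent G) :
    Group.IsNilpotent H := by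
  let ef : ∀ n, {g : G // orderOf g = n} ≃ {g : H // orderOf g = n} := fun n => (Finite.card_eq.1 (hT n)).some
  let e : G ≃ H := Equiv.ofFiberEquiv ef
  have he : ∀ a, orderOf (e a) = orderOf a := Equiv.ofFiberEquiv_map ef
  refine ((Group.isNilpotent_of_finite_tfae (G := H)).out 3 0).1 ?_
  intro p hp P
  obtain ⟨Q⟩ : Nonempty (Sylow p G) := inferInstance
  have hQ : (Q : Subgroup G).Normal := by
    have := ((Group.isNilpotent_of_finite_tfae (G := G)).out 0 3).1 hG
    exact this p hp Q
  have h1 : Nat.card P = Nat.card Q := by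
    rw [P.card_eq_multiplicity, Q.card_eq_multiplicity, Nat.card_congr e]
  have hmem : ∀ y : H, (∃ k : ℕ, orderOf y = p ^ k) → e.symm y ∈ (Q : Subgroup G) := by
    intro y hy
    have h2 : IsPGroup p (zpowers (e.symm y)) := isPGroup_zpowers (by rwa [← he, e.apply_symm_apply])
    exact (isSylowIn_top Q).le_of_le_normalizer' h2 le_top (le_top.trans (normalizer_eq_top _).ge) (mem_zpowers _)
  let f : P → Q := fun x => ⟨e.symm x, hmem _ (pElt_of_mem P.isPGroup' x.2)⟩
  have hf : Function.Bijective f := by
    refine (Nat.bijective_iff_injective_and_card f).2 ⟨fun x y hxy => ?_, h1⟩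
    exact Subtype.ext (e.symm.injective (congrArg Subtype.val hxy))
  constructor
  intro x hx g
  obtain ⟨k, hk⟩ := pElt_of_mem P.isPGroup' hx
  obtain ⟨y, hy⟩ := hf.2 ⟨e.symm (g * x * g⁻¹), hmem _ ⟨k, hk ▸ (MulAut.conj g).orderOf_eq x⟩⟩
  have h3 : e.symm y = e.symm (g * x * g⁻¹) := congrArg Subtype.val hy
  rw [← e.symm.injective h3]
  exact y.2

end Cfsg.Agent.S3997
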