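import Cfsg.Statements.S3998
import Mathlib
import Cfsg.Agent.Lib.Solv.SS1
import Cfsg.Agent.Lib.Grp.H1Hall
import Cfsg.Agent.Lib.Grp.Fitting

set_option autoImplicit false
open Cfsg

namespace Cfsg.Agent.S3998

open Subgroup CA.Core CA.Fitting CA.H1Hall

theorem normal_of_hall {F G : Type*} [Group F] [Finite F] [Group G] [Finite G] (e : G ≃ F)
    (he : ∀ g, orderOf (e g) = orderOf g) {π : Set ℕ} {L : Subgroup F} [L.Normal] (hL : Cfsg.IsPiHall π L)
    {K : Subgroup G} (hK : Cfsg.IsPiHall π K) : K.Normal := by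
  have c : Nat.card K = Nat.card L := eq_of_pi_mul (by
    rw [K.card_mul_index, L.card_mul_index, Nat.card_congr e]) hK.1 hK.2 hL.1 hL.2
  have h1 : ∀ y : G, orderOf y ∣ Nat.card K → e y ∈ L := fun y hy =>
    zpowers_le.1 (le_of_coprime_card_index (coprime_of_pi (π := π) (fun p hp h => hK.1 p hp (by
      rw [Nat.card_zpowers, he] at h; exact h.trans hy)) hL.2))
  have h2 : ∀ y : G, orderOf y ∣ Nat.card K → y ∈ K := fun y hy => by
    let φ : K → L := fun q => ⟨e q, h1 _ (K.orderOf_dvd_natCard q.2)⟩
    have hφ : Function.Injective φ := fun a b h => Subtype.ext (e.injective (Subtype.mk.inj h))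
    obtain ⟨q, hq⟩ := (hφ.bijective_of_nat_card_le c.ge).2 ⟨e y, h1 _ hy⟩
    rw [← e.injective (Subtype.mk.inj hq)]
    exact q.2
  exact ⟨fun x hx g => h2 _ (by
    rw [← MulAut.conj_apply, MulEquiv.orderOf_eq]; exact K.orderOf_dvd_natCard hx)⟩

/-- Let G and H be finite groups with the same order type (for every m the same number of elements of order m). If G is supersolvable then H is solvable. -/
theorem result {G H : Type*} [Group G] [Finite G] [Group H] [Finite H] (hT : (∀ m : ℕ, Nat.card {g : G // orderOf g = m} = Nat.card {h : H // orderOf h = m})) (hG : Cfsg.IsSupersolvable G) :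
    Group.IsSolvable H := by
  obtain ⟨e, he⟩ : ∃ e : H ≃ G, ∀ g, orderOf (e g) = orderOf g :=
    ⟨Equiv.ofFiberEquiv fun m => (Finite.card_eq.1 (hT m).symm).some, Equiv.ofFiberEquiv_map _⟩
  have ch := CA.BG.ss_iff_top.1 hG
  have : Group.IsSolvable G := isSolvable_of_equiv topEquiv ch.solv
  have key : ∀ k m : ℕ, k + m = Nat.card H + 1 → ∃ K : Subgroup H, K.Normal ∧ Group.IsSolvable K ∧
      Cfsg.IsPiHall {q | m ≤ q} K := by
    intro k
    induction k with
    | zero =>
      refine fun m hm => ⟨⊥, inferInstance, inferInstance, fun p hp h => ?_, fun p _ h h' => ?_⟩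
      · rw [card_bot] at h; exact absurd (Nat.dvd_one.1 h) hp.one_lt.ne'
      · rw [index_bot] at h'
        have := Nat.le_of_dvd Nat.card_pos h'
        have : m ≤ p := h
        omega
    | succ k ih =>
      intro m hm
      obtain ⟨K, _, hs, h1, h2⟩ := ih (m + 1) (by omega)
      by_cases hp : m.Prime
      · have := Fact.mk hp
        obtain ⟨P⟩ : Nonempty (Sylow m H) := inferInstance
        have hK : Cfsg.IsPiHall {q | m ≤ q} ((P : Subgroup H) ⊔ K) := by
          refine ⟨pi_card_sup le_normalizer_of_normal (fun p hp' h => ?_) fun p hp' h => ?_, fun p hp' h h' => ?_⟩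
          · exact (eq_of_prime_dvd_card_of_isPGroup hp hp' P.2 h).ge
          · exact Nat.le_of_succ_le (h1 p hp' h)
          · rcases (show m ≤ p from h).eq_or_lt with rfl | l
            · exact P.not_dvd_index (h'.trans (index_dvd_of_le le_sup_left))
            · exact h2 p hp' l (h'.trans (index_dvd_of_le le_sup_right))
        obtain ⟨L, l1, l2⟩ := exists_hall (G := G) {q | m ≤ q}
        have : L.Normal := normalizer_eq_top_iff.1 (top_le_iff.1 (ch.hall_norm (Q := L) (m := m)
          ⟨le_top, l1, by rwa [relIndex_top_right]⟩))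
        exact ⟨_, normal_of_hall e he ⟨l1, l2⟩ hK, isSolvable_sup_normal (isSolvable_of_isPGroup P.2) hs, hK⟩
      · refine ⟨K, inferInstance, hs, fun p hp' h => Nat.le_of_succ_le (h1 p hp' h), fun p hp' h => h2 p hp' ?_⟩
        exact (show m ≤ p from h).lt_of_ne fun e => hp (e ▸ hp')
  obtain ⟨K, -, hs, -, h⟩ := key _ 0 rfl
  rw [index_eq_one.1 (Nat.eq_one_iff_not_exists_prime_dvd.2 fun p hp => h p hp (Nat.zero_le p))] at hs
  exact isSolvable_of_equiv topEquiv hs

end Cfsg.Agent.S3998
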