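import Cfsg.Statements.S3999
import Mathlib
import Cfsg.Agent.Lib.Perm.FcStruct
import Cfsg.Agent.Lib.Grp.Kegel
import Cfsg.Agent.Lib.Char.CharBurn

set_option autoImplicit false
open Cfsg

namespace Cfsg.Agent.S3999

open Subgroup CA.Fc CA.FcStruct CA.Frob CA.Frob2 CA.Core CA.Fitting

theorem solvable_iff {G : Type*} [Group G] [Finite G] (h : FC G) :
    Group.IsSolvable G ↔ Nat.card {x : G // orderOf x = 3} ≤ 12 := by
  have o3 : ∀ x : G, orderOf x = 3 → x ^ 3 = 1 ∧ x ≠ 1 := fun x hx =>
    ⟨hx ▸ pow_orderOf_eq_one x, fun e => by simp [e] at hx⟩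
  by_cases hc : ∀ x y : G, x ^ 3 = 1 → y ^ 3 = 1 → x * y = y * x
  · refine iff_of_true ?_ ?_
    · by_contra hs
      obtain ⟨D, -, hD, hp⟩ := exists_perfect hs
      have := (nontrivial_iff_ne_bot D).2 hD
      obtain ⟨x, y, hx, hy, c⟩ := (h.subgroup D).exists_not_commute
      exact c (Subtype.ext (hc x y (congrArg Subtype.val hx) (congrArg Subtype.val hy)))
    · rcases isEmpty_or_nonempty {x : G // orderOf x = 3} with _ | ⟨⟨x, hx⟩⟩
      · simp
      · have : Nat.card {x : G // orderOf x = 3} ≤ Nat.card (zpowers x) :=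
          Nat.card_le_card_of_injective (fun y => ⟨y.1, by
            rcases h.eq_or_inv (o3 x hx).2 (o3 x hx).1 (o3 _ y.2).2 (o3 _ y.2).1
              (hc _ _ (o3 x hx).1 (o3 _ y.2).1) with e | e <;> simp [e]⟩)
            fun a b e => Subtype.ext (Subtype.mk.inj e)
        rw [Nat.card_zpowers, hx] at this
        omega
  push Not at hc
  obtain ⟨x, y, hx, hy, c⟩ := hc
  rcases h.omega_three hx hy c with ⟨π, h1, h2⟩ | ⟨π, h1, h2⟩
  · refine iff_of_true ?_ ?_
    · obtain ⟨f, -, h4⟩ := str_of_omega h (by simp) (by simp) π h1 h2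
        (a := ⟨Equiv.swap 0 1 * Equiv.swap 2 3, Equiv.Perm.mem_alternatingGroup.2 (by decide)⟩)
        (by decide) (by decide)
      have : Group.IsSolvable (Equiv.Perm (Fin 4)) := CChar.CharBurn.isSolvable_of_card_eq
        (a := 3) (b := 1) Nat.prime_two Nat.prime_three (by rw [Nat.card_perm, Nat.card_fin]; rfl)
      exact Group.isSolvable_of_ker_le_range f.ker.subtype f (by simp)
    · have : Nat.card {x : G // orderOf x = 3} ≤ Nat.card (alternatingGroup (Fin 4)) := by
        refine Nat.card_le_card_of_injective (fun y => π ⟨y.1, subset_closure (o3 _ y.2).1⟩) fun a b e => ?_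
        simp only at e
        rw [← mul_inv_eq_one, ← map_inv, ← map_mul, h2] at e
        have e' : (a.1 * b.1⁻¹) * (a.1 * b.1⁻¹) = 1 := congrArg Subtype.val e
        have c : Commute (a.1 * b.1⁻¹) b.1 := h.invol_central e' _
        have := c.mul_pow 3
        rw [inv_mul_cancel_right, (o3 _ a.2).1, (o3 _ b.2).1, mul_one, pow_succ, sq, e', one_mul] at this
        exact Subtype.ext (mul_inv_eq_one.1 this.symm)
      rwa [Nat.card_eq_fintype_card (α := alternatingGroup (Fin 4)), show Fintype.card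
        (alternatingGroup (Fin 4)) = 12 by decide +kernel] at this
  · refine iff_of_false (fun hs => ?_) (not_le.2 ?_)
    · have := Group.isSolvable_of_surjective h1
      exact Equiv.Perm.not_isSolvable_fin_5 (Group.isSolvable_of_ker_le_range
        (alternatingGroup (Fin 5)).subtype Equiv.Perm.sign (by rw [range_subtype]; rfl))
    · have key : ∀ a : {a : alternatingGroup (Fin 5) // a ≠ 1 ∧ a ^ 3 = 1}, ∃ z : closure {x : G | x ^ 3 = 1},
          π z = a ∧ orderOf (z : G) = 3 := by
        rintro ⟨a, a1, a3⟩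
        obtain ⟨z, rfl⟩ := h1 a
        have e : π (z ^ 4) = π z := by rw [map_pow, pow_succ, a3, one_mul]
        refine ⟨z ^ 4, e, ?_⟩
        rw [orderOf_coe]
        refine orderOf_eq_prime ?_ fun e' => a1 (by rw [← e, e', map_one])
        have := (h2 (z ^ 3)).1 (by rw [map_pow, a3])
        rw [← pow_mul, show 4 * 3 = (3 + 3) * 2 from rfl, pow_mul, pow_add, this, one_pow]
      choose s hs ho using key
      have := Nat.card_le_card_of_injective (fun a => (⟨s a, ho a⟩ : {x : G // orderOf x = 3}))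
        fun a b e => Subtype.ext (by
          rw [← hs, ← hs, show s a = s b from Subtype.ext (Subtype.mk.inj e)])
      rw [Nat.card_eq_fintype_card (α := {a : alternatingGroup (Fin 5) // a ≠ 1 ∧ a ^ 3 = 1}),
        show Fintype.card {a : alternatingGroup (Fin 5) // a ≠ 1 ∧ a ^ 3 = 1} = 20 by decide +kernel] at this
      omega

theorem count {G : Type*} [Group G] [Finite G] {K C : Subgroup G} [K.Normal] (hc : IsComplement' K C)
    (h : Semireg K C) {d : ℕ} (hd : ¬ d ∣ Nat.card K) :
    Nat.card {x : G // orderOf x = d} = Nat.card K * Nat.card {x : C // orderOf x = d} := by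
  have key : ∀ (k : K) (c : C), orderOf ((k : G) * c) = d ↔ orderOf c = d := by
    intro k c
    by_cases c1 : c = 1
    · subst c1
      refine iff_of_false (fun e => hd ?_) fun e => hd ?_
      · rw [← e, OneMemClass.coe_one, mul_one, orderOf_coe]; exact orderOf_dvd_natCard k
      · rw [← e, orderOf_one]; exact one_dvd _
    · obtain ⟨y, -, e⟩ := exists_conj_eq_mul (le_normalizer_of_normal (mem_top (c : G)))
        (h c c.2 fun e => c1 (Subtype.ext e)) k.2
      rw [← e, ← orderOf_coe c, ← MulAut.conj_apply, MulEquiv.orderOf_eq]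
  rw [← Nat.card_prod]
  refine (Nat.card_congr (Equiv.ofBijective (fun p : K × {x : C // orderOf x = d} =>
    (⟨p.1 * p.2.1, (key _ _).2 p.2.2⟩ : {x : G // orderOf x = d})) ⟨fun a b e => ?_, fun x => ?_⟩)).symm
  · have := hc.1 (a₁ := (a.1, a.2.1)) (a₂ := (b.1, b.2.1)) (congrArg Subtype.val e)
    exact Prod.ext (Prod.mk.inj this).1 (Subtype.ext (Prod.mk.inj this).2)
  · obtain ⟨⟨k, c⟩, e⟩ := hc.2 x.1
    exact ⟨(k, ⟨c, (key k c).1 (by rw [show (k : G) * c = x from e]; exact x.2)⟩), Subtype.ext e⟩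

theorem solvable_iff' {G : Type*} [Group G] [Finite G] {K C : Subgroup G} [K.Normal] (hc : IsComplement' K C)
    (h : Semireg K C) (hK : K ≠ ⊥) (hC : C ≠ ⊥) : Group.IsSolvable G ↔
      3 ∣ Nat.card K ∨ Nat.card {x : G // orderOf x = 3} ≤ Nat.card K * 12 := by
  have hn : C ≤ normalizer (K : Set G) := le_normalizer_of_normal
  have := CA.Kegel.isNilpotent_of_semireg hn hC h
  have e : Group.IsSolvable G ↔ Group.IsSolvable C := ⟨fun _ => inferInstance, fun _ => by
    have := isSolvable_sup_normal (A := C) (B := K) inferInstance inferInstance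
    rw [sup_comm, hc.sup_eq_top] at this
    exact isSolvable_of_equiv topEquiv this⟩
  rw [e, solvable_iff (of_semireg h hn hK)]
  by_cases h3 : 3 ∣ Nat.card K
  · refine iff_of_true ?_ (Or.inl h3)
    have : IsEmpty {x : C // orderOf x = 3} := ⟨fun x => by
      have := Nat.dvd_gcd (x.2 ▸ orderOf_dvd_natCard x.1) h3
      rw [h.coprime hn] at this
      omega⟩
    simp
  · rw [count hc h h3, or_iff_right h3, Nat.mul_le_mul_left_iff Nat.card_pos]

/-- Let F be a finite Frobenius group (it has a Frobenius complement) and G a finite group with the same order type as F (for every m the same number of elements of order m). Then G is a Frobenius group; moreover G is solvable if and only if F is. -/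
theorem result {F G : Type*} [Group F] [Finite F] [Group G] [Finite G] (hF : (∃ C : Subgroup F, Cfsg.IsFrobeniusComplement C)) (hT : (∀ m : ℕ, Nat.card {g : F // orderOf g = m} = Nat.card {h : G // orderOf h = m})) :
    (∃ C : Subgroup G, Cfsg.IsFrobeniusComplement C) ∧ (Group.IsSolvable G ↔ Group.IsSolvable F) := by
  obtain ⟨C, hC⟩ := hF
  obtain ⟨K, hK, -, -⟩ := CChar.CharBurn.exists_frobeniusKernel hC.2.2
  obtain ⟨_, hc, K1, hs⟩ := of_coe_eq_kernel hC hK
  have hn : C ≤ normalizer (K : Set F) := le_normalizer_of_normal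
  have nil := CA.Kegel.isNilpotent_of_semireg hn hC.1 hs
  have cop := hs.coprime hn
  obtain ⟨e, he⟩ : ∃ e : F ≃ G, ∀ g, orderOf (e g) = orderOf g :=
    ⟨Equiv.ofFiberEquiv fun m => (Finite.card_eq.1 (hT m)).some, Equiv.ofFiberEquiv_map _⟩
  have cG : Nat.card G = Nat.card K * Nat.card C := by rw [← Nat.card_congr e, hc.card_mul_card]
  let K' : Subgroup G := Cfsg.piCore {p | p ∣ Nat.card K} G
  have c1 : (Nat.card K').Coprime (Nat.card C) := Nat.coprime_of_dvd fun p hp h1 h2 =>
    hp.one_lt.ne' (Nat.eq_one_of_dvd_coprimes cop h2 (pi_piCore p hp h1))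
  have c2 : K'.index.Coprime (Nat.card K) := Nat.coprime_of_dvd fun p hp h1 h2 => by
    have := Fact.mk hp
    obtain ⟨P⟩ : Nonempty (Sylow p F) := inferInstance
    obtain ⟨Q⟩ : Nonempty (Sylow p G) := inferInstance
    have PK : (P : Subgroup F) ≤ K := le_of_isPGroup_of_not_dvd_index P.2 fun h3 => by
      rw [hc.symm.index_eq_card] at h3
      exact hp.one_lt.ne' (Nat.eq_one_of_dvd_coprimes cop h3 h2)
    have PN : (P : Subgroup F) = Cfsg.pCore p F := le_antisymm
      ((le_map_pCore_of_isNilpotent nil PK P.2).trans (map_pCore_le_of_normal K)) (pCore_le_sylow P)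
    have cPQ : Nat.card Q = Nat.card P := by rw [P.card_eq_multiplicity, Q.card_eq_multiplicity, Nat.card_congr e]
    have hP : ∀ x : F, orderOf x ∣ Nat.card P → x ∈ (P : Subgroup F) := fun x hx => by
      obtain ⟨n, hn⟩ := IsPGroup.iff_card.1 P.2
      have : IsPGroup p (zpowers x) := IsPGroup.of_card_dvd_pow (by rw [Nat.card_zpowers, ← hn]; exact hx)
      obtain ⟨R, hR⟩ := this.exists_le_sylow
      have : (P : Subgroup F).Normal := PN ▸ inferInstance
      have := Sylow.unique_of_normal P this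
      rw [Subsingleton.elim P R]
      exact hR (mem_zpowers x)
    have hQ : ∀ y : G, orderOf y ∣ Nat.card Q → y ∈ (Q : Subgroup G) := fun y hy => by
      let φ : Q → P := fun q => ⟨e.symm q, hP _ (by
        rw [← he, e.apply_symm_apply, ← cPQ, orderOf_coe]; exact orderOf_dvd_natCard q)⟩
      have hφ : Function.Injective φ := fun a b h => Subtype.ext (e.symm.injective (congrArg Subtype.val h))
      obtain ⟨q, hq⟩ := (hφ.bijective_of_nat_card_le cPQ.ge).2 ⟨e.symm y, hP _ (by
        rw [← he, e.apply_symm_apply, ← cPQ]; exact hy)⟩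
      rw [← e.symm.injective (Subtype.mk.inj hq)]
      exact q.2
    have : (Q : Subgroup G).Normal := ⟨fun x hx g => hQ _ (by
      rw [← MulAut.conj_apply, MulEquiv.orderOf_eq]; exact Subgroup.orderOf_dvd_natCard _ hx)⟩
    have : (Q : Subgroup G) ≤ K' := le_piCore fun q hq h => by
      obtain ⟨n, hn⟩ := IsPGroup.iff_card.1 Q.2
      rw [hn] at h
      rw [(Nat.prime_dvd_prime_iff_eq hq hp).1 (hq.dvd_of_dvd_pow h)]
      exact h2
    exact Q.not_dvd_index (h1.trans (index_dvd_of_le this))
  have c3 := K'.card_mul_index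
  rw [cG] at c3
  have c4 : Nat.card K' = Nat.card K := Nat.dvd_antisymm (c1.dvd_of_dvd_mul_right ⟨_, c3.symm⟩)
    (c2.symm.dvd_of_dvd_mul_right ⟨_, c3⟩)
  have c5 : K'.index = Nat.card C := Nat.eq_of_mul_eq_mul_left Nat.card_pos (c4 ▸ c3)
  obtain ⟨C', hc'⟩ := exists_right_complement'_of_coprime (N := K') (c5 ▸ c1)
  have c6 : Nat.card C' = Nat.card C := by rw [← c5, hc'.symm.index_eq_card]
  have K1' : K' ≠ ⊥ := fun e => K1 (card_eq_one.1 (by rw [← c4, e, card_bot]))
  have C1' : C' ≠ ⊥ := fun e => hC.1 (card_eq_one.1 (by rw [← c6, e, card_bot]))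
  have hs' : Semireg K' C' := semireg_iff.2 fun c hc0 c1 k hk cm => by
    have d1 : orderOf c ∣ Nat.card C := c6 ▸ Subgroup.orderOf_dvd_natCard _ hc0
    have d2 : orderOf k ∣ Nat.card K := c4 ▸ Subgroup.orderOf_dvd_natCard _ hk
    have o := Commute.orderOf_mul_eq_mul_orderOf_of_coprime cm (Nat.Coprime.of_dvd d1 d2 cop)
    rw [← e.apply_symm_apply (c * k), he] at o
    by_cases hx : e.symm (c * k) ∈ K
    · have := Subgroup.orderOf_dvd_natCard _ hx
      rw [o] at this
      exact absurd (orderOf_eq_one_iff.1 (Nat.eq_one_of_dvd_coprimes cop d1 ((dvd_mul_right _ _).trans this))) c1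
    · obtain ⟨u, -, y, hy, -, e'⟩ := hs.exists_conj hn (by rw [sup_comm, hc.sup_eq_top]; trivial) hx
      have := Subgroup.orderOf_dvd_natCard _ hy
      rw [← e', ← MulAut.conj_apply, MulEquiv.orderOf_eq] at o
      rw [o] at this
      exact orderOf_eq_one_iff.1 (Nat.eq_one_of_dvd_coprimes cop ((dvd_mul_left _ _).trans this) d2)
  refine ⟨⟨C', isFrob_of_semireg hc'.sup_eq_top K1' C1' hs'⟩, ?_⟩
  rw [solvable_iff' hc' hs' K1' C1', solvable_iff' hc hs K1 hC.1, c4, hT]

end Cfsg.Agent.S3999
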