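import Cfsg.Statements.S4002
import Cfsg.Agent.S1475
import Mathlib.NumberTheory.Bertrand

set_option autoImplicit false
open Cfsg

namespace Cfsg.Agent.S4002



/-- If the set of element orders of a finite group G is {1, 2, …, n} with n ≥ 7, then G is not solvable. -/
theorem result {G : Type*} [Group G] [Finite G] (n : ℕ) (hn : 7 ≤ n) (h : Set.range (orderOf : G → ℕ) = {k : ℕ | 1 ≤ k ∧ k ≤ n}) : ¬ Group.IsSolvable G := by
  intro hs
  have key : ∀ p q r : ℕ, p.Prime → q.Prime → r.Prime → p < q → q < r → r ≤ n → n < p * q → False := by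
    intro p q r hp hq hr h1 h2 h3 h4
    have d : ∀ t : ℕ, t.Prime → t ≤ n → t ∣ Nat.card G := fun t ht htn => by
      obtain ⟨g, hg⟩ : t ∈ Set.range (orderOf : G → ℕ) := h ▸ ⟨ht.one_le, htn⟩
      exact hg ▸ orderOf_dvd_natCard g
    obtain ⟨g, hg⟩ := S1475.three hp hq hr h1.ne (h1.trans h2).ne h2.ne (d p hp (by omega)) (d q hq (by omega)) (d r hr h3)
    have : orderOf g ≤ n := (h ▸ Set.mem_range_self g : orderOf g ∈ {k : ℕ | 1 ≤ k ∧ k ≤ n}).2
    have a1 : p * q ≤ p * r := Nat.mul_le_mul_left _ h2.le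
    have a2 : p * r ≤ q * r := Nat.mul_le_mul_right _ h1.le
    omega
  by_cases h14 : n ≤ 14
  · exact key 3 5 7 (by norm_num) (by norm_num) (by norm_num) (by norm_num) (by norm_num) hn (by omega)
  by_cases h34 : n ≤ 34
  · exact key 5 7 11 (by norm_num) (by norm_num) (by norm_num) (by norm_num) (by norm_num) (by omega) (by omega)
  by_cases h76 : n ≤ 76
  · exact key 7 11 13 (by norm_num) (by norm_num) (by norm_num) (by norm_num) (by norm_num) (by omega) (by omega)
  obtain ⟨p, hp, p1, p2⟩ := Nat.exists_prime_lt_and_le_two_mul (n / 8) (by omega)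
  obtain ⟨q, hq, q1, q2⟩ := Nat.exists_prime_lt_and_le_two_mul (2 * (n / 8)) (by omega)
  obtain ⟨r, hr, r1, r2⟩ := Nat.exists_prime_lt_and_le_two_mul (4 * (n / 8)) (by omega)
  refine key p q r hp hq hr (by omega) (by omega) (by omega) ?_
  have : 9 * q ≤ p * q := Nat.mul_le_mul_right _ (by omega)
  omega

end Cfsg.Agent.S4002
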