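import Cfsg.Statements.S4003
import Mathlib
import Cfsg.Agent.Lib.Loc.AmbIso
import Cfsg.Agent.Lib.Perm.PermMulti

set_option autoImplicit false
open Cfsg

namespace Cfsg.Agent.S4003

open Subgroup
open scoped Pointwise

theorem cls {A B : Type*} [Finite A] (s : Set A) (f : A → B) (k : ℕ) :
    ((∀ a ∈ s, k ∣ {b ∈ s | f b = f a}.ncard) → k ∣ s.ncard) ∧
    ((∀ a ∈ s, {b ∈ s | f b = f a}.ncard = k) → s.ncard = (f '' s).ncard * k) := by
  classical
  obtain ⟨t, rfl⟩ := (Set.toFinite s).exists_finset_coe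
  have e : ∀ a, {b ∈ (t : Set A) | f b = f a}.ncard = (t.filter (f · = f a)).card := fun a => by
    rw [← Set.ncard_coe_finset, Finset.coe_filter]; rfl
  simp only [e]
  rw [← Finset.coe_image, Set.ncard_coe_finset, Set.ncard_coe_finset,
    Finset.card_eq_sum_card_image f t]
  refine ⟨fun h => Finset.dvd_sum fun c hc => ?_, fun h => Finset.sum_const_nat fun c hc => ?_⟩ <;>
  · obtain ⟨a, ha, rfl⟩ := Finset.mem_image.1 hc
    exact h a ha

theorem geo (a n : ℕ) : ∃ t, ∑ i ∈ Finset.range n, (1 + a) ^ i =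
    n + a * ∑ i ∈ Finset.range n, i + a ^ 2 * t := by
  have h : ∀ n : ℕ, ∃ t, (1 + a) ^ n = 1 + n * a + a ^ 2 * t := fun n => by
    induction n with
    | zero => exact ⟨0, by simp⟩
    | succ n ih => obtain ⟨t, ht⟩ := ih; exact ⟨n + t + a * t, by rw [pow_succ, ht]; ring⟩
  induction n with
  | zero => exact ⟨0, by simp⟩
  | succ n ih =>
    obtain ⟨t, ht⟩ := ih
    obtain ⟨t', ht'⟩ := h n
    exact ⟨t + t', by rw [Finset.sum_range_succ, Finset.sum_range_succ, ht, ht']; ring⟩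

variable {G : Type*} [Group G] [Finite G]

theorem zp {x : G} {v : ℕ} (h : (orderOf x).Coprime v) : zpowers (x ^ v) = zpowers x :=
  eq_of_le_of_card_ge (zpowers_le.2 (pow_mem (mem_zpowers x) v))
    (by rw [Nat.card_zpowers, Nat.card_zpowers, h.orderOf_pow])

omit [Finite G] in
theorem mul_pow' {g e : G} {u : ℕ} (h : e * g * e⁻¹ = g ^ u) (n : ℕ) :
    (g * e) ^ n = g ^ (∑ i ∈ Finset.range n, u ^ i) * e ^ n := by
  have h1 : ∀ n : ℕ, e ^ n * g = g ^ u ^ n * e ^ n := fun n => by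
    induction n with
    | zero => simp
    | succ n ih =>
      rw [pow_succ' e, mul_assoc, ih, pow_succ' u, pow_mul, ← h, conj_pow]; group
  induction n with
  | zero => simp
  | succ n ih =>
    rw [pow_succ, ih, Finset.sum_range_succ, pow_add, mul_assoc, ← mul_assoc (e ^ n), h1, pow_succ]
    group

/-- Let G be a finite group, p an odd prime dividing the order of G whose Sylow p-subgroups are not cyclic, and n = p^s·m with s > 1 and m coprime to p. Then the number of elements of G of order n is a multiple of p^s. -/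
theorem result {G : Type*} [Group G] [Finite G] (p : ℕ) [Fact p.Prime] (hodd : p ≠ 2) (hpG : p ∣ Nat.card G)
    (P : Sylow p G) (hP : ¬ IsCyclic ↥(P : Subgroup G)) (s m : ℕ) (hs : 1 < s) (hm : Nat.Coprime p m) :
    p ^ s ∣ Nat.card {g : G // orderOf g = p ^ s * m} := by
  have hp : p.Prime := Fact.out
  obtain ⟨E, hE, hE'⟩ : ∃ E : Subgroup G, IsElementaryAbelian p E ∧ ¬ IsCyclic E := by
    by_contra h
    refine hP (CA.AmbIso.isCyclic_of_rank hodd P.isPGroup' fun A _ hA => ?_)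
    by_contra h'
    exact h ⟨A, hA, CA.PGNormalCyclic.not_isCyclic_of_elementary hp.pos hA.2 (by omega)⟩
  have hEp := CA.PGNormalCyclic.isPGroup_of_isElementaryAbelian hE
  obtain ⟨r, rfl⟩ : ∃ r, s = r + 2 := ⟨s - 2, by omega⟩
  have hm0 : 0 < m := Nat.pos_of_ne_zero (by rintro rfl; simp [hp.ne_one] at hm)
  let X : Set G := {g | orderOf g = p ^ (r + 2) * m}
  let Z : G → Subgroup G := fun g => zpowers (g ^ (p * m))
  have cop : ∀ k i, (p ^ i * m).Coprime (1 + p * m * k) := fun k i =>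
    Nat.Coprime.mul_left (Nat.Coprime.pow_left _ (by rw [mul_assoc]; simp))
      (by rw [mul_comm p, mul_assoc]; simp)
  have o1 : ∀ g ∈ X, orderOf (g ^ p) = p ^ (r + 1) * m := fun g hg => by
    rw [orderOf_pow_of_dvd hp.ne_zero (hg ▸ (dvd_pow_self p (by omega)).mul_right m), hg, pow_succ' p,
      mul_assoc, Nat.mul_div_cancel_left _ hp.pos]
  have o2 : ∀ g ∈ X, orderOf (g ^ (p * m)) = p ^ (r + 1) := fun g hg => by
    rw [pow_mul, orderOf_pow_of_dvd hm0.ne' (o1 g hg ▸ dvd_mul_left _ _), o1 g hg,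
      Nat.mul_div_cancel _ hm0]
  have hZ : ∀ g w, w ∈ Z g → ∃ k, w = g ^ (p * m * k) := fun g w hw => by
    obtain ⟨k, rfl⟩ := (mem_powers_iff_mem_zpowers).2 hw
    exact ⟨k, (pow_mul _ _ _).symm⟩
  have key : ∀ g ∈ X, ∀ h k, h ^ p = (g ^ p) ^ (1 + p * m * k) → h ∈ X ∧ Z h = Z g := by
    intro g hg h k e
    have h1 : orderOf (h ^ p) = p ^ (r + 1) * m := by
      rw [e, Nat.Coprime.orderOf_pow (by rw [o1 g hg]; exact cop _ _), o1 g hg]
    have h2 : p ∣ orderOf h := ((dvd_pow_self p (by omega)).mul_right m).trans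
      (h1 ▸ orderOf_pow_dvd p)
    refine ⟨?_, ?_⟩
    · rw [orderOf_pow_of_dvd hp.ne_zero h2] at h1
      change orderOf h = _
      rw [← Nat.mul_div_cancel' h2, h1]; ring
    · simp only [Z]
      rw [pow_mul, e, ← pow_mul, mul_comm _ m, pow_mul, ← pow_mul g p, zp]
      rw [o2 g hg]
      simpa using Nat.Coprime.coprime_dvd_left (dvd_mul_right _ m) (cop k (r + 1))
  have s1 : ∀ g ∈ X, ∀ w ∈ Z g, g * w ∈ X ∧ Z (g * w) = Z g := fun g hg w hw => by
    obtain ⟨k, rfl⟩ := hZ g w hw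
    exact key g hg _ k (by rw [← pow_succ', ← pow_mul, ← pow_mul]; congr 1; ring)
  let X₀ : Set G := {g ∈ X | ∀ e ∈ E, g⁻¹ * (e * g * e⁻¹) ∈ Z g}
  have nrm : ∀ g ∈ X₀, E ≤ normalizer (Z g : Set G) := fun g hg e he => by
    refine mem_normalizer_fintype fun w hw => ?_
    obtain ⟨k, rfl⟩ := hZ g w hw
    obtain ⟨l, hl⟩ := hZ g _ (hg.2 e he)
    rw [← conj_pow, inv_mul_eq_iff_eq_mul.1 hl, ← pow_succ', ← pow_mul, mul_comm, mul_assoc, pow_mul]
    exact pow_mem (mem_zpowers _) _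
  have s1' : ∀ g ∈ X₀, ∀ w ∈ Z g, g * w ∈ X₀ := fun g hg w hw => ⟨(s1 g hg.1 w hw).1, fun e he => by
    rw [(s1 g hg.1 w hw).2, show (g * w)⁻¹ * (e * (g * w) * e⁻¹) =
      w⁻¹ * (g⁻¹ * (e * g * e⁻¹)) * (e * w * e⁻¹) by group]
    exact mul_mem (mul_mem (inv_mem hw) (hg.2 e he)) ((mem_normalizer_iff.1 (nrm g hg he) w).1 hw)⟩
  have s2 : ∀ g ∈ X₀, ∀ e ∈ E, g * e ∈ X₀ ∧ Z (g * e) = Z g := fun g hg e he => by
    obtain ⟨l, hl⟩ := hZ g _ (hg.2 e he)
    obtain ⟨t, ht⟩ := geo (p * m * l) p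
    obtain ⟨j, hj⟩ := hp.odd_of_ne_two hodd
    have h1 := Finset.sum_range_id_mul_two p
    have h2 : ∑ i ∈ Finset.range p, i = p * j := by
      rw [show p - 1 = j * 2 by omega, ← mul_assoc] at h1; omega
    have h3 := key g hg.1 (g * e) (l * j + m * l ^ 2 * t) (by
      rw [mul_pow' (u := 1 + p * m * l) (by rw [inv_mul_eq_iff_eq_mul.1 hl, pow_add, pow_one]),
        hE.2 e he, mul_one, ht, h2, ← pow_mul]
      congr 1; ring)
    refine ⟨⟨h3.1, fun e' he' => ?_⟩, h3.2⟩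
    have h4 : e' * e = e * e' := congrArg Subtype.val (hE.1.1.1 ⟨e', he'⟩ ⟨e, he⟩)
    rw [h3.2, show (g * e)⁻¹ * (e' * (g * e) * e'⁻¹) =
      e⁻¹ * (g⁻¹ * (e' * g * e'⁻¹)) * e⁻¹⁻¹ * (e⁻¹ * (e' * e) * e'⁻¹) by group, h4]
    simpa using (mem_normalizer_iff.1 (nrm g hg (inv_mem he)) _).1 (hg.2 e' he')
  have c0 : p ^ (r + 2) ∣ X₀.ncard := by
    refine (cls X₀ (fun g => g • ((Z g ⊔ E : Subgroup G) : Set G)) _).1 fun g hg => ?_
    have h1 : ∀ w ∈ Z g ⊔ E, g * w ∈ X₀ ∧ Z (g * w) = Z g := fun w hw => by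
      rw [← SetLike.mem_coe, coe_mul_of_right_le_normalizer_left _ _ (nrm g hg)] at hw
      obtain ⟨z, hz, e, he, rfl⟩ := hw
      have := s2 _ (s1' g hg z hz) e he
      rw [(s1 g hg.1 z hz).2, mul_assoc] at this
      exact this
    rw [show {b ∈ X₀ | b • ((Z b ⊔ E : Subgroup G) : Set G) = g • ((Z g ⊔ E : Subgroup G) : Set G)} =
      g • ((Z g ⊔ E : Subgroup G) : Set G) from Set.Subset.antisymm
        (fun b hb => hb.2 ▸ ⟨1, one_mem _, mul_one b⟩) (by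
          rintro _ ⟨w, hw, rfl⟩
          refine ⟨(h1 w hw).1, ?_⟩
          change (g * w) • ((Z (g * w) ⊔ E : Subgroup G) : Set G) = _
          rw [(h1 w hw).2, mul_smul, smul_coe_set hw]), Set.ncard_smul_set]
    obtain ⟨k, hk⟩ := IsPGroup.iff_card.1 (IsPGroup.to_sup_of_normal_left'
      (IsPGroup.of_card ((Nat.card_zpowers _).trans (o2 g hg.1))) hEp (nrm g hg))
    have h2 : Z g < Z g ⊔ E := lt_of_le_of_ne le_sup_left fun e =>
      hE' (Subgroup.isCyclic_of_le (H' := Z g) (e ▸ le_sup_right))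
    have h3 := lt_of_le_of_ne (Subgroup.card_le_of_le h2.le) fun e =>
      h2.ne (Subgroup.eq_of_le_of_card_ge h2.le e.ge)
    rw [Nat.card_zpowers, o2 g hg.1, hk, Nat.pow_lt_pow_iff_right hp.one_lt] at h3
    rw [← Nat.card_coe_set_eq]
    exact (pow_dvd_pow p h3).trans hk.symm.dvd
  let f : G → Set G := fun g => g • (Z g : Set G)
  have c1 : ∀ Y ⊆ X, (∀ g ∈ Y, ∀ w ∈ Z g, g * w ∈ Y) → Y.ncard = (f '' Y).ncard * p ^ (r + 1) :=
    fun Y hY h => (cls Y f _).2 fun g hg => by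
      rw [show {b ∈ Y | f b = f g} = f g from Set.Subset.antisymm
        (fun b hb => hb.2 ▸ ⟨1, one_mem _, mul_one b⟩) (by
          rintro _ ⟨w, hw, rfl⟩
          refine ⟨h g hg w hw, ?_⟩
          simp only [f]
          rw [smul_eq_mul, (s1 g (hY hg) w hw).2, mul_smul, smul_coe_set hw]), Set.ncard_smul_set,
        ← Nat.card_coe_set_eq]
      exact (Nat.card_zpowers _).trans (o2 g (hY hg))
  have hf : ∀ e g, MulAut.conj e • f g = f (e * g * e⁻¹) := fun e g => by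
    simp only [f, Z]
    rw [conj_pow, ← MulAut.conj_apply e (g ^ _), ← MulEquiv.coe_toMonoidHom, ← MonoidHom.map_zpowers]
    ext y
    constructor
    · rintro ⟨_, ⟨w, hw, rfl⟩, rfl⟩
      exact ⟨_, ⟨w, hw, rfl⟩, by simp [mul_assoc]⟩
    · rintro ⟨_, ⟨w, hw, rfl⟩, rfl⟩
      exact ⟨_, ⟨w, hw, rfl⟩, by simp [mul_assoc]⟩
  have c2 := CA.PermMulti.ncard_modEq_fixed (E.map MulAut.conj) (hEp.map _) (f '' X)
    (Set.toFinite _) (by
      rintro _ ⟨e, -, rfl⟩ _ ⟨g, hg, rfl⟩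
      exact ⟨_, ((MulAut.conj e).orderOf_eq g).trans hg, (hf e g).symm⟩)
  rw [show {x ∈ f '' X | ∀ g ∈ E.map MulAut.conj, g • x = x} = f '' X₀ from
    Set.Subset.antisymm (by
      rintro _ ⟨⟨g, hg, rfl⟩, h⟩
      refine ⟨g, ⟨hg, fun e he => ?_⟩, rfl⟩
      have := h _ ⟨e, he, rfl⟩
      rw [hf] at this
      exact Set.mem_smul_set_iff_inv_smul_mem.1 (this.le ⟨1, one_mem _, mul_one _⟩)) (by
      rintro _ ⟨g, hg, rfl⟩
      refine ⟨⟨g, hg.1, rfl⟩, ?_⟩
      rintro _ ⟨e, he, rfl⟩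
      rw [hf, ← mul_inv_cancel_left g (e * g * e⁻¹)]
      simp only [f]
      rw [(s1 g hg.1 _ (hg.2 e he)).2, mul_smul, smul_coe_set (hg.2 e he)])] at c2
  rw [c1 X₀ (fun _ h => h.1) s1', pow_succ'] at c0
  have c3 := (Nat.modEq_zero_iff_dvd).1 (c2.trans ((Nat.modEq_zero_iff_dvd).2
    (Nat.dvd_of_mul_dvd_mul_right (pow_pos hp.pos _) c0)))
  change _ ∣ X.ncard
  rw [c1 X le_rfl fun g hg w hw => (s1 g hg w hw).1, pow_succ']
  exact Nat.mul_dvd_mul_right c3 _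

end Cfsg.Agent.S4003
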