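import Cfsg.Statements.S4004
import Cfsg.Agent.Lib.Cit.CtG1

set_option autoImplicit false
open Cfsg

namespace Cfsg.Agent.S4004

open CA.Ss3 CA.H8Ord CA.BG

/-- Let G be a finite group of odd order in which the numbers of elements of each order that occurs (the numbers #{g : o(g) = m}, m ranging over the element orders of G) take exactly three different values. Then the order of G has at most two prime divisors; and if it has exactly two, then every Sylow subgroup of G for a prime dividing its order has prime exponent, G is a Frobenius group, and some Frobenius complement of G has prime order. -/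
theorem result {G : Type*} [Group G] [Finite G] (hodd : Odd (Nat.card G)) (h : (((fun m : ℕ => Nat.card {g : G // orderOf g = m}) '' Set.range (orderOf : G → ℕ))).ncard = 3) :
    (Nat.card G).primeFactors.card ≤ 2 ∧
      ((Nat.card G).primeFactors.card = 2 →
        (∀ (p : ℕ) [Fact p.Prime] (P : Sylow p G), p ∣ Nat.card G → Monoid.exponent ↥(P : Subgroup G) = p) ∧
        ∃ C : Subgroup G, Cfsg.IsFrobeniusComplement C ∧ (Nat.card ↥C).Prime) := by
  obtain ⟨a, b, hs0⟩ := vals h
  have hs := vals' hodd hs0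
  have hp : ∀ p ∈ (Nat.card G).primeFactors, p.Prime ∧ p ∣ Nat.card G := fun p hp =>
    ⟨Nat.prime_of_mem_primeFactors hp, Nat.dvd_of_mem_primeFactors hp⟩
  refine ⟨?_, fun h2 => ?_⟩
  · refine (Finset.card_le_card_of_injOn (ss G) (t := {a, b}) (fun p e => ?_) fun p e q e' k => ?_).trans
      Finset.card_le_two
    · simpa using (hs p (hp p e).1.one_lt).resolve_left (ss_prime (hp p e).1 (hp p e).2)
    · exact by_contra fun n => inj hodd hs (hp p e).1 (hp q e').1 n (hp p e).2 (hp q e').2 k
  obtain ⟨p, q, n, e⟩ := Finset.card_eq_two.1 h2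
  obtain ⟨p1, p2⟩ := hp p (by simp [e])
  obtain ⟨q1, q2⟩ := hp q (by simp [e])
  have hr : ∀ r, r.Prime → r ∣ Nat.card G → r = p ∨ r = q := fun r a b => by
    simpa [e] using Nat.mem_primeFactors.2 ⟨a, b, Nat.card_pos.ne'⟩
  obtain ⟨a1, a2⟩ := two hodd hs p1 q1 n p2 q2
  obtain ⟨a3, a4⟩ := two hodd hs q1 p1 n.symm q2 p2
  refine ⟨fun r hr' P hd => ?_, ?_⟩
  · have h0 : ss G (r ^ 2) = 0 := (hr r hr'.out hd).elim (· ▸ a2) (· ▸ a4)
    haveI : Nontrivial P := (Subgroup.nontrivial_iff_ne_bot _).2 (P.ne_bot_of_dvd_card hd)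
    refine (Monoid.exponent_eq_prime_iff hr'.out).2 fun g g1 => ?_
    obtain ⟨k, hk⟩ := P.isPGroup' g
    rw [← Subgroup.orderOf_coe]
    exact ord_eq hr'.out h0 (k := k) (congrArg Subtype.val hk) fun e => g1 (Subtype.ext e)
  haveI := solv hs0
  obtain ⟨r, r1, r2⟩ := exists_core_ne_bot (H := (⊤ : Subgroup G)) inferInstance fun e =>
    p1.one_lt.ne' (Nat.dvd_one.1 (by rwa [← Subgroup.card_top, e, Subgroup.card_bot] at p2))
  obtain ⟨t, t1, t2⟩ := Nat.exists_prime_and_dvd (mt Subgroup.card_eq_one.1 r2)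
  obtain rfl : t = r := core_pi _ _ t t1 t2
  rcases hr t t1 (t2.trans (Subgroup.card_subgroup_dvd_card _)) with rfl | rfl
  · exact frob_aux hodd p1 q1 n p2 q2 hr a1 a2 a4 r2
  · exact frob_aux hodd q1 p1 n.symm q2 p2 (fun r a b => (hr r a b).symm) a3 a4 a2 r2

end Cfsg.Agent.S4004
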