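import Cfsg.Statements.S4005
import Cfsg.Agent.S0144
import Cfsg.Agent.Lib.Odd.BGMisc
import Cfsg.Agent.Lib.Odd.BG1b
import Cfsg.Agent.Lib.Odd.BG1a
import Cfsg.Agent.Lib.Grp.Frob2

set_option autoImplicit false
open Cfsg

namespace Cfsg.Agent.S4005

open CA.BG CA.OQuo Subgroup

/-- A finite group whose set of element orders is exactly {1, 2, 3} has either a normal elementary abelian 3-subgroup of index 2 or a normal elementary abelian 2-subgroup of index 3. -/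
theorem result {G : Type*} [Group G] [Finite G] (h : Set.range (orderOf : G → ℕ) = {k : ℕ | 1 ≤ k ∧ k ≤ 3}) :
    (∃ N : Subgroup G, N.Normal ∧ Cfsg.IsElementaryAbelian 3 N ∧ N.index = 2) ∨
      (∃ N : Subgroup G, N.Normal ∧ Cfsg.IsElementaryAbelian 2 N ∧ N.index = 3) := by
  have ho : ∀ g : G, orderOf g = 1 ∨ orderOf g = 2 ∨ orderOf g = 3 := fun g => by
    have : 1 ≤ orderOf g ∧ orderOf g ≤ 3 := (h ▸ Set.mem_range_self g : orderOf g ∈ {k : ℕ | 1 ≤ k ∧ k ≤ 3})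
    omega
  obtain ⟨a, ha⟩ : 2 ∈ Set.range (orderOf : G → ℕ) := h ▸ ⟨by norm_num, by norm_num⟩
  obtain ⟨b, hb⟩ : 3 ∈ Set.range (orderOf : G → ℕ) := h ▸ ⟨by norm_num, by norm_num⟩
  have p2 := Nat.prime_two
  have p3 := Nat.prime_three
  haveI := Fact.mk p2
  haveI := Fact.mk p3
  have e : ∀ {p : ℕ} {K : Subgroup G}, p.Prime → IsPi {p} K → ∀ x ∈ K, x ^ p = 1 := fun {p K} hp hK x hx => by
    rcases ho x with e | e | e
    · rw [orderOf_eq_one_iff.1 e, one_pow]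
    · obtain rfl : 2 = p := hK.orderOf hx 2 p2 (e ▸ dvd_rfl)
      rw [← e, pow_orderOf_eq_one]
    · obtain rfl : 3 = p := hK.orderOf hx 3 p3 (e ▸ dvd_rfl)
      rw [← e, pow_orderOf_eq_one]
  have sr : ∀ K L : Subgroup G, IsPi {2} K → IsPi {3} L → CA.Frob2.Semireg K L := fun K L hK hL =>
    CA.Frob2.semireg_iff.2 fun y hy y1 x hx c => by
      by_contra x1
      have := (show Commute y x from c).orderOf_mul_eq_mul_orderOf_of_coprime
        (by rw [orderOf_eq_prime (e p3 hL y hy) y1, orderOf_eq_prime (e p2 hK x hx) x1]; decide)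
      rw [orderOf_eq_prime (e p3 hL y hy) y1, orderOf_eq_prime (e p2 hK x hx) x1] at this
      have := ho (y * x)
      omega
  have pr : ∀ q, q.Prime → q ∣ ♯(⊤ : Subgroup G) → q = 2 ∨ q = 3 := fun q hq hd => by
    obtain ⟨x, -, hx⟩ := exists_orderOf_eq hq hd
    have := ho x
    have := hq.two_le
    omega
  obtain ⟨S, hS⟩ := syl_exists p2 (⊤ : Subgroup G)
  obtain ⟨T, hT⟩ := syl_exists p3 (⊤ : Subgroup G)
  have hT' : Hall {2}ᶜ T ⊤ := hT.congr fun q hq hd => by rcases pr q hq hd with rfl | rfl <;> simp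
  have hS' : Hall {3}ᶜ S ⊤ := hS.congr fun q hq hd => by rcases pr q hq hd with rfl | rfl <;> simp
  have hsol : Group.IsSolvable (⊤ : Subgroup G) := by
    obtain ⟨i, hi⟩ := hS.pi.exists_card p2
    obtain ⟨j, hj⟩ := hT.pi.exists_card p3
    exact S0144.result 2 3 i j p2 p3 (by rw [← hS.card_mul_compl hT', hi, hj])
  have d2 : 2 ∣ ♯(⊤ : Subgroup G) := ha ▸ orderOf_dvd_card_of_mem (mem_top a)
  have d3 : 3 ∣ ♯(⊤ : Subgroup G) := hb ▸ orderOf_dvd_card_of_mem (mem_top b)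
  have c2 : ∀ K : Subgroup G, IsPi {2} K → IsMulCommutative K := fun K hK =>
    comm_iff_le_cent.2 fun x hx => mem_cent.2 fun y hy => by
      have h1 := e p2 hK _ (mul_mem hx hy)
      have h2 := e p2 hK _ hx
      have h3 := e p2 hK _ hy
      rw [pow_two] at h1 h2 h3
      calc y * x = x * x * (y * x) * (y * y) := by rw [h2, h3]; simp
        _ = x * (x * y * (x * y)) * y := by group
        _ = _ := by rw [h1]; simp
  have cardp : ∀ {p : ℕ} {K : Subgroup G}, p.Prime → IsPi {p} K → K ≠ ⊥ → IsCyclic K → ♯K = p := fun {p K} hp hK hb hc => by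
    obtain ⟨x, rfl⟩ := exists_zpowers_of_cyc hc
    haveI := Fact.mk hp
    rw [Nat.card_zpowers, orderOf_eq_prime (e hp hK x (mem_zpowers x)) fun h => hb (zpowers_eq_bot.2 h)]
  by_cases h3 : 𝓞({3}, (⊤ : Subgroup G)) = ⊥
  · right
    have hF : 𝓕((⊤ : Subgroup G)) ≤ S := fit_le_of_core fun q hq hd => by
      rcases pr q hq (hd.trans (card_dvd_of_le le_top)) with rfl | rfl
      · exact hS.core_le
      · rw [h3]; exact bot_le
    have hSF : S = 𝓕((⊤ : Subgroup G)) :=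
      le_antisymm (le_trans (le_inf le_top ((comm_iff_le_cent.1 (c2 S hS.pi)).trans (cent_anti hF))) (cent_fit_le hsol)) hF
    have hn : ⊤ ≤ 𝓝(S) := hSF ▸ le_norm_fit ⊤
    refine ⟨S, normal_of_top_le_norm hn, ⟨c2 S hS.pi, e p2 hS.pi⟩, ?_⟩
    rw [← relIndex_top_right, hS.relIndex_eq hT']
    exact cardp p3 hT.pi (hT.ne_bot p3 rfl d3)
      ((sr S T hS.pi hT.pi).isCyclic_of_odd (le_top.trans hn) (hS.ne_bot p2 rfl d2) (hT.pi.isPGroup p3) (by decide))
  · left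
    have hc : IsCyclic S := (sr S _ hS.pi (core_pi _ ⊤)).symm.isCyclic_of_comm (le_top.trans (le_norm_core _ _)) h3 (c2 S hS.pi)
    have hS2 := cardp p2 hS.pi (hS.ne_bot p2 rfl d2) hc
    have hpc := cyclic_pdiv_normal_complement p2 hS hc fun q hq _ => hq.two_le
    have hTe : T = 𝓞({2}ᶜ, ⊤) := (hT'.eq_of_le (core_pi _ _) (hpc.le_core hT'.pi le_top) le_top).symm
    have hn : ⊤ ≤ 𝓝(T) := hTe ▸ le_norm_core _ ⊤
    obtain ⟨s, hs, hs2⟩ := exists_orderOf_eq p2 (hS2 ▸ dvd_rfl : 2 ∣ ♯S)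
    refine ⟨T, normal_of_top_le_norm hn, ⟨CA.Frob2.isMulCommutative_of_involution (hn (mem_top s))
      (by rw [← pow_two, ← hs2, pow_orderOf_eq_one]) ((sr S T hS.pi hT.pi).symm s hs ?_), e p3 hT.pi⟩, ?_⟩
    · rintro rfl; simp at hs2
    · rw [← relIndex_top_right, hT.relIndex_eq hS', hS2]

end Cfsg.Agent.S4005
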