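import Cfsg.Statements.S4006
import Cfsg.Agent.Lib.Grp.H8Spec

set_option autoImplicit false
open Cfsg

namespace Cfsg.Agent.S4006

/-- A finite group whose set of element orders is exactly {1, 2, 3, 4} has a normal subgroup N such that either N is a 2-group of exponent 4 and nilpotency class at most 2 with G/N of order 3, or N is an elementary abelian 2-group with G/N isomorphic to the symmetric group of degree 3, or N is an elementary abelian 3-group with G/N cyclic of order 4 or quaternion of order 8. -/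
theorem result {G : Type*} [Group G] [Finite G] (h : Set.range (orderOf : G → ℕ) = {k : ℕ | 1 ≤ k ∧ k ≤ 4}) :
    ∃ (N : Subgroup G) (_ : N.Normal),
      (IsPGroup 2 ↥N ∧ Monoid.exponent ↥N = 4 ∧ Group.nilpotencyClass ↥N ≤ 2 ∧ N.index = 3) ∨
      (Cfsg.IsElementaryAbelian 2 N ∧ Nonempty (G ⧸ N ≃* Equiv.Perm (Fin 3))) ∨
      (Cfsg.IsElementaryAbelian 3 N ∧ ((IsCyclic (G ⧸ N) ∧ N.index = 4) ∨ Nonempty (G ⧸ N ≃* QuaternionGroup 2))) := by
  obtain ⟨g, hg⟩ : 4 ∈ Set.range (orderOf : G → ℕ) := by rw [h]; simp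
  obtain ⟨r, hr⟩ : 3 ∈ Set.range (orderOf : G → ℕ) := by rw [h]; simp
  refine CA.H8Spec.main (fun x => ?_) hg hr
  obtain ⟨a, b⟩ : orderOf x ∈ {k : ℕ | 1 ≤ k ∧ k ≤ 4} := h ▸ ⟨x, rfl⟩
  simp only [← orderOf_dvd_iff_pow_eq_one]
  generalize orderOf x = n at a b
  interval_cases n <;> decide

end Cfsg.Agent.S4006
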