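import Cfsg.Statements.S4203
import Cfsg.Agent.Lib.Grp.Core
import Cfsg.Agent.Lib.Char.CharBurn

set_option autoImplicit false
open Cfsg

namespace Cfsg.Agent.S4203

open Subgroup

theorem index_modEq {G : Type*} [Group G] [Finite G] {p : ℕ} [Fact p.Prime] (P : Sylow p G)
    (M : Subgroup G) (h : normalizer ((P : Subgroup G) : Set G) ≤ M) : M.index ≡ 1 [MOD p] := by
  have hP : (P : Subgroup G) ≤ M := le_normalizer.trans h
  have h1 := card_sylow_modEq_one p G
  have h2 := card_sylow_modEq_one p M
  rw [P.card_eq_index_normalizer] at h1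
  rw [(P.subtype hP).card_eq_index_normalizer] at h2
  have h3 := relIndex_mul_index h
  have h4 : (normalizer (((P.subtype hP : Sylow p M) : Subgroup M) : Set M)).index =
      (normalizer ((P : Subgroup G) : Set G)).relIndex M := by
    rw [Sylow.coe_subtype, ← subgroupOf_normalizer_eq hP]; rfl
  have h5 := h2.mul_right M.index
  rw [one_mul] at h5
  have h6 : (normalizer ((P : Subgroup G) : Set G)).relIndex M * M.index ≡ M.index [MOD p] := by
    rw [← h4]; exact h5
  rw [h3] at h6
  exact h6.symm.trans h1

universe u

theorem aux (n : ℕ) : ∀ (G : Type u) [Group G] [Finite G], Nat.card G = n →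
    (∀ M : Subgroup G, IsCoatom M → ∃ p : ℕ, p.Prime ∧ (M.index = p ∨ M.index = p ^ 2)) →
    Group.IsSolvable G := by
  induction n using Nat.strong_induction_on with
  | _ n ih =>
  intro G _ _ hn h
  rcases subsingleton_or_nontrivial G with hs | hnt
  · infer_instance
  have h1 : 1 < Nat.card G := Finite.one_lt_card
  have hne : (Nat.card G).primeFactors.Nonempty := Nat.nonempty_primeFactors.2 h1
  set p := (Nat.card G).primeFactors.max' hne with hp
  have hpm : p ∈ (Nat.card G).primeFactors := Finset.max'_mem _ _
  have hpp : p.Prime := Nat.prime_of_mem_primeFactors hpm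
  have hmax : ∀ q, q.Prime → q ∣ Nat.card G → q ≤ p := fun q hq hd =>
    Finset.le_max' _ _ (Nat.mem_primeFactors.2 ⟨hq, hd, by omega⟩)
  haveI : Fact p.Prime := ⟨hpp⟩
  obtain ⟨P⟩ : Nonempty (Sylow p G) := inferInstance
  by_cases hN : normalizer ((P : Subgroup G) : Set G) = ⊤
  · haveI : (P : Subgroup G).Normal := normalizer_eq_top_iff.1 hN
    have hPb : (P : Subgroup G) ≠ ⊥ := P.ne_bot_of_dvd_card (Nat.dvd_of_mem_primeFactors hpm)
    haveI : Group.IsSolvable (G ⧸ (P : Subgroup G)) := by
      apply ih (Nat.card (G ⧸ (P : Subgroup G))) _ _ rfl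
      · intro M hM
        have hs := QuotientGroup.mk'_surjective (P : Subgroup G)
        obtain ⟨q, hq, e⟩ := h _ (isCoatom_comap_of_surjective hs hM)
        rw [index_comap_of_surjective _ hs] at e
        exact ⟨q, hq, e⟩
      · rw [← hn, ← (P : Subgroup G).card_mul_index, ← index_eq_card]
        have := (one_lt_card_iff_ne_bot _).2 hPb
        have h0 : 0 < (P : Subgroup G).index := Nat.pos_of_ne_zero index_ne_zero_of_finite
        nlinarith
    haveI : Group.IsSolvable (P : Subgroup G) := CA.Core.isSolvable_of_isPGroup P.isPGroup'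
    exact Group.isSolvable_of_ker_le_range (P : Subgroup G).subtype (QuotientGroup.mk' (P : Subgroup G))
      (by rw [QuotientGroup.ker_mk', range_subtype])
  · obtain ⟨M, hM, hle⟩ := (eq_top_or_exists_le_coatom _).resolve_left hN
    have h2 := index_modEq P M hle
    obtain ⟨q, hq, e⟩ := h M hM
    have hqG : q ∣ Nat.card G := by
      refine Dvd.dvd.trans ?_ M.index_dvd_card
      rcases e with e | e <;> rw [e]
      exact dvd_pow_self q two_ne_zero
    have hqp := hmax q hq hqG
    have hq2 := hq.two_le
    have hp2 := hpp.two_le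
    have hd : p ∣ M.index - 1 := (Nat.modEq_iff_dvd' (Nat.pos_of_ne_zero index_ne_zero_of_finite)).1 h2.symm
    have hp3 : p ≤ 3 := by
      rcases e with e | e
      · rw [e] at hd
        have := Nat.le_of_dvd (by omega) hd
        omega
      · rw [e, show q ^ 2 - 1 = (q + 1) * (q - 1) by rw [← Nat.sq_sub_sq]] at hd
        rcases (Nat.Prime.dvd_mul hpp).1 hd with h3 | h3
        · have h4 := Nat.le_of_dvd (by omega) h3
          have h5 : p ≠ q := by
            intro e'; rw [e'] at h3
            have := (Nat.dvd_add_right (dvd_refl q)).1 h3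
            exact hq.one_lt.ne' (Nat.dvd_one.1 this)
          have h6 : p = q + 1 := by omega
          rcases hq.eq_two_or_odd' with h7 | h7
          · omega
          · rcases hpp.eq_two_or_odd' with h8 | h8
            · omega
            · obtain ⟨a, ha⟩ := h7; obtain ⟨b, hb⟩ := h8; omega
        · have := Nat.le_of_dvd (by omega) h3
          omega
    apply CChar.CharBurn.isSolvable_of_primes (p := 2) (q := 3)
    intro r hr hd
    have := hmax r hr hd
    have := hr.two_le
    omega

/-- A finite group in which every maximal subgroup has index a prime or the square of a prime is solvable. -/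
theorem result {G : Type*} [Group G] [Finite G] (h : ∀ M : Subgroup G, IsCoatom M → ∃ p : ℕ, p.Prime ∧ (M.index = p ∨ M.index = p ^ 2)) : Group.IsSolvable G := by
  exact aux _ G rfl h

end Cfsg.Agent.S4203
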