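import Cfsg.Statements.S4204
import Cfsg.Agent.Lib.Odd.BG1b

set_option autoImplicit false
open Cfsg

namespace Cfsg.Agent.S4204

open CA.BG Subgroup

/-- If `H` and `K` are normal subgroups of a finite group with `H` nilpotent of class at most `c` and `K` nilpotent of class at most `d` (the terms with index `c`, respectively `d`, of their lower central series are trivial, indices starting at `0`), then `HK` is nilpotent of class at most `c + d`. -/
theorem result {G : Type*} [Group G] [Finite G] (H K : Subgroup G) [H.Normal] [K.Normal] (c d : ℕ) (hH : H.lowerCentralSeries c = ⊥) (hK : K.lowerCentralSeries d = ⊥) : (H ⊔ K).lowerCentralSeries (c + d) = ⊥ := by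
  let A : Subgroup G → ℕ → Subgroup G := fun X i => Nat.casesOn i ⊤ fun i => X.lowerCentralSeries i
  have hn : ∀ (X : Subgroup G) [X.Normal] (i : ℕ), (A X i).Normal := fun X _ i => by
    cases i
    · exact normal_top
    · exact normal_of_top_le_norm ((top_le_norm X ⊤).trans (norm_lcs X _))
  have hs : ∀ (X : Subgroup G) [X.Normal] (i : ℕ), ⁅A X i, X⁆ ≤ A X (i + 1) := fun X _ i => by
    cases i
    · exact commutator_le_right _ _
    · exact le_rfl
  have hc : ∀ (N X Y : Subgroup G) [N.Normal], ⁅X, Y⁆ ≤ N ↔
      X ≤ (𝓒(Y.map (QuotientGroup.mk' N))).comap (QuotientGroup.mk' N) := fun N X Y _ => by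
    rw [← map_le_iff_le_comap, ← comm_eq_bot_iff, ← map_commutator, Subgroup.map_eq_bot_iff,
      QuotientGroup.ker_mk']
  have key : ∀ (n : ℕ) (N : Subgroup G) [N.Normal], (∀ i j, i + j = n + 1 → A H i ⊓ A K j ≤ N) →
      (H ⊔ K).lowerCentralSeries n ≤ N := by
    intro n
    induction n with
    | zero => exact fun N _ h => sup_le (by simpa [A] using h 1 0 rfl) (by simpa [A] using h 0 1 rfl)
    | succ n ih =>
      intro N _ h
      haveI : ((H ⊔ K).map (QuotientGroup.mk' N)).Normal :=
        Normal.map inferInstance _ (QuotientGroup.mk'_surjective N)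
      rw [lcs_succ, hc]
      refine ih _ fun i j e => ?_
      have hN := @Subgroup.normal_inf_normal _ _ _ _ (hn H i) (hn K j)
      rw [Subgroup.map_sup, cent_sup, comap_inf, le_inf_iff, ← hc, ← hc]
      exact ⟨le_trans (le_inf ((commutator_mono inf_le_left le_rfl).trans (hs H i))
          ((@commutator_le_left _ _ _ H hN).trans inf_le_right)) (h (i + 1) j (by omega)),
        le_trans (le_inf ((@commutator_le_left _ _ _ K hN).trans inf_le_left)
          ((commutator_mono inf_le_right le_rfl).trans (hs K j))) (h i (j + 1) (by omega))⟩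
  have hb : ∀ (X : Subgroup G) (c : ℕ), X.lowerCentralSeries c = ⊥ → ∀ k, A X (c + k + 1) = ⊥ := by
    intro X c h k
    induction k with
    | zero => exact h
    | succ k ih =>
      change ⁅A X (c + k + 1), X⁆ = ⊥
      rw [ih, commutator_bot_left]
  refine eq_bot_iff.2 (key _ ⊥ fun i j e => ?_)
  rcases le_or_gt i c with h | h
  · obtain ⟨k, rfl⟩ := Nat.exists_eq_add_of_lt (show d < j by omega)
    rw [hb K d hK]
    exact inf_le_right
  · obtain ⟨k, rfl⟩ := Nat.exists_eq_add_of_lt h
    rw [hb H c hH]
    exact inf_le_left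

end Cfsg.Agent.S4204
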