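import Cfsg.Statements.S4212
import Cfsg.Agent.Lib.Grp.L0Frob
import Cfsg.Agent.Lib.Grp.H13Count

set_option autoImplicit false
open Cfsg

namespace Cfsg.Agent.S4212

/-- Let `G` be a finite group of order `g`, `c` an element whose conjugacy class has `h` elements, and `n` a natural number. Then the number of elements `x` of `G` with `x^n` conjugate to `c` is a multiple of `gcd(hn, g)`. -/
theorem result {G : Type*} [Group G] [Finite G] (c : G) (n : ℕ) : Nat.gcd (Nat.card {y : G // IsConj c y} * n) (Nat.card G) ∣ Nat.card {x : G // IsConj c (x ^ n)} := by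
  classical
  have h1 : ∀ y : G, IsConj c y → Nat.card {x : G // x ^ n = y} = Nat.card {x : G // x ^ n = c} := by
    intro y hy
    obtain ⟨g, rfl⟩ := isConj_iff.1 hy
    apply Nat.card_congr
    exact
      { toFun := fun x => ⟨g⁻¹ * x.1 * g, by
          have := conj_pow (a := g⁻¹) (b := x.1) (i := n)
          rw [inv_inv] at this
          rw [this, x.2]; group⟩
        invFun := fun x => ⟨g * x.1 * g⁻¹, by rw [conj_pow, x.2]⟩
        left_inv := fun x => by ext; simp [mul_assoc]
        right_inv := fun x => by ext; simp [mul_assoc] }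
  have e : {x : G // IsConj c (x ^ n)} ≃ Σ y : {y : G // IsConj c y}, {x : G // x ^ n = y.1} :=
    { toFun := fun x => ⟨⟨x.1 ^ n, x.2⟩, ⟨x.1, rfl⟩⟩
      invFun := fun z => ⟨z.2.1, by rw [z.2.2]; exact z.1.2⟩
      left_inv := fun x => rfl
      right_inv := by
        rintro ⟨⟨y, hy⟩, ⟨x, hx⟩⟩
        dsimp only at hx
        subst hx
        rfl }
  have := Fintype.ofFinite {y : G // IsConj c y}
  rw [Nat.card_congr e, Nat.card_sigma, Finset.sum_congr rfl (fun y _ => h1 y.1 y.2), Finset.sum_const,
    smul_eq_mul, Finset.card_univ, ← Nat.card_eq_fintype_card]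
  have h2 := (CA.H13Count.card_isConj_mul c).symm
  rw [h2, Nat.gcd_mul_left]
  exact Nat.mul_dvd_mul_left _ (CA.L0Frob.gcd_dvd_card_pow_eq n c)

end Cfsg.Agent.S4212
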