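import Cfsg.Statements.S4213
import Cfsg.Agent.Lib.Odd.BG1b
import Cfsg.Agent.Lib.Grp.L0Frob

set_option autoImplicit false
open Cfsg

namespace Cfsg.Agent.S4213

open CA.BG Subgroup

universe u

theorem aux (m : ℕ) : ∀ {G : Type u} [Group G] [Finite G] [Group.IsSolvable G], Nat.card G = m →
    ∀ n : ℕ, n ∣ Nat.card G → Nat.card {x : G // x ^ n = 1} ≤ n →
      ∃ H : Subgroup G, Nat.card H = n := by
  induction m using Nat.strong_induction_on with
  | _ m ih =>
  intro G _ _ _ hm n hn h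
  by_cases hG : (⊤ : Subgroup G) = ⊥
  · refine ⟨⊥, ?_⟩
    rw [← card_top, hG, card_bot] at hn
    rw [card_bot, Nat.dvd_one.1 hn]
  obtain ⟨K, -, hK⟩ := exists_minNormal (le_norm_self _) hG
  obtain ⟨p, hp, hE⟩ := hK.elem (solv_top K)
  haveI : K.Normal := normal_of_top_le_norm hK.2.1
  have hKp := isPi_of_elem hp hE
  have hc := K.card_eq_card_quotient_mul_card_subgroup
  have hlt : Nat.card (G ⧸ K) < m := by
    rw [← hm, hc]
    exact lt_mul_of_one_lt_right Nat.card_pos (one_lt_card_iff_ne_bot K |>.2 hK.1)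
  have hcm : ∀ L : Subgroup (G ⧸ K), Nat.card (L.comap (QuotientGroup.mk' K)) =
      Nat.card L * Nat.card K := fun L => by
    refine (Nat.card_congr (QuotientGroup.preimageMkEquivSubgroupProdSet K (L : Set (G ⧸ K)))).trans ?_
    rw [Nat.card_prod, mul_comm]
    rfl
  have hx : ∀ (u : ℕ) (x : G), (x : G ⧸ K) ^ u = 1 → x ^ (u * p) = 1 := fun u x hx => by
    rw [pow_mul]
    exact hE.2 _ ((QuotientGroup.eq_one_iff _).1 hx)
  by_cases hpn : p ∣ n
  · have hn0 : n ≠ 0 := ne_zero_of_dvd_ne_zero Nat.card_pos.ne' hn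
    obtain ⟨g, u, k, hg, huk, e1, e2⟩ := Nat.exists_coprime' (m := n) (n := Nat.card K)
      (Nat.gcd_pos_of_pos_right _ Nat.card_pos)
    have hpg : p ∣ g := by
      have := Nat.dvd_gcd hpn (hKp.dvd_card hK.1)
      rwa [e1, e2, Nat.gcd_mul_right, huk.gcd_eq_one, one_mul] at this
    have hu : u ∣ Nat.card (G ⧸ K) := by
      rw [hc, e1, e2, ← mul_assoc] at hn
      exact huk.dvd_of_dvd_mul_right (Nat.dvd_of_mul_dvd_mul_right hg hn)
    have h1 : Nat.card K * Nat.card {y : G ⧸ K // y ^ u = 1} ≤ n := by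
      refine le_trans ?_ h
      rw [← Nat.card_prod]
      refine (Nat.card_congr (QuotientGroup.preimageMkEquivSubgroupProdSet K
        {y : G ⧸ K | y ^ u = 1})).ge.trans (Nat.card_le_card_of_injective
          (fun x => ⟨x.1, ?_⟩) fun a b e => Subtype.ext (Subtype.mk.inj e))
      exact orderOf_dvd_iff_pow_eq_one.1 ((orderOf_dvd_of_pow_eq_one (hx u x.1 x.2)).trans
        (e1 ▸ Nat.mul_dvd_mul_left u hpg))
    haveI : Nonempty {y : G ⧸ K // y ^ u = 1} := ⟨⟨1, one_pow _⟩⟩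
    have h2 := Nat.le_of_dvd Nat.card_pos (CA.L0Frob.dvd_card_pow_eq_one hu)
    have hk : 0 < k := Nat.pos_of_ne_zero (by rintro rfl; exact card_ne_zero' K (by simpa using e2))
    have hu0 : 0 < u := Nat.pos_of_ne_zero (by rintro rfl; exact hn0 (by simpa using e1))
    rw [e2, e1] at h1
    have h3 : k = 1 := by
      have : k * (u * g) ≤ 1 * (u * g) := by nlinarith [Nat.mul_le_mul_left (k * g) h2]
      have := Nat.le_of_mul_le_mul_right this (Nat.mul_pos hu0 hg)
      omega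
    subst h3
    obtain ⟨L, hL⟩ := ih _ hlt rfl u hu (Nat.le_of_mul_le_mul_left (by nlinarith) hg)
    exact ⟨_, by rw [hcm, hL, e2, e1, one_mul]⟩
  · have hn' := (piNat_compl_iff hp).2 hpn
    have hu : n ∣ Nat.card (G ⧸ K) := (hn'.coprime' hKp).dvd_of_dvd_mul_right (hc ▸ hn)
    obtain ⟨L, hL⟩ := ih _ hlt rfl n hu (le_trans (Nat.card_le_card_of_surjective
      (fun x : {x : G // x ^ n = 1} => (⟨x.1, by rw [← QuotientGroup.mk_pow, x.2]; rfl⟩ :
        {y : G ⧸ K // y ^ n = 1})) (by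
      rintro ⟨y, hy⟩
      induction y using QuotientGroup.induction_on with
      | H x =>
        obtain ⟨a, h1, c, h2⟩ := (Nat.chineseRemainder ((hp.coprime_iff_not_dvd.2 hpn).symm) 1 0).2.imp_right
          Nat.modEq_zero_iff_dvd.1 |> fun h => (⟨_, h⟩ : ∃ a, a ≡ 1 [MOD n] ∧ p ∣ a)
        refine ⟨⟨x ^ a, ?_⟩, Subtype.ext ?_⟩
        · rw [← pow_mul, h2, show p * c * n = n * p * c by ring, pow_mul, hx n x hy, one_pow]
        · exact (QuotientGroup.mk_pow _ _ _).trans ((pow_eq_pow_of_modEq h1 hy).trans (pow_one _)))) h)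
    obtain ⟨R, hR⟩ := hall_exists {p}ᶜ (solv_top (L.comap (QuotientGroup.mk' K)))
    refine ⟨R, Nat.dvd_antisymm ((hR.pi.coprime' hKp).dvd_of_dvd_mul_right ?_)
      ((hn'.coprime hR.idx).dvd_of_dvd_mul_right ?_)⟩
    · rw [← hL, ← hcm]; exact card_dvd hR.le
    · rw [card_mul_relIndex hR.le, hcm, hL]; exact dvd_mul_right _ _


/-- If `G` is a finite solvable group and `n` divides the order of `G` and exactly `n` elements `x` of `G` satisfy `x^n = 1`, then these elements form a normal subgroup. -/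
theorem result {G : Type*} [Group G] [Finite G] [Group.IsSolvable G] (n : ℕ) (hn : n ∣ Nat.card G) (hcount : Nat.card {x : G // x ^ n = 1} = n) : ∃ H : Subgroup G, H.Normal ∧ (H : Set G) = {x : G | x ^ n = 1} := by
  obtain ⟨H, hH⟩ := aux _ rfl n hn hcount.le
  have h1 : (H : Set G) = {x : G | x ^ n = 1} := by
    refine Set.eq_of_subset_of_ncard_le (fun x hx => ?_) ?_
    · exact orderOf_dvd_iff_pow_eq_one.1 (hH ▸ orderOf_dvd_card_of_mem hx)
    · rw [← Nat.card_coe_set_eq, ← Nat.card_coe_set_eq]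
      exact (hcount.trans hH.symm).le
  refine ⟨H, ⟨fun x hx g => ?_⟩, h1⟩
  rw [← SetLike.mem_coe, h1] at hx ⊢
  rw [Set.mem_setOf_eq, conj_pow, hx]
  simp

end Cfsg.Agent.S4213
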