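import Cfsg.Statements.S4214
import Cfsg.Agent.Lib.Solv.SS2
import Cfsg.Agent.Lib.Odd.BG4a
import Cfsg.Agent.Lib.Grp.H1Hall
import Cfsg.Agent.Lib.Grp.Subn
import Cfsg.Agent.Lib.Grp.PGBasic

set_option autoImplicit false
open Cfsg

namespace Cfsg.Agent.S4214

open Subgroup CA.BG
open scoped Pointwise

universe u

theorem lemA {G : Type*} [Group G] [Finite G] {N : Subgroup G} (n : ℕ) : ∀ H : Subgroup G, ♯H < n →
    Group.IsSolvable H → H ≤ 𝓝(N) → (♯N).Coprime ♯H → 𝓒(H).relIndex N ∈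
      Submonoid.closure {a : ℕ | a ∣ ♯N ∧ ∃ q : ℕ, q.Prime ∧ q ∣ ♯H ∧ a ≡ 1 [MOD q]} := by
  induction n with
  | zero => intro H h; omega
  | succ n ih =>
    intro H h1 hs hn hc
    by_cases h0 : H = ⊥
    · subst h0; rw [cent_bot, relIndex_top_left]; exact one_mem _
    obtain ⟨M, h2, h3, hq⟩ := exists_normal_prime hs h0
    obtain ⟨Q, hQ⟩ := syl_exists hq H
    have h4 : M ⊔ Q = H := (CA.PGBasic.eq_or_eq_of_relIndex_prime hq rfl le_sup_left
      (sup_le h2.le hQ.le)).resolve_left fun e =>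
        not_dvd_relIndex_of_le hq hQ (le_sup_right.trans e.le) dvd_rfl
    have h5 := CA.BG4.card_modEq_cent hq hQ.pi (hQ.le.trans (norm_inf hn (norm_cent h3)))
    rw [inf_assoc, ← cent_sup, h4] at h5
    have h6 : N ⊓ 𝓒(H) ≤ N ⊓ 𝓒(M) := inf_le_inf_left _ (cent_anti h2.le)
    have hd : M.relIndex H ∣ ♯H := relIndex_dvd_card' M H
    rw [← inf_relIndex_left, ← relIndex_mul_relIndex _ _ _ h6 inf_le_left, inf_relIndex_left]
    refine mul_mem (Submonoid.subset_closure ⟨(relIndex_dvd_card' _ _).trans (card_dvd inf_le_left),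
      _, hq, hd, ?_⟩) (Submonoid.closure_mono ?_ (ih M (by have := card_lt_of_lt h2; omega)
        (solv_of_le hs h2.le) (h2.le.trans hn) (cop_mono hc le_rfl h2.le)))
    · rw [← card_mul_relIndex h6] at h5
      exact Nat.ModEq.cancel_left_of_coprime
        ((cop_mono hc inf_le_left le_rfl).coprime_dvd_right hd).symm (by rwa [mul_one])
    · rintro a ⟨a1, q, a2, a3, a4⟩
      exact ⟨a1, q, a2, a3.trans (card_dvd h2.le), a4⟩

def Good (G : Type*) [Group G] (m a : ℕ) : Prop :=
  (∃ q e : ℕ, q.Prime ∧ a = q ^ e) ∧ (∃ K L : Subgroup G, K.Normal ∧ L.Normal ∧ K < L ∧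
    (∀ M : Subgroup G, M.Normal → K ≤ M → M ≤ L → M = K ∨ M = L) ∧ a ∣ K.relIndex L) ∧
    (∃ q : ℕ, q.Prime ∧ q ∣ m ∧ a ≡ 1 [MOD q])

theorem main (n : ℕ) : ∀ (G : Type u) [Group G] [Finite G] [Group.IsSolvable G], Nat.card G < n →
    ∀ H : Subgroup G, (♯H).Coprime H.index →
      𝓝(H).index ∈ Submonoid.closure {a : ℕ | Good G (♯H) a} := by
  induction n with
  | zero => intro G _ _ _ h; omega
  | succ n ih =>
    intro G _ _ _ h1 H hH
    by_cases h0 : (⊤ : Subgroup G) = ⊥
    · rw [show 𝓝(H) = ⊤ from top_le_iff.1 (h0.le.trans bot_le), index_top]; exact one_mem _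
    obtain ⟨N, -, h2, hN, h3⟩ := CA.Subn.exists_minimal_normal h0
    obtain ⟨h4, p, hp, h5⟩ := CA.Subn.elemAb_of_minimal_normal inferInstance h2 h3
    have hP : IsPi {p} N := isPi_of_elem hp ⟨h4, h5⟩
    have hs := QuotientGroup.mk'_surjective N
    have h6 := ih (G ⧸ N) (by have := CA.H1Basic.card_quotient_lt h2; omega)
      (H.map (QuotientGroup.mk' N))
      ((hH.coprime_dvd_left (card_map_dvd _ _)).coprime_dvd_right (index_map_dvd _ hs))
    have h7 : 𝓝(H ⊔ N) = 𝓝(H) ⊔ N := by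
      refine le_antisymm (fun g hg => ?_) (sup_le (norm_sup le_rfl (top_le_norm _ _))
        (le_norm_of_le le_sup_right))
      have : IsHallIn H (H ⊔ N) := ⟨le_sup_left, hH.coprime_dvd_right
        (relIndex_dvd_index_of_le le_sup_left)⟩
      obtain ⟨a, ha, x, hx, rfl⟩ := this.hall.frattini inferInstance hg
      exact mul_mem (sup_le_sup_right (le_norm_self H) N ha) (mem_sup_left hx)
    rw [← index_comap_of_surjective _ hs, comap_normalizer_eq_of_surjective _ hs, comap_map_eq,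
      QuotientGroup.ker_mk', h7] at h6
    rw [← relIndex_mul_index (le_sup_left : 𝓝(H) ≤ 𝓝(H) ⊔ N), CA.H1Basic.relIndex_sup_normal]
    refine mul_mem ?_ (Submonoid.closure_mono ?_ h6)
    · by_cases hd : p ∣ ♯H
      · rw [relIndex_eq_one.2 ((CA.H1Basic.normal_le_of_coprime_index (hP.nat.coprime
          ((piNat_compl_iff hp).2 (not_dvd_of_coprime hp hH hd)))).trans (le_norm_self H))]
        exact one_mem _
      have hc : (♯N).Coprime ♯H := hP.coprime ((isPi_compl_iff hp).2 hd)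
      have h8 : N ⊓ 𝓝(H) = N ⊓ 𝓒(H) := le_antisymm (le_inf inf_le_left
        (cent_of_comm_le_disjoint (N := N) ((comm_mono inf_le_left le_rfl).trans
          (comm_le_left (top_le_norm _ _))) inf_le_right (inf_eq_bot_of_cop hc.symm)))
        (inf_le_inf_left _ (cent_le_norm H))
      rw [← inf_relIndex_left, h8, inf_relIndex_left]
      refine Submonoid.closure_mono ?_ (lemA _ H (Nat.lt_succ_self _) inferInstance
        (top_le_norm _ _) hc)
      rintro a ⟨a1, a2⟩
      obtain ⟨k, hk⟩ := hP.exists_card hp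
      obtain ⟨e, -, he⟩ := (Nat.dvd_prime_pow hp).1 (hk ▸ a1)
      exact ⟨⟨p, e, hp, he⟩, ⟨⊥, N, inferInstance, hN, bot_lt_iff_ne_bot.2 h2,
        fun M a _ b => h3 M a b, by rwa [relIndex_bot_left]⟩, a2⟩
    · rintro a ⟨a1, ⟨K, L, b1, b2, b3, b4, b5⟩, q, c1, c2, c3⟩
      refine ⟨a1, ⟨K.comap (QuotientGroup.mk' N), L.comap (QuotientGroup.mk' N), inferInstance,
        inferInstance, (comap_lt_comap_of_surjective hs).2 b3, fun M d1 d2 d3 => ?_, ?_⟩, q, c1,
        c2.trans (card_map_dvd _ _), c3⟩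
      · have e : (M.map (QuotientGroup.mk' N)).comap (QuotientGroup.mk' N) = M :=
          comap_map_eq_self ((ker_le_comap _ _).trans d2)
        rw [← e]
        exact (b4 _ (d1.map _ hs) (map_comap_eq_self_of_surjective hs K ▸ map_mono d2)
          (map_le_iff_le_comap.2 d3)).imp (congrArg _) (congrArg _)
      · rwa [relIndex_comap, map_comap_eq_self_of_surjective hs]

/-- Let `G` be a finite solvable group of order `mn` with `gcd(m, n) = 1`. Then the number of subgroups of order `m` is a product of natural numbers each of which is a power of a prime, divides the order of some chief factor of `G` (a quotient `L/K` of normal subgroups `K < L` of `G` with no normal subgroup of `G` strictly between them), and is congruent to `1` modulo some prime divisor of `m`. -/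
theorem result {G : Type*} [Group G] [Finite G] [Group.IsSolvable G] (m n : ℕ) (hG : Nat.card G = m * n) (hmn : Nat.Coprime m n) : ∃ (k : ℕ) (f : Fin k → ℕ), Nat.card {H : Subgroup G // Nat.card H = m} = ∏ i, f i ∧ ∀ i, (∃ q e : ℕ, q.Prime ∧ f i = q ^ e) ∧ (∃ K L : Subgroup G, K.Normal ∧ L.Normal ∧ K < L ∧ (∀ M : Subgroup G, M.Normal → K ≤ M → M ≤ L → M = K ∨ M = L) ∧ f i ∣ K.relIndex L) ∧ (∃ q : ℕ, q.Prime ∧ q ∣ m ∧ f i ≡ 1 [MOD q]) := by
  obtain ⟨H, h1, h2⟩ := CA.H1Hall.exists_hall (G := G) {p | p ∣ m}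
  have h3 := H.card_mul_index
  have h4 : (♯H).Coprime n := Nat.coprime_of_dvd fun p hp a b =>
    not_dvd_of_coprime hp hmn (h1 p hp a) b
  have h5 : m.Coprime H.index := Nat.coprime_of_dvd fun p hp a b => h2 p hp a b
  have h6 : ♯H = m := Nat.dvd_antisymm (h4.dvd_of_dvd_mul_right (hG ▸ h3 ▸ dvd_mul_right _ _))
    (h5.dvd_of_dvd_mul_right (h3 ▸ hG ▸ dvd_mul_right _ _))
  subst h6
  obtain ⟨l, h7, h8⟩ := Submonoid.exists_list_of_mem_closure (main _ G (Nat.lt_succ_self _) H h5)
  refine ⟨l.length, l.get, ?_, fun i => h7 _ (l.get_mem i)⟩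
  rw [← List.prod_ofFn, List.ofFn_get, h8]
  have h9 : 𝓝(H) = (MulAction.stabilizer (MulAut G) H).comap MulAut.conj :=
    Subgroup.ext fun g => CA.H1Basic.conj_smul_eq_iff_mem_normalizer.symm
  letI : MulAction G (Subgroup G) := MulAction.compHom _ (MulAut.conj (G := G))
  rw [show 𝓝(H) = MulAction.stabilizer G H from h9, MulAction.index_stabilizer, ← Nat.card_coe_set_eq]
  refine Nat.card_congr (Equiv.subtypeEquivRight fun K => ⟨fun h => ?_, ?_⟩)
  · exact CA.H1Hall.conj_eq_hall H K h5 h.symm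
  · rintro ⟨g, rfl⟩
    exact CA.H1Basic.card_smul (MulAut.conj g) H

end Cfsg.Agent.S4214
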