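import Cfsg.Statements.S4215
import Cfsg.Agent.Lib.Grp.HallWie

set_option autoImplicit false
open Cfsg

namespace Cfsg.Agent.S4215


/-- Let `P` be a Sylow `p`-subgroup of the finite group `G`, `Q` a subgroup of `P` weakly closed in `P` with respect to `G`, and `H` the normalizer of `Q`. Suppose that for all `u ∈ P` and `z ∈ Q` the iterated commutator `[u, z, …, z]` with `p - 1` entries `z` is trivial, where `[x, z] = x⁻¹z⁻¹xz` and `[x, z, z] = [[x, z], z]`. Then `O^p(H) = O^p(G) ∩ H`, where `O^p` denotes the subgroup generated by the elements of order prime to `p`; so the largest `p`-factor groups of `G` and of `H` are isomorphic. -/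
theorem result {G : Type*} [Group G] [Finite G] {p : ℕ} [Fact p.Prime] (P : Sylow p G) (Q : Subgroup G) (hQ : Cfsg.IsWeaklyClosed Q (P : Subgroup G)) (h : ∀ u ∈ (P : Subgroup G), ∀ z ∈ Q, (fun y : G => y⁻¹ * z⁻¹ * y * z)^[p - 1] u = 1) : Cfsg.pResidualOf p (Subgroup.normalizer (Q : Set G)) = Cfsg.pResidual p G ⊓ Subgroup.normalizer (Q : Set G) := by
  by_cases hc : commutator G ⊓ (P : Subgroup G) ≤
      ⁅Subgroup.normalizer (Q : Set G), Subgroup.normalizer (Q : Set G)⁆ ⊔ CA.BG.Phi (P : Subgroup G)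
  · exact (CA.NPC2.tate_of_commutator P (CA.Trf.sylow_le_normalizer_of_weaklyClosed hQ) hc).symm
  · obtain ⟨C, u, z, h1, h2, h3, -, -, h4⟩ := CA.HallWie.main P hQ hc
    exact absurd (by rw [CA.HallWie.it, h u (h1 h2) z h3]; exact one_mem _) h4

end Cfsg.Agent.S4215
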