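import Cfsg.Statements.S4216
import Cfsg.Agent.Lib.Grp.Fus3

set_option autoImplicit false
open Cfsg

namespace Cfsg.Agent.S4216

open Subgroup CA.SylIn CA.Fus3 CA.Hyperfocal

/-- Grün's first Theorem: if `P` is a Sylow `p`-subgroup of the finite group `G`, then `P ∩ G'` is the subgroup generated by `P ∩ N_G(P)'` together with the subgroups `P ∩ z P' z⁻¹` for all `z ∈ G`, where `'` denotes the derived subgroup and `N_G(P)` the normalizer of `P`. -/
theorem result {G : Type*} [Group G] [Finite G] {p : ℕ} [Fact p.Prime] (P : Sylow p G) : (P : Subgroup G) ⊓ commutator G = ((P : Subgroup G) ⊓ ⁅Subgroup.normalizer ((P : Subgroup G) : Set G), Subgroup.normalizer ((P : Subgroup G) : Set G)⁆) ⊔ ⨆ z : G, (P : Subgroup G) ⊓ (⁅(P : Subgroup G), (P : Subgroup G)⁆).map (MulAut.conj z).toMonoidHom := by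
  apply le_antisymm
  · rw [inf_comm]
    refine commutator_inf_le P fun x hx g hg => ?_
    refine alperin_tame_p P (fun D g => ∀ x ∈ D, x⁻¹ * (g * x * g⁻¹) ∈ _)
      (fun D E g h _ _ hR x hx => hR x (h hx)) (fun D g h _ _ _ h1 h2 x hx => ?_)
      (fun n hn x hx => mem_sup_left <| mem_inf.2 ⟨mul_mem (inv_mem hx) (conj_mem_of_mem_normalizer hn hx),
        inv_mul_conj_mem_commutator (le_normalizer hx) hn⟩)
      (fun D Q e h1 h2 n hn ⟨k, hk⟩ x hx => mem_sup_right ?_) (zpowers x) g (zpowers_le.2 hx)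
      (by rw [conj_zpowers]; exact zpowers_le.2 hg) x (mem_zpowers x)
    · have := mul_mem (h1 x hx) (h2 _ (conj_mem_conj.2 hx))
      convert this using 1
      group
    · have hD : D ≤ P := e ▸ inf_le_left
      obtain ⟨z, hz⟩ := exists_conj_le_sylow P ((CA.Fus2.isPGroup_zpowers hk).to_sup_of_normal_right'
        (P.isPGroup'.to_le hD) (zpowers_le.2 hn))
      refine mem_iSup_of_mem z⁻¹ ⟨hD (mul_mem (inv_mem hx) (conj_mem_of_mem_normalizer hn hx)), ?_⟩
      have := inv_mul_conj_mem_commutator (conj_le_iff.1 hz x (mem_sup_right hx))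
        (conj_le_iff.1 hz n (mem_sup_left (mem_zpowers n)))
      refine mem_conj_inv.2 ?_
      convert this using 1
      group
  · refine sup_le (inf_le_inf_left _ (commutator_mono le_top le_top))
      (iSup_le fun z => inf_le_inf_left _ ?_)
    rw [← conj_eq_of_normal z (_root_.commutator G)]
    exact conj_mono z (commutator_mono le_top le_top)

end Cfsg.Agent.S4216
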