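import Cfsg.Statements.S4217
import Cfsg.Agent.Lib.Odd.BG4x3
import Cfsg.Agent.Lib.Odd.BG1b

set_option autoImplicit false
open Cfsg

namespace Cfsg.Agent.S4217

open CA.BG CA.OQuo Subgroup

/-- Let `A` be an abelian normal subgroup of the finite group `G`. Then `A` has a complement in `G` if and only if, for every prime `p` dividing the index of `A`, there are a Sylow `p`-subgroup `S` of `G/A` and a subgroup `K` of `G` with `K ∩ A = 1` and `KA` equal to the preimage of `S` (that is, `A` has a complement in the preimage of a Sylow `p`-subgroup of `G/A`). -/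
theorem result {G : Type*} [Group G] [Finite G] (A : Subgroup G) [A.Normal] (hA : IsMulCommutative A) : (∃ K : Subgroup G, K.IsComplement' A) ↔ ∀ p : ℕ, p.Prime → p ∣ A.index → ∃ (S : Sylow p (G ⧸ A)) (K : Subgroup G), K ⊓ A = ⊥ ∧ K ⊔ A = (S : Subgroup (G ⧸ A)).comap (QuotientGroup.mk' A) := by
  constructor
  · rintro ⟨K, hK⟩ p hp -
    haveI := Fact.mk hp
    obtain ⟨S⟩ : Nonempty (Sylow p (G ⧸ A)) := inferInstance
    have hAU : A ≤ (S : Subgroup (G ⧸ A)).comap (QuotientGroup.mk' A) := fun x hx => by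
      rw [mem_comap, QuotientGroup.mk'_apply, (QuotientGroup.eq_one_iff x).2 hx]; exact one_mem _
    refine ⟨S, K ⊓ (S : Subgroup (G ⧸ A)).comap (QuotientGroup.mk' A), ?_, ?_⟩
    · exact CA.BG.eq_bot_mono (inf_le_inf_right _ inf_le_left) hK.disjoint.eq_bot
    · rw [← sup_inf_of_le_right (top_le_norm A K) hAU, hK.sup_eq_top, top_inf_eq]
  intro h
  have hnil := nil_of_comm hA
  have h1 : ∀ q : ℕ, q.Prime → ∃ H : Subgroup G, H ⊔ A = ⊤ ∧ H ⊓ A = 𝓞({q}ᶜ, A) := by
    intro q hq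
    obtain ⟨U, K, hU, hi, hK1, hK2⟩ : ∃ U K : Subgroup G, A ≤ U ∧ ¬ q ∣ U.index ∧ K ⊓ A = ⊥ ∧
        K ⊔ A = U := by
      by_cases hd : q ∣ A.index
      · haveI := Fact.mk hq
        obtain ⟨S, K, a, b⟩ := h q hq hd
        refine ⟨_, K, le_sup_right, ?_, a, rfl⟩
        rw [b, index_comap_of_surjective _ (QuotientGroup.mk'_surjective A)]
        exact S.not_dvd_index
      · exact ⟨A, ⊥, le_rfl, hd, bot_inf_eq _, bot_sup_eq _⟩
    have hB : ∀ X : Subgroup G, X ≤ 𝓝(𝓞({q}ᶜ, A)) := fun X => norm_core _ (top_le_norm A X)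
    have hBA := core_le {q}ᶜ A
    obtain ⟨L, -, a, b⟩ := CA.BG4.gaschutz (K := A /ᵍ 𝓞({q}ᶜ, A)) (U := U /ᵍ 𝓞({q}ᶜ, A))
      (H := ⊤ /ᵍ 𝓞({q}ᶜ, A)) (A := K /ᵍ 𝓞({q}ᶜ, A)) (quo_mono _ hU) (quo_mono _ le_top)
      (norm_quo _ (top_le_norm A ⊤)) (isMulCommutative_mim _ hA) (by
        rw [card_quo (hB _), relIndex_quo (hB _) (hB _) (hBA.trans hU), relIndex_top_right]
        exact (nil_hall_core {q}ᶜ hnil).idx.coprime' (by
          exact (piNat_compl_iff hq).2 hi))
      (quo_mono _ (hK2 ▸ le_sup_left))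
      (by rw [← quo_inf_left _ (hB _) hBA, inf_comm, hK1]; exact mim_bot _)
      (by rw [← quo_sup (hB _) (hB _), sup_comm, hK2])
    refine ⟨mpre (qh _) L, ?_, ?_⟩
    · have := congrArg (mpre (qh _)) b
      rwa [qpre_sup, qpre_quo (hB A) hBA, qpre_quo (hB _) le_top, sup_comm] at this
    · have := congrArg (mpre (qh _)) a
      rwa [mpre_inf, qpre_quo (hB A) hBA, qpre_bot, inf_comm] at this
  have h2 : ∀ s : Finset ℕ, (∀ q ∈ s, q.Prime) → ∃ H : Subgroup G, H ⊔ A = ⊤ ∧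
      𝓞((s : Set ℕ)ᶜ, A) ≤ H ∧ IsPi (s : Set ℕ)ᶜ (H ⊓ A) := by
    intro s
    induction s using Finset.induction_on with
    | empty => exact fun _ => ⟨⊤, top_sup_eq _, le_top, fun _ _ _ => by simp⟩
    | insert q s hqs ih =>
      intro hs
      have hq := hs q (Finset.mem_insert_self _ _)
      obtain ⟨H, a, b, c⟩ := ih fun r hr => hs r (Finset.mem_insert_of_mem hr)
      obtain ⟨L, d, e⟩ := h1 q hq
      have hO : ∀ X : Subgroup G, X ≤ 𝓝(𝓞({q}, A)) := fun X => norm_core _ (top_le_norm A X)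
      have h3 : L ⊔ 𝓞({q}, A) = ⊤ := by
        rw [eq_top_iff, ← d]
        refine sup_le le_sup_left ((nil_core_sup {q} hnil).ge.trans (sup_le le_sup_right ?_))
        rw [← e]
        exact inf_le_left.trans le_sup_left
      have h4 := sup_inf_of_le_right (hO L)
        ((core_mono_pi (singleton_sub (show q ∈ (s : Set ℕ)ᶜ from hqs)) A).trans b)
      rw [h3, top_inf_eq] at h4
      refine ⟨L ⊓ H, ?_, le_inf ?_ ?_, fun r hr hd => ?_⟩
      · rw [eq_top_iff, ← a]
        exact sup_le (h4.le.trans (sup_le_sup_left (core_le _ _) _)) le_sup_right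
      · refine le_trans (core_mono_pi ?_ A) (e.ge.trans inf_le_left)
        exact Set.compl_subset_compl.2 (by simp)
      · exact le_trans (core_mono_pi (Set.compl_subset_compl.2 (by simp)) A) b
      · have h5 := c.of_le (inf_le_inf_right A (inf_le_right : L ⊓ H ≤ H)) r hr hd
        have h6 := (e ▸ core_pi {q}ᶜ A : IsPi {q}ᶜ (L ⊓ A)).of_le
          (inf_le_inf_right A (inf_le_left : L ⊓ H ≤ L)) r hr hd
        simp only [Finset.coe_insert, Set.mem_compl_iff, Set.mem_insert_iff, not_or]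
        exact ⟨h6, h5⟩
  obtain ⟨H, a, -, c⟩ := h2 (Nat.card A).primeFactors fun q hq => Nat.prime_of_mem_primeFactors hq
  refine ⟨H, isComplement'_of_disjoint_and_mul_eq_univ (disjoint_iff.2 (IsPi.eq_bot ?_ c)) ?_⟩
  · exact fun r hr hd => Nat.mem_primeFactors.2 ⟨hr, hd.trans (card_dvd inf_le_right), card_ne_zero' A⟩
  · rw [← mul_normal, a, coe_top]

end Cfsg.Agent.S4217
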