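import Cfsg.Statements.S4218
import Cfsg.Agent.Lib.Odd.BG1b
import Cfsg.Agent.Lib.Odd.BGSigma
import Cfsg.Agent.Lib.Grp.H12PSolv
import Cfsg.Agent.Lib.Grp.PGFrattini

set_option autoImplicit false
open Cfsg

namespace Cfsg.Agent.S4218

open CA.BG Subgroup

/-- Let `G` be a finite `p`-solvable group, `N₀ = O_{p'}(G)`, `P₁ = O_{p',p}(G)`, and let `F ≤ P₁` be the preimage of the Frattini subgroup of `P₁/N₀`. Then an element `g` of `G` induces the identity on `P₁/F` by conjugation (that is, `g x g⁻¹ x⁻¹ ∈ F` for all `x ∈ P₁`) if and only if `g ∈ P₁`: the group `G/P₁` acts faithfully on `P₁/F`. -/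
theorem result {G : Type*} [Group G] [Finite G] {p : ℕ} [Fact p.Prime] (hG : Cfsg.IsPSolvable p G) (g : G) : (∀ x ∈ Cfsg.pPrimePCore p G, g * x * g⁻¹ * x⁻¹ ∈ ((frattini (↥(Cfsg.pPrimePCore p G) ⧸ (Cfsg.pPrimeCore p G).subgroupOf (Cfsg.pPrimePCore p G))).comap (QuotientGroup.mk' ((Cfsg.pPrimeCore p G).subgroupOf (Cfsg.pPrimePCore p G)))).map (Cfsg.pPrimePCore p G).subtype) ↔ g ∈ Cfsg.pPrimePCore p G := by
  have hp : p.Prime := Fact.out
  let π := QuotientGroup.mk' (pPrimeCore p G)
  let V := pCore p (G ⧸ pPrimeCore p G)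
  have hV : IsPi {p} V := isPi_of_isPGroup hp CA.Core.isPGroup_pCore
  let f : pPrimePCore p G →* V := (π.comp (pPrimePCore p G).subtype).codRestrict V fun x => x.2
  have hf : Function.Surjective f := by
    rintro ⟨y, hy⟩
    obtain ⟨x, rfl⟩ := QuotientGroup.mk'_surjective _ y
    exact ⟨⟨x, hy⟩, rfl⟩
  have hk : (pPrimeCore p G).subgroupOf (pPrimePCore p G) = f.ker := by
    ext x
    rw [mem_subgroupOf, MonoidHom.mem_ker, Subtype.ext_iff]
    exact (QuotientGroup.eq_one_iff _).symm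
  let e := (QuotientGroup.quotientMulEquivOfEq hk).trans (QuotientGroup.quotientKerEquivOfSurjective f hf)
  have hF : ∀ y : G, y ∈ ((frattini (↥(pPrimePCore p G) ⧸ (pPrimeCore p G).subgroupOf
      (pPrimePCore p G))).comap (QuotientGroup.mk' ((pPrimeCore p G).subgroupOf
      (pPrimePCore p G)))).map (pPrimePCore p G).subtype ↔ π y ∈ Phi V := by
    intro y
    rw [Phi, ← CA.PGFrattini.map_frattini_equiv e]
    constructor
    · rintro ⟨x, hx, rfl⟩
      exact ⟨_, ⟨_, hx, rfl⟩, rfl⟩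
    · rintro ⟨_, ⟨z, hz, rfl⟩, h⟩
      have hy : y ∈ pPrimePCore p G := by
        change π y ∈ V
        rw [← h]; exact Subtype.property _
      refine ⟨⟨y, hy⟩, ?_, rfl⟩
      rw [show z = QuotientGroup.mk ⟨y, hy⟩ from e.injective (Subtype.ext h)] at hz
      exact hz
  simp only [hF]
  constructor
  · intro h
    haveI : (Phi V).Normal := normal_of_top_le_norm ((top_le_norm V ⊤).trans (norm_Phi V))
    haveI : (V.map (QuotientGroup.mk' (Phi V))).Normal :=
      Normal.map inferInstance _ (QuotientGroup.mk'_surjective _)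
    have hc : ∀ X : Subgroup (G ⧸ pPrimeCore p G), ⁅X, V⁆ ≤ Phi V ↔
        X ≤ (𝓒(V.map (QuotientGroup.mk' (Phi V)))).comap (QuotientGroup.mk' (Phi V)) := fun X => by
      rw [← map_le_iff_le_comap, ← comm_eq_bot_iff, ← map_commutator, Subgroup.map_eq_bot_iff,
        QuotientGroup.ker_mk']
    have hC := CA.H12PSolv.centralizer_pCore_le (CA.H12PSolv.psolv_quotient hG (pPrimeCore p G))
      (CA.Core.pPrimeCore_quotient_pPrimeCore)
    have h1 : IsPi {p} ((𝓒(V.map (QuotientGroup.mk' (Phi V)))).comap (QuotientGroup.mk' (Phi V))) := by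
      refine isPi_of_orderOf fun x hx => ?_
      have h2 := constt_elt {p}ᶜ x
      have h3 := coprime_cent_Phi (top_le_norm V _) (hV.coprime h2.pi) (by
        rw [comm_symm, hc]; exact zpowers_le.2 (constt_mem _ hx))
      have h4 := PiElt.eq_one (hV.orderOf (hC (h3 (mem_zpowers _)))) h2
      simpa using constt_eq_one_iff.1 h4
    have h2 := le_core h1 le_top (top_le_norm _ ⊤)
    rw [core_p_top hp] at h2
    refine h2 (mem_comap.2 (mem_cent.2 ?_))
    rintro _ ⟨y, hy, rfl⟩
    obtain ⟨x, rfl⟩ := QuotientGroup.mk'_surjective _ y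
    have h3 := (QuotientGroup.eq_one_iff _).2 (h x hy)
    simp only [map_mul, map_inv, QuotientGroup.mk_mul, QuotientGroup.mk_inv] at h3
    exact (mul_inv_eq_iff_eq_mul.1 (mul_inv_eq_one.1 h3)).symm
  · intro hg x hx
    refine der_le_Phi hp hV ?_
    simp only [map_mul, map_inv]
    exact commutator_mem_commutator hg hx

end Cfsg.Agent.S4218
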