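import Cfsg.Statements.S4221
import Mathlib
import Cfsg.Agent.Lib.Perm.Hall4

set_option autoImplicit false
open Cfsg

namespace Cfsg.Agent.S4221

open MulAction CA.PermBasic CA.Hall4

/-- Let `G` be a `4`-fold transitive permutation group on a finite set of `n` points in which the pointwise stabilizer of some four distinct points has odd order. Then `n = 4` or `n = 5` with `G` the full symmetric group, or `n = 6` or `n = 7` with `G` the alternating group, or `n = 11` and `G` has order `7920`. -/
theorem result {α : Type*} [Fintype α] [DecidableEq α] (G : Subgroup (Equiv.Perm α)) (hG : MulAction.IsMultiplyPretransitive G α 4) (x : Fin 4 ↪ α) (hodd : Odd (Nat.card (MulAction.stabilizer G x))) : ((Fintype.card α = 4 ∨ Fintype.card α = 5) ∧ G = ⊤) ∨ ((Fintype.card α = 6 ∨ Fintype.card α = 7) ∧ G = alternatingGroup α) ∨ (Fintype.card α = 11 ∧ Nat.card G = 7920) := by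
  have hn : 4 ≤ Fintype.card α := by simpa using Fintype.card_le_of_embedding x
  have hF : F3 G α := fun g h1 h2 => by
    by_contra h
    obtain ⟨a, b, c, d, ha, hb, hc, hd, ab, ac, ad, bc, bd, cd⟩ :=
      (Set.three_lt_ncard_iff).1 (not_le.1 h)
    let y : Fin 4 ↪ α := ⟨_, inj4 ab ac ad bc bd cd⟩
    have e : Nat.card (stabilizer G x) = Nat.card (stabilizer G y) :=
      @card_stabilizer_eq G _ _ _ hG x y
    have := Subgroup.orderOf_dvd_natCard (stabilizer G y) (x := g) (by
      ext i; fin_cases i
      exacts [ha, hb, hc, hd])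
    rw [orderOf_eq_prime (p := 2) (by rwa [sq]) h1, ← e] at this
    exact (Nat.not_even_iff_odd.2 hodd) (even_iff_two_dvd.2 this)
  have hd := CA.Sharp4.descFactorial_dvd_card hG (by rwa [Nat.card_eq_fintype_card])
  rcases hallP G hG hF hn with ⟨h1, h2⟩ | ⟨h1, h2⟩
  · by_cases h5 : Fintype.card α ≤ 5
    · refine Or.inl ⟨by omega, Subgroup.eq_top_of_le_card _ ?_⟩
      refine le_trans (le_of_eq ?_) (Nat.le_of_dvd Nat.card_pos hd)
      rw [Nat.card_perm, Nat.card_eq_fintype_card]
      interval_cases Fintype.card α <;> rfl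
    have : Nontrivial α := Fintype.one_lt_card_iff_nontrivial.1 (by omega)
    refine Or.inr (Or.inl ⟨by omega, (eq_or_top h2).resolve_right ?_⟩)
    rintro rfl
    obtain ⟨a, b, ab⟩ := exists_pair_ne α
    have h3 := hF ⟨Equiv.swap a b, trivial⟩ (fun e => ab (Equiv.swap_eq_one_iff.1
      (congrArg Subtype.val e))) (Subtype.ext (Equiv.swap_mul_self a b))
    have h4 := Set.ncard_le_ncard (s := ({a, b} : Set α)ᶜ) (fun y hy => by
      simp only [Set.mem_compl_iff, Set.mem_insert_iff, Set.mem_singleton_iff, not_or] at hy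
      exact Equiv.swap_apply_of_ne_of_ne hy.1 hy.2)
      (Set.toFinite (fixedBy α (⟨Equiv.swap a b, trivial⟩ : (⊤ : Subgroup (Equiv.Perm α)))))
    rw [Set.ncard_compl, Set.ncard_pair ab, Nat.card_eq_fintype_card] at h4
    omega
  · refine Or.inr (Or.inr ⟨h1, ?_⟩)
    rw [CA.Sharp4.card_eq_descFactorial hG h2 (by rwa [Nat.card_eq_fintype_card]),
      Nat.card_eq_fintype_card, h1]
    rfl

end Cfsg.Agent.S4221
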