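import Cfsg.Statements.S4222
import Cfsg.Agent.Lib.Loc.H6Basic

set_option autoImplicit false
open Cfsg

namespace Cfsg.Agent.S4222

open CA.H6Basic Subgroup

/-- If a normal subgroup `N` of a finite group is complete (its centre is trivial and every automorphism of `N` is inner), then the group is the internal direct product of `N` and the centralizer of `N`: the centralizer is a complement to `N`. -/
theorem result {T : Type*} [Group T] [Finite T] (N : Subgroup T) [N.Normal] (hz : Subgroup.center ↥N = ⊥) (ha : Function.Surjective (MulAut.conj : ↥N →* MulAut ↥N)) : (Subgroup.centralizer (N : Set T)).IsComplement' N := by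
  refine isComplement'_of_disjoint_and_mul_eq_univ (disjoint_def.2 fun {x} h1 h2 => ?_)
    (Set.eq_univ_of_forall fun g => ?_)
  · have : (⟨x, h2⟩ : N) ∈ center N := mem_center_iff.2 fun y => Subtype.ext (h1 y y.2)
    rw [hz] at this
    exact congrArg Subtype.val (mem_bot.1 this)
  · obtain ⟨n, hn⟩ := ha (MulAut.conjNormal g⁻¹)
    refine ⟨g * n, mem_centralizer_iff.2 fun y hy => ?_, n⁻¹, inv_mem n.2, by simp⟩
    have := congrArg (fun φ : MulAut N => ((φ ⟨y, hy⟩ : N) : T)) hn
    simp only [MulAut.conj_apply, MulAut.conjNormal_apply, coe_mul, coe_inv, inv_inv] at this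
    calc _ = g * (g⁻¹ * y * g) * n := by group
      _ = _ := by rw [← this]; group

end Cfsg.Agent.S4222
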