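import Cfsg.Statements.S4223
import Mathlib.Tactic


set_option autoImplicit false
open Cfsg

namespace Cfsg.Agent.S4223

open Subgroup

universe u v

section
variable {A : Type*} [Group A] [Finite A]

def Ind (A : Type*) [Group A] : Prop :=
  Nontrivial A ∧ ∀ H K : Subgroup A, H.Normal → K.Normal → H ⊓ K = ⊥ → H ⊔ K = ⊤ → H = ⊥ ∨ K = ⊥

def Nm (f : Monoid.End A) : Prop := ∀ g x, f (g * x * g⁻¹) = g * f x * g⁻¹

omit [Finite A] in
theorem Nm.pow {f : Monoid.End A} (h : Nm f) (k : ℕ) : Nm (f ^ k) := by
  induction k with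
  | zero => exact fun g x => rfl
  | succ k ih =>
    intro g x
    rw [pow_succ', Monoid.End.coe_mul, Function.comp_apply, ih, h]; rfl

theorem exists_pow_idem {M : Type*} [Monoid M] [Finite M] (f : M) :
    ∃ n, 0 < n ∧ f ^ n * f ^ n = f ^ n := by
  obtain ⟨i, j, hij, e⟩ := Finite.exists_ne_map_eq_of_infinite fun n : ℕ => f ^ n
  wlog h : i < j generalizing i j
  · exact this j i hij.symm e.symm (by omega)
  obtain ⟨d, rfl⟩ := Nat.exists_eq_add_of_lt h
  have h1 : ∀ k, f ^ (i + k * (d + 1)) = f ^ i := by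
    intro k
    induction k with
    | zero => simp
    | succ k ih => rw [Nat.succ_mul, ← add_assoc, pow_add, ih, ← pow_add]; exact e.symm
  obtain ⟨c, hc⟩ := Nat.exists_eq_add_of_le (show i ≤ (i + 1) * (d + 1) by nlinarith)
  refine ⟨(i + 1) * (d + 1), by positivity, ?_⟩
  rw [← pow_add]
  nth_rewrite 1 [hc]
  nth_rewrite 2 [hc]
  rw [add_comm i c, add_assoc, pow_add, h1, ← pow_add]

theorem fitting (hA : Ind A) {f : Monoid.End A} (h : Nm f) :
    Function.Bijective f ∨ ∃ k, ∀ x, (f ^ k) x = 1 := by
  haveI : Finite (Monoid.End A) := Finite.of_injective _ (DFunLike.coe_injective (F := A →* A))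
  obtain ⟨n, hn, e⟩ := exists_pow_idem f
  have e' : ∀ x, (f ^ n) ((f ^ n) x) = (f ^ n) x := fun x => DFunLike.congr_fun e x
  have hr : (MonoidHom.range (f ^ n : Monoid.End A)).Normal := ⟨by
    rintro _ ⟨x, rfl⟩ g
    exact ⟨_, h.pow n g x⟩⟩
  rcases hA.2 (MonoidHom.ker (f ^ n : Monoid.End A)) _ inferInstance hr (eq_bot_iff.2 (by
      rintro _ ⟨h1, x, rfl⟩
      exact (e' x).symm.trans h1)) (eq_top_iff.2 fun x _ => by
      rw [← inv_mul_cancel_right x ((f ^ n) x)]
      refine mul_mem (mem_sup_left ?_) (mem_sup_right ⟨x, rfl⟩)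
      show (f ^ n) _ = 1
      rw [map_mul, map_inv, e', mul_inv_cancel]) with h1 | h1
  · left
    obtain ⟨m, rfl⟩ := Nat.exists_eq_succ_of_ne_zero hn.ne'
    have := (MonoidHom.ker_eq_bot_iff _).1 h1
    rw [Nat.succ_eq_add_one, pow_succ] at this
    exact Finite.injective_iff_bijective.1 (Function.Injective.of_comp (f := f ^ m) this)
  · exact Or.inr ⟨n, fun x => mem_bot.1 (h1 ▸ ⟨x, rfl⟩)⟩

theorem or_bij (hA : Ind A) {f g u : Monoid.End A} (hf : Nm f) (hu : Nm u)
    (hb : Function.Bijective u) (h : ∀ x, u x = f x * g x) :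
    Function.Bijective f ∨ Function.Bijective g := by
  let e := MulEquiv.ofBijective u hb
  have he : ∀ x, e.symm (u x) = x := e.symm_apply_apply
  let w : Monoid.End A := e.symm.toMonoidHom.comp f
  have : Nm w := fun a x => hb.1 (by
    show e (e.symm (f _)) = u (a * e.symm (f x) * a⁻¹)
    rw [hu, e.apply_symm_apply, hf]
    exact congrArg (a * · * a⁻¹) (e.apply_symm_apply _).symm)
  rcases fitting hA this with h1 | ⟨k, hk⟩
  · exact Or.inl (Finite.injective_iff_bijective.1 (Function.Injective.of_comp (f := e.symm) h1.1))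
  refine Or.inr (Finite.injective_iff_bijective.1 ((injective_iff_map_eq_one g).2 fun x hx => ?_))
  have h2 : e.symm (f x) = x := by rw [← mul_one (f x), ← hx, ← h, he]
  rw [← hk x]
  clear hk
  induction k with
  | zero => rfl
  | succ k ih => rw [pow_succ, Monoid.End.coe_mul, Function.comp_apply]; exact ih.trans (congrArg _ h2.symm)
end

theorem exch {A : Type*} [Group A] [Finite A] (hA : Ind A) {n : ℕ} {B : Fin n → Type*}
    [∀ j, Group (B j)] [∀ j, Finite (B j)] (hB : ∀ j, Ind (B j)) (ι : A →* ∀ j, B j)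
    (π : (∀ j, B j) →* A) (h1 : ∀ a, π (ι a) = a)
    (h2 : ∀ g y, ι (π (g * y * g⁻¹)) = g * ι (π y) * g⁻¹) :
    ∃ j, Function.Bijective (fun a => ι a j) ∧ ∀ b, π (Pi.mulSingle j b) = 1 → b = 1 := by
  classical
  let pr : Finset (Fin n) → (∀ j, B j) →* ∀ j, B j := fun S =>
    MonoidHom.mk' (fun b j => if j ∈ S then b j else 1) fun b c => funext fun j => by
      by_cases h : j ∈ S <;> simp [h]
  let F : Finset (Fin n) → Monoid.End A := fun S => π.comp ((pr S).comp ι)
  have nm : ∀ S, Nm (F S) := fun S g x => by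
    show π (pr S (ι (g * x * g⁻¹))) = g * π (pr S (ι x)) * g⁻¹
    have : pr S (ι (g * x * g⁻¹)) = ι g * pr S (ι x) * (ι g)⁻¹ := funext fun j => by
      by_cases h : j ∈ S <;> simp [pr, h]
    rw [this, map_mul, map_mul, map_inv, h1]
  have key : ∀ S, Function.Bijective (F S) → ∃ j, Function.Bijective (F {j}) := by
    intro S
    induction S using Finset.induction_on with
    | empty =>
      intro h
      haveI := hA.1
      obtain ⟨x, hx⟩ := exists_ne (1 : A)
      refine absurd (h.1 ?_) hx
      show π (pr ∅ (ι x)) = π (pr ∅ (ι 1))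
      congr 1
    | insert j S hj ih =>
      intro h
      refine (or_bij hA (g := F S) (nm {j}) (nm _) h fun x => ?_).elim (fun h => ⟨j, h⟩) ih
      show π _ = π _ * π _
      rw [← map_mul]
      congr 1
      funext i
      by_cases e : i = j
      · subst e; simp [pr, hj]
      · simp [pr, e]
  obtain ⟨j, hj⟩ := key Finset.univ (by
    have : ⇑(F Finset.univ) = id := funext fun x => by
      refine Eq.trans (congrArg π (funext fun j => ?_)) (h1 x)
      simp [pr]
    rw [this]; exact Function.bijective_id)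
  have e : ∀ a, F {j} a = π (Pi.mulSingle j (ι a j)) := fun a => congrArg π (funext fun i => by
    by_cases e : i = j
    · subst e; simp [pr]
    · simp [pr, e])
  let ψ : Monoid.End (B j) := (Pi.evalMonoidHom B j).comp (ι.comp (π.comp (MonoidHom.mulSingle B j)))
  have hψ : ∀ b, ψ b = ι (π (Pi.mulSingle j b)) j := fun b => rfl
  have hb : Function.Bijective ψ := by
    refine (fitting (hB j) (f := ψ) fun g x => ?_).resolve_right fun ⟨k, hk⟩ => ?_
    · rw [hψ, hψ, Pi.mulSingle_mul, Pi.mulSingle_mul, Pi.mulSingle_inv, h2]; simp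
    · have : ∀ k a, (ψ ^ k) (ι a j) = ι ((F {j} ^ k) a) j := by
        intro k
        induction k with
        | zero => exact fun a => rfl
        | succ k ih =>
          intro a
          rw [pow_succ', pow_succ', Monoid.End.coe_mul, Monoid.End.coe_mul, Function.comp_apply,
            Function.comp_apply, ih, hψ, e]
      haveI hh := hA.1
      obtain ⟨x, hx⟩ := exists_ne (1 : A)
      have h3 : (F {j} ^ (k + 1)) x = (F {j} ^ (k + 1)) 1 := by
        rw [map_one, pow_succ', Monoid.End.coe_mul, Function.comp_apply, e, ← this, hk]; simp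
      rw [Monoid.End.coe_pow] at h3
      exact hx ((hj.1.iterate _) h3)
  refine ⟨j, ⟨fun a b h => hj.1 (by rw [e, e]; exact congrArg _ (congrArg _ h)),
    Function.Surjective.of_comp (g := fun b => π (Pi.mulSingle j b)) hb.2⟩, fun b h => hb.1 ?_⟩
  rw [hψ, h, map_one, map_one]; rfl

theorem main (m : ℕ) : ∀ {n : ℕ} {A : Fin m → Type u} {B : Fin n → Type v} [∀ i, Group (A i)]
    [∀ j, Group (B j)] [∀ i, Finite (A i)] [∀ j, Finite (B j)], (∀ i, Ind (A i)) → (∀ j, Ind (B j)) →
    ((∀ i, A i) ≃* (∀ j, B j)) → ∃ σ : Fin m ≃ Fin n, ∀ i, Nonempty (A i ≃* B (σ i)) := by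
  induction m with
  | zero =>
    intro n A B _ _ _ _ _ hB e
    cases n with
    | zero => exact ⟨Equiv.refl _, fun i => i.elim0⟩
    | succ n =>
      haveI := (hB 0).1
      haveI := e.symm.injective.subsingleton
      obtain ⟨x, hx⟩ := exists_ne (1 : B 0)
      have := congrFun (Subsingleton.elim (Pi.mulSingle 0 x : ∀ j, B j) 1) 0
      simp [hx] at this
  | succ m ih =>
    intro n A B _ _ _ _ hA hB e
    obtain ⟨j, h1, h2⟩ := exch (hA 0) hB (e.toMonoidHom.comp (MonoidHom.mulSingle A 0))
      ((Pi.evalMonoidHom A 0).comp e.symm.toMonoidHom) (fun a => by simp) fun g y => by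
        apply e.symm.injective
        funext i
        by_cases h : i = 0
        · subst h; simp
        · simp [h]
    cases n with
    | zero => exact j.elim0
    | succ n =>
    let θ : A 0 ≃* B j := MulEquiv.ofBijective ((Pi.evalMonoidHom B j).comp
      (e.toMonoidHom.comp (MonoidHom.mulSingle A 0))) h1
    let φ : (∀ i : Fin m, A i.succ) →* ∀ i : Fin n, B (j.succAbove i) :=
      MonoidHom.mk' (fun a i => e (Fin.cons 1 a) (j.succAbove i)) fun a b => funext fun i => by
        rw [Pi.mul_apply, ← Pi.mul_apply (e _), ← map_mul]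
        refine congrFun (congrArg e (funext fun k => ?_)) _
        refine Fin.cases (by simp) (fun k => by simp) k
    have hφ : Function.Bijective φ := by
      refine (Nat.bijective_iff_injective_and_card φ).2 ⟨(injective_iff_map_eq_one φ).2 fun a ha => ?_, ?_⟩
      · have h3 : e (Fin.cons 1 a) = Pi.mulSingle j (e (Fin.cons 1 a) j) := funext fun k => by
          refine Fin.succAboveCases j (by simp) (fun k => ?_) k
          rw [Pi.mulSingle_eq_of_ne (Fin.succAbove_ne j k)]
          exact congrFun ha k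
        have h4 := h2 (e (Fin.cons 1 a) j) (by rw [← h3]; simp)
        rw [h4, Pi.mulSingle_one, map_eq_one_iff _ e.injective] at h3
        exact funext fun k => by simpa using congrFun h3 k.succ
      · have := Nat.card_congr e.toEquiv
        rw [Nat.card_pi, Nat.card_pi, Fin.prod_univ_succ, Fin.prod_univ_succAbove _ j,
          Nat.card_congr θ.toEquiv] at this
        rw [Nat.card_pi, Nat.card_pi]
        exact Nat.eq_of_mul_eq_mul_left Nat.card_pos this
    obtain ⟨σ, hσ⟩ := ih (fun i => hA i.succ) (fun i => hB (j.succAbove i))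
      (MulEquiv.ofBijective φ hφ)
    refine ⟨(finSuccEquiv m).trans (σ.optionCongr.trans (finSuccEquiv' j).symm), fun i => ?_⟩
    refine Fin.cases ⟨θ⟩ (fun i => ?_) i
    have : ((finSuccEquiv m).trans (σ.optionCongr.trans (finSuccEquiv' j).symm)) i.succ =
      j.succAbove (σ i) := by simp
    rw [this]
    exact hσ i

/-- If a finite group is isomorphic both to a direct product of `m` directly indecomposable nontrivial groups and to a direct product of `n` such groups (a group is directly indecomposable when it is not the internal direct product of two nontrivial normal subgroups), then `m = n` and the factors are isomorphic in pairs after a suitable matching. -/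
theorem result {m n : ℕ} {A : Fin m → Type*} {B : Fin n → Type*} [∀ i, Group (A i)] [∀ j, Group (B j)] [∀ i, Finite (A i)] [∀ j, Finite (B j)] (hA : ∀ i, Nontrivial (A i) ∧ ∀ H K : Subgroup (A i), H.Normal → K.Normal → H ⊓ K = ⊥ → H ⊔ K = ⊤ → H = ⊥ ∨ K = ⊥) (hB : ∀ j, Nontrivial (B j) ∧ ∀ H K : Subgroup (B j), H.Normal → K.Normal → H ⊓ K = ⊥ → H ⊔ K = ⊤ → H = ⊥ ∨ K = ⊥) (e : ((i : Fin m) → A i) ≃* ((j : Fin n) → B j)) : ∃ σ : Fin m ≃ Fin n, ∀ i, Nonempty (A i ≃* B (σ i)) := by
  exact main m hA hB e

end Cfsg.Agent.S4223
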