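import Cfsg.Statements.S4226
import Cfsg.Agent.Lib.Grp.H7Reg
import Cfsg.Agent.S2807
import Cfsg.Agent.Lib.Grp.NPC2

set_option autoImplicit false
open Cfsg

namespace Cfsg.Agent.S4226

open Subgroup CA.H7Reg

variable {p : ℕ} [hp : Fact p.Prime]

/-- permutations preserving the fibres by translations -/
def W (p : ℕ) : Subgroup (Equiv.Perm (ZMod p × ZMod p)) where
  carrier := {σ | ∃ c, ∀ i, ∃ d, ∀ j, σ (i, j) = (i + c, j + d)}
  one_mem' := ⟨0, fun i => ⟨0, fun j => by simp⟩⟩
  mul_mem' := by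
    rintro σ τ ⟨c, hc⟩ ⟨c', hc'⟩
    refine ⟨c' + c, fun i => ?_⟩
    obtain ⟨d', hd'⟩ := hc' i
    obtain ⟨d, hd⟩ := hc (i + c')
    exact ⟨d' + d, fun j => by rw [Equiv.Perm.mul_apply, hd', hd, add_assoc, add_assoc]⟩
  inv_mem' := by
    rintro σ ⟨c, hc⟩
    refine ⟨-c, fun i => ?_⟩
    obtain ⟨d, hd⟩ := hc (i + -c)
    refine ⟨-d, fun j => ?_⟩
    rw [Equiv.Perm.inv_eq_iff_eq, hd]; simp

theorem pow_fst {σ : Equiv.Perm (ZMod p × ZMod p)} {c : ZMod p}
    (hc : ∀ i, ∃ d, ∀ j, σ (i, j) = (i + c, j + d)) (n : ℕ) :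
    ∀ i, ∃ d, ∀ j, (σ ^ n) (i, j) = (i + n * c, j + d) := by
  induction n with
  | zero => intro i; exact ⟨0, by simp⟩
  | succ n ih =>
    intro i
    obtain ⟨d, hd⟩ := ih i
    obtain ⟨d', hd'⟩ := hc (i + n * c)
    exact ⟨d + d', fun j => by
      rw [pow_succ', Equiv.Perm.mul_apply, hd, hd']; push_cast; congr 1 <;> ring⟩

theorem pow_snd {σ : Equiv.Perm (ZMod p × ZMod p)} {i d : ZMod p}
    (hd : ∀ j, σ (i, j) = (i, j + d)) (n : ℕ) : ∀ j, (σ ^ n) (i, j) = (i, j + n * d) := by
  induction n with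
  | zero => simp
  | succ n ih =>
    intro j
    rw [pow_succ', Equiv.Perm.mul_apply, ih, hd]; push_cast; congr 1; ring

theorem isP : IsPGroup p (W p) := by
  intro g
  obtain ⟨σ, c, hc⟩ := g
  refine ⟨2, Subtype.ext ?_⟩
  ext1 ⟨i, j⟩
  obtain ⟨d, hd⟩ := pow_fst hc p i
  rw [ZMod.natCast_self, zero_mul, add_zero] at hd
  have := pow_snd hd p j
  rw [ZMod.natCast_self, zero_mul, add_zero, ← pow_mul, ← pow_two] at this
  simpa using this

theorem not_wr : ¬ WR p (W p) := by
  classical
  intro h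
  let a : Equiv.Perm (ZMod p × ZMod p) := Equiv.prodCongr (Equiv.addRight 1) (Equiv.refl _)
  let b : Equiv.Perm (ZMod p × ZMod p) :=
    Equiv.prodCongrRight fun i => Equiv.addRight (if i = 0 then 1 else 0)
  have ha : ∀ i j, a (i, j) = (i + 1, j) := fun i j => rfl
  have hb : ∀ i j, b (i, j) = (i, j + if i = 0 then 1 else 0) := fun i j => rfl
  have han : ∀ (n : ℕ) i j, (a ^ n) (i, j) = (i + n, j) := by
    intro n
    induction n with
    | zero => simp
    | succ n ih => intro i j; rw [pow_succ', Equiv.Perm.mul_apply, ih, ha]; push_cast; rw [add_assoc]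
  have h1 := h.mul_pow_eq_one isP ⟨a, 1, fun i => ⟨0, fun j => by rw [ha, add_zero]⟩⟩
    ⟨b, 0, fun i => ⟨_, fun j => by rw [hb, add_zero]⟩⟩
    (Subtype.ext (by
      ext1 ⟨i, j⟩
      simpa using han p i j))
    (Subtype.ext (by
      ext1 ⟨i, j⟩
      simpa using pow_snd (hb i) p j))
  have h2 : (a * b) ^ p = 1 := congrArg Subtype.val h1
  have h3 : ∀ n : ℕ, n < p → ((a * b) ^ (n + 1)) (0, 0) = (((n + 1 : ℕ) : ZMod p), 1) := by
    intro n
    induction n with
    | zero => intro _; rw [zero_add, pow_one, Equiv.Perm.mul_apply, hb, ha]; simp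
    | succ n ih =>
      intro hn
      rw [pow_succ', Equiv.Perm.mul_apply, ih (by omega), Equiv.Perm.mul_apply, hb, ha, if_neg]
      · push_cast; simp
      · rw [ZMod.natCast_eq_zero_iff]
        exact Nat.not_dvd_of_pos_of_lt (by omega) hn
  have h4 := h3 (p - 1) (by have := hp.out.pos; omega)
  rw [Nat.sub_add_cancel hp.out.pos, h2] at h4
  simpa using congrArg Prod.snd h4

theorem not_wr_sylow (Q : Sylow p (Equiv.Perm (Fin (p ^ 2)))) : ¬ WR p Q := by
  intro h
  haveI : NeZero p := ⟨hp.out.ne_zero⟩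
  obtain ⟨e⟩ : Nonempty (ZMod p × ZMod p ≃ Fin (p ^ 2)) :=
    ⟨Fintype.equivFinOfCardEq (by simp [pow_two])⟩
  let f := (Equiv.permCongrHom e).toMonoidHom
  obtain ⟨Q', hQ'⟩ := ((isP (p := p)).map f).exists_le_sylow
  have h1 : WR p Q' := h.of_injective (Sylow.equiv Q' Q).toMonoidHom (Sylow.equiv Q' Q).injective
  have h2 := h1.of_injective _ (inclusion_injective hQ')
  exact not_wr (h2.of_injective
    ((W p).equivMapOfInjective f (Equiv.permCongrHom e).injective).toMonoidHom
    ((W p).equivMapOfInjective f (Equiv.permCongrHom e).injective).injective)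

/-- Let `P` be a Sylow `p`-subgroup of the finite group `G` with nilpotency class less than `p` (the term of index `p - 1` of the lower central series of `P`, indexed from `0`, is trivial), and let `N` be its normalizer. Then `O^p(N) = O^p(G) ∩ N`, where `O^p` denotes the subgroup generated by the elements of order prime to `p`; so the largest `p`-factor groups of `G` and of `N` are isomorphic. -/
theorem result {G : Type*} [Group G] [Finite G] {p : ℕ} [Fact p.Prime] (P : Sylow p G) (hcl : (P : Subgroup G).lowerCentralSeries (p - 1) = ⊥) : Cfsg.pResidualOf p (Subgroup.normalizer ((P : Subgroup G) : Set G)) = Cfsg.pResidual p G ⊓ Subgroup.normalizer ((P : Subgroup G) : Set G) := by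
  symm
  apply CA.NPC2.tate_of_commutator P le_normalizer
  by_cases h : (P : Subgroup G) ⊓ commutator G = (P : Subgroup G) ⊓ ⁅Subgroup.normalizer ((P : Subgroup G) : Set G), Subgroup.normalizer ((P : Subgroup G) : Set G)⁆
  · rw [inf_comm, h]
    exact inf_le_right.trans le_sup_left
  · exfalso
    obtain ⟨Q, f, hf⟩ := Cfsg.Agent.S2807.result P h
    refine not_wr_sylow Q ((wr_of_class ?_).of_surjective f hf)
    rw [← map_subtype_inj, Subgroup.map_bot, top_subtype_lowerCentralSeries, hcl]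

end Cfsg.Agent.S4226
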