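import Cfsg.Statements.S4227
import Cfsg.Agent.Lib.Solv.HH3
import Cfsg.Agent.Lib.Char.CharBurn

set_option autoImplicit false
open Cfsg

namespace Cfsg.Agent.S4227

open Subgroup Cfsg CA.BG CA.HH CA.H12PSolv

theorem sq_of {G : Type*} [Group G] [Finite G] (h : ∀ x : G, x ^ 6 = 1) {p : ℕ} (hp : p = 2 ∨ p = 3)
    {x : G} (hx : PiNat {p} (orderOf x)) : x ^ p = 1 := by
  have h1 : orderOf x ∣ 6 := orderOf_dvd_of_pow_eq_one (h x)
  apply orderOf_dvd_iff_pow_eq_one.1
  have h2 := hx 2 Nat.prime_two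
  have h3 := hx 3 Nat.prime_three
  have h4 : orderOf x ≤ 6 := Nat.le_of_dvd (by norm_num) h1
  generalize orderOf x = n at *
  rcases hp with rfl | rfl <;> interval_cases n <;> simp_all

theorem comm_of {G : Type*} [Group G] [Finite G] (h : ∀ x : G, x ^ 6 = 1) {Q : Subgroup G}
    (hQ : IsPi {2} Q) {a b : G} (ha : a ∈ Q) (hb : b ∈ Q) : a * b = b * a := by
  have h1 := sq_of h (Or.inl rfl) (hQ.orderOf ha)
  have h2 := sq_of h (Or.inl rfl) (hQ.orderOf hb)
  have h3 := sq_of h (Or.inl rfl) (hQ.orderOf (mul_mem ha hb))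
  have : a * b = a * (a * b) ^ 2 * b := by rw [h3, mul_one]
  rw [this, sq, show a * (a * b * (a * b)) * b = a ^ 2 * (b * a) * b ^ 2 by simp [sq, mul_assoc], h1, h2,
    one_mul, mul_one]

theorem solv {G : Type*} [Group G] [Finite G] (h : ∀ x : G, x ^ 6 = 1) : Group.IsSolvable G := by
  apply CChar.CharBurn.isSolvable_of_card_primeFactors_le
  have : (Nat.card G).primeFactors ⊆ {2, 3} := by
    intro q hq
    haveI : Fact q.Prime := ⟨Nat.prime_of_mem_primeFactors hq⟩
    obtain ⟨x, hx⟩ := exists_prime_orderOf_dvd_card' q (Nat.dvd_of_mem_primeFactors hq)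
    have h1 : q ∣ 2 * 3 := hx ▸ orderOf_dvd_of_pow_eq_one (h x)
    rcases (Nat.Prime.dvd_mul (Fact.out)).1 h1 with h2 | h2
    · simp [(Nat.prime_dvd_prime_iff_eq Fact.out Nat.prime_two).1 h2]
    · simp [(Nat.prime_dvd_prime_iff_eq Fact.out Nat.prime_three).1 h2]
  exact (Finset.card_le_card this).trans (by decide)

theorem two {G : Type*} [Group G] [Finite G] (h : ∀ x : G, x ^ 6 = 1) (hO : pPrimeCore 2 G = ⊥) :
    PLengthLE 2 1 G := by
  haveI := solv h
  haveI : Fact (Nat.Prime 2) := ⟨Nat.prime_two⟩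
  refine PL_of_quot_pcore Nat.prime_two ((PL_zero_iff Nat.prime_two).2 fun hd => ?_)
  obtain ⟨y, hy⟩ := exists_prime_orderOf_dvd_card' 2 hd
  obtain ⟨g, h2, rfl⟩ := exists_lift_el Nat.prime_two (QuotientGroup.mk'_surjective _)
    (y := y) (by rw [hy]; exact (piNat_prime Nat.prime_two).2 rfl)
  have hP := (isPi_zpowers.2 h2).sup (isPi_pcore Nat.prime_two) (top_le_norm _ _)
  have hg : g ∈ pCore 2 G := CA.H12PSolv.centralizer_pCore_le psolv_of_solvable hO
    (mem_centralizer_iff.2 fun v hv =>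
      comm_of h hP (mem_sup_right hv) (mem_sup_left (mem_zpowers g)))
  have : (QuotientGroup.mk' (pCore 2 G)) g = 1 := (QuotientGroup.eq_one_iff g).2 hg
  rw [this, orderOf_one] at hy
  omega

/-- A finite group in which every element has order dividing `6` has `2`-length at most `1` and `3`-length at most `1`. -/
theorem result {G : Type*} [Group G] [Finite G] (h : ∀ x : G, x ^ 6 = 1) : Cfsg.PLengthLE 2 1 G ∧ Cfsg.PLengthLE 3 1 G := by
  haveI := solv h
  haveI : Fact (Nat.Prime 3) := ⟨Nat.prime_three⟩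
  constructor
  · refine PL_of_quot_p'core Nat.prime_two (two (fun y => ?_) (p'core_quot Nat.prime_two))
    obtain ⟨g, rfl⟩ := QuotientGroup.mk_surjective y
    rw [← QuotientGroup.mk_pow, h, QuotientGroup.mk_one]
  · refine PL_of_exp psolv_of_solvable (fun m q j Q h1 h2 h3 h4 h5 => ?_)
      fun x hx => by rw [pow_one]; exact sq_of h (Or.inr rfl) hx
    have h6 : 2 ∣ q ^ j := by
      rw [← h4]
      exact (Nat.Odd.sub_odd (Odd.pow (by decide)) odd_one).two_dvd
    have h7 : q = 2 := ((Nat.prime_dvd_prime_iff_eq Nat.prime_two h2).1 (Nat.prime_two.dvd_of_dvd_pow h6)).symm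
    subst h7
    exact ⟨⟨fun a b => Subtype.ext (comm_of h h5 a.2 b.2)⟩⟩

end Cfsg.Agent.S4227
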