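import Cfsg.Statements.S4275
import Mathlib
import Cfsg.Agent.Lib.Perm.PermMulti

set_option autoImplicit false
open Cfsg

namespace Cfsg.Agent.S4275

open MulAction CA.PermBasic CA.PermMulti

/-- Let G be a transitive group of permutations of a finite set Ω, let o ∈ Ω, and let α be an automorphism of G. Then α is induced by conjugation by a permutation of Ω normalizing G if and only if the image under α of the stabilizer of o fixes some point of Ω. -/
theorem result {Ω : Type*} [Fintype Ω] (G : Subgroup (Equiv.Perm Ω)) (htr : MulAction.IsPretransitive G Ω) (o : Ω) (α : G ≃* G) : (∃ σ : Equiv.Perm Ω, σ ∈ Subgroup.normalizer (G : Set (Equiv.Perm Ω)) ∧ ∀ g : G, ((α g : G) : Equiv.Perm Ω) = σ * (g : Equiv.Perm Ω) * σ⁻¹) ↔ ∃ ω : Ω, ∀ g ∈ (MulAction.stabilizer G o).map α.toMonoidHom, g • ω = ω := by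
  constructor
  · rintro ⟨σ, -, hσ⟩
    refine ⟨σ o, ?_⟩
    rintro _ ⟨g, hg, rfl⟩
    show ((α g : G) : Equiv.Perm Ω) (σ o) = σ o
    rw [hσ]
    simp only [Equiv.Perm.coe_mul, Function.comp_apply, Equiv.Perm.coe_inv, Equiv.symm_apply_apply]
    exact congrArg σ hg
  · rintro ⟨ω, hω⟩
    choose t ht using fun x : Ω => exists_smul_eq G o x
    have hwd : ∀ g h : G, g • o = h • o → α g • ω = α h • ω := by
      intro g h e
      have := hω (α (h⁻¹ * g)) ⟨h⁻¹ * g, by
        show (h⁻¹ * g) • o = o
        rw [mul_smul, e, inv_smul_smul], rfl⟩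
      rw [map_mul, map_inv, mul_smul, inv_smul_eq_iff] at this
      exact this
    have hsurj : Function.Surjective (fun x => α (t x) • ω) := by
      intro y
      obtain ⟨g, rfl⟩ := exists_smul_eq G ω y
      refine ⟨α.symm g • o, ?_⟩
      simp only
      rw [hwd _ (α.symm g) (ht _), MulEquiv.apply_symm_apply]
    let σ : Equiv.Perm Ω := Equiv.ofBijective _ (Finite.surjective_iff_bijective.1 hsurj)
    have hσ : ∀ g : G, ((α g : G) : Equiv.Perm Ω) = σ * (g : Equiv.Perm Ω) * σ⁻¹ := by
      intro g
      rw [eq_mul_inv_iff_mul_eq]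
      ext x
      show α g • α (t x) • ω = α (t (g • x)) • ω
      rw [← mul_smul, ← map_mul]
      apply hwd
      rw [mul_smul, ht, ht]
    refine ⟨σ, ?_, hσ⟩
    rw [Subgroup.mem_normalizer_iff]
    intro h
    constructor
    · intro hh
      rw [← hσ ⟨h, hh⟩]; exact Subtype.prop _
    · intro hh
      have := hσ (α.symm ⟨_, hh⟩)
      rw [MulEquiv.apply_symm_apply] at this
      simp only [mul_left_inj, mul_right_inj] at this
      rw [this]; exact Subtype.prop _

end Cfsg.Agent.S4275
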