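import Cfsg.Statements.S4276
import Mathlib
import Cfsg.Agent.Lib.Perm.TwoAut

set_option autoImplicit false
open Cfsg

namespace Cfsg.Agent.S4276

open MulAction CA.TwoAut CA.PermBasic CA.PermMulti

/-- Let G be a doubly transitive group of permutations of a finite set Ω of size n, let o ∈ Ω, and let α be an automorphism of G of odd order. Suppose that the image under α of the stabilizer of o has an orbit on Ω whose length k is coprime to n. Then α is induced by conjugation by a permutation of Ω normalizing G, and k = 1 or k = n − 1. -/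
theorem result {Ω : Type*} [Fintype Ω] (G : Subgroup (Equiv.Perm Ω)) (h2 : MulAction.IsMultiplyPretransitive G Ω 2) (o : Ω) (α : MulAut G) (hα : Odd (orderOf α)) (ω : Ω) (hk : (Nat.card (MulAction.orbit ((MulAction.stabilizer G o).map α.toMonoidHom) ω)).Coprime (Fintype.card Ω)) : (∃ σ : Equiv.Perm Ω, σ ∈ Subgroup.normalizer (G : Set (Equiv.Perm Ω)) ∧ ∀ g : G, ((α g : G) : Equiv.Perm Ω) = σ * (g : Equiv.Perm Ω) * σ⁻¹) ∧ (Nat.card (MulAction.orbit ((MulAction.stabilizer G o).map α.toMonoidHom) ω) = 1 ∨ Nat.card (MulAction.orbit ((MulAction.stabilizer G o).map α.toMonoidHom) ω) = Fintype.card Ω - 1) := by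
  have : IsPretransitive G Ω := by
    rcases subsingleton_or_nontrivial Ω with hs | hs
    · exact ⟨fun a b => ⟨1, Subsingleton.elim _ _⟩⟩
    · exact is_one_pretransitive_iff.1 (mpt_of_le h2 (by norm_num) Finite.one_lt_card)
  obtain ⟨x, hx⟩ := exists_fixed h2 o α hα ω hk
  have h := map_eq_stabilizer hx
  refine ⟨exists_normalizer G h, ?_⟩
  rw [h]
  by_cases e : ω = x
  · left
    rw [e, show orbit (stabilizer G x) x = {x} from
      Set.eq_singleton_iff_unique_mem.2 ⟨mem_orbit_self x, by rintro _ ⟨g, rfl⟩; exact g.2⟩,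
      Nat.card_unique]
  · right
    have : orbit (stabilizer G x) ω = {x}ᶜ := by
      ext y
      constructor
      · rintro ⟨g, rfl⟩ e'
        exact e (MulAction.injective (g : G) (show (g : G) • ω = (g : G) • x from e'.trans g.2.symm))
      · intro hy
        obtain ⟨g, h1, h2⟩ := (two_iff_stab x).1 h2 ω y e hy
        exact ⟨⟨g, h1⟩, h2⟩
    rw [this, Nat.card_coe_set_eq, Set.ncard_compl, Set.ncard_singleton, Nat.card_eq_fintype_card]

end Cfsg.Agent.S4276
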