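import Cfsg.Statements.S4277
import Mathlib

set_option autoImplicit false
open Cfsg

namespace Cfsg.Agent.S4277

open Subgroup MulAction
open scoped commutatorElement Pointwise

theorem sum_pow {R ι : Type*} [Ring R] (p : ℕ) [Fact p.Prime] [CharP R p] (f : ι → R) (h : ∀ i j, Commute (f i) (f j))
    (s : Finset ι) : (∑ i ∈ s, f i) ^ p = ∑ i ∈ s, f i ^ p := by
  classical
  induction s using Finset.induction_on with
  | empty => simp [(Fact.out : p.Prime).ne_zero]
  | insert a s ha ih =>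
    rw [Finset.sum_insert ha, Finset.sum_insert ha, add_pow_char_of_commute _ (Commute.sum_right _ _ _ fun i _ => h a i), ih]

variable {G Ω : Type*} [Group G] [MulAction G Ω]

/-- the permutation representation -/
def act (k : Type*) [Field k] (Ω : Type*) [MulAction G Ω] : G →* Module.End k (Ω → k) where
  toFun g := LinearMap.funLeft k k fun a => g⁻¹ • a
  map_one' := by ext; simp
  map_mul' g h := by ext; simp [LinearMap.funLeft_apply, mul_smul]

theorem comm [Finite G] [Finite Ω] [FaithfulSMul G Ω] {p : ℕ} [Fact p.Prime] (ω : Ω) (σ : G) (hσ : orderOf σ = p)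
    (hΩ : Nat.card Ω = p) (hH : ∀ a : Ω, ¬ p ∣ Nat.card (stabilizer G a)) {α β : MulAut G} (hα : α σ = σ) (hβ : β σ = σ) :
    α * β = β * α := by
  classical
  have hp : p.Prime := Fact.out
  have := Fintype.ofFinite Ω
  have := Fintype.ofFinite (zpowers σ)
  have hP : Nat.card (zpowers σ) = p := by rw [Nat.card_zpowers, hσ]
  have hc : ∀ s t : zpowers σ, Commute s t := by
    rintro ⟨_, i, rfl⟩ ⟨_, j, rfl⟩
    exact Subtype.ext (zpow_mul_comm σ i j)
  have hb : ∀ a : Ω, Function.Bijective fun s : zpowers σ => (s : G)⁻¹ • a := fun a =>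
    (Nat.bijective_iff_injective_and_card _).2 ⟨fun s t e => by
      by_contra h
      have h1 : ((t * s⁻¹ : zpowers σ) : G) ∈ stabilizer G a := by
        simp only at e
        rw [mem_stabilizer_iff, coe_mul, coe_inv, mul_smul, e, smul_inv_smul]
      have h2 := orderOf_dvd_natCard _ h1
      rw [orderOf_coe, ((Nat.dvd_prime hp).1 (hP ▸ orderOf_dvd_natCard (t * s⁻¹))).resolve_left
        fun e => h (mul_inv_eq_one.1 (orderOf_eq_one_iff.1 e)).symm] at h2
      exact hH a h2, hP.trans hΩ.symm⟩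
  have : Nonempty Ω := ⟨ω⟩
  have : CharP (Module.End (ZMod p) (Ω → ZMod p)) p := charP_of_injective_algebraMap (algebraMap (ZMod p) _).injective p
  have key : ∀ α : MulAut G, α σ = σ → ∃ D : Finset (zpowers σ), IsUnit (∑ s ∈ D, act (ZMod p) Ω (s : G)) ∧
      ∀ g, (∑ s ∈ D, act (ZMod p) Ω (s : G)) * act (ZMod p) Ω g = act (ZMod p) Ω (α g) * ∑ s ∈ D, act (ZMod p) Ω (s : G) := by
    intro α hα
    have h1 : ∀ s : zpowers σ, α s = s := by
      rintro ⟨_, i, rfl⟩
      simp [hα]
    let R : Ω → Ω → Prop := fun a b => ∃ g, a = α g • ω ∧ b = g • ω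
    have hR : ∀ g a b, R (α g • a) (g • b) ↔ R a b := fun g a b => ⟨fun ⟨x, h, h'⟩ => ⟨g⁻¹ * x, by
      rw [map_mul, mul_smul, ← h, map_inv, inv_smul_smul], by rw [mul_smul, ← h', inv_smul_smul]⟩,
      fun ⟨x, h, h'⟩ => ⟨g * x, by rw [map_mul, mul_smul, h], by rw [mul_smul, h']⟩⟩
    let D : Finset (zpowers σ) := Finset.univ.filter fun s => R ω ((s : G)⁻¹ • ω)
    have h2 : ∀ f a, (∑ s ∈ D, act (ZMod p) Ω (s : G)) f a = ∑ b, if R a b then f b else 0 := fun f a => by
      rw [← (hb a).sum_comp, LinearMap.sum_apply, Finset.sum_apply, Finset.sum_filter]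
      refine Finset.sum_congr rfl fun s _ => if_congr ?_ rfl rfl
      obtain ⟨t, rfl⟩ := (hb ω).2 a
      rw [← hR (t : G)⁻¹, map_inv, h1, smul_smul, smul_smul]
      exact iff_of_eq (congrArg (fun x : zpowers σ => R _ ((x : G) • ω)) (hc t⁻¹ s⁻¹))
    refine ⟨D, ?_, fun g => LinearMap.ext fun f => funext fun a => ?_⟩
    · have h3 := sum_pow p (fun s : zpowers σ => act (ZMod p) Ω (s : G))
        (fun s t => ((hc s t).map (zpowers σ).subtype).map _) D
      have h4 : ∀ s : zpowers σ, act (ZMod p) Ω (s : G) ^ p = 1 := fun s => by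
        rw [← map_pow, ← coe_pow, show s ^ p = 1 from hP ▸ pow_card_eq_one', coe_one, map_one]
      simp only [h4, Finset.sum_const, nsmul_eq_mul, mul_one] at h3
      refine (isUnit_pow_iff hp.ne_zero).1 ?_
      rw [h3, ← map_natCast (algebraMap (ZMod p) _)]
      refine IsUnit.map _ (Ne.isUnit fun h => ?_)
      rw [ZMod.natCast_eq_zero_iff] at h
      have h5 := Nat.le_of_dvd (Finset.card_pos.2 ⟨1, by simpa [D] using ⟨1, by simp⟩⟩) h
      have h6 : D = Finset.univ := Finset.eq_univ_of_card _ (le_antisymm (Finset.card_le_univ _)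
        (by rwa [← Nat.card_eq_fintype_card, hP]))
      refine hH ω ?_
      rw [← card_map_of_injective α.symm.injective (K := stabilizer G ω) (f := α.symm.toMonoidHom), ← hΩ, ← Set.ncard_univ]
      have h7 : orbit ((stabilizer G ω).map α.symm.toMonoidHom) ω = Set.univ := Set.eq_univ_of_forall fun b => by
        obtain ⟨s, rfl⟩ := (hb ω).2 b
        obtain ⟨g, h, h'⟩ := (Finset.mem_filter.1 (h6 ▸ Finset.mem_univ s)).2
        exact ⟨⟨g, α g, h.symm, α.symm_apply_apply g⟩, h'.symm⟩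
      rw [← h7, ← index_stabilizer]
      exact index_dvd_card _
    · change (∑ s ∈ D, act (ZMod p) Ω (s : G)) _ a = (∑ s ∈ D, act (ZMod p) Ω (s : G)) f ((α g)⁻¹ • a)
      rw [h2, h2, ← (MulAction.bijective g).sum_comp]
      refine Finset.sum_congr rfl fun b _ => if_congr ?_ ?_ rfl
      · rw [← hR g ((α g)⁻¹ • a), smul_inv_smul]
      · exact congrArg f (inv_smul_smul g b)
  obtain ⟨D, h1, h2⟩ := key α hα
  obtain ⟨E, h3, h4⟩ := key β hβ
  have h5 : Commute (∑ s ∈ D, act (ZMod p) Ω (s : G)) (∑ s ∈ E, act (ZMod p) Ω (s : G)) :=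
    Commute.sum_left _ _ _ fun s _ => Commute.sum_right _ _ _ fun t _ => ((hc s t).map (zpowers σ).subtype).map _
  ext g
  have h6 : act (ZMod p) Ω (α (β g)) = act (ZMod p) Ω (β (α g)) := (h1.mul h3).mul_right_cancel (by
    rw [← mul_assoc, ← h2, mul_assoc, ← h4, ← mul_assoc, h5, mul_assoc, h2, ← mul_assoc, h4, mul_assoc])
  refine inv_injective (eq_of_smul_eq_smul (α := Ω) fun a => ?_)
  have h7 := congrFun (LinearMap.congr_fun h6 (Pi.single ((α (β g))⁻¹ • a) 1)) a
  change Pi.single (M := fun _ => ZMod p) _ 1 ((α (β g))⁻¹ • a) = Pi.single (M := fun _ => ZMod p) _ 1 ((β (α g))⁻¹ • a) at h7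
  by_contra h
  exact one_ne_zero ((Pi.single_eq_same _ _).symm.trans (h7.trans (Pi.single_eq_of_ne' h _)))

/-- A case of the Schreier conjecture: if a finite simple group G has a subgroup of prime index, then the outer automorphism group of G is solvable. -/
theorem result {G : Type*} [Group G] [Finite G] [IsSimpleGroup G] (H : Subgroup G) (hH : H.index.Prime) : Group.IsSolvable (Cfsg.Out G) := by
  have := Fact.mk hH
  have h1 : H.normalCore = ⊥ := (H.normalCore_normal.eq_bot_or_eq_top).resolve_right fun e => by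
    have := hH.one_lt
    rw [eq_top_iff.2 (e.ge.trans H.normalCore_le), index_top] at this
    exact lt_irrefl _ this
  have h2 : Function.Injective (toPermHom G (G ⧸ H)) := by rwa [← MonoidHom.ker_eq_bot_iff, ← normalCore_eq_ker]
  have : FaithfulSMul G (G ⧸ H) := ⟨fun h => h2 (Equiv.ext h)⟩
  have h3 : ¬ H.index ∣ Nat.card H := fun h => by
    classical
    have := Fintype.ofFinite (G ⧸ H)
    have h4 := card_dvd_of_injective _ h2
    rw [Nat.card_perm, ← H.index_mul_card, ← index_eq_card, ← Nat.mul_factorial_pred hH.ne_zero] at h4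
    have := (hH.dvd_factorial).1 (h.trans (Nat.dvd_of_mul_dvd_mul_left hH.pos h4))
    have := hH.pos
    omega
  have h4 : ∀ a : G ⧸ H, ¬ H.index ∣ Nat.card (stabilizer G a) := fun a => by
    obtain ⟨g, rfl⟩ := exists_smul_eq G ((1 : G) : G ⧸ H) a
    rwa [stabilizer_smul_eq_stabilizer_map_conj, card_map_of_injective (MulAut.conj g).injective, stabilizer_quotient]
  obtain ⟨σ, hσ⟩ := exists_prime_orderOf_dvd_card' H.index H.index_dvd_card
  have hP : Nat.card (zpowers σ) = H.index := by rw [Nat.card_zpowers, hσ]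
  have h5 : ∀ τ : G, orderOf τ = H.index → ∃ P : Sylow H.index G, (P : Subgroup G) = zpowers τ := fun τ hτ =>
    ⟨(IsPGroup.of_card (G := zpowers τ) (n := 1) (by rw [Nat.card_zpowers, hτ, pow_one])).toSylow (by
      have := (zpowers τ).card_mul_index
      rw [Nat.card_zpowers, hτ, ← H.index_mul_card] at this
      rwa [Nat.eq_of_mul_eq_mul_left hH.pos this]), rfl⟩
  let N : Subgroup (MulAut G) := stabilizer (MulAut G) (zpowers σ)
  have h6 : ∀ φ : N, ∃ i : ℤ, φ.1 σ = σ ^ i := fun φ => by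
    obtain ⟨i, hi⟩ : φ.1 σ ∈ zpowers σ := mem_stabilizer_iff.1 φ.2 ▸ smul_mem_pointwise_smul σ φ.1 _ (mem_zpowers σ)
    exact ⟨i, hi.symm⟩
  have h7 : Group.IsSolvable N := by
    refine ⟨2, ?_⟩
    have : derivedSeries N 1 ≤ (stabilizer (MulAut G) σ).subgroupOf N := commutator_le.2 fun x _ y _ => by
      obtain ⟨i, hi⟩ := h6 x
      obtain ⟨j, hj⟩ := h6 y
      have : (y.1 * x.1) σ = (x.1 * y.1) σ := by
        simp only [MulAut.mul_apply, hi, hj, map_zpow, ← zpow_mul, mul_comm]
      have h8 : σ ∈ zpowers ((y.1 * x.1) σ) := by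
        refine (eq_of_le_of_card_ge (zpowers_le_of_mem ?_) ?_).ge (mem_zpowers σ)
        · obtain ⟨k, hk⟩ := h6 (y * x)
          exact ⟨k, hk.symm⟩
        · rw [Nat.card_zpowers, Nat.card_zpowers, MulEquiv.orderOf_eq]
      obtain ⟨k, hk⟩ := h8
      change (x.1 * y.1 * x.1⁻¹ * y.1⁻¹) σ = σ
      rw [← hk]
      simp only [map_zpow]
      congr 1
      simpa using this.symm
    exact eq_bot_iff.2 (commutator_le.2 fun x hx y hy => Subtype.ext (commutatorElement_eq_one_iff_mul_comm.2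
      (comm ((1 : G) : G ⧸ H) σ hσ rfl h4 (this hx) (this hy))))
  refine Group.isSolvable_of_surjective (f := (QuotientGroup.mk' (Inn G)).comp N.subtype) fun x => ?_
  obtain ⟨φ, rfl⟩ := QuotientGroup.mk_surjective x
  obtain ⟨P, h8⟩ := h5 σ hσ
  obtain ⟨Q, h9⟩ := h5 (φ σ) (by rw [MulEquiv.orderOf_eq, hσ])
  obtain ⟨g, hg⟩ := exists_smul_eq G Q P
  refine ⟨⟨MulAut.conj g * φ, ?_⟩, (QuotientGroup.eq_iff_div_mem.2 ⟨g, by simp⟩)⟩
  rw [mem_stabilizer_iff, mul_smul]
  conv_rhs => rw [← h8, ← hg, Sylow.coe_subgroup_smul, h9]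
  congr 1
  exact MonoidHom.map_zpowers _ _

end Cfsg.Agent.S4277
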