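import Cfsg.Statements.S4280
import Cfsg.Agent.Lib.Lie.SSInv
-- import your own Cfsg.Agent.* helpers here

set_option autoImplicit false
open Cfsg

namespace Cfsg.Agent.S4280

open CA.Chev Cfsg.Lie

noncomputable def Oa := (tb8 [0x2040302, 0x81818000, 0x818000, 0x8000, 0x81838281, 0x100, 0x20100, 0x2020100])
theorem cena : cenChk tabF4 2 14 8 Oa (nb 0x0) (nb 0x605040302010000) (getN [0, 6, 5, 4, 7, 3, 2, 1]) 16 = true := by decide +kernel
noncomputable def Ob := (tb8 [0x2030201, 0x81828180])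
theorem cenb : cenChk tabF4 2 7 2 Ob (nb 0x0) (nb 0x0) (getN [0, 1]) 10 = true := by decide +kernel
theorem pc7 : poinChk tabF4 7 18 6 (nb 0x1000000000000020003040500000006000000)
    [1, 1, 1, 1, 1, 1] = true := by decide +kernel
theorem sgn : sgnChk tabF4 (Oa 0) (Ob 0) (nb 0x202b182d1f2a1a2e1d24002621002200)
    (nb 0x5050505050505050505000502000200)
    (nb 0x1010101010101010101000101000100) = true := by decide +kernel

/-- In the Chevalley group of type F₄ over a finite field of odd order q there are exactly two conjugacy classes of involutions; the centralizer of an involution in one class has order q¹⁶(q² − 1)(q⁴ − 1)(q⁶ − 1)(q⁸ − 1), and in the other class q¹⁰(q² − 1)²(q⁴ − 1)(q⁶ − 1). -/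
theorem result {F : Type*} [Field F] [Fintype F] (hF : Odd (Fintype.card F)) : ∃ s t : ↥(Cfsg.Lie.chevF4.group F), orderOf s = 2 ∧ orderOf t = 2 ∧ ¬ IsConj s t ∧ (∀ u : ↥(Cfsg.Lie.chevF4.group F), orderOf u = 2 → IsConj u s ∨ IsConj u t) ∧ Nat.card (Subgroup.centralizer ({s} : Set ↥(Cfsg.Lie.chevF4.group F))) = Fintype.card F ^ 16 * (Fintype.card F ^ 2 - 1) * (Fintype.card F ^ 4 - 1) * (Fintype.card F ^ 6 - 1) * (Fintype.card F ^ 8 - 1) ∧ Nat.card (Subgroup.centralizer ({t} : Set ↥(Cfsg.Lie.chevF4.group F))) = Fintype.card F ^ 10 * (Fintype.card F ^ 2 - 1) ^ 2 * (Fintype.card F ^ 4 - 1) * (Fintype.card F ^ 6 - 1) := by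
  have h0 : 1 < Fintype.card F := Fintype.one_lt_card
  have h5 : ∀ k, 1 ≤ Fintype.card F ^ k := fun k => Nat.one_le_pow k _ h0.le
  refine (invol_classes (by simp) hF tor_injective_F4 tor_injective_F4 tab_F4 cena cenb sgn (by decide +kernel)
    (by decide +kernel) ?_ ?_).imp fun s => .imp fun t h => ⟨h.1, h.2.1, fun e => ?_, h.2.2.2⟩
  rotate_left 2
  · have := h.2.2.1 e
    simp only [mul_assoc] at this
    exact pow_mul_ne h0 (by decide) (by exact .mul_left (.pow_left _ (coprime_pow_sub_one h0 (by decide))) (.mul_left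
      (coprime_pow_sub_one h0 (by decide)) (coprime_pow_sub_one h0 (by decide)))) this.symm
  on_goal 1 => rw [poin_of_chk tab_F4 pc1_F4, poin_of_chk tab_F4 pc2_F4, poin_of_chk tab_F4 pc3_F4]
  on_goal 2 => rw [poin_of_chk tab_F4 pc7, poin_of_chk tab_F4 pc2_F4, poin_of_chk tab_F4 pc3_F4]
  all_goals
    simp only [evalL, List.foldr, Finset.sum_range_succ, Finset.sum_range_zero, getN_eq, show tabF4.l = 4 from rfl,
      List.getD_cons_succ, List.getD_cons_zero, JM_zero, poin_empty]
    zify [h0.le, h5]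
    ring

end Cfsg.Agent.S4280
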