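import Cfsg.Statements.S4282
import Cfsg.Agent.Lib.Solv.HH6
import Cfsg.Agent.Lib.Odd.BGRep4

set_option autoImplicit false
open Cfsg

namespace Cfsg.Agent.S4282

open Subgroup CA.BG CA.BGRep CA.HH Module

/-- A critical case behind the Hall–Higman theorem. Let p ≠ q be primes and G a finite group generated by a normal q-subgroup Q and a cyclic p-subgroup generated by x, such that the centralizer of every non-identity element of that cyclic subgroup is its product with the centre of G. Let K be an algebraically closed field of characteristic p and ρ a faithful representation of G on a nonzero finite-dimensional K-space whose restriction to Q is irreducible. If s is the least exponent with (ρ(x) − 1)^s = 0, then |⟨x⟩| − 1 ≤ s ≤ |⟨x⟩|; and if s = |⟨x⟩| − 1 then |⟨x⟩| − 1 is a power of q and Q is non-abelian. -/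
theorem result {G : Type*} [Group G] [Finite G] (p q : ℕ) [Fact p.Prime] [Fact q.Prime] (hpq : p ≠ q) (Q : Subgroup G) [Q.Normal] (hQ : IsPGroup q Q) (x : G) (hx : IsPGroup p (Subgroup.zpowers x)) (hgen : Q ⊔ Subgroup.zpowers x = ⊤) (hC : ∀ y ∈ Subgroup.zpowers x, y ≠ 1 → Subgroup.centralizer ({y} : Set G) = Subgroup.zpowers x ⊔ Subgroup.center G) {K : Type*} [Field K] [IsAlgClosed K] [CharP K p] {V : Type*} [AddCommGroup V] [Module K V] [FiniteDimensional K V] [Nontrivial V] (ρ : Representation K G V) (hfaith : Function.Injective ρ) (hirr : ∀ W : Submodule K V, (∀ g ∈ Q, Submodule.map (ρ g) W ≤ W) → W = ⊥ ∨ W = ⊤) (s : ℕ) (hs : (ρ x - 1) ^ s = 0) (hmin : ∀ k < s, (ρ x - 1) ^ k ≠ 0) : Nat.card (Subgroup.zpowers x) - 1 ≤ s ∧ s ≤ Nat.card (Subgroup.zpowers x) ∧ (s = Nat.card (Subgroup.zpowers x) - 1 → (∃ b : ℕ, Nat.card (Subgroup.zpowers x) - 1 = q ^ b) ∧ ¬ IsMulCommutative Q) := by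
  classical
  have hp : p.Prime := Fact.out
  have hq : q.Prime := Fact.out
  let ρ' : Representation K (⊤ : Subgroup G) V := ρ.comp (⊤ : Subgroup G).subtype
  have hrp : ∀ g, rp ρ' g = ρ g := fun g => rp_of_mem ρ' (mem_top g)
  have hi : IrrOn ρ' Q := fun U hU => hirr U fun g hg => by
    rintro _ ⟨w, hw, rfl⟩
    rw [← hrp]; exact hU g hg w hw
  have hqk : (q : K) ≠ 0 := fun h =>
    hpq ((Nat.prime_dvd_prime_iff_eq hp hq).1 ((CharP.cast_eq_zero_iff K p q).1 h))
  obtain ⟨n, hn⟩ := IsPGroup.iff_card.1 hx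
  have ho : orderOf x = p ^ n := by rw [← Nat.card_zpowers, hn]
  obtain ⟨a, ha⟩ := IsPGroup.iff_card.1 hQ
  have hQk : (♯Q : K) ≠ 0 := by rw [ha, Nat.cast_pow]; exact pow_ne_zero _ hqk
  have hcop : (q ^ a).Coprime (p ^ n) := Nat.coprime_pow_primes _ _ hq hp (Ne.symm hpq)
  have hZs : ∀ z ∈ center G, ∃ c : K, ρ z = c • (1 : End K V) := fun z hz =>
    hi.schur fun y _ => by rw [hrp, ← map_mul, ← map_mul, mem_center_iff.1 hz y]
  have hunip : ∀ (z : G) (c : K), ρ z = c • (1 : End K V) → z ^ p ^ n = 1 → z = 1 := by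
    intro z c hc h
    have h1 := sub_one_pow_char (p := p) (ρ z) n
    rw [← map_pow, h, map_one, sub_self, hc, show c • (1 : End K V) - 1 = (c - 1) • 1 by
      rw [sub_smul, one_smul], smul_pow, one_pow, smul_eq_zero] at h1
    have h2 : c = 1 := sub_eq_zero.1 (pow_eq_zero_iff (pow_ne_zero n hp.ne_zero) |>.1
      (h1.resolve_right one_ne_zero))
    exact hfaith (by rw [hc, h2, one_smul, map_one])
  have hpw : ∀ y ∈ zpowers x, y ^ p ^ n = 1 := fun y hy => by
    have := pow_card_eq_one' (x := (⟨y, hy⟩ : zpowers x))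
    rw [hn] at this
    exact congrArg Subtype.val this
  have hxZ : ∀ y ∈ zpowers x, y ∈ center G → y = 1 := fun y hy hz => by
    obtain ⟨c, hc⟩ := hZs y hz
    exact hunip y c hc (hpw y hy)
  have hupper : s ≤ p ^ n := by
    by_contra h
    exact hmin (p ^ n) (by omega) (by
      rw [sub_one_pow_char, ← map_pow, hpw x (mem_zpowers x), map_one, sub_self])
  have hs0 : s ≠ 0 := by
    rintro rfl
    exact one_ne_zero (by simpa using hs : (1 : End K V) = 0)
  rw [hn]
  by_cases hlt : p ^ n ≤ s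
  · have : 0 < p ^ n := pow_pos hp.pos n
    exact ⟨by omega, hupper, fun h => by omega⟩
  have hx1 : x ≠ 1 := by
    rintro rfl
    rw [orderOf_one] at ho
    omega
  have hN : 1 < finrank K V := by
    have := finrank_pos (R := K) (M := V)
    by_contra h
    obtain ⟨c, hc, -⟩ := LinearMap.existsUnique_eq_smul_id_of_finrank_eq_one
      (show finrank K V = 1 by omega) (ρ x)
    exact hx1 (hunip x c hc (hpw x (mem_zpowers x)))
  let π := QuotientGroup.mk' (center G)
  let σ : Representation K (⊤ : Subgroup (G ⧸ center G)) (End K V) :=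
    (QuotientGroup.lift (center G) (ρ.linHom ρ) (fun z hz => by
      obtain ⟨c, hc⟩ := hZs z hz
      ext1 T
      have h1 : ρ z * T = T * ρ z := by rw [hc]; simp
      show ρ z * (T * ρ z⁻¹) = T
      rw [← mul_assoc, h1, mul_assoc, ← map_mul, mul_inv_cancel, map_one, mul_one])).comp
      (⊤ : Subgroup (G ⧸ center G)).subtype
  have hσ : ∀ g, rp σ (π g) = rp (ρ'.linHom ρ') g := fun g => by
    rw [rp_of_mem σ (mem_top _), rp_of_mem _ (mem_top g)]; rfl
  have hFix : ∀ L : Subgroup G, Fix σ (L.map π) = Fix (ρ'.linHom ρ') L := fun L => by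
    ext T
    constructor
    · intro h g hg
      rw [← hσ]; exact h _ (mem_map_of_mem π hg)
    · rintro h _ ⟨g, hg, rfl⟩
      rw [hσ]; exact h g hg
  have hR : ♯((zpowers x).map π) = p ^ n := by
    rw [← hn]
    refine (Nat.card_congr (Equiv.ofBijective (π.subgroupMap (zpowers x)) ⟨?_, π.subgroupMap_surjective _⟩)).symm
    rw [injective_iff_map_eq_one]
    intro y hy
    exact Subtype.ext (hxZ y y.2 ((QuotientGroup.eq_one_iff _).1 (congrArg Subtype.val hy)))
  have hK : ♯(Q.map π) ∣ q ^ a := ha ▸ card_map_dvd Q π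
  have hc2 : (♯(Q.map π)).Coprime ♯((zpowers x).map π) := hR ▸ hcop.coprime_dvd_left hK
  haveI : (Q.map π).Normal := Normal.map inferInstance π (QuotientGroup.mk'_surjective _)
  have hsr : SemiReg (Q.map π) ((zpowers x).map π) := by
    rintro _ ⟨y, hy, rfl⟩ hy1
    rw [eq_bot_iff]
    rintro _ ⟨⟨g, hg, rfl⟩, hc⟩
    have hy1' : y ≠ 1 := fun h => hy1 (by rw [h, map_one])
    have h1 : π (g⁻¹ * (y * g * y⁻¹)) = 1 := by
      have := mem_cent1.1 hc
      simp only [map_mul, map_inv]
      rw [← this]; group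
    set z := g⁻¹ * (y * g * y⁻¹) with hz
    have hzZ : z ∈ center G := (QuotientGroup.eq_one_iff _).1 h1
    have hzQ : z ∈ Q := mul_mem (inv_mem hg) (Normal.conj_mem inferInstance g hg y)
    have h2 : ∀ j : ℕ, y ^ j * g * (y ^ j)⁻¹ = g * z ^ j := fun j => by
      induction j with
      | zero => simp
      | succ j ih =>
        have h3 : y * z ^ j = z ^ j * y := mem_center_iff.1 (pow_mem hzZ j) y
        calc y ^ (j + 1) * g * (y ^ (j + 1))⁻¹ = y * (y ^ j * g * (y ^ j)⁻¹) * y⁻¹ := by group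
          _ = (y * g * y⁻¹) * (y * z ^ j * y⁻¹) := by rw [ih]; group
          _ = g * (z * z ^ j) := by
            rw [h3, mul_inv_cancel_right, ← mul_assoc g z, hz, mul_inv_cancel_left]
          _ = _ := by rw [pow_succ']
    have h3 := h2 (p ^ n)
    rw [hpw y hy] at h3
    have h4 : z ^ p ^ n = 1 := by simpa using h3.symm
    obtain ⟨c, hc'⟩ := hZs z hzZ
    have h5 := hunip z c hc' h4
    have h6 : g ∈ centralizer ({y} : Set G) := by
      rw [mem_centralizer_iff]
      rintro _ rfl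
      rw [hz, inv_mul_eq_one, eq_mul_inv_iff_mul_eq] at h5
      exact h5.symm
    rw [hC y hy hy1'] at h6
    have h7 : π g ∈ (zpowers x).map π := by
      have := mem_map_of_mem π h6
      rwa [Subgroup.map_sup, (Subgroup.map_eq_bot_iff _).2 (QuotientGroup.ker_mk' _).ge, sup_bot_eq] at this
    exact (disjoint_of_coprime_natCard hc2).le_bot ⟨mem_map_of_mem π hg, h7⟩
  have hKp : IsPi {q} (Q.map π) := isPi_of_isPGroup hq (hQ.map π)
  have hW := repW (ρ := σ) le_top le_top (by rw [normalizer_eq_top]; exact le_top)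
    (hKp.isSolvable hq) hc2 hsr (natCast_ne_zero_of_dvd (ha ▸ hK) hQk)
  rw [← Subgroup.map_sup, hFix, hFix, hFix, hR, finrank_Fix_linHom le_top (hi.scalar le_top),
    finrank_Fix_linHom le_top (fun T hT => hi.scalar le_top T (Fix_anti _ le_sup_left hT)),
    Module.finrank_linearMap, mul_one, ← sq] at hW
  obtain ⟨h7, h8⟩ := cmt_bound s V _ hs
  have he : cmt (ρ x - 1) = Fix (ρ'.linHom ρ') (zpowers x) := Submodule.ext fun T => by
    rw [Fix_linHom_zpowers (mem_top x), mem_cmt, sub_mul, mul_sub, one_mul, mul_one, sub_left_inj, hrp]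
  rw [he] at h7 h8
  obtain ⟨h9, h10⟩ := arithB hN hW h7 h8 (not_le.1 hlt)
  refine ⟨by omega, hupper, fun _ => ⟨?_, fun hc => ?_⟩⟩
  · obtain ⟨b, hb⟩ := finrank_eq_pow hq hqk _ Q ⊤ V ρ' rfl le_top (isPi_of_isPGroup hq hQ) hi
    exact ⟨b, by omega⟩
  · have := sq_finrank_eq_relIndex le_top hQk (hi.scalar le_top) le_rfl (fun z hz => hi.schur
      fun y hy => by
        rw [hrp, hrp, ← map_mul, ← map_mul, mem_cent.1 (comm_iff_le_cent.1 hc hz) y hy])
      (fun g hg h => absurd hg h)
    rw [relIndex_self] at this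
    nlinarith

end Cfsg.Agent.S4282
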