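import Cfsg.Statements.S4283
import Cfsg.Agent.Lib.Grp.Frob2

set_option autoImplicit false
open Cfsg

namespace Cfsg.Agent.S4283

/-- Let G be a finite group with centre Z and let K, H be abelian subgroups of G containing Z such that G/Z is a Frobenius group with complement H/Z and kernel K/Z. Then the conjugacy class sizes of G are exactly 1, [G : K] and [G : H], and these two indices are coprime. (This is the converse half of the characterization of finite groups whose conjugacy class sizes are exactly 1, m and n with m and n coprime.) -/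
theorem result {G : Type*} [Group G] [Finite G] (K H : Subgroup G) (hZK : Subgroup.center G ≤ K) (hZH : Subgroup.center G ≤ H) (hK : IsMulCommutative K) (hH : IsMulCommutative H) (hFrob : Cfsg.IsFrobeniusComplement (H.map (QuotientGroup.mk' (Subgroup.center G)))) (hker : Cfsg.frobeniusKernel (H.map (QuotientGroup.mk' (Subgroup.center G))) = (K.map (QuotientGroup.mk' (Subgroup.center G)) : Set (G ⧸ Subgroup.center G))) : Set.range (fun x : G => (Subgroup.centralizer ({x} : Set G)).index) = ({1, K.index, H.index} : Set ℕ) ∧ K.index.Coprime H.index := by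
  classical
  set Z := Subgroup.center G with hZ
  set f := QuotientGroup.mk' Z with hf
  obtain ⟨hn, hc, hKb, hsr⟩ := CA.Frob2.of_coe_eq_kernel hFrob hker.symm
  have hkf : f.ker = Z := QuotientGroup.ker_mk' Z
  have cK : (K.map f).comap f = K := Subgroup.comap_map_eq_self (by rw [hkf]; exact hZK)
  have cH : (H.map f).comap f = H := Subgroup.comap_map_eq_self (by rw [hkf]; exact hZH)
  have hsurj : Function.Surjective f := QuotientGroup.mk'_surjective Z
  have iK : (K.map f).index = K.index := by
    rw [← Subgroup.index_comap_of_surjective (K.map f) hsurj, cK]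
  have iH : (H.map f).index = H.index := by
    rw [← Subgroup.index_comap_of_surjective (H.map f) hsurj, cH]
  have ne1 : ∀ x : G, x ∉ Z → f x ≠ 1 := fun x hx e => hx (by rw [← hkf]; exact e)
  have cabK : ∀ x ∈ K, x ∉ Z → Subgroup.centralizer ({x} : Set G) = K := by
    intro x hx hxZ
    apply le_antisymm
    · intro y hy
      have hy' : x * y = y * x := (Subgroup.mem_centralizer_iff.1 hy) x rfl
      have : f y ∈ Cfsg.frobeniusKernel (H.map f) :=
        CA.Frob.mem_kernel_of_commute hFrob (by rw [hker]; exact Subgroup.mem_map_of_mem f hx) (ne1 x hxZ)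
          (by rw [← map_mul, ← map_mul, hy'])
      rw [hker] at this
      rw [← cK]; exact this
    · intro y hy
      rw [Subgroup.mem_centralizer_iff]
      rintro _ rfl
      exact congrArg Subtype.val (hK.is_comm.comm ⟨_, hx⟩ ⟨_, hy⟩)
  have cabH : ∀ x ∈ H, x ∉ Z → Subgroup.centralizer ({x} : Set G) = H := by
    intro x hx hxZ
    apply le_antisymm
    · intro y hy
      have hy' : x * y = y * x := (Subgroup.mem_centralizer_iff.1 hy) x rfl
      have : f y ∈ H.map f :=
        CA.Frob.mem_of_commute hFrob (Subgroup.mem_map_of_mem f hx) (ne1 x hxZ)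
          (by rw [← map_mul, ← map_mul, hy'])
      rw [← cH]; exact this
    · intro y hy
      rw [Subgroup.mem_centralizer_iff]
      rintro _ rfl
      exact congrArg Subtype.val (hH.is_comm.comm ⟨_, hx⟩ ⟨_, hy⟩)
  have conjI : ∀ x g : G, (Subgroup.centralizer ({g * x * g⁻¹} : Set G)).index =
      (Subgroup.centralizer ({x} : Set G)).index := by
    intro x g
    have : Subgroup.centralizer ({x} : Set G) =
        (Subgroup.centralizer ({g * x * g⁻¹} : Set G)).comap (MulAut.conj g).toMonoidHom := by
      ext y
      simp only [Subgroup.mem_comap, Subgroup.mem_centralizer_iff, Set.mem_singleton_iff, forall_eq,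
        MulEquiv.coe_toMonoidHom, MulAut.conj_apply]
      constructor
      · intro e
        calc g * x * g⁻¹ * (g * y * g⁻¹) = g * (x * y) * g⁻¹ := by group
          _ = g * (y * x) * g⁻¹ := by rw [e]
          _ = _ := by group
      · intro e
        calc x * y = g⁻¹ * (g * x * g⁻¹ * (g * y * g⁻¹)) * g := by group
          _ = g⁻¹ * (g * y * g⁻¹ * (g * x * g⁻¹)) * g := by rw [e]
          _ = _ := by group
    rw [this, Subgroup.index_comap_of_surjective _ (MulAut.conj g).surjective]
  refine ⟨?_, ?_⟩
  · ext n
    simp only [Set.mem_range, Set.mem_insert_iff, Set.mem_singleton_iff]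
    constructor
    · rintro ⟨x, rfl⟩
      by_cases hxZ : x ∈ Z
      · left
        rw [Subgroup.index_eq_one, eq_top_iff]
        intro y _
        rw [Subgroup.mem_centralizer_iff]
        rintro _ rfl
        exact (Subgroup.mem_center_iff.1 hxZ y).symm
      by_cases hxK : x ∈ K
      · right; left; rw [cabK x hxK hxZ]
      right; right
      have : f x ∉ Cfsg.frobeniusKernel (H.map f) := by
        rw [hker]; intro e; apply hxK; rw [← cK]; exact e
      rw [CA.Frob.mem_kernel_iff'] at this
      push Not at this
      obtain ⟨h1, gb, hg⟩ := this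
      obtain ⟨g, rfl⟩ := hsurj gb
      have hg' : g * x * g⁻¹ ∈ H := by
        rw [← cH, Subgroup.mem_comap]; simpa using hg
      have hZ' : g * x * g⁻¹ ∉ Z := by
        intro e; apply hxZ
        have := (Subgroup.mem_center_iff.1 e g⁻¹)
        have e2 : x = g * x * g⁻¹ := by
          calc x = g⁻¹ * (g * x * g⁻¹) * g := by group
            _ = (g * x * g⁻¹) * g⁻¹ * g := by rw [this]
            _ = _ := by group
        rw [e2]; exact e
      rw [← conjI x g, cabH _ hg' hZ']
    · rintro (rfl | rfl | rfl)
      · refine ⟨1, ?_⟩
        rw [Subgroup.index_eq_one, eq_top_iff]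
        intro y _
        rw [Subgroup.mem_centralizer_iff]
        rintro _ rfl
        simp
      · have : ¬ K ≤ Z := by
          intro e; apply hKb
          rw [Subgroup.map_eq_bot_iff, hkf]; exact e
        obtain ⟨x, hx, hxZ⟩ := SetLike.not_le_iff_exists.1 this
        exact ⟨x, by rw [cabK x hx hxZ]⟩
      · have : ¬ H ≤ Z := by
          intro e; apply hFrob.1
          rw [Subgroup.map_eq_bot_iff, hkf]; exact e
        obtain ⟨x, hx, hxZ⟩ := SetLike.not_le_iff_exists.1 this
        exact ⟨x, by rw [cabH x hx hxZ]⟩
  · rw [← iK, ← iH, hc.symm.index_eq_card]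
    exact CA.Frob.coprime_card_index hFrob

end Cfsg.Agent.S4283
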