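import Cfsg.Statements.S4290
import Mathlib
import Cfsg.Agent.Lib.Perm.TwoAut

set_option autoImplicit false
open Cfsg

namespace Cfsg.Agent.S4290

open MulAction CA.TwoAut CA.PermBasic CA.PermMulti

/-- Let G be a doubly transitive group of permutations of a finite set Ω in which a point stabilizer is a Hall subgroup of G (its order is coprime to its index). Then every automorphism of G of odd order is induced by conjugation by a permutation of Ω normalizing G. -/
theorem result {Ω : Type*} [Fintype Ω] (G : Subgroup (Equiv.Perm Ω)) (h2 : MulAction.IsMultiplyPretransitive G Ω 2) (o : Ω) (hHall : (Nat.card (MulAction.stabilizer G o)).Coprime (MulAction.stabilizer G o).index) (α : MulAut G) (hα : Odd (orderOf α)) : ∃ σ : Equiv.Perm Ω, σ ∈ Subgroup.normalizer (G : Set (Equiv.Perm Ω)) ∧ ∀ g : G, ((α g : G) : Equiv.Perm Ω) = σ * (g : Equiv.Perm Ω) * σ⁻¹ := by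
  have : IsPretransitive G Ω := by
    rcases subsingleton_or_nontrivial Ω with hs | hs
    · exact ⟨fun a b => ⟨1, Subsingleton.elim _ _⟩⟩
    · exact is_one_pretransitive_iff.1 (mpt_of_le h2 (by norm_num) Finite.one_lt_card)
  rw [index_stabilizer_of_transitive, Nat.card_eq_fintype_card (α := Ω)] at hHall
  obtain ⟨x, hx⟩ := exists_fixed h2 o α hα o (Nat.Coprime.coprime_dvd_left
    ((card_orbit_dvd o).trans (Subgroup.card_map_of_injective α.injective).dvd) hHall)
  exact exists_normalizer G (map_eq_stabilizer hx)

end Cfsg.Agent.S4290
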