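import Cfsg.Statements.S4292
import Cfsg.Agent.Lib.Grp.H7FC

set_option autoImplicit false
open Cfsg

namespace Cfsg.Agent.S4292

open CA.H7FC MonoidAlgebra

/-- Let A and B be nontrivial finite groups. Then the direct product A × B occurs as a Frobenius complement if and only if A and B both occur as Frobenius complements and the orders of A and B are coprime. -/
theorem result {A B : Type*} [Group A] [Finite A] [Nontrivial A] [Group B] [Finite B] [Nontrivial B] :
    (∃ (L : Type) (_ : Group L) (_ : Finite L) (H : Subgroup L), Cfsg.IsFrobeniusComplement H ∧ Nonempty ((A × B) ≃* H)) ↔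
    ((∃ (L : Type) (_ : Group L) (_ : Finite L) (H : Subgroup L), Cfsg.IsFrobeniusComplement H ∧ Nonempty (A ≃* H)) ∧
     (∃ (L : Type) (_ : Group L) (_ : Finite L) (H : Subgroup L), Cfsg.IsFrobeniusComplement H ∧ Nonempty (B ≃* H)) ∧
     (Nat.card A).Coprime (Nat.card B)) := by
  change FC (A × B) ↔ FC A ∧ FC B ∧ _
  constructor
  · intro h
    refine ⟨h.of_injective (MonoidHom.inl A B) (Prod.mk_left_injective _),
      h.of_injective (MonoidHom.inr A B) (Prod.mk_right_injective _), ?_⟩
    by_contra hc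
    obtain ⟨p, hp, h1, h2⟩ := Nat.Prime.not_coprime_iff_dvd.1 hc
    haveI := Fact.mk hp
    obtain ⟨a, ha⟩ := exists_prime_orderOf_dvd_card' p h1
    obtain ⟨b, hb⟩ := exists_prime_orderOf_dvd_card' p h2
    obtain ⟨V, _, _, _, _, hV⟩ := h.exists_act
    let f : Subgroup.zpowers a × Subgroup.zpowers b →* A × B := (Subgroup.subtype _).prodMap (Subgroup.subtype _)
    letI := MulDistribMulAction.compHom V f
    haveI : IsMulCommutative (Subgroup.zpowers a × Subgroup.zpowers b) :=
      ⟨⟨fun x y => Prod.ext (mul_comm' _ _) (mul_comm' _ _)⟩⟩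
    have hcyc := CA.Act.isCyclic_of_fpf_of_comm (A := Subgroup.zpowers a × Subgroup.zpowers b) (V := V)
      fun x hx v hv => hV (f x) (fun e => hx (Prod.ext (Subtype.ext (congrArg Prod.fst e))
        (Subtype.ext (congrArg Prod.snd e)))) v hv
    have := coprime_card_of_isCyclic_prod (Subgroup.zpowers a) (Subgroup.zpowers b)
    rw [Nat.card_zpowers, Nat.card_zpowers, ha, hb, Nat.coprime_self] at this
    exact hp.one_lt.ne' this
  · rintro ⟨hA, hB, hc⟩
    haveI : Nontrivial (ℚ[A] ⧸ nI A ℚ) := Submodule.Quotient.nontrivial_iff.2 hA.nI_ne_top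
    haveI : Nontrivial (ℚ[B] ⧸ nI B ℚ) := Submodule.Quotient.nontrivial_iff.2 hB.nI_ne_top
    let ρ : Representation ℚ (A × B) _ := Representation.tprod ((qRep A ℚ).comp (MonoidHom.fst A B))
      ((qRep B ℚ).comp (MonoidHom.snd A B))
    have h0 : ∀ v : TensorProduct ℚ (ℚ[A] ⧸ nI A ℚ) (ℚ[B] ⧸ nI B ℚ), Nat.card (A × B) • v = 0 → v = 0 :=
      fun v hv => by
        rw [← Nat.cast_smul_eq_nsmul ℚ, smul_eq_zero] at hv
        exact hv.resolve_left (Nat.cast_ne_zero.2 Nat.card_pos.ne')
    refine fc_of_rep ρ fun g hg v hv => ?_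
    have h1 : ∀ i : ℕ, ρ (g ^ i) v = v := fun i => by
      induction i with
      | zero => simp
      | succ i ih => rw [pow_succ, map_mul, Module.End.mul_apply, hv, ih]
    obtain ⟨a, b⟩ := g
    by_cases ha : a = 1
    · have hb : b ≠ 1 := fun e => hg (Prod.ext ha e)
      subst ha
      refine fpf_of_nrm ρ h0 ?_ v hv
      have : ∀ i : ℕ, ρ ((1, b) ^ i) = (qRep B ℚ (b ^ i)).lTensor _ := fun i => by
        simp [ρ, LinearMap.lTensor, Module.End.one_eq_id]
      rw [Prod.orderOf_mk, orderOf_one, Nat.lcm_one_left]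
      simp only [this]
      rw [← LinearMap.lTensor_zero, ← qRep_nrm hb]
      exact (map_sum (LinearMap.lTensorHom _) _ _).symm
    · have ha' : a ^ Nat.card B ≠ 1 := fun e => ha (orderOf_eq_one_iff.1 (Nat.eq_one_of_dvd_coprimes hc
        (orderOf_dvd_natCard a) (orderOf_dvd_of_pow_eq_one e)))
      have h2 := h1 (Nat.card B)
      rw [Prod.pow_mk, pow_card_eq_one'] at h2
      refine fpf_of_nrm ρ h0 ?_ v h2
      have : ∀ i : ℕ, ρ ((a ^ Nat.card B, 1) ^ i) = (qRep A ℚ ((a ^ Nat.card B) ^ i)).rTensor _ := fun i => by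
        simp [ρ, LinearMap.rTensor, Module.End.one_eq_id]
      rw [Prod.orderOf_mk, orderOf_one, Nat.lcm_one_right]
      simp only [this]
      rw [← LinearMap.rTensor_zero, ← qRep_nrm ha']
      exact (map_sum (LinearMap.rTensorHom _) _ _).symm

end Cfsg.Agent.S4292
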