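import Cfsg.Statements.S4293
import Cfsg.Agent.Lib.Grp.H7FC

set_option autoImplicit false
open Cfsg

namespace Cfsg.Agent.S4293

/-- A nontrivial finite subgroup of the multiplicative group of a division ring occurs as a Frobenius complement of some finite Frobenius group. -/
theorem result {D : Type*} [DivisionRing D] (H : Subgroup Dˣ) [Finite H] (hH : H ≠ ⊥) :
    ∃ (L : Type) (_ : Group L) (_ : Finite L) (C : Subgroup L), Cfsg.IsFrobeniusComplement C ∧ Nonempty (H ≃* C) := by
  haveI := (Subgroup.nontrivial_iff_ne_bot H).2 hH
  exact CA.H7FC.fc_of_divisionRing H.subtype H.subtype_injective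

end Cfsg.Agent.S4293
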