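import Cfsg.Statements.S4294
import Cfsg.Agent.Lib.Grp.H19Div3
import Cfsg.Agent.S3359
import Cfsg.Agent.S4293

set_option autoImplicit false
open Cfsg

namespace Cfsg.Agent.S4294

/-- A finite non-solvable subgroup of the multiplicative group of a division ring is isomorphic to the binary icosahedral group SL(2,5). -/
theorem result {D : Type*} [DivisionRing D] (H : Subgroup Dˣ) [Finite H] (hH : ¬ Group.IsSolvable H) :
    Nonempty (H ≃* Matrix.SpecialLinearGroup (Fin 2) (ZMod 5)) := by
  have hb : H ≠ ⊥ := by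
    rintro rfl
    exact hH inferInstance
  obtain ⟨G₀, -, hi, S, M, hSM, -, hc, ⟨e⟩, -, h30⟩ := S3359.result hH (S4293.result H hb)
  let f : H →* D := (Units.coeHom D).comp H.subtype
  have hf : Function.Injective f := Units.val_injective.comp Subtype.val_injective
  let ψ := S.subtype.comp e.symm.toMonoidHom
  have hψ : Function.Injective ψ := Subtype.val_injective.comp e.symm.injective
  have hM : M = ⊥ := by
    by_contra hM
    obtain ⟨p, hp, hd⟩ := Nat.exists_prime_and_dvd (mt Subgroup.card_eq_one.1 hM)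
    haveI := Fact.mk hp
    obtain ⟨z, hz⟩ := exists_prime_orderOf_dvd_card' p hd
    refine CA.H19Div.stepA (F := f.comp ψ) (hf.comp hψ) (z := f z) hp (h30.coprime_dvd_left hd) ?_ ?_ fun x => ?_
    · rw [← map_pow, ← Subgroup.coe_pow, ← hz, pow_orderOf_eq_one]; simp
    · intro h
      have : z = 1 := Subtype.ext (hf (h.trans (map_one f).symm))
      rw [this, orderOf_one] at hz
      exact hp.one_lt.ne hz
    · rw [MonoidHom.comp_apply, ← map_mul, ← map_mul]
      exact congrArg f (hc _ (e.symm x).2 _ z.2)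
  have hr : ψ.range = G₀ := by
    rw [← hSM, hM, sup_bot_eq, MonoidHom.range_comp, MonoidHom.range_eq_top.2 e.symm.surjective,
      ← MonoidHom.range_eq_map, Subgroup.range_subtype]
  rcases hi with hi | hi
  · rw [← hr, Subgroup.index_eq_one, MonoidHom.range_eq_top] at hi
    exact ⟨(MulEquiv.ofBijective ψ ⟨hψ, hi⟩).symm⟩
  · exact (CA.H19Div.stepB hf hψ (hr ▸ hi)).elim

end Cfsg.Agent.S4294
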