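import Cfsg.Statements.S4296
import Cfsg.Agent.Lib.Grp.H7FC

set_option autoImplicit false
open Cfsg

namespace Cfsg.Agent.S4296

open CA.H7FC CA.Frob2 Subgroup

/-- Let H be a Frobenius complement in a finite group, and suppose some Sylow subgroup of H is not cyclic. Then the number of elements of the Frobenius kernel (the identity together with the elements lying in no conjugate of H) is an odd perfect square. -/
theorem result {L : Type*} [Group L] [Finite L] (H : Subgroup L) (hF : Cfsg.IsFrobeniusComplement H)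
    (hZ : ∃ (p : ℕ) (_ : Fact p.Prime) (P : Sylow p H), ¬ IsCyclic P) :
    Odd (Nat.card (Cfsg.frobeniusKernel H)) ∧ IsSquare (Nat.card (Cfsg.frobeniusKernel H)) := by
  obtain ⟨p, _, P, hP⟩ := hZ
  obtain ⟨K, hK, -⟩ := CChar.CharBurn.exists_frobeniusKernel hF.2.2
  obtain ⟨hn, -, hK1, hs⟩ := of_coe_eq_kernel hF hK
  have hCK : H ≤ normalizer (K : Set L) := le_normalizer_of_normal
  have hPH : (P : Subgroup H).map H.subtype ≤ H := map_subtype_le _
  let e0 := (P : Subgroup H).equivMapOfInjective _ H.subtype_injective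
  obtain h | ⟨-, n, ⟨e⟩⟩ := (hs.mono le_rfl hPH).isCyclic_or_quaternion (hPH.trans hCK) hK1
    (P.2.map H.subtype)
  · exact absurd (isCyclic_of_surjective _ e0.symm.surjective) hP
  obtain _ | n := n
  · haveI : IsCyclic (QuaternionGroup (2 ^ 0)) := QuaternionGroup.quaternionGroup_one_isCyclic
    exact absurd (isCyclic_of_surjective _ (e0.trans e).symm.surjective) hP
  let f : QuaternionGroup (2 ^ (n + 1)) →* L := (Subgroup.subtype _).comp e.symm.toMonoidHom
  have hf : Function.Injective f := (subtype_injective _).comp e.symm.injective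
  have hfH : ∀ g, f g ∈ H := fun g => hPH (e.symm g).2
  have hz : orderOf (f (.xa 0 ^ 2)) = 2 := by
    rw [orderOf_injective f hf, orderOf_pow', QuaternionGroup.orderOf_xa] <;> norm_num
  have hz2 : f (.xa 0 ^ 2) * f (.xa 0 ^ 2) = 1 := by
    have := pow_orderOf_eq_one (f (.xa 0 ^ 2)); rwa [hz, sq] at this
  have hz1 : f (.xa 0 ^ 2) ≠ 1 := fun e => by rw [e] at hz; simp at hz
  have hc := isMulCommutative_of_involution (hCK (hfH _)) hz2 (hs _ (hfH _) hz1)
  have hi := @conj_eq_inv_of_involution _ _ _ _ _ (hCK (hfH _)) hz2 (hs _ (hfH _) hz1)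
  have hodd : Odd (Nat.card K) := Nat.coprime_two_left.1 ((hs.coprime hCK).coprime_dvd_left
    (hz.symm.dvd.trans (H.orderOf_dvd_natCard (hfH _))))
  rw [← hK]
  refine ⟨hodd, ?_⟩
  letI : CommGroup K := { (inferInstance : Group K) with mul_comm := fun a b => hc.is_comm.comm a b }
  let α : L → Additive K →+ Additive K := fun g => MonoidHom.toAdditive (MulAut.conjNormal g).toMonoidHom
  have hα : ∀ g, Function.Injective (α g) := fun g => (MulAut.conjNormal (H := K) g).injective
  refine isSquare_card _ (V := Additive K) rfl hodd (α (f (.a (2 ^ n)))) (α (f (.xa 0))) (hα _) (hα _)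
    fun v => Subtype.ext ?_
  have h1 : f (.a (2 ^ n)) * f (.xa 0) = f (.xa 0 ^ 2) * (f (.xa 0) * f (.a (2 ^ n))) := by
    rw [← map_mul, ← map_mul, ← map_mul, QuaternionGroup.xa_sq]; congr 1
    simp only [QuaternionGroup.a_mul_xa, QuaternionGroup.xa_mul_a]; congr 1; push_cast; ring
  have h2 := hi (hn.conj_mem _ v.toMul.2 (f (.xa 0) * f (.a (2 ^ n))))
  change f _ * (f _ * (v.toMul : L) * (f _)⁻¹) * (f _)⁻¹ = (f _ * (f _ * (v.toMul : L) * (f _)⁻¹) * (f _)⁻¹)⁻¹
  calc _ = (f (.a (2 ^ n)) * f (.xa 0)) * v.toMul * (f (.a (2 ^ n)) * f (.xa 0))⁻¹ := by group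
    _ = _ := by
      rw [h1, show f (.xa 0) * (f (.a (2 ^ n)) * (v.toMul : L) * (f _)⁻¹) * (f _)⁻¹ =
        f (.xa 0) * f (.a (2 ^ n)) * (v.toMul : L) * (f (.xa 0) * f (.a (2 ^ n)))⁻¹ by group, ← h2]
      group

end Cfsg.Agent.S4296
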