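import Cfsg.Statements.S4295
import Cfsg.Agent.Lib.Grp.H7FC
import Cfsg.Agent.Lib.Grp.PGDihedral
import Cfsg.Agent.Lib.Lin.SL2Embed
import Cfsg.Agent.S4296

set_option autoImplicit false
open Cfsg

namespace Cfsg.Agent.S4295

open CA.H7FC CA.PGDihedral CA.SL2Embed

/-- For a natural number m the following are equivalent: (a) some finite group has a Frobenius complement isomorphic to the quaternion group of order 8 whose Frobenius kernel (the identity together with the elements lying in no conjugate of the complement) has exactly m elements; (b) m is an odd perfect square greater than 1. -/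
theorem result (m : ℕ) :
    (∃ (L : Type) (_ : Group L) (_ : Finite L) (H : Subgroup L), Cfsg.IsFrobeniusComplement H ∧
        Nonempty (H ≃* QuaternionGroup 2) ∧ Nat.card (Cfsg.frobeniusKernel H) = m) ↔
    (Odd m ∧ IsSquare m ∧ 1 < m) := by
  constructor
  · rintro ⟨L, _, _, H, hH, ⟨e⟩, rfl⟩
    haveI : Fact (Nat.Prime 2) := ⟨Nat.prime_two⟩
    have h8 : Nat.card H = 2 ^ 3 := by
      rw [Nat.card_congr e.toEquiv, Nat.card_eq_fintype_card, QuaternionGroup.card]; norm_num
    obtain ⟨P⟩ : Nonempty (Sylow 2 H) := inferInstance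
    have hP : (P : Subgroup H) = ⊤ := (P.3 ((IsPGroup.of_card h8).to_subgroup ⊤) le_top).symm
    obtain ⟨a, b⟩ := S4296.result H hH ⟨2, inferInstance, P, fun hc => by
      rw [hP] at hc
      haveI := isCyclic_of_surjective _ (Subgroup.topEquiv.trans e).surjective
      exact absurd (IsCyclic.commutative.is_comm.comm (QuaternionGroup.a 1 : QuaternionGroup 2) (.xa 0)) (by decide)⟩
    refine ⟨a, b, ?_⟩
    have := CA.Frob.card_lt_index hH
    rw [CA.Frob.card_kernel hH]; omega
  · rintro ⟨hodd, ⟨k, rfl⟩, h1⟩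
    have key : ∀ k : ℕ, k ≠ 0 → ∃ (R : Type) (_ : CommRing R) (_ : Finite R) (a b : R),
        Nat.card R = k ∧ a ^ 2 + b ^ 2 = -1 := fun k => by
      induction k using Nat.recOnMul with
      | zero => simp
      | one => exact fun _ => ⟨PUnit, inferInstance, inferInstance, 0, 0, by simp, rfl⟩
      | prime p hp =>
        haveI := Fact.mk hp
        obtain ⟨a, b, h⟩ := ZMod.sq_add_sq p (-1)
        exact fun _ => ⟨ZMod p, inferInstance, inferInstance, a, b, by simp, h⟩
      | mul m n hm hn =>
        intro h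
        obtain ⟨R, _, _, a, b, h1, h2⟩ := hm (left_ne_zero_of_mul h)
        obtain ⟨S, _, _, c, d, h3, h4⟩ := hn (right_ne_zero_of_mul h)
        exact ⟨R × S, inferInstance, inferInstance, (a, c), (b, d), by simp [h1, h3], Prod.ext h2 h4⟩
    obtain ⟨R, _, _, a, b, hR, h⟩ := key k (by rintro rfl; simp at h1)
    let A : Matrix.SpecialLinearGroup (Fin 2) R := mk2 a b b (-a) (by linear_combination -h)
    let X : Matrix.SpecialLinearGroup (Fin 2) R := mk2 0 (-1) 1 0 (by simp)
    have hX : X ^ 2 = -1 := Subtype.ext (by simp [X, sq, Matrix.one_fin_two])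
    have hA : A ^ 2 = -1 := Subtype.ext (by
      simp [A, sq, Matrix.one_fin_two]; refine ⟨⟨?_, ?_⟩, ?_, ?_⟩ <;> first | ring1 | linear_combination h)
    have h4 : A ^ (2 * 2) = 1 := by rw [pow_mul, hA]; simp
    have h2 : X * A * X⁻¹ = A⁻¹ := by
      rw [mul_inv_eq_iff_eq_mul, eq_inv_mul_iff_mul_eq]
      exact Subtype.ext (by
        simp [X, A]; refine ⟨⟨?_, ?_⟩, ?_, ?_⟩ <;> first | ring1 | linear_combination h | linear_combination -h)
    let f := quaternionHom h4 (hX.trans hA.symm) h2
    have hc : Nat.card (Fin 2 → R) = k * k := by simp [Nat.card_fun, hR, sq]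
    haveI : Nontrivial (Fin 2 → R) := Finite.one_lt_card_iff_nontrivial.1 (hc ▸ h1)
    have := fcm_of_rep (sl2Rep f) fun g hg v hv => by
      have h5 : g = .xa 0 ^ 2 ∨ g * g = .xa 0 ^ 2 := by clear hv; revert g; decide
      have h6 : sl2Rep f (.xa 0 ^ 2) v = v := by
        rcases h5 with e | e
        · exact e ▸ hv
        · rw [← e, map_mul, Module.End.mul_apply, hv, hv]
      have h7 : f (.xa 0 ^ 2) = -1 := by rw [map_pow, quaternionHom_xa, ze_zero, mul_one, hX]
      have h8 : -v = v := by
        change Matrix.toLin' (f _).1 v = v at h6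
        rw [h7] at h6
        simpa using h6
      have h9 : addOrderOf v ∣ 2 := addOrderOf_dvd_of_nsmul_eq_zero (by rw [two_nsmul, ← neg_eq_iff_add_eq_zero, h8])
      have h10 := addOrderOf_dvd_natCard v
      rw [hc] at h10
      exact AddMonoid.addOrderOf_eq_one_iff.1 (Nat.eq_one_of_dvd_coprimes (Nat.coprime_two_left.2 hodd) h9 h10)
    obtain ⟨L, i, j, C, h1, ⟨e⟩, h2⟩ := this
    exact ⟨L, i, j, C, h1, ⟨e.symm⟩, h2.trans hc⟩

end Cfsg.Agent.S4295
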