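import Cfsg.Statements.S4297
import Cfsg.Agent.Lib.Grp.H7FC
import Cfsg.Agent.Lib.Grp.PGDihedral
import Cfsg.Agent.Lib.Lin.SL2Embed

set_option autoImplicit false
open Cfsg

namespace Cfsg.Agent.S4297

open CA.H7FC CA.PGDihedral CA.SL2Embed

/-- For every n ≥ 2 the dicyclic group of order 4n (generated by an element a of order 2n and an element x with x² = aⁿ and x a x⁻¹ = a⁻¹) occurs as a Frobenius complement of some finite Frobenius group. -/
theorem result (n : ℕ) (hn : 2 ≤ n) :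
    ∃ (L : Type) (_ : Group L) (_ : Finite L) (H : Subgroup L), Cfsg.IsFrobeniusComplement H ∧ Nonempty (H ≃* QuaternionGroup n) := by
  haveI : NeZero n := ⟨by omega⟩
  have hζ := Complex.isPrimitiveRoot_exp (2 * n) (by omega)
  generalize Complex.exp _ = ζ at hζ
  have h0 : ζ ≠ 0 := hζ.ne_zero (by omega)
  let a : Matrix.SpecialLinearGroup (Fin 2) ℂ := mk2 ζ 0 0 ζ⁻¹ (by simp [h0])
  let x : Matrix.SpecialLinearGroup (Fin 2) ℂ := mk2 0 (-1) 1 0 (by simp)
  have ha : ∀ k : ℕ, (a ^ k).1 = !![ζ ^ k, 0; 0, ζ⁻¹ ^ k] := fun k => by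
    induction k with
    | zero => simp [Matrix.one_fin_two]
    | succ k ih => rw [pow_succ, Matrix.SpecialLinearGroup.coe_mul, ih]; simp [a, pow_succ]
  have hn1 : ζ ^ n = -1 := (hζ.pow (by omega) (mul_comm 2 n)).eq_neg_one_of_two_right
  have ho : orderOf a = 2 * n := by
    rw [hζ.eq_orderOf]
    refine orderOf_eq_orderOf_iff.2 fun k => ⟨fun e => ?_, fun e => Subtype.ext ?_⟩
    · simpa using congrFun (congrFun ((ha k).symm.trans (congrArg Subtype.val e)) 0) 0
    · rw [ha, inv_pow, e]; simp [Matrix.one_fin_two]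
  have h1 : x ^ 2 = a ^ n := Subtype.ext (by rw [ha, inv_pow, hn1]; simp [x, sq])
  have h2 : x * a * x⁻¹ = a⁻¹ := by
    rw [mul_inv_eq_iff_eq_mul, eq_inv_mul_iff_mul_eq]
    exact Subtype.ext (by simp [x, a, h0])
  have h3 : x ∉ Subgroup.zpowers a := fun h => by
    obtain ⟨k, hk⟩ := ((orderOf_pos_iff.1 (by omega : 0 < orderOf a)).mem_powers_iff_mem_zpowers.2 h)
    simpa [x] using congrFun (congrFun ((ha k).symm.trans (congrArg Subtype.val hk)) 1) 0
  exact (fc_of_sl2 (by rw [Nat.card_eq_fintype_card, QuaternionGroup.card]; simp; omega) _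
    (quaternionHom_injective (ho ▸ pow_orderOf_eq_one a) h1 h2 ho h3)).symm'

end Cfsg.Agent.S4297
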