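import Cfsg.Statements.S4298
import Cfsg.Agent.Lib.Grp.H7FC
import Cfsg.Agent.Lib.Grp.SL23

set_option autoImplicit false
open Cfsg

namespace Cfsg.Agent.S4298

open CA.H7FC CA.SL23 Subgroup

/-- The group SL(2,3) of order 24 (the binary tetrahedral group) occurs as a Frobenius complement of some finite Frobenius group. -/
theorem result :
    ∃ (L : Type) (_ : Group L) (_ : Finite L) (H : Subgroup L), Cfsg.IsFrobeniusComplement H ∧ Nonempty (H ≃* Matrix.SpecialLinearGroup (Fin 2) (ZMod 3)) := by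
  let c : Matrix.SpecialLinearGroup (Fin 2) (ZMod 5) := ⟨!![0, 4; 1, 0], by decide⟩
  let w : Matrix.SpecialLinearGroup (Fin 2) (ZMod 5) := ⟨!![2, 0; 0, 3], by decide⟩
  let t : Matrix.SpecialLinearGroup (Fin 2) (ZMod 5) := ⟨!![1, 2; 1, 3], by decide⟩
  let G := zpowers c ⊔ zpowers w ⊔ zpowers t
  let c' : G := ⟨c, mem_sup_left (mem_sup_left (mem_zpowers _))⟩
  let w' : G := ⟨w, mem_sup_left (mem_sup_right (mem_zpowers _))⟩
  let t' : G := ⟨t, mem_sup_right (mem_zpowers _)⟩
  have h : Rel c' w' t' := ⟨Subtype.ext (show c ^ 4 = 1 by decide), Subtype.ext (show w ^ 2 = c ^ 2 by decide),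
    Subtype.ext (show w * c * w⁻¹ = c⁻¹ by decide), Subtype.ext (show t * c * t⁻¹ = w from Subtype.ext (by decide)),
    Subtype.ext (show t * w * t⁻¹ = c * w by decide)⟩
  have ho : orderOf c' = 2 ^ (1 + 1) :=
    orderOf_eq_prime_pow (fun e => absurd (congrArg Subtype.val e) (show ¬ c ^ 2 = 1 by decide)) h.c4
  obtain ⟨e⟩ := nonempty_sl23 h (Subtype.ext (show t ^ 3 = 1 by decide)) ho (fun hw => by
      obtain ⟨k, hk⟩ := hw
      have h1 : c * w = w * c := congrArg Subtype.val (show c' * w' = w' * c' from hk ▸ (Commute.self_zpow c' k).eq)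
      revert h1; decide)
    (map_injective G.subtype_injective (by
      rw [Subgroup.map_sup, Subgroup.map_sup, MonoidHom.map_zpowers, MonoidHom.map_zpowers, MonoidHom.map_zpowers,
        ← MonoidHom.range_eq_map, range_subtype]; rfl))
  haveI : Fact (Nat.Prime 5) := ⟨by norm_num⟩
  haveI : Nontrivial (Matrix.SpecialLinearGroup (Fin 2) (ZMod 3)) :=
    Finite.one_lt_card_iff_nontrivial.1 (by rw [card_sl]; norm_num)
  exact (fc_of_sl2 (by rw [card_sl]; decide +revert) (G.subtype.comp e.symm.toMonoidHom)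
    (G.subtype_injective.comp e.symm.injective)).symm'

end Cfsg.Agent.S4298
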