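import Cfsg.Statements.S4300
import Mathlib
import Cfsg.Agent.Lib.Perm.PermMulti

set_option autoImplicit false
open Cfsg

namespace Cfsg.Agent.S4300

open MulAction CA.PermBasic CA.PermMulti

/-- Let G act faithfully and primitively on a set X, and suppose the stabilizer of some point is a simple group. Then either G is simple, or G has a normal subgroup, neither trivial nor the whole group, that acts regularly on X (transitively with trivial point stabilizers). -/
theorem result {G : Type*} [Group G] {X : Type*} [MulAction G X] [FaithfulSMul G X]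
    (hprim : MulAction.IsPreprimitive G X) (x : X) (hsimple : IsSimpleGroup (MulAction.stabilizer G x)) :
    IsSimpleGroup G ∨ ∃ N : Subgroup G, N.Normal ∧ N ≠ ⊥ ∧ N ≠ ⊤ ∧
      MulAction.IsPretransitive N X ∧ ∀ y : X, MulAction.stabilizer N y = ⊥ := by
  by_contra hcon
  rw [not_or] at hcon
  apply hcon.1
  have : Nontrivial G := (stabilizer G x).subtype_injective.nontrivial
  refine ⟨fun N hN => ?_⟩
  by_contra h
  rw [not_or] at h
  have ht : IsPretransitive N X := normal_pretransitive N h.1
  rcases hsimple.eq_bot_or_eq_top_of_normal (N.subgroupOf (stabilizer G x)) inferInstance with h1 | h1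
  · refine hcon.2 ⟨N, hN, h.1, h.2, ht, fun y => ?_⟩
    have hx : stabilizer N x = ⊥ := by
      rw [subgroup_stabilizer_eq_bot_iff]
      intro n hn hnx
      have : (⟨n, hnx⟩ : stabilizer G x) ∈ N.subgroupOf (stabilizer G x) := hn
      rw [h1, Subgroup.mem_bot] at this
      exact congrArg Subtype.val this
    obtain ⟨g, rfl⟩ := exists_smul_eq N x y
    rw [stabilizer_smul_eq_stabilizer_map_conj, hx, Subgroup.map_bot]
  · apply h.2
    rw [Subgroup.subgroupOf_eq_top] at h1
    rw [← sup_stabilizer_eq_top N ht x, sup_eq_left.2 h1]

end Cfsg.Agent.S4300
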