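import Cfsg.Statements.S4301
import Mathlib
import Cfsg.Agent.Lib.Perm.PermMulti

set_option autoImplicit false
open Cfsg

namespace Cfsg.Agent.S4301

open MulAction CA.PermBasic CA.PermMulti in

/-- One-point extension of a multiply transitive group. Let X be a set and G a group of permutations of Option X (the set X with one extra point ∗ = none) all of whose elements fix ∗, such that G is k-transitive on the points of X for some k ≥ 2, X having at least k points. Suppose a permutation h of Option X and an element g of G satisfy: h interchanges ∗ with a point x of X and fixes a point y of X; g interchanges x and y; (g h)³ and h² lie in G; and for every f in G fixing x, the product h f h lies in G and fixes x. Then an element of the group generated by G and h fixes ∗ exactly when it lies in G, and that group acts (k+1)-transitively on Option X. -/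
theorem result {X : Type*} (G : Subgroup (Equiv.Perm (Option X))) (hfix : ∀ f ∈ G, f none = none)
    (k : ℕ) (hk : 2 ≤ k) (hkX : Nonempty (Fin k ↪ X))
    (htrans : ∀ a b : Fin k ↪ X, ∃ f ∈ G, ∀ i, f (some (a i)) = some (b i))
    (h g : Equiv.Perm (Option X)) (hg : g ∈ G) (x y : X)
    (h1 : h none = some x) (h2 : h (some x) = none) (h3 : h (some y) = some y)
    (h4 : g (some x) = some y) (h5 : g (some y) = some x)
    (h6 : (g * h) ^ 3 ∈ G) (h7 : h ^ 2 ∈ G)
    (h8 : ∀ f ∈ G, f (some x) = some x → h * f * h ∈ G ∧ (h * f * h) (some x) = some x) :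
    (∀ f ∈ Subgroup.closure ((G : Set (Equiv.Perm (Option X))) ∪ {h}), f none = none ↔ f ∈ G) ∧
      MulAction.IsMultiplyPretransitive (Subgroup.closure ((G : Set (Equiv.Perm (Option X))) ∪ {h})) (Option X) (k + 1) := by
  classical
  set M := Subgroup.closure ((G : Set (Equiv.Perm (Option X))) ∪ {h}) with hM
  have hGM : G ≤ M := fun f hf => Subgroup.subset_closure (Or.inl hf)
  have hhM : h ∈ M := Subgroup.subset_closure (Or.inr rfl)
  have hxy : x ≠ y := by rintro rfl; rw [h2] at h3; cases h3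
  have sm : ∀ f ∈ G, ∀ a : X, ∃ b, f (some a) = some b := fun f hf a =>
    Option.ne_none_iff_exists'.1 fun e => by
      have := f.injective (e.trans (hfix f hf).symm); cases this
  -- extension of injective maps
  have ext : ∀ (m : ℕ) (hm : m ≤ k) (a : Fin m → X), Function.Injective a →
      ∃ a' : Fin k ↪ X, ∀ i : Fin m, a' (i.castLE hm) = a i := by
    intro m hm a ha
    obtain ⟨e⟩ := hkX
    obtain ⟨σ, hσ⟩ := Equiv.Perm.exists_extending_pair (f := fun i : Fin m => e (i.castLE hm))
      (g := a) (e.injective.comp (Fin.castLE_injective hm)) ha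
    exact ⟨e.trans σ.toEmbedding, hσ⟩
  have two : ∀ a b c d : X, a ≠ b → c ≠ d → ∃ f ∈ G, f (some a) = some c ∧ f (some b) = some d := by
    intro a b c d hab hcd
    obtain ⟨a', ha⟩ := ext 2 hk _ (inj2 hab)
    obtain ⟨b', hb⟩ := ext 2 hk _ (inj2 hcd)
    obtain ⟨f, hf, e⟩ := htrans a' b'
    have e0 := e ((0 : Fin 2).castLE hk)
    have e1 := e ((1 : Fin 2).castLE hk)
    rw [ha, hb] at e0 e1
    exact ⟨f, hf, e0, e1⟩
  have hinv : h⁻¹ = (h ^ 2)⁻¹ * h := by group
  -- `h f h ∈ G ∪ G h G`
  have key : ∀ f ∈ G, h * f * h ∈ G ∨ ∃ u ∈ G, ∃ v ∈ G, h * f * h = u * h * v := by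
    intro f hf
    by_cases e : f (some x) = some x
    · exact Or.inl (h8 f hf e).1
    right
    obtain ⟨z, hz⟩ := sm f hf x
    have hzx : x ≠ z := by rintro rfl; exact e hz
    obtain ⟨a, ha, a1, a2⟩ := two x y x z hxy hzx
    have hb : g⁻¹ * a⁻¹ * f ∈ G := G.mul_mem (G.mul_mem (G.inv_mem hg) (G.inv_mem ha)) hf
    have b1 : (g⁻¹ * a⁻¹ * f) (some x) = some x := by
      simp only [Equiv.Perm.mul_apply, hz]
      rw [← a2, Equiv.Perm.inv_eq_iff_eq, h4]; simp
    have A := (h8 a ha a1).1
    have B := (h8 _ hb b1).1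
    refine ⟨(h * a * h) * (h ^ 2)⁻¹ * g⁻¹ * (g * h) ^ 3 * (h ^ 2)⁻¹, ?_,
      g⁻¹ * (h ^ 2)⁻¹ * (h * (g⁻¹ * a⁻¹ * f) * h), ?_, ?_⟩
    · exact G.mul_mem (G.mul_mem (G.mul_mem (G.mul_mem A (G.inv_mem h7)) (G.inv_mem hg)) h6)
        (G.inv_mem h7)
    · exact G.mul_mem (G.mul_mem (G.inv_mem hg) (G.inv_mem h7)) B
    · simp only [pow_succ, pow_zero]; group
  let S : Subgroup (Equiv.Perm (Option X)) :=
    { carrier := {s | s ∈ G ∨ ∃ u ∈ G, ∃ v ∈ G, s = u * h * v}
      one_mem' := Or.inl G.one_mem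
      mul_mem' := by
        rintro s t (hs | ⟨u, hu, v, hv, rfl⟩) (ht | ⟨u', hu', v', hv', rfl⟩)
        · exact Or.inl (G.mul_mem hs ht)
        · exact Or.inr ⟨s * u', G.mul_mem hs hu', v', hv', by group⟩
        · exact Or.inr ⟨u, hu, v * t, G.mul_mem hv ht, by group⟩
        · rcases key _ (G.mul_mem hv hu') with e | ⟨a, ha, b, hb, e⟩
          · exact Or.inl (by
              rw [show u * h * v * (u' * h * v') = u * (h * (v * u') * h) * v' by group]
              exact G.mul_mem (G.mul_mem hu e) hv')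
          · refine Or.inr ⟨u * a, G.mul_mem hu ha, b * v', G.mul_mem hb hv', ?_⟩
            rw [show u * h * v * (u' * h * v') = u * (h * (v * u') * h) * v' by group, e]; group
      inv_mem' := by
        rintro s (hs | ⟨u, hu, v, hv, rfl⟩)
        · exact Or.inl (G.inv_mem hs)
        · exact Or.inr ⟨v⁻¹ * (h ^ 2)⁻¹, G.mul_mem (G.inv_mem hv) (G.inv_mem h7), u⁻¹,
            G.inv_mem hu, by simp only [pow_succ, pow_zero]; group⟩ }
  have hMS : M ≤ S := (Subgroup.closure_le _).2 (by
    rintro s (hs | rfl)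
    · exact Or.inl hs
    · exact Or.inr ⟨1, G.one_mem, 1, G.one_mem, by simp⟩)
  refine ⟨fun f hf => ⟨fun e => ?_, hfix f⟩, ?_⟩
  · rcases hMS hf with h' | ⟨u, hu, v, hv, rfl⟩
    · exact h'
    · obtain ⟨b, hb⟩ := sm u hu x
      simp [Equiv.Perm.mul_apply, hfix v hv, h1, hb] at e
  · rw [add_comm]
    have t0 : ∀ a : Option X, ∃ m : M, m • a = none := by
      rintro (_ | a)
      · exact ⟨1, one_smul _ _⟩
      · obtain ⟨f, hf, e⟩ : ∃ f ∈ G, f (some a) = some x := by
          by_cases e : a = x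
          · exact ⟨1, G.one_mem, by simp [e]⟩
          · obtain ⟨f, hf, e, -⟩ := two a x x y e hxy
            exact ⟨f, hf, e⟩
        exact ⟨⟨h * f, M.mul_mem hhM (hGM hf)⟩, show h (f (some a)) = none by rw [e, h2]⟩
    have t1 : IsPretransitive M (Option X) := ⟨fun a b => by
      obtain ⟨m, hm⟩ := t0 a
      obtain ⟨n, hn⟩ := t0 b
      exact ⟨n⁻¹ * m, by rw [mul_smul, hm, ← hn, inv_smul_smul]⟩⟩
    refine mpt_add_of_fixing (is_one_pretransitive_iff.2 t1) {none} (Set.finite_singleton _)
      (Set.ncard_singleton _) (mpt_fixing_iff.2 fun f f' hf hf' n1 n2 => ?_)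
    choose a ha using fun i => Option.ne_none_iff_exists'.1 (n1 i)
    choose b hb using fun i => Option.ne_none_iff_exists'.1 (n2 i)
    obtain ⟨u, hu, e⟩ := htrans ⟨a, fun i j e => hf (by rw [ha, ha, e])⟩
      ⟨b, fun i j e => hf' (by rw [hb, hb, e])⟩
    refine ⟨⟨u, hGM hu⟩, ?_, fun i => ?_⟩
    · rintro z rfl; exact hfix u hu
    · rw [ha, hb]; exact e i

end Cfsg.Agent.S4301
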