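import Cfsg.Statements.S4302
import Cfsg.Agent.S0617
import Cfsg.Agent.Lib.Loc.H6KS2
import Cfsg.Agent.Lib.Loc.H6Dih
import Cfsg.Agent.Lib.Grp.Fitting

set_option autoImplicit false
open Cfsg

namespace Cfsg.Agent.S4302

open CA CA.H6KS2 CA.H6KS CA.H6Pl CA.H6Off CA.H6Op CA.H6Stab CA.H6PSolv CA.Amb CA.AmbSyl CA.AmbCore CA.AmbRes CA.AmbChar Subgroup
open CA.H6J hiding Z
open scoped commutatorElement MatrixGroups

theorem sl2 : Nonempty (SL(2, ZMod 2) ≃* Equiv.Perm (Fin 3)) := by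
  obtain ⟨e⟩ := H6Dih.nonempty_S3
  let a : SL(2, ZMod 2) := ⟨!![0, 1; 1, 1], by decide⟩
  let x : SL(2, ZMod 2) := ⟨!![0, 1; 1, 0], by decide⟩
  have ho : orderOf a = 3 := orderOf_eq_prime (hp := ⟨Nat.prime_three⟩) (by decide)
    (fun e => absurd (congrArg (fun M : SL(2, ZMod 2) => M.1 0 0) e) (by decide))
  obtain ⟨f⟩ := PGDihedral.nonempty_mulEquiv_dihedral (a := a) (x := x) ho
    (fun h => by
      have h1 : a * x = x * a := by obtain ⟨k, hk⟩ := h; rw [← hk]; exact (Commute.zpow_right rfl k).eq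
      exact absurd (congrArg (fun M : SL(2, ZMod 2) => M.1 0 1) h1) (by decide))
    (by decide) (by decide) (by
      refine eq_top_iff.2 fun σ _ => ?_
      obtain ⟨i, j, rfl⟩ := (by decide : ∀ σ : SL(2, ZMod 2), ∃ (i : Fin 3) (j : Fin 2),
        σ = a ^ i.1 * x ^ j.1) σ
      exact mul_mem (mem_sup_left (npow_mem_zpowers _ _)) (mem_sup_right (npow_mem_zpowers _ _)))
  exact ⟨f.trans e.symm⟩

section
variable {G : Type*} [Group G] [Finite G]

/-- A 2-group acting on a four-group and fixing an involution. -/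
theorem mul_mem_cent {W Z : Subgroup G} (hW : IsAb 2 W) (h4 : Nat.card W = 2 ^ 2) (hZ : Z ≤ W)
    (h2 : Nat.card Z = 2) {a b : G} (ha : a ∈ 𝐍 W) (hb : b ∈ 𝐍 W) (ha' : a ∈ 𝐂 Z) (hb' : b ∈ 𝐂 Z)
    (na : a ∉ 𝐂 W) (nb : b ∉ 𝐂 W) : a * b ∈ 𝐂 W := by
  have hi : (Z.subgroupOf W).index = 2 := by
    have := card_mul_relIndex hZ
    rw [h2, h4] at this
    change Z.relIndex W = 2
    omega
  obtain ⟨z, hz1, hz⟩ := (Nat.card_eq_two_iff' (1 : Z)).1 h2
  have hz' : ∀ y ∈ Z, y ≠ 1 → y = z := fun y hy h1 =>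
    congrArg Subtype.val (hz ⟨y, hy⟩ fun e => h1 (congrArg Subtype.val e))
  have mul : ∀ u ∈ W, ∀ v ∈ W, u ∉ Z → v ∉ Z → u * v ∈ Z := fun u hu v hv h1 h2 =>
    (mul_mem_iff_of_index_two hi (a := ⟨u, hu⟩) (b := ⟨v, hv⟩)).2
      (by simp only [mem_subgroupOf]; tauto)
  have key : ∀ c ∈ 𝐍 W, c ∈ 𝐂 Z → c ∉ 𝐂 W → ∀ w ∈ W, w ∉ Z → c * w * c⁻¹ = z * w := by
    intro c hc hc' nc w hw nw
    have h1 : c * w * c⁻¹ ∉ Z := fun h => nw (by
      have := mem_centralizer_sub.1 hc' _ h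
      have e : c * w * c⁻¹ = w := by
        calc c * w * c⁻¹ = c⁻¹ * (c * (c * w * c⁻¹)) := by group
          _ = w := by rw [← this]; group
      exact e ▸ h)
    have h3 := mul _ (conj_mem_of_mem_normalizer hc hw) _ (inv_mem hw) h1 (by simpa using nw)
    rw [← hz' _ h3 fun e => nc (mem_centralizer_sub.2 fun v hv => ?_)]
    · group
    · have e' : c * w = w * c := by rw [mul_inv_eq_one, mul_inv_eq_iff_eq_mul] at e; exact e
      by_cases hv' : v ∈ Z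
      · exact mem_centralizer_sub.1 hc' v hv'
      · have h5 := mem_centralizer_sub.1 hc' _ (mul v hv _ (inv_mem hw) hv' (by simpa using nw))
        calc v * c = v * w⁻¹ * (w * c) := by group
          _ = v * w⁻¹ * c * w := by rw [← e']; group
          _ = c * v := by rw [h5]; group
  refine mem_centralizer_sub.2 fun w hw => ?_
  by_cases nw : w ∈ Z
  · exact mem_centralizer_sub.1 (mul_mem ha' hb') w nw
  · have e1 := key a ha ha' na w hw nw
    have e2 := key b hb hb' nb w hw nw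
    have e3 := mem_centralizer_sub.1 ha' z z.2
    have e4 : (z : G) * z = 1 := by rw [← sq]; exact hW.2 _ (hZ z.2)
    calc w * (a * b) = z * (z * w) * (a * b) := by rw [← mul_assoc (z : G), e4, one_mul]
      _ = z * a * w * b := by rw [← e1]; group
      _ = a * (z * w) * b := by rw [e3]; group
      _ = a * b * w := by rw [← e2]; group

theorem elem {V H F : Subgroup G} (s : St 2 V H F) (n : ℕ) : ∀ A : Subgroup G, Nat.card A = n →
    A ≤ H → IsAb 0 A → IsPGroup 2 A → (∀ B, B ≤ A → fm V B ≤ fm V A) → ∀ a ∈ A, a ^ 2 = 1 := by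
  induction n using Nat.strong_induction_on with
  | _ n ih =>
  intro A hn hAH hA hp hm a ha
  have hAV := hAH.trans s.hHV
  by_cases h0 : A = ⊥
  · rw [h0, mem_bot] at ha; rw [ha, one_pow]
  have hAA : ⁅A, A⁆ ≤ 𝐂 V := by rw [comm_eq_bot_of_le hA.le_centralizer]; exact bot_le
  obtain ⟨h1, h2⟩ := timmesfeld s.hV.1 hAV hAA hm le_rfl
  have hVA : ⁅V, A⁆ ≤ V := commutator_le_left_of_norm hAV
  have hb : IsBestOffenderOn 2 V (A ⊓ 𝐂 ⁅V, A⁆) := best_iff.2
    ⟨fun B hB => h1 ▸ hm B (hB.trans inf_le_left), (commutator_mono inf_le_left inf_le_left).trans hAA,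
      fun x hx => pow_mem_cent_of_quad s.hV.2 (inf_le_left.trans hAV) (comm_eq_bot_of_le'
        (inf_le_right.trans (centralizer_anti (commutator_mono le_rfl inf_le_left)))) hx⟩
  have hne : A ⊓ 𝐂 ⁅V, A⁆ ≠ ⊥ := fun e => by
    rw [e, Amb.centralizer_bot, inf_top_eq] at h2
    refine h0 (s.eq_bot' hAH (commutator_eq_bot_iff'.1 ?_))
    refine eq_bot_of_le_commutator hp (s.hV.isPGroup.to_le hVA) (norm_comm_right _ _) ?_
    have hn : V ≤ 𝐍 ⁅⁅V, A⁆, A⁆ := norm_of_centralizer (s.hV.le_centralizer.trans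
      (centralizer_anti ((commutator_le_left_of_norm (norm_comm_right _ _)).trans hVA)))
    conv_lhs => rw [h2]
    refine comm_sup_le (le_sup_left.trans (h2.ge.trans hn)) (inf_le_left.trans hn) le_rfl ?_
    rw [comm_eq_bot_of_le inf_le_right]; exact bot_le
  obtain ⟨k, B, hB, -, hB'⟩ := s.exists_decomp _ _ rfl (inf_le_left.trans hAH) hb
  have hk : k ≠ 0 := by
    rintro rfl
    exact hne (by rw [← hB']; simp)
  obtain ⟨b1, b2, b3⟩ := hB ⟨0, Nat.pos_of_ne_zero hk⟩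
  generalize B ⟨0, Nat.pos_of_ne_zero hk⟩ = A₁ at b1 b2 b3
  have b4 : A₁ ≤ A := b1.trans inf_le_left
  have t := s.tv_of_card (b4.trans hAH) b2 b3
  have l := s.pl t
  have n1 : A ≤ 𝐍 A₁ := norm_of_centralizer (hA.le_centralizer.trans (centralizer_anti b4))
  have n2 : A ≤ 𝐍 ⁅V, EE F A₁⁆ :=
    norm_commutator hAV (norm_sup (norm_commutator (hAH.trans s.hn) n1) n1)
  have n3 : A ≤ 𝐂 ⁅V, A₁⁆ := cent_symm (le_cent_of_card t.card' hp (norm_commutator hAV n1))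
  have hWV : ⁅V, EE F A₁⁆ ≤ V := commutator_le_left_of_norm ((s.EE_le t.le).trans s.hHV)
  obtain ⟨x, x1, x2, x3⟩ := exists_zpowers b3
  have x4 : x ∈ A₁ := x3 ▸ mem_zpowers x
  have x5 : x ∉ 𝐂 ⁅V, EE F A₁⁆ := fun h =>
    x1 (mem_bot.1 (l.faith ▸ mem_inf.2 ⟨mem_sup_right x4, h⟩))
  have mm : ∀ a ∈ A, ∀ b ∈ A, a ∉ 𝐂 ⁅V, EE F A₁⁆ → b ∉ 𝐂 ⁅V, EE F A₁⁆ →
      a * b ∈ 𝐂 ⁅V, EE F A₁⁆ := fun a ha b hb =>
    mul_mem_cent (s.hV.of_le hWV) l.card (commutator_mono le_rfl le_sup_right) t.card'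
      (n2 ha) (n2 hb) (n3 ha) (n3 hb)
  set C := A ⊓ 𝐂 ⁅V, EE F A₁⁆ with hC
  have hlt : C < A := lt_of_le_of_ne inf_le_left fun e => x5 (e.ge (b4 x4)).2
  have hi : C.relIndex A = 2 := by
    refine index_eq_two_iff.2 ⟨⟨x, b4 x4⟩, fun b => ?_⟩
    simp only [mem_subgroupOf, coe_mul, hC, mem_inf, b.2, mul_mem b.2 (b4 x4), true_and]
    by_cases hb : (b : G) ∈ 𝐂 ⁅V, EE F A₁⁆
    · exact Or.inr ⟨hb, fun h => x5 ((mul_mem_cancel_left hb).1 h)⟩
    · exact Or.inl ⟨mm _ b.2 _ (b4 x4) hb x5, hb⟩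
  have hfm : fm V A ≤ fm V C := by
    have e1 := card_mul_relIndex hlt.le
    have hl : V ⊓ 𝐂 A < V ⊓ 𝐂 C := lt_of_le_of_ne (inf_le_inf_left _ (centralizer_anti hlt.le))
      fun e => x5 (cent_symm ((le_inf hWV (cent_symm inf_le_right)).trans
        (e.ge.trans inf_le_right)) (b4 x4))
    have e2 := card_mul_relIndex hl.le
    have e3 : 2 ≤ (V ⊓ 𝐂 A).relIndex (V ⊓ 𝐂 C) := by
      have h5 := relIndex_ne_zero (V ⊓ 𝐂 A) (V ⊓ 𝐂 C)
      have h6 : (V ⊓ 𝐂 A).relIndex (V ⊓ 𝐂 C) ≠ 1 := fun e => hl.not_ge (relIndex_eq_one.1 e)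
      omega
    rw [fm_def, fm_def, ← e1, ← e2, hi, mul_assoc]
    exact Nat.mul_le_mul_left _ (by rw [mul_comm]; exact Nat.mul_le_mul_left _ e3)
  have IH := ih _ (hn ▸ card_lt_of_lt hlt) C rfl (hlt.le.trans hAH) (hA.of_le hlt.le)
    (hp.to_le hlt.le) fun B hB => (hm B (hB.trans hlt.le)).trans hfm
  by_cases hc : a ∈ 𝐂 ⁅V, EE F A₁⁆
  · exact IH a ⟨ha, hc⟩
  · have := IH (a * x) ⟨mul_mem ha (b4 x4), mm _ ha _ (b4 x4) hc x5⟩
    rwa [Commute.mul_pow (hA.comm ha (b4 x4)), x2, mul_one] at this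

theorem best_sub {V W A : Subgroup G} (hV : IsAb 0 V) (hW : W ≤ V)
    (h : IsBestOffenderOn 0 V A) : IsBestOffenderOn 0 W A := by
  refine ⟨fun B hB => ?_, h.2.1.trans (centralizer_anti hW), fun a _ => by simp⟩
  have e1 := card_sup_mul_card_inf (H := W ⊓ 𝐂 B) (N := V ⊓ 𝐂 A) (norm_of_centralizer
    ((inf_le_left.trans hW).trans (hV.le_centralizer.trans (centralizer_anti inf_le_left))))
  have e2 : W ⊓ 𝐂 B ⊓ (V ⊓ 𝐂 A) = W ⊓ 𝐂 A := le_antisymm
    (inf_le_inf inf_le_left inf_le_right) (le_inf (inf_le_inf_left _ (centralizer_anti hB))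
      (inf_le_inf_right _ hW))
  have e3 : Nat.card ↥(W ⊓ 𝐂 B ⊔ V ⊓ 𝐂 A) ≤ Nat.card ↥(V ⊓ 𝐂 B) := card_le_of_le
    (sup_le (inf_le_inf_right _ hW) (inf_le_inf_left _ (centralizer_anti hB)))
  rw [e2] at e1
  refine Nat.le_of_mul_le_mul_right ?_ (Nat.card_pos (α := ↥(V ⊓ 𝐂 A)))
  calc Nat.card B * Nat.card ↥(W ⊓ 𝐂 B) * Nat.card ↥(V ⊓ 𝐂 A)
      = Nat.card B * Nat.card ↥(W ⊓ 𝐂 B ⊔ V ⊓ 𝐂 A) * Nat.card ↥(W ⊓ 𝐂 A) := by
        rw [mul_assoc, ← e1, mul_assoc]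
    _ ≤ Nat.card B * Nat.card ↥(V ⊓ 𝐂 B) * Nat.card ↥(W ⊓ 𝐂 A) := by gcongr
    _ ≤ Nat.card A * Nat.card ↥(V ⊓ 𝐂 A) * Nat.card ↥(W ⊓ 𝐂 A) :=
        Nat.mul_le_mul_right _ (h.1 B hB)
    _ = _ := by ring

theorem prod_S3 {V H F : Subgroup G} (s : St 2 V H F) (g : Gen 2 V H) (h : H ≠ ⊥) :
    ∃ n : ℕ, 1 ≤ n ∧ Nonempty (H ≃* (Fin n → Equiv.Perm (Fin 3))) := by
  classical
  obtain ⟨h1, h2, h3, -⟩ := S0617.aux s g (Q := fun E => ∃ A, Tv 2 V H A ∧ E = EE F A)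
    fun _ => Iff.rfl
  have := Fintype.ofFinite {E : Subgroup G // ∃ A, Tv 2 V H A ∧ E = EE F A}
  have hc : Pairwise fun i j : {E : Subgroup G // ∃ A, Tv 2 V H A ∧ E = EE F A} =>
      ∀ x y : G, x ∈ (i : Subgroup G) → y ∈ (j : Subgroup G) → Commute x y := by
    rintro ⟨_, A, t, rfl⟩ ⟨_, B, t', rfl⟩ hne x y hx hy
    exact mem_centralizer_sub.1 (s.le_cent_of_ne' t t' (fun e => hne (Subtype.ext e)) hy) x hx
  obtain ⟨A, t⟩ := g.exists_tv h
  obtain ⟨e0⟩ := sl2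
  refine ⟨Fintype.card {E : Subgroup G // ∃ A, Tv 2 V H A ∧ E = EE F A},
    Fintype.card_pos_iff.2 ⟨⟨_, A, t, rfl⟩⟩, ⟨?_⟩⟩
  refine (MulEquiv.subgroupCongr (h3.symm.trans (noncommPiCoprod_range (hcomm := hc)).symm)).trans
    ((MonoidHom.ofInjective (injective_noncommPiCoprod_of_iSupIndep (hcomm := hc) h2)).symm.trans
      ((MulEquiv.piCongrRight fun E => (Classical.choice (h1 E).2.1).trans e0).trans
        (MulEquiv.arrowCongr (Fintype.equivFin _) (MulEquiv.refl _))))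

end

/-- Let `X` be a finite solvable group whose Fitting subgroup is a 2-group (equivalently `F(X) = O₂(X)`), `T` a Sylow 2-subgroup of `X`, `J(T)` the subgroup generated by the abelian subgroups of `T` of largest order, `C` the largest normal subgroup of `X` centralizing the centre `Z(T)`, and `Y` the normal closure of `J(T)` in `X`. Then `X = C · Y · N_X(J(T))`, and either `Y ≤ C`, or `CY/C` is isomorphic to a direct product of at least one copy of the symmetric group of degree 3. -/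
theorem result {X : Type*} [Group X] [Finite X]
    [Group.IsSolvable X] (hF : Cfsg.fittingSubgroup X = Cfsg.pCore 2 X) (T : Sylow 2 X) :
    ((Subgroup.centralizer (((T : Subgroup X) ⊓ Subgroup.centralizer ((T : Subgroup X) : Set X) : Subgroup X) : Set X)).normalCore
        ⊔ Subgroup.normalClosure (Cfsg.thompsonSubgroupAOf (T : Subgroup X) : Set X)
        ⊔ Subgroup.normalizer (Cfsg.thompsonSubgroupAOf (T : Subgroup X) : Set X) = ⊤) ∧
    (Subgroup.normalClosure (Cfsg.thompsonSubgroupAOf (T : Subgroup X) : Set X)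
        ≤ (Subgroup.centralizer (((T : Subgroup X) ⊓ Subgroup.centralizer ((T : Subgroup X) : Set X) : Subgroup X) : Set X)).normalCore
      ∨ ∃ n : ℕ, 1 ≤ n ∧
        Nonempty (↥(Subgroup.normalClosure (Cfsg.thompsonSubgroupAOf (T : Subgroup X) : Set X)) ⧸
            ((Subgroup.centralizer (((T : Subgroup X) ⊓ Subgroup.centralizer ((T : Subgroup X) : Set X) : Subgroup X) : Set X)).normalCore).subgroupOf
              (Subgroup.normalClosure (Cfsg.thompsonSubgroupAOf (T : Subgroup X) : Set X))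
          ≃* (Fin n → Equiv.Perm (Fin 3)))) := by
  have hS := sylIn_top T
  rw [thompsonSubgroupAOf_eq, ← ncl_top]
  generalize (T : Subgroup X) = S at hS ⊢
  have hc : CharP 2 (⊤ : Subgroup X) := charP_top_iff.2 (hF ▸ Fitting.centralizer_fitting_le)
  have h1 := H6NPC.ncl_le_Z_pCoreOf hc hS (le_refl (H6J.Z S))
  have nV : (ncl (H6J.Z S) ⊤).Normal := normal_iff_top_le.2 (norm_ncl _ _)
  have eC : (𝐂 (S ⊓ 𝐂 S)).normalCore = 𝐂 (ncl (H6J.Z S) ⊤) := by
    refine le_antisymm (cent_symm (ncl_le_cent norm_of_normal (cent_symm (normalCore_le _)))) ?_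
    exact normal_le_normalCore.2 (centralizer_anti (le_ncl _ _))
  have hO := H6NPC.Op_cent_ncl_le (p := 2) hS (inf_le_right : H6J.Z S ≤ _)
  generalize ncl (H6J.Z S) ⊤ = V at *
  have hV : IsAb 0 V := isAb_zero_iff.2 (H6Basic.isMulCommutative_of_le (isMulCommutative_Z _) h1)
  have hVO : V ≤ pCoreOf 2 ⊤ := h1.trans inf_le_left
  have pV : IsPGroup 2 V := hS.pg.to_le (hVO.trans (pCoreOf_le_syl hS))
  have nW : (omegaOne 2 V).Normal :=
    normal_iff_top_le.2 (norm_of_normal.trans (normalizer_le_normalizer_omegaOne 2 V))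
  have hres : pResidualOf 2 (𝐂 (omegaOne 2 V)) ≤ 𝐂 V := res_le_iff.2 fun x hx ho => by
    have := hV.1
    have h2 := Coprime2.centralizer_inf_commutator (V := V) (A := zpowers x) norm_of_normal (by
      obtain ⟨k, hk⟩ := IsPGroup.iff_card.1 pV
      rw [Nat.card_zpowers, hk]; exact ho.pow_right k)
    have h3 : ⁅V, zpowers x⁆ ≤ V := commutator_le_left_of_norm norm_of_normal
    by_contra hn
    have h4 : ⁅V, zpowers x⁆ ≠ ⊥ := fun e => hn (commutator_eq_bot_iff'.1 e (mem_zpowers x))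
    refine omegaOne_ne_bot (pV.to_le h3) h4 (eq_bot_iff.2 (h2 ▸ le_inf (le_inf
      ((omegaOne_le _ _).trans h3) ?_) (omegaOne_le _ _)))
    exact (omegaOne_mono 2 h3).trans (cent_symm (zpowers_le.2 hx))
  have eW : 𝐂 (omegaOne 2 V) = 𝐂 V := le_antisymm
    ((le_Op le_top norm_of_normal hres).trans hO) (centralizer_anti (omegaOne_le _ _))
  refine ⟨eq_top_iff.2 fun g _ => ?_, ?_⟩
  · obtain ⟨c, hc, x, hx, rfl⟩ := H6NPC.frattini_J (n := 0) hS le_top (norm_ncl (J 0 S) ⊤)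
      (le_ncl _ _) (mem_top g)
    exact mul_mem (mem_sup_left (mem_sup_right hc)) (mem_sup_right hx.2)
  refine or_iff_not_imp_left.2 fun hY => ?_
  obtain ⟨Γ, _, _, ι, κ, m⟩ := exists_mod (omegaOne 2 V)
  have s := m.st (isAb_omegaOne 2 hV.1) (le_top : ncl (J 0 S) ⊤ ≤ ⊤) (norm_ncl _ _)
    (psolv_of_isSolvable inferInstance) (by rw [eW]; exact hO)
  have g : Gen 2 ι.range ((ncl (J 0 S) ⊤).map κ) := by
    refine s.gen_of (le_antisymm (map_le_iff_le_comap.2 (ncl_le_iff.2 fun g _ => ?_))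
      (iSup_le fun A => A.2.1))
    refine (J_cj g 0 S).ge.trans (J_le_iff.2 fun A hA => map_le_iff_le_comap.1 ?_)
    have hAY : A ≤ ncl (J 0 S) ⊤ := (le_J hA).trans ((J_cj g 0 S).le.trans (cj_le_ncl _ (mem_top g)))
    have hVS : V ≤ cj g S := by
      rw [← cj_eq_self_of_normal g V]
      exact cj_mono g (hVO.trans (pCoreOf_le_syl hS))
    have b := m.best (best_sub hV (omegaOne_le 2 V) (best_of_mx hV hVS hA))
    refine le_iSup_of_le ⟨A.map κ, map_mono hAY, b.1, b.2.1, fun a ha => ?_⟩ le_rfl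
    rw [elem s _ _ rfl (map_mono hAY) (hA.2.1.map κ)
      (((isPGroup_cj hS.pg g).to_le hA.1).map κ) b.1 a ha]
    exact one_mem _
  have hk : κ.ker = (𝐂 (S ⊓ 𝐂 S)).normalCore := by rw [m.ker, eW, eC]
  obtain ⟨n, hn, ⟨e⟩⟩ := prod_S3 s g fun e => hY (hk ▸ (Subgroup.map_eq_bot_iff _).1 e)
  refine ⟨n, hn, ⟨MulEquiv.trans ?_ e⟩⟩
  let f := κ.subgroupMap (ncl (J 0 S) ⊤)
  exact (QuotientGroup.quotientMulEquivOfEq (by
    ext x
    rw [mem_subgroupOf, ← hk, MonoidHom.mem_ker, MonoidHom.mem_ker, Subtype.ext_iff]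
    rfl)).trans (QuotientGroup.quotientKerEquivOfSurjective f (κ.subgroupMap_surjective _))

end Cfsg.Agent.S4302
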