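import Cfsg.Statements.S4305
import Cfsg.Agent.Lib.Solv.HS6

set_option autoImplicit false
open Cfsg

namespace Cfsg.Agent.S4305

open Subgroup CA.HS CA.FpfRed CA.BG

/-- Let the symmetric group of degree 3 act by automorphisms on a finite solvable group `G` of order prime to 6, so that only the identity of `G` is fixed by all of it. Then the derived subgroup of `G` is nilpotent. -/
theorem result {G : Type*} [Group G] [Finite G] [Group.IsSolvable G]
    [MulDistribMulAction (Equiv.Perm (Fin 3)) G] (hcop : (Nat.card G).Coprime 6)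
    (hfpf : ∀ g : G, (∀ a : Equiv.Perm (Fin 3), a • g = g) → g = 1) :
    Group.IsNilpotent ↥(commutator G) := by
  have hA : Nat.card (Equiv.Perm (Fin 3)) = 6 := by simp [Nat.card_eq_fintype_card, Fintype.card_perm]; rfl
  have hi := SemidirectProduct.inl_injective (φ := MulDistribMulAction.toMulAut (Equiv.Perm (Fin 3)) G)
  have h := sym3 (st_sd ‹_› (hA ▸ hcop.symm) hfpf) ⟨SemidirectProduct.inr (finRotate 3),
    SemidirectProduct.inr (Equiv.swap 0 1), by
      rw [← MonoidHom.map_zpowers, ← MonoidHom.map_zpowers, ← Subgroup.map_sup, MonoidHom.range_eq_map]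
      congr 1
      refine eq_top_iff.2 fun g _ => ?_
      obtain ⟨i, j, rfl⟩ := (by decide : ∀ g : Equiv.Perm (Fin 3), ∃ i : Fin 3, ∃ j : Fin 2,
        g = finRotate 3 ^ (i : ℕ) * Equiv.swap 0 1 ^ (j : ℕ)) g
      exact mul_mem_sup (npow_mem_zpowers _ _) (npow_mem_zpowers _ _),
    by rw [← map_pow, show finRotate 3 ^ 3 = 1 by decide, map_one],
    by rw [← map_mul, Equiv.swap_mul_self, map_one],
    by rw [← map_inv, ← map_inv, ← map_mul, ← map_mul]; congr 1; decide⟩
    (by rwa [← Nat.card_congr (MonoidHom.ofInjective hi).toEquiv])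
    ((Subgroup.card_range_dvd _).trans (hA.trans (by norm_num)).dvd)
  have := nil_of_le (fit_nil _) h
  rw [MonoidHom.range_eq_map, ← map_commutator] at this
  exact CA.Core.isNilpotent_of_injective ((commutator G).equivMapOfInjective _ hi).toMonoidHom
    ((commutator G).equivMapOfInjective _ hi).injective this

end Cfsg.Agent.S4305
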