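import Cfsg.Statements.S4309
import Cfsg.Agent.Lib.Odd.BGPi

set_option autoImplicit false
open Cfsg

namespace Cfsg.Agent.S4309

open Subgroup CA.BG

/-- Let `π` be a set of primes, `G` a finite group with a Hall `π`-subgroup `H` (every prime divisor of the order of `H` lies in `π` and no prime of `π` divides its index), and `A` a normal subgroup of `G`. Then `H ∩ A` is a Hall `π`-subgroup of `A` and the image of `H` in `G/A` is a Hall `π`-subgroup of `G/A`. -/
theorem result {G : Type*} [Group G] [Finite G] (π : Set ℕ)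
    (H A : Subgroup G) [A.Normal] (hH : Cfsg.IsPiHall π H) :
    Cfsg.IsPiHall π ((H ⊓ A).subgroupOf A) ∧ Cfsg.IsPiHall π (H.map (QuotientGroup.mk' A)) := by
  have h : Hall π H ⊤ := ⟨le_top, hH.1, by rw [relIndex_top_right]; exact hH.2⟩
  have k := h.inf_normal le_top le_normalizer_of_normal (N := A)
  refine ⟨⟨fun p hp a => k.2.1 p hp (by rwa [← Nat.card_congr (subgroupOfEquivOfLe inf_le_right).toEquiv]), k.2.2⟩,
    fun p hp a => hH.1 p hp (a.trans (card_map_dvd H _)),
    fun p hp a b => hH.2 p hp a (b.trans (H.index_map_dvd (QuotientGroup.mk'_surjective A)))⟩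

end Cfsg.Agent.S4309
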