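import Cfsg.Statements.S4310
import Cfsg.Agent.Lib.Grp.L0FT
import Cfsg.Agent.Lib.Grp.SylIn

set_option autoImplicit false
open Cfsg

namespace Cfsg.Agent.S4310

open Subgroup Pointwise CA.H1Basic Cfsg

theorem hall_of_card {π : Set ℕ} {G : Type*} [Group G] [Finite G] {A : Subgroup G} [A.Normal]
    {H : Subgroup G} (hH : IsPiHall π H) :
    IsPiHall π (H.subgroupOf A) ∧ IsPiHall π (H.map (QuotientGroup.mk' A)) := by
  refine ⟨⟨fun p hp h => hH.1 p hp (h.trans ?_), fun p hp hπ h => hH.2 p hp hπ (h.trans ?_)⟩,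
    ⟨fun p hp h => hH.1 p hp (h.trans ?_), fun p hp hπ h => hH.2 p hp hπ (h.trans ?_)⟩⟩
  · rw [card_subgroupOf_eq_inf]; exact card_dvd_of_le inf_le_left
  · exact relIndex_normal_dvd_index H A
  · exact card_map_dvd _ _
  · exact index_map_dvd _ (QuotientGroup.mk'_surjective A)

/-- Let `π` be a set of primes and `A` a normal subgroup of the finite group `G`. Suppose `A` has a Hall `π`-subgroup and all Hall `π`-subgroups of `A` are conjugate in `A`, and likewise for `G/A`. Then `G` has a Hall `π`-subgroup and all Hall `π`-subgroups of `G` are conjugate. (The conjugacy of complements of coprime order that the usual proof uses rests, in general, on the odd order Theorem.) -/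
theorem result {G : Type*} [Group G] [Finite G] (π : Set ℕ) (A : Subgroup G) [A.Normal]
    (hA : Cfsg.IsCPiGroup π ↥A) (hQ : Cfsg.IsCPiGroup π (G ⧸ A)) : Cfsg.IsCPiGroup π G := by
  classical
  obtain ⟨⟨D₀, hD₀⟩, hAc⟩ := hA
  obtain ⟨⟨L₀, hL₀⟩, hQc⟩ := hQ
  set D : Subgroup G := D₀.map A.subtype with hD
  set L : Subgroup G := L₀.comap (QuotientGroup.mk' A) with hL
  have hDA : D ≤ A := map_subtype_le _
  have hAL : A ≤ L := fun a ha => by
    rw [hL, mem_comap, QuotientGroup.mk'_apply, (QuotientGroup.eq_one_iff a).2 ha]; exact one_mem _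
  have hDs : D.subgroupOf A = D₀ := comap_map_eq_self_of_injective A.subtype_injective D₀
  -- Frattini
  have hfr : ∀ g : G, ∃ a ∈ A, a * g ∈ normalizer (D : Set G) := by
    intro g
    have hg : IsPiHall π ((MulAut.conj g • D).subgroupOf A) := by
      have hle : MulAut.conj g • D ≤ A := fun x hx => by
        have := (inferInstance : A.Normal).conj_mem _ (hDA (mem_conj_smul.1 hx)) g
        simpa [mul_assoc] using this
      have hc : Nat.card ((MulAut.conj g • D).subgroupOf A) = Nat.card D₀ := by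
        rw [card_subgroupOf hle, card_smul, hD, card_map_subtype]
      unfold IsPiHall
      rw [hc, CA.H1Hall.index_eq_of_card_eq hc]; exact hD₀
    obtain ⟨a, ha⟩ := hAc _ _ hg hD₀
    refine ⟨a, a.2, ?_⟩
    rw [← conj_smul_eq_iff_mem_normalizer, conj_mul_smul]
    refine conj_eq_of_subgroupOf (L := A) ?_ hDA a (by rw [hDs, conj_smul_eq_map]; exact ha.symm)
    intro x hx
    have := (inferInstance : A.Normal).conj_mem _ (hDA (mem_conj_smul.1 hx)) g
    simpa [mul_assoc] using this
  set X : Subgroup G := L ⊓ normalizer (D : Set G) with hX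
  have hDX : D ≤ X := le_inf (hDA.trans hAL) le_normalizer
  have hXA : X ⊔ A = L := by
    refine le_antisymm (sup_le inf_le_left hAL) fun g hg => ?_
    obtain ⟨a, ha, h⟩ := hfr g
    have : g = a⁻¹ * (a * g) := by group
    rw [this]
    exact mul_mem (mem_sup_right (inv_mem ha)) (mem_sup_left ⟨mul_mem (hAL ha) hg, h⟩)
  haveI hDn : (D.subgroupOf X).Normal := (normal_subgroupOf_iff_le_normalizer hDX).2 inf_le_right
  have hidx : A.relIndex X = Nat.card L₀ := by
    rw [← card_map_mk_eq_relIndex]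
    have : X.map (QuotientGroup.mk' A) = (X ⊔ A).map (QuotientGroup.mk' A) := by
      rw [Subgroup.map_sup, (Subgroup.map_eq_bot_iff A).2 (by rw [QuotientGroup.ker_mk']), sup_bot_eq]
    rw [this, hXA, hL, map_comap_eq_self_of_surjective (QuotientGroup.mk'_surjective A)]
  have hsep : CA.L0FT.Sep π X := by
    refine CA.L0FT.sep_of_three (D.subgroupOf X) (A.subgroupOf X) ?_ ?_ ?_
    · intro q hq h
      rw [card_subgroupOf hDX, hD, card_map_subtype] at h
      exact hD₀.1 q hq h
    · intro q hq h hπ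
      rw [← inf_subgroupOf_right A X, relIndex_subgroupOf inf_le_right] at h
      refine hD₀.2 q hq hπ (h.trans ?_)
      rw [← hDs]
      exact Dvd.intro _ (relIndex_mul_relIndex D (A ⊓ X) A (le_inf hDA hDX) inf_le_left)
    · intro q hq h
      exact hL₀.1 q hq (hidx ▸ h)
  obtain ⟨H₀, hH₀, hU⟩ := hsep.exists_hall
  set H : Subgroup G := H₀.map X.subtype with hH
  have hHs : H.subgroupOf X = H₀ := comap_map_eq_self_of_injective X.subtype_injective H₀
  have hHall : IsPiHall π H := by
    refine ⟨fun q hq h => hH₀.1 q hq (by rwa [hH, card_map_subtype] at h), fun q hq hπ h => ?_⟩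
    rw [hH, index_map_subtype, ← relIndex_mul_index (inf_le_left : X ≤ L)] at h
    rcases (Nat.Prime.dvd_mul hq).1 h with h | h
    · exact hH₀.2 q hq hπ h
    rcases (Nat.Prime.dvd_mul hq).1 h with h | h
    · have e : X.relIndex L = X.relIndex A := by rw [← relIndex_sup_normal X A, hXA]
      rw [e] at h
      refine hD₀.2 q hq hπ (h.trans ?_)
      rw [← hDs]
      exact relIndex_dvd_of_le_left A hDX
    · rw [hL, index_comap_mk] at h
      exact hL₀.2 q hq hπ h
  refine ⟨⟨H, hHall⟩, CA.L0FT.conj_of_forall hHall fun K hK => ?_⟩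
  obtain ⟨g, hg⟩ := hQc _ _ (hall_of_card (A := A) hK).2 hL₀
  obtain ⟨g, rfl⟩ := QuotientGroup.mk'_surjective A g
  have h1 : MulAut.conj g • K ≤ L := by
    rw [hL, ← map_le_iff_le_comap, map_conj_smul, conj_smul_eq_map, ← hg]
  have hK1 := CA.L0FT.hall_conj hK g
  obtain ⟨a, ha⟩ := hAc _ _ (hall_of_card (A := A) hK1).1 hD₀
  set K2 : Subgroup G := MulAut.conj (a : G) • MulAut.conj g • K with hK2
  have h2 : K2 ≤ L := fun x hx =>
    by simpa [mul_assoc] using mul_mem (mul_mem (hAL a.2) (h1 (mem_conj_smul.1 hx))) (inv_mem (hAL a.2))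
  have h3 : ∀ x, x ∈ D ↔ x ∈ K2 ∧ x ∈ A := by
    intro x
    constructor
    · rintro ⟨y, hy, rfl⟩
      refine ⟨?_, y.2⟩
      rw [ha, ← conj_smul_eq_map, SetLike.mem_coe, mem_conj_smul, mem_subgroupOf] at hy
      exact mem_conj_smul.2 hy
    · rintro ⟨hx, hxA⟩
      refine ⟨⟨x, hxA⟩, ?_, rfl⟩
      rw [ha, ← conj_smul_eq_map, SetLike.mem_coe, mem_conj_smul, mem_subgroupOf]
      exact mem_conj_smul.1 hx
  have h4 : K2 ≤ X := fun k hk => ⟨h2 hk, CA.SylIn.mem_normalizer_of_forall fun x hx =>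
    (h3 _).2 ⟨mul_mem (mul_mem hk ((h3 x).1 hx).1) (inv_mem hk),
      (inferInstance : A.Normal).conj_mem _ ((h3 x).1 hx).2 k⟩⟩
  obtain ⟨y, hy⟩ := hU (K2.subgroupOf X) (fun q hq h => hK.1 q hq (by
    rwa [card_subgroupOf h4, hK2, card_smul, card_smul] at h))
  refine ⟨y * a * g, ?_⟩
  rw [conj_mul_smul, conj_mul_smul]
  exact conj_le_of_subgroupOf h4 y (by rwa [hHs])

end Cfsg.Agent.S4310
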