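import Cfsg.Statements.S4314
import Cfsg.Agent.Lib.Grp.H7Cop2

set_option autoImplicit false
open Cfsg

namespace Cfsg.Agent.S4314

open Subgroup CA.BG CA.H7Ito CA.H7Cop
open scoped IsMulCommutative

/-- Let `G` be a finite group every conjugacy class of which has size 1 or a prime. Then either `G` is nilpotent of class at most 2, or `G/Z(G)` is a non-abelian group of order `pq` for distinct primes `p, q` (a Frobenius group of order `pq`). -/
theorem result {G : Type*} [Group G] [Finite G]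
    (h : ∀ x : G, (Subgroup.centralizer ({x} : Set G)).index = 1 ∨ ((Subgroup.centralizer ({x} : Set G)).index).Prime) :
    Subgroup.upperCentralSeries G 2 = ⊤ ∨
      ∃ p q : ℕ, p.Prime ∧ q.Prime ∧ p ≠ q ∧ Nat.card (G ⧸ Subgroup.center G) = p * q ∧ ¬ IsMulCommutative (G ⧸ Subgroup.center G) := by
  classical
  let S : Finset ℕ := ((Set.toFinite (Set.univ : Set G)).toFinset.image fun x : G => 𝓒₁(x).index).erase 1
  have hS : ∀ k, k ∈ S ↔ k ≠ 1 ∧ ∃ x : G, 𝓒₁(x).index = k := fun k => by simp [S]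
  have hc : commutator G ≤ center G → Subgroup.upperCentralSeries G 2 = ⊤ := fun hc => by
    rw [eq_top_iff]
    intro x _
    rw [Subgroup.mem_upperCentralSeries_succ_iff]
    intro y
    rw [Subgroup.upperCentralSeries_one]
    exact hc (commutator_mem_commutator (mem_top x) (mem_top y))
  by_cases h0 : S.Nonempty
  swap
  · left
    refine hc fun x _ => ind_one.1 ?_
    by_contra h1
    exact h0 ⟨_, (hS _).2 ⟨h1, x, rfl⟩⟩
  obtain ⟨hm1, y, hy⟩ := (hS _).1 (S.max'_mem h0)
  have htop : ∀ z : G, 𝓒₁(z).index ≤ S.max' h0 := fun z => by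
    by_cases hz : 𝓒₁(z).index = 1
    · rw [hz, ← hy]; exact ind_pos y
    · exact S.le_max' _ ((hS _).2 ⟨hz, z, rfl⟩)
  have hmS := S.max'_mem h0
  generalize S.max' h0 = m at hm1 hy htop hmS
  have hm : m.Prime := hy ▸ (h y).resolve_left (hy ▸ hm1)
  by_cases h1 : (S.erase m).Nonempty
  · right
    have hn0 := (S.erase m).max'_mem h1
    have hsec : ∀ z : G, 𝓒₁(z).index < m → 𝓒₁(z).index ≤ (S.erase m).max' h1 := fun z hz => by
      by_cases hz1 : 𝓒₁(z).index = 1
      · obtain ⟨-, x, hx⟩ := (hS _).1 (Finset.mem_of_mem_erase hn0)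
        rw [hz1, ← hx]; exact ind_pos x
      · exact (S.erase m).le_max' _ (Finset.mem_erase.2 ⟨hz.ne, (hS _).2 ⟨hz1, z, rfl⟩⟩)
    generalize (S.erase m).max' h1 = n at hn0 hsec
    obtain ⟨hnm, hnS⟩ := Finset.mem_erase.1 hn0
    obtain ⟨hn1, x, hx⟩ := (hS _).1 hnS
    have hn : n.Prime := hx ▸ (h x).resolve_left (hx ▸ hn1)
    have T : Two G m n := ⟨lt_of_le_of_ne (hx ▸ htop x) hnm, hn.one_lt,
      (Nat.coprime_primes hm hn).2 (Ne.symm hnm), htop, hsec, y, hy⟩
    refine ⟨n, m, hn, hm, hnm, T.index_center hx, fun hab => ?_⟩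
    have hF := (T.frob' hx hy).1
    exact hF.2.1 (by rw [← CA.Frob.normalizer_eq hF, normalizer_eq_top])
  · left
    have h2 : ∀ x : G, 𝓒₁(x).index = 1 ∨ 𝓒₁(x).index = m := fun x => by
      by_contra hx
      push Not at hx
      exact h1 ⟨_, Finset.mem_erase.2 ⟨hx.2, (hS _).2 ⟨hx.1, x, rfl⟩⟩⟩
    have hy' : y ∉ center G := fun e => hm1 (hy ▸ ind_one.2 e)
    obtain ⟨p, k, hp, h3, h4⟩ := exists_part hy'
    haveI := Fact.mk hp
    have h5 : pResidual p G ≤ center G :=
      CA.PRes.pResidual_le_iff.2 fun g hg => central_of_coprime h2 hp h4 h3 hg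
    haveI := (CA.PRes.isPGroup_quotient_pResidual (p := p) (G := G)).isNilpotent
    haveI : Group.IsNilpotent G := Subgroup.isNilpotent_of_ker_le_center (QuotientGroup.mk' (pResidual p G))
      (by rwa [QuotientGroup.ker_mk'])
    refine hc fun g hg => mem_center_iff.2 fun x => ?_
    rcases h2 x with hx | hx
    · exact (mem_center_iff.1 (ind_one.1 hx) g).symm
    · haveI : 𝓒₁(x).Normal := normalizerCondition_of_isNilpotent.normal_of_coatom _
        (CA.PGBasic.isCoatom_of_index_prime hm hx)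
      haveI := Fact.mk hm
      haveI : IsCyclic (G ⧸ 𝓒₁(x)) := isCyclic_of_prime_card hx
      have := Abelianization.commutator_subset_ker (A := G ⧸ 𝓒₁(x)) (QuotientGroup.mk' 𝓒₁(x)) hg
      rw [QuotientGroup.ker_mk'] at this
      exact (mem_c.1 this).symm

end Cfsg.Agent.S4314
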