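import Cfsg.Statements.S4320
import Mathlib.GroupTheory.Transfer
import Mathlib.LinearAlgebra.FreeModule.Finite.CardQuotient
import Mathlib.RepresentationTheory.Basic
import Mathlib.LinearAlgebra.Matrix.Adjugate

set_option autoImplicit false
open Cfsg

namespace Cfsg.Agent.S4320

open Subgroup

theorem core {G : Type*} [Group G] [Finite G] {A : Type*} [CommRing A] (ε : A →+* ℤ) (u : G → A)
    (hu : ∀ g, ε (u g) = 1) {F : Type*} [AddCommGroup F] [Module A F] (d : G → F)
    (hd : ∀ x y, d (x * y) = d x + u x • d y) :
    ∃ μ : A, (∀ g, μ • d g = 0) ∧ (ε μ).natAbs ∣ Nat.card (Abelianization G) := by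
  classical
  haveI := Fintype.ofFinite G
  let W : Submodule A (G → A) := LinearMap.ker (Fintype.linearCombination A d)
  let E : (G → A) →+ (G → ℤ) := ε.toAddMonoidHom.compLeft G
  let L : AddSubgroup (G → ℤ) := W.toAddSubgroup.map E
  have hE : ∀ (x : G) (a : A), E (Pi.single x a) = Pi.single x (ε a) := by
    intro x a
    ext y
    by_cases h : y = x
    · subst h; simp [E]
    · simp [E, h]
  have hL : ∀ x y : G, (Pi.single (x * y) 1 - (Pi.single x 1 + Pi.single y 1) : G → ℤ) ∈ L := by
    intro x y
    refine ⟨Pi.single (x * y) 1 - (Pi.single x 1 + Pi.single y (u x)), ?_, ?_⟩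
    · show _ ∈ W
      simp only [W, LinearMap.mem_ker, map_sub, map_add, Fintype.linearCombination_apply_single,
        one_smul, hd, sub_self]
    · rw [map_sub, map_add, hE, hE, hE, map_one, hu]
  let φ : G →* Multiplicative ((G → ℤ) ⧸ L) := MonoidHom.mk'
    (fun x => Multiplicative.ofAdd (QuotientAddGroup.mk (Pi.single x 1))) (by
      intro x y
      rw [← ofAdd_add, ← QuotientAddGroup.mk_add]
      congr 1
      rw [QuotientAddGroup.eq_iff_sub_mem]
      exact hL x y)
  have hφ : Function.Surjective (Abelianization.lift φ) := by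
    intro q
    obtain ⟨v, hv⟩ := QuotientAddGroup.mk_surjective (Multiplicative.toAdd q)
    have : q = Multiplicative.ofAdd (QuotientAddGroup.mk v) := by rw [hv]; rfl
    subst this
    refine ⟨Abelianization.of (1 : G) * ∏ x : G, Abelianization.of x ^ (v x), ?_⟩
    rw [map_one, one_mul, map_prod]
    simp only [map_zpow, Abelianization.lift_apply_of]
    have h1 : ∀ x : G, φ x ^ (v x) = Multiplicative.ofAdd (QuotientAddGroup.mk' L (Pi.single x (v x))) := by
      intro x
      have : (Pi.single x (v x) : G → ℤ) = v x • (Pi.single x 1 : G → ℤ) := by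
        rw [← Pi.single_smul, smul_eq_mul, mul_one]
      rw [this, map_zsmul, ofAdd_zsmul]
      rfl
    simp only [h1]
    rw [← ofAdd_sum, ← map_sum, Finset.univ_sum_single]
    rfl
  have hdvd : L.index ∣ Nat.card (Abelianization G) := by
    have := card_dvd_of_surjective _ hφ
    exact this
  have hfin : Finite ((G → ℤ) ⧸ L.toIntSubmodule) := by
    have : Finite (Multiplicative ((G → ℤ) ⧸ L)) := Finite.of_surjective _ hφ
    exact this
  have hrk := (Submodule.finiteQuotient_iff L.toIntSubmodule).1 hfin
  rw [Module.finrank_fintype_fun_eq_card] at hrk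
  let bN : Module.Basis G ℤ L.toIntSubmodule :=
    (Module.finBasisOfFinrankEq ℤ L.toIntSubmodule hrk).reindex (Fintype.equivFin G).symm
  have hidx : L.index = ((Pi.basisFun ℤ G).det (fun k => (bN k : G → ℤ))).natAbs :=
    (Submodule.natAbs_det_basis_change (Pi.basisFun ℤ G) L.toIntSubmodule bN).symm
  have hch : ∀ k : G, ∃ a : G → A, a ∈ W ∧ E a = (bN k : G → ℤ) := fun k => (bN k).2
  choose a haW haE using hch
  let M : Matrix G G A := Matrix.of a
  refine ⟨M.det, fun j => ?_, ?_⟩
  · have h1 : ∀ k, ∑ i, M k i • d i = 0 := by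
      intro k
      have := haW k
      simpa [W, M, Fintype.linearCombination_apply] using this
    have h2 : ∑ i, (M.adjugate * M) j i • d i = 0 := by
      simp only [Matrix.mul_apply, Finset.sum_smul, mul_smul]
      rw [Finset.sum_comm]
      simp only [← Finset.smul_sum, h1, smul_zero, Finset.sum_const_zero]
    rw [Matrix.adjugate_mul] at h2
    simpa [Matrix.one_apply, ite_smul] using h2
  · rw [RingHom.map_det]
    rw [Pi.basisFun_det_apply] at hidx
    have : ε.mapMatrix M = Matrix.of (fun k => (bN k : G → ℤ)) := by
      ext k i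
      rw [Matrix.of_apply, ← haE]; rfl
    rw [this, ← hidx]; exact hdvd

theorem norm_kills {G : Type*} [Group G] [Finite G] [Fintype (Abelianization G)]
    {F : Type*} [AddCommGroup F] (ρ : Representation ℤ (Abelianization G) F) (d : G → F)
    (hd : ∀ x y, d (x * y) = d x + ρ (Abelianization.of x) (d y)) (g : G) :
    ∑ γ : Abelianization G, ρ γ (d g) = 0 := by
  classical
  let A := MonoidAlgebra ℤ (Abelianization G)
  letI : Module A F := Module.compHom F ρ.asAlgebraHom.toRingHom
  have hsm : ∀ (a : A) (f : F), a • f = ρ.asAlgebraHom a f := fun _ _ => rfl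
  let ε : A →+* ℤ := (MonoidAlgebra.lift ℤ ℤ (Abelianization G) 1).toRingHom
  have hε : ∀ γ (n : ℤ), ε (MonoidAlgebra.single γ n) = n := by
    intro γ n
    show MonoidAlgebra.lift ℤ ℤ (Abelianization G) 1 (MonoidAlgebra.single γ n) = n
    rw [MonoidAlgebra.lift_single]; simp
  obtain ⟨μ, h1, h2⟩ := core ε (fun x => MonoidAlgebra.single (Abelianization.of x) 1)
    (fun x => hε _ _) (F := F × A)
    (fun x => (d x, MonoidAlgebra.single (Abelianization.of x) 1 - 1)) (by
      intro x y
      ext1
      · simp only [Prod.fst_add, Prod.smul_fst, hsm, Representation.asAlgebraHom_single_one, hd]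
      · have : (MonoidAlgebra.single (Abelianization.of (x * y)) 1 : A) =
            MonoidAlgebra.single (Abelianization.of x) 1 * MonoidAlgebra.single (Abelianization.of y) 1 := by
          rw [MonoidAlgebra.single_mul_single, map_mul, mul_one]
        simp only [Prod.snd_add, Prod.smul_snd, smul_eq_mul, mul_sub, mul_one, this]
        ring)
  have h3 : ∀ γ, μ.coeff γ = μ.coeff 1 := by
    intro γ
    obtain ⟨x, rfl⟩ : ∃ x, Abelianization.of x = γ := QuotientGroup.mk_surjective γ
    have h := congrArg Prod.snd (h1 x)
    simp only [Prod.smul_snd, smul_eq_mul, mul_sub, mul_one, Prod.snd_zero, sub_eq_zero] at h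
    conv_lhs => rw [← h]
    rw [MonoidAlgebra.coeff_mul_single_apply]
    simp
  have h4 : μ = μ.coeff 1 • ∑ γ : Abelianization G, (MonoidAlgebra.single γ 1 : A) := by
    ext γ
    rw [MonoidAlgebra.coeff_smul_apply, MonoidAlgebra.coeff_sum, Finsupp.finset_sum_apply]
    simp [MonoidAlgebra.coeff_single, Finsupp.single_apply, h3 γ]
  have h5 : ε μ = μ.coeff 1 * Nat.card (Abelianization G) := by
    conv_lhs => rw [h4]
    rw [map_zsmul, map_sum]
    simp [hε]
  rw [h5, Int.natAbs_mul, Int.natAbs_natCast] at h2
  have h6 : (μ.coeff 1).natAbs = 1 := by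
    have hpos : 0 < Nat.card (Abelianization G) := Nat.card_pos
    exact Nat.eq_one_of_mul_eq_one_right (n := 1) (by
      have := (Nat.mul_dvd_mul_iff_right hpos).1 (show (μ.coeff 1).natAbs * _ ∣ 1 * _ by simpa using h2)
      simpa using this)
  have h7 := congrArg Prod.fst (h1 g)
  simp only [Prod.smul_fst, Prod.fst_zero] at h7
  rw [h4, hsm, map_zsmul, map_sum] at h7
  simp only [Representation.asAlgebraHom_single_one, LinearMap.smul_apply, LinearMap.sum_apply] at h7
  rcases Int.natAbs_eq_iff.1 h6 with h | h
  · rw [h] at h7; simpa using h7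
  · rw [h] at h7; simpa using h7

/-- The Principal Ideal Theorem of class field theory in its group-theoretic form: for every finite group `G`, the transfer homomorphism from `G` into the abelianization `G'/G''` of its derived subgroup `G'` is the trivial homomorphism. -/
theorem result {G : Type*} [Group G] [Finite G] :
    MonoidHom.transfer (Abelianization.of : ↥(commutator G) →* Abelianization ↥(commutator G)) =
      (1 : G →* Abelianization ↥(commutator G)) := by
  classical
  haveI : Fintype (Abelianization G) := Fintype.ofFinite _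
  let B := Abelianization ↥(commutator G)
  let ρ : Representation ℤ (Abelianization G) (Abelianization G → Additive B) :=
    { toFun := fun γ => LinearMap.funLeft ℤ (Additive B) (fun q => γ⁻¹ * q)
      map_one' := by ext f q; simp
      map_mul' := by intro a b; ext f q; simp [mul_assoc] }
  let T : (commutator G).LeftTransversal := default
  let t : Abelianization G → G := fun q => T.2.leftQuotientEquiv q
  have ht : ∀ q, Abelianization.of (t q) = q := fun q => T.2.leftQuotientEquiv.symm_apply_apply q
  have hmem : ∀ (g : G) (q : Abelianization G),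
      (t q)⁻¹ * (g * t ((Abelianization.of g)⁻¹ * q)) ∈ commutator G := by
    intro g q
    rw [← Abelianization.ker_of, MonoidHom.mem_ker]
    simp [ht]
  let d : G → (Abelianization G → Additive B) := fun g q =>
    Additive.ofMul (Abelianization.of ⟨_, hmem g q⟩)
  have hd : ∀ x y, d (x * y) = d x + ρ (Abelianization.of x) (d y) := by
    intro x y
    ext q
    show Additive.ofMul (Abelianization.of (⟨_, hmem (x * y) q⟩ : commutator G)) =
      Additive.ofMul (Abelianization.of (⟨_, hmem x q⟩ : commutator G)) +
      Additive.ofMul (Abelianization.of (⟨_, hmem y ((Abelianization.of x)⁻¹ * q)⟩ : commutator G))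
    rw [← ofMul_mul, ← map_mul]
    congr 2
    ext
    simp [mul_assoc]
  ext g
  have h := congrFun (norm_kills ρ d hd g) 1
  rw [Finset.sum_apply] at h
  have h2 : ∑ q : Abelianization G, d g q = 0 := by
    refine Eq.trans ?_ h
    refine (Fintype.sum_equiv (Equiv.inv _) _ _ ?_).symm
    intro γ
    simp [ρ]
  rw [MonoidHom.transfer_def _ T, MonoidHom.one_apply]
  have h3 : ∏ q : Abelianization G, Abelianization.of (⟨_, hmem g q⟩ : commutator G) = 1 := by
    have := congrArg Additive.toMul h2
    rw [toMul_sum] at this
    exact this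
  rw [← h3]
  unfold Subgroup.leftTransversals.diff
  letI := (commutator G).fintypeQuotientOfFiniteIndex
  refine Fintype.prod_equiv (show (G ⧸ commutator G) ≃ Abelianization G from Equiv.refl _) _ _ ?_
  intro q
  congr 1
  ext
  simp only [Subgroup.smul_apply_eq_smul_apply_inv_smul, smul_eq_mul]
  congr 2

end Cfsg.Agent.S4320
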