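import Cfsg.Statements.S4323
import Cfsg.Agent.Lib.Solv.Mart1

set_option autoImplicit false
open Cfsg

namespace Cfsg.Agent.S4323

open Subgroup CA.BG SemidirectProduct

/-- Let `q` be a prime and `A` a non-cyclic group of order `q²` acting by automorphisms on a finite group `G` of order prime to `q`, such that the fixed-point subgroup `C_G(a)` is abelian for every non-identity `a ∈ A`. Then `G` is solvable. -/
theorem result {A G : Type*} [Group A] [Finite A]
    [Group G] [Finite G] [MulDistribMulAction A G] (q : ℕ) (hq : q.Prime) (hA : Nat.card A = q ^ 2) (hnc : ¬ IsCyclic A)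
    (hcop : ¬ q ∣ Nat.card G) (h : ∀ a : A, a ≠ 1 → IsMulCommutative ↥(FixedPoints.subgroup (Subgroup.zpowers a) G)) :
    Group.IsSolvable G := by
  haveI : Finite (G ⋊[MulDistribMulAction.toMulAut A G] A) := Finite.of_equiv _ SemidirectProduct.equivProd.symm
  have eA := MonoidHom.ofInjective (inr_injective (φ := MulDistribMulAction.toMulAut A G))
  have eG := MonoidHom.ofInjective (inl_injective (φ := MulDistribMulAction.toMulAut A G))
  have hn : (inl : G →* G ⋊[MulDistribMulAction.toMulAut A G] A).range.Normal := by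
    rw [SemidirectProduct.range_inl_eq_ker_rightHom]; infer_instance
  have h1 := (Nat.card_congr eA.toEquiv).symm.trans hA
  refine CA.Core.isSolvable_of_equiv eG.symm (CA.Mart.solv_of_ab hq _ rfl
    ((p2group_cyclic_or_El hq h1).resolve_left fun hc => hnc (eA.isCyclic.2 hc))
    le_normalizer_of_normal ?_ fun X hX => ?_)
  · rw [h1, ← Nat.card_congr eG.toEquiv]
    exact ((Nat.Prime.coprime_iff_not_dvd hq).2 hcop).symm.pow_right 2
  · have h0 : X ≠ ⊥ := fun e => hq.one_lt.ne' (by rw [← hX.2, e, card_bot])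
    obtain ⟨⟨x, hx⟩, h2⟩ := ne_bot_iff_exists_ne_one.1 h0
    obtain ⟨a, rfl⟩ := hX.1 hx
    have h3 := h a fun e => h2 (by simp [e])
    have h4 : ∀ g : G, (inl g : G ⋊[MulDistribMulAction.toMulAut A G] A) ∈ 𝓒(X) →
        g ∈ FixedPoints.subgroup (zpowers a) G := fun g hg => by
      have h5 : a • g = g := by simpa using congrArg SemidirectProduct.left (hg _ hx)
      rintro ⟨b, hb⟩
      exact (zpowers_le.2 (show a ∈ MulAction.stabilizer A g from h5) hb :)
    refine comm_iff_le_cent.2 ?_
    rintro _ ⟨⟨g, rfl⟩, hg⟩ _ ⟨⟨g', rfl⟩, hg'⟩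
    rw [← map_mul, ← map_mul]
    exact congrArg (fun x : FixedPoints.subgroup (zpowers a) G => inl (x : G))
      (h3.is_comm.comm ⟨_, h4 _ hg'⟩ ⟨_, h4 _ hg⟩)

end Cfsg.Agent.S4323
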