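import Cfsg.Statements.S4422
import Mathlib.RingTheory.RootsOfUnity.PrimitiveRoots
import Mathlib.FieldTheory.Finite.Basic

set_option autoImplicit false
open Cfsg

namespace Cfsg.Agent.S4422

/-- Primitive divisors of `q^e - 1` are congruent to 1 modulo `e`. Let `q ≥ 2` and `e ≥ 1` be natural numbers and let `m` be a divisor of `q^e - 1` that is coprime to `q^i - 1` for every `1 ≤ i < e` (so `m` divides the primitive part of `q^e - 1`, the largest such divisor). Then `m ≡ 1 (mod e)`. -/
theorem result (q e m : ℕ) (hq : 2 ≤ q) (he : 1 ≤ e)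
    (hm : m ∣ q ^ e - 1) (hcop : ∀ i : ℕ, 1 ≤ i → i < e → Nat.Coprime m (q ^ i - 1)) :
    m % e = 1 % e := by
  have hq1 : 1 < q ^ e := Nat.one_lt_pow (by omega) (by omega)
  have hm0 : m ≠ 0 := by
    rintro rfl
    have := Nat.eq_zero_of_zero_dvd hm
    omega
  have key : ∀ r : ℕ, r.Prime → r ∣ m → r ≡ 1 [MOD e] := by
    intro r hr hrm
    haveI := Fact.mk hr
    have h1 : ∀ i : ℕ, r ∣ q ^ i - 1 ↔ (q : ZMod r) ^ i = 1 := fun i => by
      have : 1 ≤ q ^ i := Nat.one_le_pow _ _ (by omega)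
      rw [← ZMod.natCast_eq_zero_iff, Nat.cast_sub this, sub_eq_zero]
      simp
    have he1 : (q : ZMod r) ^ e = 1 := (h1 e).1 (hrm.trans hm)
    have hq0 : (q : ZMod r) ≠ 0 := by
      intro h0
      rw [h0, zero_pow (by omega)] at he1
      exact zero_ne_one he1
    have ho : orderOf (q : ZMod r) = e := by
      refine (orderOf_eq_iff (by omega)).2 ⟨he1, fun i hi hi0 hi1 => ?_⟩
      have := Nat.Coprime.eq_one_of_dvd (Nat.Coprime.coprime_dvd_left hrm (hcop i hi0 hi)) ((h1 i).2 hi1)
      exact hr.ne_one this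
    have hd : e ∣ r - 1 := ho ▸ orderOf_dvd_of_pow_eq_one (ZMod.pow_card_sub_one_eq_one hq0)
    exact ((Nat.modEq_iff_dvd' hr.one_le).2 hd).symm
  clear hm hcop
  change m ≡ 1 [MOD e]
  induction m using Nat.recOnMul with
  | zero => exact absurd rfl hm0
  | one => rfl
  | prime r hr => exact key r hr dvd_rfl
  | mul a b ha hb =>
    have := (ha (left_ne_zero_of_mul hm0) fun r hr h => key r hr (h.mul_right b)).mul
      (hb (right_ne_zero_of_mul hm0) fun r hr h => key r hr (h.mul_left a))
    simpa using this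

end Cfsg.Agent.S4422
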