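import Cfsg.Statements.S4424
import Cfsg.Agent.Lib.Block.H11Contrib

set_option autoImplicit false
open Cfsg

namespace Cfsg.Agent.S4424

open CA.H11Contrib CA.BlkVal CA.BlkCore CA.BlkHeight CA.BlkReg CA.H12Orth CA.H13Span CChar.CharFun CChar.CharOrth CChar.CharGen CChar.CharInt

/-- Let χ be an irreducible character of the finite group G lying in the p-block B (relative to a maximal ideal M of the algebraic integers containing p), and let p^a be the p-part of the order of G. Then the class function that equals p^a · χ on the p-regular elements and vanishes on the p-singular elements is an integer combination of the irreducible characters in B: there are integers a_ψ, zero for ψ outside B, with that function equal to Σ a_ψ ψ. -/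
theorem result {G : Type*} [Group G] [Finite G] (p : ℕ) [Fact p.Prime] (M : Ideal Cfsg.AlgInt) (hM : Cfsg.IsPModular p M) (B : Set (Cfsg.IrrCharacter G)) (hB : Cfsg.IsPBlock M B) (χ : Cfsg.IrrCharacter G) (hχ : χ ∈ B) : ∃ a : Cfsg.IrrCharacter G → ℤ, (∀ ψ, ψ ∉ B → a ψ = 0) ∧ (fun x : G => if p ∣ orderOf x then (0 : ℂ) else ((p ^ (Nat.card G).factorization p : ℕ) : ℂ) * (χ : G → ℂ) x) = fun x => ∑ᶠ ψ : Cfsg.IrrCharacter G, (a ψ : ℂ) * (ψ : G → ℂ) x := by
  classical
  haveI := Fintype.ofFinite G
  have h1 := (inSpan_pReg hM (isSat_of_isPBlock hM hB) (inSpan_irr hχ)).smul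
    ((p : ℂ) ^ (Nat.card G).factorization p)
  obtain ⟨n, hn, h2⟩ := gen_exists_int_coeffs (gen_pReg hM.1 (gen_of_irr χ.2))
  refine ⟨n, fun ψ hψ => Int.cast_injective (α := ℂ) (by rw [← hn, h1.2 ψ hψ, Int.cast_zero]), ?_⟩
  rw [tilde_eq, Nat.cast_pow, h2]
  funext x
  rw [finsum_irr, Finset.sum_apply]
  rfl

end Cfsg.Agent.S4424
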