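import Cfsg.Statements.S4425
import Cfsg.Agent.Lib.Block.H11Contrib

set_option autoImplicit false
open Cfsg

namespace Cfsg.Agent.S4425

open CA.H11Contrib CA.BlkVal CA.BlkCore CA.BlkHeight CA.BlkReg CA.H12Orth CA.H13Span CChar.CharFun CChar.CharOrth CChar.CharGen CChar.CharInt

/-- Let χ be an irreducible character of the finite group G, p a prime, p^a the p-part of the order of G and p^b the p-part of the degree χ(1). Let χ̃ be the class function equal to p^a · χ on p-regular elements and zero on p-singular elements. Then p^(−b) · χ̃ is a generalized character of G, while p^(−(b+1)) · χ̃ is not. -/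
theorem result {G : Type*} [Group G] [Finite G] (p : ℕ) [Fact p.Prime] (χ : Cfsg.IrrCharacter G) : Cfsg.IsGeneralizedCharacter G (fun x : G => if p ∣ orderOf x then (0 : ℂ) else ((p ^ ((Nat.card G).factorization p - (Cfsg.charDegree (χ : G → ℂ)).factorization p) : ℕ) : ℂ) * (χ : G → ℂ) x) ∧ ¬ Cfsg.IsGeneralizedCharacter G (fun x : G => if p ∣ orderOf x then (0 : ℂ) else ((p ^ (Nat.card G).factorization p : ℕ) : ℂ) / ((p ^ ((Cfsg.charDegree (χ : G → ℂ)).factorization p + 1) : ℕ) : ℂ) * (χ : G → ℂ) x) := by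
  classical
  haveI := Fintype.ofFinite G
  have hp : p.Prime := Fact.out
  have hp0 : (p : ℂ) ≠ 0 := Nat.cast_ne_zero.2 hp.ne_zero
  obtain ⟨M, hM⟩ := exists_isPModular hp
  obtain ⟨e, he⟩ := Nat.exists_eq_add_of_le (factorization_degree_le χ p)
  have hv : ∀ ψ : IrrCharacter G, v M ((p : ℂ) ^ (Nat.card G).factorization p * mm p χ ψ) =
      v M (p : ℂ) ^ (charDegree χ.1).factorization p *
        v M (CA.BlkOmega.omega χ.1 (sR p G ψ.1)) := fun ψ => by
    rw [mm_symm, mm_def, v_pow_mul_inner hM, v_irr_one hM]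
  rw [tilde_eq, tilde_eq]
  constructor
  · refine gen_of_inner_int (classFun_smul _ (classFun_pRegularPart (irr_classFun χ.2)))
      fun ψ hψ => ?_
    obtain ⟨n, hn⟩ := exists_int_mm hp χ ⟨ψ, hψ⟩
    obtain ⟨m, rfl⟩ : (p : ℤ) ^ (charDegree χ.1).factorization p ∣ n := by
      rw [pow_dvd_iff_v_le hM, ← hn, hv]
      exact mul_le_of_le_one_right' (mem_O_iff.1 (omega_sR_mem_O (char_of_irr hψ) χ))
    refine ⟨m, mul_left_cancel₀ (pow_ne_zero ((charDegree χ.1).factorization p) hp0) ?_⟩
    rw [CChar.CharFun.inner_smul_left, he, Nat.add_sub_cancel_left, Nat.cast_pow, ← mul_assoc,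
      ← pow_add, ← he]
    exact hn.trans (by push_cast; rfl)
  · intro h
    have hB := isPBlock_blockOf (M := M) χ
    have hχ := self_mem_blockOf hM χ
    obtain ⟨ψ, hψ, h0⟩ := exists_height_zero (p := p) ⟨χ, hχ⟩
    obtain ⟨n, hn⟩ := inner_gen_gen h (gen_of_irr ψ.2)
    have h1 := hv ψ
    rw [(v_omega_sR_eq_one_iff hM hB hχ).2 ⟨hψ, h0⟩, mul_one] at h1
    have h2 : (p : ℂ) ^ (Nat.card G).factorization p * mm p χ ψ =
        ((p ^ ((charDegree χ.1).factorization p + 1) * n : ℤ) : ℂ) := by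
      push_cast
      rw [← hn, CChar.CharFun.inner_smul_left, mm_def]
      push_cast
      field_simp
    rw [h2] at h1
    exact ((pow_succ_dvd_iff_v_lt hM).1 (dvd_mul_right _ n)).ne h1

end Cfsg.Agent.S4425
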