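import Cfsg.Statements.S4429
import Cfsg.Agent.Lib.Block.H28M11
-- import your own Cfsg.Agent.* helpers here

set_option autoImplicit false
open Cfsg

namespace Cfsg.Agent.S4429

open CA.H28M11 CChar.CharOrth

/-- Let G be a simple group of order 7920. Then G has exactly ten irreducible complex characters, and their degrees, listed with multiplicity, are 1, 10, 10, 10, 11, 16, 16, 44, 45, 55: for every natural number n, the number of irreducible characters of degree n is 1 if n ∈ {1, 11, 44, 45, 55}, 3 if n = 10, 2 if n = 16, and 0 otherwise. -/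
theorem result {G : Type*} [Group G] [Finite G] [IsSimpleGroup G] (hG : Nat.card G = 7920) : Nat.card (Cfsg.IrrCharacter G) = 10 ∧ ∀ n : ℕ, Nat.card {χ : Cfsg.IrrCharacter G // Cfsg.charDegree (χ : G → ℂ) = n} = (if n = 1 ∨ n = 11 ∨ n = 44 ∨ n = 45 ∨ n = 55 then 1 else if n = 10 then 3 else if n = 16 then 2 else 0) := by
  classical
  obtain ⟨a, b, c, f, ψ, ψ', α, β, γ, T⟩ := exists_Tab hG
  refine ⟨?_, fun n => ?_⟩
  · rw [Nat.card_eq_fintype_card, Fintype.card_eq_sum_ones, T.sum]
  · rw [Nat.card_eq_fintype_card, Fintype.card_subtype, Finset.card_filter, T.sum,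
      CA.H28Br2.degree_one, T.da, T.db, T.dc, T.df, T.dψ, T.dψ', T.dα, T.dβ, T.dγ]
    split_ifs <;> omega

end Cfsg.Agent.S4429
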