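import Cfsg.Statements.S4430
import Cfsg.Agent.Lib.Block.H11Contrib
import Cfsg.Agent.Lib.Char.MatRep

set_option autoImplicit false
open Cfsg

namespace Cfsg.Agent.S4430

open CA.H11Contrib CA.BlkAlg CA.BlkVal CA.BlkOmega CA.BlkRed CA.BlkCore CA.BlkHeight CA.BlkReg CA.H12Orth CA.H13Span CChar.CharFun CChar.CharOrth CChar.CharGen CChar.CharInt

/-- Let H be a subgroup of the finite group G, b a block of H whose induced block B₀ in G is defined (relative to a maximal ideal M of the algebraic integers containing p), and ξ ∈ b. For a block B of G let n_B be the value at 1 of the B-part of the induced character ξ^G (a natural number: the sum over χ ∈ B of the multiplicity of χ in ξ^G times χ(1)). Then for B = B₀ the exact power of p dividing n_B equals the exact power of p dividing ξ^G(1), while for every other block B either n_B = 0 or n_B is divisible by a strictly higher power of p than ξ^G(1). -/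
theorem result {G : Type*} [Group G] [Fintype G] (p : ℕ) [Fact p.Prime] (M : Ideal Cfsg.AlgInt) (hM : Cfsg.IsPModular p M) (H : Subgroup G) [Fintype H] (b : Set (Cfsg.IrrCharacter H)) (B₀ : Set (Cfsg.IrrCharacter G)) (hind : Cfsg.IsInducedBlock M H b B₀) (ξ : Cfsg.IrrCharacter H) (hξ : ξ ∈ b) : (∃ n : ℕ, Cfsg.blockPart B₀ (Cfsg.indFun H (ξ : H → ℂ)) 1 = (n : ℂ) ∧ n ≠ 0 ∧ n.factorization p = (Cfsg.charDegree (Cfsg.indFun H (ξ : H → ℂ))).factorization p) ∧ ∀ B : Set (Cfsg.IrrCharacter G), Cfsg.IsPBlock M B → B ≠ B₀ → ∃ n : ℕ, Cfsg.blockPart B (Cfsg.indFun H (ξ : H → ℂ)) 1 = (n : ℂ) ∧ (n = 0 ∨ (Cfsg.charDegree (Cfsg.indFun H (ξ : H → ℂ))).factorization p < n.factorization p) := by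
  classical
  have hc := CA.MatRep.isCharacter_indFun H (char_of_irr ξ.2)
  obtain ⟨m, hm, -⟩ := char_exists_nat_coeffs hc
  have hd : ((charDegree (indFun H ξ.1) : ℕ) : ℂ) = H.index * ξ.1 1 := by
    rw [← char_apply_one_eq hc, CA.Ind.indFun_one]
  have hd0 : ((charDegree (indFun H ξ.1) : ℕ) : ℂ) ≠ 0 := by
    rw [hd]
    exact mul_ne_zero (Nat.cast_ne_zero.2 Subgroup.index_ne_zero_of_finite)
      (irr_apply_one_ne_zero ξ.2)
  have key : ∀ B : Set (IrrCharacter G), IsPBlock M B → ∃ n : ℕ,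
      blockPart B (indFun H ξ.1) 1 = n ∧ (n : ℂ) / charDegree (indFun H ξ.1) ∈ O M ∧
      res M ((n : ℂ) / charDegree (indFun H ξ.1)) = lam M ξ.1 (trunc H (eB M B)) := fun B hB => by
    have h1 : blockPart B (indFun H ξ.1) 1 = (∑ χ with χ ∈ B, m χ * charDegree χ.1 : ℕ) := by
      rw [blockPart_eq_sum]
      push_cast
      exact Finset.sum_congr rfl fun χ _ => by rw [hm, irr_apply_one_eq χ.2]
    have h2 : omega ξ.1 (trunc H (fB B)) =
        (∑ χ with χ ∈ B, m χ * charDegree χ.1 : ℕ) / charDegree (indFun H ξ.1) := by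
      rw [omega_trunc_fB, hd, ← h1, blockPart_eq_sum]
      congr 1
      exact Finset.sum_congr rfl fun χ _ => by rw [CA.Ind.inner_ind_left H _ (irr_classFun χ.2)]
    refine ⟨_, h1, ?_, ?_⟩
    · rw [← h2]
      exact omega_mem_O ξ (trunc_mem_Z (mem_fixed_of_mem_Z (fB_mem_Z B) H)) (trunc_mem_OG H (fB_mem_OG hM hB))
    · rw [lam_trunc_eB H ξ (isSat_of_isPBlock hM hB), h2]
  constructor
  · obtain ⟨n, h1, -, h3⟩ := key B₀ hind.2.1
    rw [CA.BlkInd.lam_trunc_eB_eq_one hM hind hξ] at h3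
    have h4 := (v_div_eq_one_iff hd0).1 (v_eq_one_of_res_ne_zero (h3 ▸ one_ne_zero))
    have h5 : n ≠ 0 := by
      rintro rfl
      simp at h3
    exact ⟨n, h1, h5, (v_natCast_eq_iff hM h5 (Nat.cast_ne_zero.1 hd0)).1 h4⟩
  · intro B hB hne
    obtain ⟨n, h1, h2, h3⟩ := key B hB
    rw [CA.BlkInd.lam_trunc_eB_eq_zero hM hind hξ hB hne, res_eq_zero_iff h2,
      v_div_lt_one_iff hd0] at h3
    exact ⟨n, h1, or_iff_not_imp_left.2 fun h5 =>
      (v_natCast_lt_iff hM h5 (Nat.cast_ne_zero.1 hd0)).1 h3⟩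

end Cfsg.Agent.S4430
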