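import Cfsg.Statements.S4431
import Cfsg.Agent.Lib.Block.H11Contrib

set_option autoImplicit false
open Cfsg

namespace Cfsg.Agent.S4431

open CA.H11Contrib CA.BlkAlg CA.BlkVal CA.BlkOmega CA.BlkRed CA.BlkCore CA.BlkHeight CA.BlkReg CA.H12Orth CA.H13Span CChar.CharFun CChar.CharOrth CChar.CharGen CChar.CharInt

/-- Let H be a subgroup of the finite group G and b a block of H whose induced block B₀ in G is defined (relative to a maximal ideal M of the algebraic integers containing p). Let χ be an irreducible character of G, ψ ∈ b, and let η be the class function on H equal to p^a · χ on the p-regular elements of H and zero elsewhere, p^a being the p-part of the order of H. Then (a) if χ ∉ B₀, the number [η, ψ]/ψ(1) lies in the local ideal at M; (b) if χ ∈ B₀ has height zero, it does not. -/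
theorem result {G : Type*} [Group G] [Fintype G] (p : ℕ) [Fact p.Prime] (M : Ideal Cfsg.AlgInt) (hM : Cfsg.IsPModular p M) (H : Subgroup G) [Fintype H] (b : Set (Cfsg.IrrCharacter H)) (B₀ : Set (Cfsg.IrrCharacter G)) (hind : Cfsg.IsInducedBlock M H b B₀) (χ : Cfsg.IrrCharacter G) (ψ : Cfsg.IrrCharacter H) (hψ : ψ ∈ b) : (χ ∉ B₀ → Cfsg.MemLocalIdeal M (Cfsg.classInner (fun h : H => if p ∣ orderOf h then (0 : ℂ) else ((p ^ (Nat.card H).factorization p : ℕ) : ℂ) * (χ : G → ℂ) h) (ψ : H → ℂ) / (ψ : H → ℂ) 1)) ∧ (χ ∈ B₀ → Cfsg.blockHeight p B₀ (χ : G → ℂ) = 0 → ¬ Cfsg.MemLocalIdeal M (Cfsg.classInner (fun h : H => if p ∣ orderOf h then (0 : ℂ) else ((p ^ (Nat.card H).factorization p : ℕ) : ℂ) * (χ : G → ℂ) h) (ψ : H → ℂ) / (ψ : H → ℂ) 1)) := by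
  have hB := hind.2.1
  have h0 : (Nat.card H : ℂ) ≠ 0 := Nat.cast_ne_zero.2 Nat.card_pos.ne'
  have hc := char_restrict (char_of_irr χ.2) H
  have hu : v M (((p ^ (Nat.card H).factorization p : ℕ) : ℂ) / Nat.card H) = 1 := by
    rw [v_div_eq_one_iff h0, v_card hM, Nat.cast_pow, map_pow]
  obtain ⟨θ, hθ⟩ := block_nonempty hM hB
  have key : MemLocalIdeal M (classInner (fun h : H => if p ∣ orderOf h then (0 : ℂ) else
      ((p ^ (Nat.card H).factorization p : ℕ) : ℂ) * (χ : G → ℂ) h) ψ.1 / ψ.1 1) ↔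
      lam M θ.1 (sK p M χ.1) = 0 := by
    obtain ⟨n, hn⟩ := inner_gen_gen (gen_pReg hM.1 (gen_of_char hc)) (gen_of_irr ψ.2)
    rw [tilde_eq _ fun h : H => χ.1 h, memLocalIdeal_iff hM (isAlgebraic_div
        (by rw [Nat.cast_pow, hn]; exact isAlgebraic_int n) (isAlgebraic_irr ψ 1)),
      CChar.CharFun.inner_smul_left, inner_pReg_eq, ← CA.BlkInd.lam_trunc_of_isInducedBlock hM hind hψ hθ
        (sK_mem_Z (irr_classFun χ.2)), CA.BlkInd.trunc_eq_pull,
      pull_sK (φ := H.subtype) Subtype.val_injective]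
    erw [lam_sK hc]
    rw [res_eq_zero_iff (omega_sR_mem_O hc ψ), ← one_mul (v M (omega ψ.1 _)), ← hu, ← map_mul]
    congr! 2
    field_simp [irr_apply_one_ne_zero ψ.2]
  rw [key]
  exact ⟨fun h => by_contra fun h1 => h ((lam_sK_ne_zero_iff hM hB hθ).1 h1).1,
    fun h h1 => (lam_sK_ne_zero_iff hM hB hθ).2 ⟨h, h1⟩⟩

end Cfsg.Agent.S4431
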