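import Cfsg.Statements.S4435
import Cfsg.Agent.Lib.Block.H12FRc

set_option autoImplicit false
open Cfsg

namespace Cfsg.Agent.S4435

open CA.BlkAlg CA.BlkVal CA.BlkCore CA.BlkDefect CA.SylIn CA.BlkInd CA.BlkHeight CA.BlkFirst
  CA.H11Amb CA.H11Def CA.H11Pair CA.H11Brg CA.H12Cover CA.H12Fong CA.H12FR CA.H12Brg CA.H12FRc
  Subgroup

/-- Let N be a normal subgroup of the finite group G, b a block of N (relative to a maximal ideal M of the algebraic integers containing p), and T the stabilizer of b in G (the elements g such that conjugating any member of b by g gives a member of b); N ≤ T. Say that a block of T (or of G) covers b when some member has a constituent in b on restriction to N. Then: (i) every block B′ of T covering b induces a block B of G, B covers b, every ψ ∈ B′ induces to an irreducible character of G, and B consists exactly of the characters induced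 from members of B′; (ii) distinct blocks of T covering b induce distinct blocks of G; (iii) every block of G covering b is induced by some block of T covering b. -/
theorem result {G : Type*} [Group G] [Fintype G] (p : ℕ) [Fact p.Prime] (M : Ideal Cfsg.AlgInt) (hM : Cfsg.IsPModular p M) (N : Subgroup G) [hN : N.Normal] [Fintype N] (b : Set (Cfsg.IrrCharacter N)) (hb : Cfsg.IsPBlock M b) (T : Subgroup G) [Fintype T] (hT : ∀ g : G, g ∈ T ↔ ∀ θ ∈ b, ∀ θ' : Cfsg.IrrCharacter N, (∀ n : N, (θ' : N → ℂ) n = (θ : N → ℂ) ⟨g * n * g⁻¹, hN.conj_mem n n.2 g⟩) → θ' ∈ b) (hNT : N ≤ T) : (∀ B' : Set (Cfsg.IrrCharacter T), Cfsg.IsPBlock M B' → (∃ ψ ∈ B', ∃ θ ∈ b, Cfsg.classInner (fun n : N => (ψ : T → ℂ) ⟨(n : G), hNT n.2⟩) (θ : N → ℂ) ≠ 0) → ∃ B : Set (Cfsg.IrrCharacter G), Cfsg.IsInducedBlock M T B' B ∧ (∃ χ ∈ B, ∃ θ ∈ b, Cfsg.classInner (fun n : N => (χ : G → ℂ) n) (θ : N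 → ℂ) ≠ 0) ∧ (∀ ψ ∈ B', Cfsg.IsIrrCharacter G (Cfsg.indFun T (ψ : T → ℂ))) ∧ ∀ χ : Cfsg.IrrCharacter G, χ ∈ B ↔ ∃ ψ ∈ B', (χ : G → ℂ) = Cfsg.indFun T (ψ : T → ℂ)) ∧ (∀ B'₁ B'₂ : Set (Cfsg.IrrCharacter T), Cfsg.IsPBlock M B'₁ → Cfsg.IsPBlock M B'₂ → (∃ ψ ∈ B'₁, ∃ θ ∈ b, Cfsg.classInner (fun n : N => (ψ : T → ℂ) ⟨(n : G), hNT n.2⟩) (θ : N → ℂ) ≠ 0) → (∃ ψ ∈ B'₂, ∃ θ ∈ b, Cfsg.classInner (fun n : N => (ψ : T → ℂ) ⟨(n : G), hNT n.2⟩) (θ : N → ℂ) ≠ 0) → ∀ B : Set (Cfsg.IrrCharacter G), Cfsg.IsInducedBlock M T B'₁ B → Cfsg.IsInducedBlock M T B'₂ B → B'₁ = B'₂) ∧ (∀ B : Set (Cfsg.IrrCharacter G), Cfsg.IsPBlock M B → (∃ χ ∈ B, ∃ θ ∈ b, Cfsg.classInner (fun n : N => (χ : G → ℂ) n) (θ : N → ℂ) ≠ 0) → ∃ B' : Set (Cfsg.IrrCharacter T), Cfsg.IsPBlock M B' ∧ (∃ ψ ∈ B', ∃ θ ∈ b, Cfsg.classInner (fun n : N => (ψ : T → ℂ) ⟨(n : G), hNT n.2⟩) (θ : N → ℂ) ≠ 0) ∧ Cfsg.IsInducedBlock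 M T B' B) := by
  have hT' := eq_stab hM hb hT
  refine ⟨fun B' hB' h => ?_, fun B₁ B₂ h1 h2 h3 h4 B h5 h6 => ?_, fun B hB h => ?_⟩
  · have h' := (covIn_iff_ab hM hNT hB' hb).1 h
    obtain ⟨B, h1, h2⟩ := exists_ind hM hb hT' hB' h'
    refine ⟨B, h1, (cov_iff_ab hM h1.2.1 hb).2 (h2.trans_ne (blk_ab hM hB').ne),
      fun ψ hψ => irr_ind hM hb hT' hB' h' hψ, fun χ => ⟨exists_eq_ind hM hb hT' h' h1, ?_⟩⟩
    rintro ⟨ψ, hψ, h3⟩
    convert ind_mem hM h1 hψ (irr_ind hM hb hT' hB' h' hψ)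
  · exact ab_inj hM h1 h2
      (((ind_iff hM hb hT' h1 ((covIn_iff_ab hM hNT h1 hb).1 h3) h5.2.1).1 h5).symm.trans
        ((ind_iff hM hb hT' h2 ((covIn_iff_ab hM hNT h2 hb).1 h4) h5.2.1).1 h6))
  · obtain ⟨B', h1, h2, h3, -⟩ := exists_ind' hM hb hT' hB ((cov_iff_ab hM hB hb).1 h)
    exact ⟨B', h1, (covIn_iff_ab hM hNT h1 hb).2 h2, h3⟩

end Cfsg.Agent.S4435
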