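import Cfsg.Statements.S4437
import Cfsg.Agent.Lib.Block.H12Brg

set_option autoImplicit false
open Cfsg

namespace Cfsg.Agent.S4437

open CA.BlkAlg CA.BlkVal CA.BlkCore CA.BlkDefect CA.SylIn CA.BlkInd CA.BlkHeight CA.BlkFirst
  CA.H11Amb CA.H11Def CA.H11Pair CA.H11Brg CA.H12Cover CA.H12Fong CA.H12FR CA.H12Brg Subgroup

/-- Let P be a p-subgroup of the finite group G, H = P·C_G(P), and b a block of H (relative to a maximal ideal M of the algebraic integers containing p) having P as a defect group; let B be the block of G induced by b. Let T be the stabilizer of b in N_G(P): the elements g of N_G(P) such that the g-conjugate of every member of b is again a member of b. Then B has defect group P if and only if p does not divide the index of H in T. -/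
theorem result {G : Type*} [Group G] [Fintype G] (p : ℕ) [Fact p.Prime] (M : Ideal Cfsg.AlgInt) (hM : Cfsg.IsPModular p M) (P : Subgroup G) (hP : IsPGroup p P) (H : Subgroup G) [Fintype H] (hH : H = P ⊔ Subgroup.centralizer (P : Set G)) (b : Set (Cfsg.IrrCharacter H)) (hb : Cfsg.IsPBlock M b) (hbP : Cfsg.IsDefectGroup p M b (P.subgroupOf H)) (B : Set (Cfsg.IrrCharacter G)) (hind : Cfsg.IsInducedBlock M H b B) (T : Subgroup G) (hT : ∀ g : G, g ∈ T ↔ (g ∈ Subgroup.normalizer (P : Set G) ∧ ∀ θ ∈ b, ∀ θ' : Cfsg.IrrCharacter H, (∀ h h' : H, (h' : G) = g * h * g⁻¹ → (θ' : H → ℂ) h' = (θ : H → ℂ) h) → θ' ∈ b)) : Cfsg.IsDefectGroup p M B P ↔ ¬ p ∣ H.relIndex T := by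
  have hp := p_eq_zero hM
  have hPH : P ≤ H := hH ▸ le_sup_left
  have hCH : CC P ≤ H := hH ▸ le_sup_right
  have hHN : H ≤ NN P := hH ▸ sup_le le_normalizer (CC_le_NN P)
  have hNH : NN P ≤ NN H := hH ▸ (le_inf le_rfl (normalizer_le_normalizer_centralizer P)).trans
    (inf_normalizer_le_normalizer_sup _ _)
  have hB := hind.2.1
  have he := blk_ab hM hb
  have hpr : Pr p ⊤ P (ab M H b) := ⟨le_top, hP, by
    rw [top_inf_eq]
    exact Blk.of_sup_CC hCH (hH.le.trans (sup_comm _ _).le) le_rfl he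
      (br_eq_self_iff.1 (he.br_eq_self hp hP hPH hHN))⟩
  obtain rfl : T = St ⊤ P (ab M H b) := by
    ext g
    rw [hT, St, top_inf_eq, mem_inf]
    refine and_congr_right fun hg => ?_
    have h1 := stabilizesBlock_iff hM hb (x := g)
    rw [StabilizesBlock, and_iff_right (hNH hg), and_iff_right (hNH hg)] at h1
    rw [mem_stab, ← h1]
    constructor
    · intro h θ hθ
      have := CChar.CharFun.irr_comp_mulEquiv θ.2
        ((MulAut.conj g⁻¹).subgroupMap H |>.trans (MulEquiv.subgroupCongr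
        (conj_eq_of_mem_normalizer (inv_mem (hNH hg)))))
      refine ⟨⟨_, this⟩, h θ hθ _ ?_, ?_⟩ <;>
      · intro x y hxy
        refine congrArg θ.1 (Subtype.ext ?_)
        change g⁻¹ * y * g⁻¹⁻¹ = x
        rw [hxy]; group
    · intro h θ hθ θ' h'
      obtain ⟨θ'', h3, h4⟩ := h θ hθ
      convert h3
      ext y
      have hy : g⁻¹ * y * g ∈ H := inv_conj_mem_of_mem_normalizer (hNH hg) y.2
      rw [h' ⟨_, hy⟩ y (by group), h4 ⟨_, hy⟩ y (by group)]
  have h1 := (isInducedBlock_iff_ab hM hP hPH hCH hHN hb hB).1 hind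
  have hHT : H ≤ St ⊤ P (ab M H b) :=
    le_inf (le_inf le_top hHN) (mem_fixed_iff_le.1 he.fixed)
  rw [isDefectGroup_iff_top hM hB, ← isDef_iff_not_dvd hp hHT
    ((inf_le_left.trans inf_le_right).trans hNH) he (hpr.blk_St hp)
    ((isDefectGroup_iff_subgroupOf hM hb hPH).1 hbP)]
  exact ⟨hpr.isDef_St hp (blk_eB hM hB) h1, hpr.isDef_of_St hp (blk_eB hM hB) h1⟩

end Cfsg.Agent.S4437
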