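import Cfsg.Statements.S4439
import Cfsg.Agent.Lib.Block.H12Cons
import Cfsg.Agent.Lib.Block.H12FRc
import Cfsg.Agent.Lib.Block.BlkCov
import Cfsg.Agent.Lib.Grp.H12PSolv
import Cfsg.Agent.Lib.Char.Ext

set_option autoImplicit false
open Cfsg

namespace Cfsg.Agent.S4439

open MonoidAlgebra CA.BlkAlg CA.BlkVal CA.BlkOmega CA.BlkRed CA.BlkCore CA.BlkDefect CA.SylIn
  CA.BlkHeight CA.H12Cover CA.H11Amb CA.H11Def CA.H11Pair CA.H11Brg CA.H12Fong CA.H12FR CA.H12Brg
  CA.BlkCov CChar.CharFun CChar.CharOrth CChar.CharInt CChar.CharKer Subgroup CA.H12Cons CA.H12FRc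
  CA.H12PSolv CA.Core CA.Clif

theorem idx {P Q : Type*} [Group P] [Group Q] [Finite P] (e : P ≃* Q) :
    (center P).index = (center Q).index := by
  refine Nat.eq_of_mul_eq_mul_left (Nat.card_pos (α := center P)) ?_
  rw [card_mul_index, Nat.card_congr (centerCongr e).toEquiv, card_mul_index,
    Nat.card_congr e.toEquiv]

theorem deg_le {G : Type*} [Group G] [Finite G] {p : ℕ} [hp : Fact p.Prime] (h : IsPSolvable p G)
    {θ : IrrCharacter (pPrimeCore p G)} (hθ : inertia θ.1 = ⊤) {χ : IrrCharacter G}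
    (hχ : Over _ χ.1 θ.1) {P : Subgroup G} (hP : IsSylowIn p P ⊤) :
    (charDegree χ.1).factorization p + (Nat.card (center P)).factorization p ≤
      (Nat.card G).factorization p := by
  have := Fintype.ofFinite G
  let N := pPrimeCore p G
  have hN : (Nat.card N).Coprime p := coprime_pPrimeCore
  have hC := centralizer_pCore_le (psolv_quotient h N) pPrimeCore_quotient_pPrimeCore
  set K := (centralizer (pCore p (G ⧸ N) : Set (G ⧸ N))).comap (QuotientGroup.mk' N)
  have hNK : N ≤ K := fun n hn => by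
    rw [mem_comap, QuotientGroup.mk'_apply, (QuotientGroup.eq_one_iff n).2 hn]; exact one_mem _
  have := Fintype.ofFinite N
  have := Fintype.ofFinite K
  have := Fintype.ofFinite (N.subgroupOf K)
  obtain ⟨n, hn⟩ := relIndex_pPrimePCore (p := p) (G := G)
  obtain ⟨η, hη, h1⟩ := CA.Ext.exists_ext_le_of_coprime_card hNK θ.2 (hθ ▸ le_top)
    ((hN.pow_right n).coprime_dvd_right (hn ▸ relIndex_dvd_of_le N (comap_mono hC)))
  obtain ⟨κ, hκ, h2, h3⟩ := CA.Cons.exists_irr_between hNK (char_of_irr χ.2) (over_iff.1 hχ)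
  have h4 := congrFun (CA.Gall.res_eq_of_commutator_le (N := N.subgroupOf K) (by
    rw [_root_.commutator_def, commutator_le]
    intro a _ b _
    rw [mem_subgroupOf, ← QuotientGroup.eq_one_iff, ← QuotientGroup.mk'_apply, ← coe_subtype,
      map_commutatorElement, map_commutatorElement, commutatorElement_eq_one_iff_mul_comm]
    exact b.2 _ (hC a.2)) hη hκ ((so_irr_iff hNK).2 θ.2)
    (by rw [← so_res hNK, inner_so hNK, funext h1, inner_irr_self θ.2]; exact one_ne_zero)
    (by rwa [← so_res hNK, inner_so hNK])) 1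
  obtain ⟨e, he, h5⟩ := CA.Ext.exists_dvd_index hκ χ.2 h2
  have h6 : charDegree χ.1 = e * charDegree θ.1 := charDegree_eq (by
    rw [h5, show κ 1 = η 1 from h4, show η 1 = θ.1 1 from h1 1, irr_apply_one_eq θ.2, Nat.cast_mul])
  have hi : K.index ≠ 0 := index_ne_zero_of_finite
  rw [h6, Nat.factorization_mul (ne_zero_of_dvd_ne_zero hi he) (charDegree_pos θ.2).ne',
    Finsupp.add_apply, Nat.factorization_eq_zero_of_not_dvd fun hd =>
      hp.out.coprime_iff_not_dvd.1 hN.symm (hd.trans (charDegree_dvd_card θ.2)), add_zero,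
    ← factorization_index_add K p, ← card_map_of_injective P.subtype_injective]
  refine add_le_add ((Nat.factorization_le_iff_dvd (ne_zero_of_dvd_ne_zero hi he) hi).2 he p)
    (fact_mono ?_)
  rintro _ ⟨z, hz, rfl⟩
  rw [mem_comap, ← map_eq_pCore (hP.inf_of_normal le_top (NN_top_of_normal _))]
  rintro _ ⟨y, hy, rfl⟩
  rw [← map_mul, ← map_mul]
  exact congrArg _ (congrArg Subtype.val (mem_center_iff.1 hz ⟨y, hy.1⟩))

/-- Let G be a finite p-solvable group and B a p-block of G with defect group P (relative to a maximal ideal M of the algebraic integers containing p). Then the height of every irreducible character in B is at most the exponent of p in the index of the centre of P in P. -/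
theorem result {G : Type*} [Group G] [Finite G] (p : ℕ) [Fact p.Prime] (M : Ideal Cfsg.AlgInt) (hM : Cfsg.IsPModular p M) (hsolv : Cfsg.IsPSolvable p G) (B : Set (Cfsg.IrrCharacter G)) (hB : Cfsg.IsPBlock M B) (P : Subgroup G) (hP : Cfsg.IsDefectGroup p M B P) (χ : Cfsg.IrrCharacter G) (hχ : χ ∈ B) : Cfsg.blockHeight p B (χ : G → ℂ) ≤ ((Subgroup.center P).index).factorization p := by
  induction hn : Nat.card G using Nat.strong_induction_on generalizing G with
  | _ n ih =>
  have := Fintype.ofFinite G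
  set N := pPrimeCore p G
  have hN : ¬ p ∣ Nat.card N := hM.1.coprime_iff_not_dvd.1 coprime_pPrimeCore.symm
  have := Fintype.ofFinite N
  obtain ⟨θ, hθ⟩ := exists_under N χ
  have hb := isPBlock_singleton hM hN θ
  have h1 := (cov_iff_ab hM hB hb).1 ⟨χ, hχ, θ, rfl, over_iff.1 hθ⟩
  have he := blk_ab hM hb
  generalize hT : ⊤ ⊓ Stab (ab M N {θ}) = T
  by_cases hT' : T = ⊤
  · subst hT'
    obtain ⟨Q, hQ⟩ := exists_isSylowIn p (pPrimePCore p G)
    have h2 := blk_constrained hM pPrimeCore_le_pPrimePCore le_top (NN_top_of_normal _)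
      (NN_top_of_normal _) hN relIndex_pPrimePCore hQ
      (fun x _ hx _ => centralizer_le_pPrimePCore hsolv hQ hx) he fun g hg => (hT.ge hg).2
    have h3 := isSylowIn_of_isDef (p_eq_zero hM) le_top (NN_top_of_normal _) hN he h2
      (h2.eq_of_mul_ne_zero (blk_eB hM hB) h1 ▸ (isDefectGroup_iff_top hM hB).1 hP)
    have h4 := deg_le hsolv (θ := θ) (inertia_eq_top_iff.2 fun g => congrArg Subtype.val
      ((stab_iff hM hb g).2 (hT.ge (mem_top g)).2 θ rfl (cjI g θ) fun _ => rfl)) hθ h3
    have h5 := blockHeight_add_minNu (p := p) hχ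
    have h6 := factorization_index_add P p
    have h7 := factorization_index_add (center P) p
    rw [minNu_eq_index hM hB hP] at h5
    omega
  · obtain ⟨B', hB', h2, h3, -⟩ := exists_ind' hM hb hT.symm hB h1
    obtain ⟨ψ, hψ, h4⟩ := exists_eq_ind hM hb hT.symm h2 h3 hχ
    obtain ⟨D, hD⟩ := exists_isDefectGroup hM hB'
    obtain ⟨x, rfl⟩ := exists_conj_eq_of_isDefectGroup hM hB
      (isDefectGroup_map hM hb hT.symm h2 h3 hD) hP
    rw [h4, blockHeight_ind hM hb hT.symm h2 h3 hψ, ← idx (conjEquiv x _),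
      ← idx (D.equivMapOfInjective _ T.subtype_injective)]
    exact ih _ (hn ▸ (card_lt_of_lt (lt_top_iff_ne_top.2 hT')).trans_eq card_top) (psolv_subgroup hsolv T)
      B' hB' D hD ψ hψ rfl

end Cfsg.Agent.S4439
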