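import Cfsg.Statements.S4441
import Cfsg.Agent.Lib.Block.H28Prin
-- import your own Cfsg.Agent.* helpers here

set_option autoImplicit false
open Cfsg

namespace Cfsg.Agent.S4441

/-- Let p be an odd prime and G a finite group whose Sylow p-subgroup P has order p; let C = C_G(P), N = N_G(P), e the index of C in N and t = (p − 1)/e; fix a maximal ideal M of the algebraic integers containing p and let B₀ be the principal block. Then B₀ is the disjoint union of a set X of e characters and a set Y of t characters such that: each χ ∈ X has a sign ε_χ with χ(1) ≡ ε_χ (mod p) and χ(x y) = ε_χ for every non-identity x ∈ P and every p-regular y ∈ C; all members of Y agree on the p-regular elements of G; there is one sign ε with θ(1) ≡ ε e (mod p) for every θ ∈ Y; and for every θ ∈ Y and every p-regular g, ε θ(g) = Σ_{χ ∈ X} ε_χ χ(g). -/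
theorem result {G : Type*} [Group G] [Fintype G] (p : ℕ) [Fact p.Prime] (M : Ideal Cfsg.AlgInt) (hM : Cfsg.IsPModular p M) (hodd : p ≠ 2) (P : Sylow p G) (hP : Nat.card P = p) (e : ℕ) (he : (Subgroup.centralizer ((P : Subgroup G) : Set G)).relIndex (Subgroup.normalizer ((P : Subgroup G) : Set G)) = e) : ∃ X Y : Set (Cfsg.IrrCharacter G), Cfsg.principalBlock M G = X ∪ Y ∧ Disjoint X Y ∧ Nat.card X = e ∧ Nat.card Y = (p - 1) / e ∧ ∃ (εX : Cfsg.IrrCharacter G → ℤ) (ε : ℤ), (∀ χ ∈ X, (εX χ = 1 ∨ εX χ = -1) ∧ (Cfsg.charDegree (χ : G → ℂ) : ℤ) ≡ εX χ [ZMOD p] ∧ ∀ x : G, x ∈ (P : Subgroup G) → x ≠ 1 → ∀ y : G, y ∈ Subgroup.centralizer ((P : Subgroup G) : Set G) → ¬ p ∣ orderOf y → (χ : G → ℂ) (x * y) = (εX χ : ℂ)) ∧ (ε = 1 ∨ ε = -1) ∧ (∀ θ ∈ Y, (Cfsg.charDegree (θ : G → ℂ) : ℤ) ≡ ε * (e : ℤ) [ZMOD p]) ∧ (∀ θ ∈ Y, ∀ θ' ∈ Y, ∀ g : G, ¬ p ∣ orderOf g → (θ : G → ℂ) g = (θ' : G → ℂ)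 g) ∧ ∀ θ ∈ Y, ∀ g : G, ¬ p ∣ orderOf g → (ε : ℂ) * (θ : G → ℂ) g = ∑ᶠ χ ∈ X, (εX χ : ℂ) * (χ : G → ℂ) g := by
  classical
  obtain ⟨x, h, hx⟩ := CA.H28Syl.exists_isSylGen_of_sylow P hP
  have hp : p.Prime := Fact.out
  have hC : Subgroup.centralizer ((P : Subgroup G) : Set G) = CA.H28Syl.CC x := by
    rw [hx, CA.H28Syl.centralizer_zpowers]
  have he' : e = CA.H28Syl.ee x := by rw [← he, hC, hx]
  obtain ⟨d⟩ := CA.H28Prin.exists_P1 h
  refine ⟨d.X, d.Y, d.block hM h, Finset.disjoint_coe.2 d.disj, ?_, ?_, d.ε, d.δ,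
    fun χ hχ => ⟨d.hε χ hχ, ?_, fun z hz hz1 y hy hy' => ?_⟩, d.hδ, fun θ hθ => ?_,
    fun θ hθ θ' hθ' g hg => d.Y_agree hθ hθ' hg, fun θ hθ g hg => ?_⟩
  · rw [he', ← d.card_X]; exact Nat.card_eq_finsetCard _
  · rw [he', ← d.card_Y]; exact Nat.card_eq_finsetCard _
  · obtain ⟨s, hs⟩ := d.degX χ hχ
    rw [hs]; exact Int.modEq_iff_dvd.2 ⟨-s, by ring⟩
  · rw [hx] at hz
    obtain ⟨a, rfl⟩ := (CA.H28Syl.mem_zpowers_iff_xp h.ord).1 hz
    exact d.valX χ hχ a (fun h0 => hz1 (by rw [h0, CA.H28Syl.xp_zero])) y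
      (h.mem_VV.2 ⟨hC ▸ hy, hy'⟩)
  · obtain ⟨s, hs⟩ := d.degY θ hθ
    rw [hs, he']; exact Int.modEq_iff_dvd.2 ⟨-s, by ring⟩
  · rw [d.rel θ hθ g hg, finsum_mem_coe_finset]

end Cfsg.Agent.S4441
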