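import Cfsg.Statements.S4442
import Cfsg.Agent.Lib.Block.H28Prin
-- import your own Cfsg.Agent.* helpers here

set_option autoImplicit false
open Cfsg

namespace Cfsg.Agent.S4442

open CA.H28Syl CA.H28Syl2 CA.H28Pat CA.H28Shape CA.H28D1 CA.H28Blk CA.BlkVal CChar.CharInt
  CChar.CharFun in
theorem aux {G : Type*} [Group G] [Finite G] {p : ℕ} [Fact p.Prime] {M : Ideal Cfsg.AlgInt}
    (hM : Cfsg.IsPModular p M) {x : G} (h : IsSylGen p x) {B : Set (Cfsg.IrrCharacter G)}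
    {C : Subgroup G} (hC : C = CC x) {b : Set (Cfsg.IrrCharacter C)}
    (hind : Cfsg.IsInducedBlock M C b B) (θ : Cfsg.IrrCharacter C) (hθ : θ ∈ b)
    (hθP : ∀ y : C, (y : G) ∈ Subgroup.zpowers x → (θ : C → ℂ) y = (θ : C → ℂ) 1) (T : Subgroup G)
    (hT : ∀ g : G, g ∈ T ↔ (g ∈ NN x ∧ ∀ c c' : C, (c' : G) = g * c * g⁻¹ →
      (θ : C → ℂ) c' = (θ : C → ℂ) c)) :
    ∃ (θ' : VV p x → ℂ) (_ : IsIrrCharacter _ θ') (d : D1 h θ'), T = TT h θ' ∧
      charDegree θ' = charDegree θ.1 ∧ B = (d.X : Set _) ∪ d.Y := by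
  classical
  subst hC
  have := Fintype.ofFinite G
  obtain ⟨θ', hθ', hv⟩ := CChar.CharKer.irr_exists_of_surjective (projV h) (projV_surjective h) θ.2
    (fun c hc => by
      rw [CChar.CharKer.mem_charKer (char_of_irr θ.2)]
      obtain ⟨a, v, hv, e⟩ := h.exists_eq_xp_mul c.2
      have h1 : c = ⟨xp x a * (⟨v, hv⟩ : VV p x), xp_mul_mem_CC h a hv⟩ := Subtype.ext e
      rw [MonoidHom.mem_ker, h1, projV_apply] at hc
      apply hθP
      rw [e, show v = 1 from congrArg Subtype.val hc, mul_one]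
      exact xp_mem a)
  have hval : ∀ (c : CC x) (a : ZMod p) (v : VV p x), (c : G) = xp x a * v → θ.1 c = θ' v :=
    fun c a v e => by
      rw [← hv, ← projV_apply h a v]
      exact congrArg _ (congrArg _ (Subtype.ext e))
  have h1 : θ' 1 = θ.1 1 := (hval 1 0 1 (by simp)).symm
  obtain ⟨d, -⟩ := exists_D1 hM h hθ' (CChar.CharOrth.irrOne G)
  refine ⟨θ', hθ', d, ?_, by unfold charDegree; rw [h1], ?_⟩
  · ext g
    rw [hT, mem_TT]
    refine and_congr_right fun hg => ⟨fun H v w e => ?_, fun H c c' e => ?_⟩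
    · rw [← hval ⟨w, h.VV_le w.2⟩ 0 w (by simp), ← hval ⟨v, h.VV_le v.2⟩ 0 v (by simp)]
      exact H _ _ e
    · obtain ⟨a, v, hv', e'⟩ := h.exists_eq_xp_mul c.2
      rw [hval c a ⟨v, hv'⟩ e', hval c' (alpha h.ord ⟨g, hg⟩ * a) ⟨_, conj_mem_VV h hg hv'⟩ (by
        rw [e, e', ← conj_xp h.ord]; simp only; group)]
      exact H _ _ rfl
  · obtain ⟨ψ, hψ, -⟩ := d.exu 1 one_ne_zero
    have ha := (d.mem_iff ψ).1 (Or.inr hψ.1)
    obtain ⟨χ, hχ⟩ := CA.BlkCore.block_nonempty hM hind.2.1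
    have hs : SameBlock M ψ.1 χ.1 := by
      rw [CA.BlkCore.sameBlock_iff_res hM]
      intro g
      have h2 := v_lt_one_of_memLocalIdeal hM (hind.2.2 θ hθ χ hχ g)
      rw [← (res_eq_of_v_sub_lt (isIntegral_mem (isIntegral_centralChar χ.2 g)) h2).2,
        res_centralChar hM h ψ.2 hθ' ha]
      congr 1
      unfold inducedCentralChar wz om
      rw [finsum_mem_eq_finite_toFinset_sum _ (Set.toFinite _), Set.Finite.toFinset_ofPred,
        ← Finset.sum_div, ← Finset.sum_div, h1, Finset.sum_filter, ← Fintype.sum_prod_type']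
      congr 1
      refine Fintype.sum_equiv (prodEquiv h) _ _ fun q => ?_
      rw [hval (prodEquiv h q) q.1 q.2 rfl, coe_prodEquiv]
      beta_reduce
      by_cases hc : IsConj g (xp x q.1 * q.2)
      · rw [classInd_of_isConj hc, if_pos hc, one_mul]
      · rw [classInd_of_not_isConj hc, if_neg hc, zero_mul]
    rw [← blockOf_eq hM h hθ' d ((act_iff_sameBlock hM h hθ' ha χ).2 hs)]
    exact CA.BlkCore.eq_blockOf_of_mem hM hind.2.1 hχ

/-- Blocks of defect one. Let p be an odd prime and G a finite group whose Sylow p-subgroup P has order p; let C = C_G(P) and N = N_G(P), and fix a maximal ideal M of the algebraic integers containing p. Let B be a block of G with defect group P, b a block of C inducing B, and θ the member of b having P in its kernel (there is exactly one). Let T be the stabilizer of θ in N (the elements g ∈ N with θ(g c g⁻¹) = θ(c) for all c ∈ C) and e the index of C in T. Then e divides p − 1 and B contains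 exactly e + (p − 1)/e irreducible characters. Moreover B is the disjoint union of a set X of e characters and a set Y of (p − 1)/e characters such that, with f the index of C in N: every χ ∈ X has χ(1) ≡ ±(f/e)·θ(1) (mod p), there is one sign ε with ψ(1) ≡ ε f θ(1) (mod p) for all ψ ∈ Y, and all members of Y agree on the p-regular elements of G. -/
theorem result {G : Type*} [Group G] [Finite G] (p : ℕ) [Fact p.Prime] (M : Ideal Cfsg.AlgInt) (hM : Cfsg.IsPModular p M) (hodd : p ≠ 2) (P : Sylow p G) (hP : Nat.card P = p) (B : Set (Cfsg.IrrCharacter G)) (hB : Cfsg.IsPBlock M B) (hBP : Cfsg.IsDefectGroup p M B P) (b : Set (Cfsg.IrrCharacter (Subgroup.centralizer ((P : Subgroup G) : Set G)))) (hind : Cfsg.IsInducedBlock M (Subgroup.centralizer ((P : Subgroup G) : Set G)) b B) (θ : Cfsg.IrrCharacter (Subgroup.centralizer ((P : Subgroup G) : Set G))) (hθ : θ ∈ b) (hθP : ∀ x : Subgroup.centralizer ((P : Subgroup G) : Set G),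 (x : G) ∈ (P : Subgroup G) → (θ : Subgroup.centralizer ((P : Subgroup G) : Set G) → ℂ) x = (θ : Subgroup.centralizer ((P : Subgroup G) : Set G) → ℂ) 1) (T : Subgroup G) (hT : ∀ g : G, g ∈ T ↔ (g ∈ Subgroup.normalizer ((P : Subgroup G) : Set G) ∧ ∀ c c' : Subgroup.centralizer ((P : Subgroup G) : Set G), (c' : G) = g * c * g⁻¹ → (θ : Subgroup.centralizer ((P : Subgroup G) : Set G) → ℂ) c' = (θ : Subgroup.centralizer ((P : Subgroup G) : Set G) → ℂ) c)) (e f : ℕ) (he : (Subgroup.centralizer ((P : Subgroup G) : Set G)).relIndex T = e) (hf : (Subgroup.centralizer ((P : Subgroup G) : Set G)).relIndex (Subgroup.normalizer ((P : Subgroup G) : Set G)) = f) : e ∣ p - 1 ∧ Nat.card B = e + (p - 1) / e ∧ ∃ X Y : Set (Cfsg.IrrCharacter G), B = X ∪ Y ∧ Disjoint X Y ∧ Nat.card X = e ∧ Nat.card Y = (p - 1) / e ∧ (∀ χ ∈ X, (Cfsg.charDegree (χ : G → ℂ) : ℤ) ≡ ((f / e * Cfsg.charDegree (θ : Subgroup.centralizer ((P : Subgroup G) : Set G) →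 ℂ) : ℕ) : ℤ) [ZMOD p] ∨ (Cfsg.charDegree (χ : G → ℂ) : ℤ) ≡ -((f / e * Cfsg.charDegree (θ : Subgroup.centralizer ((P : Subgroup G) : Set G) → ℂ) : ℕ) : ℤ) [ZMOD p]) ∧ (∃ ε : ℤ, (ε = 1 ∨ ε = -1) ∧ ∀ ψ ∈ Y, (Cfsg.charDegree (ψ : G → ℂ) : ℤ) ≡ ε * ((f * Cfsg.charDegree (θ : Subgroup.centralizer ((P : Subgroup G) : Set G) → ℂ) : ℕ) : ℤ) [ZMOD p]) ∧ ∀ ψ ∈ Y, ∀ ψ' ∈ Y, ∀ g : G, ¬ p ∣ orderOf g → (ψ : G → ℂ) g = (ψ' : G → ℂ) g := by
  classical
  obtain ⟨x, h, hx⟩ := CA.H28Syl.exists_isSylGen_of_sylow P hP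
  have hC : Subgroup.centralizer ((P : Subgroup G) : Set G) = CA.H28Syl.CC x := by
    rw [hx, CA.H28Syl.centralizer_zpowers]
  have hN : Subgroup.normalizer ((P : Subgroup G) : Set G) = CA.H28Syl.NN x := by rw [hx]
  obtain ⟨θ', hθ', d, rfl, hdeg, hBe⟩ := aux hM h hC hind θ hθ (fun y hy => hθP y (hx.ge hy)) T
    (fun g => by rw [hT, hN])
  have he' : e = CA.H28Syl2.eT x (CA.H28Pat.TT h θ') := by rw [← he, hC]
  have hf' : f = CA.H28Syl.ee x := by rw [← hf, hC, hx]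
  have hed := CA.H28Syl2.eT_dvd h.ord (CA.H28Pat.TT_le h θ')
  have hrel := CA.H28Blk.relIndex_mul_eT h hθ'
  have hfe : f / e = (CA.H28Pat.TT h θ').relIndex (CA.H28Syl.NN x) := by
    rw [hf', he', ← hrel, Nat.mul_div_cancel_left _ (CA.H28Syl2.pos_of_dvd hed)]
  refine ⟨he' ▸ hed, ?_, d.X, d.Y, hBe, Finset.disjoint_coe.2 d.disj, ?_, ?_, fun χ hχ => ?_,
    ⟨d.δ, d.hδ, fun ψ hψ => ?_⟩, fun ψ hψ ψ' hψ' g hg => CA.H28Blk.Y_agree d hψ hψ' hg⟩
  · rw [hBe, ← Finset.coe_union, he', ← d.card_Y, ← d.card_X,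
      ← Finset.card_union_of_disjoint d.disj]
    exact Nat.card_eq_finsetCard _
  · rw [he', ← d.card_X]; exact Nat.card_eq_finsetCard _
  · rw [he', ← d.card_Y]; exact Nat.card_eq_finsetCard _
  · obtain ⟨s, hs⟩ := CA.H28Blk.degree_X hM h hθ' d hχ
    rw [hs, hfe, ← hdeg]
    push_cast
    rcases d.hε χ hχ with h1 | ⟨h1, -⟩ <;> rw [h1]
    · exact Or.inl (Int.modEq_iff_dvd.2 ⟨-s - (CA.H28Pat.TT h θ').relIndex (CA.H28Syl.NN x) *
        charDegree θ' * d.r χ, by ring⟩)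
    · exact Or.inr (Int.modEq_iff_dvd.2 ⟨-s - (CA.H28Pat.TT h θ').relIndex (CA.H28Syl.NN x) *
        charDegree θ' * d.r χ, by ring⟩)
  · obtain ⟨s, hs⟩ := CA.H28Blk.degree_Y hM h hθ' d hψ
    rw [hs, hf', ← hrel, ← hdeg]
    push_cast
    exact Int.modEq_iff_dvd.2 ⟨-s - (CA.H28Pat.TT h θ').relIndex (CA.H28Syl.NN x) *
        charDegree θ' * d.r ψ, by ring⟩

end Cfsg.Agent.S4442
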