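import Cfsg.Statements.S4445
import Cfsg.Agent.Lib.Char.H12Gl

set_option autoImplicit false
open Cfsg

namespace Cfsg.Agent.S4445

open CA.PF CA.H12Gl Subgroup
open CA.BG hiding cj cj_one cj_mul cj_inv_cj cj_cj_inv

/-- Inside a finite group Γ let the solvable subgroup S normalise G with the orders of G and S coprime. Then the number of S-invariant irreducible characters of G (χ(s g s⁻¹) = χ(g) for all s ∈ S, g ∈ G) equals the number of conjugacy classes of G mapped to themselves by conjugation by every element of S. -/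
theorem result {Γ : Type*} [Group Γ] [Fintype Γ] (G S : Subgroup Γ) [Fintype G] (hnorm : ∀ s ∈ S, ∀ g ∈ G, s * g * s⁻¹ ∈ G) (hcop : (Nat.card G).Coprime (Nat.card S)) (hsolv : Group.IsSolvable S) : Nat.card {χ : Cfsg.IrrCharacter G // (∀ s ∈ S, ∀ g g' : G, (g' : Γ) = s * g * s⁻¹ → (χ : G → ℂ) g' = (χ : G → ℂ) g)} = Nat.card {K : ConjClasses G // ∀ s ∈ S, ∀ g g' : G, (g' : Γ) = s * g * s⁻¹ → ConjClasses.mk g = K → ConjClasses.mk g' = K} := by
  classical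
  have hN := norm_of_conj hnorm
  set C := G ⊓ 𝓒(S) with hC
  have h1 : Nat.card {χ : IrrCharacter G // (∀ s ∈ S, ∀ g g' : G, (g' : Γ) = s * g * s⁻¹ →
      (χ : G → ℂ) g' = (χ : G → ℂ) g)} = ((irr G).filter fun χ => S ≤ stab χ).card := by
    rw [← Nat.card_eq_finsetCard]
    refine Nat.card_congr (Equiv.ofBijective (fun χ => ⟨extendByZero G χ.1.1,
      Finset.mem_filter.2 ⟨ext_mem_irr.2 χ.1.2, (le_stab_ext_iff hN _).2 χ.2⟩⟩) ⟨?_, ?_⟩)
    · exact fun χ χ' e => Subtype.ext (Subtype.ext (ext_injective G (congrArg Subtype.val e)))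
    · rintro ⟨χ, hχ⟩
      obtain ⟨h2, h3⟩ := Finset.mem_filter.1 hχ
      obtain ⟨χ, rfl⟩ := exists_ext h2
      exact ⟨⟨χ, (le_stab_ext_iff hN _).1 h3⟩, rfl⟩
  have h2 : (irr C).card = Nat.card (IrrCharacter C) := by
    rw [← Nat.card_eq_finsetCard]
    refine (Nat.card_congr (Equiv.ofBijective (fun χ : IrrCharacter C =>
      (⟨extendByZero C χ.1, ext_mem_irr.2 χ.2⟩ : irr C)) ⟨?_, ?_⟩)).symm
    · exact fun χ χ' e => Subtype.ext (ext_injective C (congrArg Subtype.val e))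
    · rintro ⟨χ, hχ⟩
      obtain ⟨χ, rfl⟩ := exists_ext hχ
      exact ⟨χ, rfl⟩
  rw [h1, card_inv hsolv hN hcop, h2, CChar.CharOrth.card_irr]
  have hCG : C ≤ G := inf_le_left
  refine Nat.card_congr (Equiv.ofBijective (fun q => ⟨ConjClasses.map (inclusion hCG) q, ?_⟩)
    ⟨?_, ?_⟩)
  · obtain ⟨c, rfl⟩ := ConjClasses.mk_surjective q
    intro s hs g g' e h
    rw [← h, ConjClasses.mk_eq_mk_iff_isConj]
    obtain ⟨x, hx⟩ := isConj_iff.1 (ConjClasses.mk_eq_mk_iff_isConj.1 h).symm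
    have h3 : (x : Γ) * c * (x : Γ)⁻¹ = g := congrArg Subtype.val hx
    have h4 : s * c = c * s := mem_cent.1 c.2.2 s hs
    refine isConj_iff.2 ⟨x * ⟨s * x * s⁻¹, hnorm s hs x x.2⟩⁻¹, Subtype.ext ?_⟩
    simp only [coe_mul, coe_inv, e, ← h3]
    calc _ = x * (s * ((x : Γ)⁻¹ * (s⁻¹ * (s * x))) * c * s⁻¹) * (x : Γ)⁻¹ := by group
      _ = _ := by rw [inv_mul_cancel_left, inv_mul_cancel, mul_one, h4, mul_inv_cancel_right]
  · intro q q' e
    obtain ⟨c, rfl⟩ := ConjClasses.mk_surjective q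
    obtain ⟨c', rfl⟩ := ConjClasses.mk_surjective q'
    obtain ⟨x, hx⟩ := isConj_iff.1 (ConjClasses.mk_eq_mk_iff_isConj.1 (congrArg Subtype.val e))
    have h3 : (x : Γ) * c * (x : Γ)⁻¹ = c' := congrArg Subtype.val hx
    obtain ⟨y, hy, h4⟩ := CA.Coprime.exists_centralizer_conj_elem hN hcop.symm (Or.inl hsolv) x.2
      c.2.2 (h3 ▸ c'.2.2)
    exact ConjClasses.mk_eq_mk_iff_isConj.2 (isConj_iff.2 ⟨⟨y, hy⟩, Subtype.ext (h4.trans h3)⟩)
  · rintro ⟨q, hq⟩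
    obtain ⟨g, rfl⟩ := ConjClasses.mk_surjective q
    obtain ⟨y, hy, h4⟩ := CA.Coprime.exists_conj_mem_centralizer hN hcop.symm (Or.inl hsolv)
      (g : Γ) fun s hs => by
        obtain ⟨x, hx⟩ := isConj_iff.1 (ConjClasses.mk_eq_mk_iff_isConj.1
          (hq s hs g ⟨_, hnorm s hs g g.2⟩ rfl rfl)).symm
        exact ⟨x, x.2, (congrArg Subtype.val hx).symm⟩
    refine ⟨ConjClasses.mk ⟨y * g * y⁻¹, G.mul_mem (G.mul_mem hy g.2) (G.inv_mem hy), h4⟩,
      Subtype.ext (ConjClasses.mk_eq_mk_iff_isConj.2 (IsConj.symm (isConj_iff.2 ⟨⟨y, hy⟩, rfl⟩)))⟩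

end Cfsg.Agent.S4445
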