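import Cfsg.Statements.S4446
import Cfsg.Agent.Lib.Char.H12Gl3

set_option autoImplicit false
open Cfsg

namespace Cfsg.Agent.S4446

open CA.PF CA.OQuo CA.H12Gl CA.H12Gl2 CA.H12Gl3 Subgroup
open CA.BG hiding cj cj_one cj_mul cj_inv_cj cj_cj_inv mem_cent1

/-- Let the finite group Γ be generated by a normal subgroup G and a cyclic subgroup S of coprime orders, C = G ⊓ C(S), and let χ be an S-invariant irreducible character of G with canonical extension χ̂ to Γ (the extension whose determinantal order is coprime to the order of S). Then there are exactly one irreducible character β of C and one sign ε such that χ̂(c s) = ε β(c) for every c ∈ C and every generator s of S; this β is a constituent of the restriction of χ to C; distinct S-invariant χ give distinct β; and every irreducible character of C arises in this way. -/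
theorem result {Γ : Type*} [Group Γ] [Fintype Γ] (G S : Subgroup Γ) [Fintype G] (hnorm : ∀ s ∈ S, ∀ g ∈ G, s * g * s⁻¹ ∈ G) (hcop : (Nat.card G).Coprime (Nat.card S)) (htop : G ⊔ S = ⊤) (hcyc : IsCyclic S) (C : Subgroup Γ) [Fintype C] (hC : C = G ⊓ Subgroup.centralizer (S : Set Γ)) (hCG : C ≤ G) : (∀ (χ : Cfsg.IrrCharacter G) (χh : Cfsg.IrrCharacter Γ), (∀ s ∈ S, ∀ g g' : G, (g' : Γ) = s * g * s⁻¹ → (χ : G → ℂ) g' = (χ : G → ℂ) g) → (∀ g : G, (χh : Γ → ℂ) g = (χ : G → ℂ) g) → (Cfsg.detOrder (χh : Γ → ℂ)).Coprime (Nat.card S) → (∃! βε : Cfsg.IrrCharacter C × ℤ, (βε.2 = 1 ∨ βε.2 = -1) ∧ ∀ c : C, ∀ s : Γ, Subgroup.zpowers s = S → (χh : Γ → ℂ) ((c : Γ) * s) = (βε.2 : ℂ) * (βε.1 : C → ℂ) c) ∧ ∀ β : Cfsg.IrrCharacter C, ∀ ε : ℤ, (ε = 1 ∨ ε = -1) → (∀ c : C, ∀ s : Γ, Subgroup.zpowers s = S → (χh : Γ → ℂ) ((c : Γ) * s) = (ε : ℂ) * (β : C → ℂ) c) →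 Cfsg.classInner (fun c : C => (χ : G → ℂ) ⟨c, hCG c.2⟩) (β : C → ℂ) ≠ 0) ∧ (∀ (χ χ' : Cfsg.IrrCharacter G) (χh χh' : Cfsg.IrrCharacter Γ), (∀ s ∈ S, ∀ g g' : G, (g' : Γ) = s * g * s⁻¹ → (χ : G → ℂ) g' = (χ : G → ℂ) g) → (∀ s ∈ S, ∀ g g' : G, (g' : Γ) = s * g * s⁻¹ → (χ' : G → ℂ) g' = (χ' : G → ℂ) g) → (∀ g : G, (χh : Γ → ℂ) g = (χ : G → ℂ) g) → (∀ g : G, (χh' : Γ → ℂ) g = (χ' : G → ℂ) g) → (Cfsg.detOrder (χh : Γ → ℂ)).Coprime (Nat.card S) → (Cfsg.detOrder (χh' : Γ → ℂ)).Coprime (Nat.card S) → ∀ β : Cfsg.IrrCharacter C, ∀ ε ε' : ℤ, (ε = 1 ∨ ε = -1) → (ε' = 1 ∨ ε' = -1) → (∀ c : C, ∀ s : Γ, Subgroup.zpowers s = S → (χh : Γ → ℂ) ((c : Γ) * s) = (ε : ℂ) * (β : C → ℂ) c) → (∀ c : C, ∀ s : Γ, Subgroup.zpowers s = S → (χh' : Γ → ℂ) ((c : Γ) * s) = (ε' : ℂ) * (β : C → ℂ) c) → χ = χ') ∧ (∀ β : Cfsg.IrrCharacter C, ∃ (χ : Cfsg.IrrCharacter G) (χh :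 Cfsg.IrrCharacter Γ) (ε : ℤ), (∀ s ∈ S, ∀ g g' : G, (g' : Γ) = s * g * s⁻¹ → (χ : G → ℂ) g' = (χ : G → ℂ) g) ∧ (∀ g : G, (χh : Γ → ℂ) g = (χ : G → ℂ) g) ∧ (Cfsg.detOrder (χh : Γ → ℂ)).Coprime (Nat.card S) ∧ (ε = 1 ∨ ε = -1) ∧ ∀ c : C, ∀ s : Γ, Subgroup.zpowers s = S → (χh : Γ → ℂ) ((c : Γ) * s) = (ε : ℂ) * (β : C → ℂ) c) := by
  have hN := norm_of_conj hnorm
  obtain ⟨s, hs⟩ := (Subgroup.isCyclic_iff_exists_zpowers_eq_top S).1 hcyc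
  have hR : ∀ (χ : IrrCharacter G) (χh : IrrCharacter Γ), (∀ g : G, χh.1 g = χ.1 g) →
      Res (G : Set Γ) χh.1 = extendByZero G χ.1 := fun χ χh h => by
    rw [← ext_res, funext h]
  have hE : ∀ (β : IrrCharacter C) (c : C), extendByZero C β.1 c = β.1 c := fun β =>
    congrFun (res_ext C β.1)
  refine ⟨fun χ χh _ h hd => ⟨?_, fun β ε hε e => ?_⟩,
    fun χ χ' χh χh' _ _ h h' _ _ β ε ε' hε hε' e e' => ?_, fun β => ?_⟩
  · obtain ⟨β, h1, ε, h2, h3⟩ := cyc_exists hN hcop htop hs hC (mem_irr_top.2 χh.2)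
      (hR χ χh h ▸ ext_mem_irr.2 χ.2) hd
    obtain ⟨β, rfl⟩ := exists_ext h1
    refine ⟨(β, ε), ⟨h2, fun c t ht => by rw [h3 c c.2 t ht, hE]⟩, fun ⟨β', ε'⟩ h4 => ?_⟩
    obtain ⟨h5, h6⟩ := sign_unique (ε' := ε) h4.1 (ext_mem_irr.2 β'.2) h1 fun c hc => by
      rw [← h3 c hc s hs, h4.2 ⟨c, hc⟩ s hs, ← hE]
    exact Prod.ext (Subtype.ext (ext_injective C h5)) h6
  · rw [← dot_ext hCG, ← hR χ χh h, ← dot_Res_left (ext_on C _), Res_Res hCG,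
      dot_Res_left (ext_on C _)]
    refine dot_ne_of_sign (ε := ε) (s := s) (isChar_top.2 (CChar.CharFun.char_of_irr χh.2)) le_top
      (mem_top s) (cent_symm (hC ▸ inf_le_right : C ≤ 𝓒(S)) (hs ▸ mem_zpowers s))
      (ext_mem_irr.2 β.2) (by rcases hε with rfl | rfl <;> simp) fun c hc => ?_
    rw [e ⟨c, hc⟩ s hs, ← hE]
  · have h1 := cyc_inj hN hcop htop hs hC (mem_irr_top.2 χh.2) (hR χ χh h ▸ ext_mem_irr.2 χ.2)
      (mem_irr_top.2 χh'.2) (hR χ' χh' h' ▸ ext_mem_irr.2 χ'.2) (ext_mem_irr.2 β.2) hε hε'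
      (fun c hc => by rw [e ⟨c, hc⟩ s hs, ← hE]) fun c hc => by rw [e' ⟨c, hc⟩ s hs, ← hE]
    rw [hR χ χh h, hR χ' χh' h'] at h1
    exact Subtype.ext (ext_injective G h1)
  · obtain ⟨η, h1, h2, h3, ε, h4, h5⟩ := cyc_surj hN hcop htop hs hC (ext_mem_irr.2 β.2)
    obtain ⟨χ, h6⟩ := exists_ext h2
    refine ⟨χ, ⟨η, mem_irr_top.1 h1⟩, ε, (le_stab_ext_iff hN χ.1).1
      (h6 ▸ stab_Res hN hcop htop h1), fun g => ?_, h3, h4, fun c t ht => by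
        rw [← hE]; exact h5 c c.2 t ht⟩
    rw [← congrFun (res_ext G χ.1) g, ← h6, Res_of_mem _ g.2]

end Cfsg.Agent.S4446
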