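import Cfsg.Statements.S4447
import Cfsg.Agent.Lib.Char.H12Gl2

set_option autoImplicit false
open Cfsg

namespace Cfsg.Agent.S4447

open CA.PF CA.OQuo CA.H12Gl CA.H12Gl2 Subgroup
open CA.BG hiding cj cj_one cj_mul cj_inv_cj cj_cj_inv

/-- Inside a finite group Γ let S normalise G and also normalise a normal subgroup N of G, with the order of S coprime to the index of N in G and S or G/N solvable. Then for every S-invariant irreducible character χ of G, the restriction of χ to N has an S-invariant irreducible constituent. -/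
theorem result {Γ : Type*} [Group Γ] [Fintype Γ] (G S N : Subgroup Γ) [Fintype G] [Fintype N] (hnorm : ∀ s ∈ S, ∀ g ∈ G, s * g * s⁻¹ ∈ G) (hNG : N ≤ G) [hNn : (N.subgroupOf G).Normal] (hNS : ∀ s ∈ S, ∀ n ∈ N, s * n * s⁻¹ ∈ N) (hcop : (N.relIndex G).Coprime (Nat.card S)) (hsolv : Group.IsSolvable S ∨ Group.IsSolvable (G ⧸ N.subgroupOf G)) (χ : Cfsg.IrrCharacter G) (hinv : (∀ s ∈ S, ∀ g g' : G, (g' : Γ) = s * g * s⁻¹ → (χ : G → ℂ) g' = (χ : G → ℂ) g)) : ∃ θ : Cfsg.IrrCharacter N, Cfsg.classInner (fun n : N => (χ : G → ℂ) ⟨n, hNG n.2⟩) (θ : N → ℂ) ≠ 0 ∧ (∀ s ∈ S, ∀ g g' : N, (g' : Γ) = s * g * s⁻¹ → (θ : N → ℂ) g' = (θ : N → ℂ) g) := by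
  have hN := norm_of_conj hnorm
  have hN' := norm_of_conj hNS
  have h0 := nrm_of_normal hNG hNn
  obtain ⟨θ, h1, h2, h3⟩ := exists_inv_under h0 hN' hN
    (hcop.symm.coprime_dvd_left (relIndex_dvd_card N S))
    (hsolv.imp (solv_quo N) (solv_quo_iff h0).2) (ext_mem_irr.2 χ.2)
    ((le_stab_ext_iff hN χ.1).2 hinv)
  obtain ⟨θ, rfl⟩ := exists_ext h1
  exact ⟨θ, by rwa [← dot_ext hNG], (le_stab_ext_iff hN' θ.1).1 h2⟩

end Cfsg.Agent.S4447
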