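import Cfsg.Statements.S4450
import Cfsg.Agent.Lib.Char.H12Tri

set_option autoImplicit false
open Cfsg

namespace Cfsg.Agent.S4450

open CA.PF CA.OQuo CA.H12Gl CA.H12Gl2 CA.H12Gl3 CA.H12Gl4 CA.H12Tri Subgroup
open CA.BG hiding cj cj_one cj_mul cj_inv_cj cj_cj_inv mem_cent1

/-- Let N ≤ G be normal subgroups of the finite group Γ with the index of G in Γ coprime to the index of N in G, and Γ/G or G/N solvable. Then for every irreducible character ϑ of N invariant under conjugation by Γ, the induced character ϑ^G has an irreducible constituent invariant under conjugation by Γ. -/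
theorem result {Γ : Type*} [Group Γ] [Fintype Γ] (G N : Subgroup Γ) [hG : G.Normal] [hN : N.Normal] [Fintype G] [Fintype N] (hNG : N ≤ G) (hcop : (G.index).Coprime (N.relIndex G)) (hsolv : Group.IsSolvable (Γ ⧸ G) ∨ Group.IsSolvable (G ⧸ N.subgroupOf G)) (θ : Cfsg.IrrCharacter N) (hinv : ∀ (x : Γ) (n : N), (θ : N → ℂ) ⟨x * n * x⁻¹, hN.conj_mem n n.2 x⟩ = (θ : N → ℂ) n) : ∃ χ : Cfsg.IrrCharacter G, Cfsg.classInner (fun n : N => (χ : G → ℂ) ⟨n, hNG n.2⟩) (θ : N → ℂ) ≠ 0 ∧ ∀ (x : Γ) (g : G), (χ : G → ℂ) ⟨x * g * x⁻¹, hG.conj_mem g g.2 x⟩ = (χ : G → ℂ) g := by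
  have hN' := (nrm_top N).le_normalizer
  have hG' := (nrm_top G).le_normalizer
  obtain ⟨χ, h1, h2, h3⟩ := inv_over_cop (nrm_top G) (nrm_top N) hNG hcop
    (hsolv.imp_left fun ⟨n, hn⟩ => ⟨n, by
      rwa [← map_derivedSeries_eq (QuotientGroup.mk'_surjective _), Subgroup.map_eq_bot_iff,
        QuotientGroup.ker_mk'] at hn⟩) (ext_mem_irr.2 θ.2)
    ((le_stab_ext_iff hN' θ.1).2 fun x _ g g' e => by
      rw [← hinv x g]; exact congrArg _ (Subtype.ext e))
  obtain ⟨χ, rfl⟩ := exists_ext h1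
  exact ⟨χ, by rwa [← dot_ext hNG], fun x g => (le_stab_ext_iff hG' χ.1).1 h2 x trivial g _ rfl⟩

end Cfsg.Agent.S4450
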