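import Cfsg.Statements.S4451
import Cfsg.Agent.Lib.Char.H12Gl3

set_option autoImplicit false
open Cfsg

namespace Cfsg.Agent.S4451

open CA.PF CA.OQuo CA.H12Gl CA.H12Gl2 CA.H12Gl3 Subgroup
open CA.BG hiding cj cj_one cj_mul cj_inv_cj cj_cj_inv mem_cent1

/-- Let the finite group Γ be generated by a normal subgroup G and a cyclic subgroup S of coprime orders such that every non-identity element of S has the same centraliser C = G ⊓ C(S) in G. Let χ be an S-invariant irreducible character of G, χ̂ its canonical extension to Γ (determinantal order coprime to the order of S), and β the irreducible character of C with χ̂(c s) = ε₀ β(c) for c ∈ C and generators s of S (ε₀ = ±1). Then there are a sign ε = ±1, which may differ from ε₀, and a linear character μ of S with μ² = 1, such that: (a) χ̂(c x) = ε β(c) μ(x) for all c ∈ C and all x ∈ S other than 1; (b) the restriction of χ to C equals |S|·ϑ + ε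 β for some character ϑ of C or ϑ = 0; (c) |S| divides χ(1) − ε β(1). -/
theorem result {Γ : Type*} [Group Γ] [Fintype Γ] (G S : Subgroup Γ) [Fintype G] (hnorm : ∀ s ∈ S, ∀ g ∈ G, s * g * s⁻¹ ∈ G) (hcop : (Nat.card G).Coprime (Nat.card S)) (htop : G ⊔ S = ⊤) (hcyc : IsCyclic S) (C : Subgroup Γ) [Fintype C] (hC : C = G ⊓ Subgroup.centralizer (S : Set Γ)) (hCG : C ≤ G) (hfpf : ∀ x ∈ S, x ≠ 1 → G ⊓ Subgroup.centralizer ({x} : Set Γ) = C) (χ : Cfsg.IrrCharacter G) (hinv : (∀ s ∈ S, ∀ g g' : G, (g' : Γ) = s * g * s⁻¹ → (χ : G → ℂ) g' = (χ : G → ℂ) g)) (χh : Cfsg.IrrCharacter Γ) (hext : (∀ g : G, (χh : Γ → ℂ) g = (χ : G → ℂ) g)) (hdet : (Cfsg.detOrder (χh : Γ → ℂ)).Coprime (Nat.card S)) (β : Cfsg.IrrCharacter C) (ε₀ : ℤ) (hε₀ : ε₀ = 1 ∨ ε₀ = -1) (hβ : ∀ c : C, ∀ s : Γ, Subgroup.zpowers s = S → (χh : Γ → ℂ) ((c : Γ) * s) = (ε₀ : ℂ) * (β : C → ℂ) c) : ∃ ε : ℤ, (ε = 1 ∨ ε = -1) ∧ (∃ μ : S → ℂ, Cfsg.IsCharacter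 S μ ∧ μ 1 = 1 ∧ (∀ x : S, μ x * μ x = 1) ∧ ∀ c : C, ∀ x : S, x ≠ 1 → (χh : Γ → ℂ) ((c : Γ) * x) = (ε : ℂ) * (β : C → ℂ) c * μ x) ∧ (∃ ϑ : C → ℂ, Cfsg.IsCharacter C ϑ ∧ (fun c : C => (χ : G → ℂ) ⟨c, hCG c.2⟩) = fun c => (Nat.card S : ℂ) * ϑ c + (ε : ℂ) * (β : C → ℂ) c) ∧ (Nat.card S : ℤ) ∣ (Cfsg.charDegree (χ : G → ℂ) : ℤ) - ε * (Cfsg.charDegree (β : C → ℂ) : ℤ) := by
  classical
  have hN := norm_of_conj hnorm
  obtain ⟨s, hs⟩ := (Subgroup.isCyclic_iff_exists_zpowers_eq_top S).1 hcyc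
  have hsS : s ∈ S := hs ▸ mem_zpowers s
  have hR : Res (G : Set Γ) χh.1 = extendByZero G χ.1 := by rw [← ext_res, funext hext]
  have hE : ∀ c : C, extendByZero C β.1 c = β.1 c := congrFun (res_ext C β.1)
  have hb := ext_mem_irr.2 β.2
  generalize extendByZero C β.1 = b at hE hb
  have h0 := mem_irr_top.2 χh.2
  have h1 : Res (G : Set Γ) χh.1 ∈ irr G := hR ▸ ext_mem_irr.2 χ.2
  have h2 : S ≤ 𝓒(C) := cent_symm (hC ▸ inf_le_right)
  have h3 := fun γ (hγ : γ ∈ irr C) => psi_char (irr_char h0) le_top le_top h2 (irr_char hγ)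
  have h4 : ∀ j : ℕ, s ^ j ≠ 1 → ∃ ε : ℤ, (ε = 1 ∨ ε = -1) ∧
      ∀ c ∈ C, χh.1 (c * s ^ j) = ε * b c := fun j => by
    induction j using induction_on_primes with
    | zero => simp
    | one => exact fun _ => ⟨ε₀, hε₀, fun c hc => by rw [pow_one, hβ ⟨c, hc⟩ s hs, ← hE]⟩
    | prime_mul q j hq ih =>
      intro hj
      obtain ⟨ε, h5, h6⟩ := ih fun h => hj (by rw [mul_comm, pow_mul, h, one_pow])
      have h7 := apply_pow_ne_zero (h3 b hb) (S.pow_mem hsS j) hq h5 (by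
        rw [Res_of_mem _ (S.pow_mem hsS j), psi_of_eq hb h6 hb, dot_irr_self hb, mul_one])
      rw [← pow_mul, mul_comm] at h7
      obtain ⟨γ, h8, ε', h9, h10⟩ := exists_sign (irr_char h0) le_top hCG le_top h2 hcop
        (hcan_top hN hcop htop h0 h1 hdet) (nrm_top' hN hcop htop).le_normalizer h1
        (S.pow_mem hsS (q * j)) (hfpf _ (S.pow_mem hsS _) hj).symm
      rw [Res_of_mem _ (S.pow_mem hsS _), psi_of_eq h8 h10 hb] at h7
      exact ⟨ε', h9, irr_eq_of_dot_ne h8 hb (right_ne_zero_of_mul h7) ▸ h10⟩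
  have h5 : ∀ x ∈ S, x ≠ 1 → ∃ ε : ℤ, (ε = 1 ∨ ε = -1) ∧ ∀ c ∈ C, χh.1 (c * x) = ε * b c :=
    fun x hx h => by
      obtain ⟨j, rfl⟩ := (mem_powers_iff_mem_zpowers).2 (hs ▸ hx : x ∈ zpowers s)
      exact h4 j h
  obtain ⟨a, ε, i, h6, -, h7, h8⟩ := exists_lin_of_norm (nrm_bot S)
    (comm_eq_bot_iff.2 (comm_iff_le_cent.1 inferInstance)).le (h3 b hb) bot_le fun x hx h => by
      obtain ⟨ε, h6, h7⟩ := h5 x hx (by simpa using h)
      rw [Res_of_mem _ hx, psi_of_eq hb h7 hb, dot_irr_self hb, mul_one]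
      rcases h6 with rfl | rfl <;> simp
  rw [Res_one, psi_one, relIndex_bot_left] at h7
  have h9 : ∀ x ∈ S, x ≠ 1 → lin i x * lin i x = 1 ∧
      ∀ c ∈ C, χh.1 (c * x) = ε * b c * lin i x := fun x hx h => by
    obtain ⟨ε', h9, h10⟩ := h5 x hx h
    have h11 := h8 x hx (by simpa using h)
    rw [Res_of_mem _ hx, psi_of_eq hb h10 hb, dot_irr_self hb, mul_one] at h11
    refine ⟨?_, fun c hc => by rw [h10 c hc, h11, mul_right_comm]⟩
    have h12 := congrArg (· ^ 2) h11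
    rcases h6 with rfl | rfl <;> rcases h9 with rfl | rfl <;> simpa [sq] using h12.symm
  have h10 : ∀ γ ∈ irr C, ∃ m : ℕ, dot C χh.1 γ = ♯S * m + if γ = b then (ε : ℂ) else 0 :=
    fun γ hγ => by
      split_ifs with h
      · exact ⟨a, by rw [h, h7, mul_comm]⟩
      obtain ⟨m, hm⟩ := dot_char_char (h3 γ hγ) (triv_char S)
      refine ⟨m, ?_⟩
      rw [← hm, dot_triv_right, Finset.sum_eq_single_of_mem 1 (mem_fs.2 S.one_mem) fun x hx h' => by
        obtain ⟨ε', -, h11⟩ := h5 x (mem_fs.1 hx) h'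
        rw [Res_of_mem _ (mem_fs.1 hx), psi_of_eq hb h11 hγ, dot_irr_ne hb hγ (Ne.symm h), mul_zero],
        Res_one, psi_one, add_zero, mul_inv_cancel_left₀ (cardC_ne S)]
  choose! m hm using h10
  have h11 := char_sum (irr C) fun γ hγ => (irr_char hγ).nsmul (m γ)
  have h12 : ∀ c : C, χ.1 ⟨c, hCG c.2⟩ = ♯S * (∑ γ ∈ irr C, m γ • γ) c + ε * β.1 c := fun c => by
    have h13 := apply_eq_sum_psi (irr_CInv h0) le_top (one_mem _) c.2
    rw [mul_one] at h13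
    rw [← hext, ← hE, h13, Finset.sum_congr rfl fun γ hγ => by rw [psi_one, hm γ hγ, add_mul],
      Finset.sum_add_distrib, Finset.sum_apply, Finset.mul_sum]
    simp [hb, mul_assoc]
  refine ⟨ε, h6, ⟨fun x => lin i x, (irr_char (lin_irr i)).2, lin_apply_one i, fun x => ?_,
    fun c x hx => ?_⟩, ⟨_, h11.2, funext h12⟩, ?_⟩
  · by_cases hx : (x : Γ) = 1
    · simp [hx]
    · exact (h9 x x.2 hx).1
  · rw [← hE]
    exact (h9 x x.2 (by simpa using hx)).2 c c.2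
  · obtain ⟨n, hn⟩ := h11.one_nat
    have h13 : χ.1 1 = ♯S * (∑ γ ∈ irr C, m γ • γ) 1 + ε * β.1 1 := h12 1
    rw [hn, CChar.CharInt.irr_apply_one_eq β.2] at h13
    refine ⟨n, ?_⟩
    have h14 : ((charDegree χ.1 : ℤ) - ε * (charDegree β.1 : ℤ) : ℂ) = (♯S * n : ℤ) := by
      push_cast
      rw [← CChar.CharInt.irr_apply_one_eq χ.2]
      exact sub_eq_of_eq_add h13
    exact_mod_cast h14

end Cfsg.Agent.S4451
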