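import Cfsg.Statements.S4452
import Cfsg.Agent.Lib.Char.H12Gl4

set_option autoImplicit false
open Cfsg

namespace Cfsg.Agent.S4452

open CA.PF CA.OQuo CA.H12Gl CA.H12Gl2 CA.H12Gl3 CA.H12Gl4 Subgroup
open CA.BG hiding cj cj_one cj_mul cj_inv_cj cj_cj_inv mem_cent1

/-- Let the finite group G be the product of a normal subgroup K and a solvable subgroup H of coprime orders, and let N = N_G(H). Then the number of irreducible characters of G of degree coprime to the order of H equals the number of irreducible characters of N of degree coprime to the order of H. (The two sets are in fact in a canonical bijection; only the equality of their sizes is stated here.) -/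
theorem result {G : Type*} [Group G] [Finite G] (K H : Subgroup G) [K.Normal] (hKH : K ⊔ H = ⊤) (hcop : (Nat.card K).Coprime (Nat.card H)) (hsolv : Group.IsSolvable H) : Nat.card {χ : Cfsg.IrrCharacter G // (Cfsg.charDegree (χ : G → ℂ)).Coprime (Nat.card H)} = Nat.card {η : Cfsg.IrrCharacter (Subgroup.normalizer (H : Set G)) // (Cfsg.charDegree (η : Subgroup.normalizer (H : Set G) → ℂ)).Coprime (Nat.card H)} := by
  classical
  have := Fintype.ofFinite G
  have hN : H ≤ 𝓝(K) := le_top.trans (nrm_top K).le_normalizer
  have h1 := norm_eq_of_cop (nrm_top K).le_normalizer hcop (by rwa [sup_comm])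
  rw [top_inf_eq] at h1
  rw [card_deg_top (·.Coprime ♯H), card_deg _ (·.Coprime ♯H), card_cop hN hcop (by rwa [sup_comm]),
    card_cop (norm_inf hN (norm_cent le_normalizer)) (cop_mono hcop inf_le_left le_rfl) h1,
    card_inv hsolv hN hcop, Finset.filter_true_of_mem fun θ hθ x hx =>
      cent_le_stab (irr_on hθ) (cent_symm (inf_le_right : K ⊓ 𝓒(H) ≤ 𝓒(H)) hx)]

end Cfsg.Agent.S4452
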