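import Cfsg.Statements.S4453
import Cfsg.Agent.Lib.Char.H10Isa3

set_option autoImplicit false
open Cfsg

namespace Cfsg.Agent.S4453
open CA.PF CA.OQuo CA.H12Gl CA.H12Gl2 CA.H10Isa3 Subgroup

/-- Inside a finite group Γ let S normalise the solvable subgroup G of odd order with the orders of G and S coprime, let C = G ⊓ C(S), and let L ≤ K be S-invariant normal subgroups of G with K/L abelian, G = KC and H = LC (so C ≤ H ≤ G). Then for each S-invariant irreducible character χ of G there is exactly one S-invariant irreducible character ψ of H whose multiplicity in the restriction of χ to H is odd, and χ ↦ ψ is a bijection from the S-invariant irreducible characters of G onto those of H (distinct χ give distinct ψ, and every S-invariant ψ arises). -/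
theorem result {Γ : Type*} [Group Γ] [Fintype Γ] (G S : Subgroup Γ) [Fintype G] (hnorm : ∀ s ∈ S, ∀ g ∈ G, s * g * s⁻¹ ∈ G) (hcop : (Nat.card G).Coprime (Nat.card S)) (hGsolv : Group.IsSolvable G) (hodd : Odd (Nat.card G)) (C : Subgroup Γ) [Fintype C] (hC : C = G ⊓ Subgroup.centralizer (S : Set Γ)) (hCG : C ≤ G) (K L H : Subgroup Γ) [Fintype H] (hLK : L ≤ K) (hKG : K ≤ G) (hKn : ∀ g ∈ G, ∀ k ∈ K, g * k * g⁻¹ ∈ K) (hLn : ∀ g ∈ G, ∀ l ∈ L, g * l * g⁻¹ ∈ L) (hKS : ∀ s ∈ S, ∀ k ∈ K, s * k * s⁻¹ ∈ K) (hLS : ∀ s ∈ S, ∀ l ∈ L, s * l * s⁻¹ ∈ L) (hab : ∀ a ∈ K, ∀ b ∈ K, a * b * a⁻¹ * b⁻¹ ∈ L) (hGKC : K ⊔ C = G) (hH : H = L ⊔ C) (hHG : H ≤ G) : (∀ χ : Cfsg.IrrCharacter G, (∀ s ∈ S, ∀ g g' : G, (g' : Γ) = s * g * s⁻¹ → (χ : G → ℂ) g' = (χ : G → ℂ) g) → ∃! ψ : Cfsg.IrrCharacter H, (∀ s ∈ S, ∀ g g' : H, (g'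 : Γ) = s * g * s⁻¹ → (ψ : H → ℂ) g' = (ψ : H → ℂ) g) ∧ ∃ m : ℕ, Cfsg.classInner (fun h : H => (χ : G → ℂ) ⟨h, hHG h.2⟩) (ψ : H → ℂ) = (m : ℂ) ∧ Odd m) ∧ (∀ χ χ' : Cfsg.IrrCharacter G, (∀ s ∈ S, ∀ g g' : G, (g' : Γ) = s * g * s⁻¹ → (χ : G → ℂ) g' = (χ : G → ℂ) g) → (∀ s ∈ S, ∀ g g' : G, (g' : Γ) = s * g * s⁻¹ → (χ' : G → ℂ) g' = (χ' : G → ℂ) g) → ∀ ψ : Cfsg.IrrCharacter H, (∀ s ∈ S, ∀ g g' : H, (g' : Γ) = s * g * s⁻¹ → (ψ : H → ℂ) g' = (ψ : H → ℂ) g) → ∀ m m' : ℕ, Cfsg.classInner (fun h : H => (χ : G → ℂ) ⟨h, hHG h.2⟩) (ψ : H → ℂ) = (m : ℂ) → Odd m → Cfsg.classInner (fun h : H => (χ' : G → ℂ) ⟨h, hHG h.2⟩) (ψ : H → ℂ) = (m' : ℂ) → Odd m' → χ = χ') ∧ (∀ ψ : Cfsg.IrrCharacter H, (∀ s ∈ S, ∀ g g' : H, (g' : Γ) = s * g * s⁻¹ → (ψ : H → ℂ) g' = (ψ : H → ℂ) g) → ∃ χ : Cfsg.IrrCharacter G, (∀ s ∈ S,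 ∀ g g' : G, (g' : Γ) = s * g * s⁻¹ → (χ : G → ℂ) g' = (χ : G → ℂ) g) ∧ ∃ m : ℕ, Cfsg.classInner (fun h : H => (χ : G → ℂ) ⟨h, hHG h.2⟩) (ψ : H → ℂ) = (m : ℂ) ∧ Odd m) := by
  have D := hy_of (norm_of_conj hnorm) hcop hGsolv hodd hC hLK ⟨hKG, hKn⟩ ⟨hLK.trans hKG, hLn⟩
    (norm_of_conj hKS) (norm_of_conj hLS) hab hGKC hH
  obtain ⟨h1, h2⟩ := D.main hGsolv
  have h3 : ∀ (χ : IrrCharacter G) (ψ : IrrCharacter H), GR 2 H (extendByZero G χ.1)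
      (extendByZero H ψ.1) ↔ ∃ m : ℕ, classInner (fun h : H => χ.1 ⟨h, hHG h.2⟩) ψ.1 = m ∧ Odd m :=
    fun χ ψ => by simp only [GR, dot_ext hHG, ← Nat.not_even_iff_odd, even_iff_two_dvd]
  have h4 := fun (χ : IrrCharacter G) h => And.intro (ext_mem_irr.2 χ.2)
    ((le_stab_ext_iff D.SG χ.1).2 h)
  have h5 := fun (χ : IrrCharacter H) h => And.intro (ext_mem_irr.2 χ.2)
    ((le_stab_ext_iff D.SH χ.1).2 h)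
  refine ⟨fun χ hχ => ?_, fun χ χ' hχ hχ' ψ hψ m m' k1 k2 k3 k4 => ?_, fun ψ hψ => ?_⟩
  · obtain ⟨ψ, ⟨k1, k2⟩, k3, k4⟩ := h1 _ (h4 χ hχ)
    obtain ⟨ψ, rfl⟩ := exists_ext k1
    exact ⟨ψ, ⟨(le_stab_ext_iff D.SH _).1 k2, (h3 χ ψ).1 k3⟩, fun ξ h =>
      Subtype.ext (ext_injective H (k4 _ (h5 ξ h.1) ((h3 χ ξ).2 h.2)))⟩
  · obtain ⟨ξ, -, -, k5⟩ := h2 _ (h5 ψ hψ)
    exact Subtype.ext (ext_injective G ((k5 _ (h4 χ hχ) ((h3 χ ψ).2 ⟨m, k1, k2⟩)).trans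
      (k5 _ (h4 χ' hχ') ((h3 χ' ψ).2 ⟨m', k3, k4⟩)).symm))
  · obtain ⟨χ, ⟨k1, k2⟩, k3, -⟩ := h2 _ (h5 ψ hψ)
    obtain ⟨χ, rfl⟩ := exists_ext k1
    exact ⟨χ, (le_stab_ext_iff D.SG _).1 k2, (h3 χ ψ).1 k3⟩

end Cfsg.Agent.S4453
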