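import Cfsg.Statements.S4454
import Cfsg.Agent.Lib.Char.H12Gl4

set_option autoImplicit false
open Cfsg

namespace Cfsg.Agent.S4454

open CA.PF CA.OQuo CA.H12Gl CA.H12Gl2 CA.H12Gl3 CA.H12Gl4 Subgroup
open CA.BG hiding cj cj_one cj_mul cj_inv_cj cj_cj_inv mem_cent1

/-- Let N ≤ G be normal subgroups of the finite group Γ with Γ/G cyclic and Γ/N a Frobenius group with kernel G/N: G ≠ Γ, N ≠ G, and no element of Γ outside G fixes a non-identity coset of N in G under conjugation. Let ϑ be an irreducible character of N invariant under conjugation by Γ and suppose ϑ is fully ramified in G: the character of G induced from ϑ equals e·χ for an irreducible character χ of G and a natural number e. Then the index of G in Γ divides e − 1 or e + 1. -/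
theorem result {Γ : Type*} [Group Γ] [Fintype Γ] (G N : Subgroup Γ) [hG : G.Normal] [hN : N.Normal] [Fintype G] [Fintype N] (hNG : N ≤ G) (hGlt : G ≠ ⊤) (hNlt : N ≠ G) (hcyc : IsCyclic (Γ ⧸ G)) (hfrob : ∀ x : Γ, x ∉ G → ∀ g : Γ, g ∈ G → x * g * x⁻¹ * g⁻¹ ∈ N → g ∈ N) (θ : Cfsg.IrrCharacter N) (hinv : ∀ (x : Γ) (n : N), (θ : N → ℂ) ⟨x * n * x⁻¹, hN.conj_mem n n.2 x⟩ = (θ : N → ℂ) n) (χ : Cfsg.IrrCharacter G) (e : ℕ) (hram : Cfsg.indFun (N.subgroupOf G) (fun n : N.subgroupOf G => (θ : N → ℂ) ⟨(n : G), n.2⟩) = fun g => (e : ℂ) * (χ : G → ℂ) g) : (G.index : ℤ) ∣ (e : ℤ) - 1 ∨ (G.index : ℤ) ∣ (e : ℤ) + 1 := by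
  obtain ⟨q, hq⟩ := hcyc.exists_generator
  obtain ⟨s, rfl⟩ := QuotientGroup.mk_surjective q
  have hs : G ⊔ zpowers s = ⊤ := eq_top_iff.2 fun x _ => by
    obtain ⟨j, hj⟩ := hq (QuotientGroup.mk x)
    simp only [← QuotientGroup.mk_zpow, QuotientGroup.eq] at hj
    have := mul_mem_sup (S := zpowers s) (T := G) (zpow_mem (mem_zpowers s) j) hj
    rwa [mul_inv_cancel_left, sup_comm] at this
  obtain ⟨ε, h1, h2⟩ := ram_congr (nrm_top G) (nrm_top N) hNG
    (fun h => hGlt (by rw [← hs, sup_eq_left.2 (zpowers_le.2 h)])) hs hfrob (ext_mem_irr.2 θ.2)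
    ((le_stab_ext_iff (nrm_top N).le_normalizer θ.1).2 fun x _ g g' e => by
      rw [← hinv x g]; exact congrArg _ (Subtype.ext e)) (ext_mem_irr.2 χ.2) (e := e)
    (CF_ext (Ind_on _ (cfOn_mono hNG (ext_on _ _))) (Submodule.smul_mem _ _ (ext_on _ _))
      fun x hx => by
        refine (congrFun (res_Ind hNG (ext_on N θ.1)) ⟨x, hx⟩).trans ?_
        rw [Pi.smul_apply, CA.Ind.ext_of_mem _ _ hx, smul_eq_mul, ← congrFun hram ⟨x, hx⟩]
        congr 1
        exact funext fun n => CA.Ind.ext_of_mem N _ n.2)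
  rcases h1 with rfl | rfl
  · exact Or.inl h2
  · exact Or.inr (by simpa using h2)

end Cfsg.Agent.S4454
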