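import Cfsg.Statements.S4456
import Cfsg.Agent.Lib.Char.H12Deg
import Cfsg.Agent.Lib.Grp.H12PSolv

set_option autoImplicit false
open Cfsg

namespace Cfsg.Agent.S4456

open CA.PF CA.OQuo CA.H12Gl CA.H12Gl2 CA.H12Mon CA.H12Deg Subgroup
open CA.BG hiding cj cj_one cj_mul cj_inv_cj cj_cj_inv mem_cent1

/-- Let p be a prime and G a finite group such that p divides the degree of every irreducible character of G of degree greater than one. Then G has a normal p-complement: a normal subgroup of order prime to p whose index is a power of p. -/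
theorem result {G : Type*} [Group G] [Finite G] (p : ℕ) (hp : p.Prime) (hdeg : ∀ χ : Cfsg.IrrCharacter G, Cfsg.charDegree (χ : G → ℂ) ≠ 1 → p ∣ Cfsg.charDegree (χ : G → ℂ)) : ∃ N : Subgroup G, N.Normal ∧ (Nat.card N).Coprime p ∧ ∃ k : ℕ, N.index = p ^ k := by
  have := Fintype.ofFinite G
  have := Fact.mk hp
  exact ⟨pResidual p G, inferInstance, ((Nat.Prime.coprime_iff_not_dvd hp).2
    (thompson fun χ h => hdeg ⟨χ, mem_irr_top.1 h⟩)).symm,
    CA.PRes.exists_index_eq_of_pResidual_le le_rfl⟩

end Cfsg.Agent.S4456
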