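import Cfsg.Statements.S4457
import Cfsg.Agent.Lib.Char.H10Cd

set_option autoImplicit false
open Cfsg

namespace Cfsg.Agent.S4457
open CA.PF CA.OQuo CA.H12Deg CA.H12Cd CA.H10Cd Subgroup CA.BG

/-- Let G be a finite group whose irreducible character degrees are exactly 1 and m (m ≠ 1). Then either G has an abelian normal subgroup of index m, or m is a power of a prime p and G is the direct product of a p-group and an abelian group: there are normal subgroups P and A with P a p-group, A abelian, P ⊓ A = 1 and P ⊔ A = G. -/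
theorem result {G : Type*} [Group G] [Finite G] (m : ℕ) (hcd : ∀ χ : Cfsg.IrrCharacter G, Cfsg.charDegree (χ : G → ℂ) = 1 ∨ Cfsg.charDegree (χ : G → ℂ) = m) (hm : ∃ χ : Cfsg.IrrCharacter G, Cfsg.charDegree (χ : G → ℂ) = m) (hm1 : m ≠ 1) : (∃ A : Subgroup G, A.Normal ∧ (∀ a ∈ A, ∀ b ∈ A, a * b = b * a) ∧ A.index = m) ∨ ∃ p e : ℕ, p.Prime ∧ m = p ^ e ∧ ∃ P A : Subgroup G, P.Normal ∧ A.Normal ∧ IsPGroup p P ∧ (∀ a ∈ A, ∀ b ∈ A, a * b = b * a) ∧ P ⊓ A = ⊥ ∧ P ⊔ A = ⊤ := by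
  have := Fintype.ofFinite G
  have h : ∀ d ∈ cd G, d = 1 ∨ d = m := fun d hd => by
    obtain ⟨χ, rfl⟩ := mem_cd'.1 hd
    exact hcd χ
  have cm : ∀ A : Subgroup G, IsMulCommutative A → ∀ a ∈ A, ∀ b ∈ A, a * b = b * a :=
    fun A hA a ha b hb => (comm_iff_le_cent.1 hA hb a ha)
  rcases two_struct h with ⟨A, h1, h2, h3⟩ | h1
  · exact Or.inl ⟨A, h1, cm A h2, h3⟩
  obtain ⟨p, hp, hd⟩ := Nat.exists_prime_and_dvd hm1
  obtain ⟨⟨e, he⟩, h2, h3⟩ := two_nil h (mem_cd'.2 hm) hp hd h1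
  exact Or.inr ⟨p, e, hp, he, _, _, (nrm_of_le_normalizer le_top (le_norm_core _ _)).normal_of_top,
    (nrm_of_le_normalizer le_top (le_norm_core _ _)).normal_of_top, (core_pi _ _).isPGroup hp,
    cm _ h2, h3.disj, h3.sup⟩

end Cfsg.Agent.S4457
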