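import Cfsg.Statements.S4458
import Cfsg.Agent.Lib.Char.H10Cd

set_option autoImplicit false
open Cfsg

namespace Cfsg.Agent.S4458
open CA.PF CA.OQuo CA.H12Deg CA.H12Cd CA.H10Cd Subgroup

/-- If a finite group has exactly two irreducible character degrees, 1 and m with m ≠ 1, then its commutator subgroup is abelian. -/
theorem result {G : Type*} [Group G] [Finite G] (m : ℕ) (hcd : ∀ χ : Cfsg.IrrCharacter G, Cfsg.charDegree (χ : G → ℂ) = 1 ∨ Cfsg.charDegree (χ : G → ℂ) = m) (hm : ∃ χ : Cfsg.IrrCharacter G, Cfsg.charDegree (χ : G → ℂ) = m) (hm1 : m ≠ 1) : ∀ a ∈ commutator G, ∀ b ∈ commutator G, a * b = b * a := by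
  have := Fintype.ofFinite G
  have h := der2 (Γ := G) (m := m) fun d hd => by
    obtain ⟨χ, rfl⟩ := mem_cd'.1 hd
    exact hcd χ
  intro a ha b hb
  exact commutatorElement_eq_one_iff_mul_comm.1 (mem_bot.1 (h ▸ commutator_mem_commutator ha hb))

end Cfsg.Agent.S4458
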