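import Cfsg.Statements.S4459
import Cfsg.Agent.Lib.Char.H10FS
import Cfsg.Agent.S4457
import Cfsg.Agent.Lib.Char.BPerm
import Cfsg.Agent.Lib.Grp.PGBasic
import Cfsg.Agent.Lib.Grp.PGClassTwo

set_option autoImplicit false
open Cfsg

namespace Cfsg.Agent.S4459
open scoped commutatorElement
open CA.H10FS CA.MatRep CA.H11FS CA.Clif CA.Gall CA.Ind2 CA.Ext CChar.CharFun CChar.CharOrth CChar.CharInt CChar.CharProd CChar.CharKer CA.Ind Subgroup

open scoped ComplexConjugate

variable {G : Type*} [Group G] [Fintype G] {p : ℕ}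

theorem fix_card {A : Subgroup G} [hA : A.Normal] (hab : ∀ a ∈ A, ∀ b ∈ A, a * b = b * a) (x : G) :
    Nat.card {θ : IrrCharacter A // x ∈ inertia θ.1} =
      Nat.card (A ⊓ centralizer ({x} : Set G) : Subgroup G) := by
  have hc : ∀ a b : A, IsConj a b → a = b := fun a b h => by
    obtain ⟨c, rfl⟩ := isConj_iff.1 h
    exact Subtype.ext (by simp [hab _ c.2 _ a.2])
  have h := CA.BPerm.card_fixed_eq (G := A) (fun θ => ⟨cj x θ.1, cj_irr x θ.2⟩)
    (fun a => ⟨x * a * x⁻¹, hA.conj_mem a a.2 x⟩) (fun _ _ => rfl)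
    (fun C => ∀ a : A, ConjClasses.mk a = C → (a : G) * x = x * a) (fun a => by
      constructor
      · intro h
        have : (⟨x * a * x⁻¹, hA.conj_mem a a.2 x⟩ : A) = a := Subtype.ext (by
          simp only; rw [← h a rfl]; simp)
        rw [this]
      · intro h b hb
        rw [hc _ _ (ConjClasses.mk_eq_mk_iff_isConj.1 hb)]
        have := congrArg Subtype.val (hc _ _ h)
        exact (mul_inv_eq_iff_eq_mul.1 this).symm)
  refine Eq.trans (Nat.card_congr (Equiv.subtypeEquivRight fun θ => ?_)) (h.trans ?_)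
  · rw [mem_inertia, Subtype.ext_iff]
  · symm
    refine Nat.card_eq_of_bijective (fun a => ⟨ConjClasses.mk ⟨a.1, a.2.1⟩, fun b hb => ?_⟩) ⟨?_, ?_⟩
    · rw [hc _ _ (ConjClasses.mk_eq_mk_iff_isConj.1 hb)]
      exact mem_centralizer_singleton_iff.1 a.2.2
    · intro a b e
      have := hc _ _ (ConjClasses.mk_eq_mk_iff_isConj.1 (congrArg Subtype.val e))
      exact Subtype.ext (by have := congrArg Subtype.val this; exact this)
    · rintro ⟨C, hC⟩
      obtain ⟨a, rfl⟩ := ConjClasses.mk_surjective C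
      exact ⟨⟨a, a.2, mem_centralizer_singleton_iff.2 (hC a rfl)⟩, rfl⟩

theorem mid (hp : p.Prime) {A H : Subgroup G} (hi : A.index = p ^ 2) (h1 : A ≤ H) (h2 : H ≠ A)
    (h3 : H ≠ ⊤) : H.index = p := by
  obtain ⟨j, hj, e⟩ := (Nat.dvd_prime_pow hp).1 (hi ▸ index_dvd_of_le h1)
  interval_cases j
  · exact (h3 (index_eq_one.1 e)).elim
  · simpa using e
  · refine (h2 (eq_of_le_of_card_ge h1 ?_).symm).elim
    have a := H.card_mul_index
    rw [← A.card_mul_index, hi, e] at a
    exact (Nat.eq_of_mul_eq_mul_right (pow_pos hp.pos 2) a).le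

theorem good (hp : p.Prime) {A L : Subgroup G} [hA : A.Normal] (hab : ∀ a ∈ A, ∀ b ∈ A, a * b = b * a)
    (hi : A.index = p ^ 2) (hT : ∀ θ : IrrCharacter A, inertia θ.1 ≠ A) (hAL : A ≤ L) (hL : L.index = p)
    (hx : ∀ x, x ∉ A → ∃ k, (centralizer ({x} : Set G)).relIndex A = p ^ (k + 1)) :
    ∃ x, x ∉ L ∧ (centralizer ({x} : Set G)).relIndex A = p := by
  classical
  by_contra hno
  push Not at hno
  haveI : Fintype A := Fintype.ofFinite _
  set n := Nat.card A with hn
  let c : G → ℕ := fun x => Nat.card (A ⊓ centralizer ({x} : Set G) : Subgroup G)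
  have hcn : ∀ x, c x * (centralizer ({x} : Set G)).relIndex A = n := fun x => by
    have := card_mul_index ((centralizer ({x} : Set G)).subgroupOf A)
    rw [← inf_subgroupOf_right, Nat.card_congr (subgroupOfEquivOfLe inf_le_right).toEquiv,
      inf_subgroupOf_right, inf_comm] at this
    exact this
  have hG : Nat.card G = n * p ^ 2 := by rw [← A.card_mul_index, hi]
  have hLc : Nat.card L = n * p := by
    have := L.card_mul_index
    rw [hG, hL, sq, ← mul_assoc] at this
    exact Nat.eq_of_mul_eq_mul_right hp.pos this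
  have h1 : ∑ x, c x = ∑ θ : IrrCharacter A, Nat.card (inertia θ.1) := by
    simp only [c, ← fix_card hab, Nat.card_eq_fintype_card, Fintype.card_subtype, Finset.card_filter]
    exact Finset.sum_comm
  have h2 : n * (n * p) < ∑ θ : IrrCharacter A, Nat.card (inertia θ.1) := by
    have hc : Fintype.card (IrrCharacter A) = n := by
      rw [← Nat.card_eq_fintype_card, card_irr_of_comm fun a b => Subtype.ext (hab _ a.2 _ b.2)]
    have htop : ∀ θ : IrrCharacter A, inertia θ.1 = ⊤ → n * p < Nat.card (inertia θ.1) := fun θ h => by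
      rw [h, card_top, hG, sq]
      have : 0 < n := Nat.card_pos
      have := hp.one_lt
      exact Nat.mul_lt_mul_of_pos_left (by nlinarith) ‹0 < n›
    rw [show n * (n * p) = ∑ _θ : IrrCharacter A, n * p by simp [hc]]
    refine Finset.sum_lt_sum (fun θ _ => ?_) ⟨⟨fun _ => 1, irr_one⟩, Finset.mem_univ _,
      htop _ (inertia_eq_top_iff.2 fun _ => rfl)⟩
    by_cases h : inertia θ.1 = ⊤
    · exact (htop θ h).le
    · have := (inertia θ.1).card_mul_index
      rw [mid hp hi (le_inertia (irr_classFun θ.2)) (hT θ) h, hG, sq, ← mul_assoc] at this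
      exact (Nat.eq_of_mul_eq_mul_right hp.pos this).ge
  have h3 : ∀ x, p ^ 2 * c x ≤ n + (if x ∈ L then (p - 1) * n else 0) +
      (if x ∈ A then (p ^ 2 - p) * n else 0) := by
    intro x
    have hp1 : 1 ≤ p := hp.one_lt.le
    have hp2 : p ≤ p ^ 2 := by nlinarith
    have e := hcn x
    by_cases a : x ∈ A
    · rw [if_pos a, if_pos (hAL a)]
      have : c x ≤ n := Nat.le_of_dvd Nat.card_pos (Dvd.intro _ e)
      zify [hp1, hp2] at *
      nlinarith
    obtain ⟨k, hk⟩ := hx x a
    rw [if_neg a]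
    by_cases b : x ∈ L
    · rw [if_pos b, ← e, hk]
      have : 0 < p ^ k := pow_pos hp.pos k
      zify [hp1] at *
      have h5 : (0 : ℤ) ≤ c x * p ^ 2 * (p ^ k - 1) := by
        have : (0 : ℤ) ≤ p ^ k - 1 := by omega
        positivity
      rw [pow_succ (p : ℤ) k]
      nlinarith
    · rw [if_neg b, ← e, hk]
      rcases k with _ | k
      · exact (hno x b (by simpa using hk)).elim
      · have : 0 < p ^ k := pow_pos hp.pos k
        calc p ^ 2 * c x = c x * (1 * p ^ 2) := by ring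
          _ ≤ c x * (p ^ k * p ^ 2) := by gcongr; omega
          _ = _ := by ring
  have h4 := Finset.sum_le_sum fun x (_ : x ∈ Finset.univ) => h3 x
  rw [← Finset.mul_sum, h1, Finset.sum_add_distrib, Finset.sum_add_distrib, ← Finset.sum_filter,
    ← Finset.sum_filter, Finset.sum_const, Finset.sum_const, Finset.sum_const, ← Fintype.card_subtype,
    ← Fintype.card_subtype, Finset.card_univ] at h4
  simp only [← Nat.card_eq_fintype_card, smul_eq_mul] at h4
  rw [hG, show Nat.card {x // x ∈ L} = n * p from hLc, show Nat.card {x // x ∈ A} = n from rfl] at h4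
  have hp1 : 1 ≤ p := hp.one_lt.le
  have hp2 : p ≤ p ^ 2 := by nlinarith
  have h5 := Nat.mul_lt_mul_of_pos_left h2 (pow_pos hp.pos 2)
  have h6 := h5.trans_le h4
  have hp3 : (2 : ℤ) ≤ p := by exact_mod_cast hp.two_le
  zify [hp1, hp2] at h6
  have h7 : (0 : ℤ) ≤ n * n * p * ((p - 1) * (p - 2)) := by
    have : (0 : ℤ) ≤ p - 1 := by omega
    have : (0 : ℤ) ≤ p - 2 := by omega
    positivity
  nlinarith

theorem hard (hp : p.Prime) [Group.IsNilpotent G] (hP : IsPGroup p (_root_.commutator G))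
    (hG : _root_.commutator G ≠ ⊥)
    (hcd : ∀ χ, IsIrrCharacter G χ → charDegree χ = 1 ∨ charDegree χ = p)
    (hno : ∀ L : Subgroup G, L.Normal → (∀ a ∈ L, ∀ b ∈ L, a * b = b * a) → L.index ≠ p) :
    (center G).index = p ^ 3 := by
  classical
  haveI : Fact p.Prime := ⟨hp⟩
  obtain ⟨t, ht, htN⟩ := SetLike.exists_of_lt (CA.PGBasic.commutator_top_lt hG)
  obtain ⟨χ, hχ, hk, htk⟩ := exists_irr_of_not_mem htN
  have hd : χ 1 = p := by
    rw [irr_apply_one_eq hχ, (hcd χ hχ).resolve_left fun e => htk ((irr_apply_one_iff hχ).1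
      (by rw [irr_apply_one_eq hχ, e]; simp) ht)]
  set A := charCenter χ with hAdef
  have hle : _root_.commutator G ≤ A := fun x hx => (mem_charCenter_iff_commutator hχ).2
    fun g => hk (commutator_mem_commutator hx (mem_top g))
  have hv : ∀ g, g ∉ A → χ g = 0 := fun g hg => apply_eq_zero_of_commutator_le hχ hle hg
  have hi : A.index = p ^ 2 := ((degree_sq_eq_index_iff hχ le_rfl hd).2 hv).symm
  haveI : Fintype A := Fintype.ofFinite _
  have hover : ∀ θ, IsIrrCharacter A θ → ∃ (ψ : G → ℂ) (m : ℕ), IsIrrCharacter G ψ ∧ 0 < m ∧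
      classInner (fun n : A => ψ n) θ = m ∧ charDegree ψ = m * (inertia θ).index * charDegree θ := by
    intro θ hθ
    obtain ⟨ψ, hψ, h1⟩ := CA.Cons.exists_irr_over A hθ
    obtain ⟨m, hm⟩ := inner_char_char (char_comp (char_of_irr hψ) A.subtype) (char_of_irr hθ)
    have hm' : classInner (fun n : A => ψ n) θ = m := hm
    refine ⟨ψ, m, hψ, Nat.pos_of_ne_zero fun e => h1 (by rw [hm', e]; simp), hm', charDegree_eq ?_⟩
    rw [apply_one_eq hψ hθ h1, hm', irr_apply_one_eq hθ]; simp
  have hdle : ∀ ψ, IsIrrCharacter G ψ → charDegree ψ ∣ p := fun ψ h => by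
    rcases hcd ψ h with e | e <;> simp [e]
  have hab : ∀ a ∈ A, ∀ b ∈ A, a * b = b * a := by
    have : ∀ a b : A, a * b = b * a := by
      rw [comm_iff_irr_apply_one]
      intro θ hθ
      by_contra h1
      obtain ⟨ψ, m, hψ, hm0, hm, hψd⟩ := hover θ hθ
      have h2 : charDegree θ = p := ((Nat.dvd_prime hp).1
        ((Dvd.intro_left _ hψd.symm).trans (hdle ψ hψ))).resolve_left fun e => h1 (by
          rw [irr_apply_one_eq hθ, e]; simp)
      have h3 : charDegree ψ = p := Nat.dvd_antisymm (hdle ψ hψ) (h2 ▸ Dvd.intro_left _ hψd.symm)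
      have h4 : (fun n : A => ψ n) = θ := eq_of_inner_ne_zero_of_apply_one
        (char_comp (char_of_irr hψ) A.subtype) hθ (by
          change classInner (fun n : A => ψ n) θ ≠ 0
          rw [hm]; exact_mod_cast hm0.ne')
        (by rw [irr_apply_one_eq hθ, h2, ← h3, ← irr_apply_one_eq hψ]; rfl)
      have h5 : IsIrrCharacter G (ψ * χ) := by
        refine irr_of_char_of_inner_self (char_mul (char_of_irr hψ) (char_of_irr hχ)) ?_
        have h6 := inner_irr_self hθ
        rw [CA.Ind.inner_def] at h6 ⊢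
        have h7 : ∑ g, (ψ * χ) g * conj ((ψ * χ) g) = ∑ a : A, (p : ℂ) ^ 2 * (θ a * conj (θ a)) := by
          rw [← Finset.sum_filter_add_sum_filter_not _ (· ∈ A), Finset.sum_eq_zero
            (s := Finset.univ.filter (· ∉ A)) (fun g hg => by simp [hv g (Finset.mem_filter.1 hg).2]),
            add_zero, Finset.sum_subtype _ (p := (· ∈ A)) (by simp)]
          refine Finset.sum_congr rfl fun a _ => ?_
          have h8 := (mem_charCenter (char_of_irr hχ)).1 a.2
          have h9 : χ a * conj (χ a) = (p : ℂ) ^ 2 := by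
            rw [Complex.mul_conj, Complex.normSq_eq_norm_sq, h8, hd]; simp
          rw [← h4, ← h9]; simp only [Pi.mul_apply, map_mul]; ring
        rw [h7, ← Finset.mul_sum, ← A.card_mul_index, hi]
        have : (p : ℂ) ≠ 0 := by exact_mod_cast hp.ne_zero
        rw [← h6]; push_cast; field_simp
      have h6 := hdle _ h5
      rw [charDegree_eq (n := p * p) (by
        rw [Pi.mul_apply, hd, irr_apply_one_eq hψ, h3]; simp)] at h6
      have := Nat.le_of_dvd hp.pos h6
      have := hp.one_lt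
      nlinarith
    exact fun a ha b hb => congrArg Subtype.val (this ⟨a, ha⟩ ⟨b, hb⟩)
  have hT : ∀ θ : IrrCharacter A, inertia θ.1 ≠ A := fun θ e => by
    obtain ⟨ψ, m, hψ, hm0, -, hψd⟩ := hover θ θ.2
    rw [e, hi] at hψd
    have := Nat.le_of_dvd hp.pos ((Dvd.intro_left m rfl).trans ((Dvd.intro _ hψd.symm).trans (hdle ψ hψ)))
    have := hp.one_lt
    nlinarith
  have hnorm : ∀ L : Subgroup G, A ≤ L → L.Normal := fun L h => ⟨fun n hn g => by
    have : g * n * g⁻¹ = ⁅g, n⁆ * n := by simp [commutatorElement_def]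
    rw [this]; exact mul_mem (h (hle (commutator_mem_commutator (mem_top _) (mem_top _)))) hn⟩
  have hgen : ∀ x : G, ∀ (X : Type _) [Group X] (f : G →* X), (∀ a ∈ A, ∀ g ∈ A ⊔ zpowers x, Commute (f a) (f g)) →
      ∀ a ∈ A ⊔ zpowers x, ∀ b ∈ A ⊔ zpowers x, Commute (f a) (f b) := by
    intro x X _ f h a ha b hb
    obtain ⟨u, hu, _, ⟨i, rfl⟩, rfl⟩ := mem_sup_of_normal_left.1 ha
    obtain ⟨v, hv, _, ⟨j, rfl⟩, rfl⟩ := mem_sup_of_normal_left.1 hb
    rw [map_mul f u]
    refine (h u hu _ hb).mul_left ?_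
    rw [map_mul]
    exact (h v hv _ (mem_sup_right ⟨i, rfl⟩)).symm.mul_right ((Commute.zpow_zpow_self x i j).map f)
  have hL : ∀ x, x ∉ A → (A ⊔ zpowers x).index = p := fun x hx =>
    mid hp hi le_sup_left (fun e => hx (e ▸ mem_sup_right (mem_zpowers x))) fun e => by
      refine htk ((?_ : _root_.commutator G ≤ charKer χ) ht)
      rw [_root_.commutator_def, commutator_le]
      intro a _ b _
      rw [← QuotientGroup.eq_one_iff, ← QuotientGroup.mk'_apply, map_commutatorElement,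
        commutatorElement_eq_one_iff_commute]
      refine hgen x _ _ (fun a ha g _ => ?_) a (e ▸ mem_top a) b (e ▸ mem_top b)
      rw [← commutatorElement_eq_one_iff_commute, ← map_commutatorElement]
      exact (QuotientGroup.eq_one_iff _).2 ((mem_charCenter_iff_commutator hχ).1 ha g)
  have hcA : ∀ a ∈ A, ∀ x, ⁅a, x⁆ ∈ A := fun a _ x => hle (commutator_mem_commutator (mem_top _) (mem_top _))
  let φ : G → A →* G := fun x => MonoidHom.mk' (fun a => ⁅(a : G), x⁆) fun a b => by
    simp only [coe_mul]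
    rw [CA.PGClassTwo.comm_mul_left (hab _ a.2 _ (hcA _ b.2 x)), hab _ (hcA _ b.2 x) _ (hcA _ a.2 x)]
  have hφk : ∀ x, (centralizer ({x} : Set G)).relIndex A = Nat.card (φ x).range := fun x => by
    have : (centralizer ({x} : Set G)).subgroupOf A = (φ x).ker := by
      ext a
      rw [mem_subgroupOf, mem_centralizer_singleton_iff, MonoidHom.mem_ker,
        ← commutatorElement_eq_one_iff_mul_comm]
      rfl
    rw [← index_ker, ← this]; rfl
  have hx : ∀ x, x ∉ A → ∃ k, (centralizer ({x} : Set G)).relIndex A = p ^ (k + 1) := by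
    intro x hx
    obtain ⟨k, hk⟩ := IsPGroup.iff_card.1 (hP.to_le (H := (φ x).range) (by
      rintro _ ⟨a, rfl⟩; exact commutator_mem_commutator (mem_top _) (mem_top _)))
    rw [← hφk] at hk
    rcases k with _ | k
    · refine (hno _ (hnorm _ le_sup_left) (hgen x G (MonoidHom.id G) fun a ha g hg => ?_) (hL x hx)).elim
      obtain ⟨u, hu, _, ⟨i, rfl⟩, rfl⟩ := mem_sup_of_normal_left.1 hg
      have : Commute a x := mem_centralizer_singleton_iff.1 (relIndex_eq_one.1 hk ha)
      exact (show Commute a u from hab a ha u hu).mul_right (this.zpow_right i)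
    · exact ⟨k, hk⟩
  obtain ⟨x₀, -, hx₀⟩ := SetLike.exists_of_lt (lt_top_iff_ne_top.2 fun e : A = ⊤ => by
    rw [e, index_top] at hi; exact (Nat.one_lt_pow two_ne_zero hp.one_lt).ne hi)
  obtain ⟨x, hx1, hx2⟩ := good hp hab hi hT le_sup_left (hL x₀ hx₀) hx
  have hxA : x ∉ A := fun h => hx1 (mem_sup_left h)
  obtain ⟨y, hy1, hy2⟩ := good hp hab hi hT le_sup_left (hL x hxA) hx
  have hyA : y ∉ A := fun h => hy1 (mem_sup_left h)
  have hmax : ∀ L H : Subgroup G, L.index = p → L ≤ H → H ≠ ⊤ → H = L := fun L H h1 h2 h3 => by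
    have h4 : H.index = p := ((Nat.dvd_prime hp).1 (h1 ▸ index_dvd_of_le h2)).resolve_left
      fun e => h3 (index_eq_one.1 e)
    refine (eq_of_le_of_card_ge h2 ?_).symm
    have a := H.card_mul_index
    rw [← L.card_mul_index, h1, h4] at a
    exact (Nat.eq_of_mul_eq_mul_right hp.pos a).le
  have htop : ∀ H : Subgroup G, A ≤ H → x ∈ H → y ∈ H → H = ⊤ := fun H h1 h2 h3 => by
    by_contra h
    exact hy1 (hmax _ H (hL x hxA) (sup_le h1 (zpowers_le.2 h2)) h ▸ h3)
  have hx3 : x ∉ A ⊔ zpowers y := fun h => by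
    have := hL y hyA
    rw [htop _ le_sup_left h (mem_sup_right (mem_zpowers y)), index_top] at this
    exact hp.one_lt.ne this
  have hcen : ∀ w, (centralizer ({w} : Set G)).relIndex A = p → ∀ a ∈ A, ⁅a, w⁆ ∈ center G := by
    intro w hw a ha
    rw [hφk] at hw
    haveI : (φ w).range.Normal := ⟨by
      rintro _ ⟨b, rfl⟩ g
      refine ⟨⟨g * b * g⁻¹, (inferInstance : A.Normal).conj_mem _ b.2 g⟩, ?_⟩
      change ⁅g * b * g⁻¹, w⁆ = g * ⁅(b : G), w⁆ * g⁻¹
      have h1 : ⁅w⁻¹, g⁆ ∈ A := hle (commutator_mem_commutator (mem_top _) (mem_top _))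
      have h2 := hab _ h1 _ ((inferInstance : A.Normal).conj_mem _ (A.inv_mem b.2) g)
      calc ⁅g * b * g⁻¹, w⁆ = g * b * g⁻¹ * w * (⁅w⁻¹, g⁆ * (g * (b : G)⁻¹ * g⁻¹)) * ⁅w⁻¹, g⁆⁻¹ * w⁻¹ := by
            rw [h2]; simp [commutatorElement_def, mul_assoc]
        _ = _ := by simp [commutatorElement_def, mul_assoc]⟩
    obtain ⟨z, hz, hz1, hzc⟩ := CA.PGBasic.exists_mem_center_of_nilpotent (M := (φ w).range)
      (fun e => by rw [e, card_bot] at hw; exact hp.one_lt.ne hw)
    have : zpowers z = (φ w).range := eq_of_le_of_card_ge (zpowers_le.2 hz) (by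
      have h1 := card_dvd_of_le (zpowers_le.2 hz)
      rw [hw] at h1 ⊢
      exact ((Nat.dvd_prime hp).1 h1).elim (fun e => (hz1 (by
        rwa [Nat.card_zpowers, orderOf_eq_one_iff] at e)).elim) fun e => e.ge)
    exact zpowers_le.2 hzc (this ▸ ⟨⟨a, ha⟩, rfl⟩)
  have hZ : ∀ a ∈ A, ∀ g, ⁅a, g⁆ ∈ center G := by
    intro a ha g
    have h1 : (centralizer ({(a : G ⧸ center G)} : Set _)).comap (QuotientGroup.mk' (center G)) = ⊤ := by
      have key : ∀ w, ⁅a, w⁆ ∈ center G →
          w ∈ (centralizer ({(a : G ⧸ center G)} : Set _)).comap (QuotientGroup.mk' (center G)) :=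
        fun w hw => mem_centralizer_singleton_iff.2 (commutatorElement_eq_one_iff_mul_comm.1
          ((map_commutatorElement (QuotientGroup.mk' _) a w).symm.trans
            ((QuotientGroup.eq_one_iff _).2 hw))).symm
      exact htop _ (fun w hw => key w (by
        rw [commutatorElement_eq_one_iff_mul_comm.2 (hab a ha w hw)]; exact one_mem _))
        (key x (hcen x hx2 a ha)) (key y (hcen y hy2 a ha))
    have h2 := mem_centralizer_singleton_iff.1 (mem_comap.1 (h1 ▸ mem_top g))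
    rw [← QuotientGroup.eq_one_iff, ← QuotientGroup.mk'_apply, map_commutatorElement,
      commutatorElement_eq_one_iff_mul_comm]
    exact h2.symm
  by_cases hC : A ⊓ centralizer ({x} : Set G) ≤ centralizer ({y} : Set G)
  · have : center G = A ⊓ centralizer ({x} : Set G) := by
      refine le_antisymm (le_inf (center_le_charCenter hχ) (center_le_centralizer _)) fun a ha => ?_
      have := htop (centralizer {a}) (fun w hw => mem_centralizer_singleton_iff.2 (hab w hw a ha.1))
        (mem_centralizer_singleton_iff.2 (mem_centralizer_singleton_iff.1 ha.2).symm)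
        (mem_centralizer_singleton_iff.2 (mem_centralizer_singleton_iff.1 (hC ha)).symm)
      exact mem_center_iff.2 fun g => mem_centralizer_singleton_iff.1 (this ▸ mem_top g)
    rw [this, ← relIndex_mul_index (inf_le_left : A ⊓ centralizer {x} ≤ A), inf_relIndex_left, hx2, hi]
    ring
  exfalso
  have hC' : ¬ A ⊓ centralizer ({y} : Set G) ≤ centralizer ({x} : Set G) := fun h => hC (by
    have h1 : (centralizer ({y} : Set G)).subgroupOf A ≤ (centralizer ({x} : Set G)).subgroupOf A :=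
      fun a ha => h ⟨a.2, ha⟩
    have h2 := eq_of_le_of_card_ge h1 (by
      have a := ((centralizer ({y} : Set G)).subgroupOf A).card_mul_index
      rw [← ((centralizer ({x} : Set G)).subgroupOf A).card_mul_index] at a
      change _ * relIndex _ _ = _ * relIndex _ _ at a
      rw [hx2, hy2] at a
      exact (Nat.eq_of_mul_eq_mul_right hp.pos a).ge)
    intro a ha
    have : (⟨a, ha.1⟩ : A) ∈ (centralizer ({y} : Set G)).subgroupOf A := h2 ▸ ha.2
    exact this)
  obtain ⟨a, ha, hay⟩ := SetLike.not_le_iff_exists.1 hC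
  obtain ⟨b, hb, hbx⟩ := SetLike.not_le_iff_exists.1 hC'
  rw [mem_centralizer_singleton_iff, ← commutatorElement_eq_one_iff_mul_comm] at hay hbx
  have hlin : ∀ u : A, u ≠ 1 → ∃ l : A →* ℂˣ, l u ≠ 1 := fun u hu => by
    by_contra h
    push Not at h
    refine hu (eq_one_of_forall_irr fun θ hθ => ?_)
    obtain ⟨l, hl⟩ := linearEquivHom.surjective ⟨⟨θ, hθ⟩, irr_apply_one_of_comm
      (fun a b => Subtype.ext (hab _ a.2 _ b.2)) hθ⟩
    have : ∀ v, θ v = l v := fun v => (congrFun (congrArg (fun x => x.1.1) hl) v).symm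
    rw [this, this, h l, map_one]
  obtain ⟨l, hl1, hl2⟩ : ∃ l : A →* ℂˣ, l ⟨_, hcA a ha.1 y⟩ ≠ 1 ∧ l ⟨_, hcA b hb.1 x⟩ ≠ 1 := by
    obtain ⟨l, hl⟩ := hlin ⟨_, hcA a ha.1 y⟩ fun e => hay (congrArg Subtype.val e)
    obtain ⟨m, hm⟩ := hlin ⟨_, hcA b hb.1 x⟩ fun e => hbx (congrArg Subtype.val e)
    by_cases h1 : l ⟨_, hcA b hb.1 x⟩ = 1
    · by_cases h2 : m ⟨_, hcA a ha.1 y⟩ = 1
      · exact ⟨l * m, by simpa [h2] using hl, by simpa [h1] using hm⟩
      · exact ⟨m, h2, hm⟩
    · exact ⟨l, hl, h1⟩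
  have key : ∀ a ∈ A, ∀ x y, x ∉ A → a * x = x * a → (∀ h, l ⟨⁅a, y⁆, h⟩ ≠ 1) →
      inertia (fun u : A => (l u : ℂ)) ≤ A ⊔ zpowers x := by
    intro a ha x y hxA hax hl
    let f : G →* ℂˣ := MonoidHom.mk' (fun g => l ⟨⁅a, g⁆, hcA a ha g⟩) fun g h => by
      rw [← map_mul]
      exact congrArg l (Subtype.ext (CA.PGClassTwo.comm_mul_right (mem_center_iff.1 (hZ a ha h) g)))
    have h0 : ∀ w, a * w = w * a → w ∈ f.ker := fun w hw => by
      change l _ = 1
      rw [← map_one l]
      exact congrArg l (Subtype.ext (commutatorElement_eq_one_iff_mul_comm.2 hw))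
    rw [← hmax _ f.ker (hL x hxA) (sup_le (fun w hw => h0 w (hab a ha w hw)) (zpowers_le.2 (h0 x hax)))
      fun e => hl _ (MonoidHom.mem_ker.1 (e ▸ mem_top y))]
    intro g hg
    have h1 := Units.ext (mem_inertia'.1 hg ⟨a, ha⟩⁻¹)
    change l _ = 1
    have : (⟨⁅a, g⁆, hcA a ha g⟩ : A) = ⟨a, ha⟩ * ⟨g * ((⟨a, ha⟩ : A)⁻¹ : A) * g⁻¹,
      (inferInstance : A.Normal).conj_mem _ (⟨a, ha⟩ : A)⁻¹.2 g⟩ :=
      Subtype.ext (by simp [commutatorElement_def, mul_assoc])
    rw [this, map_mul, h1, ← map_mul, mul_inv_cancel, map_one]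
  have k1 := key a ha.1 x y hxA (mem_centralizer_singleton_iff.1 ha.2) fun _ => hl1
  have k2 := key b hb.1 y x hyA (mem_centralizer_singleton_iff.1 hb.2) fun _ => hl2
  have hθ := irr_of_unitsHom l
  have h1 := mid hp hi (le_inertia (irr_classFun hθ)) (hT ⟨_, hθ⟩) fun e =>
    hy1 (k1 (e ▸ mem_top y))
  have e1 := hmax _ _ h1 k1 fun e => hy1 (e ▸ mem_top y)
  have e2 := hmax _ _ h1 k2 fun e => hx3 (e ▸ mem_top x)
  exact hy1 (e1 ▸ e2 ▸ mem_sup_right (mem_zpowers y))

/-- Let G be a non-abelian finite group and p a prime. Then the irreducible character degrees of G are exactly 1 and p if and only if either G has an abelian normal subgroup of index p or the centre of G has index p³. -/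
theorem result {G : Type*} [Group G] [Finite G] (hG : ∃ a b : G, a * b ≠ b * a) (p : ℕ) (hp : p.Prime) : ((∀ χ : Cfsg.IrrCharacter G, Cfsg.charDegree (χ : G → ℂ) = 1 ∨ Cfsg.charDegree (χ : G → ℂ) = p) ∧ ∃ χ : Cfsg.IrrCharacter G, Cfsg.charDegree (χ : G → ℂ) = p) ↔ ((∃ A : Subgroup G, A.Normal ∧ (∀ a ∈ A, ∀ b ∈ A, a * b = b * a) ∧ A.index = p) ∨ (Subgroup.center G).index = p ^ 3) := by
  classical
  haveI : Fintype G := Fintype.ofFinite _
  have hex : ∃ χ : IrrCharacter G, charDegree χ.1 ≠ 1 := by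
    by_contra h
    push Not at h
    obtain ⟨a, b, hab⟩ := hG
    exact hab (comm_iff_irr_apply_one.2 (fun χ hχ => by
      rw [irr_apply_one_eq hχ, h ⟨χ, hχ⟩]; simp) a b)
  constructor
  · rintro ⟨h1, h2⟩
    by_cases hno : ∃ A : Subgroup G, A.Normal ∧ (∀ a ∈ A, ∀ b ∈ A, a * b = b * a) ∧ A.index = p
    · exact Or.inl hno
    obtain ⟨q, e, hq, he, P, A, hP, hA, hPq, hab, -, hs⟩ :=
      (Cfsg.Agent.S4457.result p h1 h2 hp.ne_one).resolve_left hno
    obtain rfl : q = p := (Nat.prime_dvd_prime_iff_eq hq hp).1 (he ▸ dvd_pow_self q (by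
      rintro rfl; exact hp.ne_one he))
    haveI : Group.IsNilpotent (⊤ : Subgroup G) := (CA.H10Cd.two_struct (m := q) fun d hd => by
      obtain ⟨χ, rfl⟩ := CA.H12Cd.mem_cd'.1 hd
      exact h1 χ).resolve_left fun ⟨A, a, b, c⟩ => hno ⟨A, a, fun x hx y hy =>
        congrArg Subtype.val (b.is_comm.comm ⟨x, hx⟩ ⟨y, hy⟩), c⟩
    haveI : Group.IsNilpotent G := nilpotent_of_mulEquiv (topEquiv (G := G))
    refine Or.inr (hard hp (hPq.to_le ?_) (fun e => ?_) (fun χ h => h1 ⟨χ, h⟩)
      fun L a b c => hno ⟨L, a, b, c⟩)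
    · rw [_root_.commutator_def, commutator_le]
      intro a _ b _
      obtain ⟨x, hx, u, hu, rfl⟩ := mem_sup_of_normal_left.1 (hs ▸ mem_top a)
      obtain ⟨y, hy, v, hv, rfl⟩ := mem_sup_of_normal_left.1 (hs ▸ mem_top b)
      rw [← QuotientGroup.eq_one_iff, ← QuotientGroup.mk'_apply, map_commutatorElement,
        commutatorElement_eq_one_iff_commute, map_mul, map_mul,
        (QuotientGroup.eq_one_iff x).2 hx |> fun e => (QuotientGroup.mk'_apply _ x).trans e,
        (QuotientGroup.eq_one_iff y).2 hy |> fun e => (QuotientGroup.mk'_apply _ y).trans e,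
        one_mul, one_mul]
      exact (show Commute u v from hab u hu v hv).map _
    · obtain ⟨a, b, hab⟩ := hG
      exact hab (CChar.CharMisc.comm_of_commutator_eq_bot e.le a b)
  · intro h
    suffices h1 : ∀ χ : IrrCharacter G, charDegree χ.1 = 1 ∨ charDegree χ.1 = p from
      ⟨h1, let ⟨χ, hχ⟩ := hex; ⟨χ, (h1 χ).resolve_left hχ⟩⟩
    intro χ
    rcases h with ⟨A, hA, hab, hi⟩ | h
    · haveI : Fintype A := Fintype.ofFinite _
      obtain ⟨θ, hθ, h1⟩ := CA.Cons.exists_irr_under A χ.2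
      obtain ⟨e, he, h2⟩ := CA.Ext.exists_dvd_index hθ χ.2 h1
      rw [irr_apply_one_of_comm (fun a b => Subtype.ext (hab _ a.2 _ b.2)) hθ, mul_one] at h2
      rw [charDegree_eq h2]
      exact (Nat.dvd_prime hp).1 (hi ▸ he)
    · obtain ⟨j, -, e⟩ := (Nat.dvd_prime_pow hp).1
        (h ▸ degree_dvd_index_center χ.2 (irr_apply_one_eq χ.2))
      have h2 := degree_sq_le_index χ.2 (center_le_charCenter χ.2) (irr_apply_one_eq χ.2)
      rw [h, e, ← pow_mul, Nat.pow_le_pow_iff_right hp.one_lt] at h2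
      have : j ≤ 1 := by omega
      interval_cases j <;> simp [e]

end Cfsg.Agent.S4459
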