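import Cfsg.Statements.S4460
import Cfsg.Agent.Lib.Char.H10Cd

set_option autoImplicit false
open Cfsg

namespace Cfsg.Agent.S4460
open CA.PF CA.OQuo CA.H12Deg CA.H12Cd CA.H10Cd Subgroup

/-- A finite group with exactly three distinct irreducible character degrees is solvable of derived length at most 3: its third derived subgroup is trivial. -/
theorem result {G : Type*} [Group G] [Finite G] (hcd : Nat.card {n : ℕ // ∃ χ : Cfsg.IrrCharacter G, Cfsg.charDegree (χ : G → ℂ) = n} = 3) : derivedSeries G 3 = ⊥ := by
  classical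
  have := Fintype.ofFinite G
  rw [card_cd] at hcd
  have h1 : ((cd G).erase 1).card = 2 := by rw [Finset.card_erase_of_mem one_mem_cd, hcd]
  obtain ⟨m, n, -, h2⟩ := Finset.card_eq_two.1 h1
  refine der3 (m := m) (n := n) fun d hd => or_iff_not_imp_left.2 fun e => ?_
  simpa using h2.le (Finset.mem_erase.2 ⟨e, hd⟩)

end Cfsg.Agent.S4460
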