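import Cfsg.Statements.S4461
import Cfsg.Agent.Lib.Char.H10Cd

set_option autoImplicit false
open Cfsg

namespace Cfsg.Agent.S4461
open CA.PF CA.OQuo CA.H12Deg CA.H12Cd CA.H10Cd Subgroup CA.BG

/-- Let χ be an irreducible character of the finite group G and K its kernel (the elements where χ takes the value χ(1)). Suppose either that K is not contained in the Fitting subgroup F(G), or that K = F(G) with G/K solvable and K ≠ G. Then there is an irreducible character ψ of G with ψ(1) > χ(1) whose kernel is properly contained in K. -/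
theorem result {G : Type*} [Group G] [Finite G] (χ : Cfsg.IrrCharacter G) (K : Subgroup G) [K.Normal] (hK : (∀ g : G, g ∈ K ↔ (χ : G → ℂ) g = (χ : G → ℂ) 1)) (h : ¬ K ≤ Cfsg.fittingSubgroup G ∨ (K = Cfsg.fittingSubgroup G ∧ Group.IsSolvable (G ⧸ K) ∧ K ≠ ⊤)) : ∃ ψ : Cfsg.IrrCharacter G, Cfsg.charDegree (χ : G → ℂ) < Cfsg.charDegree (ψ : G → ℂ) ∧ ∃ L : Subgroup G, (∀ g : G, g ∈ L ↔ (ψ : G → ℂ) g = (ψ : G → ℂ) 1) ∧ L < K := by
  have := Fintype.ofFinite G
  have hχ := mem_irr_top.2 χ.2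
  obtain rfl : K = cfker χ.1 := Subgroup.ext fun g => (hK g).trans (irr_mem_cfker hχ).symm
  obtain ⟨ψ, h1, h2, h3⟩ := broline hχ (h.imp (by rw [fit_top]; exact id) fun ⟨h1, h2, h3⟩ => by
    have : Group.IsSolvable (cfker χ.1) := solv_of_nil (h1 ▸ fit_top (G := G) ▸ fit_nil ⊤)
    have := Group.isSolvable_of_ker_le_range (cfker χ.1).subtype (QuotientGroup.mk' (cfker χ.1))
      (by simp)
    exact ⟨h1.trans fit_top.symm, inferInstance, h3⟩)
  exact ⟨⟨ψ, mem_irr_top.1 h1⟩, h2, _, fun g => irr_mem_cfker h1, h3⟩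

end Cfsg.Agent.S4461
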