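import Cfsg.Statements.S4463
import Mathlib
import Cfsg.Agent.Lib.Char.H12Cd

set_option autoImplicit false
open Cfsg

namespace Cfsg.Agent.S4463

section
open CA.PF CA.H12Gl2 CA.H12Deg CA.H12Cd Subgroup Function CChar
open CA.BG hiding cj cj_one cj_mul cj_inv_cj cj_cj_inv mem_cent1
open scoped ComplexConjugate commutatorElement

universe u
variable {Γ : Type*} [Group Γ] [Fintype Γ] {H K L M N : Subgroup Γ} {χ θ φ : Γ → ℂ} {b : ℕ} {x : Γ}

theorem small (hb : ∀ d ∈ cd Γ, d ≤ b) [Nontrivial Γ] :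
    ∃ x : Γ, x ≠ 1 ∧ (centralizer {x}).index ≤ b ^ 2 := by
  classical
  by_contra! h
  have h1 := sum_deg_sq (⊤ : Subgroup Γ)
  have h2 : (irr (⊤ : Subgroup Γ)).card = Nat.card (ConjClasses Γ) := by
    rw [← CharOrth.card_irr, Finset.card_eq_sum_ones, sum_irr_top fun _ => 1]; simp
  have h3 := CharOrth.sum_card_centralizer (G := Γ)
  rw [← Finset.add_sum_erase _ _ (triv_irr ⊤), (deg_eq_one_iff (triv_irr ⊤)).2 (triv_one _),
    card_top] at h1
  have h4 := Finset.sum_le_card_nsmul ((irr (⊤ : Subgroup Γ)).erase (triv ⊤))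
    (fun χ => charDegree χ ^ 2) (b ^ 2) fun χ hχ =>
      Nat.pow_le_pow_left (hb _ (deg_mem (Finset.mem_of_mem_erase hχ))) 2
  have h5 := Finset.card_erase_add_one (triv_irr (⊤ : Subgroup Γ))
  rw [← Finset.add_sum_erase _ _ (Finset.mem_univ 1), ← h2, ← h5,
    show centralizer {(1 : Γ)} = ⊤ from eq_top_iff.2 fun g _ => mem_centralizer_singleton_iff.2
      (by simp), card_top] at h3
  obtain ⟨y, hy⟩ := exists_ne (1 : Γ)
  have h6 := Finset.sum_lt_sum_of_nonempty (s := Finset.univ.erase (1 : Γ)) ⟨y, by simp [hy]⟩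
    (f := fun g => Nat.card (centralizer ({g} : Set Γ)) * b ^ 2) (g := fun _ => Nat.card Γ)
    fun g hg => by
      rw [← (centralizer {g}).card_mul_index]
      exact Nat.mul_lt_mul_of_pos_left (h g (Finset.ne_of_mem_erase hg)) Nat.card_pos
  have h7 := Finset.card_erase_add_one (Finset.mem_univ (1 : Γ))
  rw [← Finset.sum_mul, Finset.sum_const, smul_eq_mul] at h6
  rw [Finset.card_univ, ← Nat.card_eq_fintype_card] at h7
  rw [smul_eq_mul] at h4
  nlinarith

theorem dvd_sq (hK : Nrm K L) (hθ : θ ∈ irr L) (h : θ ∈ cfOn (K : Set Γ)) :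
    K.relIndex L ∣ charDegree θ ^ 2 := by
  obtain ⟨ψ, hψ, hd⟩ := exists_irr_under hK.le hθ
  obtain ⟨e, he⟩ := dot_char_over_nat hK.le (irr_char hθ) (irr_char hψ)
  have h1 := clifford hK hθ hψ hd
  have h2 := clifford_one hK hθ hψ hd
  rw [Res_eq_self h, he] at h1
  have h3 : dot K θ θ = e * ((stab ψ).relIndex L * e) := by
    nth_rw 2 [h1]
    rw [dot_smul_right, dot_sum_right, Finset.sum_congr rfl (g := fun _ => (e : ℂ)) fun φ hφ => by
      obtain ⟨g, hg, rfl⟩ := mem_cfclass.1 hφ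
      rw [dot_cj_of_CInv (irr_CInv hθ) hg, he]]
    simp [card_cfclass]
  have h4 := dot_change K L θ θ
  rw [h3, dot_irr_self hθ, mul_one, ← card_mul_relIndex hK.le, Nat.cast_mul,
    mul_right_inj' (cardC_ne K)] at h4
  rw [he, irr_deg hθ, irr_deg hψ] at h2
  norm_cast at h2 h4
  exact ⟨(stab ψ).relIndex L * charDegree ψ ^ 2, by rw [h2, ← h4]; ring⟩

theorem num {n : ℕ} (h : (3 ≤ b ∧ n ≤ b ^ 3) ∨ (5 ≤ b ∧ n ≤ b ^ 4)) :
    n * (b / 2).factorial ^ 2 ≤ b.factorial ^ 2 := by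
  by_cases h5 : 5 ≤ b
  · obtain ⟨c, rfl⟩ : ∃ c, b = c + 3 := ⟨b - 3, by omega⟩
    have h1 : n ≤ ((c + 3) ^ 2) ^ 2 := by
      rw [← pow_mul]
      exact h.elim (fun h => h.2.trans (Nat.pow_le_pow_right (by omega) (by omega))) (·.2)
    have h2 := Nat.factorial_le (show (c + 3) / 2 ≤ c by omega)
    refine (Nat.mul_le_mul h1 (Nat.pow_le_pow_left h2 2)).trans ?_
    rw [← mul_pow, Nat.factorial_succ, Nat.factorial_succ, Nat.factorial_succ, ← mul_assoc, ← mul_assoc]
    exact Nat.pow_le_pow_left (Nat.mul_le_mul_right _ (by nlinarith)) 2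
  obtain rfl | rfl : b = 3 ∨ b = 4 := by omega
  all_goals norm_num [Nat.factorial] at h ⊢; omega

variable (hb : ∀ d ∈ cd Γ, d ≤ b)
include hb

theorem bnd (h : φ ∈ irr M) : charDegree φ ≤ b := by
  obtain ⟨χ, h1, h2⟩ := exists_deg_le le_top h
  exact h2.trans (hb _ (deg_mem h1))

theorem ext (hH : H ≤ M) (h : φ ∈ irr M) (hθ : θ ∈ irr H) (e : charDegree θ = b)
    (hd : dot H φ θ ≠ 0) : Res (H : Set Γ) φ = θ :=
  ((irr_char h).Res hH).eq_of_one hθ (by rwa [dot_Res_left (irr_on hθ)]) (by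
    rw [Res_one, irr_deg h, irr_deg hθ, le_antisymm (e ▸ bnd hb h) (deg_le hH (irr_char h) hθ hd)])

theorem vanish (hθ : θ ∈ irr H) (e : charDegree θ = b) : θ ∈ cfOn (H.normalCore : Set Γ) := by
  refine mem_cfOn.2 fun x hx' => by_contra fun h0 => hx' ?_
  have hx := mem_of_ne_zero (irr_on hθ) h0
  obtain ⟨χ, hχ, hd⟩ := exists_irr_over le_top hθ
  have h1 := ext hb le_top hχ hθ e hd
  obtain ⟨c, h2, h3⟩ := ((irr_char hθ).Ind (le_top : H ≤ ⊤)).expand
  have h4 : ∀ y ∈ H, Ind ⊤ H θ y = (∑ ψ ∈ irr (⊤ : Subgroup Γ), c ψ : ℕ) * χ y :=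
    fun y hy => by
      rw [h3, Finset.sum_apply, Nat.cast_sum, Finset.sum_mul]
      refine Finset.sum_congr rfl fun ψ hψ => ?_
      by_cases e' : c ψ = 0
      · simp [e']
      · have := congrFun ((ext hb le_top hψ hθ e (by
          rw [Ne, dot_eq_zero_comm, ← dot_Ind_left _ _ (irr_CInv hψ), h2 ψ hψ]
          exact_mod_cast e')).trans h1.symm) y
        rw [Res_of_mem _ hy, Res_of_mem _ hy] at this
        rw [Pi.smul_apply, this, nsmul_eq_mul]
  have h5 := h4 x hx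
  have h6 := h4 1 H.one_mem
  rw [← h1, Ind_Res _ (irr_CInv hχ), Pi.mul_apply] at h5 h6
  rw [← h1, Res_of_mem _ hx] at h0
  have h7 : x ∈ cfker (Ind ⊤ H (triv H)) := (((triv_char H).Ind le_top).mem_cfker trivial).2
    ((mul_right_cancel₀ h0 h5).trans (mul_right_cancel₀ (irr_one_ne hχ) h6).symm)
  have hn := (cfker_nrm ((triv_char H).Ind (le_top : H ≤ ⊤)).CF (Ind_ne_zero le_top
    (by rw [triv_one]; exact one_ne_zero)))
  have := hn.normal_of_top
  exact normal_le_normalCore.2 (((sub_cfker_Ind_irr le_top hn.le_normalizer (triv_irr H)).1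
    le_rfl).trans (cfker_triv H).le) h7

theorem inv (hN : Nrm N ⊤) (hθ : θ ∈ irr N) (e : charDegree θ = b) (hx : x ∈ N) (g : Γ) :
    θ (g * x * g⁻¹) = θ x := by
  obtain ⟨χ, hχ, hd⟩ := exists_irr_over le_top hθ
  rw [← ext hb le_top hχ hθ e hd, Res_of_mem _ hx, Res_of_mem _ (hN.conj trivial hx),
    CF_conj (irr_CF hχ) trivial]

theorem cen (hN : Nrm N ⊤) (hK : Nrm K N) (hab : ⁅N, N⁆ ≤ K) (hθ : θ ∈ irr N)
    (e : charDegree θ = b) (h0 : θ x ≠ 0) (g : Γ) : g * x * g⁻¹ * x⁻¹ ∈ K := by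
  have hx := mem_of_ne_zero (irr_on hθ) h0
  have h1 := mul_mem (hN.conj (mem_top g) hx) (inv_mem hx)
  by_contra h
  obtain ⟨χ, h2, h3, h4⟩ := exists_irr_not_mem_cfker hK h1 h
  obtain ⟨i, rfl⟩ := (irr_char h2).exists_lin ((irr_one_eq_one_iff h2).2 (hab.trans h3))
  have h5 := inv hb hN (lin_mul_irr i hθ) ((deg_congr (by simp [lin_apply_one])).trans e) hx g
  rw [Pi.mul_apply, Pi.mul_apply, inv hb hN hθ e hx, mul_left_inj' h0] at h5
  refine h4 ((irr_mem_cfker h2).2 ?_)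
  rw [lin_apply_mul i (hN.conj (mem_top g) hx), h5, ← lin_apply_mul i hx, mul_inv_cancel]

theorem half (hK : Nrm K ⊤) (h : ¬ commutator Γ ≤ K) (hθ : θ ∈ irr K) : charDegree θ ≤ b / 2 := by
  obtain ⟨χ, hχ, hd⟩ := exists_irr_over le_top hθ
  obtain ⟨a, -, ha⟩ := exists_deg hK hχ hθ hd
  obtain ⟨x, h1, h2⟩ := SetLike.not_le_iff_exists.1 h
  obtain ⟨β, h3, h4, h5⟩ := exists_irr_not_mem_cfker hK trivial h2
  have h6 : charDegree β ≠ 1 := fun e => h5 ((deg_lin_iff h3).1 e h1)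
  have h7 := deg_pos h3
  have h8 := deg_pos hχ
  have h9 := bnd hb hχ
  rw [Nat.le_div_iff_mul_le two_pos]
  obtain rfl | rfl | ha2 : a = 0 ∨ a = 1 ∨ 2 ≤ a := by omega
  · omega
  · have := bnd hb (gall_irr hK (irr_char hχ) ((((irr_char hχ).Res le_top).eq_of_one hθ
      (by rwa [dot_Res_left (irr_on hθ)]) (by
        rw [Res_one, irr_deg hχ, irr_deg hθ, ha, one_mul])) ▸ hθ) h3 h4)
    rw [deg_mul (irr_char h3) (irr_char hχ)] at this
    nlinarith [show 2 ≤ charDegree β by omega]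
  · nlinarith

theorem step (hna : ¬ commutator Γ ≤ ⊥) : ∃ (L : Subgroup Γ) (c : ℕ), c < b ∧
    (∀ θ ∈ irr L, charDegree θ ≤ c) ∧ L.index * c.factorial ^ 2 ≤ b.factorial ^ 2 := by
  have b0 : 1 ≤ b := hb _ one_mem_cd
  by_contra hc
  have bad : ∀ L : Subgroup Γ, L.index ≤ b ^ 2 → ∃ θ ∈ irr L, charDegree θ = b := fun L hL => by
    by_contra! h
    refine hc ⟨L, b - 1, by omega, fun θ hθ => Nat.le_sub_one_of_lt ((bnd hb hθ).lt_of_ne (h θ hθ)), ?_⟩
    rw [← Nat.mul_factorial_pred (by omega : b ≠ 0), mul_pow]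
    exact Nat.mul_le_mul_right _ hL
  obtain ⟨K, -, hK⟩ := exists_maxNA ⊥ hna
  have := hK.nrm
  have fin : ¬ ((3 ≤ b ∧ K.index ≤ b ^ 3) ∨ (5 ≤ b ∧ K.index ≤ b ^ 4)) := fun h =>
    hc ⟨K, b / 2, by omega, fun θ => half hb (nrm_top K) hK.ne, num h⟩
  have lb : ∀ {n}, n ∣ b ^ 2 → n ≤ b ^ 2 := Nat.le_of_dvd (by positivity)
  by_cases hab : ⁅commutator Γ, commutator Γ⁆ ≤ K
  · rcases hK.dich hab with ⟨h1, -⟩ | ⟨p, N, F⟩
    · obtain ⟨x, h2, h3⟩ := SetLike.not_le_iff_exists.1 hK.ne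
      obtain ⟨β, h4, h5, h6⟩ := exists_irr_not_mem_cfker (nrm_top K) trivial h3
      have h8 := mem_irr_top.1 h4
      have hk : CharKer.charKer β = cfker β := Subgroup.ext fun _ =>
        (CharKer.mem_charKer (CharFun.char_of_irr h8)).trans (irr_mem_cfker h4).symm
      rw [← hk] at h5 h6
      have h7 : CharKer.charKer β = K := by_contra fun e => h6 (hK.le _ inferInstance
        (lt_of_le_of_ne h5 (Ne.symm e)) h2)
      have hZ : ∀ z, z ∈ CharKer.charCenter β ↔ ∀ g, ⁅z, g⁆ ∈ K := fun z => by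
        rw [CharKer.mem_charCenter_iff_commutator h8, h7]
      have h9 : commutator Γ ≤ CharKer.charCenter β := fun z hz => (hZ z).2 fun g =>
        h1 (commutator_mem_commutator hz trivial)
      set Z := CharKer.charCenter β
      obtain ⟨θ, hθ, e⟩ := bad Z (((CharKer.degree_sq_eq_index_iff h8 le_rfl (irr_deg h4)).2 fun g =>
        CharKer.apply_eq_zero_of_commutator_le h8 h9).ge.trans (Nat.pow_le_pow_left (bnd hb h4) 2))
      obtain ⟨y, hy⟩ : ∃ y, y ∉ Z := by
        by_contra! h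
        exact hK.ne (commutator_le.2 fun a _ b _ => (hZ a).1 (h a) b)
      have hKZ : K ≤ Z := h7.ge.trans (CharKer.charKer_le_charCenter β)
      have : (Z ⊔ zpowers y).Normal := ⟨fun a ha g => by
        rw [show g * a * g⁻¹ = ⁅g, a⁆ * a by rw [commutatorElement_def]; group]
        exact mul_mem (mem_sup_left (h9 (commutator_mem_commutator trivial trivial))) ha⟩
      obtain ⟨φ, hφ, hd⟩ := exists_irr_over (le_sup_left : Z ≤ Z ⊔ zpowers y) hθ
      have k1 := ext hb le_sup_left hφ hθ e hd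
      have k2 : φ ∈ cfOn (Z : Set Γ) := mem_cfOn.2 fun a ha => by_contra fun h0 => ha ((hZ a).2 fun g => by
        rw [← commutatorElement_inv]
        refine inv_mem (cen hb (nrm_top _) ((nrm_top K).mono (le_sup_of_le_left hKZ) le_top) ?_ hφ
          ((deg_congr (by rw [← k1, Res_one])).trans e) h0 g)
        refine commutator_le.2 fun u hu v hv => ?_
        obtain ⟨z, hz, _, ⟨i, rfl⟩, rfl⟩ := (mem_sup_of_normal_left (s := Z)).1 hu
        obtain ⟨w, hw, _, ⟨j, rfl⟩, rfl⟩ := (mem_sup_of_normal_left (s := Z)).1 hv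
        have c1 := fun g => commutatorElement_eq_one_iff_commute.1 ((map_commutatorElement
          (QuotientGroup.mk' K) z g).symm.trans ((QuotientGroup.eq_one_iff _).2 ((hZ z).1 hz g)))
        have c2 := fun g => commutatorElement_eq_one_iff_commute.1 ((map_commutatorElement
          (QuotientGroup.mk' K) w g).symm.trans ((QuotientGroup.eq_one_iff _).2 ((hZ w).1 hw g)))
        rw [← QuotientGroup.eq_one_iff, ← QuotientGroup.mk'_apply, map_commutatorElement,
          commutatorElement_eq_one_iff_commute, map_mul]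
        refine (c1 _).mul_left ?_
        rw [map_mul]
        exact (c2 _).symm.mul_right (((Commute.refl y).zpow_zpow i j).map _))
      have k3 := dot_change Z (Z ⊔ zpowers y) φ φ
      rw [dot_irr_self hφ, ← Res_eq_self k2, k1, dot_irr_self hθ, mul_one, mul_one, Nat.cast_inj] at k3
      exact hy ((eq_of_le_of_card_ge le_sup_left k3.ge).ge (mem_sup_right (mem_zpowers y)))
    have h1 := hb _ F.index_mem.1
    obtain ⟨θ, hθ, e⟩ := bad N (h1.trans (Nat.le_self_pow two_ne_zero b))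
    obtain ⟨x, -, hx⟩ := SetLike.exists_of_lt (lt_top_iff_ne_top.2 F.ne)
    have hKN := F.nK.mono F.lt.le le_top
    have h2 := dvd_sq hKN hθ (mem_cfOn.2 fun a ha => by_contra fun h0 => ha (F.fpf x hx a
      (mem_of_ne_zero (irr_on hθ) h0) (cen hb F.nN hKN F.ab hθ e h0 x)))
    rw [e] at h2
    have h3 := F.one_lt
    refine fin (.inl ⟨by_contra fun h => F.not_dvd ?_, ?_⟩)
    · rw [show N.index = b by omega]
      exact F.prime.dvd_of_dvd_pow (F.dvd.trans h2)
    · rw [← relIndex_mul_index F.lt.le, pow_succ]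
      exact Nat.mul_le_mul (lb h2) h1
  have := Fintype.ofFinite (Γ ⧸ K)
  have hb' : ∀ d ∈ cd (Γ ⧸ K), d ≤ b := fun d hd => hb d (cd_quo K hd)
  have : Nontrivial (Γ ⧸ K) := QuotientGroup.nontrivial_iff.2 fun e => hK.ne (e ▸ le_top)
  have hs := QuotientGroup.mk'_surjective K
  have e : (commutator Γ).map (QuotientGroup.mk' K) = commutator (Γ ⧸ K) := by
    rw [_root_.commutator_def, map_commutator, map_top_of_surjective _ hs]; rfl
  obtain ⟨x, hx, h1⟩ := small hb'
  rw [← index_comap_of_surjective _ hs] at h1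
  set L := (centralizer {x}).comap (QuotientGroup.mk' K)
  obtain ⟨θ, hθ, e'⟩ := bad L h1
  have hKL : K ≤ L := QuotientGroup.le_comap_mk' _ _
  have h2 : L.normalCore = K := by_contra fun h => hab <| by
    have h3 := map_le_iff_le_comap.2 ((hK.le _ inferInstance (lt_of_le_of_ne
      (normal_le_normalCore.2 hKL) (Ne.symm h))).trans (normalCore_le L))
    rw [e] at h3
    have h4 := hK.quo.le (centralizer (commutator (Γ ⧸ K))) inferInstance (bot_lt_iff_ne_bot.2
      fun e => hx (mem_bot.1 (e ▸ le_cent1_iff.1 h3)))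
    refine le_trans ((Subgroup.map_eq_bot_iff _).1 ?_) (QuotientGroup.ker_mk' K).le
    rwa [map_commutator, e, commutator_eq_bot_iff_le_centralizer]
  have h3 := dvd_sq ((nrm_top K).mono hKL le_top) hθ (h2 ▸ vanish hb hθ e')
  rw [e'] at h3
  refine fin (.inr ⟨by_contra fun h => hab (hK.solv (by_contra fun hs => hs
    (CharBurn.isSolvable_of_primes (p := 2) (q := 3) fun r hr hd => by_contra fun h4 => hs ?_))), ?_⟩)
  · have := Fact.mk hr
    have h5 : 5 ≤ r := hr.five_le_of_ne_two_of_ne_three (fun e => h4 (.inl e)) fun e => h4 (.inr e)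
    obtain ⟨P⟩ : Nonempty (Sylow r (Γ ⧸ K)) := inferInstance
    have hP := isPi_of_isPGroup hr P.isPGroup'
    have h6 := hK.quo.le P (normalizer_eq_top_iff.1 (normal_syl_of_lt hr ⟨le_top, hP, by
      rintro _ _ rfl; rw [relIndex_top_right]; exact P.not_dvd_index⟩
      fun χ hχ => by have := bnd hb' hχ; omega)) (bot_lt_iff_ne_bot.2 (P.ne_bot_of_dvd_card hd))
    have := (hP.of_le h6).isSolvable hr
    exact solvable_of_ker_le_range (commutator _).subtype Abelianization.of (by simp)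
  · rw [← relIndex_mul_index hKL, show b ^ 4 = b ^ 2 * b ^ 2 by ring]
    exact Nat.mul_le_mul (lb h3) h1

omit hb in
theorem main (b : ℕ) : ∀ (X : Type u) [Group X] [Finite X], (∀ d ∈ cd X, d ≤ b) →
    ∃ A : Subgroup X, (∀ x ∈ A, ∀ y ∈ A, x * y = y * x) ∧ A.index ≤ b.factorial ^ 2 := by
  induction b using Nat.strong_induction_on with
  | _ b ih =>
  intro X _ _ hb
  have := Fintype.ofFinite X
  by_cases h : commutator X ≤ ⊥
  · exact ⟨⊤, fun x _ y _ => commutatorElement_eq_one_iff_mul_comm.1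
      (h (commutator_mem_commutator trivial trivial)), by
        rw [index_top]; exact Nat.one_le_pow _ _ b.factorial_pos⟩
  obtain ⟨L, c, h1, h2, h3⟩ := step hb h
  obtain ⟨A, h4, h5⟩ := ih c h1 L fun d hd => by
    obtain ⟨θ, hθ, rfl⟩ := mem_cd_sub.1 hd
    exact h2 θ hθ
  refine ⟨A.map L.subtype, ?_, ?_⟩
  · rintro _ ⟨x, hx, rfl⟩ _ ⟨y, hy, rfl⟩
    exact congrArg Subtype.val (h4 x hx y hy)
  · rw [index_map_subtype, mul_comm]
    exact (Nat.mul_le_mul_left _ h5).trans h3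

end

/-- Let b be the largest irreducible character degree of the finite group G. Then G has an abelian subgroup of index at most (b!)². -/
theorem result {G : Type*} [Group G] [Finite G] (b : ℕ) (hb : IsGreatest {d : ℕ | ∃ χ : Cfsg.IrrCharacter G, Cfsg.charDegree (χ : G → ℂ) = d} b) : ∃ A : Subgroup G, (∀ x ∈ A, ∀ y ∈ A, x * y = y * x) ∧ A.index ≤ (Nat.factorial b) ^ 2 := by
  exact main b G fun d hd => hb.2 (CA.H12Cd.mem_cd'.1 hd)

end Cfsg.Agent.S4463
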