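import Cfsg.Statements.S4464
import Cfsg.Agent.Lib.Char.H12Deg
import Cfsg.Agent.Lib.Grp.H12PSolv

set_option autoImplicit false
open Cfsg

namespace Cfsg.Agent.S4464

open CA.PF CA.OQuo CA.H12Gl CA.H12Gl2 CA.H12Mon CA.H12Deg Subgroup
open CA.BG hiding cj cj_one cj_mul cj_inv_cj cj_cj_inv mem_cent1

/-- Let p be a prime and G a finite group all of whose irreducible character degrees are less than p. Then G has a normal abelian Sylow p-subgroup. -/
theorem result {G : Type*} [Group G] [Finite G] (p : ℕ) (hp : p.Prime) (hb : ∀ χ : Cfsg.IrrCharacter G, Cfsg.charDegree (χ : G → ℂ) < p) : ∃ P : Subgroup G, P.Normal ∧ (∀ x ∈ P, ∀ y ∈ P, x * y = y * x) ∧ IsPGroup p P ∧ ¬ p ∣ P.index := by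
  have := Fintype.ofFinite G
  have := Fact.mk hp
  obtain ⟨P⟩ : Nonempty (Sylow p G) := inferInstance
  have h1 : ∀ χ ∈ irr (⊤ : Subgroup G), charDegree χ < p := fun χ h => hb ⟨χ, mem_irr_top.1 h⟩
  have h2 := comm_of_pi hp (syl_top hp P).pi fun θ hθ h => by
    obtain ⟨χ, h2, h3⟩ := exists_deg_le le_top hθ
    exact (h3.trans_lt (h1 χ h2)).not_ge (Nat.le_of_dvd (deg_pos hθ) h)
  exact ⟨P, normalizer_eq_top_iff.1 (normal_syl_of_lt hp (syl_top hp P) h1), fun a ha b hb =>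
    congrArg Subtype.val (h2.1.1 ⟨a, ha⟩ ⟨b, hb⟩), P.isPGroup', P.not_dvd_index⟩

end Cfsg.Agent.S4464
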