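import Cfsg.Statements.S4467
import Cfsg.Agent.Lib.Grp.H7Ito
import Cfsg.Agent.Lib.Odd.BG4a
import Cfsg.Agent.Lib.Char.Clif
import Cfsg.Agent.Lib.Char.CharKer

set_option autoImplicit false
open Cfsg

namespace Cfsg.Agent.S4467

open Subgroup CA.BG CA.BG4 CChar.CharFun CChar.CharOrth CChar.CharKer CChar.CharInt
open scoped commutatorElement ComplexConjugate

universe u

theorem idx {G : Type*} [Group G] [Finite G] {p r : ℕ} (hp : p.Prime) (hr : r.Prime) (hne : r ≠ p)
    {K P : Subgroup G} (hK : IsPi {r} K) (hP : IsPi {p} P) (hn : P ≤ 𝓝(K)) (h : ¬ K ≤ 𝓒(P)) :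
    ∃ j, 0 < j ∧ (K ⊓ 𝓒(P)).relIndex K = r ^ j ∧ r ^ j ≡ 1 [MOD p] := by
  have := Fact.mk hr
  obtain ⟨a, ha⟩ := IsPGroup.iff_card.1 (hK.isPGroup hr)
  have e : ♯(K ⊓ 𝓒(P)) * (K ⊓ 𝓒(P)).relIndex K = ♯K := by
    have := Subgroup.relIndex_mul_relIndex ⊥ (K ⊓ 𝓒(P)) K bot_le inf_le_left
    simpa using this
  obtain ⟨j, -, hj⟩ := (Nat.dvd_prime_pow hr).1 (ha ▸ Dvd.intro_left _ e)
  refine ⟨j, Nat.pos_of_ne_zero fun h0 => h ?_, hj, ?_⟩
  · rw [h0, pow_zero, relIndex_eq_one] at hj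
    exact hj.trans inf_le_right
  · have h1 := card_modEq_cent hp hP hn
    rw [← e, hj] at h1
    have c : Nat.gcd p ♯(K ⊓ 𝓒(P)) = 1 :=
      ((Nat.Coprime.pow_right a ((Nat.coprime_primes hp hr).2 hne.symm))).coprime_dvd_right
        (ha ▸ Dvd.intro _ e)
    exact Nat.ModEq.cancel_left_of_coprime c (by rwa [mul_one])

theorem lemA {p : ℕ} (hp : p.Prime) (m : ℕ) : ∀ (G : Type u) [Group G] [Finite G], Nat.card G = m →
    Group.IsSolvable G → (∀ M : Subgroup G, M.Normal → ¬ p ∣ M.index → M = ⊤) →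
    ∀ T : Subgroup G, T ≠ ⊤ → ¬ p ∣ T.index → ∃ q, IsPrimePow q ∧ q ∣ T.index ∧ q ≡ 1 [MOD p] := by
  induction m using Nat.strong_induction_on with
  | _ m ih =>
  intro G _ _ hm hs hM T hT hpT
  have := Fact.mk hp
  obtain ⟨V, -, hV⟩ := exists_minnormal (K := (⊤ : Subgroup G)) (H := ⊤)
    (fun h => hT (eq_top_iff.2 (h ▸ bot_le))) le_normalizer
  have nV : V.Normal := normalizer_eq_top_iff.1 (eq_top_iff.2 hV.2.1)
  by_cases h : T ⊔ V = ⊤
  · obtain ⟨r, hr, hc, he⟩ := hV.elem inferInstance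
    have cm : ∀ a ∈ V, ∀ b ∈ V, a * b = b * a := fun a ha b hb =>
      congrArg Subtype.val (hc.is_comm.comm ⟨a, ha⟩ ⟨b, hb⟩)
    have h1 : T ⊓ V = ⊥ := by
      have n1 : (T ⊓ V).Normal := by
        rw [← normalizer_eq_top_iff, eq_top_iff, ← h]
        refine sup_le (fun t ht => ?_) fun v hv => ?_
        · exact inf_normalizer_le_normalizer_inf ⟨le_normalizer ht, by simp [normalizer_eq_top]⟩
        · exact centralizer_le_normalizer _ fun x hx => cm x hx.2 v hv
      by_contra h0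
      have e := hV.2.2 _ inf_le_right h0 (normalizer_eq_top_iff.2 n1).ge
      exact hT (by rw [← h, sup_eq_left.2 (e ▸ inf_le_left)])
    have h2 : T.index = ♯V := by
      have e1 := card_sup_of_disjoint (A := T) (N := V) (by simp [normalizer_eq_top]) h1
      rw [h, card_top, ← T.card_mul_index] at e1
      exact Nat.eq_of_mul_eq_mul_left Nat.card_pos e1
    have := Fact.mk hr
    have hVr : IsPi {r} V := isPi_of_isPGroup hr fun x => ⟨1, Subtype.ext (by simpa using he x x.2)⟩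
    obtain ⟨P⟩ := (inferInstance : Nonempty (Sylow p G))
    have hne : r ≠ p := by
      rintro rfl
      obtain ⟨a, ha⟩ := IsPGroup.iff_card.1 (hVr.isPGroup hr)
      refine hpT (h2 ▸ ha ▸ dvd_pow_self _ fun h0 => hV.1 ?_)
      rwa [h0, pow_zero, card_eq_one] at ha
    obtain ⟨j, j0, hj, hj'⟩ := idx hp hr hne hVr (isPi_of_isPGroup hp P.isPGroup')
      (by simp [normalizer_eq_top]) (fun hle => by
        have h3 := hM 𝓒(V) inferInstance fun hd =>
          P.not_dvd_index (hd.trans (index_dvd_of_le (le_centralizer_iff.1 hle)))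
        refine hT (hM T ?_ hpT)
        rw [← normalizer_eq_top_iff, eq_top_iff, ← h]
        refine sup_le le_normalizer fun v hv => centralizer_le_normalizer _ fun x _ => ?_
        exact ((h3 ▸ mem_top x : x ∈ 𝓒(V)) v hv).symm)
    exact ⟨r ^ j, (isPrimePow_nat_iff _).2 ⟨r, j, hr, j0, rfl⟩,
      h2 ▸ hj ▸ relIndex_dvd_card _ _, hj'⟩
  · have e : (T.map (QuotientGroup.mk' V)).index = (T ⊔ V).index := by
      rw [index_map, QuotientGroup.ker_mk', MonoidHom.range_eq_top_of_surjective _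
        (QuotientGroup.mk'_surjective V), index_top, mul_one]
    have hd : (T ⊔ V).index ∣ T.index := index_dvd_of_le le_sup_left
    obtain ⟨q, h1, h2, h3⟩ := ih _ (by
        rw [← hm, ← V.card_mul_index]
        exact lt_mul_left Nat.card_pos ((V.one_lt_card_iff_ne_bot).2 hV.1)) (G ⧸ V) rfl inferInstance
      (fun M hM' hd => by
        have := hM (M.comap (QuotientGroup.mk' V)) inferInstance
          (by rwa [index_comap_of_surjective _ (QuotientGroup.mk'_surjective V)])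
        exact comap_injective (QuotientGroup.mk'_surjective V) (by rw [this, comap_top]))
      (T.map (QuotientGroup.mk' V)) (fun h' => h (by rw [← index_eq_one, ← e, h', index_top]))
      (fun h' => hpT ((e ▸ h').trans hd))
    exact ⟨q, h1, (e ▸ h2).trans hd, h3⟩

theorem sq {G : Type*} [Group G] [Fintype G] {χ : G → ℂ} (hχ : IsIrrCharacter G χ)
    (hf : ∀ g, χ g = χ 1 → g = 1) {K Y : Subgroup G} [Fintype K] (hYK : Y ≤ K) (hY : Y ≤ center G)
    (h1 : ⁅K, K⁆ ≤ Y) (h2 : K ⊓ 𝓒(K) ≤ Y) {φ : K → ℂ} (hφ : IsIrrCharacter K φ)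
    (h : classInner (fun k : K => χ k) φ ≠ 0) {a : ℕ} (ha : φ 1 = a) : a ^ 2 = Y.relIndex K := by
  have hZ : Y.subgroupOf K ≤ charCenter φ := fun y hy => center_le_charCenter hφ
    (mem_center_iff.2 fun g => Subtype.ext (mem_center_iff.1 (hY hy) g))
  refine (degree_sq_eq_index_iff hφ hZ ha).2 fun g hg => ?_
  obtain ⟨k, hk⟩ : ∃ k : K, ⁅k, g⁆ ≠ 1 := by
    by_contra hc
    push Not at hc
    exact hg (h2 ⟨g.2, fun k hk => congrArg Subtype.val
      (commutatorElement_eq_one_iff_mul_comm.1 (hc ⟨k, hk⟩))⟩)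
  have hy : ⁅k, g⁆ ∈ Y.subgroupOf K := h1 (commutator_mem_commutator k.2 g.2)
  refine apply_eq_zero_of_commutator_mem hφ (hZ hy) fun hker => hk (Subtype.ext (hf _ ?_))
  set y := ⁅k, g⁆
  have e1 : ∀ x, χ 1 * χ (y * x) = χ y * χ x :=
    apply_mul_of_mem_charCenter (center_le_charCenter hχ (hY hy))
  have e2 : χ 1 * classInner (fun k : K => χ k) φ = χ y * classInner (fun k : K => χ k) φ := by
    rw [inner_def, mul_left_comm, mul_left_comm (χ y)]
    congr 1
    rw [Finset.mul_sum, Finset.mul_sum, ← Equiv.sum_comp (Equiv.mulLeft y)]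
    refine Finset.sum_congr rfl fun x _ => ?_
    simp only [Equiv.coe_mulLeft, Subgroup.coe_mul]
    rw [apply_mul_of_mem_charKer hker, ← mul_assoc, e1, mul_assoc]
  exact (mul_right_cancel₀ h e2).symm

theorem under {G : Type*} [Group G] [Fintype G] {χ : G → ℂ} (hχ : IsIrrCharacter G χ) {n : ℕ}
    (hn : χ 1 = n) (N : Subgroup G) [N.Normal] [Fintype N] : ∃ θ : N → ℂ, IsIrrCharacter N θ ∧
      classInner (fun k : N => χ k) θ ≠ 0 ∧ ∃ a : ℕ, θ 1 = a ∧
        (CA.Clif.inertia θ).index * a ∣ n := by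
  obtain ⟨θ, hθ, h⟩ := CA.Cons.exists_irr_under N hχ
  obtain ⟨a, -, ha⟩ := irr_apply_one hθ
  obtain ⟨e, he⟩ := inner_char_char (char_restrict (char_of_irr hχ) N) (char_of_irr hθ)
  have := CA.Clif.apply_one_eq hχ hθ h
  rw [hn, he, ha] at this
  exact ⟨θ, hθ, h, a, ha, ⟨e, by
    have : n = e * (CA.Clif.inertia θ).index * a := by exact_mod_cast this
    rw [this]; ring⟩⟩

theorem main {p : ℕ} (hp : p.Prime) (m : ℕ) : ∀ (G : Type u) [Group G] [Finite G], Nat.card G = m →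
    Group.IsSolvable G → ∀ (χ : G → ℂ), IsIrrCharacter G χ → (∀ g, χ g = χ 1 → g = 1) →
    ∀ n : ℕ, χ 1 = n → ¬ p ∣ n → ∀ P : Sylow p G, ¬ (P : Subgroup G).Normal →
    ∃ q, IsPrimePow q ∧ q ∣ n ∧ q ^ 2 ≡ 1 [MOD p] := by
  induction m using Nat.strong_induction_on with
  | _ m ih =>
  intro G _ _ hm hs χ hχ hf n hn hpn P hP
  classical
  have := Fact.mk hp
  have := Fintype.ofFinite G
  by_cases hM : ∀ M : Subgroup G, M.Normal → ¬ p ∣ M.index → M = ⊤
  swap
  · push Not at hM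
    obtain ⟨L, nL, hL, hLt⟩ := hM
    have hPL : ∀ x : G, (∃ k, x ^ p ^ k = 1) → x ∈ L := by
      rintro x ⟨k, hk⟩
      have h1 : orderOf (x : G ⧸ L) ∣ p ^ k :=
        orderOf_dvd_of_pow_eq_one (by rw [← QuotientGroup.mk_pow, hk, QuotientGroup.mk_one])
      have h2 : orderOf (x : G ⧸ L) ∣ L.index := orderOf_dvd_natCard _
      have := Nat.dvd_gcd h1 h2
      rwa [Nat.Coprime.pow_left k ((hp.coprime_iff_not_dvd).2 hL), Nat.dvd_one, orderOf_eq_one_iff,
        QuotientGroup.eq_one_iff] at this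
    obtain ⟨θ, hθ, h, a, ha, hd⟩ := under hχ hn L
    have hd' : a ∣ n := (Dvd.intro_left _ rfl).trans hd
    obtain ⟨Q⟩ := (inferInstance : Nonempty (Sylow p (L ⧸ charKer θ)))
    by_cases hQ : (Q : Subgroup (L ⧸ charKer θ)).Normal
    swap
    · obtain ⟨q, h1, h2, h3⟩ := ih _ (by
          rw [← hm]
          exact lt_of_le_of_lt (Nat.le_of_dvd Nat.card_pos (charKer θ).card_quotient_dvd_card)
            (lt_of_le_of_ne (card_le_card_group L) fun e => hLt (eq_top_of_card_eq L e)))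
        (L ⧸ charKer θ) rfl inferInstance _ (irr_deflate hθ le_rfl) (fun g hg => by
          have := (mem_charKer (char_deflate (char_of_irr hθ) le_rfl)).2 hg
          rwa [charKer_deflate_self (char_of_irr hθ), mem_bot] at this)
        a (by rw [← QuotientGroup.mk_one, deflate_mk le_rfl, ha]) (fun h => hpn (h.trans hd')) Q hQ
      exact ⟨q, h1, h2.trans hd', h3⟩
    exfalso
    have := Sylow.unique_of_normal Q hQ
    let D := ((Q : Subgroup (L ⧸ charKer θ)).comap (QuotientGroup.mk' _)).map L.subtype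
    have hD : normalClosure (P : Set G) ≤ D := by
      refine closure_le _ |>.2 fun x hx => ?_
      obtain ⟨y, hy, hc⟩ := Group.mem_conjugatesOfSet_iff.1 hx
      obtain ⟨c, rfl⟩ := isConj_iff.1 hc
      obtain ⟨k, hk⟩ := P.isPGroup' ⟨y, hy⟩
      have hk' : (c * y * c⁻¹) ^ p ^ k = 1 := by
        rw [conj_pow, show y ^ p ^ k = 1 from congrArg Subtype.val hk]; simp
      refine ⟨⟨_, hPL _ ⟨k, hk'⟩⟩, ?_, rfl⟩
      obtain ⟨T, hT⟩ := (show IsPGroup p (zpowers (QuotientGroup.mk' (charKer θ)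
          ⟨_, hPL _ ⟨k, hk'⟩⟩)) from IsPGroup.of_card_dvd_pow (n := k) (by
        rw [Nat.card_zpowers]
        exact orderOf_dvd_of_pow_eq_one (by
          rw [← map_pow, show (⟨_, hPL _ ⟨k, hk'⟩⟩ : L) ^ p ^ k = 1 from Subtype.ext hk',
            map_one]))).exists_le_sylow
      rw [Subsingleton.elim T Q] at hT
      exact hT (mem_zpowers _)
    obtain ⟨k, hk⟩ := IsPGroup.iff_card.1 Q.isPGroup'
    have hp' : IsPGroup p (normalClosure (P : Set G)) := by
      rintro ⟨d, hd⟩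
      refine ⟨k, Subtype.ext (hf _ ?_)⟩
      obtain ⟨d, -, rfl⟩ := hD hd
      have e := CA.Clif.clifford hχ hθ h
      have e1 := congrFun e (d ^ p ^ k)
      have e2 := congrFun e 1
      simp only [Pi.smul_apply, Finset.sum_apply] at e1 e2
      refine e1.trans (Eq.trans ?_ e2.symm)
      congr 1
      refine Finset.sum_congr rfl fun ψ hψ => ?_
      obtain ⟨g, rfl⟩ := CA.Clif.mem_conjs.1 hψ
      rw [CA.Clif.cj_apply_one, CA.Clif.cj_apply]
      obtain ⟨d', hd', e'⟩ := hD ((inferInstance : (normalClosure (P : Set G)).Normal).conj_mem _ hd g)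
      have h5 : d' ^ p ^ k ∈ charKer θ := by
        rw [← QuotientGroup.eq_one_iff, QuotientGroup.mk_pow, ← hk]
        exact congrArg Subtype.val (pow_card_eq_one' (x := (⟨_, hd'⟩ : (Q : Subgroup (L ⧸ charKer θ)))))
      rw [← apply_of_mem_charKer h5]
      congr 1
      refine Subtype.ext ?_
      simp only [Subgroup.coe_pow]
      rw [← conj_pow]
      exact congrArg (· ^ p ^ k) e'.symm
    exact hP (P.is_maximal' hp' le_normalClosure ▸ inferInstance)
  have hc : (⊤ : Subgroup G).Normal ∧ ¬ (⊤ : Subgroup G) ≤ center G := ⟨inferInstance, fun h =>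
    hP ⟨fun x hx g => by rwa [mem_center_iff.1 (h (mem_top x)) g, mul_inv_cancel_right]⟩⟩
  obtain ⟨N, ⟨nN, hN⟩, hmin⟩ := (wellFounded_lt (α := Subgroup G)).has_min
    {N | N.Normal ∧ ¬ N ≤ center G} ⟨⊤, hc⟩
  have hmin' : ∀ K : Subgroup G, K.Normal → K ≤ N → K ≠ N → K ≤ center G := fun K h1 h2 h3 => by
    by_contra h; exact hmin K ⟨h1, h⟩ (lt_of_le_of_ne h2 h3)
  obtain ⟨θ, hθ, h, a, ha, hd⟩ := under hχ hn N
  by_cases hab : N ≤ 𝓒(N)
  · have hT : CA.Clif.inertia θ ≠ ⊤ := by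
      intro hT
      have e := CA.Clif.clifford_invariant hχ hθ hT h
      have h1 := irr_apply_one_of_comm (fun a b : N => Subtype.ext (hab b.2 a a.2)) hθ
      refine hN fun x hx => ?_
      rw [← charCenter_eq_center hχ (eq_bot_iff.2 fun g hg => hf g (apply_of_mem_charKer hg)),
        mem_charCenter (char_of_irr hχ)]
      have e1 := congrFun e ⟨x, hx⟩
      have e2 := congrFun e 1
      simp only [Pi.smul_apply, smul_eq_mul, OneMemClass.coe_one] at e1 e2
      rw [e1, e2, norm_mul, norm_mul, (mem_charCenter (char_of_irr hθ)).1 (center_le_charCenter hθ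
        (mem_center_iff.2 fun b => Subtype.ext (hab hx b b.2)))]
    have hd' := (Dvd.intro _ rfl).trans hd
    obtain ⟨q, h1, h2, h3⟩ := lemA hp _ G rfl hs hM _ hT fun h => hpn (h.trans hd')
    exact ⟨q, h1, h2.trans hd', by simpa using h3.pow 2⟩
  have hd' : a ∣ n := (Dvd.intro_left _ rfl).trans hd
  have hY : N ⊓ 𝓒(N) ≤ center G := hmin' _ inferInstance inf_le_left fun e => hab (inf_eq_left.1 e)
  have hN0 : N ≠ ⊥ := fun e => hN (e ▸ bot_le)
  have hD : ⁅N, N⁆ ≤ center G := hmin' _ inferInstance (commutator_le_right _ _)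
    (Group.IsSolvable.commutator_lt_of_ne_bot hN0).ne
  have hD' : ⁅N, N⁆ ≤ N ⊓ 𝓒(N) := le_inf (commutator_le_right _ _) (hD.trans (center_le_centralizer _))
  have e1 := sq hχ hf inf_le_left hY hD' le_rfl hθ h ha
  have hnil : Group.IsNilpotent N := nil_iff_lcs.2 ⟨2, by
    rw [lcs_succ, lcs_succ, lcs_zero, commutator_eq_bot_iff_le_centralizer]
    exact hD.trans (center_le_centralizer _)⟩
  obtain ⟨x, hx, hxc⟩ := SetLike.not_le_iff_exists.1 hN
  obtain ⟨r, k, hr, h1, h2⟩ := CA.H7Ito.exists_part hxc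
  have hNr : IsPi {r} N := by
    have h3 : 𝓞({r}, N) = N := by
      by_contra hne
      refine h2 (hmin' _ (normalizer_eq_top_iff.1 (eq_top_iff.2 (norm_core _
        (by simp [normalizer_eq_top])))) (core_le _ _) hne ?_)
      exact h1.le_core_of_le_fit (by rw [fit_eq_self hnil]; exact zpowers_le.2 (pow_mem hx k))
        (mem_zpowers _)
    exact h3 ▸ core_pi {r} N
  have := Fact.mk hr
  obtain ⟨b, hb⟩ := IsPGroup.iff_card.1 (hNr.isPGroup hr)
  obtain ⟨i, -, hi⟩ := (Nat.dvd_prime_pow hr).1 (hb ▸ degree_dvd_card hθ ha)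
  have hne : r ≠ p := by
    rintro rfl
    have i0 : i = 0 := by
      by_contra h0; exact hpn ((dvd_pow_self r h0).trans (hi ▸ hd'))
    rw [hi, i0, pow_zero, one_pow, eq_comm, relIndex_eq_one] at e1
    exact hab (e1.trans inf_le_right)
  have hPp := isPi_of_isPGroup hp P.isPGroup'
  have hn' : (P : Subgroup G) ≤ 𝓝(N) := by simp [normalizer_eq_top]
  obtain ⟨j, j0, hj, hj'⟩ := idx hp hr hne hNr hPp hn' (fun hle => by
    have h3 := hM 𝓒(N) inferInstance fun hd =>
      P.not_dvd_index (hd.trans (index_dvd_of_le (le_centralizer_iff.1 hle)))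
    exact hN fun y hy => mem_center_iff.2 fun g => ((h3 ▸ mem_top g : g ∈ 𝓒(N)) y hy).symm)
  set C := N ⊓ 𝓒((P : Subgroup G)) with hC
  have hYC : N ⊓ 𝓒(N) ≤ C := le_inf inf_le_left (hY.trans (center_le_centralizer _))
  have hcop : (♯N).Coprime ♯(P : Subgroup G) := by
    obtain ⟨c, hc⟩ := IsPGroup.iff_card.1 P.isPGroup'
    rw [hb, hc]
    exact Nat.Coprime.pow _ _ ((Nat.coprime_primes hr hp).2 hne)
  have h3 : ⁅⁅N, (P : Subgroup G)⁆, C⁆ = ⊥ := by
    refine commutator_commutator_eq_bot_of_rotate ?_ ?_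
    · rw [commutator_eq_bot_iff_le_centralizer.2 (le_centralizer_iff.1 inf_le_right),
        commutator_bot_left]
    · rw [commutator_eq_bot_iff_le_centralizer]
      exact ((commutator_mono inf_le_left le_rfl).trans hD).trans (center_le_centralizer _)
  have h4 : C ⊓ 𝓒(C) ≤ N ⊓ 𝓒(N) := by
    refine le_inf (inf_le_left.trans inf_le_left) (le_centralizer_iff.1 ?_)
    rw [← coprime_cent_prod hn' hcop (Or.inr inferInstance)]
    exact sup_le ((commutator_eq_bot_iff_le_centralizer.1 h3).trans (centralizer_le inf_le_left))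
      (le_centralizer_iff.1 inf_le_right)
  obtain ⟨φ, hφ, h5⟩ := CA.Cons.exists_irr_under C hχ
  obtain ⟨c, -, hc⟩ := irr_apply_one hφ
  have e2 := sq hχ hf hYC hY ((commutator_mono inf_le_left inf_le_left).trans hD') h4 hφ h5 hc
  have e3 := relIndex_mul_relIndex _ _ _ hYC (inf_le_left : C ≤ N)
  rw [← e1, ← e2, hj, hi] at e3
  have hc' : c ∣ r ^ i := (Nat.pow_dvd_pow_iff two_ne_zero).1 (Dvd.intro _ e3)
  obtain ⟨l, hl, rfl⟩ := (Nat.dvd_prime_pow hr).1 hc'
  rw [← pow_mul, ← pow_add, ← pow_mul] at e3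
  have e4 := Nat.pow_right_injective hr.two_le e3
  refine ⟨r ^ (i - l), (isPrimePow_nat_iff _).2 ⟨r, i - l, hr, by omega, rfl⟩,
    (pow_dvd_pow r (by omega)).trans (hi ▸ hd'), ?_⟩
  rwa [← pow_mul, show (i - l) * 2 = j by omega]

/-- Let the finite solvable group G have a faithful irreducible character of degree n, and suppose that for the prime p a Sylow p-subgroup of G is not normal. Then n is divisible by a prime power q > 1 with q congruent to −1, 0 or 1 modulo p. -/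
theorem result {G : Type*} [Group G] [Finite G] (χ : Cfsg.IrrCharacter G) (hfaith : ∀ g : G, (χ : G → ℂ) g = (χ : G → ℂ) 1 → g = 1) (n : ℕ) (hn : Cfsg.charDegree (χ : G → ℂ) = n) (hsolv : Group.IsSolvable G) (p : ℕ) (hp : p.Prime) (P : Sylow p G) (hP : ¬ (P : Subgroup G).Normal) : ∃ q : ℕ, IsPrimePow q ∧ q ∣ n ∧ ((q : ℤ) ≡ -1 [ZMOD p] ∨ (q : ℤ) ≡ 0 [ZMOD p] ∨ (q : ℤ) ≡ 1 [ZMOD p]) := by
  by_cases hpn : p ∣ n
  · exact ⟨p, hp.isPrimePow, hpn, Or.inr (Or.inl (by simp [Int.ModEq]))⟩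
  obtain ⟨q, h1, h2, h3⟩ := main hp _ G rfl hsolv χ.1 χ.2 hfaith n
    (by rw [irr_apply_one_eq χ.2, hn]) hpn P hP
  refine ⟨q, h1, h2, ?_⟩
  have h4 : (p : ℤ) ∣ (q + 1) * (q - 1) := by
    have := (Int.natCast_modEq_iff.2 h3).symm.dvd
    push_cast at this
    convert this using 1; ring
  rcases (Nat.prime_iff_prime_int.1 hp).dvd_or_dvd h4 with h | h
  · exact Or.inl ((Int.modEq_iff_dvd.2 (by simpa using h)).symm)
  · exact Or.inr (Or.inr (Int.modEq_iff_dvd.2 h).symm)

end Cfsg.Agent.S4467
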