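import Cfsg.Statements.S4471
import Cfsg.Agent.Lib.Char.H8Bli

set_option autoImplicit false
open Cfsg

namespace Cfsg.Agent.S4471

open Subgroup

theorem one {G : Type*} [Group G] [Finite G] {p : ℕ} (hp : p.Prime) {C : Subgroup G} [C.Normal]
    (hC : C ≤ centralizer (C : Set G)) (h : ¬ p ^ 2 ∣ C.index) : ¬ p ^ 2 ∣ (pCore p G).index := fun e => by
  haveI := Fact.mk hp
  obtain ⟨R⟩ : Nonempty (Sylow p C) := inferInstance
  haveI : (R : Subgroup C).Normal := ⟨fun a ha g => by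
    rwa [show g * a = a * g from Subtype.ext (hC a.2 g g.2), mul_inv_cancel_right]⟩
  haveI := Sylow.characteristic_of_normal R inferInstance
  have h1 : (R : Subgroup C).map C.subtype ≤ pCore p G := le_sSup ⟨inferInstance, R.isPGroup'.map _⟩
  have h2 := e.trans (index_dvd_of_le h1)
  rw [index_map_subtype] at h2
  exact h (((Nat.coprime_pow_left_iff two_pos _ _).2 (hp.coprime_iff_not_dvd.2 R.not_dvd_index)).dvd_of_dvd_mul_left h2)


/-- Let p ≥ 7 be a prime and let the finite group G have a faithful irreducible character of degree n with n < 2p and n ≠ p. If the Sylow p-subgroups of G are non-abelian then p² does not divide the index of O_p(G) in G; consequently, in every case G/O_p(G) has abelian Sylow p-subgroups. -/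
theorem result {G : Type*} [Group G] [Finite G] (χ : Cfsg.IrrCharacter G) (hfaith : ∀ g : G, (χ : G → ℂ) g = (χ : G → ℂ) 1 → g = 1) (n : ℕ) (hn : Cfsg.charDegree (χ : G → ℂ) = n) (p : ℕ) (hp : p.Prime) (h7 : 7 ≤ p) (hn2 : n < 2 * p) (hnp : n ≠ p) : ((∃ P : Sylow p G, ∃ x ∈ (P : Subgroup G), ∃ y ∈ (P : Subgroup G), x * y ≠ y * x) → ¬ p ^ 2 ∣ (Cfsg.pCore p G).index) ∧ ∀ Q : Sylow p (G ⧸ Cfsg.pCore p G), ∀ x ∈ (Q : Subgroup (G ⧸ Cfsg.pCore p G)), ∀ y ∈ (Q : Subgroup (G ⧸ Cfsg.pCore p G)), x * y = y * x := by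
  haveI := Fact.mk hp
  have h1 : (∃ P : Sylow p G, ∃ x ∈ (P : Subgroup G), ∃ y ∈ (P : Subgroup G), x * y ≠ y * x) →
      ¬ p ^ 2 ∣ (Cfsg.pCore p G).index := by
    rintro ⟨P, x, hx, y, hy, hxy⟩
    obtain ⟨m, ρ, hirr, e⟩ := χ.2
    rw [← e] at hfaith hn
    have h1 : ρ.character 1 = m := by simp
    obtain rfl : m = n := by rw [← hn, charDegree, h1]; simp
    obtain ⟨C, hC, h2, h3⟩ := CA.H8Bli.main ρ ((injective_iff_map_eq_one ρ).2 fun g hg => hfaith g (by
      simp [Representation.character, hg])) hp h7 hn2 hnp P.isPGroup' fun e => hxy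
        (commutatorElement_eq_one_iff_mul_comm.1 (e.le (commutator_mem_commutator hx hy)))
    exact one hp h2 h3
  refine ⟨h1, fun Q x hx y hy => ?_⟩
  by_cases h : ∃ P : Sylow p G, ∃ x ∈ (P : Subgroup G), ∃ y ∈ (P : Subgroup G), x * y ≠ y * x
  · obtain ⟨k, hk⟩ := IsPGroup.iff_card.1 Q.isPGroup'
    have h2 : k ≤ 1 := not_lt.1 fun e => h1 h ((pow_dvd_pow p e).trans (hk.symm.dvd.trans (card_subgroup_dvd_card _)))
    haveI := isCyclic_of_card_dvd_prime (hk.dvd.trans ((pow_dvd_pow p h2).trans (pow_one p).dvd))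
    exact congrArg Subtype.val (IsCyclic.isMulCommutative.is_comm.comm (⟨x, hx⟩ : Q) ⟨y, hy⟩)
  · push Not at h
    obtain ⟨P, rfl⟩ := Sylow.mapSurjective_surjective (QuotientGroup.mk'_surjective (pCore p G)) p Q
    obtain ⟨a, ha, rfl⟩ := hx
    obtain ⟨b, hb, rfl⟩ := hy
    rw [← map_mul, h P a ha b hb, map_mul]

end Cfsg.Agent.S4471
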