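import Cfsg.Statements.S4473
import Cfsg.Agent.Lib.Char.H10FS
import Cfsg.Agent.Lib.Lin.PSL2Sub

set_option autoImplicit false
open Cfsg

namespace Cfsg.Agent.S4473
open CA.H10FS CA.MatRep CA.H11FS CA.Clif CA.Gall CA.Ind2 CA.Ext CChar.CharFun CChar.CharOrth CChar.CharInt CChar.CharProd CChar.CharKer CA.Ind Subgroup Matrix MatrixGroups CA.Mat2 CA.PGL2Act

/-- Let the finite group G have a faithful irreducible character χ of degree 2 that is primitive: χ is not induced from a character of any proper subgroup. Then the centre of G has index 12, 24 or 60. -/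
theorem result {G : Type*} [Group G] [Fintype G] (χ : Cfsg.IrrCharacter G) (hfaith : ∀ g : G, (χ : G → ℂ) g = (χ : G → ℂ) 1 → g = 1) (h2 : Cfsg.charDegree (χ : G → ℂ) = 2) (hprim : ∀ H : Subgroup G, H ≠ ⊤ → ∀ θ : H → ℂ, Cfsg.IsCharacter H θ → (χ : G → ℂ) ≠ Cfsg.indFun H θ) : (Subgroup.center G).index = 12 ∨ (Subgroup.center G).index = 24 ∨ (Subgroup.center G).index = 60 := by
  classical
  have h1 : χ.1 1 = 2 := by rw [irr_apply_one_eq χ.2, h2]; rfl
  obtain ⟨n, M, hM⟩ := exists_matrix (char_of_irr χ.2)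
  obtain rfl : n = 2 := by
    have := hM 1
    rw [h1, map_one, trace_one, Fintype.card_fin] at this
    exact_mod_cast this.symm
  have hab : ¬ ∀ a b : G, a * b = b * a := fun h => by
    have := irr_apply_one_of_comm h χ.2
    rw [h1] at this
    norm_num at this
  let R : G →* GL (Fin 2) ℂ := M.toHomUnits
  have hR : Function.Injective R := (injective_iff_map_eq_one R).2 fun g hg => hfaith g (by
    rw [hM, hM, show M g = 1 from congrArg Units.val hg, map_one])
  let φ : G →* PGL(2, ℂ) := ProjGenLinGroup.mk.comp R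
  have hker : φ.ker = center G := by
    ext g
    rw [MonoidHom.mem_ker, MonoidHom.comp_apply, ProjGenLinGroup.mk_eq_one]
    refine ⟨fun h => mem_center_iff.2 fun x => hR (by
      rw [map_mul, map_mul]; exact mem_center_iff.1 h _), fun h => ?_⟩
    have hns : ¬ NS (M g) := fun hn => hab fun a b => hR (Units.ext (by
      have e : ∀ x, ∃ u v, M x = lin (M g) u v := fun x => (hn.comm_iff _).1 (by
        rw [← map_mul, ← map_mul, mem_center_iff.1 h])
      obtain ⟨u, v, e1⟩ := e a
      obtain ⟨u', v', e2⟩ := e b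
      change M (a * b) = M (b * a)
      rw [map_mul, map_mul, e1, e2, lin_comm]))
    obtain ⟨c, hc⟩ := (not_NS_iff _).1 hns
    exact mem_center_iff.2 fun x => Units.ext (by
      change x.1 * M g = M g * x.1
      simp [hc])
  rw [← hker, index_ker]
  haveI : Finite φ.range := Finite.of_surjective _ φ.rangeRestrict_surjective
  rcases CA.PGL2Dickson.dickson φ.range with ⟨x, hx⟩ | ⟨n, hn, -, ⟨e⟩⟩ | ⟨-, ⟨e⟩⟩ | ⟨-, ⟨e⟩⟩ | h |
    ⟨K, -, hK, -⟩
  · exfalso
    obtain ⟨γ, rfl⟩ := exists_smul_infty x
    obtain ⟨γ, rfl⟩ := ProjGenLinGroup.mk_surjective γ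
    let S : G →* GL (Fin 2) ℂ := (MulAut.conj γ⁻¹).toMonoidHom.comp R
    have hS : ∀ g, (S g).1 1 0 = 0 := fun g => OnePoint.smul_infty_eq_self_iff.1 (by
      have : R g • γ • (OnePoint.infty : OnePoint ℂ) = γ • OnePoint.infty := hx _ ⟨g, rfl⟩
      simp only [S, MonoidHom.comp_apply, MulEquiv.coe_toMonoidHom, MulAut.conj_apply, inv_inv,
        mul_smul, this, inv_smul_smul])
    have hl : ∀ i : Fin 2, IsIrrCharacter G fun g => (S g).1 i i := fun i => by
      let l : G →* ℂ := ⟨⟨fun g => (S g).1 i i, by simp⟩, fun a b => by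
        fin_cases i <;> simp [-MonoidHom.comp_apply, mul_apply, Fin.sum_univ_two, hS]⟩
      simpa [l] using irr_unitsHom_mul irr_one l.toHomUnits
    have e : χ.1 = (fun g => (S g).1 0 0) + fun g => (S g).1 1 1 := funext fun g => by
      rw [hM, Pi.add_apply, ← trace_fin_two]
      exact (trace_units_conj γ⁻¹ (M g)).symm
    have h3 : ∀ i : Fin 2, classInner (fun g => (S g).1 i i) χ.1 = 0 := fun i =>
      inner_irr_of_ne (hl i) χ.2 fun h => by
        have := congrFun h 1
        rw [h1] at this
        simp at this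
    have := inner_irr_self χ.2
    nth_rw 1 [e] at this
    rw [CChar.CharFun.inner_add_left, h3, h3] at this
    simp at this
  · exfalso
    let ψ : G →* DihedralGroup n := e.toMonoidHom.comp φ.rangeRestrict
    have hψ : Function.Surjective ψ := e.surjective.comp φ.rangeRestrict_surjective
    let A := (zpowers (DihedralGroup.r 1 : DihedralGroup n)).comap ψ
    haveI : NeZero n := ⟨by omega⟩
    have hA : A.index = 2 := by
      rw [index_comap_of_surjective _ hψ]
      have := (zpowers (DihedralGroup.r 1 : DihedralGroup n)).index_mul_card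
      rw [Nat.card_zpowers, DihedralGroup.orderOf_r_one, DihedralGroup.nat_card] at this
      exact Nat.eq_of_mul_eq_mul_right (by omega) this
    have hc : ∀ a b : A, a * b = b * a := by
      obtain ⟨x, hx⟩ := hψ (DihedralGroup.r 1)
      have e1 : ∀ a : A, ∃ (k : ℤ) (z : G), z ∈ center G ∧ a = x ^ k * z := fun a => by
        obtain ⟨k, hk⟩ := a.2
        refine ⟨k, (x ^ k)⁻¹ * a, ?_, by simp⟩
        have : ψ ((x ^ k)⁻¹ * a) = 1 := by rw [map_mul, map_inv, map_zpow, hx, inv_mul_eq_one]; exact hk
        rw [← hker]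
        exact congrArg Subtype.val (e.map_eq_one_iff.1 this)
      intro a b
      obtain ⟨k, z, hz, e2⟩ := e1 a
      obtain ⟨l, w, hw, e3⟩ := e1 b
      refine Subtype.ext ?_
      rw [coe_mul, coe_mul, e2, e3]
      exact ((((Commute.refl x).zpow_zpow k l).mul_right (mem_center_iff.1 hw _)).mul_left
        (mem_center_iff.1 hz _).symm).eq
    haveI := Fintype.ofFinite A
    obtain ⟨θ, hθ, h3⟩ := char_exists_irr_constituent (char_restrict (char_of_irr χ.2) A)
      fun h => by simpa [h1] using congrFun h 1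
    refine hprim A (fun h => by simp [h] at hA) θ (char_of_irr hθ)
      (eq_of_inner_ne_zero_of_apply_one (isCharacter_indFun A (char_of_irr hθ)) χ.2 ?_ ?_).symm
    · rw [inner_ind_left A θ (irr_classFun χ.2)]
      exact fun h => h3 (inner_eq_zero_comm.1 h)
    · rw [indFun_one, hA, irr_apply_one_of_comm hc hθ, h1]; simp
  · exact Or.inl ((Nat.card_congr e.toEquiv).trans CA.PSL2Sub.card_A4)
  · exact Or.inr (Or.inl ((Nat.card_congr e.toEquiv).trans CA.PSL2Sub.card_S4))
  · exact Or.inr (Or.inr h.1)
  · exact absurd hK (Infinite.of_injective _ (Nat.cast_injective (R := K))).not_finite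

end Cfsg.Agent.S4473
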