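import Cfsg.Statements.S4476
import Cfsg.Agent.Lib.Char.H12Misc
import Cfsg.Agent.Lib.Char.BPerm
import Cfsg.Agent.Lib.Char.Gall

set_option autoImplicit false
open Cfsg

namespace Cfsg.Agent.S4476

open CChar.CharRep CChar.CharFun CChar.CharOrth CChar.CharKer CChar.CharInt CChar.CharGen
  CChar.CharMisc CChar.CharProd CA.H12Misc Subgroup
open scoped ComplexConjugate commutatorElement

/-- Let G be a finite group of even order g with exactly t involutions, and put α = (g − 1)/t (a rational number). Then (a) some non-identity element x of G has at most α² conjugates; and (b) some non-principal real-valued irreducible character of G has degree at most α. -/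
theorem result {G : Type*} [Group G] [Fintype G] (heven : Even (Nat.card G)) (t : ℕ) (ht : Nat.card {x : G // orderOf x = 2} = t) : (∃ x : G, x ≠ 1 ∧ ((Subgroup.centralizer ({x} : Set G)).index : ℚ) ≤ (((Nat.card G : ℚ) - 1) / t) ^ 2) ∧ ∃ χ : Cfsg.IrrCharacter G, (χ : G → ℂ) ≠ (fun _ => 1) ∧ (∀ g : G, ((χ : G → ℂ) g).im = 0) ∧ (Cfsg.charDegree (χ : G → ℂ) : ℚ) ≤ ((Nat.card G : ℚ) - 1) / t := by
  classical
  obtain ⟨x, hx⟩ := exists_prime_orderOf_dvd_card' (hp := ⟨Nat.prime_two⟩) 2 heven.two_dvd
  have : Nonempty {x : G // orderOf x = 2} := ⟨⟨x, hx⟩⟩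
  have h0 : (0 : ℝ) < t := by exact_mod_cast ht ▸ Nat.card_pos
  have hg : (1 : ℝ) < Nat.card G := by
    exact_mod_cast lt_of_lt_of_le one_lt_two (Nat.le_of_dvd Nat.card_pos heven.two_dvd)
  set S := (Finset.univ.erase (irrOne G)).filter fun χ => ∀ g, (χ.1 g).im = 0
  have h1 : (t : ℝ) ≤ ∑ χ ∈ S, (charDegree χ.1 : ℝ) := by
    have h1 := card_sq_eq_sum (1 : G)
    rw [show Nat.card {s : G // s * s = 1} = 1 + t by
      rw [← ht, Nat.card_eq_fintype_card, Nat.card_eq_fintype_card, Fintype.card_subtype,
        Fintype.card_subtype, ← Finset.card_filter_add_card_filter_not (· = 1),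
        Finset.filter_filter, Finset.filter_filter]
      congr 1
      · exact Finset.card_eq_one.2 ⟨1, by ext; simp +contextual⟩
      · exact congrArg _ (Finset.filter_congr fun s _ => by rw [orderOf_eq_prime_iff, sq]),
      ← Finset.add_sum_erase _ _ (Finset.mem_univ (irrOne G)),
      ← Finset.sum_filter_add_sum_filter_not _ fun χ => ∀ g, (χ.1 g).im = 0,
      Finset.sum_eq_zero (s := Finset.filter (fun χ : IrrCharacter G => ¬ ∀ g, (χ.1 g).im = 0) _)
      fun χ h => by
        rw [fsInd_of_not_real χ.2 (not_forall.1 (Finset.mem_filter.1 h).2), zero_mul],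
      show fsInd (irrOne G).1 = 1 from fsInd_one, irrOne_apply, Nat.cast_add, Nat.cast_one, mul_one,
      add_zero, add_right_inj] at h1
    rw [← Complex.norm_natCast, h1]
    refine (norm_sum_le _ _).trans (Finset.sum_le_sum fun χ _ => ?_)
    rw [norm_mul, irr_apply_one_eq χ.2, Complex.norm_natCast]
    exact mul_le_of_le_one_left (Nat.cast_nonneg _) (norm_fsInd_le χ.2)
  have h2 : ∑ χ ∈ S, (charDegree χ.1 : ℝ) ^ 2 ≤ Nat.card G - 1 := by
    rw [← sum_charDegree_sq, ← Finset.add_sum_erase _ _ (Finset.mem_univ (irrOne G)),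
      charDegree_eq (n := 1) (by simp [irrOne_apply])]
    push_cast
    rw [add_sub_cancel_left]
    exact Finset.sum_le_sum_of_subset_of_nonneg (Finset.filter_subset _ _) fun _ _ _ => by positivity
  constructor
  · by_contra! h
    have h3 := sum_card_centralizer (G := G)
    rw [← card_irr, ← Finset.add_sum_erase _ _ (Finset.mem_univ 1)] at h3
    have h4 := Finset.sum_lt_sum_of_nonempty (s := Finset.univ.erase (1 : G)) ⟨x, Finset.mem_erase.2
      ⟨fun e => by simp [e] at hx, Finset.mem_univ _⟩⟩ (g := fun _ => (Nat.card G : ℝ))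
      (f := fun y => (((Nat.card G : ℝ) - 1) / t) ^ 2 * Nat.card (centralizer {y})) fun y hy => by
        have h5 := (Rat.cast_lt (K := ℝ)).2 (h y (Finset.mem_erase.1 hy).1)
        push_cast at h5
        exact (mul_lt_mul_of_pos_right h5 (by exact_mod_cast Nat.card_pos)).trans_eq
          (by exact_mod_cast (centralizer {y}).index_mul_card)
    rw [show centralizer {(1 : G)} = ⊤ from eq_top_iff.2 fun y _ =>
      mem_centralizer_singleton_iff.2 (by simp), card_top] at h3
    have h5 := congrArg (Nat.cast : ℕ → ℝ) h3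
    push_cast at h5
    rw [← Finset.mul_sum, eq_sub_of_add_eq' h5, Finset.sum_const, Finset.card_erase_of_mem
      (Finset.mem_univ _), Finset.card_univ, ← Nat.card_eq_fintype_card, nsmul_eq_mul,
      Nat.cast_pred Nat.card_pos, div_pow, div_mul_eq_mul_div, div_lt_iff₀ (pow_pos h0 2)] at h4
    have h6 : (S.card : ℝ) ≤ Nat.card (IrrCharacter G) - 1 := by
      rw [← Nat.cast_pred Nat.card_pos, Nat.card_eq_fintype_card, ← Finset.card_univ,
        ← Finset.card_erase_of_mem (Finset.mem_univ (irrOne G))]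
      exact_mod_cast Finset.card_filter_le _ _
    have h7 := ((pow_le_pow_left₀ h0.le h1 2).trans sq_sum_le_card_mul_sum_sq).trans
      (mul_le_mul h6 h2 (by positivity) ((Nat.cast_nonneg _).trans h6))
    nlinarith [mul_le_mul_of_nonneg_left h7 (mul_pos (sub_pos.2 hg) (one_pos.trans hg)).le]
  · by_contra! h
    have h3 := Finset.sum_lt_sum_of_nonempty (s := S) (Finset.nonempty_iff_ne_empty.2 fun e => by
      rw [e, Finset.sum_empty] at h1; linarith)
      (f := fun χ => ((Nat.card G : ℝ) - 1) / t * charDegree χ.1) (g := fun χ => charDegree χ.1 ^ 2)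
      fun χ hχ => by
        obtain ⟨h3, h4⟩ := Finset.mem_filter.1 hχ
        have h5 := (Rat.cast_lt (K := ℝ)).2
          (h χ (fun e => (Finset.mem_erase.1 h3).1 (Subtype.ext e)) h4)
        push_cast at h5
        rw [sq]
        exact mul_lt_mul_of_pos_right h5 (by exact_mod_cast charDegree_pos χ.2)
    rw [← Finset.mul_sum] at h3
    have h4 := mul_le_mul_of_nonneg_left h1 (div_nonneg (sub_nonneg.2 hg.le) h0.le)
    rw [div_mul_cancel₀ _ h0.ne'] at h4
    linarith

end Cfsg.Agent.S4476
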