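import Cfsg.Statements.S4477
import Cfsg.Agent.Lib.Char.H10FS
import Cfsg.Agent.Lib.Grp.H10Pg
import Cfsg.Agent.Lib.Grp.Act
import Cfsg.Agent.Lib.Char.CharMisc

set_option autoImplicit false
open Cfsg

namespace Cfsg.Agent.S4477
open scoped commutatorElement
open CA.H10FS CA.MatRep CA.H11FS CA.Clif CA.Gall CA.Ind2 CA.Ext CChar.CharFun CChar.CharOrth CChar.CharInt CChar.CharProd CChar.CharKer CA.Ind Subgroup CA.PGBasic CA.H10Pg CChar.CharMisc CA.PGClassTwo

universe u

theorem card_sq {G : Type*} [Group G] [Finite G] :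
    Nat.card {x : G // x * x = 1} = Nat.card {x : G // orderOf x = 2} + 1 := by
  classical
  have := Fintype.ofFinite G
  simp only [Nat.card_eq_fintype_card, Fintype.card_subtype]
  rw [← Finset.card_insert_of_notMem (a := 1) (by simp)]
  congr 1
  ext x
  simp only [Finset.mem_filter, Finset.mem_univ, true_and, Finset.mem_insert, ← sq]
  exact ⟨fun h => or_iff_not_imp_left.2 (orderOf_eq_prime h),
    fun h => h.elim (fun e => by simp [e]) fun e => e ▸ pow_orderOf_eq_one x⟩

theorem dvd_card_sq {G : Type*} [Group G] [Finite G] (K : Subgroup G) (h : K ≤ center G)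
    (h2 : ∀ k ∈ K, k * k = 1) : Nat.card K ∣ Nat.card {x : G // x * x = 1} := by
  let _ : MulAction K {x : G // x * x = 1} :=
    { smul := fun k x => ⟨k * x, by
        rw [mul_assoc, ← mul_assoc x.1, mem_center_iff.1 (h k.2), mul_assoc, x.2, mul_one, h2 _ k.2]⟩
      one_smul := fun x => Subtype.ext (one_mul _)
      mul_smul := fun a b x => Subtype.ext (mul_assoc (a : G) b x) }
  rw [Nat.card_congr (MulAction.selfEquivOrbitsQuotientProd (G := K) (X := {x : G // x * x = 1})
    fun x => ?_), Nat.card_prod]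
  · exact Dvd.intro_left _ rfl
  · exact (eq_bot_iff_forall _).2 fun k hk => Subtype.ext
      (mul_eq_right.1 (congrArg Subtype.val hk))

theorem two {G : Type*} [Group G] [Fintype G] (hG : IsPGroup 2 G) (hc : commutator G ≠ ⊥) {z : G}
    (hZ : zpowers z ≤ center G) (cZ : Nat.card (zpowers z) = 2) (χ : IrrCharacter G)
    (h2 : fsInd χ.1 ≠ 0) (h3 : charDegree χ.1 = 2) (h4 : charKer χ.1 = ⊥)
    (hu : ∀ w ∈ center G, w ^ 2 = 1 → w ∈ zpowers z) : (commutator G).index = 4 := by
  have := hG.isNilpotent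
  have h5 : center G = zpowers z := le_antisymm (fun w hw => hu w hw (by
    obtain ⟨l, hl⟩ := exists_central_unitsHom χ.2 le_rfl
    have a := hl ⟨w, hw⟩ 1
    have b := hl ⟨w, hw⟩ w⁻¹
    rw [char_apply_inv (char_of_irr χ.2), Complex.conj_eq_iff_im.2 (real_of_fs χ.2 h2 _),
      ← hl ⟨w, hw⟩] at b
    exact mem_bot.1 (h4 ▸ (mem_charKer (char_of_irr χ.2)).2 (by simpa [sq] using b.symm)))) hZ
  obtain ⟨x, -, h6, h7⟩ := exists_layer_top (G := G) (M := ⊤) (N := zpowers z) fun e =>
    hc ((commutator_eq_bot_iff_center_eq_top G).2 (top_le_iff.1 (e.trans hZ)))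
  let f : G →* zpowers z := MonoidHom.mk' (fun g => ⟨⁅x, g⁆, h7 g⟩) fun a b =>
    Subtype.ext (comm_mul_right (commute_of_mem_center (hZ (h7 b)) a))
  have h8 : ∀ g, g ∈ f.ker ↔ x * g = g * x := fun g =>
    Subtype.ext_iff.trans commutatorElement_eq_one_iff_mul_comm
  have h9 : f.ker.index = 2 := by
    rw [index_ker]
    refine ((Nat.dvd_prime Nat.prime_two).1 (cZ ▸ card_subgroup_dvd_card f.range)).resolve_left ?_
    rw [← index_ker, index_eq_one]
    exact fun e => h6 (h5 ▸ mem_center_iff.2 fun g => ((h8 g).1 (e.ge trivial)).symm)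
  have : IsMulCommutative f.ker := of_not_not fun e => by
    have := (irr_restrict_of_degree_le (hG.to_subgroup f.ker) (char_of_irr χ.2)
      (irr_apply_one_eq χ.2) h3.le fun e' => e (center_eq_top_iff.1
        ((commutator_eq_bot_iff_center_eq_top _).1 (le_bot_iff.1 fun g hg => Subtype.ext
          (mem_bot.1 (h4.le ((mem_charKer (char_of_irr χ.2)).2 (apply_of_mem_charKer (e' hg) :)))))))).2
    have := (mem_charCenter (char_of_irr this)).1 (center_le_charCenter this
      (mem_center_iff.2 fun g => Subtype.ext ((h8 g).1 g.2).symm : ⟨x, (h8 x).2 rfl⟩ ∈ _))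
    exact h6 (h5 ▸ charCenter_eq_center χ.2 h4 ▸ (mem_charCenter (char_of_irr χ.2)).2 this)
  have a := center_mul h9 hc
  have b := f.ker.card_mul_index
  rw [h9, ← a, h5, cZ, ← (commutator G).card_mul_index] at b
  exact Nat.eq_of_mul_eq_mul_left Nat.card_pos (b.symm.trans (by ring))

theorem cnt {G : Type*} [Group G] [Fintype G] (hG : IsPGroup 2 G) {Z : Subgroup G} [Z.Normal]
    (hz1 : Z ≤ commutator G)
    (h : ∀ χ : IrrCharacter G, ¬ Z ≤ charKer χ.1 → fsInd χ.1 ≠ 0 → charDegree χ.1 ≠ 2) : ∃ m : ℤ,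
    (Nat.card {x : G // x * x = 1} : ℤ) = Nat.card {x : G ⧸ Z // x * x = 1} + 4 * m := by
  classical
  have := Fintype.ofFinite (G ⧸ Z)
  have h1 := card_sq_eq_sum (1 : G)
  have h2 := card_sq_eq_sum (1 : G ⧸ Z)
  have h3 := sum_irr_quotient Z fun χ => fsInd χ * χ 1
  have h0 : ∀ ψ : G ⧸ Z → ℂ, fsInd (fun g : G => ψ g) = fsInd ψ := fun ψ => by
    rw [fsInd_def, fsInd_def,
      ← avg_comp_surj (QuotientGroup.mk' Z) (QuotientGroup.mk'_surjective _) fun g => ψ (g * g)]
    rfl
  simp only [h0, QuotientGroup.mk_one] at h3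
  have h4 : ∀ χ : IrrCharacter G, ∃ m : ℤ,
      ¬ Z ≤ charKer χ.1 → fsInd χ.1 * χ.1 1 = 4 * m := fun χ => by
    by_cases a : Z ≤ charKer χ.1
    · exact ⟨0, fun b => (b a).elim⟩
    obtain ⟨k, hk⟩ := degree_eq_pow_of_isPGroup hG χ.2
    have b := h χ a
    rw [irr_apply_one_eq χ.2, hk]
    rcases k with _ | _ | k
    · exact (a (hz1.trans ((irr_apply_one_iff χ.2).1
        (by simp [irr_apply_one_eq χ.2, hk])))).elim
    · exact ⟨0, fun _ => by simp [of_not_not (mt b (not_not.2 hk))]⟩
    · rcases fsInd_cases χ.2 with e | e | e <;> rw [e]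
      exacts [⟨0, by simp⟩, ⟨2 ^ k, fun _ => by push_cast; ring⟩, ⟨-2 ^ k, fun _ => by push_cast; ring⟩]
  choose m hm using h4
  rw [← Finset.sum_filter_add_sum_filter_not _ fun χ : IrrCharacter G => Z ≤ charKer χ.1,
    ← h3, ← h2, Finset.sum_congr rfl fun χ h => hm χ (Finset.mem_filter.1 h).2,
    ← Finset.mul_sum] at h1
  norm_cast at h1
  exact ⟨_, h1⟩

theorem aux (n : ℕ) : ∀ {G : Type u} [Group G] [Finite G], Nat.card G < n → IsPGroup 2 G →
    Nat.card {x : G // x * x = 1} % 4 = 2 → IsCyclic G ∨ (commutator G).index = 4 := by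
  classical
  induction n with
  | zero => simp
  | succ n ih => ?_
  intro G _ _ hn hG ht
  have := Fintype.ofFinite G
  have := hG.isNilpotent
  have hu : ∀ a ∈ center G, ∀ b ∈ center G, orderOf a = 2 → b ^ 2 = 1 → b ∈ zpowers a :=
    fun a ha b hb h1 h2 => of_not_not fun h3 => by
      have h4 := center_le_normalizer (zpowers a) hb
      have := dvd_card_sq (zpowers a ⊔ zpowers b) (sup_le (zpowers_le.2 ha) (zpowers_le.2 hb))
        fun k hk => by
          obtain ⟨_, ⟨i, rfl⟩, j, rfl⟩ := (mem_sup_zpowers h4).1 hk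
          have hc : Commute a b := (mem_center_iff.1 ha b).symm
          rw [← sq, (hc.zpow_zpow i j).mul_pow, ← zpow_natCast, ← zpow_natCast, ← zpow_mul,
            ← zpow_mul, mul_comm i, mul_comm j, zpow_mul, zpow_mul, zpow_natCast, zpow_natCast, h2,
            ← h1, pow_orderOf_eq_one, one_zpow, one_zpow, one_mul]
      rw [card_sup_zpowers Nat.prime_two h4 h3 (h2 ▸ one_mem _), Nat.card_zpowers, h1] at this
      omega
  by_cases hc : commutator G = ⊥
  · have h1 := (commutator_eq_bot_iff_center_eq_top G).1 hc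
    have := center_eq_top_iff.1 h1
    by_cases h2 : (⊤ : Subgroup G) = ⊥
    · exact Or.inl ⟨1, fun g => (mem_bot.1 (h2.le (mem_top g))) ▸ mem_zpowers _⟩
    obtain ⟨z, -, hz, hz2⟩ := exists_mem_center_orderOf hG h2
    refine Or.inl (CA.Act.isCyclic_of_card_pow_prime_le fun p hp => ?_)
    by_cases h3 : p = 2
    · subst h3
      exact (card_le_of_le' fun b hb => hu z hz b (h1.ge trivial) hz2 hb).trans
        (by rw [Nat.card_zpowers, hz2])
    · refine (card_le_of_le' (K := ⊥) fun b hb => ?_).trans (card_bot.trans_le hp.pos)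
      obtain ⟨k, hk⟩ := hG b
      exact eq_one_of_coprime (Nat.Coprime.pow_right k ((Nat.coprime_primes hp Nat.prime_two).2 h3)) hb hk
  obtain ⟨z, hz1, hz, hz2⟩ := exists_mem_center_orderOf hG hc
  have hZ := zpowers_le.2 hz
  have hN : (zpowers z).Normal := ⟨fun n hn g => by rwa [mem_center_iff.1 (hZ hn), mul_inv_cancel_right]⟩
  have cZ : Nat.card (zpowers z) = 2 := by rw [Nat.card_zpowers, hz2]
  by_cases h : ∃ χ : IrrCharacter G, ¬ zpowers z ≤ charKer χ.1 ∧ fsInd χ.1 ≠ 0 ∧ charDegree χ.1 = 2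
  · obtain ⟨χ, h1, h2, h3⟩ := h
    have h4 : charKer χ.1 = ⊥ := of_not_not fun e => by
      obtain ⟨w, a, b, c⟩ := exists_mem_center_orderOf hG e
      exact h1 (zpowers_le.2 (zpowers_le.2 a (hu w b z hz c (hz2 ▸ pow_orderOf_eq_one z))))
    exact Or.inr (two hG hc hZ cZ χ h2 h3 h4 fun w hw => hu z hz w hw hz2)
  push Not at h
  obtain ⟨m, h1⟩ := cnt hG (zpowers_le.2 hz1) h
  have h5 := (zpowers z).card_mul_index
  rw [cZ, index_eq_card] at h5
  have : 0 < Nat.card (G ⧸ zpowers z) := Nat.card_pos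
  rcases ih (G := G ⧸ zpowers z) (by omega) (hG.to_quotient _) (by omega) with e | e
  · exact (hc ((commutator_eq_bot_iff_center_eq_top G).2 (center_eq_top_iff.2
      ((QuotientGroup.mk' (zpowers z)).isMulCommutative_of_isCyclic_of_ker_le_center (by simpa using hZ))))).elim
  · have := map_commutator_eq G (QuotientGroup.mk' (zpowers z))
    rw [MonoidHom.range_eq_top.2 (QuotientGroup.mk'_surjective _), ← _root_.commutator_def] at this
    rw [← this, index_map_eq _ (QuotientGroup.mk'_surjective _) (by simpa using hz1)] at e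
    exact Or.inr e

/-- Let G be a finite 2-group whose number of involutions is congruent to 1 modulo 4. Then G is cyclic or its commutator subgroup has index 4. -/
theorem result {G : Type*} [Group G] [Finite G] (hG : IsPGroup 2 G) (ht : Nat.card {x : G // orderOf x = 2} % 4 = 1) : IsCyclic G ∨ (commutator G).index = 4 := by
  exact aux _ (Nat.lt_succ_self _) hG (by rw [card_sq]; omega)

end Cfsg.Agent.S4477
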