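import Cfsg.Statements.S4478
import Cfsg.Agent.Lib.Block.BlkZero
import Cfsg.Agent.Lib.Char.CharProd
import Cfsg.Agent.Lib.Char.CharMisc

set_option autoImplicit false
open Cfsg

namespace Cfsg.Agent.S4478
open Cfsg MonoidAlgebra CA.BlkAlg CA.BlkVal CA.BlkOmega CA.BlkRed CA.BlkCore CA.BlkDefect CA.BlkInd CA.BlkHeight CA.SylIn CA.H12PPart CChar.CharFun CChar.CharOrth Subgroup CA.BlkKer CChar.CharKer CA.BlkZero CChar.CharInt CChar.CharProd CChar.CharMisc

theorem ex2p {G : Type*} [Group G] [Finite G] {s c : G} (hs : orderOf s = 2) (hc : Commute s c)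
    {q : ℕ} (hq : q.Prime) (h2 : q ≠ 2) (hd : q ∣ orderOf c) : ∃ g : G, orderOf g = 2 * q := by
  have h1 : orderOf (c ^ (orderOf c / q)) = q := orderOf_pow_orderOf_div (orderOf_pos c).ne' hd
  refine ⟨s * c ^ (orderOf c / q), ?_⟩
  rw [(hc.pow_right _).orderOf_mul_eq_mul_orderOf_of_coprime, hs, h1]
  rw [hs, h1]
  exact (Nat.coprime_primes Nat.prime_two hq).2 h2.symm

/-- Let G be a finite group of even order and χ an irreducible character of G whose degree x is divisible by the full power of 2 dividing the order of G and, for every odd prime p such that G has an element of order 2p, by the full power of p dividing the order of G. Then all involutions of G are conjugate, the centralizer of every involution has order exactly x with x coprime to its index, and the Frobenius–Schur indicator of χ equals 1. -/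
theorem result {G : Type*} [Group G] [Fintype G] (heven : Even (Nat.card G)) (χ : Cfsg.IrrCharacter G) (h2 : 2 ^ (Nat.card G).factorization 2 ∣ Cfsg.charDegree (χ : G → ℂ)) (hp : ∀ p : ℕ, p.Prime → p ≠ 2 → (∃ g : G, orderOf g = 2 * p) → p ^ (Nat.card G).factorization p ∣ Cfsg.charDegree (χ : G → ℂ)) : (∀ s t : G, orderOf s = 2 → orderOf t = 2 → IsConj s t) ∧ (∀ s : G, orderOf s = 2 → Nat.card (Subgroup.centralizer ({s} : Set G)) = Cfsg.charDegree (χ : G → ℂ) ∧ (Nat.card (Subgroup.centralizer ({s} : Set G))).Coprime (Subgroup.centralizer ({s} : Set G)).index) ∧ (Nat.card G : ℂ)⁻¹ * ∑ g : G, (χ : G → ℂ) (g * g) = 1 := by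
  classical
  have hdz : ∀ q : ℕ, q.Prime → (q = 2 ∨ ∃ g : G, orderOf g = 2 * q) → DZ q χ := by
    intro q hq h
    by_cases e : q = 2
    · subst e; exact (dz_iff_pow_dvd hq).2 h2
    · exact (dz_iff_pow_dvd hq).2 (hp q hq e (h.resolve_left e))
  have hprime : ∀ s : G, orderOf s = 2 → ∀ c ∈ centralizer ({s} : Set G), ∀ q : ℕ, q.Prime →
      q ∣ orderOf c → DZ q χ := by
    intro s hs c hc q hq hd
    refine hdz q hq ?_
    by_cases e : q = 2
    · exact Or.inl e
    · exact Or.inr (ex2p hs (hc s rfl) hq e hd)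
  have hC : ∀ s : G, orderOf s = 2 →
      ∃ k : ℕ, charDegree χ.1 = Nat.card (centralizer ({s} : Set G)) * k := by
    intro s hs
    obtain ⟨k, hk⟩ := card_dvd_degree_of_vanish (char_of_irr χ.2) (centralizer ({s} : Set G))
      (fun c hc h1 => by
        obtain ⟨q, hq, hd⟩ := Nat.exists_prime_and_dvd (fun e => h1 (orderOf_eq_one_iff.1 e))
        exact (hprime s hs c hc q hq hd).apply_eq_zero hq hd)
    refine ⟨k, ?_⟩
    rw [irr_apply_one_eq χ.2] at hk
    exact_mod_cast hk
  set T := Finset.univ.filter fun g : G => orderOf g = 2 with hT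
  have hne : χ.1 ≠ fun _ => 1 := by
    intro e
    have h1 : charDegree χ.1 = 1 := charDegree_eq (by rw [e]; simp)
    rw [h1, Nat.dvd_one, Nat.pow_eq_one] at h2
    have := (Nat.prime_two.dvd_iff_one_le_factorization Nat.card_pos.ne').1 heven.two_dvd
    omega
  have hodd : ∑ g with Odd (orderOf g), χ.1 (g * g) = 0 := by
    have h1 : ∑ g with Odd (orderOf g), χ.1 (g * g) = ∑ g with Odd (orderOf g), χ.1 g := by
      refine Finset.sum_bij' (fun g _ => g * g) (fun g _ => g ^ ((orderOf g + 1) / 2)) ?_ ?_ ?_ ?_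
        fun _ _ => rfl
      · intro g hg
        rw [Finset.mem_filter] at hg ⊢
        refine ⟨Finset.mem_univ _, hg.2.of_dvd_nat ?_⟩
        rw [← sq]; exact orderOf_pow_dvd 2
      · intro g hg
        rw [Finset.mem_filter] at hg ⊢
        exact ⟨Finset.mem_univ _, hg.2.of_dvd_nat (orderOf_pow_dvd _)⟩
      · intro g hg
        have ho := (Finset.mem_filter.1 hg).2
        have e : orderOf (g * g) = orderOf g := by
          rw [← sq]; exact (Nat.coprime_two_right.2 ho).orderOf_pow
        rw [e, ← sq, ← pow_mul, Nat.mul_div_cancel' ho.add_one.two_dvd, pow_succ,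
          pow_orderOf_eq_one, one_mul]
      · intro g hg
        have ho := (Finset.mem_filter.1 hg).2
        rw [← sq, ← pow_mul, Nat.div_mul_cancel ho.add_one.two_dvd, pow_succ,
          pow_orderOf_eq_one, one_mul]
    have h3 : ∑ g, χ.1 g = 0 := by
      have := inner_irr_of_ne χ.2 irr_one hne
      simpa [classInner, Nat.card_pos.ne'] using this
    rw [h1, ← h3, Finset.sum_filter]
    refine Finset.sum_congr rfl fun g _ => ?_
    split_ifs with h
    · rfl
    · exact ((hdz 2 Nat.prime_two (Or.inl rfl)).apply_eq_zero Nat.prime_two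
        (Nat.not_odd_iff_even.1 h).two_dvd).symm
  have hsum : ∑ g, χ.1 (g * g) = (T.card * charDegree χ.1 : ℕ) := by
    rw [← Finset.sum_filter_add_sum_filter_not Finset.univ (fun g : G => Odd (orderOf g)), hodd,
      zero_add, Nat.cast_mul, ← irr_apply_one_eq χ.2, ← nsmul_eq_mul, ← Finset.sum_const,
      Finset.sum_filter, hT, Finset.sum_filter]
    refine Finset.sum_congr rfl fun g _ => ?_
    by_cases e : orderOf g = 2
    · rw [if_pos e, if_pos (by rw [e]; decide), ← sq, ← e, pow_orderOf_eq_one]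
    · rw [if_neg e]
      split_ifs with h
      · rfl
      · obtain ⟨r, hr⟩ := (Nat.not_odd_iff_even.1 h).two_dvd
        have h1 : orderOf (g * g) = r := by
          rw [← sq, orderOf_pow_of_dvd two_ne_zero ⟨r, hr⟩, hr, Nat.mul_div_cancel_left _ two_pos]
        obtain ⟨q, hq, hd⟩ := Nat.exists_prime_and_dvd (n := r) (fun e' => e (by rw [hr, e', mul_one]))
        refine (hdz q hq (Or.inr ⟨g ^ (orderOf g / (2 * q)), ?_⟩)).apply_eq_zero hq (h1 ▸ hd)
        exact orderOf_pow_orderOf_div (orderOf_pos g).ne' (hr ▸ Nat.mul_dvd_mul_left 2 hd)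
  haveI : Fact (Nat.Prime 2) := ⟨Nat.prime_two⟩
  obtain ⟨s₀, hs₀⟩ := exists_prime_orderOf_dvd_card' 2 heven.two_dvd
  have hG0 : (Nat.card G : ℂ) ≠ 0 := Nat.cast_ne_zero.2 Nat.card_pos.ne'
  have hpos : 0 < T.card * charDegree χ.1 :=
    Nat.mul_pos (Finset.card_pos.2 ⟨s₀, by simp [hT, hs₀]⟩) (charDegree_pos χ.2)
  have hfs : fsInd χ.1 = 1 := by
    rcases fsInd_cases χ.2 with h | h | h
    · rw [fsInd_def, hsum, mul_eq_zero, inv_eq_zero, Nat.cast_eq_zero, Nat.cast_eq_zero] at h
      have := @Nat.card_pos G _ _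
      omega
    · exact h
    · rw [fsInd_def, hsum, inv_mul_eq_iff_eq_mul₀ hG0, mul_neg_one, ← add_eq_zero_iff_eq_neg] at h
      norm_cast at h
      omega
  have hTx : T.card * charDegree χ.1 = Nat.card G := by
    have := hfs
    rw [fsInd_def, hsum, inv_mul_eq_iff_eq_mul₀ hG0, mul_one] at this
    exact_mod_cast this
  have hmain : ∀ s : G, orderOf s = 2 → Finset.univ.filter (IsConj s) = T ∧
      Nat.card (centralizer ({s} : Set G)) = charDegree χ.1 := by
    intro s hs
    obtain ⟨k, hk⟩ := hC s hs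
    have hsub : Finset.univ.filter (IsConj s) ⊆ T := fun x hx => by
      obtain ⟨c, rfl⟩ := isConj_iff.1 (Finset.mem_filter.1 hx).2
      rw [hT, Finset.mem_filter]
      exact ⟨Finset.mem_univ _, by rw [← hs]; exact (MulAut.conj c).orderOf_eq s⟩
    have h1 := Finset.card_le_card hsub
    have h3 := card_filter_isConj s
    have h4 := (centralizer ({s} : Set G)).index_mul_card
    have h5 : 0 < Nat.card (centralizer ({s} : Set G)) := Nat.card_pos
    have h6 : 0 < k := Nat.pos_of_ne_zero fun e => by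
      rw [e, mul_zero] at hk; exact (charDegree_pos χ.2).ne' hk
    rw [h3] at h1
    have h7 : T.card * k = (centralizer ({s} : Set G)).index := by
      refine Nat.eq_of_mul_eq_mul_right h5 ?_
      rw [h4, ← hTx, hk]; ring
    have h8 : k = 1 := by
      have : 0 < T.card := Nat.pos_of_mul_pos_right hpos
      nlinarith
    rw [h8, mul_one] at h7 hk
    exact ⟨Finset.eq_of_subset_of_card_le hsub (by rw [h3, h7]), hk.symm⟩
  refine ⟨fun s t hs ht => ?_, fun s hs => ⟨(hmain s hs).2, ?_⟩, hfs⟩
  · have : t ∈ T := by simp [hT, ht]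
    rw [← (hmain s hs).1] at this
    exact (Finset.mem_filter.1 this).2
  · refine Nat.coprime_of_dvd fun q hq h1 h3 => ?_
    haveI : Fact q.Prime := ⟨hq⟩
    obtain ⟨c, hc⟩ := exists_prime_orderOf_dvd_card' q h1
    have h4 := (dz_iff_not_dvd hq).1 (hprime s hs c c.2 q hq (by rw [orderOf_coe, hc]))
    rw [← (hmain s hs).2, ← (centralizer ({s} : Set G)).index_mul_card,
      Nat.mul_div_cancel _ Nat.card_pos] at h4
    exact h4 h3

end Cfsg.Agent.S4478
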