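import Cfsg.Statements.S4480
import Cfsg.Agent.Lib.Block.H11Dih3
import Cfsg.Agent.Lib.Char.H11FS
import Cfsg.Agent.Lib.Block.BlkGal

set_option autoImplicit false
open Cfsg

namespace Cfsg.Agent.S4480

open CA.H11Dih3 CA.H11FS CA.H11Inv CA.H13Inv CA.BlkGal CChar.CharFun CChar.CharInt CChar.CharProd Subgroup

/-- Same setting as the Klein-four order formula: G of order 4·g₀ (g₀ odd) with no normal 2-complement, P a Sylow 2-subgroup, J an involution of P, M over 2, principal 2-block {1, χ₁, χ₂, χ₃} with χ_i(J) = ε_i = ±1. Suppose ε₁ε₂ε₃ = −1 and ε₃ = −1, and put q = x₃ = χ₃(1). Then there is a natural number m with 4·c(J) = m·c(P)·(q + 1), and the order of G equals (m³·c(P)/4)·(q³ − q)/2, that is 8·#G = m³·c(P)·(q³ − q). -/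
theorem result {G : Type*} [Group G] [Finite G] (M : Ideal Cfsg.AlgInt) (hM : Cfsg.IsPModular 2 M) (g₀ : ℕ) (hg₀ : Odd g₀) (hG : Nat.card G = 4 * g₀) (hnc : ¬ ∃ N : Subgroup G, N.Normal ∧ Nat.card N = g₀) (P : Sylow 2 G) (J : G) (hJ : J ∈ (P : Subgroup G)) (hJ2 : orderOf J = 2) (χ₁ χ₂ χ₃ : Cfsg.IrrCharacter G) (ε₁ ε₂ ε₃ : ℤ) (hB : Cfsg.principalBlock M G = {χ : Cfsg.IrrCharacter G | (χ : G → ℂ) = (fun _ => 1) ∨ χ = χ₁ ∨ χ = χ₂ ∨ χ = χ₃}) (hdist : (χ₁ : G → ℂ) ≠ (fun _ => 1) ∧ (χ₂ : G → ℂ) ≠ (fun _ => 1) ∧ (χ₃ : G → ℂ) ≠ (fun _ => 1) ∧ χ₁ ≠ χ₂ ∧ χ₁ ≠ χ₃ ∧ χ₂ ≠ χ₃) (hε : (ε₁ = 1 ∨ ε₁ = -1) ∧ (ε₂ = 1 ∨ ε₂ = -1) ∧ (ε₃ = 1 ∨ ε₃ = -1)) (hval : (χ₁ : G → ℂ) J = ε₁ ∧ (χ₂ : G → ℂ) J = ε₂ ∧ (χ₃ : G → ℂ) J = ε₃) (hprod : ε₁ * ε₂ * ε₃ = -1) (hε₃ : ε₃ = -1) : ∃ m : ℕ, 4 * Nat.card (Subgroup.centralizer ({J} : Set G)) = m * Nat.card (Subgroup.centralizer ((P : Subgroup G) : Set G)) * (Cfsg.charDegree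 (χ₃ : G → ℂ) + 1) ∧ 8 * Nat.card G = m ^ 3 * Nat.card (Subgroup.centralizer ((P : Subgroup G) : Set G)) * (Cfsg.charDegree (χ₃ : G → ℂ) ^ 3 - Cfsg.charDegree (χ₃ : G → ℂ)) := by
  haveI := Fintype.ofFinite G
  obtain ⟨h1, h2, h3⟩ := four_rel hM hg₀ hG hnc P hJ hJ2 hB hdist hε hval
  have n1 := charDegree_pos χ₁.2
  have n2 := charDegree_pos χ₂.2
  have n3 := charDegree_pos χ₃.2
  subst hε₃
  obtain ⟨rfl, rfl⟩ : ε₁ = 1 ∧ ε₂ = 1 := by
    rcases hε.1 with rfl | rfl <;> rcases hε.2.1 with rfl | rfl <;> omega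
  have ν : ∀ χ : IrrCharacter G, χ.1 J = (1 : ℤ) → fsInd χ.1 = 0 ∨ fsInd χ.1 = 1 := fun χ h => by
    refine (or_assoc.2 (fsInd_cases χ.2)).resolve_right fun e => ?_
    obtain ⟨n, hn⟩ := exists_int_parity (char_of_irr χ.2) (mul_self hJ2)
    obtain ⟨k, hk⟩ := even_of_fsInd χ.2 e
    have : (1 : ℤ) = (k + k : ℕ) - 2 * n := by rw [h, hk] at hn; exact_mod_cast hn
    omega
  have ν1 : fsInd χ₁.1 = 0 := (ν χ₁ hval.1).resolve_right fun e => by
    rcases ν χ₂ hval.2.1 with e2 | e2 <;> rcases fsInd_cases χ₃.2 with e3 | e3 | e3 <;>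
      rw [e, e2, e3] at h2 <;> norm_num at h2
  have x12 : charDegree χ₂.1 = charDegree χ₁.1 := by
    have m : bar χ₁ ∈ principalBlock M G := bar_mem_principal_iff.2 (by simp [hB])
    rw [hB] at m
    rcases m with h | h | h | h
    · exact absurd (funext fun g => by simpa [bar_apply'] using congrFun h g⁻¹) hdist.1
    · obtain ⟨g, hg⟩ := (fsInd_eq_zero_iff χ₁.2).1 ν1
      exact absurd (bar_eq_self_iff.1 h g) hg
    · rw [← h, charDegree, bar_apply', inv_one, charDegree]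
    · have := hval.2.2
      rw [← h, bar_apply', inv_eq hJ2, hval.1] at this
      norm_num at this
  rw [show charDegree χ₃.1 = 2 * charDegree χ₁.1 + 1 by omega] at h3 ⊢
  rw [x12] at h3
  obtain ⟨n, hn⟩ := card_dvd_of_le (show centralizer ((P : Subgroup G) : Set G) ≤ centralizer {J} from
    centralizer_le (Set.singleton_subset_iff.2 hJ))
  have hi := (centralizer ({J} : Set G)).card_mul_index
  have c0 : 0 < Nat.card (centralizer ((P : Subgroup G) : Set G)) := Nat.card_pos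
  have c1 : 0 < Nat.card (centralizer ({J} : Set G)) := Nat.card_pos
  rw [← hi, hn] at h3 ⊢
  rw [hn] at c1
  generalize Nat.card (centralizer ((P : Subgroup G) : Set G)) = c at *
  generalize (centralizer ({J} : Set G)).index = i at *
  generalize charDegree χ₁.1 = x at *
  have n0 : 0 < n := Nat.pos_of_mul_pos_left c1
  have h4 : i * (x + 1) ^ 2 = x * (2 * x + 1) * (2 * n) ^ 2 := by
    zify
    apply mul_left_cancel₀ (a := (2 * x * n * c ^ 3 : ℤ)) (by positivity)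
    push_cast at h3
    linear_combination h3
  obtain ⟨m, hm⟩ : x + 1 ∣ 2 * n := by
    refine (Nat.pow_dvd_pow_iff two_ne_zero).1 (Nat.Coprime.dvd_of_dvd_mul_left (Nat.Coprime.pow_left 2
      (Nat.Coprime.mul_right (by simp) ?_)) (Dvd.intro_left _ h4))
    rw [show 2 * x + 1 = x + (x + 1) by ring]
    simp
  refine ⟨m, ?_, ?_⟩
  · zify at hm ⊢
    linear_combination (2 * c) * hm
  · rw [show (2 * x + 1) ^ 3 - (2 * x + 1) = (2 * x + 1) * (4 * x * (x + 1)) by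
      apply Nat.sub_eq_of_eq_add; ring]
    rw [hm] at h4
    zify at hm h4 ⊢
    apply mul_left_cancel₀ (a := ((x + 1) ^ 2 : ℤ)) (by positivity)
    linear_combination (8 * c * n) * h4 + (4 * c * x * (2 * x + 1) * ((x + 1) * m) ^ 2) * hm

end Cfsg.Agent.S4480
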