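import Cfsg.Statements.S4481
import Cfsg.Agent.Lib.Block.H11Dih

set_option autoImplicit false
open Cfsg

namespace Cfsg.Agent.S4481

open CA.H11Dih CA.H11PS CA.H13Span CA.MC2 CA.SylIn CA.BlkCore CChar.CharOrth CChar.CharFun Subgroup

/-- The principal 2-block of a group with dihedral Sylow 2-subgroups. Let G be a finite group whose Sylow 2-subgroup P is dihedral of order 2^n ≥ 8, let σ be an element of P of order 2^(n−1), ζ a primitive 2^(n−1)-th root of unity, and M a maximal ideal of the algebraic integers containing 2. Then the principal 2-block consists of exactly 3 + 2^(n−2) irreducible characters, which can be labelled 1, χ₁, χ₂, χ₃ and χ^(j) for 1 ≤ j ≤ 2^(n−2) − 1 (all distinct), with signs δ₁, δ₂, δ₃ such that for 0 < λ < 2^(n−1): χ₁(σ^λ) = δ₁, χ₂(σ^λ) = δ₂(−1)^(λ+1), χ₃(σ^λ) = δ₃(−1)^(λ+1) and χ^(j)(σ^λ) = δ₁(ζ^(jλ) + ζ^(−jλ)); and for every element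 ρ of odd order and every j: 1 + δ₁χ₁(ρ) = −δ₂χ₂(ρ) − δ₃χ₃(ρ) = δ₁χ^(j)(ρ). -/
theorem result {G : Type*} [Group G] [Finite G] (M : Ideal Cfsg.AlgInt) (hM : Cfsg.IsPModular 2 M) (n : ℕ) (hn : 3 ≤ n) (P : Sylow 2 G) (hP : Nonempty ((P : Subgroup G) ≃* DihedralGroup (2 ^ (n - 1)))) (σ : G) (hσ : σ ∈ (P : Subgroup G)) (hσo : orderOf σ = 2 ^ (n - 1)) (ζ : ℂ) (hζ : IsPrimitiveRoot ζ (2 ^ (n - 1))) : Nat.card (Cfsg.principalBlock M G) = 3 + 2 ^ (n - 2) ∧ ∃ (χ₁ χ₂ χ₃ : Cfsg.IrrCharacter G) (χ' : Fin (2 ^ (n - 2) - 1) → Cfsg.IrrCharacter G) (δ₁ δ₂ δ₃ : ℤ), (δ₁ = 1 ∨ δ₁ = -1) ∧ (δ₂ = 1 ∨ δ₂ = -1) ∧ (δ₃ = 1 ∨ δ₃ = -1) ∧ Function.Injective χ' ∧ (χ₁ : G → ℂ) ≠ (fun _ => 1) ∧ (χ₂ : G → ℂ) ≠ (fun _ => 1) ∧ (χ₃ : G → ℂ) ≠ (fun _ => 1) ∧ χ₁ ≠ χ₂ ∧ χ₁ ≠ χ₃ ∧ χ₂ ≠ χ₃ ∧ (∀ j, χ' j ≠ χ₁ ∧ χ' j ≠ χ₂ ∧ χ' j ≠ χ₃ ∧ (χ' j : G → ℂ) ≠ (fun _ => 1)) ∧ Cfsg.principalBlock M G = {χ : Cfsg.IrrCharacter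 G | (χ : G → ℂ) = (fun _ => 1) ∨ χ = χ₁ ∨ χ = χ₂ ∨ χ = χ₃ ∨ ∃ j, χ = χ' j} ∧ (∀ l : ℕ, 0 < l → l < 2 ^ (n - 1) → (χ₁ : G → ℂ) (σ ^ l) = δ₁ ∧ (χ₂ : G → ℂ) (σ ^ l) = δ₂ * (-1) ^ (l + 1) ∧ (χ₃ : G → ℂ) (σ ^ l) = δ₃ * (-1) ^ (l + 1) ∧ ∀ j : Fin (2 ^ (n - 2) - 1), (χ' j : G → ℂ) (σ ^ l) = δ₁ * (ζ ^ (((j : ℕ) + 1) * l) + (ζ ^ (((j : ℕ) + 1) * l))⁻¹)) ∧ ∀ ρ : G, Odd (orderOf ρ) → ∀ j : Fin (2 ^ (n - 2) - 1), 1 + δ₁ * (χ₁ : G → ℂ) ρ = -δ₂ * (χ₂ : G → ℂ) ρ - δ₃ * (χ₃ : G → ℂ) ρ ∧ 1 + δ₁ * (χ₁ : G → ℂ) ρ = δ₁ * (χ' j : G → ℂ) ρ := by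
  classical
  haveI := Fintype.ofFinite G
  obtain ⟨m, rfl⟩ : ∃ m, n = m + 2 := ⟨n - 2, by omega⟩
  have hm : 1 ≤ m := by omega
  obtain ⟨e⟩ := hP
  simp only [show m + 2 - 1 = m + 1 from rfl, Nat.add_sub_cancel] at *
  obtain ⟨a, y, h, hS⟩ := CA.MC3.exists_of_dihedral e
  have D₀ : Dih m a y := ⟨h, hS ▸ isSylowIn_top P⟩
  have p2 : 2 ≤ 2 ^ m := by
    calc 2 = 2 ^ 1 := rfl
      _ ≤ _ := Nat.pow_le_pow_right (by norm_num) hm
  have hσa : σ ∈ zpowers a := by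
    by_contra h1
    have := Nat.le_of_dvd two_pos
      (orderOf_dvd_of_pow_eq_one ((pow_two σ).trans (D₀.sq_out (hS ▸ hσ) h1)))
    omega
  have hz := CA.MC3.zpowers_eq_of_mem hσa (hσo.trans h.ord.symm)
  have D : Dih m σ y := ⟨⟨hσo, hz ▸ h.notMem, by
    simpa using D₀.conj_out (mem_sup_right (mem_zpowers y)) h.notMem hσa, by simpa using h.sq,
    h.four⟩, hz ▸ D₀.syl⟩
  obtain ⟨lam, l1, l2, l3⟩ := D.exists_lam hζ
  obtain ⟨χ₁, χ₂, χ₃, μ, δ₁, δ₂, δ₃, a1, a2, a3, a4, a5, a6, a7, a8, s1, s2, s3, e0, ej⟩ :=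
    D.main hm hM l2
  have hne : ∀ {χ : IrrCharacter G}, χ ≠ irrOne G → χ.1 ≠ fun _ => 1 := fun h e => h (Subtype.ext e)
  have ii : ∀ χ ψ : IrrCharacter G, classInner χ.1 ψ.1 = if χ = ψ then 1 else 0 := fun χ ψ => by
    split_ifs with h
    · rw [h, inner_irr_self ψ.2]
    · exact inner_irr_of_ne χ.2 ψ.2 fun e => h (Subtype.ext e)
  have hζ2 : ζ ^ 2 ^ m = -1 := (hζ.pow (Nat.two_pow_pos _) (pow_succ 2 m)).eq_neg_one_of_two_right
  have val : ∀ χ ∈ principalBlock M G, ∀ l : ℕ, 0 < l → l < 2 ^ (m + 1) → χ.1 (σ ^ l) =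
      -(((if χ = irrOne G then 1 else 0) + δ₁ * (if χ = χ₁ then 1 else 0) +
        δ₂ * (if χ = χ₂ then 1 else 0) + δ₃ * (if χ = χ₃ then 1 else 0)) * (-1) ^ l +
        ∑ j : Fin (2 ^ m - 1), ((if χ = irrOne G then 1 else 0) + δ₁ * (if χ = χ₁ then 1 else 0) -
          δ₁ * (if χ = μ j then 1 else 0)) * (ζ ^ (((j : ℕ) + 1) * l) + (ζ ^ (((j : ℕ) + 1) * l))⁻¹)) :=
    fun χ hχ l l0 ll => by
      rw [show χ.1 (σ ^ l) = _ from D.val_range hM l2 l3 (inSpan_irr hχ)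
        (x := ⟨σ ^ l, npow_mem_zpowers σ l⟩) fun e => pow_ne_one_of_lt_orderOf l0.ne' (hσo ▸ ll)
          (congrArg Subtype.val e), l1, ← pow_mul, mul_comm l, pow_mul, hζ2]
      simp only [e0, ej, CChar.CharFun.inner_add_right, CChar.CharFun.inner_sub_right,
        CChar.CharFun.inner_smul_right, ii, map_intCast, ← pow_mul, mul_comm l]
  have mem : ∀ (χ : IrrCharacter G) (ψ), classInner (T σ ψ) χ.1 ≠ 0 → χ ∈ principalBlock M G :=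
    fun χ ψ h => by_contra fun h' => h ((D.T_span hM ψ).2 χ h')
  have d1 : (δ₁ : ℂ) ≠ 0 := by rcases s1 with rfl | rfl <;> simp
  have d2 : (δ₂ : ℂ) ≠ 0 := by rcases s2 with rfl | rfl <;> simp
  have d3 : (δ₃ : ℂ) ≠ 0 := by rcases s3 with rfl | rfl <;> simp
  have m1 : χ₁ ∈ principalBlock M G := mem _ (lam ^ 2 ^ m) (by
    simp [e0, CChar.CharFun.inner_add_left, CChar.CharFun.inner_smul_left, ii, a1.symm, a4.symm,
      a5.symm, d1])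
  have m2 : χ₂ ∈ principalBlock M G := mem _ (lam ^ 2 ^ m) (by
    simp [e0, CChar.CharFun.inner_add_left, CChar.CharFun.inner_smul_left, ii, a2.symm, a4, a6.symm, d2])
  have m3 : χ₃ ∈ principalBlock M G := mem _ (lam ^ 2 ^ m) (by
    simp [e0, CChar.CharFun.inner_add_left, CChar.CharFun.inner_smul_left, ii, a3.symm, a5, a6, d3])
  have mj : ∀ j, μ j ∈ principalBlock M G := fun j => mem _ (lam ^ ((j : ℕ) + 1)) (by
    simp [ej, CChar.CharFun.inner_add_left, CChar.CharFun.inner_sub_left,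
      CChar.CharFun.inner_smul_left, ii, (a8 j).1.symm, (a8 j).2.2.2.symm, d1])
  have hB : principalBlock M G = {χ : IrrCharacter G | (χ : G → ℂ) = (fun _ => 1) ∨ χ = χ₁ ∨ χ = χ₂ ∨
      χ = χ₃ ∨ ∃ j, χ = μ j} := by
    ext χ
    refine ⟨fun h => by_contra fun h' => ?_, ?_⟩
    · simp only [Set.mem_setOf_eq, not_or, not_exists] at h'
      refine D.z_ne_zero hM h ?_
      have := val χ h (2 ^ m) (by omega) (by omega)
      rw [show (2 ^ m : ℤ) = (2 ^ m : ℕ) by simp, zpow_natCast, this]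
      simp [h'.2, show χ ≠ irrOne G from fun e => h'.1 (by rw [e]; rfl)]
    · rintro (h | rfl | rfl | rfl | ⟨j, rfl⟩)
      exacts [(show χ = irrOne G from Subtype.ext h) ▸ irrOne_mem_principalBlock hM, m1, m2, m3, mj j]
  refine ⟨?_, χ₁, χ₂, χ₃, μ, δ₁, δ₂, δ₃, s1, s2, s3, a7, hne a1, hne a2, hne a3, a4, a5, a6,
    fun j => ⟨(a8 j).1, (a8 j).2.1, (a8 j).2.2.1, hne (a8 j).2.2.2⟩, hB, fun l l0 ll => ?_,
    fun ρ hρ j => ?_⟩
  · have : principalBlock M G = ((insert (irrOne G) (insert χ₁ (insert χ₂ (insert χ₃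
        (Finset.univ.image μ)))) : Finset _) : Set _) := by
      rw [hB]; ext χ
      simp only [Set.mem_setOf_eq, Finset.coe_insert, Set.mem_insert_iff, Finset.coe_image,
        Finset.coe_univ, Set.image_univ, Set.mem_range, eq_comm (b := χ), Subtype.ext_iff (a2 := irrOne G)]
      rfl
    rw [this, Nat.card_coe_set_eq, Set.ncard_coe_finset, Finset.card_insert_of_notMem (by
        simp [a1.symm, a2.symm, a3.symm, fun j => (a8 j).2.2.2]),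
      Finset.card_insert_of_notMem (by simp [a4, a5, fun j => (a8 j).1]),
      Finset.card_insert_of_notMem (by simp [a6, fun j => (a8 j).2.1]),
      Finset.card_insert_of_notMem (by simp [fun j => (a8 j).2.2.1]),
      Finset.card_image_of_injective _ a7, Finset.card_univ, Fintype.card_fin]
    omega
  · have v0 := val _ (irrOne_mem_principalBlock hM) l l0 ll
    refine ⟨?_, ?_, ?_, fun j => ?_⟩
    · rw [val _ m1 l l0 ll]
      simp only [irrOne_apply, a1, a1.symm, a2.symm, a3.symm, a4, a5, fun j => (a8 j).1.symm,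
        fun j => (a8 j).2.2.2.symm, if_true, if_false, mul_zero, add_zero, zero_add, sub_zero, mul_one,
        one_mul, ← Finset.mul_sum] at v0 ⊢
      linear_combination -δ₁ * v0
    · rw [val _ m2 l l0 ll]
      simp [a2, a4.symm, a6, fun j => (a8 j).2.1.symm, pow_succ]
    · rw [val _ m3 l l0 ll]
      simp [a3, a5.symm, a6.symm, fun j => (a8 j).2.2.1.symm, pow_succ]
    · rw [val _ (mj j) l l0 ll]
      simp [a8 j, a7.eq_iff]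
  · have h1 := congrFun e0 ρ
    have h2 := congrFun (ej j) ρ
    rw [D.T_reg _ hρ.not_two_dvd_nat] at h1 h2
    simp only [Pi.add_apply, Pi.sub_apply, Pi.smul_apply, smul_eq_mul, irrOne_apply] at h1 h2
    exact ⟨by linear_combination -h1, by linear_combination -h2⟩

end Cfsg.Agent.S4481
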