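import Cfsg.Statements.S4482
import Cfsg.Agent.Lib.Block.H11Dih3

set_option autoImplicit false
open Cfsg

namespace Cfsg.Agent.S4482

open CA.H11Dih CA.H11Dih2 CA.H11Dih3 CA.H11PS CA.H13Span CA.H13Inv CA.H11Inv CA.MC2 CA.SylIn CA.BlkCore CChar.CharFun CChar.CharOrth CChar.CharGen CChar.CharInt Subgroup

/-- An order formula for groups with dihedral Sylow 2-subgroups and one class of involutions. Let G be a finite group whose Sylow 2-subgroup P = ⟨σ, τ⟩ is dihedral of order 2^n ≥ 8 (σ of order 2^(n−1), τ an involution inverting σ), let J be the central involution σ^(2^(n−2)), and suppose J, τ and στ are conjugate in G. Fix M over 2 and let χ₁ be an irreducible character in the principal 2-block taking one constant value δ₁ = ±1 at every non-identity power of σ, with χ₁ ≠ 1. Then, with x₁ = χ₁(1) and c(·) denoting orders of centralizers, x₁ ≠ δ₁ and #G · (x₁ − δ₁)² = 2·x₁(x₁ + δ₁)·c(J)³·(1/c(J,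 τ) + 1/c(J, στ))², where c(J, y) is the order of the joint centralizer of J and y. -/
theorem result {G : Type*} [Group G] [Finite G] (M : Ideal Cfsg.AlgInt) (hM : Cfsg.IsPModular 2 M) (n : ℕ) (hn : 3 ≤ n) (P : Sylow 2 G) (σ τ : G) (hσ : σ ∈ (P : Subgroup G)) (hτ : τ ∈ (P : Subgroup G)) (hσo : orderOf σ = 2 ^ (n - 1)) (hτo : orderOf τ = 2) (hrel : τ * σ * τ⁻¹ = σ⁻¹) (hgen : Subgroup.closure ({σ, τ} : Set G) = (P : Subgroup G)) (hconj : IsConj (σ ^ (2 ^ (n - 2))) τ ∧ IsConj (σ ^ (2 ^ (n - 2))) (σ * τ)) (χ₁ : Cfsg.IrrCharacter G) (hχ₁ : χ₁ ∈ Cfsg.principalBlock M G) (h1 : (χ₁ : G → ℂ) ≠ (fun _ => 1)) (δ₁ : ℤ) (hδ₁ : δ₁ = 1 ∨ δ₁ = -1) (hval : ∀ l : ℕ, 0 < l → l < 2 ^ (n - 1) → (χ₁ : G → ℂ) (σ ^ l) = δ₁) : (Cfsg.charDegree (χ₁ : G → ℂ) : ℤ) ≠ δ₁ ∧ (Nat.card G : ℚ) * ((Cfsg.charDegree (χ₁ : G → ℂ) : ℚ) - δ₁) ^ 2 = 2 * (Cfsg.charDegree (χ₁ : G → ℂ) : ℚ) * ((Cfsg.charDegree (χ₁ : G → ℂ) : ℚ) + δ₁)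 * (Nat.card (Subgroup.centralizer ({σ ^ (2 ^ (n - 2))} : Set G)) : ℚ) ^ 3 * (1 / (Nat.card (Subgroup.centralizer ({σ ^ (2 ^ (n - 2)), τ} : Set G)) : ℚ) + 1 / (Nat.card (Subgroup.centralizer ({σ ^ (2 ^ (n - 2)), σ * τ} : Set G)) : ℚ)) ^ 2 := by
  classical
  haveI := Fintype.ofFinite G
  obtain ⟨m, rfl⟩ : ∃ m, n = m + 2 := ⟨n - 2, by omega⟩
  have hm : 1 ≤ m := by omega
  simp only [show m + 2 - 1 = m + 1 from rfl, Nat.add_sub_cancel] at *
  have p2 : 2 ≤ 2 ^ m := Nat.pow_le_pow_right (n := 2) (by norm_num) hm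
  have σ2 : σ ^ 2 ≠ 1 := pow_ne_one_of_lt_orderOf (by simp) (by omega)
  have D : Dih m σ τ := ⟨⟨hσo, fun h => σ2 (by
      rw [show τ * σ = σ * τ from congrArg Subtype.val (comm_zpowers σ ⟨τ, h⟩ ⟨σ, mem_zpowers σ⟩),
        mul_inv_cancel_right, eq_inv_iff_mul_eq_one] at hrel
      rwa [pow_two]), by simpa using hrel, by simp [← hτo], by simp⟩, by
    rw [zpowers_eq_closure, zpowers_eq_closure, ← Subgroup.closure_union, Set.singleton_union, hgen]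
    exact isSylowIn_top P⟩
  have ez : σ ^ 2 ^ m = σ ^ (2 ^ m : ℤ) := by rw [← zpow_natCast]; simp
  rw [ez] at hconj ⊢
  have hζ := Complex.isPrimitiveRoot_exp (2 ^ (m + 1)) (by simp)
  generalize Complex.exp _ = ζ at hζ
  obtain ⟨lam, l1, l2, -⟩ := D.exists_lam hζ
  have l3 : (lam ⟨σ, mem_zpowers σ⟩ : ℂ) = ζ := by simpa using l1 1 (by simp)
  have l4 : lam ≠ 1 := fun e => by rw [e, orderOf_one] at l2; omega
  have l5 : lam⁻¹ ≠ lam := fun e => pow_ne_one_of_lt_orderOf (x := lam) (n := 2) (by simp) (by omega)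
    (by rw [pow_two]; exact inv_eq_iff_mul_eq_one.1 e)
  have hv : ∀ x ∈ zpowers σ, x ≠ 1 → χ₁.1 x = δ₁ := fun x hx e => by
    obtain ⟨l, hl, rfl⟩ := Finset.mem_image.1 (mem_zpowers_iff_mem_range_orderOf.1 hx)
    exact hval l (Nat.pos_of_ne_zero fun h => e (by simp [h])) (hσo ▸ Finset.mem_range.1 hl)
  have g := D.T_gen hm lam
  have i0 : classInner (T σ lam) (irrOne G).1 = (1 : ℤ) := by
    rw [inner_gen_comm g (gen_of_irr (irrOne G).2), D.inner_one_T hM l4, Int.cast_one]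
  have i1 : classInner (T σ lam) χ₁.1 = δ₁ := by
    rw [inner_gen_comm g (gen_of_irr χ₁.2), inner_const D hM (inSpan_irr hχ₁) hv l4]
  have dd : (δ₁ : ℂ) * δ₁ = 1 := by rcases hδ₁ with rfl | rfl <;> simp
  have g1 := gen_sub g (gen_intCast_smul 1 (gen_of_irr (irrOne G).2))
  obtain ⟨ε, hε, e, he, h⟩ := gen_norm_one' (gen_sub g1 (gen_intCast_smul δ₁ (gen_of_irr χ₁.2))) (by
    rw [inner_sub_smul_irr_self g1 χ₁.2 (a := δ₁) (by
      rw [CChar.CharFun.inner_sub_left, CChar.CharFun.inner_smul_left, i1,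
        inner_irr_of_ne (irrOne G).2 χ₁.2 h1.symm]; simp), inner_sub_smul_irr_self g (irrOne G).2 i0,
      D.inner_TT hM l4 l4, if_pos rfl, if_neg l5]
    push_cast
    linear_combination -dd)
  have ee : ε * ε = 1 := by rcases hε with rfl | rfl <;> simp
  have hT : T σ lam = (irrOne G).1 + (δ₁ : ℂ) • χ₁.1 + ε • e := by rw [← h]; simp
  have v1 := congrFun hT 1
  have vz := congrFun hT (σ ^ (2 ^ m : ℤ))
  have hz := hv _ (zpow_mem_zpowers σ (2 ^ m)) D.mc.z_ne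
  rw [D.T_reg _ (by simp)] at v1
  rw [D.T_coe lam ⟨_, zpow_mem_zpowers σ (2 ^ m)⟩, th_apply, show lam ⟨_, zpow_mem_zpowers σ (2 ^ m)⟩ =
    lam ⟨σ ^ 2 ^ m, npow_mem_zpowers _ _⟩ by simp only [ez], l1,
    (hζ.pow (Nat.two_pow_pos _) (pow_succ 2 m)).eq_neg_one_of_two_right] at vz
  have c := count D (one_class D hconj.1 hconj.2) lam (Or.inl (l3 ▸ hζ.pow_ne_one_of_pos_of_lt
    (by simp) (by omega)))
  simp only [hT, CChar.CharFun.inner_add_left, CChar.CharFun.inner_smul_left, add_mul,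
    Finset.sum_add_distrib, inner_irr_irr', inner_irr_irr' ⟨e, he⟩, mul_ite, ite_mul, mul_zero, zero_mul,
    Finset.sum_ite_eq, Finset.mem_univ, if_true, irrOne_apply, hz] at c
  simp only [Pi.add_apply, Pi.smul_apply, smul_eq_mul, irrOne_apply, hz] at v1 vz
  rw [irr_apply_one_eq χ₁.2] at c v1
  have n1 := (Nat.cast_ne_zero (R := ℂ)).2 (charDegree_pos χ₁.2).ne'
  have n2 := irr_apply_one_ne_zero he
  have a1 := card_cls (σ ^ (2 ^ m : ℤ)) τ
  have a2 := card_cls (σ ^ (2 ^ m : ℤ)) (σ * τ)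
  have n3 : 0 < Nat.card (centralizer ({σ ^ (2 ^ m : ℤ)} : Set G)) := Nat.card_pos
  have n4 : 0 < Nat.card (centralizer ({σ ^ (2 ^ m : ℤ), τ} : Set G)) := Nat.card_pos
  have n5 : 0 < Nat.card (centralizer ({σ ^ (2 ^ m : ℤ), σ * τ} : Set G)) := Nat.card_pos
  generalize Nat.card (centralizer ({σ ^ (2 ^ m : ℤ)} : Set G)) = c0 at *
  generalize Nat.card (centralizer ({σ ^ (2 ^ m : ℤ), τ} : Set G)) = c1 at *
  generalize Nat.card (centralizer ({σ ^ (2 ^ m : ℤ), σ * τ} : Set G)) = c2 at *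
  generalize (cls (σ ^ (2 ^ m : ℤ)) τ).card = k1 at *
  generalize (cls (σ ^ (2 ^ m : ℤ)) (σ * τ)).card = k2 at *
  generalize charDegree χ₁.1 = x at *
  have e1 : e 1 = -ε * δ₁ * (x + δ₁) := by linear_combination -ε * v1 - e 1 * ee + ε * dd
  have e2 : e (σ ^ (2 ^ m : ℤ)) = 2 * ε := by
    linear_combination -ε * vz - e (σ ^ (2 ^ m : ℤ)) * ee - ε * dd
  rw [e1] at n2
  rw [e1, e2] at c
  have n6 : (x : ℂ) + δ₁ ≠ 0 := right_ne_zero_of_mul n2
  have key : (Nat.card G : ℤ) * (x - δ₁) ^ 2 = 2 * x * (x + δ₁) * c0 * (k1 + k2) ^ 2 := by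
    rw [← Int.cast_inj (α := ℂ)]
    push_cast
    rw [show 2 * (x : ℂ) * (x + δ₁) * c0 * (k1 + k2) ^ 2 = x * (x + δ₁) * (2 * c0 * (k1 + k2) ^ 2) by
      ring, ← c]
    rcases hε with rfl | rfl <;> rcases hδ₁ with rfl | rfl <;> push_cast at * <;> field_simp <;> ring
  have k0 : 0 < k1 := Nat.pos_of_ne_zero fun h => by simp [h] at a1; omega
  refine ⟨fun h => ?_, ?_⟩
  · rw [h, sub_self, zero_pow two_ne_zero, mul_zero, ← h] at key
    have : 0 < x := Nat.pos_of_ne_zero (Nat.cast_ne_zero.1 n1)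
    exact absurd key (by positivity)
  · rw [← Int.cast_inj (α := ℚ)] at key
    rw [← Nat.cast_inj (R := ℚ)] at a1 a2
    push_cast at key a1 a2
    rw [key, show (k1 : ℚ) = c0 / c1 by rw [← a1]; field_simp,
      show (k2 : ℚ) = c0 / c2 by rw [← a2]; field_simp]
    ring

end Cfsg.Agent.S4482
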