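import Cfsg.Statements.S4483
import Cfsg.Agent.Lib.Block.BlkGal
import Cfsg.Agent.Lib.Block.H11Contrib

set_option autoImplicit false
open Cfsg

namespace Cfsg.Agent.S4483
open Cfsg MonoidAlgebra CA.BlkAlg CA.BlkVal CA.BlkOmega CA.BlkRed CA.BlkCore CA.BlkDefect CA.BlkInd CA.BlkHeight CA.SylIn CA.H12PPart CChar.CharFun CChar.CharOrth Subgroup CA.BlkKer CChar.CharKer CA.BlkZero CChar.CharInt CA.BlkReg CA.BlkGal

/-- Let G be a finite group of order 2^n·g₀ with g₀ odd, and M a maximal ideal of the algebraic integers containing 2. Every real-valued irreducible character of G of odd degree lies in the principal 2-block; consequently G has at most 2^(2n) real-valued irreducible characters of odd degree. -/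
theorem result {G : Type*} [Group G] [Finite G] (M : Ideal Cfsg.AlgInt) (hM : Cfsg.IsPModular 2 M) : (∀ χ : Cfsg.IrrCharacter G, (∀ g : G, ((χ : G → ℂ) g).im = 0) → Odd (Cfsg.charDegree (χ : G → ℂ)) → χ ∈ Cfsg.principalBlock M G) ∧ Nat.card {χ : Cfsg.IrrCharacter G // (∀ g : G, ((χ : G → ℂ) g).im = 0) ∧ Odd (Cfsg.charDegree (χ : G → ℂ))} ≤ 2 ^ (2 * (Nat.card G).factorization 2) := by
  have h1 : ∀ χ : IrrCharacter G, (∀ g : G, ((χ : G → ℂ) g).im = 0) →
      Odd (charDegree (χ : G → ℂ)) → χ ∈ principalBlock M G := fun χ h ho =>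
    mem_principal_of_real hM ho.not_two_dvd_nat fun g _ => h g
  refine ⟨h1, ?_⟩
  have h2 := CA.H11Contrib.four_mul_card_le hM (isPBlock_principalBlock (M := M) (G := G))
  have h3 := blockDefect_add_minNu (p := 2) ⟨_, irrOne_mem_principalBlock (G := G) hM⟩
  rw [minNu_principalBlock hM, add_zero] at h3
  rw [h3] at h2
  have h4 : Nat.card {χ : IrrCharacter G // (∀ g : G, ((χ : G → ℂ) g).im = 0) ∧
      Odd (charDegree (χ : G → ℂ))} ≤ Nat.card (principalBlock M G) :=
    Nat.card_le_card_of_injective (fun χ => ⟨χ.1, h1 χ.1 χ.2.1 χ.2.2⟩)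
      fun a b h => Subtype.ext (congrArg (fun x : principalBlock M G => x.1) h)
  have h5 : 0 < 2 ^ (2 * (Nat.card G).factorization 2) := by positivity
  omega

end Cfsg.Agent.S4483
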