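import Cfsg.Statements.S4484
import Cfsg.Agent.Lib.Block.BlkPr
import Cfsg.Agent.Lib.Char.H10B60
import Cfsg.Agent.Lib.Char.H10Sch

set_option autoImplicit false
open Cfsg

namespace Cfsg.Agent.S4484
open Cfsg MonoidAlgebra CA.BlkAlg CA.BlkVal CA.BlkOmega CA.BlkRed CA.BlkCore CA.BlkDefect CA.BlkInd CA.BlkHeight CA.SylIn CA.H12PPart CChar.CharFun CChar.CharOrth Subgroup CA.BlkKer CChar.CharKer CA.BlkZero CChar.CharInt CA.H10B60

theorem exists_chi {G : Type*} [Group G] [Finite G] {p q : ℕ} {M : Ideal AlgInt}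
    (hM : IsPModular p M) (hq : q.Prime) {x : G} (hx : p ∣ orderOf x) :
    ∃ χ ∈ principalBlock M G, χ ≠ irrOne G ∧ ¬ q ∣ charDegree χ.1 := by
  classical
  obtain ⟨M', hM'⟩ := exists_isPModular hq
  by_contra h
  push Not at h
  have h1 := sum_degree_mul_eq_zero hM (isSat_of_isPBlock hM (isPBlock_principalBlock (G := G))) hx
  rw [← Finset.add_sum_erase _ _ (a := irrOne G) (by simpa using irrOne_mem_principalBlock hM),
    add_eq_zero_iff_neg_eq] at h1
  have h2 := v_sum_lt_one (M := M') ((Finset.univ.filter (· ∈ principalBlock M G)).erase (irrOne G))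
    (fun χ => χ.1 1 * χ.1 x) fun χ hχ => by
      rw [Finset.mem_erase, Finset.mem_filter] at hχ
      refine v_mul_lt_one_left ?_ (isIntegral_mem (char_isIntegral (char_of_irr χ.2) x))
      rw [irr_apply_one_eq χ.2]
      exact (v_natCast_lt_one_iff hM' _).2 (h χ hχ.2.2 hχ.1)
  rw [← h1] at h2
  simp [irrOne] at h2

theorem alpha {G : Type*} [Group G] [Finite G] {p q a b g₀ : ℕ} [Fact p.Prime] {M : Ideal AlgInt}
    (hM : IsPModular p M) (hq : q.Prime) (hg : Nat.card G = p ^ a * q ^ b * g₀) (P : Sylow p G)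
    {χ : IrrCharacter G} (hχ : χ ∈ principalBlock M G) (hd : ¬ q ∣ charDegree χ.1)
    {z : G} (hz : z ∈ centralizer ((P : Subgroup G) : Set G)) :
    IsIntegral ℤ (g₀ * χ.1 z / χ.1 1) ∧ v M (g₀ * χ.1 z / χ.1 1 - g₀) < 1 := by
  have h1 := res_centralChar_eq_of_mem hM isPBlock_principalBlock hχ (irrOne_mem_principalBlock hM) z
  have hle : (P : Subgroup G) ≤ centralizer ({z} : Set G) := fun x hx => by
    rw [mem_centralizer_iff]
    rintro _ rfl
    exact (hz x hx).symm
  set i := (centralizer ({z} : Set G)).index with hi'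
  have hi : ¬ p ∣ i := fun h => P.not_dvd_index (h.trans (index_dvd_of_le hle))
  have h2 : centralChar (irrOne G).1 z = i := by
    rw [centralChar_def]
    show _ * 1 / 1 = _
    simp [hi']
  have hI := isIntegral_centralChar χ.2 z
  rw [h2, res_eq_res_iff (isIntegral_mem hI) (natCast_mem_O _)] at h1
  have h0 := irr_apply_one_ne_zero χ.2
  have hi0 : (i : ℂ) ≠ 0 := Nat.cast_ne_zero.2 index_ne_zero_of_finite
  constructor
  · obtain ⟨c, hc⟩ : i ∣ q ^ b * g₀ := by
      refine ((hM.1.coprime_iff_not_dvd.2 hi).symm.pow_right a).dvd_of_dvd_mul_left ?_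
      rw [← mul_assoc, ← hg]
      exact index_dvd_card _
    obtain ⟨u, w, h3⟩ := Nat.isCoprime_iff_coprime.2 ((hq.coprime_iff_not_dvd.2 hd).pow_left b)
    have h4 : (u : ℂ) * q ^ b + w * χ.1 1 = 1 := by
      rw [irr_apply_one_eq χ.2]; exact_mod_cast h3
    have h5 : (q : ℂ) ^ b * g₀ = i * c := by exact_mod_cast hc
    have e : g₀ * χ.1 z / χ.1 1 = u * c * centralChar χ.1 z + w * g₀ * χ.1 z := by
      rw [centralChar_def, ← hi']
      field_simp
      linear_combination (-(g₀ : ℂ) * χ.1 z) * h4 + u * χ.1 z * h5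
    rw [e]
    exact (((isIntegral_algebraMap (x := u)).mul (isIntegral_natCast c)).mul hI).add
      (((isIntegral_algebraMap (x := w)).mul (isIntegral_natCast g₀)).mul
        (char_isIntegral (char_of_irr χ.2) z))
  · have e : g₀ * χ.1 z / χ.1 1 - g₀ = (centralChar χ.1 z - i) * (g₀ * (i : ℂ)⁻¹) := by
      rw [centralChar_def, ← hi']
      field_simp
    rw [e]
    exact v_mul_lt_one_left h1 (mul_mem (natCast_mem_O _) (inv_natCast_mem hM hi))

/-- A refinement of Burnside's result on simple groups of order divisible by only two primes. Let G be a finite simple group of order p^a · q^b · g₀ with p, q distinct primes, a > 0, g₀ coprime to p and q, and the order of G different from p. Then g₀ − 1 > log p / log 6, that is 6^(g₀ − 1) > p. -/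
theorem result {G : Type*} [Group G] [Finite G] [IsSimpleGroup G] (p q a b g₀ : ℕ) (hp : p.Prime) (hq : q.Prime) (hpq : p ≠ q) (ha : 0 < a) (hg : Nat.card G = p ^ a * q ^ b * g₀) (hcop : ¬ p ∣ g₀) (hcoq : ¬ q ∣ g₀) (hne : Nat.card G ≠ p) : p < 6 ^ (g₀ - 1) := by
  classical
  haveI : Fact p.Prime := ⟨hp⟩
  obtain ⟨M, hM⟩ := exists_isPModular hp
  obtain ⟨P⟩ : Nonempty (Sylow p G) := inferInstance
  have hpG : p ∣ Nat.card G := by
    rw [hg, mul_assoc]; exact (dvd_pow_self p ha.ne').mul_right _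
  obtain ⟨x, hxP, hx⟩ : ∃ x ∈ centralizer ((P : Subgroup G) : Set G), orderOf x = p := by
    haveI := (nontrivial_iff_ne_bot _).2 (P.ne_bot_of_dvd_card hpG)
    haveI := P.isPGroup'.center_nontrivial
    obtain ⟨n, hn, e⟩ := (P.isPGroup'.to_subgroup (center P)).nontrivial_iff_card.1 inferInstance
    obtain ⟨y, hy⟩ := exists_prime_orderOf_dvd_card' (G := center P) p (e ▸ dvd_pow_self p hn.ne')
    exact ⟨y.1.1, fun h hh => congrArg Subtype.val (mem_center_iff.1 y.2 ⟨h, hh⟩),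
      by rw [Subgroup.orderOf_coe, Subgroup.orderOf_coe, hy]⟩
  obtain ⟨χ, hχ, h1, h2⟩ := exists_chi hM hq (hx ▸ dvd_rfl : p ∣ orderOf x)
  obtain ⟨n, ρ, hρ, hρχ, -, -⟩ := irr_exists_rep χ.2
  have hE := CChar.CharRep.exists_eigenbasis (Nat.cast_ne_zero.2 Nat.card_pos.ne') ρ x
  set d := Module.finrank ℂ (Fin n → ℂ) with hd
  obtain ⟨B, ω, hb, hω, hpow, -⟩ := hE
  rw [hx] at hω
  have h3 : χ.1 1 = d := by rw [← hρχ, Representation.char_one]
  have hd0 : (d : ℂ) ≠ 0 := h3 ▸ irr_apply_one_ne_zero χ.2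
  have hd1 : d ≠ 0 := Nat.cast_ne_zero.1 hd0
  have hg0 : g₀ ≠ 0 := fun e => hcop (e ▸ dvd_zero p)
  have hω0 : ∀ i, ω i ≠ 0 := fun i e => by
    have := hω i
    rw [e, zero_pow hp.ne_zero] at this
    exact zero_ne_one this
  have hω1 : ∀ i, ‖ω i‖ = 1 := fun i => Complex.norm_eq_one_of_pow_eq_one (hω i) hp.ne_zero
  have hmult : ∀ i, d ≤ g₀ * (Finset.univ.filter fun j => ω j = ω i).card := by
    intro i
    set m := (Finset.univ.filter fun j => ω j = ω i).card with hm
    have hl : (ω i)⁻¹ ^ p = 1 := by rw [inv_pow, hω, inv_one]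
    have hI : ∀ j, IsIntegral ℤ ((ω i)⁻¹ ^ j) := fun j =>
      (isIntegral_of_pow_eq_one hp.ne_zero hl).pow j
    have e : ((p * (g₀ * m) : ℕ) : ℂ) / d =
        ∑ j ∈ Finset.range p, g₀ * χ.1 (x ^ j) / χ.1 1 * (ω i)⁻¹ ^ j := by
      simp_rw [h3, ← hρχ, hpow, div_mul_eq_mul_div, ← Finset.sum_div, mul_assoc, ← Finset.mul_sum,
        Finset.sum_mul, ← mul_pow]
      rw [Finset.sum_comm]
      have : ∀ k, ∑ j ∈ Finset.range p, (ω k * (ω i)⁻¹) ^ j = if ω k = ω i then (p : ℂ) else 0 := by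
        intro k
        rw [CA.H10Sch.geom (by rw [mul_pow, hω, hl, one_mul])]
        simp only [mul_inv_eq_one₀ (hω0 i)]
      simp_rw [this]
      rw [← Finset.sum_filter, Finset.sum_const, nsmul_eq_mul, ← hm]
      push_cast
      ring
    have hα := fun j => alpha hM hq hg P hχ h2 (pow_mem hxP j)
    obtain ⟨t, ht⟩ : d ∣ p * (g₀ * m) := dvd_of_isIntegral_div hd1
      (e ▸ IsIntegral.sum _ fun j _ => (hα j).1.mul (hI j))
    have e2 : (t : ℂ) = ∑ j ∈ Finset.range p, (g₀ * χ.1 (x ^ j) / χ.1 1 - g₀) * (ω i)⁻¹ ^ j +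
        g₀ * ∑ j ∈ Finset.range p, (ω i)⁻¹ ^ j := by
      rw [Finset.mul_sum, ← Finset.sum_add_distrib]
      simp_rw [sub_mul, sub_add_cancel]
      rw [← e, ht]
      push_cast
      field_simp
    obtain ⟨s, rfl⟩ : p ∣ t := by
      rw [← v_natCast_lt_one_iff hM, e2]
      refine Valuation.map_add_lt _ (v_sum_lt_one _ _ fun j _ =>
        v_mul_lt_one_left (hα j).2 (isIntegral_mem (hI j))) (v_mul_lt_one_right (natCast_mem_O _) ?_)
      rw [CA.H10Sch.geom hl]
      split_ifs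
      · exact v_p_lt_one hM
      · simp
    rw [mul_left_comm] at ht
    have h4 := Nat.eq_of_mul_eq_mul_left hp.pos ((mul_left_comm _ _ _).trans ht |>.trans (mul_left_comm _ _ _))
    exact Nat.le_of_dvd (Nat.mul_pos (Nat.pos_of_ne_zero hg0) (Finset.card_pos.2 ⟨i, by simp⟩)) ⟨s, h4⟩
  set S := Finset.univ.image ω with hS
  have hcard : S.card ≤ g₀ := by
    refine Nat.le_of_mul_le_mul_right ?_ (Nat.pos_of_ne_zero hd1)
    have h4 := Finset.card_eq_sum_card_image ω Finset.univ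
    rw [Finset.card_univ, Fintype.card_fin] at h4
    calc S.card * d = ∑ _s ∈ S, d := by rw [Finset.sum_const, smul_eq_mul]
      _ ≤ ∑ s ∈ S, g₀ * (Finset.univ.filter fun j => ω j = s).card := Finset.sum_le_sum fun s hs => by
        obtain ⟨i, -, rfl⟩ := Finset.mem_image.1 hs
        exact hmult i
      _ = g₀ * d := by rw [← Finset.mul_sum, ← h4]
  by_contra hcon
  obtain ⟨f, hf⟩ := exists_sector
  let i₀ : Fin d := ⟨0, Nat.pos_of_ne_zero hd1⟩
  have hi₀ : ω i₀ ∈ S := Finset.mem_image_of_mem _ (Finset.mem_univ _)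
  let F : Fin p → (S.erase (ω i₀) → Fin 6) := fun k s => f ((s.1 / ω i₀) ^ (k : ℕ))
  obtain ⟨k, l, hkl, hF⟩ : ∃ k l : Fin p, k < l ∧ F k = F l := by
    obtain ⟨k, l, h4, h5⟩ := Fintype.exists_ne_map_eq_of_card_lt F (by
      rw [Fintype.card_fun, Fintype.card_fin, Fintype.card_fin, Fintype.card_coe,
        Finset.card_erase_of_mem hi₀]
      refine lt_of_le_of_ne ((Nat.pow_le_pow_right (by norm_num) (by omega)).trans (not_lt.1 hcon))
        fun e => ?_
      rcases Nat.eq_zero_or_pos (S.card - 1) with h | h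
      · rw [h] at e; exact hp.ne_one e.symm
      · have h6 : 6 ∣ p := e ▸ dvd_pow_self 6 h.ne'
        rcases (Nat.dvd_prime hp).1 h6 with h7 | h7
        · omega
        · rw [← h7] at hp; norm_num at hp)
    rcases lt_or_gt_of_ne h4 with h | h
    · exact ⟨k, l, h, h5⟩
    · exact ⟨l, k, h, h5.symm⟩
  obtain ⟨r, hr⟩ := Nat.exists_eq_add_of_lt (show (k : ℕ) < l from hkl)
  have hy : x ^ (r + 1) ≠ 1 := pow_ne_one_of_lt_orderOf r.succ_ne_zero (by have := l.2; omega)
  have hb' : ∀ i, ρ (x ^ (r + 1)) (B i) = ω i ^ (r + 1) • B i := fun i => by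
    rw [map_pow]
    exact Module.End.HasEigenvector.pow_apply ⟨Module.End.mem_eigenspace_iff.2 (hb i), B.ne_zero i⟩ _
  have hnear : ∀ i, ‖ω i ^ (r + 1) - ω i₀ ^ (r + 1)‖ < 1 := fun i => by
    by_cases e : ω i = ω i₀
    · simp [e]
    have hn : ∀ j : ℕ, ‖(ω i / ω i₀) ^ j‖ = 1 := fun j => by simp [hω1]
    have := hf _ _ (hn k) (hn l) (congrFun hF
      ⟨ω i, Finset.mem_erase.2 ⟨e, Finset.mem_image_of_mem _ (Finset.mem_univ _)⟩⟩)
    rw [hr, add_assoc, pow_add, inv_mul_cancel_left₀ (pow_ne_zero _ (div_ne_zero (hω0 _) (hω0 _))),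
      div_pow, div_sub_one (pow_ne_zero _ (hω0 _)), norm_div, norm_pow, hω1, one_pow, div_one] at this
    exact this
  have hsc := scalar ρ (x := x ^ (r + 1)) ((normalClosure_normal.eq_bot_or_eq_top).resolve_left
    fun e => hy (mem_bot.1 (e ▸ subset_normalClosure rfl))) (c := ω i₀ ^ (r + 1)) (by simp [hω1])
    (fun α v hv e => by
      obtain ⟨i, hi⟩ : ∃ i, B.repr v i ≠ 0 := by
        by_contra h
        push Not at h
        exact hv (B.repr.map_eq_zero_iff.1 (Finsupp.ext h))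
      have e1 : B.repr (ρ (x ^ (r + 1)) v) i = ω i ^ (r + 1) * B.repr v i := by
        conv_lhs => rw [← B.sum_repr v, map_sum]
        simp_rw [map_smul, hb', smul_smul]
        rw [B.repr_sum_self, mul_comm]
      rw [e, map_smul, Finsupp.smul_apply, smul_eq_mul] at e1
      rw [mul_right_cancel₀ hi e1]
      exact hnear i) (B.ne_zero i₀) (hb' i₀)
  have hc : x ^ (r + 1) ∈ center G := by
    rw [← charCenter_eq_center χ.2 (charKer_eq_bot_of_simple χ.2 fun e => h1 (Subtype.ext e)), ← hρχ]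
    exact (mem_charCenter_character ρ).2 ⟨_, LinearMap.ext hsc⟩
  have htop : center G = ⊤ := (Normal.eq_bot_or_eq_top inferInstance).resolve_left
    fun e => hy (mem_bot.1 (e ▸ hc))
  letI : CommGroup G := Group.commGroupOfCenterEqTop htop
  exact hne ((Nat.prime_dvd_prime_iff_eq hp IsSimpleGroup.prime_card).1 hpG).symm

end Cfsg.Agent.S4484
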