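import Cfsg.Statements.S4486
import Cfsg.Agent.Lib.Char.H10Leo

set_option autoImplicit false
open Cfsg

namespace Cfsg.Agent.S4486
open CA.PF CA.H12Mon CA.H12Deg CA.H10Bli CA.H10TI CA.H10Leo Subgroup

/-- Let G be a finite group and p a prime dividing its order such that every non-identity element of a Sylow p-subgroup P has the same centralizer as P; let p^n be the order of P. If G has a non-principal irreducible character χ of degree x with x² < p^n − 1, then either G has a proper normal subgroup containing P, or G has a normal subgroup of index p^n and x = 1. -/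
theorem result {G : Type*} [Group G] [Finite G] (p : ℕ) (hp : p.Prime) (hpG : p ∣ Nat.card G) (P : Sylow p G) (hstar : ∀ x ∈ (P : Subgroup G), x ≠ 1 → Subgroup.centralizer ({x} : Set G) = Subgroup.centralizer ((P : Subgroup G) : Set G)) (n : ℕ) (hn : Nat.card P = p ^ n) (χ : Cfsg.IrrCharacter G) (h1 : (χ : G → ℂ) ≠ fun _ => 1) (hdeg : Cfsg.charDegree (χ : G → ℂ) ^ 2 + 1 < p ^ n) : (∃ K : Subgroup G, K.Normal ∧ K ≠ ⊤ ∧ (P : Subgroup G) ≤ K) ∨ ((∃ N : Subgroup G, N.Normal ∧ N.index = p ^ n) ∧ Cfsg.charDegree (χ : G → ℂ) = 1) := by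
  have := Fintype.ofFinite G
  have h : St p (P : Subgroup G) ⊤ :=
    ⟨hp, CA.BG.syl_top hp P, fun x hx e => inf_le_right.trans (hstar x hx e).le⟩
  refine (h.normal_or (mem_irr_top.2 χ.2) (by rwa [triv_top]) (hdeg.trans_eq hn.symm)).imp
    (fun ⟨K, h1, h2⟩ => ⟨K, h1.normal_of_top, h2⟩) fun ⟨h1, h2⟩ => ⟨⟨_, (nrm_of_le_normalizer le_top
      (CA.BG.le_norm_core {p}ᶜ ⊤)).normal_of_top, ?_⟩, h2⟩
  rw [← relIndex_top_right, ← hn]
  exact CA.BG.Hall.relIndex_eq h1 (by rw [compl_compl]; exact h.syl)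

end Cfsg.Agent.S4486
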