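import Cfsg.Statements.S4488
import Cfsg.Agent.Lib.Char.H10Sch

set_option autoImplicit false
open Cfsg

namespace Cfsg.Agent.S4488
open Cfsg CA.H10Sch CChar.CharFun CChar.CharOrth CChar.CharKer CChar.CharInt Subgroup

/-- Let the finite group G have a faithful p-rational character χ of degree n (all values of χ lie in the field generated over ℚ by a root of unity of order prime to p), and let p^a be the order of a Sylow p-subgroup of G. Then a ≤ Σ_{i ≥ 0} ⌊n / ((p − 1)·p^i)⌋ (a finite sum; the terms vanish once (p − 1)p^i > n). -/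
theorem result {G : Type*} [Group G] [Finite G] (p : ℕ) (hp : p.Prime) (χ : G → ℂ) (hχ : Cfsg.IsCharacter G χ) (hfaith : ∀ g : G, χ g = χ 1 → g = 1) (hrat : (∃ r : ℕ, 0 < r ∧ ¬ p ∣ r ∧ ∀ g : G, χ g ∈ IntermediateField.adjoin ℚ ({Complex.exp (2 * Real.pi * Complex.I / r)} : Set ℂ))) (n : ℕ) (hn : Cfsg.charDegree χ = n) : (Nat.card G).factorization p ≤ ∑ i ∈ Finset.range (n + 1), n / ((p - 1) * p ^ i) := by
  haveI : Fact p.Prime := ⟨hp⟩
  obtain ⟨r, hr, hpr, hrat⟩ := hrat
  obtain ⟨P⟩ : Nonempty (Sylow p G) := inferInstance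
  have hψ := char_comp hχ (P : Subgroup G).subtype
  have h1 : χ 1 = n := hn ▸ char_apply_one_eq hχ
  have hP := P.card_eq_multiplicity
  have h4 := schur hp P.isPGroup' hψ h1 fun g j hj => by
    obtain ⟨σ, g1, g2⟩ := CA.H10PRat.exists_fix_pow (m := r) (j := j) hr.ne'
      (pow_ne_zero ((Nat.card G).factorization p) hp.ne_zero)
      ((hp.coprime_iff_not_dvd.2 hpr).symm.pow_right _) (hj.pow_right _)
    obtain ⟨ω, g4, g5⟩ := char_exists_pow_eq_sum hψ h1 g
    have g6 := g5 1
    rw [pow_one] at g6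
    rw [g5, ← g1 _ (hrat _), g6, map_sum]
    refine Finset.sum_congr rfl fun i _ => ?_
    rw [pow_one]
    exact (g2 _ (orderOf_dvd_iff_pow_eq_one.1 ((orderOf_dvd_of_pow_eq_one (g4 i)).trans
      (hP ▸ orderOf_dvd_natCard g)))).symm
  have h5 : charKer (fun x : (P : Subgroup G) => χ ((P : Subgroup G).subtype x)) = ⊥ :=
    eq_bot_iff.2 fun x hx => Subtype.ext (hfaith _ (by simpa using apply_of_mem_charKer hx))
  rwa [h5, index_bot, hP, hp.factorization_pow, Finsupp.single_eq_same] at h4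

end Cfsg.Agent.S4488
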