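import Cfsg.Statements.S4489
import Cfsg.Agent.Lib.Char.H12Deg
import Cfsg.Agent.Lib.Char.GalC
import Cfsg.Agent.Lib.Grp.PGBasic

set_option autoImplicit false
open Cfsg

namespace Cfsg.Agent.S4489
open Subgroup CA.PF CA.H12Deg CA.H12Mon CA.GalC CA.PGBasic

section
variable {Γ : Type*} [Group Γ] [Fintype Γ] {G H : Subgroup Γ} {χ ψ φ : Γ → ℂ} {p a t : ℕ}

open Classical in
/-- The Galois conjugates of `χ`. -/
noncomputable def gs (G : Subgroup Γ) (χ : Γ → ℂ) : Finset (Γ → ℂ) :=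
  (irr G).filter fun φ => ∃ u : ℂ →+* ℂ, φ = aut u χ

theorem mem_gs (h : χ ∈ irr G) : φ ∈ gs G χ ↔ ∃ u : ℂ →+* ℂ, φ = aut u χ := by
  simp only [gs, Finset.mem_filter, and_iff_right_iff_imp]
  rintro ⟨u, rfl⟩
  exact irr_aut u h

theorem base [hp : Fact p.Prime] (hG : IsPGroup p G) (i : Lin G)
    (ha : (cfker (lin i)).relIndex G = p ^ a) (ht : (gs G (lin i)).card ≤ (p - 1) * p ^ t) :
    a ≤ t + 1 := by
  obtain ⟨k, hk⟩ := IsPGroup.iff_card.1 hG
  obtain ⟨b, -, hb⟩ := (Nat.dvd_prime_pow hp.out).1 (hk ▸ orderOf_dvd_of_pow_eq_one i.pow_card)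
  have h0 := orderOf_pos i
  have : NeZero (orderOf i) := ⟨h0.ne'⟩
  have h1 : (orderOf i).totient ≤ (gs G (lin i)).card := by
    refine Finset.card_le_card_of_injOn (fun k => lin (i ^ k)) (fun k hk => ?_) fun k hk l hl e => ?_
    · obtain ⟨σ, hσ⟩ := exists_equiv_pow h0 (Finset.mem_filter.1 hk).2.symm
      exact (mem_gs (lin_irr i)).2 ⟨σ.toRingHom, by
        rw [← lin_aut, Lin.aut_eq_pow _ (pow_orderOf_eq_one i) hσ]⟩
    · exact pow_injOn_Iio_orderOf (Finset.mem_range.1 (Finset.mem_filter.1 hk).1)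
        (Finset.mem_range.1 (Finset.mem_filter.1 hl).1) (lin_injective e)
  have h2 : p ^ a ≤ orderOf i := by
    have h3 : (cfker (lin i)).subgroupOf G = i.hom.ker := Subgroup.ext fun x => by
      rw [mem_subgroupOf, irr_mem_cfker (lin_irr i), lin_coe, lin_apply_one, MonoidHom.mem_ker,
        Units.val_eq_one, Lin.hom_apply]
    rw [← ha, relIndex, h3, index_ker]
    refine (card_le_of_le ?_).trans (card_rootsOfUnity ℂ (orderOf i))
    rintro _ ⟨x, rfl⟩
    rw [mem_rootsOfUnity, Lin.hom_apply, ← Lin.pow_apply, pow_orderOf_eq_one, Lin.one_apply]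
  rw [hb, Nat.pow_le_pow_iff_right hp.out.one_lt] at h2
  rcases b with _ | b
  · omega
  · rw [hb, Nat.totient_prime_pow_succ hp.out, mul_comm] at h1
    have := (Nat.pow_le_pow_iff_right hp.out.one_lt).1
      (Nat.le_of_mul_le_mul_left (h1.trans ht) (Nat.sub_pos_of_lt hp.out.one_lt))
    omega

theorem relIndex_cj (hH : Nrm H G) (h : φ ∈ cfclass G ψ) :
    (cfker φ).relIndex H = (cfker ψ).relIndex H := by
  obtain ⟨g, hg, rfl⟩ := mem_cfclass.1 h
  rw [show cfker (cj g ψ) = (cfker ψ).comap (MulAut.conj g).toMonoidHom from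
    Subgroup.ext fun x => mem_cfker_cj g, relIndex_comap]
  exact congrArg _ (CA.BG.mem_norm_iff_cj.1 (hH.le_normalizer hg))

theorem main [hp : Fact p.Prime] (G : Subgroup Γ) (hG : IsPGroup p G) : ∀ χ ∈ irr G, ∀ a t,
    (cfker χ).relIndex G = p ^ a → (gs G χ).card ≤ (p - 1) * p ^ t →
      (p - 1) * a + 1 ≤ charDegree χ + (p - 1) * (t + 1) * charDegree χ := by
  classical
  induction G using WellFoundedLT.induction with | ind G ih =>
  intro χ hχ a t ha ht
  obtain ⟨U, hU, i, rfl⟩ := nil_mon hG.isNilpotent hχ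
  rcases hU.eq_or_lt with rfl | hU
  · rw [Ind_self (lin_CF i).2] at ha ht ⊢
    rw [deg_eq (n := 1) (by simp), mul_one, add_comm]
    exact Nat.add_le_add_left (Nat.mul_le_mul_left _ (base hG i ha ht)) _
  obtain ⟨H, h1, h2, h3⟩ := exists_relIndex_eq_below hG hU
  have hH : Nrm H G := ⟨h2, fun x hx k hk =>
    (mem_normalizer_iff.1 (le_normalizer_of_relIndex hG h2 h3 hx) k).1 hk⟩
  rw [← Ind_Ind h2] at hχ ha ht ⊢
  have hψ := irr_of_Ind_irr h2 ((irr_char (lin_irr i)).Ind h1) hχ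
  generalize Ind H U (lin i) = ψ at *
  obtain ⟨b, hb⟩ := exists_relIndex_eq_pow (H := cfker ψ) (hG.to_le h2)
  have h4 := ih H (h2.lt_of_ne fun e => hp.out.ne_one (by rw [← h3, e, relIndex_self]))
    (hG.to_le h2) ψ hψ b
  have h5 : charDegree (Ind G H ψ) = p * charDegree ψ :=
    deg_eq (by rw [Ind_one h2, irr_deg hψ, h3, Nat.cast_mul])
  have h6 : ∀ φ ∈ gs H ψ, Ind G H φ ∈ gs G (Ind G H ψ) := fun φ h => by
    obtain ⟨u, rfl⟩ := (mem_gs hψ).1 h
    exact (mem_gs hχ).2 ⟨u, (aut_Ind u ..).symm⟩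
  have h7 : ∀ φ ∈ gs H ψ, φ ∈ irr H := fun φ h => (Finset.mem_filter.1 h).1
  have h8 := relIndex_mul_relIndex _ _ _ (cfker_le (hH.Ind_on H (irr_on hψ)) (irr_ne_zero hχ)) h2
  have h9 : ∀ {A c}, A ≤ cfker (Ind G H ψ) → A.relIndex H ≤ p ^ c → a ≤ c + 1 := fun h e => by
    rw [← Nat.pow_le_pow_iff_right hp.out.one_lt, ← ha, ← h8, h3, pow_succ]
    exact Nat.mul_le_mul_right _ ((relIndex_le_of_le_left h index_ne_zero_of_finite).trans e)
  have := deg_pos hψ
  obtain ⟨q, rfl⟩ : ∃ q, p = q + 2 := ⟨p - 2, by have := hp.out.two_le; omega⟩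
  rw [h5]
  by_cases hn : G ≤ normalizer (cfker ψ : Set Γ)
  · have k1 := h9 (le_cfker_Ind H hn le_rfl) hb.le
    have k2 := h4 (t + 1) hb ((Finset.card_le_mul_card_image_of_maps_to h6 (q + 2) fun φ _ => by
      rcases ((gs H ψ).filter fun a => Ind G H a = φ).eq_empty_or_nonempty with e | ⟨θ, hθ⟩
      · simp [e]
      obtain ⟨k1, rfl⟩ := Finset.mem_filter.1 hθ
      refine (Finset.card_le_card (t := cfclass G θ) fun η hη => ?_).trans ?_
      · obtain ⟨k2, k3⟩ := Finset.mem_filter.1 hη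
        exact (cfclass_Ind_irrP hH (h7 _ k1) (h7 _ k2)).1 k3
      · rw [card_cfclass, ← h3]
        exact relIndex_le_of_le_left (le_stab (irr_CF (h7 _ k1)).2) index_ne_zero_of_finite).trans
          (by rw [pow_succ', mul_left_comm]; exact Nat.mul_le_mul_left _ ht))
    simp only [Nat.add_succ_sub_one] at *
    have k3 : (q + 1) * a ≤ (q + 1) * (b + 1) := Nat.mul_le_mul_left _ k1
    have k4 : (q + 1) * 1 ≤ (q + 1) * charDegree ψ := Nat.mul_le_mul_left _ this
    nlinarith [Nat.zero_le ((q + 1) * t * charDegree ψ), Nat.zero_le ((q + 1) * q * charDegree ψ),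
      Nat.zero_le ((q + 1) * q * t * charDegree ψ)]
  · have k1 := h9 (A := ⨅ φ : cfclass G ψ, cfker φ.1) (c := b * (q + 2)) (by
      rw [Ind_eq_sum_cfclass hH (irr_CF hψ)]
      exact le_cfker_smul _ (le_cfker_sum fun φ h => iInf_le_of_le ⟨φ, h⟩ le_rfl)) (by
      refine (relIndex_iInf_le _).trans ?_
      rw [Finset.prod_congr rfl fun φ _ => relIndex_cj hH φ.2, Finset.prod_const, Finset.card_univ,
        Fintype.card_coe, card_cfclass, relIndex_stab_of_irr hH hψ hχ, h3, hb, pow_mul])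
    have k2 := h4 t hb ((Finset.card_le_card_of_injOn _ h6 fun θ k1 η k2 e => by
      obtain ⟨g, hg, e⟩ := mem_cfclass.1 ((cfclass_Ind_irrP hH (h7 _ k2) (h7 _ k1)).1 e)
      by_cases h : g ∈ H
      · rw [e, cj_of_CF (irr_CF (h7 _ k2)) h]
      refine absurd ((sup_zpowers_eq_of_relIndex_prime hp.out h3 h2 hg h).ge.trans (sup_le
        (cfker_nrm (irr_CF hψ) (irr_ne_zero hψ)).le_normalizer (zpowers_le.2 ?_))) hn
      obtain ⟨u, rfl⟩ := (mem_gs hψ).1 k1
      obtain ⟨v, rfl⟩ := (mem_gs hψ).1 k2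
      refine mem_normalizer_iff.2 fun x => ?_
      rw [← cfker_aut v, ← mem_cfker_cj, ← e, cfker_aut, cfker_aut]).trans ht)
    simp only [Nat.add_succ_sub_one] at *
    have k3 : (q + 1) * a ≤ (q + 1) * (b * (q + 2) + 1) := Nat.mul_le_mul_left _ k1
    nlinarith [Nat.mul_le_mul_left (q + 2) k2]
end

/-- Let P be a finite p-group of order p^a with a > 0, and χ a faithful irreducible character of P of degree f whose field of values ℚ(χ) has degree (p − 1)·p^t over ℚ. Then a ≤ (f − 1)/(p − 1) + (t + 1)·f; in integer form, (p − 1)·a ≤ (f − 1) + (p − 1)(t + 1)·f. -/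
theorem result {P : Type*} [Group P] [Finite P] (p a : ℕ) (hp : p.Prime) (ha : 0 < a) (hP : Nat.card P = p ^ a) (χ : Cfsg.IrrCharacter P) (hfaith : ∀ g : P, (χ : P → ℂ) g = (χ : P → ℂ) 1 → g = 1) (f t : ℕ) (hf : Cfsg.charDegree (χ : P → ℂ) = f) (hfield : Module.finrank ℚ (IntermediateField.adjoin ℚ (Set.range (χ : P → ℂ))) = (p - 1) * p ^ t) : (p - 1) * a ≤ (f - 1) + (p - 1) * (t + 1) * f := by
  classical
  have := Fintype.ofFinite P
  have := Fact.mk hp
  have hχ := mem_irr_top.2 χ.2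
  set K := IntermediateField.adjoin ℚ (Set.range (χ : P → ℂ))
  have : FiniteDimensional ℚ K := Module.finite_of_finrank_pos (by
    rw [hfield]; exact Nat.mul_pos (Nat.sub_pos_of_lt hp.one_lt) (pow_pos hp.pos _))
  have h := main (p := p) ⊤ (IsPGroup.of_card (card_top.trans hP)) _ hχ a t (by
    rw [show cfker χ.1 = ⊥ from eq_bot_iff.2 fun x hx => hfaith x (cfker_apply hx),
      relIndex_bot_left, card_top, hP]) (by
    rw [← hfield, ← AlgHom.card ℚ K ℂ]
    refine (Finset.card_le_card fun φ h => ?_).trans (Finset.card_image_le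
      (f := fun (e : K →ₐ[ℚ] ℂ) g => e ⟨χ.1 g, IntermediateField.subset_adjoin _ _ ⟨g, rfl⟩⟩))
    obtain ⟨u, rfl⟩ := (mem_gs hχ).1 h
    exact Finset.mem_image.2 ⟨u.toRatAlgHom.comp K.val, Finset.mem_univ _, rfl⟩)
  have := deg_pos hχ
  rw [show charDegree χ.1 = f from hf] at h this
  omega

end Cfsg.Agent.S4489
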