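import Cfsg.Statements.S4490
import Cfsg.Agent.Lib.Block.BlkGal

set_option autoImplicit false
open Cfsg

namespace Cfsg.Agent.S4490
open Cfsg MonoidAlgebra CA.BlkAlg CA.BlkVal CA.BlkOmega CA.BlkRed CA.BlkCore CA.BlkDefect CA.BlkInd CA.BlkHeight CA.SylIn CA.H12PPart CChar.CharFun CChar.CharOrth Subgroup CA.BlkKer CChar.CharKer CA.BlkZero CChar.CharInt CA.BlkReg CA.BlkGal

/-- Let G be a finite group and M a maximal ideal of the algebraic integers containing 2. Every 2-block B of G whose defect groups are the Sylow 2-subgroups of G (a block of full defect) and which is not the principal block is different from its complex-conjugate block, the block formed by the complex conjugates of the members of B. -/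
theorem result {G : Type*} [Group G] [Finite G] (M : Ideal Cfsg.AlgInt) (hM : Cfsg.IsPModular 2 M) (B : Set (Cfsg.IrrCharacter G)) (hB : Cfsg.IsPBlock M B) (P : Sylow 2 G) (hfull : Cfsg.IsDefectGroup 2 M B (P : Subgroup G)) (hnp : B ≠ Cfsg.principalBlock M G) : {ψ : Cfsg.IrrCharacter G | ∃ χ ∈ B, (ψ : G → ℂ) = fun g => (starRingEnd ℂ) ((χ : G → ℂ) g)} ≠ B := by
  intro h
  obtain ⟨χ, hχ⟩ := block_nonempty hM hB
  refine hnp (eq_principal_of_bar hM hB ?_ hχ ?_)
  · rw [minNu_eq_index hM hB hfull, Nat.factorization_eq_zero_of_not_dvd P.not_dvd_index]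
  · rw [← h]; exact ⟨χ, hχ, bar_val χ⟩

end Cfsg.Agent.S4490
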