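import Cfsg.Statements.S4492
import Cfsg.Agent.Lib.Block.H12Cons

set_option autoImplicit false
open Cfsg

namespace Cfsg.Agent.S4492

open CA.BlkAlg CA.BlkVal CA.BlkCore CA.BlkDefect CA.SylIn CA.BlkInd CA.BlkHeight CA.BlkFirst
  CA.H11Amb CA.H11Def CA.H11Pair CA.H11Brg CA.H12Cover CA.H12Fong CA.H12FR CA.H12Brg CA.H12Cons
  CA.H12PSolv Subgroup

/-- Let G be a finite p-solvable group, N = O_{p'}(G) its largest normal subgroup of order prime to p, and θ an irreducible character of N invariant under conjugation by G; fix a maximal ideal M of the algebraic integers containing p. Then the irreducible characters of G lying over θ (those whose restriction to N contains θ) form a single p-block of G, and the defect groups of that block are exactly the Sylow p-subgroups of G. -/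
theorem result {G : Type*} [Group G] [Fintype G] (p : ℕ) [Fact p.Prime] (M : Ideal Cfsg.AlgInt) (hM : Cfsg.IsPModular p M) (hsolv : Cfsg.IsPSolvable p G) (N : Subgroup G) [hN : N.Normal] [Fintype N] (hNdef : N = Cfsg.pPrimeCore p G) (θ : Cfsg.IrrCharacter N) (hinv : ∀ (g : G) (n : N), (θ : N → ℂ) ⟨g * n * g⁻¹, hN.conj_mem n n.2 g⟩ = (θ : N → ℂ) n) : ∃ B : Set (Cfsg.IrrCharacter G), Cfsg.IsPBlock M B ∧ (∀ χ : Cfsg.IrrCharacter G, χ ∈ B ↔ Cfsg.classInner (fun n : N => (χ : G → ℂ) n) (θ : N → ℂ) ≠ 0) ∧ (∀ P : Sylow p G, Cfsg.IsDefectGroup p M B (P : Subgroup G)) ∧ ∀ D : Subgroup G, Cfsg.IsDefectGroup p M B D → ∃ P : Sylow p G, D = (P : Subgroup G) := by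
  subst hNdef
  have hp := p_eq_zero hM
  have hK := CA.Fitting.not_dvd_card_pPrimeCore (p := p) (G := G)
  have hb := isPBlock_singleton hM hK θ
  have he := blk_ab hM hb
  have hNN := NN_top_of_normal (pPrimeCore p G)
  obtain ⟨Q, hQ⟩ := exists_isSylowIn p (pPrimePCore p G)
  have hE := blk_constrained hM pPrimeCore_le_pPrimePCore le_top hNN (NN_top_of_normal _) hK
    relIndex_pPrimePCore hQ (fun x _ hx _ => centralizer_le_pPrimePCore hsolv hQ hx) he
    fun g _ => (stab_iff hM hb g).1 fun θ₁ h1 θ' h2 => by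
      obtain rfl : θ₁ = θ := h1
      exact Subtype.ext (funext fun n => (h2 n).trans (hinv g n))
  obtain ⟨B, hB, h⟩ := exists_eB hM hE
  refine ⟨B, hB, fun χ => by simpa using mem_iff_of_eq hM hb hB h χ, fun P => ?_, fun D hD => ?_⟩
  · rw [isDefectGroup_iff_top hM hB, h]
    exact isDef_of_isSylowIn hp le_top hNN hK he hE (isSylowIn_top P)
  · rw [isDefectGroup_iff_top hM hB, h] at hD
    obtain ⟨P, hP⟩ := (isSylowIn_of_isDef hp le_top hNN hK he hE hD).exists_sylow_eq
    exact ⟨P, hP.symm⟩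

end Cfsg.Agent.S4492
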