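import Cfsg.Statements.S4493
import Cfsg.Agent.Lib.Char.H12Deg
import Cfsg.Agent.Lib.Grp.H12PSolv

set_option autoImplicit false
open Cfsg

namespace Cfsg.Agent.S4493

open CA.PF CA.OQuo CA.H12Gl CA.H12Gl2 CA.H12Mon CA.H12Deg Subgroup
open CA.BG hiding cj cj_one cj_mul cj_inv_cj cj_cj_inv mem_cent1

/-- Let G be a finite solvable group and p a prime. Then G has a normal abelian Sylow p-subgroup if and only if no irreducible character degree of G is divisible by p. -/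
theorem result {G : Type*} [Group G] [Finite G] (hsolv : Group.IsSolvable G) (p : ℕ) (hp : p.Prime) : (∃ P : Subgroup G, P.Normal ∧ (∀ x ∈ P, ∀ y ∈ P, x * y = y * x) ∧ IsPGroup p P ∧ ¬ p ∣ P.index) ↔ ∀ χ : Cfsg.IrrCharacter G, ¬ p ∣ Cfsg.charDegree (χ : G → ℂ) := by
  have := Fintype.ofFinite G
  have := Fact.mk hp
  refine ⟨fun ⟨P, h1, h2, _, h3⟩ χ h => h3 (h.trans (relIndex_top_right P ▸ ito (nrm_top P)
    ⟨⟨fun a b => Subtype.ext (h2 _ a.2 _ b.2)⟩⟩ (mem_irr_top.2 χ.2))), fun h => ?_⟩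
  obtain ⟨P, h1, h2, h3⟩ := ito_syl hp CA.H12PSolv.psolv_of_solvable fun χ hχ =>
    h ⟨χ, mem_irr_top.1 hχ⟩
  obtain ⟨S, rfl⟩ := h1.exists_sylow_top hp
  exact ⟨S, h2.normal_of_top, fun a ha b hb => congrArg Subtype.val (h3.1.1 ⟨a, ha⟩ ⟨b, hb⟩),
    S.isPGroup', S.not_dvd_index⟩

end Cfsg.Agent.S4493
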