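import Cfsg.Statements.S4497
import Cfsg.Agent.Lib.Grp.H28SC
-- import your own Cfsg.Agent.* helpers here

set_option autoImplicit false
open Cfsg

namespace Cfsg.Agent.S4497

/-- Let the finite group G contain an element x of prime order p with C_G(x) = ⟨x⟩, let t be the number of conjugacy classes of elements of order p, and let S* = O_{p′}(G) be the largest normal subgroup of order prime to p. Then S* ≤ G′; if t ≠ p − 1 the quotient G′/S* is simple (in particular non-trivial); if t = p − 1 then G′ = S*. -/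
theorem result {G : Type*} [Group G] [Finite G] (p : ℕ) (hp : p.Prime) (x : G) (hx : orderOf x = p) (hC : Subgroup.centralizer ({x} : Set G) = Subgroup.zpowers x) (t : ℕ) (ht : Nat.card {C : ConjClasses G // ∃ g ∈ C.carrier, orderOf g = p} = t) : Cfsg.pPrimeCore p G ≤ commutator G ∧ (t ≠ p - 1 → ∀ h : ((Cfsg.pPrimeCore p G).subgroupOf (commutator G)).Normal, IsSimpleGroup (↥(commutator G) ⧸ (Cfsg.pPrimeCore p G).subgroupOf (commutator G))) ∧ (t = p - 1 → commutator G = Cfsg.pPrimeCore p G) := by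
  have : Fact p.Prime := ⟨hp⟩
  have h : CA.H28SC.SC p x := ⟨hx, hC⟩
  rw [CA.H28SC.card_classes' h.isSylGen] at ht
  subst ht
  rw [ne_eq, CA.H28SC.div_eq_iff_ee hx]
  have hK : ¬ p ∣ Nat.card (pPrimeCore p G) :=
    hp.coprime_iff_not_dvd.1 CA.Core.coprime_pPrimeCore.symm
  have h1 := h.le_commutator' _ hK
  refine ⟨h1, fun he hn => ?_, fun he => le_antisymm
    (CA.Core.le_pPrimeCore (hp.coprime_iff_not_dvd.2 (h.not_dvd_of_ee he)).symm) h1⟩
  have hxG := CA.H28SC.mem_commutator_of_ee hx he
  have h' := h.subgroup hxG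
  have : Nontrivial (↥(commutator G) ⧸ (pPrimeCore p G).subgroupOf (commutator G)) :=
    ⟨QuotientGroup.mk ⟨x, hxG⟩, 1, fun e =>
      hK (CA.H28SC.dvd_card_of_mem hx ((QuotientGroup.eq_one_iff (⟨x, hxG⟩ : commutator G)).1 e))⟩
  refine ⟨fun S hS => ?_⟩
  let M := S.comap (QuotientGroup.mk' ((pPrimeCore p G).subgroupOf (commutator G)))
  have hM : S = M.map (QuotientGroup.mk' _) :=
    (Subgroup.map_comap_eq_self_of_surjective (QuotientGroup.mk'_surjective _) S).symm
  have hKM : (pPrimeCore p G).subgroupOf (commutator G) ≤ M := fun k hk => by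
    rw [Subgroup.mem_comap, QuotientGroup.mk'_apply, (QuotientGroup.eq_one_iff k).2 hk]
    exact S.one_mem
  by_cases hd : p ∣ Nat.card M
  · right
    have hxM := CA.H28SC.mem_of_dvd_card h'.isSylGen M hd
    have h2 := h'.commutator_le M hxM
    have h3 : ∀ g : commutator G, (g : G) ∈ ⁅commutator G, commutator G⁆ → g ∈ M := by
      intro g hg
      rw [← Subgroup.map_subtype_commutator] at hg
      obtain ⟨g', hg', e⟩ := hg
      rw [← show g' = g from Subtype.ext e]
      exact h2 hg'
    suffices M = ⊤ by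
      rw [hM, this, Subgroup.map_top_of_surjective _ (QuotientGroup.mk'_surjective _)]
    rw [eq_top_iff]
    rintro g -
    by_cases hne : ⁅commutator G, commutator G⁆ = commutator G
    · exact h3 g (hne.symm ▸ g.2)
    · obtain ⟨-, h4⟩ := h.second he hne
      have h5 : (g : G) ∈ ⁅commutator G, commutator G⁆ ⊔ Subgroup.zpowers x := h4 ▸ g.2
      rw [← SetLike.mem_coe, Subgroup.normal_mul] at h5
      obtain ⟨s, hs, _, ⟨k, rfl⟩, e⟩ := h5
      have : g = ⟨s, Subgroup.commutator_le_left _ _ hs⟩ * ⟨x, hxG⟩ ^ k := Subtype.ext e.symm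
      rw [this]
      exact M.mul_mem (h3 _ hs) (M.zpow_mem hxM k)
  · left
    rw [hM, Subgroup.map_eq_bot_iff, QuotientGroup.ker_mk']
    intro m hm
    exact CA.Core.map_pPrimeCore_le_of_normal (commutator G)
      ⟨m, CA.Core.le_pPrimeCore (hp.coprime_iff_not_dvd.2 hd).symm hm, rfl⟩

end Cfsg.Agent.S4497
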