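import Cfsg.Statements.S4498
import Cfsg.Agent.Lib.Block.H28BT
-- import your own Cfsg.Agent.* helpers here

set_option autoImplicit false
open Cfsg

namespace Cfsg.Agent.S4498

/-- Let p and q be distinct primes dividing the order of the finite group G, and suppose G has no element of order p·q. Fix maximal ideals M_p over p and M_q over q of the algebraic integers. Then the principal p-block and the principal q-block of G have a non-principal irreducible character in common. -/
theorem result {G : Type*} [Group G] [Finite G] (p q : ℕ) [Fact p.Prime] [Fact q.Prime] (hpq : p ≠ q) (hp : p ∣ Nat.card G) (hq : q ∣ Nat.card G) (hno : ∀ g : G, orderOf g ≠ p * q) (Mp Mq : Ideal Cfsg.AlgInt) (hMp : Cfsg.IsPModular p Mp) (hMq : Cfsg.IsPModular q Mq) : ∃ χ : Cfsg.IrrCharacter G, (χ : G → ℂ) ≠ (fun _ => 1) ∧ χ ∈ Cfsg.principalBlock Mp G ∧ χ ∈ Cfsg.principalBlock Mq G := by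
  classical
  by_contra hc
  push Not at hc
  obtain ⟨x, hx⟩ := exists_prime_orderOf_dvd_card' p hp
  obtain ⟨y, hy⟩ := exists_prime_orderOf_dvd_card' q hq
  have h1 := CA.H28BT.proj_vanish hMq CA.BlkCore.isPBlock_principalBlock
    (fun χ => if χ ∈ principalBlock Mp G then starRingEnd ℂ (χ.1 x) else 0) (fun g hg => by
      refine Eq.trans ?_ (CA.H28BT.orth hMp CA.BlkCore.isPBlock_principalBlock (g := g) (y := x)
        (fun h2 => ?_) (by rw [hx]))
      · rw [Finset.sum_filter]
        exact Finset.sum_congr rfl fun χ _ => by split_ifs <;> simp [mul_comm]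
      · obtain ⟨k, hk⟩ := CA.H28Br4.exists_orderOf_eq_of_dvd
          (((Nat.coprime_primes Fact.out Fact.out).2 hpq).mul_dvd_of_dvd_of_dvd h2 hg)
        exact hno _ hk) (y := y) (by rw [hy])
  rw [Finset.sum_eq_single (CChar.CharOrth.irrOne G) (fun χ h2 h3 => by
    rw [if_neg fun h4 => hc χ (fun e => h3 (Subtype.ext e)) h4 (Finset.mem_filter.1 h2).2,
      zero_mul]) (fun h2 => absurd (Finset.mem_filter.2 ⟨Finset.mem_univ _,
        CA.BlkCore.irrOne_mem_principalBlock hMq⟩) h2),
    if_pos (CA.BlkCore.irrOne_mem_principalBlock hMp)] at h1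
  simp [CChar.CharOrth.irrOne_apply] at h1

end Cfsg.Agent.S4498
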