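import Cfsg.Statements.S4500
import Cfsg.Agent.Lib.Block.H28BT
import Cfsg.Agent.S4710
import Cfsg.Agent.S0144
import Cfsg.Agent.Lib.Block.BlkHeight
-- import your own Cfsg.Agent.* helpers here

set_option autoImplicit false
open Cfsg

namespace Cfsg.Agent.S4500

open CChar.CharOrth CChar.CharInt CChar.CharFun CA.BlkCore CA.BlkHeight in
theorem exists_not_dvd {G : Type*} [Group G] [Finite G] {p r : ℕ} [hp : Fact p.Prime] (hr : r.Prime)
    (h1 : p ∣ Nat.card G) (h2 : (Nat.card G).factorization p ≤ 2) :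
    ∃ χ : IrrCharacter G, χ.1 ≠ (fun _ => 1) ∧ ¬ p ∣ charDegree χ.1 ∧ ¬ r ∣ charDegree χ.1 := by
  classical
  obtain ⟨M, hM⟩ := CA.BlkVal.exists_isPModular hp.out
  obtain ⟨x, hx⟩ := exists_prime_orderOf_dvd_card' p h1
  have h0 := irrOne_mem_principalBlock (G := G) hM
  have h3 : minNu p (principalBlock M G) = 0 := by
    have := minNu_le (p := p) h0
    rw [CA.H28Br2.degree_one] at this
    simpa using this
  have h4 : ∀ χ ∈ principalBlock M G, ¬ p ∣ charDegree χ.1 := fun χ hχ h4 => by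
    have h5 := (Cfsg.Agent.S4710.result p M hM _ isPBlock_principalBlock _ rfl).2 χ hχ
    rw [blockDefect_eq, blockHeight_eq, h3] at h5
    have := hp.out.factorization_pos_of_dvd (charDegree_pos χ.2).ne' h4
    omega
  by_contra hc
  push Not at hc
  have h5 := CA.H28BT.orth hM isPBlock_principalBlock (g := (1 : G)) (y := x)
    CA.H28Prin.P1.not_dvd_one' (by rw [hx])
  rw [← Finset.add_sum_erase _ _ (Finset.mem_filter.2 ⟨Finset.mem_univ _, h0⟩),
    Finset.sum_congr rfl (g := fun χ => r * ((charDegree χ.1 / r : ℕ) * starRingEnd ℂ (χ.1 x)))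
      fun χ hχ => by
        rw [irr_apply_one_eq χ.2, ← mul_assoc, ← Nat.cast_mul, Nat.mul_div_cancel' (hc χ
          (fun e => Finset.ne_of_mem_erase hχ (Subtype.ext e))
          (h4 χ (Finset.mem_filter.1 (Finset.mem_of_mem_erase hχ)).2))], ← Finset.mul_sum] at h5
  have h6 : IsIntegral ℤ (((1 : ℕ) : ℂ) / r) := by
    have h7 : (r : ℂ) ≠ 0 := Nat.cast_ne_zero.2 hr.ne_zero
    simp only [irrOne_apply, map_one, mul_one] at h5
    rw [Nat.cast_one, eq_neg_of_add_eq_zero_left h5, neg_div, mul_div_cancel_left₀ _ h7]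
    exact (IsIntegral.sum _ fun χ _ => (isIntegral_natCast _).mul
      (char_isIntegral (char_conj (char_of_irr χ.2)) x)).neg
  exact hr.one_lt.ne' (Nat.dvd_one.1 (dvd_of_isIntegral_div hr.ne_zero h6))

open CChar.CharOrth CChar.CharInt CChar.CharFun CChar.CharKer in
theorem half {G : Type*} [Group G] [Finite G] [Nontrivial G] (p q r a b c : ℕ) (hp : p.Prime)
    (hq : q.Prime) (hr : r.Prime) (hpq : p ≠ q) (hpr : p ≠ r) (ha : a ≤ 2)
    (hG : Nat.card G = p ^ a * q ^ b * r ^ c) : ∃ χ : IrrCharacter G, χ.1 ≠ (fun _ => 1) ∧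
      ∃ k : ℕ, charDegree χ.1 = q ^ k := by
  haveI := Fact.mk hp
  rcases Nat.eq_zero_or_pos a with rfl | h0
  · have := Cfsg.Agent.S0144.result q r b c hq hr (by rw [hG, pow_zero, one_mul])
    have h1 : (commutator G).index ≠ 1 := fun h => (IsSolvable.commutator_lt_top_of_nontrivial G).ne
      (Subgroup.index_eq_one.1 h)
    rw [← card_linear_irr] at h1
    by_contra hc
    push Not at hc
    refine h1 (Nat.card_eq_one_iff_exists.2 ⟨⟨irrOne G, rfl⟩, fun χ => Subtype.ext (Subtype.ext ?_)⟩)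
    by_contra h2
    exact hc χ.1 h2 0 (charDegree_eq (by rw [χ.2]; simp))
  · obtain ⟨χ, h1, h2, h3⟩ := exists_not_dvd (G := G) (p := p) hr
      (hG ▸ ((dvd_pow_self p h0.ne').mul_right _).mul_right _) (by
        rw [hG, mul_assoc, Nat.factorization_mul (pow_ne_zero _ hp.ne_zero) (mul_ne_zero
          (pow_ne_zero _ hq.ne_zero) (pow_ne_zero _ hr.ne_zero)), Finsupp.add_apply,
          hp.factorization_pow, Finsupp.single_eq_same, Nat.factorization_eq_zero_of_not_dvd]
        · omega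
        · intro h
          rcases hp.dvd_mul.1 h with h | h
          · exact hpq ((Nat.prime_dvd_prime_iff_eq hp hq).1 (hp.dvd_of_dvd_pow h))
          · exact hpr ((Nat.prime_dvd_prime_iff_eq hp hr).1 (hp.dvd_of_dvd_pow h)))
    have h4 := charDegree_dvd_card χ.2
    rw [hG] at h4
    obtain ⟨k, -, hk⟩ := (Nat.dvd_prime_pow hq).1 (Nat.Coprime.dvd_of_dvd_mul_left
      (Nat.Coprime.pow_right _ (hp.coprime_iff_not_dvd.2 h2).symm) (Nat.Coprime.dvd_of_dvd_mul_right
      (Nat.Coprime.pow_right _ (hr.coprime_iff_not_dvd.2 h3).symm) h4))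
    exact ⟨χ, h1, k, hk⟩

/-- Let G be a non-trivial finite group of order p^a · q^b · r^c with p, q, r distinct primes and a ≤ 2. Then G has a non-principal irreducible character whose degree is a power of q, and a non-principal irreducible character whose degree is a power of r; the power may be the zeroth, so a non-principal linear character serves for both. -/
theorem result {G : Type*} [Group G] [Finite G] [Nontrivial G] (p q r a b c : ℕ) (hp : p.Prime) (hq : q.Prime) (hr : r.Prime) (hpq : p ≠ q) (hpr : p ≠ r) (hqr : q ≠ r) (ha : a ≤ 2) (hG : Nat.card G = p ^ a * q ^ b * r ^ c) : (∃ χ : Cfsg.IrrCharacter G, (χ : G → ℂ) ≠ (fun _ => 1) ∧ ∃ k : ℕ, Cfsg.charDegree (χ : G → ℂ) = q ^ k) ∧ ∃ χ : Cfsg.IrrCharacter G, (χ : G → ℂ) ≠ (fun _ => 1) ∧ ∃ k : ℕ, Cfsg.charDegree (χ : G → ℂ) = r ^ k := by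
  exact ⟨half p q r a b c hp hq hr hpq hpr ha hG,
    half p r q a c b hp hr hq hpr hpq ha (by rw [hG]; ring)⟩

end Cfsg.Agent.S4500
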