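import Cfsg.Statements.S4501
import Cfsg.Agent.Lib.GW.GWChAx
import Cfsg.Agent.Lib.Block.H28Fe3
import Cfsg.Agent.Lib.Block.BlkZero
import Cfsg.Agent.Lib.Lin.SLnCard
import Cfsg.Agent.S0998
import Cfsg.Agent.S0904
import Cfsg.Agent.S4500
import Cfsg.Agent.S0493
import Cfsg.Agent.S0499
-- import your own Cfsg.Agent.* helpers here

set_option autoImplicit false
open Cfsg

namespace Cfsg.Agent.S4501

open Finset Subgroup CA.H28Syl CA.H28SC CA.H28Prin CA.H28Br2 CA.H28BT CA.H28Simp CA.BlkVal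
open CChar.CharRep CChar.CharFun CChar.CharOrth CChar.CharInt CChar.CharKer CChar.CharBurn
open scoped ComplexConjugate

theorem seven {w : ℕ} (h1 : 1 < w) (h4 : w % 4 = 1)
    (h : ∀ l, l.Prime → l ∣ w ∨ l ∣ w + 1 → l = 2 ∨ l = 3 ∨ l = 7) : False := by
  obtain ⟨m, hm⟩ : 2 ∣ w + 1 := by omega
  obtain ⟨l, hl, h2⟩ := Nat.exists_prime_and_dvd (show m ≠ 1 by omega)
  have h3 := h l hl (Or.inr (hm ▸ h2.mul_left 2))
  have h5 : ∀ q, (∀ l, l.Prime → l ∣ w → l = q) → ∃ j, w = q ^ j := fun q hq =>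
    ⟨_, Nat.eq_prime_pow_of_unique_prime_dvd (by omega) fun {l} => hq l⟩
  rcases h3 with rfl | rfl | rfl
  · omega
  · obtain ⟨j, rfl⟩ := h5 7 fun l hl hd => by
      rcases h l hl (Or.inl hd) with rfl | rfl | rfl <;> omega
    have : 7 ^ j % 3 = 1 := by simp [Nat.pow_mod]
    omega
  · obtain ⟨j, rfl⟩ := h5 3 fun l hl hd => by
      rcases h l hl (Or.inl hd) with rfl | rfl | rfl <;> omega
    have : ∀ j, 3 ^ j % 28 ∈ [1, 3, 9, 27, 25, 19] := fun j => by
      induction j with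
      | zero => simp
      | succ j ih => simp only [List.mem_cons, List.not_mem_nil, or_false, pow_succ] at ih ⊢; omega
    have := this j
    simp only [List.mem_cons, List.not_mem_nil, or_false] at this
    omega

theorem bound {n u v w : ℤ} (hu : 0 < u) (hv : v ≤ -3 ∨ 0 < v) (hw : w ≤ -3 ∨ 0 < w)
    (h : n * ((u + 1) * ((v + 1) * (w + 1))) = 8 * (u * (v * w))) : n ≤ 25 := by
  by_contra hn
  have h1 : ∀ v : ℤ, v ≤ -3 ∨ 0 < v → 2 * |v| ≤ 3 * |v + 1| ∧ 0 < |v + 1| := fun v hv => by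
    rcases hv with e | e
    · rw [abs_of_neg (by omega), abs_of_neg (by omega)]; omega
    · rw [abs_of_pos (by omega), abs_of_pos (by omega)]; omega
  have h2 := congrArg abs h
  simp only [abs_mul] at h2
  rw [abs_of_pos (show 0 < n by omega), abs_of_pos hu, abs_of_pos (show 0 < u + 1 by omega),
    abs_of_pos (show (0 : ℤ) < 8 by omega)] at h2
  have h3 := mul_le_mul (h1 v hv).1 (h1 w hw).1 (by positivity) (by positivity)
  have h4 := mul_pos (h1 v hv).2 (h1 w hw).2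
  nlinarith [mul_le_mul_of_nonneg_left h3 hu.le, mul_pos hu h4,
    mul_le_mul_of_nonneg_right (show 26 ≤ n by omega) (mul_pos (show 0 < u + 1 by omega) h4).le]

variable {G : Type*} [Group G] [Finite G]

theorem det {χ : G → ℂ} (hG : commutator G = ⊤) (hχ : IsCharacter G χ) {n : ℕ} (hn : χ 1 = n)
    (g : G) : ∃ ω : Fin n → ℂ, (∀ i, ω i ^ orderOf g = 1) ∧ (∀ m : ℕ, χ (g ^ m) = ∑ i, ω i ^ m) ∧
      ∏ i, ω i = 1 := by
  obtain ⟨ω, h1, h2⟩ := char_exists_pow_eq_sum hχ hn g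
  exact ⟨ω, h1, h2, CA.H28Sv.prod_eq_one hG hχ g (univ.val.map ω) fun k => by
    rw [h2, Multiset.map_map]; rfl⟩

theorem sq_three {χ : G → ℂ} (hG : commutator G = ⊤) (hχ : IsCharacter G χ) (hn : χ 1 = (3 : ℕ))
    {g : G} (hg : χ g = -1) : χ (g ^ 2) = χ 1 := by
  obtain ⟨ω, h1, h2, h3⟩ := det hG hχ hn g
  have h4 : ∀ i, ω i * conj (ω i) = 1 := fun i => by
    rw [Complex.mul_conj', norm_eq_one_of_pow_eq_one (orderOf_pos g) (h1 i)]; simp
  have h5 := h2 1
  rw [pow_one, hg] at h5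
  have h6 := congrArg conj h5
  rw [h2, hn]
  simp only [Fin.sum_univ_three, Fin.prod_univ_three, pow_one, map_add, map_neg, map_one] at *
  push_cast
  linear_combination (1 - (ω 0 + ω 1 + ω 2)) * h5 + 2 * (ω 0 * ω 1 * ω 2) * h6 + 2 * h3 +
    2 * ω 1 * ω 2 * h4 0 + 2 * ω 0 * ω 2 * h4 1 + 2 * ω 0 * ω 1 * h4 2

variable [IsSimpleGroup G]

theorem not_two (hG : ¬ IsMulCommutative G) {p q : ℕ}
    (h : ∀ r : ℕ, r.Prime → r ∣ Nat.card G → r = p ∨ r = q) : False :=
  hG ⟨⟨IsSimpleGroup.comm_iff_isSolvable.2 (isSolvable_of_primes h)⟩⟩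

theorem degree_ne_two (hG : ¬ IsMulCommutative G) {χ : G → ℂ} (hχ : IsIrrCharacter G χ) :
    charDegree χ ≠ 2 := fun hd => by
  have := Fact.mk Nat.prime_two
  obtain ⟨t, ht⟩ := exists_prime_orderOf_dvd_card' 2 (hd ▸ charDegree_dvd_card hχ)
  obtain ⟨ω, h1, h2, h3⟩ := det (perfect hG) (char_of_irr hχ) (hd ▸ irr_apply_one_eq hχ) t
  have h4 : t ∈ charCenter χ := by
    have h5 := h2 1
    have h6 := h1 0
    rw [ht] at h6
    rw [pow_one, Fin.sum_univ_two, pow_one, pow_one] at h5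
    rw [Fin.prod_univ_two] at h3
    rw [mem_charCenter (char_of_irr hχ), irr_apply_one_eq hχ, hd, h5,
      show ω 0 + ω 1 = 2 * ω 0 by linear_combination ω 0 * h3 - ω 1 * h6, norm_mul,
      norm_eq_one_of_pow_eq_one two_pos h6]
    simp
  rw [charCenter_eq_center hχ (charKer_eq_bot_of_simple hχ fun e => by
    simp [e, charDegree] at hd), center_eq_bot hG, mem_bot] at h4
  simp [h4] at ht

theorem klein (hG : ¬ IsMulCommutative G) {g₀ : ℕ} (h0 : Odd g₀) (hc : Nat.card G = 4 * g₀)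
    {p q : ℕ} (h : ∀ l, l.Prime → l ∣ Nat.card G → l = 2 ∨ l = p ∨ l = q) {θ : IrrCharacter G}
    (hθ : charDegree θ.1 = 4) : Nat.card G = 60 := by
  have := Fintype.ofFinite G
  have := Fact.mk Nat.prime_two
  have hP := perfect hG
  obtain ⟨a, ha⟩ := exists_prime_orderOf_dvd_card' (G := G) 2 ⟨2 * g₀, by omega⟩
  obtain ⟨P, haP⟩ := (IsPGroup.of_card (p := 2) (n := 1) ((Nat.card_zpowers a).trans ha)).exists_le_sylow
  obtain ⟨y, D, hy, hone⟩ := CA.H11Dih3.exists_dih_of_card h0 hc (fun ⟨N, hN, e⟩ => by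
    rcases hN.eq_bot_or_eq_top with rfl | rfl
    · rw [card_bot] at e
      exact not_two hG (p := 2) (q := 2) fun r hr hd => Or.inl ((Nat.prime_dvd_prime_iff_eq hr
        Nat.prime_two).1 (hr.dvd_of_dvd_pow (n := 2) (by rwa [hc, ← e] at hd)))
    · rw [card_top] at e
      have := h0.pos
      omega) P (haP (mem_zpowers a)) ha
  obtain ⟨M, hM⟩ := exists_isPModular Nat.prime_two
  obtain ⟨χ, ε, -, h1, -, h2, h3, h4, h5, h6⟩ := CA.GWChAx.four' D hM hone
  have hd : ∀ i, charDegree (χ i).1 ∣ Nat.card G := fun i => charDegree_dvd_card (χ i).2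
  have hd1 : ∀ i, 1 < charDegree (χ i).1 := fun i => lt_of_le_of_ne (charDegree_pos (χ i).2)
    fun e => h1 i (eq_one_of_degree hP e.symm)
  have h7 : ∀ i (l : ℕ), l.Prime → (l : ℤ) ∣ ε i * charDegree (χ i).1 + 1 → l ∣ Nat.card G := by
    intro i l hl h7
    have hl' := Nat.prime_iff_prime_int.1 hl
    have h8 := h6 ▸ (h7.trans (dvd_prod_of_mem (fun i => ε i * charDegree (χ i).1 + 1)
      (mem_univ i))).mul_left _
    rcases hl'.dvd_or_dvd h8 with h8 | h8
    · rcases hl'.dvd_or_dvd h8 with h8 | h8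
      · exact (hl.dvd_of_dvd_pow (n := 3) (by exact_mod_cast h8) : l ∣ 2).trans ⟨2 * g₀, by omega⟩
      · exact (Int.natCast_dvd_natCast.1 (hl'.dvd_of_dvd_pow h8)).trans
          ((relIndex_dvd_card _ _).trans (card_subgroup_dvd_card _))
    · obtain ⟨j, -, h8⟩ := (hl'.dvd_finsetProd_iff _).1 h8
      refine (Int.natCast_dvd_natCast.1 ?_).trans (hd j)
      rcases h2 j with e | e <;> simpa [e] using h8
  have h8 := h4 1 (by simp)
  simp only [fun i => irr_apply_one_eq (χ i).2] at h8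
  have h9 : 1 + ∑ i, ε i * charDegree (χ i).1 = 0 := by exact_mod_cast h8
  obtain ⟨j, hj⟩ : ∃ j, ε j = 1 := by
    by_contra hj
    simp only [fun i => (h2 i).resolve_left fun e => hj ⟨i, e⟩, Fin.sum_univ_three] at h9
    have := hd1 0
    have := hd1 1
    omega
  have hπ := char_mul (char_of_irr θ.2) (char_conj (char_of_irr θ.2))
  choose m hm using fun i => inner_char_char hπ (char_of_irr (χ i).2)
  obtain ⟨i, hi, hi'⟩ : ∃ i, ε i = -1 ∧ m i ≠ 0 := by
    have h10 : classInner (θ.1 * fun g => conj (θ.1 g)) ((fun _ => 1) + ∑ i, ε i • (χ i).1) = 0 := by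
      rw [inner_def, sum_eq_zero, mul_zero]
      intro g _
      by_cases hg : 2 ∣ orderOf g
      · rw [Pi.mul_apply, CA.BlkZero.DZ.apply_eq_zero Nat.prime_two
          ((CA.BlkZero.dz_iff_not_dvd Nat.prime_two).2 (by
            rw [hθ, hc, Nat.mul_div_cancel_left _ four_pos]; exact h0.not_two_dvd_nat)) hg]
        simp
      · simp [h4 g hg]
    rw [CChar.CharFun.inner_add_right, CChar.CharFun.inner_sum_right, inner_mul_left] at h10
    simp only [inner_zsmul_right, hm, Complex.conj_conj, mul_one, inner_irr_self θ.2] at h10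
    have h11 : 1 + ∑ i, ε i * m i = 0 := by exact_mod_cast h10
    by_contra hc
    push Not at hc
    have := sum_nonneg (s := univ) (f := fun i => ε i * m i) fun i _ => by
      rcases h2 i with e | e
      · simp [e]
      · simp [hc i e]
    omega
  have h10 := degree_le_of_inner_ne_zero hπ (χ i).2 (by rw [hm]; exact_mod_cast hi')
    (irr_apply_one_eq (χ i).2) (b := 16) (by simp [irr_apply_one_eq θ.2, hθ, map_ofNat]; norm_num)
  have h11 : 3 ∣ Nat.card G := by
    have := Nat.odd_iff.1 h0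
    rcases S0499.result hG ⟨2 * g₀, by omega⟩ with e | e | e <;> omega
  have h12 := h5 i
  have h13 := h7 i
  have h14 := hd i
  rw [hi] at h12 h13
  have h15 := h 3 Nat.prime_three h11
  have h16 : charDegree (χ i).1 = 3 := by
    by_contra h16
    obtain e | e | e : charDegree (χ i).1 = 7 ∨ charDegree (χ i).1 = 11 ∨
      charDegree (χ i).1 = 15 := by omega
    all_goals rw [e] at h13 h14
    · have h17 := h 7 (by norm_num) h14
      have h18 := h5 j
      refine seven (hd1 j) (by omega) fun l hl h19 => ?_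
      have := h l hl (h19.elim (fun e => e.trans (hd j)) fun e => h7 j l hl (by
        rw [hj, one_mul]; exact_mod_cast e))
      omega
    · have := h 11 (by norm_num) h14
      have := h 5 (by norm_num) (h13 5 (by norm_num) (by norm_num))
      omega
    · have := h 5 (by norm_num) (Dvd.dvd.trans (by norm_num) h14)
      have := h 7 (by norm_num) (h13 7 (by norm_num) (by norm_num))
      omega
  have h17 : ∀ g : G, Even (orderOf g) → orderOf g = 2 := fun g hg => by
    have h18 := (mem_charKer (char_of_irr (χ i).2)).2 (sq_three hP (char_of_irr (χ i).2)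
      (h16 ▸ irr_apply_one_eq (χ i).2) (g := g) (by rw [h3 i g hg.two_dvd, hi]; simp))
    rw [charKer_eq_bot_of_simple (χ i).2 fun e => h1 i (Subtype.ext e), mem_bot] at h18
    exact Nat.dvd_antisymm (orderOf_dvd_of_pow_eq_one h18) hg.two_dvd
  have h18 := CA.H28Fe3.comm_of_two h17 P.isPGroup'
  have h19 : centralizer {a} = (P : Subgroup G) := P.is_maximal' (fun c => ⟨1, Subtype.ext (by
      rw [pow_one, Subgroup.coe_pow, sq]
      exact CA.H28Fe3.sq_eq_one_of_comm h17 ha (mem_CC_iff_commute.1 c.2).symm)⟩)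
    fun s hs => mem_CC.2 (h18.2 s hs a (haP (mem_zpowers a)))
  rw [h19, relIndex_eq_one.2 fun s hs => mem_CC.2 (h18.2 s hs y (hy ▸ mem_sup_right
    (mem_zpowers y))), index_sylow_of (a := 2) hc h0.not_two_dvd_nat,
    Fin.prod_univ_succAbove _ j, Fin.prod_univ_succAbove _ j, Fin.prod_univ_two,
    Fin.prod_univ_two] at h6
  have h20 : ∀ i, ε i * charDegree (χ i).1 ≤ -3 ∨ 0 < ε i * charDegree (χ i).1 := fun i => by
    have := hd1 i
    have := h5 i
    rcases h2 i with e | e <;> rw [e] at this ⊢ <;> omega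
  have h21 := bound (by have := hd1 j; rw [hj]; omega) (h20 _) (h20 _) (h6.trans (by simp))
  exact S0493.result (fun e => hG e.isMulCommutative) (by omega)

theorem part1 (hG : ¬ IsMulCommutative G) {p q a b : ℕ} (hp : p.Prime) (hq : q.Prime)
    (hpq : p ≠ q) (ha : a ≤ 2) (hc : Nat.card G = 4 * p ^ a * q ^ b) : Nat.card G = 60 := by
  have h : ∀ l, l.Prime → l ∣ Nat.card G → l = 2 ∨ l = p ∨ l = q := fun l hl hd => by
    rw [hc, show 4 = 2 ^ 2 from rfl, hl.dvd_mul, hl.dvd_mul] at hd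
    rcases hd with (e | e) | e <;> have := hl.dvd_of_dvd_pow e <;>
      simp_all [Nat.prime_dvd_prime_iff_eq hl, Nat.prime_two]
  have hp2 : p ≠ 2 := fun e => not_two hG (p := 2) (q := q) fun r hr hd => by
    have := h r hr hd; omega
  have hq2 : q ≠ 2 := fun e => not_two hG (p := 2) (q := p) fun r hr hd => by
    have := h r hr hd; omega
  have h0 : Odd (p ^ a * q ^ b) := (hp.odd_of_ne_two hp2).pow.mul (hq.odd_of_ne_two hq2).pow
  obtain ⟨⟨θ, h1, k, hk⟩, -⟩ := S4500.result (G := G) p 2 q a 2 b hp Nat.prime_two hq hp2 hpq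
    hq2.symm ha (by rw [hc]; ring)
  refine klein hG h0 (by rw [hc, mul_assoc]) h (θ := θ) ?_
  have h2 := charDegree_dvd_card θ.2
  rw [hk, hc, mul_assoc] at h2
  have h3 := Nat.le_of_dvd four_pos (((Nat.coprime_two_left.2 h0).pow_left k).dvd_of_dvd_mul_right h2)
  rcases k with _ | _ | _ | k
  · exact absurd (congrArg Subtype.val (eq_one_of_degree (perfect hG) hk)) h1
  · exact absurd hk (degree_ne_two hG θ.2)
  · exact hk
  · omega

theorem sq_ne {p q j : ℕ} (hp : p.Prime) (hq : q.Prime) (h2 : p ≠ 2) (h3 : p ≠ 3) (hj : q ^ j ≠ 1)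
    (h : p ^ 2 + 1 = q ^ j ∨ p ^ 2 = q ^ j + 1) : False := by
  obtain ⟨f, rfl⟩ := hp.odd_of_ne_two h2
  have h4 := hp.two_le
  have h5 : (2 * f + 1) ^ 2 = 4 * (f * (f + 1)) + 1 := by ring
  obtain rfl : q = 2 := ((Nat.prime_dvd_prime_iff_eq Nat.prime_two hq).1
    (Nat.prime_two.dvd_of_dvd_pow (n := j) (by omega))).symm
  rcases h with h | h
  · rcases j with _ | _ | j
    · omega
    · have := Nat.mul_pos (show 0 < f by omega) (show 0 < f + 1 by omega)
      omega
    · omega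
  · have h6 : f * (f + 1) ∣ 2 ^ j := ⟨4, by omega⟩
    obtain ⟨i, -, hi⟩ := (Nat.dvd_prime_pow Nat.prime_two).1 ((dvd_mul_right _ _).trans h6)
    obtain ⟨k, -, hk⟩ := (Nat.dvd_prime_pow Nat.prime_two).1 ((dvd_mul_left _ _).trans h6)
    rcases i with _ | i <;> rcases k with _ | k <;> omega

theorem no_sq (hG : ¬ IsMulCommutative G) {p q b : ℕ} (hp : p.Prime) (hq : q.Prime)
    (hpq : p ≠ q) (h2 : p ≠ 2) (h3 : p ≠ 3) (h4 : q ≠ 3) (hc : Nat.card G = 3 * p ^ 2 * q ^ b) :
    False := by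
  classical
  have := Fintype.ofFinite G
  have := Fact.mk Nat.prime_three
  have := Fact.mk hp
  have h5 : Nat.Coprime 3 (p ^ 2 * q ^ b) := Nat.Coprime.mul_right
    (((Nat.coprime_primes Nat.prime_three hp).2 h3.symm).pow_right 2)
    (((Nat.coprime_primes Nat.prime_three hq).2 h4.symm).pow_right b)
  rw [mul_assoc] at hc
  obtain ⟨x, h⟩ := exists_isSylGen (G := G) (p := 3) ⟨_, hc⟩ fun e => by
    rw [hc, sq 3, Nat.mul_dvd_mul_iff_left three_pos] at e
    exact absurd (h5.eq_one_of_dvd e) (by decide)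
  have hs : SC 3 x := ⟨h.ord, (centralizer_zpowers x).symm.trans
    (S0904.result p q 3 2 b hp hq hpq h3 h4 (by rw [hc, mul_comm]) h.sylow)⟩
  have he : ee x = 2 := ((Nat.dvd_prime Nat.prime_two).1 (ee_dvd h.ord)).resolve_left
    (ee_ne_one_of_perfect h (perfect hG))
  obtain ⟨d⟩ := exists_P1 h
  obtain ⟨ψ, hψ⟩ := d.Y_nonempty
  obtain ⟨ζ, h1, hX⟩ : ∃ ζ, ζ ≠ irrOne G ∧ d.X = {irrOne G, ζ} := by
    obtain ⟨a, b, hab, e⟩ := card_eq_two.1 (d.card_X.trans he)
    have := d.one_mem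
    rw [e, mem_insert, mem_singleton] at this
    rcases this with rfl | rfl
    exacts [⟨b, hab.symm, e⟩, ⟨a, hab, e.trans (pair_comm _ _)⟩]
  have hζ : ζ ∈ d.X := by simp [hX]
  have h6 := d.deg_rel hψ
  rw [hX, sum_pair h1.symm, d.ε_one, degree_one] at h6
  have hε := d.hε ζ hζ
  have hδ := d.hδ
  obtain ⟨M, hM⟩ := exists_isPModular hp
  obtain ⟨Q, hQ⟩ := Sylow.exists_subgroup_card_pow_prime (G := G) (n := 2) p
    (hc ▸ (dvd_mul_right _ _).mul_left 3)
  have key : ∀ χ, χ = ζ ∨ χ = ψ → ∀ j, charDegree χ.1 = p ^ j → p ^ 2 ∣ charDegree χ.1 := by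
    intro χ hχ j hj
    have h7 := bt d (SC_no hs h3.symm) hM (A := blockOf M χ.1) ⟨χ, rfl⟩ hψ (IsPGroup.of_card hQ)
    rw [hX, sum_filter, sum_pair h1.symm, if_neg (one_not_mem hG hM (by
      rcases hχ with rfl | rfl
      exacts [h1, P1.ne_one d hψ]) hj), hQ, zero_add] at h7
    have h8 := CA.BlkCore.self_mem_blockOf hM χ
    rw [← Int.natCast_dvd_natCast]
    split_ifs at h7 with e1 e2 e2
    · exact (Int.dvd_neg.1 (by convert h7 using 1; omega) : _ ∣ (1 : ℤ)).trans (one_dvd _)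
    · obtain rfl := hχ.resolve_right fun e => e2 (e ▸ h8)
      rcases hε with e | e <;> simpa [e] using h7
    · obtain rfl := hχ.resolve_left fun e => e1 (e ▸ h8)
      rcases hδ with e | e <;> simpa [e] using h7
    · rcases hχ with rfl | rfl <;> contradiction
  have key2 : ∀ u v : ℕ, u ∣ p ^ 2 * q ^ b → v ∣ p ^ 2 * q ^ b → u ≠ 1 → v ≠ 1 →
      (u + 1 = v ∨ u = v + 1) → ¬ p ∣ v → (∀ j, u = p ^ j → p ^ 2 ∣ u) → False := by
    intro u v hu hv hu1 hv1 huv hpv hk
    obtain ⟨j, -, rfl⟩ := (Nat.dvd_prime_pow hq).1 (Nat.Coprime.dvd_of_dvd_mul_left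
      ((hp.coprime_iff_not_dvd.2 hpv).symm.pow_right 2) hv)
    have h7 : q ∣ q ^ j := dvd_pow_self q (by rintro rfl; exact hv1 rfl)
    have h8 : u ∣ p ^ 2 := Nat.Coprime.dvd_of_dvd_mul_right ((hq.coprime_iff_not_dvd.2 fun e =>
      hq.ne_one (Nat.dvd_one.1 (huv.elim (fun h => (Nat.dvd_add_right e).1 (h ▸ h7))
        fun h => (Nat.dvd_add_right h7).1 (h ▸ e)))).symm.pow_right b) hu
    obtain ⟨i, -, hi⟩ := (Nat.dvd_prime_pow hp).1 h8
    exact sq_ne hp hq h2 h3 hv1 (Nat.dvd_antisymm h8 (hk i hi) ▸ huv)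
  have h7 : ee x * Nat.card (Sylow 3 G) = p ^ 2 * q ^ b :=
    Nat.eq_of_mul_eq_mul_left three_pos (hs.card_eq.symm.trans hc)
  have h8 := h7 ▸ P1.dvd_X d h hζ
  have h9 := h7 ▸ P1.dvd_Y d h hψ
  have h10 : charDegree ζ.1 ≠ 1 := fun e => h1 (eq_one_of_degree (perfect hG) e)
  have h11 : charDegree ψ.1 ≠ 1 := fun e => P1.ne_one d hψ (eq_one_of_degree (perfect hG) e)
  have h12 := charDegree_pos ψ.2
  have h13 : charDegree ζ.1 + 1 = charDegree ψ.1 ∨ charDegree ζ.1 = charDegree ψ.1 + 1 := by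
    rcases hε with e | e <;> rcases hδ with e' | e' <;> rw [e, e'] at h6 <;> omega
  by_cases h14 : p ∣ charDegree ψ.1
  · exact key2 _ _ h9 h8 h11 h10 (by omega) (fun e => hp.ne_one (Nat.dvd_one.1 (h13.elim
      (fun h => (Nat.dvd_add_right e).1 (h ▸ h14)) fun h => (Nat.dvd_add_right h14).1 (h ▸ e))))
      (key ψ (Or.inr rfl))
  · exact key2 _ _ h8 h9 h10 h11 h13 h14 (key ζ (Or.inl rfl))

/-- Let G be a non-abelian finite simple group and p, q distinct primes. If the order of G is 4·p^a·q^b with a ≤ 2, then G is isomorphic to the alternating group of degree 5. If the order of G is 3·p^a·q^b with a ≤ 2, then G is isomorphic to the alternating group of degree 5 or to PSL(2,7). -/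
theorem result {G : Type*} [Group G] [Finite G] [IsSimpleGroup G] (hna : ∃ x y : G, x * y ≠ y * x) (p q a b : ℕ) (hp : p.Prime) (hq : q.Prime) (hpq : p ≠ q) (ha : a ≤ 2) : (Nat.card G = 4 * p ^ a * q ^ b → Nonempty (G ≃* alternatingGroup (Fin 5))) ∧ (Nat.card G = 3 * p ^ a * q ^ b → Nonempty (G ≃* alternatingGroup (Fin 5)) ∨ Nonempty (G ≃* Matrix.ProjectiveSpecialLinearGroup (Fin 2) (ZMod 7))) := by
  have hG : ¬ IsMulCommutative G := fun h => by
    obtain ⟨x, y, h1⟩ := hna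
    exact h1 (h.is_comm.comm x y)
  refine ⟨fun hc => simple_60 (part1 hG hp hq hpq ha hc), fun hc => ?_⟩
  have h : ∀ l, l.Prime → l ∣ Nat.card G → l = 3 ∨ (l = p ∧ a ≠ 0) ∨ l = q := fun l hl hd => by
    rw [hc, hl.dvd_mul, hl.dvd_mul] at hd
    rcases hd with (e | e) | e
    · exact Or.inl ((Nat.prime_dvd_prime_iff_eq hl Nat.prime_three).1 e)
    · exact Or.inr (Or.inl ⟨(Nat.prime_dvd_prime_iff_eq hl hp).1 (hl.dvd_of_dvd_pow e),
        by rintro rfl; exact hl.ne_one (Nat.dvd_one.1 e)⟩)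
    · exact Or.inr (Or.inr ((Nat.prime_dvd_prime_iff_eq hl hq).1 (hl.dvd_of_dvd_pow e)))
  have hp3 : p ≠ 3 := fun e => not_two hG (p := 3) (q := q) fun r hr hd => by
    have := h r hr hd; omega
  have hq3 : q ≠ 3 := fun e => not_two hG (p := 3) (q := p) fun r hr hd => by
    have := h r hr hd; omega
  interval_cases a
  · exact (not_two hG (p := 3) (q := q) fun r hr hd => by have := h r hr hd; omega).elim
  · rcases S0998.result (G := G) (fun e => hG e.isMulCommutative) 3 q p b Nat.prime_three hq hp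
      hq3.symm hp3.symm hpq.symm (by rw [hc, pow_one]) with ⟨F, _, _, h1, ⟨e⟩⟩ | ⟨F, _, _, h1, ⟨e⟩⟩
    · have h2 := CA.SLnCard.card_PSL2_odd (F := F) (by rw [Nat.card_eq_fintype_card, h1]; decide)
      rw [Nat.card_eq_fintype_card (α := F), h1, ← Nat.card_congr e.toEquiv] at h2
      exact Or.inl (simple_60 (by omega))
    · have := Fact.mk (show Nat.Prime 7 by norm_num)
      exact Or.inr ⟨e.trans (CA.FieldIso.pslEquiv
        (FiniteField.ringEquivOfCardEq (h1.trans (ZMod.card 7).symm)))⟩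
  · by_cases h2 : p = 2
    · exact Or.inl (simple_60 (part1 hG (a := 1) (b := b) Nat.prime_three hq hq3.symm one_le_two
        (by rw [hc, h2]; ring)))
    · exact (no_sq hG hp hq hpq h2 hp3 hq3 hc).elim

end Cfsg.Agent.S4501
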