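import Cfsg.Statements.S4635
import Cfsg.Agent.Lib.Block.H11Cy2

set_option autoImplicit false
open Cfsg

namespace Cfsg.Agent.S4635

open CA.H11Cy2 CA.H11Uni CA.H11Fb CA.H11Exc CA.H11Orb CA.H11Brg CA.H11Fus CA.H11Max CA.H11Amb CA.H11Pair CA.BlkCore CA.H11Star CA.H11NilB Subgroup

/-- Let B be a block of the finite group G relative to a maximal ideal M of the algebraic integers containing the prime p, with a nontrivial cyclic defect group P; let Z be the subgroup of order p of P and H = N_G(Z), which contains N_G(P). Let c be the block of H with defect group P that induces B. Then B and c contain the same number of irreducible characters, have the same p-regular rank, and there is a perfect isometry from c onto B. -/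
theorem result {G : Type*} [Group G] [Finite G] (p : ℕ) [Fact p.Prime] (M : Ideal Cfsg.AlgInt) (hM : Cfsg.IsPModular p M) (B : Set (Cfsg.IrrCharacter G)) (hB : Cfsg.IsPBlock M B) (P : Subgroup G) (hPD : Cfsg.IsDefectGroup p M B P) (hP1 : P ≠ ⊥) (hcyc : IsCyclic P) (Z : Subgroup G) (hZ : Z ≤ P) (hZcard : Nat.card Z = p) (H : Subgroup G) (hH : H = Subgroup.normalizer (Z : Set G)) (c : Set (Cfsg.IrrCharacter H)) (hcD : Cfsg.IsDefectGroup p M c (P.subgroupOf H)) (hc : Cfsg.IsInducedBlock M H c B) : Nat.card c = Nat.card B ∧ Cfsg.blockRank p c = Cfsg.blockRank p B ∧ ∃ (I : Cfsg.IrrCharacter H → Cfsg.IrrCharacter G) (ε : Cfsg.IrrCharacter H → ℤ), Cfsg.IsPerfectIsometry p M c B I ε := by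
  haveI := Fintype.ofFinite G
  haveI := Fintype.ofFinite P
  haveI := Fintype.ofFinite H
  haveI := (nontrivial_iff_ne_bot P).2 hP1
  have hN : NN P ≤ H := hH ▸ CA.H11Cyc.NN_le_NN hcyc hZ
  have hP : P ≤ H := le_normalizer.trans hN
  obtain ⟨e, h1, h2⟩ := exists_mx_sub hM hPD hP ((CC_le_NN P).trans hN) hcD hc
  have F := fb_of_cyclic hM hB h1 hcyc (MulEquiv.refl P)
  have F' := fb_sub F hP hN hc.1 h2
  obtain ⟨h3, D, δ, μ, ε, T, S⟩ := exists_std F hcyc
  obtain ⟨h4, D', δ', μ', ε', T', S'⟩ := exists_std F'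
    (isCyclic_of_surjective _ (subgroupOfEquivOfLe hP).symm.surjective)
  obtain ⟨I, s, h5, -⟩ := S.exists_perfect T S' T'
  exact ⟨by rw [F.card_eq, F'.card_eq, h3, h4], h4.trans h3.symm, I, s, h5⟩

end Cfsg.Agent.S4635
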