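import Cfsg.Statements.S4502
import Cfsg.Agent.Lib.Block.BlkZero
import Cfsg.Agent.S4635
import Cfsg.Agent.S0920

set_option autoImplicit false
open Cfsg

namespace Cfsg.Agent.S4502
open Cfsg MonoidAlgebra CA.BlkAlg CA.BlkVal CA.BlkOmega CA.BlkRed CA.BlkCore CA.BlkDefect CA.BlkInd CA.BlkHeight CA.SylIn CA.H12PPart CChar.CharFun CChar.CharOrth Subgroup CA.BlkKer CChar.CharKer CA.BlkZero CChar.CharInt

theorem def_iff {G : Type*} [Group G] [Finite G] {p : ℕ} [hp : Fact p.Prime] {M : Ideal AlgInt}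
    (hM : IsPModular p M) (hsq : ¬ p ^ 2 ∣ Nat.card G) {P : Subgroup G} (hP : Nat.card P = p)
    {B : Set (IrrCharacter G)} (hB : IsPBlock M B) {χ : IrrCharacter G} (hχ : χ ∈ B) :
    IsDefectGroup p M B P ↔ ¬ DZ p χ := by
  have h0 : P ≠ ⊥ := fun e => hp.out.ne_one (by rw [← hP, e, card_bot])
  refine ⟨fun h e => h0 ((defectGroup_eq_bot_iff_dz hM hB hχ h).2 e), fun h => ?_⟩
  obtain ⟨D, hD⟩ := exists_isDefectGroup hM hB
  have h1 : D ≠ ⊥ := fun e => h ((defectGroup_eq_bot_iff_dz hM hB hχ hD).1 e)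
  have key : ∀ Q : Subgroup G, IsPGroup p Q → Q ≠ ⊥ → IsSylowIn p Q ⊤ := fun Q h1 h2 =>
    ⟨le_top, h1, fun h3 => hsq (by
      rw [relIndex_top_right] at h3
      rw [← Q.card_mul_index, sq]
      refine mul_dvd_mul ?_ h3
      obtain ⟨n, hn⟩ := IsPGroup.iff_card.1 h1
      rw [hn]
      exact dvd_pow_self p fun e => h2 (by rwa [e, pow_zero, card_eq_one] at hn))⟩
  obtain ⟨g, -, rfl⟩ := (key D (isPGroup_of_isDefectGroup hD) h1).exists_conj_eq
    (key P (IsPGroup.of_card (hP.trans (pow_one p).symm)) h0)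
  exact isDefectGroup_conj hD g

/-- Let G be a finite group whose order is divisible by the prime p exactly once, and let P be a Sylow p-subgroup. Then the number of irreducible characters of G of degree not divisible by p equals the number of conjugacy classes of the normalizer of P. -/
theorem result {G : Type*} [Group G] [Finite G] (p : ℕ) [Fact p.Prime] (hdiv : p ∣ Nat.card G) (hsq : ¬ p ^ 2 ∣ Nat.card G) (P : Sylow p G) : Nat.card {χ : Cfsg.IrrCharacter G // ¬ p ∣ Cfsg.charDegree (χ : G → ℂ)} = Nat.card (ConjClasses (Subgroup.normalizer ((P : Subgroup G) : Set G))) := by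
  classical
  have hp : p.Prime := Fact.out
  obtain ⟨M, hM⟩ := exists_isPModular hp
  have hG0 : Nat.card G ≠ 0 := Nat.card_pos.ne'
  have hfac : (Nat.card G).factorization p = 1 := by
    have h1 := (hp.dvd_iff_one_le_factorization hG0).1 hdiv
    have h2 := mt (hp.pow_dvd_iff_le_factorization hG0).2 hsq
    omega
  have hP : Nat.card (P : Subgroup G) = p := by rw [P.card_eq_multiplicity, hfac, pow_one]
  set N := normalizer ((P : Subgroup G) : Set G) with hN
  have hP' : Nat.card ((P : Subgroup G).subgroupOf N) = p :=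
    (Nat.card_congr (subgroupOfEquivOfLe le_normalizer).toEquiv).trans hP
  have h0 : (P : Subgroup G) ≠ ⊥ := fun e => hp.ne_one (by rw [← hP, e, card_bot])
  have hdz : ∀ χ : IrrCharacter G, DZ p χ ↔ p ∣ charDegree χ.1 := fun χ => by
    rw [dz_iff_pow_dvd hp, hfac, pow_one]
  have hN1 : ∀ b : Set (IrrCharacter N), IsPBlock M b →
      IsDefectGroup p M b ((P : Subgroup G).subgroupOf N) := fun b hb => by
    obtain ⟨ψ, hψ⟩ := block_nonempty hM hb
    haveI : ((P : Subgroup G).subgroupOf N).Normal := normal_subgroupOf_of_le_normalizer le_rfl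
    refine (def_iff hM (fun h => hsq (h.trans (card_subgroup_dvd_card N))) hP' hb hψ).2 fun h => ?_
    have := h.eq_bot_of_normal _ (IsPGroup.of_card (hP'.trans (pow_one p).symm))
    rw [this, card_bot] at hP'
    exact hp.ne_one hP'.symm
  obtain ⟨h1, h2⟩ := Cfsg.Agent.S0920.result p M hM (P : Subgroup G) P.isPGroup'
  let β := {b : Set (IrrCharacter N) // IsPBlock M b}
  have h3 : ∀ χ : {χ : IrrCharacter G // ¬ p ∣ charDegree χ.1},
      ∃ b : β, IsInducedBlock M N b.1 (blockOf M χ.1.1) := fun χ => by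
    obtain ⟨b, ⟨h3, -, h4⟩, -⟩ := h2 _ (isPBlock_blockOf χ.1) ((def_iff hM hsq hP (isPBlock_blockOf χ.1)
      (self_mem_blockOf hM χ.1)).2 fun h => χ.2 ((hdz _).1 h))
    exact ⟨⟨b, h3⟩, h4⟩
  choose g hg using h3
  let f : IrrCharacter N → β := fun ψ => ⟨blockOf M ψ.1, isPBlock_blockOf ψ⟩
  haveI := finite_irr (G := N)
  haveI := finite_irr (G := G)
  haveI := Fintype.ofFinite β
  rw [← card_irr, ← Nat.card_congr (Equiv.sigmaFiberEquiv g), ← Nat.card_congr (Equiv.sigmaFiberEquiv f),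
    Nat.card_sigma, Nat.card_sigma]
  refine Finset.sum_congr rfl fun b _ => ?_
  obtain ⟨B, hB, hD, hi⟩ := h1 b.1 b.2 (hN1 _ b.2)
  have e1 : Nat.card {ψ // f ψ = b} = Nat.card b.1 := Nat.card_congr (Equiv.subtypeEquivRight fun ψ =>
    ⟨fun e => e ▸ self_mem_blockOf hM ψ, fun h => Subtype.ext (eq_blockOf_of_mem hM b.2 h).symm⟩)
  have e2 : Nat.card {χ // g χ = b} = Nat.card B := by
    refine Nat.card_congr (Equiv.ofBijective (fun χ => ⟨χ.1.1, ?_⟩) ⟨fun x y e => ?_, fun χ => ?_⟩)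
    · rw [induced_unique hM hi (χ.2 ▸ hg χ.1)]
      exact self_mem_blockOf hM _
    · exact Subtype.ext (Subtype.ext (Subtype.mk.inj e))
    · have h4 : ¬ p ∣ charDegree χ.1.1 := fun h => (def_iff hM hsq hP hB χ.2).1 hD ((hdz _).2 h)
      refine ⟨⟨⟨χ.1, h4⟩, Subtype.ext ((h2 B hB hD).unique ⟨(g _).2, hN1 _ (g _).2, ?_⟩
        ⟨b.2, hN1 _ b.2, hi⟩)⟩, rfl⟩
      exact (congrArg (IsInducedBlock M N _) (eq_blockOf_of_mem hM hB χ.2)).mpr (hg ⟨χ.1, h4⟩)
  rw [e1, e2]
  exact (Cfsg.Agent.S4635.result p M hM B hB _ hD h0 (isCyclic_of_prime_card hP) _ le_rfl hP N rfl b.1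
    (hN1 _ b.2) hi).1.symm

end Cfsg.Agent.S4502
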