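import Cfsg.Statements.S4504
import Cfsg.Agent.Lib.Block.H28Br8
import Cfsg.Agent.Lib.Block.H28Br5
-- import your own Cfsg.Agent.* helpers here

set_option autoImplicit false
open Cfsg

namespace Cfsg.Agent.S4504

open CA.H28Syl CA.H28Br5 CA.H28Br2 CA.H28SC in
theorem psl2_quot {G : Type*} [Group G] [Finite G] {p : ℕ} [hp : Fact p.Prime] {x : G}
    (h : IsSylGen p x) (hG : commutator G = ⊤) (hN : Nat.card (Sylow p G) = p + 1)
    (he : p = 2 * ee x + 1) (hV : pPrimeCore p G = VV p x) :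
    Nonempty ((G ⧸ pPrimeCore p G) ≃* Matrix.ProjectiveSpecialLinearGroup (Fin 2) (ZMod p)) := by
  have hs : ¬ Star p 1 := fun ⟨u, h1, h2, _⟩ => by omega
  obtain ⟨n, h1, h2, h3, h4, h5, h6⟩ := brauer_quot h hG (n := 1) (by omega) hs
  have h7 := CA.H28Br2.card_sylow_ne_one h1 h2
  have h8 : n = 1 := by
    have h9 := Nat.le_of_dvd (by omega) h6
    have h10 : n ≤ 1 := Nat.le_of_mul_le_mul_right (by omega) hp.out.pos
    rcases n with _ | _ | n
    · omega
    · rfl
    · omega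
  subst h8
  have hsc := sc_of_not_star h1 h2 h3 h4 h5
  have := hsc.simple h2 h3
  have h9 := h.card_eq
  rw [← (pPrimeCore p G).card_mul_index, ← hV, hN] at h9
  have h10 : Nat.card (G ⧸ pPrimeCore p G) = (p + 1) * p * ee x :=
    Nat.eq_of_mul_eq_mul_left (Nat.card_pos (α := pPrimeCore p G)) (by
      rw [← Subgroup.index_eq_card, h9]; ring)
  exact psl2_of_degree h2 (X := Sylow p (G ⧸ pPrimeCore p G)) (by omega) (by omega)
    (ee_pos h.ord) h10

/-- Let G be a finite group whose order is divisible by the prime p exactly once and which has no normal subgroup of order p. If G has a faithful character of degree exactly (p − 1)/2, then G modulo its centre is isomorphic to PSL(2, p). -/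
theorem result {G : Type*} [Group G] [Finite G] (p : ℕ) (hp : p.Prime) (hdiv : p ∣ Nat.card G) (hsq : ¬ p ^ 2 ∣ Nat.card G) (hnn : ∀ H : Subgroup G, H.Normal → Nat.card H ≠ p) (χ : G → ℂ) (hχ : Cfsg.IsCharacter G χ) (hfaith : ∀ g : G, χ g = χ 1 → g = 1) (hdeg : 2 * Cfsg.charDegree χ + 1 = p) : Nonempty ((G ⧸ Subgroup.center G) ≃* Matrix.ProjectiveSpecialLinearGroup (Fin 2) (ZMod p)) := by
  haveI := Fact.mk hp
  obtain ⟨x, h⟩ := CA.H28Syl.exists_isSylGen hdiv hsq
  obtain ⟨h1, h2, h3, h4, h5, ⟨e⟩⟩ := CA.H28Br8.main h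
    (fun hn => hnn _ hn (CA.H28Syl.card_zpowers' h.ord)) hχ hfaith (by omega)
  obtain ⟨e'⟩ := psl2_quot (CA.H28Br6.isSylGen_subgroup h (CA.H28Br8.mem_KK x)) h2 h4
    (h1.trans (by rw [← h3])) h5
  exact ⟨e.trans e'⟩

end Cfsg.Agent.S4504
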