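import Cfsg.Statements.S4505
import Cfsg.Agent.Lib.Block.H11Contrib

set_option autoImplicit false
open Cfsg

namespace Cfsg.Agent.S4505

open CA.H11Contrib CA.BlkAlg CA.BlkVal CA.BlkOmega CA.BlkRed CA.BlkCore CA.BlkHeight CA.BlkReg CA.H12Orth CA.H13Span CChar.CharFun CChar.CharOrth CChar.CharGen CChar.CharInt

/-- Let G be a finite group, p a prime and M a maximal ideal of the algebraic integers containing p. For every σ, the number of p-blocks of defect exactly σ is at most the number of conjugacy classes of p-regular elements whose centralizer has order divisible by p^σ but not by p^(σ+1). -/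
theorem result {G : Type*} [Group G] [Finite G] (p : ℕ) [Fact p.Prime] (M : Ideal Cfsg.AlgInt) (hM : Cfsg.IsPModular p M) (σ : ℕ) : Nat.card {B : Set (Cfsg.IrrCharacter G) // Cfsg.IsPBlock M B ∧ Cfsg.blockDefect p B = σ} ≤ Nat.card {C : ConjClasses G // ∃ g : G, ConjClasses.mk g = C ∧ ¬ p ∣ orderOf g ∧ (Nat.card (Subgroup.centralizer ({g} : Set G))).factorization p = σ} := by
  classical
  haveI := Fintype.ofFinite (ConjClasses G)
  set X := {B : Set (IrrCharacter G) // IsPBlock M B ∧ blockDefect p B = σ}
  set P : ConjClasses G → Prop := fun C => ∃ g : G, ConjClasses.mk g = C ∧ ¬ p ∣ orderOf g ∧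
    (Nat.card (Subgroup.centralizer ({g} : Set G))).factorization p = σ
  haveI := Fintype.ofFinite X
  choose χ hχ using fun B : X => block_nonempty hM B.2.1
  let L : Matrix X {C // P C} (k M) := Matrix.of fun B C => res M (centralChar (χ B).1 C.1.out)
  let A : Matrix {C // P C} X (k M) := Matrix.of fun C B => (eB M B.1).coeff C.1.out
  have h : L * A = 1 := by
    ext B B'
    have h1 : (L * A) B B' = lam M (χ B).1 (eB M B'.1) := by
      rw [Matrix.mul_apply, lam_eq_sum (irr_classFun (χ B).2) (eB_mem_Z _),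
        ← Finset.sum_filter_of_ne (p := P) fun C _ hC => ⟨C.out, Quotient.out_eq C, B.2.2 ▸
          reg_defect_of_ne_zero hM B.2.1 (hχ B) B'.2.1 (B'.2.2.trans B.2.2.symm) hC⟩,
        Finset.sum_subtype (p := P) _ (by simp)]
      exact Finset.sum_congr rfl fun C _ => mul_comm _ _
    rw [h1, lam_eB (isSat_of_isPBlock hM B'.2.1), Matrix.one_apply]
    refine if_congr ⟨fun h2 => Subtype.ext (block_eq_of_mem hM B.2.1 B'.2.1 (hχ B) h2),
      fun h2 => h2 ▸ hχ B⟩ rfl rfl
  have h2 := (Matrix.rank_mul_le_left L A).trans (Matrix.rank_le_card_width L)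
  rwa [h, Matrix.rank_one, ← Nat.card_eq_fintype_card, ← Nat.card_eq_fintype_card] at h2

end Cfsg.Agent.S4505
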