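import Cfsg.Statements.S4506
import Cfsg.Agent.Lib.Block.BlkBas
import Cfsg.Agent.Lib.Block.BlkGal
import Cfsg.Agent.Lib.Block.BlkZero

set_option autoImplicit false
open Cfsg

namespace Cfsg.Agent.S4506
open Cfsg MonoidAlgebra CA.BlkAlg CA.BlkVal CA.BlkOmega CA.BlkRed CA.BlkCore CA.BlkDefect CA.BlkInd CA.BlkHeight CA.SylIn CA.H12PPart CChar.CharFun CChar.CharOrth Subgroup CA.BlkKer CChar.CharKer CA.BlkZero CChar.CharInt CA.BlkReg CA.BlkGal CA.BlkBas CChar.CharGen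

open scoped ComplexConjugate

theorem pow_card_fix {G : Type*} [Group G] [Finite G] (χ : IrrCharacter G) (ζ : ℂ) {r : ℕ}
    (hr : Nat.card {ψ : IrrCharacter G // ∃ σ : ℂ ≃+* ℂ, σ ζ = ζ ∧
      (ψ : G → ℂ) = fun g => σ ((χ : G → ℂ) g)} = r) (σ : ℂ ≃+* ℂ) (hσ : σ ζ = ζ) {k : ℕ}
    (hk : ∀ g, σ (χ.1 g) = χ.1 (g ^ k)) (g : G) : χ.1 (g ^ k ^ r) = χ.1 g := by
  let Γ := MulAction.stabilizer (RingAut ℂ) ζ
  have h1 : (MulAction.stabilizer Γ χ.1).index = r := by
    rw [MulAction.index_stabilizer, ← hr, ← Nat.card_coe_set_eq]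
    symm
    refine Nat.card_congr (Equiv.ofBijective (fun ψ => ⟨ψ.1.1, ?_⟩) ⟨?_, ?_⟩)
    · obtain ⟨τ, h1, h2⟩ := ψ.2
      exact ⟨⟨τ, h1⟩, h2.symm⟩
    · intro a b e
      exact Subtype.ext (Subtype.ext (Subtype.mk.inj e))
    · rintro ⟨_, τ, rfl⟩
      obtain ⟨j, hj, -, h2⟩ := exists_pow_of_gal (G := G) (τ.1 : ℂ ≃+* ℂ).toRingHom
      have e : (pw hj χ).1 = fun g => τ.1 (χ.1 g) := funext fun g => (h2 (char_of_irr χ.2) g).symm
      exact ⟨⟨pw hj χ, τ.1, τ.2, e⟩, Subtype.ext e⟩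
  haveI : (MulAction.stabilizer Γ χ.1).Normal := ⟨fun τ hτ ρ => by
    obtain ⟨j, hj, -, h2⟩ := exists_pow_of_gal (G := G) ((ρ⁻¹).1 : ℂ ≃+* ℂ).toRingHom
    have e : τ • ρ⁻¹ • χ.1 = ρ⁻¹ • χ.1 := funext fun g => by
      have h3 : (ρ⁻¹ • χ.1) g = χ.1 (g ^ j) := h2 (char_of_irr χ.2) g
      have h4 : τ • χ.1 (g ^ j) = χ.1 (g ^ j) := congrFun hτ (g ^ j)
      rw [Pi.smul_apply, h3, h4]
    rw [MulAction.mem_stabilizer_iff, mul_smul, mul_smul, e, smul_inv_smul]⟩
  have h2 := (MulAction.stabilizer Γ χ.1).pow_index_mem ⟨σ, hσ⟩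
  rw [h1] at h2
  have h3 : ∀ n g, ((⟨σ, hσ⟩ : Γ) ^ n • χ.1) g = χ.1 (g ^ k ^ n) := by
    intro n
    induction n with
    | zero => simp
    | succ n ih =>
      intro g
      rw [pow_succ', mul_smul, Pi.smul_apply, ih, pow_succ, pow_mul]
      exact hk _
  rw [← h3, h2]

/-- Let G be a finite group, p a prime, p^a the p-part of the order of G and g′ its p′-part. Call two irreducible characters p-conjugate when one is obtained from the other by applying a field automorphism of ℂ that fixes the g′-th roots of unity, and let r be the number of characters p-conjugate to the irreducible character χ (χ included). Then the exponent of p in r·χ(1) is at most a; and if p^a divides r·χ(1) then p^a already divides χ(1). -/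
theorem result {G : Type*} [Group G] [Finite G] (p : ℕ) (hp : p.Prime) (χ : Cfsg.IrrCharacter G) (r : ℕ) (hr : Nat.card {ψ : Cfsg.IrrCharacter G // ∃ σ : ℂ ≃+* ℂ, σ (Complex.exp (2 * Real.pi * Complex.I / ((Nat.card G / p ^ (Nat.card G).factorization p) : ℕ))) = Complex.exp (2 * Real.pi * Complex.I / ((Nat.card G / p ^ (Nat.card G).factorization p) : ℕ)) ∧ (ψ : G → ℂ) = fun g => σ ((χ : G → ℂ) g)} = r) : (r * Cfsg.charDegree (χ : G → ℂ)).factorization p ≤ (Nat.card G).factorization p ∧ (p ^ (Nat.card G).factorization p ∣ r * Cfsg.charDegree (χ : G → ℂ) → p ^ (Nat.card G).factorization p ∣ Cfsg.charDegree (χ : G → ℂ)) := by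
  classical
  haveI := Fintype.ofFinite G
  haveI : Fact p.Prime := ⟨hp⟩
  obtain ⟨M, hM⟩ := exists_isPModular hp
  set a := (Nat.card G).factorization p with ha
  set m := Nat.card G / p ^ a with hm
  set ζ := Complex.exp (2 * Real.pi * Complex.I / (m : ℕ)) with hζ
  have hG0 : Nat.card G ≠ 0 := Nat.card_pos.ne'
  have hm0 : m ≠ 0 := (Nat.ordCompl_pos p hG0).ne'
  have hprim : IsPrimitiveRoot ζ m := Complex.isPrimitiveRoot_exp m hm0
  set Ω := Finset.univ.filter fun ψ : IrrCharacter G =>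
    ∃ σ : ℂ ≃+* ℂ, σ ζ = ζ ∧ (ψ : G → ℂ) = fun g => σ ((χ : G → ℂ) g) with hΩ
  have hcard : Ω.card = r := by rw [← hr, Nat.card_eq_fintype_card, Fintype.card_subtype]
  have hχΩ : χ ∈ Ω := Finset.mem_filter.2 ⟨Finset.mem_univ _, RingEquiv.refl ℂ, rfl, rfl⟩
  have hr0 : r ≠ 0 := hcard ▸ (Finset.card_pos.2 ⟨χ, hχΩ⟩).ne'
  have hk : ∀ ψ ∈ Ω, ∃ k : ℕ, (∀ g, ψ.1 g = χ.1 (g ^ k)) ∧ (∀ g : G, ¬ p ∣ orderOf g → g ^ k = g) ∧
      ∀ g, χ.1 (g ^ k ^ r) = χ.1 g := by
    intro ψ hψ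
    obtain ⟨σ, h1, h2⟩ := (Finset.mem_filter.1 hψ).2
    obtain ⟨k, -, h3, h4⟩ := exists_pow_of_gal (G := G) σ.toRingHom
    refine ⟨k, fun g => by rw [h2]; exact h4 (char_of_irr χ.2) g, fun g hg => ?_,
      pow_card_fix χ ζ hr σ h1 (h4 (char_of_irr χ.2))⟩
    have h5 : ζ ^ k = ζ ^ 1 := by
      rw [pow_one, ← h3 ζ ((hprim.pow_eq_one_iff_dvd _).2 (Nat.ordCompl_dvd _ p))]
      exact h1
    rw [(hprim.isOfFinOrder hm0).pow_eq_pow_iff_modEq, ← hprim.eq_orderOf] at h5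
    have h6 : orderOf g ∣ m := (Nat.dvd_ordCompl_of_dvd_not_dvd (orderOf_dvd_natCard g) hg)
    conv_rhs => rw [← pow_one g]
    exact pow_eq_pow_iff_modEq.2 (h5.of_dvd h6)
  have hint := fun ψ : IrrCharacter G =>
    exists_int_inner_pReg hp (gen_of_char (char_of_irr χ.2)) (gen_of_char (char_of_irr ψ.2))
  choose c hc using hint
  rw [← ha] at hc
  set θ : G → ℂ := (p : ℂ) ^ a • pRegularPart p χ.1 with hθ
  have hθc : IsClassFunction G θ := fun g x => by
    simp only [hθ, Pi.smul_apply, classFun_pRegularPart (irr_classFun χ.2) g x]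
  have hc' : ∀ ψ : IrrCharacter G, classInner θ ψ.1 = c ψ := fun ψ => by rw [hθ, ci_smul_left, hc]
  have hΩc : ∀ ψ ∈ Ω, c ψ = c χ := fun ψ hψ => by
    obtain ⟨k, h1, h2, -⟩ := hk ψ hψ
    have : pRegularPart p ψ.1 = pRegularPart p χ.1 := pReg_congr fun g hg => by rw [h1, h2 g hg]
    have e := hc ψ
    rw [inner_pReg_comm, this, ← inner_pReg_comm, hc] at e
    exact_mod_cast e.symm
  have hsq : ∑ ψ, c ψ ^ 2 = p ^ a * c χ := by
    have e := inner_self_eq_sum_sq hθc hc'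
    conv_lhs at e => rw [hθ, ci_smul_right, ← hθ, hθ, ci_smul_left, inner_pReg_comm, pReg_pReg,
      ← inner_pReg_comm, hc]
    rw [map_pow, Complex.conj_natCast] at e
    exact_mod_cast e.symm
  have hc0 : c χ ≠ 0 := fun e => by
    have := hc χ
    rw [e, Int.cast_zero, mul_eq_zero] at this
    exact this.elim (pow_ne_zero _ (Nat.cast_ne_zero.2 hp.ne_zero))
      (inner_pReg_self_ne_zero hp (irr_apply_one_ne_zero χ.2))
  have hsplit : ∑ ψ, c ψ ^ 2 = r * c χ ^ 2 + ∑ ψ ∈ Ωᶜ, c ψ ^ 2 := by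
    rw [← Finset.sum_add_sum_compl Ω, Finset.sum_congr rfl fun ψ hψ => by rw [hΩc ψ hψ],
      Finset.sum_const, hcard, nsmul_eq_mul]
  have hnn : 0 ≤ ∑ ψ ∈ Ωᶜ, c ψ ^ 2 := Finset.sum_nonneg fun _ _ => sq_nonneg _
  have hpa : (0 : ℤ) < p ^ a := pow_pos (Int.natCast_pos.2 hp.pos) a
  have hr1 : (1 : ℤ) ≤ r := by exact_mod_cast Nat.pos_of_ne_zero hr0
  have hcpos : 0 < c χ := by
    have h1 : 0 < c χ ^ 2 := by positivity
    have h2 : 0 < p ^ a * c χ := by nlinarith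
    exact pos_of_mul_pos_left (mul_comm ((p : ℤ) ^ a) _ ▸ h2) hpa.le
  have hle : r * c χ ≤ p ^ a := by
    refine le_of_mul_le_mul_right ?_ hcpos
    nlinarith
  set x := charDegree χ.1 with hx
  have hx0 : x ≠ 0 := (charDegree_pos χ.2).ne'
  have hvc : v M (c χ : ℂ) = v M (chiL χ.1 (sR p G χ.1)) := by
    rw [chiL_sR _ (char_of_irr χ.2), ← hc, map_mul, map_mul, v_natCast hM hG0, map_pow]
  have hvx : v M (χ.1 1) = v M (p : ℂ) ^ x.factorization p := by
    rw [irr_apply_one_eq χ.2, v_natCast hM hx0]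
  have hdvd : (p : ℤ) ^ x.factorization p ∣ c χ :=
    pow_dvd_of_v_le hM (by rw [hvc, ← hvx]; exact v_chiL_sR_le (char_of_irr χ.2) χ)
  have h1 : (p : ℤ) ^ x.factorization p ≤ c χ := Int.le_of_dvd hcpos hdvd
  have h2 : (p : ℤ) ^ r.factorization p ≤ r := by exact_mod_cast Nat.ordProj_le p hr0
  have hp1 : (1 : ℤ) < p := by exact_mod_cast hp.one_lt
  have hpx : (0 : ℤ) < p ^ x.factorization p := by positivity
  have hpr : (0 : ℤ) < p ^ r.factorization p := by positivity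
  have hfac : (r * x).factorization p = r.factorization p + x.factorization p := by
    rw [Nat.factorization_mul hr0 hx0]; rfl
  have h3 : (p : ℤ) ^ (r.factorization p + x.factorization p) ≤ r * c χ := by
    rw [pow_add]; exact mul_le_mul h2 h1 hpx.le (by positivity)
  refine ⟨hfac ▸ (pow_le_pow_iff_right₀ hp1).1 (h3.trans hle), fun hd => ?_⟩
  have h4 : (p : ℤ) ^ a ≤ p ^ (r.factorization p + x.factorization p) :=
    (pow_le_pow_iff_right₀ hp1).2 (hfac ▸ (hp.pow_dvd_iff_le_factorization (mul_ne_zero hr0 hx0)).1 hd)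
  rw [pow_add] at h3 h4
  have h5 : c χ = p ^ x.factorization p := by nlinarith
  have h6 : (r : ℤ) = p ^ r.factorization p := by nlinarith
  have h7 : ∑ ψ ∈ Ωᶜ, c ψ ^ 2 = 0 := by
    have : (r : ℤ) * c χ = p ^ a := le_antisymm hle (h4.trans h3)
    nlinarith
  rw [Finset.sum_eq_zero_iff_of_nonneg fun _ _ => sq_nonneg _] at h7
  have hv1 : v M (omega χ.1 (sR p G χ.1)) = 1 := by
    rw [omega_apply, v_div_eq_one_iff (irr_apply_one_ne_zero χ.2), ← hvc, hvx, h5]
    simp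
  haveI := Fintype.ofFinite (ConjClasses G)
  rw [omega_eq_sum_classes (irr_classFun χ.2) (sR_mem_Z (irr_classFun χ.2))] at hv1
  obtain ⟨C, hC⟩ : ∃ C : ConjClasses G,
      ¬ v M ((sR p G χ.1).coeff C.out * centralChar χ.1 C.out) < 1 := by
    by_contra hcon
    push Not at hcon
    exact (v_sum_lt_one _ _ fun C _ => hcon C).ne hv1
  set y := C.out with hy
  rw [coeff_sR] at hC
  have hyp : ¬ p ∣ orderOf y⁻¹ := fun h => hC (by rw [pReg_of_dvd _ h, zero_mul, map_zero]; exact zero_lt_one)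
  rw [pReg_of_not_dvd _ hyp] at hC
  have hO := fun g => isIntegral_mem (M := M) (char_isIntegral (char_of_irr χ.2) g)
  have hO' := isIntegral_mem (M := M) (isIntegral_centralChar χ.2 y)
  have h8 : ¬ v M (χ.1 y⁻¹) < 1 := fun h => hC (v_mul_lt_one_left h hO')
  have h9 : v M (centralChar χ.1 y) = 1 :=
    le_antisymm (mem_O_iff.1 hO') (not_lt.1 fun h => hC (v_mul_lt_one_right (hO _) h))
  by_cases hpc : p ∣ Nat.card (centralizer ({y} : Set G))
  · exfalso
    obtain ⟨⟨z, hz⟩, hzo⟩ := exists_prime_orderOf_dvd_card' p hpc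
    rw [← Subgroup.orderOf_coe] at hzo
    simp only at hzo
    have hcm : Commute z y⁻¹ := (show Commute z y from (hz y rfl).symm).inv_right
    have hsing : p ∣ orderOf (z * y⁻¹) := by
      by_contra hcon
      have := (pPart_eq_one_iff hp).2 hcon
      rw [pPart_mul_of hp hcm ⟨1, by rw [hzo, pow_one]⟩ hyp] at this
      rw [this, orderOf_one] at hzo
      exact hp.ne_one hzo.symm
    have hall : ∀ ψ ∈ Ω, ψ.1 (z * y⁻¹) = χ.1 (z * y⁻¹) := fun ψ hψ => by
      obtain ⟨k, e1, e2, e3⟩ := hk ψ hψ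
      rw [e1, ← e3 (z * y⁻¹), hcm.mul_pow, hcm.mul_pow, e2 _ hyp]
      have e4 : ∀ n, y⁻¹ ^ k ^ n = y⁻¹ := fun n => by
        induction n with
        | zero => simp
        | succ n ih => rw [pow_succ, pow_mul, ih, e2 _ hyp]
      have e5 : z ^ k ^ r = z ^ k := by
        rw [pow_eq_pow_iff_modEq, hzo, ← ZMod.natCast_eq_natCast_iff, Nat.cast_pow,
          show r = p ^ r.factorization p by exact_mod_cast h6, ZMod.pow_card_pow]
      rw [e4, e5]
    have e := classFun_apply_eq_sum hθc (z * y⁻¹)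
    rw [hθ, Pi.smul_apply, pReg_of_dvd _ hsing, smul_zero, ← hθ, ← Finset.sum_add_sum_compl Ω,
      Finset.sum_eq_zero (s := Ωᶜ) (fun ψ hψ => by
        rw [hc', pow_eq_zero_iff two_ne_zero |>.1 (h7 ψ hψ), Int.cast_zero, zero_mul]),
      Finset.sum_congr rfl fun ψ hψ => by rw [hc', hΩc ψ hψ, hall ψ hψ],
      Finset.sum_const, hcard, nsmul_eq_mul, add_zero, eq_comm, mul_eq_zero, mul_eq_zero,
      or_iff_right (Nat.cast_ne_zero.2 hr0), or_iff_right (Int.cast_ne_zero.2 hc0)] at e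
    have e' := res_char_mul hM (char_of_irr χ.2) hcm ⟨1, by rw [hzo, pow_one]⟩ hyp
    rw [e, res_zero, eq_comm, res_eq_zero_iff (hO _)] at e'
    exact h8 e'
  · rw [hp.pow_dvd_iff_le_factorization hx0, ← v_p_pow_le_iff hM, ← hvx]
    rw [centralChar_def, v_div_eq_one_iff (irr_apply_one_ne_zero χ.2)] at h9
    rw [← h9]
    refine (v_mul_le_left (hO _)).trans_eq ?_
    rw [ha, ← v_natCast hM hG0, ← (centralizer ({y} : Set G)).index_mul_card, Nat.cast_mul, map_mul,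
      (v_natCast_eq_one_iff hM _).2 hpc, mul_one]

end Cfsg.Agent.S4506
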