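import Cfsg.Statements.S4507
import Cfsg.Agent.Lib.Block.H28Prin
-- import your own Cfsg.Agent.* helpers here

set_option autoImplicit false
open Cfsg

namespace Cfsg.Agent.S4507

/-- Let G be a finite group whose order g is divisible by the prime p exactly once, g′ = g/p, and fix a maximal ideal M of the algebraic integers containing p. Call two irreducible characters p-conjugate when a field automorphism of ℂ fixing the g′-th roots of unity carries one to the other. Let B be a p-block of positive defect (its defect group is a Sylow p-subgroup). Then B contains a subset Y (the exceptional family) such that: Y is a full p-conjugacy class (its members are pairwise p-conjugate and every p-conjugate of a member of Y lies in Y); every member of B outside Y is p-conjugate only to itself; the size t of Y divides p − 1 and B has exactly t + (p − 1)/t members; and there are signs δ_χ = ±1 (χ ∈ B) such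 that for every p-regular element x and every θ ∈ Y, Σ_{χ ∈ B ∖ Y} δ_χ χ(x) + δ_θ θ(x) = 0. -/
theorem result {G : Type*} [Group G] [Finite G] (p : ℕ) [Fact p.Prime] (M : Ideal Cfsg.AlgInt) (hM : Cfsg.IsPModular p M) (hdiv : p ∣ Nat.card G) (hsq : ¬ p ^ 2 ∣ Nat.card G) (B : Set (Cfsg.IrrCharacter G)) (hB : Cfsg.IsPBlock M B) (hd : 0 < Cfsg.blockDefect p B) : ∃ Y : Set (Cfsg.IrrCharacter G), Y ⊆ B ∧ Y.Nonempty ∧ (∀ θ ∈ Y, ∀ ψ : Cfsg.IrrCharacter G, (∃ σ : ℂ ≃+* ℂ, σ (Complex.exp (2 * Real.pi * Complex.I / ((Nat.card G / p ^ (Nat.card G).factorization p) : ℕ))) = Complex.exp (2 * Real.pi * Complex.I / ((Nat.card G / p ^ (Nat.card G).factorization p) : ℕ)) ∧ (ψ : G → ℂ) = fun g => σ ((θ : G → ℂ) g)) ↔ ψ ∈ Y) ∧ (∀ χ ∈ B, χ ∉ Y → ∀ ψ : Cfsg.IrrCharacter G, (∃ σ : ℂ ≃+* ℂ, σ (Complex.exp (2 * Real.pi * Complex.I / ((Nat.card G / p ^ (Nat.card G).factorization p) : ℕ))) = Complex.exp (2 * Real.pi *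 Complex.I / ((Nat.card G / p ^ (Nat.card G).factorization p) : ℕ)) ∧ (ψ : G → ℂ) = fun g => σ ((χ : G → ℂ) g)) → ψ = χ) ∧ Nat.card Y ∣ p - 1 ∧ Nat.card B = Nat.card Y + (p - 1) / Nat.card Y ∧ ∃ δ : Cfsg.IrrCharacter G → ℤ, (∀ χ ∈ B, δ χ = 1 ∨ δ χ = -1) ∧ ∀ x : G, ¬ p ∣ orderOf x → ∀ θ ∈ Y, (∑ᶠ χ ∈ B \ Y, (δ χ : ℂ) * (χ : G → ℂ) x) + (δ θ : ℂ) * (θ : G → ℂ) x = 0 := by
  classical
  have hp : p.Prime := Fact.out
  obtain ⟨x, h⟩ := CA.H28Syl.exists_isSylGen hdiv hsq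
  obtain ⟨χ₀, hχ₀, hnd⟩ : ∃ χ ∈ B, ¬ p ∣ charDegree (χ : G → ℂ) := by
    have hne := (CA.BlkCore.block_nonempty hM hB).image
      (fun χ : IrrCharacter G => (charDegree (χ : G → ℂ)).factorization p)
    obtain ⟨χ, hχ, e⟩ := Nat.sInf_mem hne
    refine ⟨χ, hχ, fun hd' => ?_⟩
    have h2 := (hp.pow_dvd_iff_le_factorization Nat.card_pos.ne').not.1 hsq
    have h3 := (hp.dvd_iff_one_le_factorization (CChar.CharInt.charDegree_pos χ.2).ne').1 hd'
    unfold blockDefect at hd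
    simp only at e
    omega
  obtain ⟨θ, hθ, ha⟩ := (CA.H28Blk.exists_act_iff hM h χ₀.2).2 hnd
  obtain ⟨d, -⟩ := CA.H28D1.exists_D1 hM h hθ χ₀
  have hBe : B = (d.X : Set _) ∪ d.Y := by
    rw [← CA.H28Blk.blockOf_eq hM h hθ d ha]
    exact CA.BlkCore.eq_blockOf_of_mem hM hB hχ₀
  have hm := CA.H28Blk.card_eq_mul h
  set m := Nat.card G / p ^ (Nat.card G).factorization p with hmdef
  have hm0 : 0 < m := Nat.pos_of_mul_pos_left (hm ▸ Nat.card_pos)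
  have hfix : ∀ σ : ℂ ≃+* ℂ, σ (Complex.exp (2 * Real.pi * Complex.I / m)) =
      Complex.exp (2 * Real.pi * Complex.I / m) → ∀ z : ℂ, z ^ m = 1 → (σ : ℂ →+* ℂ) z = z := by
    intro σ hσ z hz
    have : NeZero m := ⟨hm0.ne'⟩
    obtain ⟨i, -, rfl⟩ := (Complex.isPrimitiveRoot_exp m hm0.ne').eq_pow_of_pow_eq_one hz
    rw [RingHom.coe_coe, map_pow, hσ]
  have he := CA.H28Syl2.eT_dvd h.ord (CA.H28Pat.TT_le h θ)
  have hpos : 0 < p - 1 := by have := hp.two_le; omega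
  have hY : Nat.card (d.Y : Set (IrrCharacter G)) =
      (p - 1) / CA.H28Syl2.eT x (CA.H28Pat.TT h θ) := by
    rw [← d.card_Y]; exact Nat.card_eq_finsetCard _
  have hdiff : B \ d.Y = d.X := by
    rw [hBe, Set.union_sdiff_right]
    exact (Finset.disjoint_coe.2 d.disj).sdiff_eq_left
  refine ⟨d.Y, hBe ▸ Set.subset_union_right, ?_, fun ψ₀ hψ₀ ψ => ⟨?_, fun hψ => ?_⟩,
    fun χ hχ hχ' ψ => ?_, ?_, ?_, fun χ => if χ ∈ d.X then d.ε χ else -d.δ, fun χ _ => ?_,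
    fun g hg ψ hψ => ?_⟩
  · obtain ⟨ψ, hψ, -⟩ := d.exu 1 one_ne_zero
    exact ⟨ψ, hψ.1⟩
  · rintro ⟨σ, hσ, e⟩
    obtain ⟨k, hk, hk'⟩ := CA.GalC.exists_pow_of_hom (σ : ℂ →+* ℂ) hp.pos
    have hk0 : (k : ZMod p) ≠ 0 := fun h0 =>
      (hp.coprime_iff_not_dvd.1 hk.symm) ((ZMod.natCast_eq_zero_iff _ _).1 h0)
    obtain ⟨ψ', hψ', -⟩ := d.exu (d.c ψ₀ * k) (mul_ne_zero (d.c_ne ψ₀ hψ₀) hk0)
    have := CA.H28Blk.map_Y hM h hθ d hm (hfix σ hσ) hk' hk0 hψ₀ hψ'.1 hψ'.2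
    have h2 : ψ = ψ' := Subtype.ext (e.trans this)
    rw [h2]; exact hψ'.1
  · have hpm : p.Coprime m := hp.coprime_iff_not_dvd.2 fun hd' =>
      hsq (by rw [hm, sq]; exact Nat.mul_dvd_mul_left p hd')
    have hc0 := div_ne_zero (d.c_ne ψ hψ) (d.c_ne ψ₀ hψ₀)
    obtain ⟨k, hk1, hk2⟩ := Nat.chineseRemainder hpm (d.c ψ / d.c ψ₀).val 1
    have hk3 : (k : ZMod p) = d.c ψ / d.c ψ₀ := by
      rw [(ZMod.natCast_eq_natCast_iff _ _ _).2 hk1, ZMod.natCast_zmod_val]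
    have hk0 : (k : ZMod p) ≠ 0 := hk3 ▸ hc0
    have hcop : k.Coprime (p * m) := Nat.Coprime.mul_right
      (hp.coprime_iff_not_dvd.2 fun hd' => hk0 ((ZMod.natCast_eq_zero_iff _ _).2 hd')).symm
      (Nat.coprime_of_mul_modEq_one 1 (by simpa using hk2))
    obtain ⟨σ, hσ⟩ := CA.GalC.exists_equiv_pow (Nat.mul_pos hp.pos hm0) hcop
    have hσ1 : ∀ z : ℂ, z ^ m = 1 → σ z = z := fun z hz => by
      rw [hσ z (by rw [mul_comm, pow_mul, hz, one_pow]), pow_eq_pow_of_modEq hk2 hz, pow_one]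
    refine ⟨σ, hσ1 _ (Complex.isPrimitiveRoot_exp m hm0.ne').pow_eq_one, ?_⟩
    exact (CA.H28Blk.map_Y hM h hθ d hm (σ := σ) hσ1 (k := k)
      (fun z hz => hσ z (by rw [pow_mul, hz, one_pow])) hk0 hψ₀ hψ
      (by rw [hk3, mul_div_cancel₀ _ (d.c_ne ψ₀ hψ₀)])).symm
  · rintro ⟨σ, hσ, e⟩
    have h1 : χ ∈ (d.X : Set _) := hdiff ▸ ⟨hχ, hχ'⟩
    exact Subtype.ext (e.trans (CA.H28Blk.map_X hM h hθ d hm (hfix σ hσ) h1))
  · rw [hY]; exact Nat.div_dvd_of_dvd he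
  · rw [hY, Nat.div_div_self he hpos.ne', hBe, ← Finset.coe_union, ← d.card_Y, ← d.card_X,
      add_comm, ← Finset.card_union_of_disjoint d.disj]
    exact Nat.card_eq_finsetCard _
  · simp only
    split_ifs with h1
    · exact (d.hε χ h1).imp_right And.left
    · rcases d.hδ with h2 | h2 <;> simp [h2]
  · rw [hdiff, finsum_mem_coe_finset, Finset.sum_congr rfl (g := fun χ => (d.ε χ : ℂ) * χ.1 g)
      (fun χ hχ => by simp only [if_pos hχ]), ← d.rel ψ hψ g hg]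
    simp only [if_neg (Finset.disjoint_right.1 d.disj hψ)]
    push_cast; ring

end Cfsg.Agent.S4507
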