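import Cfsg.Statements.S4509
import Cfsg.Agent.Lib.Grp.H28SC
-- import your own Cfsg.Agent.* helpers here

set_option autoImplicit false
open Cfsg

namespace Cfsg.Agent.S4509

/-- Let the finite group G contain an element x of prime order p with C_G(x) = ⟨x⟩; let t be the number of conjugacy classes of elements of order p and 1 + n·p the number of subgroups of order p. Then G has a normal subgroup of order 1 + n·p if and only if either t = p − 1, or t < p − 1 and G″ ≠ G′. Moreover, if t = p − 1 then G′ has order 1 + n·p and G/G′ is cyclic of order p; and if t < p − 1 and G″ ≠ G′ then G″ has order 1 + n·p and G′ has order p·(1 + n·p). -/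
theorem result {G : Type*} [Group G] [Finite G] (p : ℕ) (hp : p.Prime) (x : G) (hx : orderOf x = p) (hC : Subgroup.centralizer ({x} : Set G) = Subgroup.zpowers x) (t : ℕ) (ht : Nat.card {C : ConjClasses G // ∃ g ∈ C.carrier, orderOf g = p} = t) (n : ℕ) (hn : Nat.card {H : Subgroup G // Nat.card H = p} = 1 + n * p) : ((∃ S : Subgroup G, S.Normal ∧ Nat.card S = 1 + n * p) ↔ (t = p - 1 ∨ (t < p - 1 ∧ derivedSeries G 2 ≠ derivedSeries G 1))) ∧ (t = p - 1 → Nat.card (commutator G) = 1 + n * p ∧ IsCyclic (G ⧸ commutator G) ∧ (commutator G).index = p) ∧ (t < p - 1 → derivedSeries G 2 ≠ derivedSeries G 1 → Nat.card (derivedSeries G 2) = 1 + n * p ∧ Nat.card (commutator G) = p * (1 + n * p)) := by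
  have : Fact p.Prime := ⟨hp⟩
  have h : CA.H28SC.SC p x := ⟨hx, hC⟩
  rw [CA.H28SC.card_classes' h.isSylGen] at ht
  rw [CA.H28SC.card_subgroups h.isSylGen] at hn
  subst ht
  have hlt : (p - 1) / CA.H28Syl.ee x < p - 1 ↔ CA.H28Syl.ee x ≠ 1 := by
    rw [ne_eq, ← CA.H28SC.div_eq_iff_ee hx]
    have := Nat.div_le_self (p - 1) (CA.H28Syl.ee x)
    omega
  have hd2 : derivedSeries G 2 = ⁅commutator G, commutator G⁆ := by
    rw [derivedSeries_succ, derivedSeries_one]
  rw [hlt, CA.H28SC.div_eq_iff_ee hx, hd2, derivedSeries_one, ← hn]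
  have hA : CA.H28Syl.ee x = 1 → Nat.card (commutator G) = Nat.card (Sylow p G) := fun he => by
    have h1 := (commutator G).index_mul_card
    rw [h.index_commutator_of_ee he, h.card_eq, he, one_mul] at h1
    exact Nat.eq_of_mul_eq_mul_left hp.pos h1
  have hB : CA.H28Syl.ee x ≠ 1 → ⁅commutator G, commutator G⁆ ≠ commutator G →
      Nat.card ↥⁅commutator G, commutator G⁆ = Nat.card (Sylow p G) := fun he hne => by
    obtain ⟨h1, h2⟩ := h.second he hne
    have h3 : CA.H28Syl.NN x ⊔ ⁅commutator G, commutator G⁆ = ⊤ := by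
      have h4 : CA.H28Syl.NN x ⊔ commutator G = ⊤ := Sylow.normalizer_sup_eq_top'
        h.isSylGen.sylow (Subgroup.zpowers_le.2 (CA.H28SC.mem_commutator_of_ee hx he))
      rw [eq_top_iff, ← h4, sup_le_iff]
      refine ⟨le_sup_left, h2.le.trans (sup_le le_sup_right ?_)⟩
      exact Subgroup.le_normalizer.trans le_sup_left
    rw [← h.card_mul_index _ h1, h3, Subgroup.index_top, mul_one]
  refine ⟨⟨?_, ?_⟩, fun he => ⟨hA he, ?_, h.index_commutator_of_ee he⟩, fun he hne =>
    ⟨hB he hne, ?_⟩⟩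
  · rintro ⟨S, hS, hc⟩
    by_cases he : CA.H28Syl.ee x = 1
    · exact Or.inl he
    refine Or.inr ⟨he, fun hne => ?_⟩
    have hd : ¬ p ∣ Nat.card S := by
      rw [hc, hn]
      intro hd
      exact hp.one_lt.ne' (Nat.dvd_one.1 ((Nat.dvd_add_left (dvd_mul_left p n)).1 hd))
    have h1 := h.card_mul_index S hd
    rw [hc] at h1
    have h2 : CA.H28Syl.NN x ⊔ S = ⊤ := Subgroup.index_eq_one.1
      (Nat.eq_of_mul_eq_mul_left Nat.card_pos (by rw [h1, mul_one]))
    have := CA.H28SC.normal_sup_zpowers S x h2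
    have h3 := h.commutator_le (S ⊔ Subgroup.zpowers x)
      (Subgroup.mem_sup_right (Subgroup.mem_zpowers x))
    have h4 := (Subgroup.commutator_mono h3 h3).trans (CA.H28SC.commutator_sup_zpowers_le S x)
    rw [hne] at h4
    exact hd (CA.H28SC.dvd_card_of_mem hx (h4 (CA.H28SC.mem_commutator_of_ee hx he)))
  · rintro (he | ⟨he, hne⟩)
    · exact ⟨_, inferInstance, hA he⟩
    · exact ⟨_, inferInstance, hB he hne⟩
  · exact isCyclic_of_prime_card (h.index_commutator_of_ee he)
  · obtain ⟨h1, h2⟩ := h.second he hne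
    rw [← hB he hne, ← CA.H28SC.card_sup_zpowers hx _ h1, ← h2]

end Cfsg.Agent.S4509
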