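import Cfsg.Statements.S4510
import Cfsg.Agent.Lib.Block.H11Contrib

set_option autoImplicit false
open Cfsg

namespace Cfsg.Agent.S4510

open CA.H11Contrib CA.BlkAlg CA.BlkVal CA.BlkOmega CA.BlkRed CA.BlkCore CA.BlkHeight CA.BlkReg CA.H12Orth CA.H13Span CChar.CharFun CChar.CharOrth CChar.CharGen CChar.CharInt

/-- Let G be a finite group, p a prime, M a maximal ideal of the algebraic integers containing p, and call the defect of a conjugacy class the exponent of p in the order of the centralizer of its elements. Two irreducible characters lying in p-blocks of defect exactly d lie in the same block if and only if their central characters (class size times χ(x)/χ(1)) agree modulo the local ideal at M at every p-regular element x whose class has defect exactly d. -/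
theorem result {G : Type*} [Group G] [Finite G] (p : ℕ) [Fact p.Prime] (M : Ideal Cfsg.AlgInt) (hM : Cfsg.IsPModular p M) (d : ℕ) (χ ψ : Cfsg.IrrCharacter G) (hχ : Cfsg.blockDefect p (Cfsg.blockOf M (χ : G → ℂ)) = d) (hψ : Cfsg.blockDefect p (Cfsg.blockOf M (ψ : G → ℂ)) = d) : Cfsg.SameBlock M (χ : G → ℂ) (ψ : G → ℂ) ↔ ∀ x : G, ¬ p ∣ orderOf x → (Nat.card (Subgroup.centralizer ({x} : Set G))).factorization p = d → Cfsg.MemLocalIdeal M (Cfsg.centralChar (χ : G → ℂ) x - Cfsg.centralChar (ψ : G → ℂ) x) := by
  classical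
  refine ⟨fun h x _ _ => h x, fun h => ?_⟩
  haveI := Fintype.ofFinite (ConjClasses G)
  have hB := isPBlock_blockOf (M := M) χ
  have hB' := isPBlock_blockOf (M := M) ψ
  have h1 : lam M χ.1 (eB M (blockOf M χ.1)) = lam M ψ.1 (eB M (blockOf M χ.1)) := by
    rw [lam_eq_sum (irr_classFun χ.2) (eB_mem_Z _), lam_eq_sum (irr_classFun ψ.2) (eB_mem_Z _)]
    refine Finset.sum_congr rfl fun C _ => ?_
    by_contra hne
    have h2 : ¬ p ∣ orderOf C.out ∧
        (Nat.card (Subgroup.centralizer ({C.out} : Set G))).factorization p = d := by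
      by_cases h0 : (eB M (blockOf M χ.1)).coeff C.out * res M (centralChar χ.1 C.out) = 0
      · exact hψ ▸ reg_defect_of_ne_zero hM hB' (self_mem_blockOf hM ψ) hB (hχ.trans hψ.symm)
          fun e => hne (h0.trans e.symm)
      · exact hχ ▸ reg_defect_of_ne_zero hM hB (self_mem_blockOf hM χ) hB rfl h0
    exact hne (by rw [(memLocalIdeal_sub_iff hM (isAlgebraic_centralChar χ _)
      (isAlgebraic_centralChar ψ _) (centralChar_mem_O χ _) (centralChar_mem_O ψ _)).1
        (h _ h2.1 h2.2)])
  have hS := isSat_of_isPBlock hM hB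
  rw [lam_eB_of_mem hS (self_mem_blockOf hM χ)] at h1
  exact mem_blockOf.1 ((mem_iff_lam_eB_eq_one hS).2 h1.symm)

end Cfsg.Agent.S4510
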