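import Cfsg.Statements.S4513
import Cfsg.Agent.Lib.Block.BlkDim
import Cfsg.Agent.Lib.Block.H11Sec
import Cfsg.Agent.Lib.Block.BlkPi

set_option autoImplicit false
open Cfsg

namespace Cfsg.Agent.S4513
open Cfsg MonoidAlgebra CA.BlkAlg CA.BlkVal CA.BlkOmega CA.BlkRed CA.BlkCore CA.BlkDefect CA.BlkInd CA.BlkHeight CA.SylIn CA.H12PPart CChar.CharFun CChar.CharOrth Subgroup CA.BlkKer CChar.CharKer CA.H11Amb CA.H11Def CA.H11Pair CA.H11Max CA.H11Brg CA.BlkFirst CA.BlkPi CA.BlkDim CA.BlkBas CA.BlkReg CA.H11Sec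

/-- Blocks of defect one for p = 2. Let M be a maximal ideal of the algebraic integers containing 2, B a 2-block of the finite group G whose defect group is the subgroup generated by an involution x, C = C_G(x), b a block of C inducing B and θ a member of b taking the same value at x as at 1 (there is exactly one). Then B consists of exactly two irreducible characters, which agree on every element of odd order, and they can be labelled χ₁, χ₂ with signs ε₁, ε₂ = ±1, ε₁ε₂ = −1, such that χᵢ(x y) = εᵢ θ(y) for every element y of C of odd order. -/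
theorem result {G : Type*} [Group G] [Finite G] (M : Ideal Cfsg.AlgInt) (hM : Cfsg.IsPModular 2 M) (x : G) (hx : orderOf x = 2)
    (B : Set (Cfsg.IrrCharacter G)) (hB : Cfsg.IsPBlock M B) (hBD : Cfsg.IsDefectGroup 2 M B (Subgroup.zpowers x))
    (b : Set (Cfsg.IrrCharacter ↥(Subgroup.centralizer ({x} : Set G)))) (hb : Cfsg.IsInducedBlock M (Subgroup.centralizer ({x} : Set G)) b B)
    (θ : Cfsg.IrrCharacter ↥(Subgroup.centralizer ({x} : Set G))) (hθ : θ ∈ b)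
    (hθx : ∀ z : ↥(Subgroup.centralizer ({x} : Set G)), (z : G) = x → (θ : ↥(Subgroup.centralizer ({x} : Set G)) → ℂ) z = (θ : ↥(Subgroup.centralizer ({x} : Set G)) → ℂ) 1) :
    Nat.card B = 2 ∧ (∀ χ ∈ B, ∀ ψ ∈ B, ∀ g : G, ¬ 2 ∣ orderOf g → (χ : G → ℂ) g = (ψ : G → ℂ) g) ∧
      ∃ χ₁ ∈ B, ∃ χ₂ ∈ B, χ₁ ≠ χ₂ ∧ ∃ ε₁ ε₂ : ℤ, (ε₁ = 1 ∨ ε₁ = -1) ∧ (ε₂ = 1 ∨ ε₂ = -1) ∧ ε₁ * ε₂ = -1 ∧
        ∀ y : ↥(Subgroup.centralizer ({x} : Set G)), ¬ 2 ∣ orderOf y →
          (χ₁ : G → ℂ) (x * y) = (ε₁ : ℂ) * (θ : ↥(Subgroup.centralizer ({x} : Set G)) → ℂ) y ∧ (χ₂ : G → ℂ) (x * y) = (ε₂ : ℂ) * (θ : ↥(Subgroup.centralizer ({x} : Set G)) → ℂ) y := by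
  classical
  haveI := Fintype.ofFinite G
  haveI : Fact (Nat.Prime 2) := ⟨Nat.prime_two⟩
  have hp : ((2 : ℕ) : k M) = 0 := p_eq_zero hM
  let H := centralizer ({x} : Set G)
  have hH : H = centralizer ({x} : Set G) := rfl
  haveI := Fintype.ofFinite H
  have hu : ∃ n, orderOf x = 2 ^ n := ⟨1, by rw [hx, pow_one]⟩
  have hD := isPGroup_of_isDefectGroup hBD
  have hC : CC (zpowers x) = H := CC_zpowers x
  have hN : NN (zpowers x) = H := le_antisymm (fun g hg => by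
    have h1 := (mem_normalizer_iff.mp hg x).mp (mem_zpowers x)
    rw [mem_zpowers_iff_mem_range_orderOf, hx] at h1
    simp only [Finset.mem_image, Finset.mem_range] at h1
    obtain ⟨i, hi, h1⟩ := h1
    interval_cases i
    · have : x = 1 := by simpa using h1.symm
      rw [this, orderOf_one] at hx; omega
    · rw [pow_one, eq_mul_inv_iff_mul_eq] at h1
      exact mem_centralizer_singleton_iff.mpr h1.symm) (hC ▸ CC_le_NN _)
  have hxH : x ∈ H := self_mem_of_eq hH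
  have h1 : zpowers x ≤ H := zpowers_le.mpr hxH
  have hd : blockDefect 2 B = 1 := by
    have := card_defectGroup hM hB hBD
    rw [Nat.card_zpowers, hx] at this
    exact ((Nat.prime_two.pow_eq_iff).mp this.symm).2
  have hd' : blockDefect 2 b = 1 := by
    have := card_defectGroup hM hb.1 (isDefectGroup_of_induced_of_normal hM h1 hN.ge hBD hb)
    rw [Nat.card_congr (subgroupOfEquivOfLe h1).toEquiv, Nat.card_zpowers, hx] at this
    exact ((Nat.prime_two.pow_eq_iff).mp this.symm).2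
  obtain ⟨h2, h3⟩ := two_of_defect_one hM hB hd
  obtain ⟨-, h4⟩ := two_of_defect_one hM hb.1 hd'
  refine ⟨h2, fun χ hχ ψ hψ g hg => by
    rw [← pReg_of_not_dvd χ.1 hg, h3 χ hχ ψ hψ, pReg_of_not_dvd _ hg], ?_⟩
  obtain ⟨χ₁, χ₂, hne, hs⟩ := Set.ncard_eq_two.mp (Nat.card_coe_set_eq B ▸ h2)
  have hχ₁ : χ₁ ∈ B := by simp [hs]
  have hχ₂ : χ₂ ∈ B := by simp [hs]
  let S := bsetOne Nat.prime_two hθ fun χ hχ => h4 χ hχ θ hθ
  let T := bsetOne Nat.prime_two hχ₁ fun χ hχ => h3 χ hχ χ₁ hχ₁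
  have hsb := isSat_of_isPBlock hM hb.1
  have huniq : ∀ b', IsInducedBlock M H b' B → br (zpowers x) (eB M B) = ab M H b' := fun b' h => by
    have e1 := ((isDefectGroup_iff_top hM hB).mp hBD).blk_br hp (blk_eB hM hB)
    rw [top_inf_eq, hN] at e1
    exact (blk_ab hM h.1).eq_of_mul_ne_zero e1
      ((isInducedBlock_iff_ab_ne hM hD h1 hC.le hN.ge h.1 hB).mp h)
  have hval : ∀ χ ∈ B, ∀ y : H, ¬ 2 ∣ orderOf y → χ.1 (x * y) = S.gd x χ.1 () * θ.1 y :=
    fun χ hχ y hy => by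
      have e1 := congrFun (sum_sp (u := x) hM hH.le (irr_classFun χ.2)) y
      rw [pReg_of_not_dvd _ hy, tr_apply, Finset.sum_eq_single (s := blocks M H) b (fun b' hb' hne =>
        sp_eq_zero_of_not_ind hM hu hH hB (mem_blocks.mp hb') (fun h => hne (ab_inj hM h.1 hb.1
          ((huniq b' h).symm.trans (huniq b hb)))) (CA.H13Span.inSpan_irr hχ))
        (fun h => (h (mem_blocks.mpr hb.1)).elim), sp_eq_sum S] at e1
      rw [← e1, ← pReg_of_not_dvd θ.1 hy]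
      simp [S, bsetOne]
  have hsum : ∀ f : IrrCharacter G → ℂ, (∀ χ ∉ B, f χ = 0) → ∑ χ, f χ = f χ₁ + f χ₂ := fun f hf =>
    Finset.sum_eq_add_of_mem χ₁ χ₂ (by simp) (by simp) hne fun c _ hc => hf c (by
      simp [hs, hc.1, hc.2])
  have h0 : ∀ χ ∉ B, S.gd x χ.1 () = 0 := fun χ hχ => S.gd_eq_zero_of_not_mem hM hu hH hb hχ ()
  have h5 := S.sum_gd_mul_conj_self hM hu hH hsb () ()
  have h6 := S.sum_gd_mul_d hM hu (fun h => by rw [h, orderOf_one] at hx; omega) hH.le hsb T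
    (isSat_of_isPBlock hM hB) () ()
  have hx2 : x ^ 2 = 1 := by rw [← hx, pow_orderOf_eq_one]
  obtain ⟨a₁, ha₁⟩ := S.exists_int_gd_of_sq hH.le hxH hx2 (CChar.CharGen.gen_of_irr χ₁.2) ()
  obtain ⟨a₂, ha₂⟩ := S.exists_int_gd_of_sq hH.le hxH hx2 (CChar.CharGen.gen_of_irr χ₂.2) ()
  rw [hsum _ fun χ hχ => by rw [h0 χ hχ, zero_mul], ha₁, ha₂] at h5 h6
  rw [S.C_eq_of_subsingleton hM hb.1, hd', map_intCast, map_intCast] at h5
  simp only [T, bsetOne, if_pos hχ₁, if_pos hχ₂] at h6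
  have h7 : a₁ * a₁ + a₂ * a₂ = 2 := by exact_mod_cast h5
  have h8 : a₁ * 1 + a₂ * 1 = 0 := by exact_mod_cast h6
  obtain rfl : a₂ = -a₁ := by omega
  have h9 : a₁ * a₁ = 1 := by rw [neg_mul_neg] at h7; omega
  refine ⟨χ₁, hχ₁, χ₂, hχ₂, hne, a₁, -a₁, Int.eq_one_or_neg_one_of_mul_eq_one h9,
    Int.eq_one_or_neg_one_of_mul_eq_one (neg_mul_neg a₁ a₁ ▸ h9), by rw [mul_neg, h9], fun y hy => ?_⟩
  rw [hval _ hχ₁ y hy, hval _ hχ₂ y hy, ha₁, ha₂]
  exact ⟨rfl, rfl⟩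

end Cfsg.Agent.S4513
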