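import Cfsg.Statements.S4634
import Cfsg.Agent.Lib.Block.H11Cy2

set_option autoImplicit false
open Cfsg

namespace Cfsg.Agent.S4634

open CA.H11Cy2 CA.H11Uni CA.H11Fb CA.H11Exc CA.H11Orb CA.H11Brg CA.H11Fus CA.H11Max CA.H11Amb CA.H11Pair CA.BlkCore CA.H11Star CA.H11NilB Subgroup CChar.CharFun CChar.CharOrth CChar.CharInt CChar.CharGen

theorem deg_eq {F A : Type*} [Group F] [Fintype F] [Group A] [Fintype A] (φ : A →* F)
    (h : Nat.card F < Nat.card A * Nat.card A) {η : IrrCharacter F} {s : ℤ} (hs : s * s = 1)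
    (h1 : ∀ a ≠ 1, η.1 (φ a) = s) (h2 : ∃ a, η.1 (φ a) ≠ η.1 1) :
    charDegree η.1 + 1 = Nat.card A := by
  classical
  obtain ⟨n, hn⟩ := inner_gen_gen (gen_comp (gen_of_irr η.2) φ) (gen_of_irr (irr_one (G := A)))
  rw [CChar.CharFun.inner_def, ← Finset.add_sum_erase _ _ (Finset.mem_univ 1), Finset.sum_congr rfl
    (g := fun _ => (s : ℂ)) fun a ha => by simp [h1 a (Finset.ne_of_mem_erase ha)], map_one,
    irr_apply_one_eq η.2, inv_mul_eq_iff_eq_mul₀ (CA.Ind.card_ne_zero A), Finset.sum_const,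
    Finset.card_erase_of_mem (Finset.mem_univ _), Finset.card_univ, ← Nat.card_eq_fintype_card,
    nsmul_eq_mul, Nat.cast_pred Nat.card_pos, map_one, mul_one] at hn
  have h3 : (charDegree η.1 : ℤ) + (Nat.card A - 1) * s = Nat.card A * n := by exact_mod_cast hn
  have h4 := (Finset.single_le_sum (f := fun χ : IrrCharacter F => charDegree χ.1 ^ 2)
    (fun _ _ => Nat.zero_le _) (Finset.mem_univ η)).trans_lt (sum_charDegree_sq.trans_lt h)
  have h5 := Nat.mul_self_lt_mul_self_iff.1 (sq (charDegree η.1) ▸ h4)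
  have h6 := charDegree_pos η.2
  obtain ⟨a, ha⟩ := h2
  have h7 : (s : ℂ) ≠ charDegree η.1 := by
    rw [← irr_apply_one_eq η.2, ← h1 a fun h => ha (by rw [h, map_one])]; exact ha
  have h8 : s ≠ charDegree η.1 := fun h => h7 (by exact_mod_cast h)
  rcases mul_self_eq_one_iff.1 hs with rfl | rfl
  · have : n = 1 := by nlinarith
    subst this; omega
  · have : n = 0 := by nlinarith
    subst this; omega

/-- Let B be a block of the finite group G relative to a maximal ideal M of the algebraic integers containing the prime p, with a nontrivial cyclic defect group P, let c be a block of C_G(P) inducing B, T the stabilizer of c in N_G(P) and e the index of C_G(P) in T. Let F be any finite group of order #P · e having a cyclic subgroup Q of order #P that is its own centralizer (F is then the semidirect product of Q by a cyclic group of order e acting faithfully). Then there is a perfect isometry from the set of all irreducible characters of F onto B whose signs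 agree on all the characters of F that do not contain Q in their kernel. -/
theorem result {G : Type*} [Group G] [Finite G] (p : ℕ) [Fact p.Prime] (M : Ideal Cfsg.AlgInt) (hM : Cfsg.IsPModular p M) (B : Set (Cfsg.IrrCharacter G)) (hB : Cfsg.IsPBlock M B) (P : Subgroup G) (hPD : Cfsg.IsDefectGroup p M B P) (hP1 : P ≠ ⊥) (hcyc : IsCyclic P) (c : Set (Cfsg.IrrCharacter (Subgroup.centralizer (P : Set G)))) (hc : Cfsg.IsInducedBlock M (Subgroup.centralizer (P : Set G)) c B) (T : Subgroup G) (hT : ∀ g : G, g ∈ T ↔ (g ∈ Subgroup.normalizer (P : Set G) ∧ Cfsg.StabilizesBlock (Subgroup.centralizer (P : Set G)) c g)) (e : ℕ) (he : (Subgroup.centralizer (P : Set G)).relIndex T = e) (F : Type*) [Group F] [Finite F] (hF : Nat.card F = Nat.card P * e) (Q : Subgroup F) (hQ : IsCyclic Q) (hQcard : Nat.card Q = Nat.card P) (hQC : Subgroup.centralizer (Q : Set F) = Q) : ∃ (I : Cfsg.IrrCharacter F → Cfsg.IrrCharacter G) (ε : Cfsg.IrrCharacter F → ℤ), Cfsg.IsPerfectIsometry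 p M (Set.univ : Set (Cfsg.IrrCharacter F)) B I ε ∧ ∀ η η' : Cfsg.IrrCharacter F, (∃ x ∈ Q, (η : F → ℂ) x ≠ (η : F → ℂ) 1) → (∃ x ∈ Q, (η' : F → ℂ) x ≠ (η' : F → ℂ) 1) → ε η = ε η' := by
  classical
  haveI := Fintype.ofFinite G
  haveI := Fintype.ofFinite P
  haveI := Fintype.ofFinite F
  haveI := (nontrivial_iff_ne_bot P).2 hP1
  have X := fb_of_cyclic hM hB (mx_of_ind hM hPD hc) hcyc (MulEquiv.refl P)
  rw [eq_St hM hc.1 hT, ← X.card_E] at he
  have h1 := (cyc_E X hcyc).2
  have h2 : Q.index = e := mul_left_cancel₀ Nat.card_pos.ne'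
    ((card_mul_index Q).trans (hF.trans (by rw [hQcard])))
  have h3 := X.fr.card_eq
  have h4 := X.not_dvd
  rw [he] at h1 h3 h4
  obtain ⟨n, hn⟩ := IsPGroup.iff_card.1 X.pg
  have hpQ : IsPGroup p Q := IsPGroup.iff_card.2 ⟨n, hQcard.trans hn⟩
  let S := hpQ.toSylow (h2 ▸ h4)
  haveI : Q.Normal := by
    have h5 := card_sylow_modEq_one p F
    have h6 : Nat.card (Sylow p F) ∣ p - 1 := (h2 ▸ S.card_dvd_index).trans h1
    have h7 := Nat.le_of_dvd (Nat.sub_pos_of_lt hM.1.one_lt) h6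
    haveI := (Nat.card_eq_one_iff_unique.1 (h5.eq_of_lt_of_lt (h7.trans_lt (Nat.sub_one_lt hM.1.ne_zero)) hM.1.one_lt)).1
    exact S.normal_of_subsingleton
  have hU := eq_univ hM (isPBlock_principalBlock (M := M) (G := F)) hpQ hQC.le
  have hV : IsPBlock M (Set.univ : Set (IrrCharacter F)) := hU ▸ isPBlock_principalBlock
  obtain ⟨e', h5, h5'⟩ := exists_mx_of_aug (P := Q) (p_eq hM) (blk_eB hM hV) (by rw [eB_univ, map_one])
    (CA.SylIn.isSylowIn_top S)
  let ι := mulEquivOfCyclicCardEq hQcard.symm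
  have Y := fb_of_cyclic hM hV h5 hQ ι
  have h6 : St ⊤ Q e' = ⊤ := eq_top_iff.2 fun x _ => mem_St.2 ⟨trivial, by
    simp [normalizer_eq_top], fixed_of_aug h5.pr.blk h5' (by
      rw [top_inf_eq, CC, hQC]; simp [normalizer_eq_top])⟩
  have h7 := Y.card_E.trans (show _ = _ by rw [h6, CC, hQC, relIndex_top_right, h2, ← he])
  rw [eq_of_card hM.1 X.pg h7 (by rwa [h7, he])] at Y
  have T' := ta_res Y fun a ha x hx => hQC.le (Y.mem_CC_of_fix (h6.ge (mem_top x)) (ι a).2
    (by simpa using ha) (by rw [mem_centralizer_singleton_iff.1 hx, mul_inv_cancel_right]))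
  haveI := Fintype.ofFinite (Set.univ : Set (IrrCharacter F))
  obtain ⟨δ', μ', ε', S'⟩ := T'.exists_std (exists_std Y hQ).1.ge
  obtain ⟨-, D, δ, μ, ε, T, S⟩ := exists_std X hcyc
  obtain ⟨I, s, h8, h9⟩ := S.exists_perfect T S' T'
  refine ⟨I, s, h8, fun η η' hη hη' => ?_⟩
  have h10 : ∀ {η : IrrCharacter F} {s : ℤ}, (∃ x ∈ Q, η.1 x ≠ η.1 1) → s * s = 1 →
      (∀ a ≠ 1, η.1 (ι a) = s) → charDegree η.1 + 1 = Nat.card P := fun ⟨x, hx, h⟩ h1 h2 =>
    deg_eq (Q.subtype.comp ι.toMonoidHom) (by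
      rw [hF]; refine Nat.mul_lt_mul_of_pos_left ?_ Nat.card_pos
      have := Nat.le_mul_of_pos_left e (Fintype.card_pos_iff.2 X.fr.nonempty); omega) h1 h2
      ⟨ι.symm ⟨x, hx⟩, by simpa using h⟩
  have h11 : ∀ s : Finset (IrrCharacter F), ∑ χ ∈ s, charDegree χ.1 ^ 2 ≤ Nat.card P * e := fun s =>
    (Finset.sum_le_sum_of_subset s.subset_univ).trans (sum_charDegree_sq.trans hF).le
  have h12 : ∀ {η : IrrCharacter F}, (∃ x ∈ Q, η.1 x ≠ η.1 1) → η ≠ irrOne F := by
    rintro _ ⟨x, -, h⟩ rfl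
    exact h rfl
  have h13 : charDegree (irrOne F).1 = 1 := by simp [charDegree, irrOne]
  by_contra hne
  have h14 : Fintype.card (Ix (act (MulEquiv.refl P) (St_le_NN (H := ⊤)
      (f := ab M (CC P) c))).range) = 1 := by
    by_contra h
    have := Fintype.card_pos_iff.2 X.fr.nonempty
    have h15 : ∀ {η : IrrCharacter F}, (∃ x ∈ Q, η.1 x ≠ η.1 1) → η ∈ Set.range μ' := fun {η} hη => by
      by_contra h16
      have h17 := h10 hη (S'.non η ⟨trivial, h16⟩).1 (S'.non η ⟨trivial, h16⟩).2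
      have h18 := h11 {η, irrOne F}
      rw [Finset.sum_pair (h12 hη), h13, h3] at h18
      rw [h3, add_comm, add_right_inj] at h17
      rw [h17] at h18
      obtain ⟨m, hm⟩ := Nat.exists_eq_add_of_le' ((Nat.two_le_iff _).2 ⟨this.ne', h⟩)
      rw [hm] at h18
      have : 0 < e := he ▸ Nat.card_pos
      nlinarith [Nat.le_mul_self e, Nat.zero_le (m * m * e * e), Nat.zero_le (m * e * e)]
    obtain ⟨i, rfl⟩ := h15 hη
    obtain ⟨j, rfl⟩ := h15 hη'
    exact hne (h9 i j)
  have h15 : ∀ {η : IrrCharacter F}, (∃ x ∈ Q, η.1 x ≠ η.1 1) → charDegree η.1 = e := fun {η} hη => by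
    suffices charDegree η.1 + 1 = Nat.card P by rw [h3, h14] at this; omega
    by_cases h16 : η ∈ Set.range μ'
    · obtain ⟨i, rfl⟩ := h16
      obtain ⟨j, hj⟩ := Fintype.card_eq_one_iff.1 h14
      refine h10 (s := -δ') hη (by rw [neg_mul_neg, S'.sq]) fun a ha => (S'.exc i a ha).trans ?_
      rw [← Fintype.sum_eq_single i (f := fun i => eta i a) fun k hk => (hk (by rw [hj k, hj i])).elim,
        X.fr.sum_eta ha]
      simp
    · exact h10 hη (S'.non η ⟨trivial, h16⟩).1 (S'.non η ⟨trivial, h16⟩).2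
  have h16 := h11 {η, η', irrOne F}
  rw [Finset.sum_insert (by simp [h12 hη, show η ≠ η' from fun h => hne (h ▸ rfl)]),
    Finset.sum_pair (h12 hη'), h15 hη, h15 hη', h13, h3, h14] at h16
  nlinarith [Nat.le_mul_self e]

end Cfsg.Agent.S4634
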