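import Cfsg.Statements.S4636
import Cfsg.Agent.Lib.Block.H11Cyc

set_option autoImplicit false
open scoped Pointwise
open Cfsg

namespace Cfsg.Agent.S4636

open CA.H11Brg CA.H11Pair CA.H11Def CA.H11Amb CA.H11Max CA.H11Fus CA.BlkCore CA.SylIn CA.H11Cyc Subgroup

/-- Let P be a nontrivial cyclic p-subgroup of the finite group G and Z its subgroup of order p. For every x outside N_G(Z), P meets its conjugate xPx⁻¹ trivially; consequently N_G(Q) ≤ N_G(Z) for every nontrivial subgroup Q of P. -/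
theorem result {G : Type*} [Group G] [Finite G] (p : ℕ) [Fact p.Prime] (P : Subgroup G) (hP : IsPGroup p P) (hP1 : P ≠ ⊥) (hcyc : IsCyclic P) (Z : Subgroup G) (hZ : Z ≤ P) (hZcard : Nat.card Z = p) : (∀ x : G, x ∉ Subgroup.normalizer (Z : Set G) → P ⊓ MulAut.conj x • P = ⊥) ∧ ∀ Q : Subgroup G, Q ≤ P → Q ≠ ⊥ → Subgroup.normalizer (Q : Set G) ≤ Subgroup.normalizer (Z : Set G) := by
  have h2 : ∀ Q : Subgroup G, Q ≤ P → Q ≠ ⊥ → NN Q ≤ NN Z := fun Q hQ h0 =>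
    NN_le_NN (isCyclic_of_le' hcyc hQ) (le_of_ne_bot hP hcyc hZ hZcard hQ h0)
  refine ⟨fun x hx => ?_, h2⟩
  by_contra h0
  apply hx
  rw [← conj_eq_smul] at h0
  have h1 : Z ≤ x •ᶜ P := (le_of_ne_bot hP hcyc hZ hZcard inf_le_left h0).trans inf_le_right
  have h3 : x⁻¹ •ᶜ Z = Z := CA.NPC2.eq_of_card_eq_of_isCyclic hcyc
    (le_conj_iff_inv_conj_le.1 h1) hZ (card_conj _ _)
  exact inv_mem_iff.1 (mem_normalizer_iff_conj_eq.2 h3)

end Cfsg.Agent.S4636
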