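import Cfsg.Statements.S4637
import Cfsg.Agent.Lib.Block.H11Sm

set_option autoImplicit false
open Cfsg

namespace Cfsg.Agent.S4637

open CA.H11Sm CA.H11Cy2 CA.H11Fb CA.H11Exc CA.H11Orb CA.H11Brg CA.H11Fus CA.H11Max CA.H11Amb CA.H11Pair CA.BlkCore CA.H11Star CA.H11NilB Subgroup

/-- Let B be a block of the finite group G relative to a maximal ideal M of the algebraic integers containing 2, with a Klein four defect group P. Let c be a block of C_G(P) inducing B, T the stabilizer of c in N_G(P) and e the index of C_G(P) in T (the inertial index). Then e is 1 or 3, B contains exactly four irreducible characters, and the 2-regular rank of B (its number of irreducible Brauer characters) equals e. -/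
theorem result {G : Type*} [Group G] [Finite G] (M : Ideal Cfsg.AlgInt) (hM : Cfsg.IsPModular 2 M) (B : Set (Cfsg.IrrCharacter G)) (hB : Cfsg.IsPBlock M B) (P : Subgroup G) (hPD : Cfsg.IsDefectGroup 2 M B P) (hV : IsKleinFour P) (c : Set (Cfsg.IrrCharacter (Subgroup.centralizer (P : Set G)))) (hc : Cfsg.IsInducedBlock M (Subgroup.centralizer (P : Set G)) c B) (T : Subgroup G) (hT : ∀ g : G, g ∈ T ↔ (g ∈ Subgroup.normalizer (P : Set G) ∧ Cfsg.StabilizesBlock (Subgroup.centralizer (P : Set G)) c g)) (e : ℕ) (he : (Subgroup.centralizer (P : Set G)).relIndex T = e) : (e = 1 ∨ e = 3) ∧ Nat.card B = 4 ∧ Cfsg.blockRank 2 B = e := by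
  haveI := Fintype.ofFinite G
  haveI := Fintype.ofFinite P
  haveI : Nontrivial P := Finite.one_lt_card_iff_nontrivial.1 (by rw [hV.card_four]; norm_num)
  obtain rfl := eq_St hM hc.1 hT
  obtain ⟨E, F, h⟩ := fb_two hM hB (mx_of_ind hM hPD hc) hV.isMulCommutative.1.1
    ((Finite.card_subtype_le _).trans hV.card_four.le) (MulEquiv.refl P)
  obtain rfl := F.card_E.trans he
  have h1 := (exists_std F h).1
  have h2 := F.card_eq
  have h3 := F.not_dvd
  rw [F.fr.card_ix, hV.card_four, h1] at h2
  have h4 : Nat.card E = 1 ∨ Nat.card E = 3 := by omega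
  exact ⟨h4, by rcases h4 with h | h <;> rw [h2, h], h1⟩

end Cfsg.Agent.S4637
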