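import Cfsg.Statements.S4638
import Cfsg.Agent.Lib.Block.H11Sm

set_option autoImplicit false
open Cfsg

namespace Cfsg.Agent.S4638

open CA.H11Sm CA.H11Cy2 CA.H11Fb CA.H11Exc CA.H11Orb CA.H11Brg CA.H11Fus CA.H11Max CA.H11Amb CA.H11Pair CA.BlkCore CA.H11Star CA.H11NilB Subgroup

/-- Let B be a block of the finite group G relative to a maximal ideal M of the algebraic integers containing 2, with a Klein four defect group P, and let c be its Brauer correspondent: the block of N_G(P) with defect group P that induces B. Then there is a perfect isometry from c onto B. -/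
theorem result {G : Type*} [Group G] [Finite G] (M : Ideal Cfsg.AlgInt) (hM : Cfsg.IsPModular 2 M) (B : Set (Cfsg.IrrCharacter G)) (hB : Cfsg.IsPBlock M B) (P : Subgroup G) (hPD : Cfsg.IsDefectGroup 2 M B P) (hV : IsKleinFour P) (c : Set (Cfsg.IrrCharacter (Subgroup.normalizer (P : Set G)))) (hcD : Cfsg.IsDefectGroup 2 M c (P.subgroupOf (Subgroup.normalizer (P : Set G)))) (hc : Cfsg.IsInducedBlock M (Subgroup.normalizer (P : Set G)) c B) : ∃ (I : Cfsg.IrrCharacter (Subgroup.normalizer (P : Set G)) → Cfsg.IrrCharacter G) (ε : Cfsg.IrrCharacter (Subgroup.normalizer (P : Set G)) → ℤ), Cfsg.IsPerfectIsometry 2 M c B I ε := by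
  haveI := Fintype.ofFinite G
  haveI := Fintype.ofFinite P
  haveI := Fintype.ofFinite (NN P)
  haveI : Nontrivial P := Finite.one_lt_card_iff_nontrivial.1 (by rw [hV.card_four]; norm_num)
  obtain ⟨e, h1, h2⟩ := exists_mx_sub hM hPD le_normalizer (CC_le_NN P) hcD hc
  obtain ⟨E, F, h⟩ := fb_two hM hB h1 hV.isMulCommutative.1.1
    ((Finite.card_subtype_le _).trans hV.card_four.le) (MulEquiv.refl P)
  obtain ⟨-, D, δ, μ, ε, T, S⟩ := exists_std F h
  obtain ⟨-, D', δ', μ', ε', T', S'⟩ := exists_std (fb_sub F le_normalizer le_rfl hc.1 h2) h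
  exact (S.exists_perfect T S' T').imp fun _ => .imp fun _ h => h.1

end Cfsg.Agent.S4638
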