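import Cfsg.Statements.S4639
import Cfsg.Agent.Lib.Block.H11Sm

set_option autoImplicit false
open Cfsg

namespace Cfsg.Agent.S4639

open CA.H11Sm CA.H11Cy2 CA.H11Fb CA.H11Exc CA.H11Orb CA.H11Brg CA.H11Fus CA.H11Max CA.H11Amb CA.H11Pair CA.BlkCore CA.H11Star CA.H11NilB Subgroup

/-- Let B be a block of the finite group G relative to a maximal ideal M of the algebraic integers containing the prime p, with a nontrivial commutative defect group P. Let c be a block of C_G(P) inducing B, T the stabilizer of c in N_G(P) and e the index of C_G(P) in T. Suppose that T/C_G(P) is commutative (all commutators of elements of T lie in C_G(P)) and acts freely on the non-identity elements of P (an element of T fixing a non-identity element of P under conjugation lies in C_G(P)). Then B has at most e + (#P − 1)/e irreducible characters and p-regular rank at most e; equality holds in the first bound exactly when it holds in the second; and both equalities hold when e ≤ 3. -/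
theorem result {G : Type*} [Group G] [Finite G] (p : ℕ) [Fact p.Prime] (M : Ideal Cfsg.AlgInt) (hM : Cfsg.IsPModular p M) (B : Set (Cfsg.IrrCharacter G)) (hB : Cfsg.IsPBlock M B) (P : Subgroup G) (hPD : Cfsg.IsDefectGroup p M B P) (hP1 : P ≠ ⊥) (hPab : ∀ x ∈ P, ∀ y ∈ P, x * y = y * x) (c : Set (Cfsg.IrrCharacter (Subgroup.centralizer (P : Set G)))) (hc : Cfsg.IsInducedBlock M (Subgroup.centralizer (P : Set G)) c B) (T : Subgroup G) (hT : ∀ g : G, g ∈ T ↔ (g ∈ Subgroup.normalizer (P : Set G) ∧ Cfsg.StabilizesBlock (Subgroup.centralizer (P : Set G)) c g)) (e : ℕ) (he : (Subgroup.centralizer (P : Set G)).relIndex T = e) (hEab : ∀ g ∈ T, ∀ h ∈ T, g * h * g⁻¹ * h⁻¹ ∈ Subgroup.centralizer (P : Set G)) (hfree : ∀ g ∈ T, ∀ x ∈ P, x ≠ 1 → g * x * g⁻¹ = x → g ∈ Subgroup.centralizer (P : Set G)) : Nat.card B ≤ e + (Nat.card P - 1) / e ∧ Cfsg.blockRank p B ≤ e ∧ (Nat.card B = e + (Nat.card P - 1) / e ↔ Cfsg.blockRank p B = e) ∧ (e ≤ 3 → Nat.card B = e + (Nat.card P - 1) / e ∧ Cfsg.blockRank p B = e) := by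
  haveI := Fintype.ofFinite G
  haveI := Fintype.ofFinite P
  haveI := (nontrivial_iff_ne_bot P).2 hP1
  obtain rfl := eq_St hM hc.1 hT
  obtain ⟨E, F⟩ : ∃ E, Fb p _ B E (MulEquiv.refl P) := ⟨_, fb_of hM hB (mx_of_ind hM hPD hc)
    (fun x hx => mem_CC.2 fun y hy => hPab y hy x hx) hfree _⟩
  obtain rfl := F.card_E.trans he
  obtain ⟨D, T⟩ := CA.H11Src.exists_ta F
  have h1 := T.rank_le
  have h2 := F.card_eq
  rw [F.fr.card_ix] at h2
  exact ⟨by omega, h1, by omega, fun h => by have := le_rank F h; omega⟩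

end Cfsg.Agent.S4639
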