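import Cfsg.Statements.S4641
import Cfsg.Agent.Lib.Block.BlkPr

set_option autoImplicit false
open Cfsg

namespace Cfsg.Agent.S4641
open Cfsg MonoidAlgebra CA.BlkAlg CA.BlkVal CA.BlkOmega CA.BlkRed CA.BlkCore CA.BlkDefect CA.BlkInd CA.BlkHeight CA.SylIn CA.H12PPart CChar.CharFun CChar.CharOrth Subgroup CA.BlkKer CChar.CharKer CA.BlkZero CChar.CharInt CA.BlkReg CA.BlkGal CA.BlkQuo CA.BlkBas CA.BlkIdem CA.BlkIBr CChar.CharGen CA.BlkCov CA.H12Cover CA.Clif CA.BlkInt CA.BlkPr

/-- Let B be a block of the finite group G relative to a maximal ideal M of the algebraic integers containing the prime p, let p^a be the p-part of the order of G and p^d the order of a defect group D of B, and let g be the greatest common divisor of the degrees of the members of B. Then the p-part of g is exactly p^(a−d), and writing g = p^(a−d)·u there is a positive integer v, prime to p and at least the p-regular rank of B (its number of irreducible Brauer characters), with Σ_{χ ∈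 B} χ(1)² = p^(2a−d)·u²·v. -/
theorem result {G : Type*} [Group G] [Finite G] (p : ℕ) [Fact p.Prime] (M : Ideal Cfsg.AlgInt) (hM : Cfsg.IsPModular p M) (B : Set (Cfsg.IrrCharacter G)) (hB : Cfsg.IsPBlock M B) (D : Subgroup G) (hD : Cfsg.IsDefectGroup p M B D) (a d : ℕ) (ha : (Nat.card G).factorization p = a) (hd : Nat.card D = p ^ d) (g : ℕ) (hg1 : ∀ χ ∈ B, g ∣ Cfsg.charDegree (χ : G → ℂ)) (hg2 : ∀ g' : ℕ, (∀ χ ∈ B, g' ∣ Cfsg.charDegree (χ : G → ℂ)) → g' ∣ g) : g.factorization p = a - d ∧ ∃ v : ℕ, 0 < v ∧ ¬ p ∣ v ∧ Cfsg.blockRank p B ≤ v ∧ ∑ᶠ χ ∈ B, Cfsg.charDegree (χ : G → ℂ) ^ 2 = p ^ (2 * a - d) * (g / p ^ (a - d)) ^ 2 * v := by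
  classical
  have hp : p.Prime := Fact.out
  have := Fintype.ofFinite G
  have hA := isSat_of_isPBlock hM hB
  have hne := block_nonempty hM hB
  have hdd : d = blockDefect p B :=
    Nat.pow_right_injective hp.two_le (hd.symm.trans (card_defectGroup hM hB hD))
  have e1 := blockDefect_add_minNu (p := p) hne
  obtain ⟨χ₀, hχ₀, hmin⟩ := exists_minNu_eq (p := p) hne
  have hg0 : g ≠ 0 := fun h => (charDegree_pos χ₀.2).ne' (zero_dvd_iff.1 (h ▸ hg1 χ₀ hχ₀))
  have hg : g.factorization p = a - d := by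
    have h1 := (Nat.factorization_le_iff_dvd hg0 (charDegree_pos χ₀.2).ne').2 (hg1 χ₀ hχ₀) p
    have h2 := (hp.pow_dvd_iff_le_factorization hg0).1 (hg2 (p ^ minNu p B) fun χ hχ =>
      (hp.pow_dvd_iff_le_factorization (charDegree_pos χ.2).ne').2 (minNu_le hχ))
    omega
  refine ⟨hg, ?_⟩
  obtain ⟨u, hu⟩ : p ^ (a - d) ∣ g := (hp.pow_dvd_iff_le_factorization hg0).2 hg.ge
  have hu' : g / p ^ (a - d) = u := by rw [hu, Nat.mul_div_cancel_left _ (pow_pos hp.pos _)]
  have hpu : ¬ p ∣ u := fun h => by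
    have := (hp.pow_dvd_iff_le_factorization hg0).1
      (show p ^ (a - d + 1) ∣ g by rw [hu, pow_succ]; exact mul_dvd_mul_left _ h)
    omega
  let S := ibr hM hA
  have hφ : ∀ i : IBrIn M B, ∃ x : ℕ, 0 < x ∧ S.φ i 1 = (g * x : ℕ) := fun i => by
    obtain ⟨n, hn, e⟩ := exists_nat_phi_one hM i.1
    have h1 : (n : ℤ) = ∑ χ, S.a i χ * charDegree χ.1 := by
      have := S.φ_apply i (g := 1) (by simpa using hp.one_lt.ne')
      rw [ibr_φ, e] at this
      simp only [irr_apply_one_eq (Subtype.prop _)] at this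
      exact_mod_cast this
    obtain ⟨x, rfl⟩ : g ∣ n := by
      rw [← Int.natCast_dvd_natCast, h1]
      refine Finset.dvd_sum fun χ _ => ?_
      by_cases hχ : χ ∈ B
      · exact (Int.natCast_dvd_natCast.2 (hg1 χ hχ)).mul_left _
      · simp [S.a_zero i χ hχ]
    exact ⟨x, Nat.pos_of_mul_pos_left hn, e⟩
  have hΦ : ∀ i : IBrIn M B, ∃ w : ℕ, 0 < w ∧ S.Φ i 1 = (p ^ a * u * w : ℕ) := fun i => by
    obtain ⟨n, hn, e⟩ := exists_nat_Phi_one i.1
    rw [← ibr_Φ hM hA] at e
    have h1 : (n : ℤ) = ∑ χ, S.d χ i * charDegree χ.1 := by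
      have := S.Φ_apply i 1
      rw [e] at this
      simp only [irr_apply_one_eq (Subtype.prop _)] at this
      exact_mod_cast this
    have h2 : u ∣ n := by
      rw [← Int.natCast_dvd_natCast, h1]
      refine Finset.dvd_sum fun χ _ => ?_
      by_cases hχ : χ ∈ B
      · exact (Int.natCast_dvd_natCast.2 ((Dvd.intro_left _ hu.symm).trans (hg1 χ hχ))).mul_left _
      · simp [S.d_zero χ hχ i]
    have h3 := S.v_Φ_le hM hA i 1
    rw [e, card_centralizer_one, v_natCast_le_iff hM hn.ne' Nat.card_pos.ne', ha,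
      ← hp.pow_dvd_iff_le_factorization hn.ne'] at h3
    obtain ⟨w, rfl⟩ := ((hp.coprime_iff_not_dvd.2 hpu).pow_left a).mul_dvd_of_dvd_of_dvd h3 h2
    exact ⟨w, Nat.pos_of_mul_pos_left hn, e⟩
  choose x hx hx' using hφ
  choose w hw hw' using hΦ
  have h1 := S.sum_mul_conj (g := 1) (by simpa using hp.one_lt.ne') 1
  simp only [hx', hw', irr_apply_one_eq (Subtype.prop _), map_natCast] at h1
  have h2 : ∑ χ with χ ∈ B, charDegree χ.1 ^ 2 = p ^ (2 * a - d) * u ^ 2 * ∑ i, x i * w i := by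
    have h3 : ∑ χ with χ ∈ B, charDegree χ.1 * charDegree χ.1 =
        ∑ i, g * x i * (p ^ a * u * w i) := by exact_mod_cast h1
    simp only [sq, h3, Finset.mul_sum, hu]
    refine Finset.sum_congr rfl fun i _ => ?_
    rw [show 2 * a - d = a - d + a by omega, pow_add]
    ring
  have h4 : blockRank p B ≤ ∑ i, x i * w i := by
    rw [← card_IBrIn hM hA, Fintype.card, Finset.card_eq_sum_ones]
    exact Finset.sum_le_sum fun i _ => Nat.mul_pos (hx i) (hw i)
  refine ⟨∑ i, x i * w i, (blockRank_pos hM hB).trans_le h4, fun hv => ?_, h4, ?_⟩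
  · have h5 := CA.H11Contrib.factorization_sum_degree_sq (p := p) hM hB
    have hv0 : ∑ i, x i * w i ≠ 0 := ((blockRank_pos hM hB).trans_le h4).ne'
    have hu0 : u ≠ 0 := fun h => hpu (h ▸ dvd_zero p)
    rw [h2, Nat.factorization_mul (mul_ne_zero (pow_ne_zero _ hp.ne_zero) (pow_ne_zero _ hu0)) hv0,
      Nat.factorization_mul (pow_ne_zero _ hp.ne_zero) (pow_ne_zero _ hu0)] at h5
    simp only [Finsupp.add_apply, Nat.factorization_pow, Finsupp.smul_apply, hp.factorization_self,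
      smul_eq_mul, mul_one] at h5
    have := (hp.dvd_iff_one_le_factorization hv0).1 hv
    omega
  · rw [CA.H12Orth.finsum_mem_irr, h2, hu']

end Cfsg.Agent.S4641
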