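import Cfsg.Statements.S4642
import Cfsg.Agent.Lib.Block.H12Cons

set_option autoImplicit false
open Cfsg

namespace Cfsg.Agent.S4642

open CA.BlkAlg CA.BlkVal CA.BlkCore CA.BlkDefect CA.SylIn CA.BlkInd CA.BlkHeight CA.BlkFirst
  CA.H11Amb CA.H11Def CA.H11Pair CA.H11Brg CA.H12Cover CA.H12Fong CA.H12FR CA.H12Brg CA.H12Cons
  CA.H12PSolv Subgroup

/-- Let G be a finite group, p a prime, M a maximal ideal of the algebraic integers containing p, K the largest normal subgroup of G of order prime to p, and L the preimage in G of the largest normal p-subgroup of G/K. Let Q be a Sylow p-subgroup of L and suppose C_G(Q) ≤ L. Let θ be an irreducible character of K invariant under conjugation by every element of G, and let B be the set of irreducible characters of G whose restriction to K contains θ. Then B is a block of G, every Sylow p-subgroup of G is a defect group of B, and B is of principal type: for every p-subgroup R of G exactly one block of C_G(R) induces B. -/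
theorem result {G : Type*} [Group G] [Fintype G] (p : ℕ) [Fact p.Prime] (M : Ideal Cfsg.AlgInt) (hM : Cfsg.IsPModular p M) (K : Subgroup G) (hK : K = Cfsg.pPrimeCore p G) [Fintype K] (L : Subgroup G) (hL : L = Cfsg.pPrimePCore p G) (Q : Subgroup G) (hQL : Q ≤ L) (hQp : IsPGroup p Q) (hQS : ¬ p ∣ Q.relIndex L) (hCQ : Subgroup.centralizer (Q : Set G) ≤ L) (θ : Cfsg.IrrCharacter K) (hθ : ∀ g : G, Cfsg.IsConjCharOf K g (θ : K → ℂ) (θ : K → ℂ)) (B : Set (Cfsg.IrrCharacter G)) (hBdef : ∀ χ : Cfsg.IrrCharacter G, χ ∈ B ↔ Cfsg.classInner (fun k : K => (χ : G → ℂ) k) (θ : K → ℂ) ≠ 0) : Cfsg.IsPBlock M B ∧ (∀ S : Sylow p G, Cfsg.IsDefectGroup p M B S) ∧ ∀ R : Subgroup G, IsPGroup p R → ∃! f : Set (Cfsg.IrrCharacter (Subgroup.centralizer (R : Set G))), Cfsg.IsInducedBlock M (Subgroup.centralizer (R : Set G)) f B := by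
  subst hK hL
  have hp := p_eq_zero hM
  have hK := CA.Fitting.not_dvd_card_pPrimeCore (p := p) (G := G)
  have hb := isPBlock_singleton hM hK θ
  have he := blk_ab hM hb
  have hNN := NN_top_of_normal (pPrimeCore p G)
  have hQ : IsSylowIn p Q (pPrimePCore p G) := ⟨hQL, hQp, hQS⟩
  have hfix : ab M _ {θ} ∈ Fixed (k M) ⊤ := fun g hg =>
    (stab_singleton_iff hM hK θ (hNN hg)).2 (hθ g)
  have hE := blk_constrained hM pPrimeCore_le_pPrimePCore le_top hNN (NN_top_of_normal _) hK
    relIndex_pPrimePCore hQ (fun x _ hx _ => hCQ hx) he hfix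
  obtain ⟨B', hB, h⟩ := exists_eB hM hE
  obtain rfl : B = B' := by
    ext χ; rw [hBdef, mem_iff_of_eq hM hb hB h χ]; simp
  refine ⟨hB, fun P => ?_, fun R hR => ?_⟩
  · rw [isDefectGroup_iff_top hM hB, h]
    exact isDef_of_isSylowIn hp le_top hNN hK he hE (isSylowIn_top P)
  · have h1 := blk_br_constrained hM pPrimeCore_le_pPrimePCore hK relIndex_pPrimePCore hQ hCQ hR
      he hfix
    obtain ⟨f, hf, h2⟩ := exists_ab hM h1
    refine ⟨f, (isInducedBlock_CC_iff hM hR hf hB).2 (by rw [h, h2, h1.idem]), fun f' hf' => ?_⟩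
    have h3 := (isInducedBlock_CC_iff hM hR hf'.1 hB).1 hf'
    rw [h, ← h2] at h3
    exact (ab_inj hM hf hf'.1 ((blk_ab hM hf'.1).eq_of_mul_ne_zero (blk_ab hM hf)
      (h3.trans_ne (blk_ab hM hf'.1).ne))).symm

end Cfsg.Agent.S4642
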