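import Cfsg.Statements.S4644
import Cfsg.Agent.Lib.Block.H11Wat

set_option autoImplicit false
open Cfsg

namespace Cfsg.Agent.S4644

open CA.H11Wat CA.H11Tr CA.H11Map CA.H11Brg CA.H11Fus CA.H11Max CA.H11Amb CA.H11Pair CA.BlkCore CA.H11Star Subgroup

/-- Let B be a block of the finite group G relative to a maximal ideal M of the algebraic integers containing the prime p, with a commutative defect group P; let c be a block of C_G(P) inducing B and T the stabilizer of c in N_G(P). Let u be an element of P fixed under conjugation by every element of T, H = C_G(u) (so C_G(P) ≤ H), and f the block of H induced by c inside H. Then B and f have the same p-regular rank and the same number of irreducible characters. -/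
theorem result {G : Type*} [Group G] [Finite G] (p : ℕ) [Fact p.Prime] (M : Ideal Cfsg.AlgInt) (hM : Cfsg.IsPModular p M) (B : Set (Cfsg.IrrCharacter G)) (hB : Cfsg.IsPBlock M B) (P : Subgroup G) (hPD : Cfsg.IsDefectGroup p M B P) (hPab : ∀ x ∈ P, ∀ y ∈ P, x * y = y * x) (c : Set (Cfsg.IrrCharacter (Subgroup.centralizer (P : Set G)))) (hc : Cfsg.IsInducedBlock M (Subgroup.centralizer (P : Set G)) c B) (T : Subgroup G) (hT : ∀ g : G, g ∈ T ↔ (g ∈ Subgroup.normalizer (P : Set G) ∧ Cfsg.StabilizesBlock (Subgroup.centralizer (P : Set G)) c g)) (u : G) (hu : u ∈ P) (huT : ∀ g ∈ T, g * u * g⁻¹ = u) (H : Subgroup G) (hH : H = Subgroup.centralizer ({u} : Set G)) (f : Set (Cfsg.IrrCharacter H)) (hf : Cfsg.IsInducedBlockIn M H (Subgroup.centralizer (P : Set G)) c f) : Cfsg.blockRank p B = Cfsg.blockRank p f ∧ Nat.card B = Nat.card f := by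
  haveI := Fintype.ofFinite G
  have hp := p_eq hM
  have h := mx_of_ind hM hPD hc
  have hP : P ≤ CC P := fun x hx => mem_CC.2 fun y hy => hPab y hy x hx
  have hu' := zpowers_le.2 hu
  obtain rfl := eq_St hM hc.1 hT
  obtain rfl := hH.trans (CC_zpowers u).symm
  have h1 := wat hM h hP hu bot_le fun t ht => by
    rw [CC_zpowers]
    exact mem_centralizer_singleton_iff.2 (mul_inv_eq_iff_eq_mul.1 (huT t ht.1))
  rw [bot_sup_eq] at h1
  obtain ⟨h2, h3⟩ := lq_spec hM h.pr bot_le
  obtain ⟨h4, h5⟩ := lq_spec hM h.pr hu'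
  have h6 := h.of_sub hp h3
  have h7 := (congrArg (Blk · _) CC_bot).mp (blk_ab hM h2)
  rw [br_bot] at h6
  have h8 := rank_congr_top hM (φ := MonoidHom.id G) Function.injective_id (by ext; simp [CC_bot]) hB h2
    ((h7.eq_of_mul_ne_zero h.blk (h6.trans_ne h7.ne)).symm.trans (by simp [mp]))
  have h9 := hP.trans (CC_anti hu')
  obtain rfl := ab_inj hM hf.2.1 h4 (Sub.unique hp h.pr (nsub_of_ne hp (pr_of hM
    ⟨h.pr.pg.to_le hu', hf.2.1⟩) h.pr hu' (h9.trans (CC_le_NN _)) (CA.BlkAlg.fixed_anti h9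
    (blk_ab hM hf.2.1).fixed) (((isInducedBlockIn_CC_iff hM h.pr.pg h9 (CC_anti hu') hc.1 hf.2.1).1
    hf).trans_ne h.pr.blk.ne)).sub h5)
  exact ⟨h8.1.symm.trans h1.1.symm, h8.2.symm.trans h1.2.symm⟩

end Cfsg.Agent.S4644
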