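import Cfsg.Statements.S4645
import Cfsg.Agent.Lib.Block.H11NilB
import Cfsg.Agent.Lib.Block.H11Cyc

set_option autoImplicit false
open Cfsg

namespace Cfsg.Agent.S4645

open CA.H11NilB CA.H11Brg CA.H11Pair CA.H11Def CA.H11Amb CA.H11Max CA.H11Fus CA.BlkCore CA.SylIn CA.H11Cyc Subgroup

/-- Let B be a block of the finite group G relative to a maximal ideal M of the algebraic integers containing the prime p, with a nontrivial cyclic defect group P; let c be a block of C_G(P) inducing B and T the stabilizer of c in N_G(P). Let Q be a nontrivial subgroup of P (so C_G(P) ≤ C_G(Q)), f the block of C_G(Q) induced by c inside C_G(Q), and T' the stabilizer of f in N_G(Q). Then T' = T·C_G(Q), the index of C_G(Q) in T' equals the index of C_G(P) in T, f has p-regular rank 1, and f is a nilpotent block of C_G(Q). -/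
theorem result {G : Type*} [Group G] [Finite G] (p : ℕ) [Fact p.Prime] (M : Ideal Cfsg.AlgInt) (hM : Cfsg.IsPModular p M) (B : Set (Cfsg.IrrCharacter G)) (hB : Cfsg.IsPBlock M B) (P : Subgroup G) (hPD : Cfsg.IsDefectGroup p M B P) (hP1 : P ≠ ⊥) (hcyc : IsCyclic P) (c : Set (Cfsg.IrrCharacter (Subgroup.centralizer (P : Set G)))) (hc : Cfsg.IsInducedBlock M (Subgroup.centralizer (P : Set G)) c B) (T : Subgroup G) (hT : ∀ g : G, g ∈ T ↔ (g ∈ Subgroup.normalizer (P : Set G) ∧ Cfsg.StabilizesBlock (Subgroup.centralizer (P : Set G)) c g)) (Q : Subgroup G) (hQP : Q ≤ P) (hQ1 : Q ≠ ⊥) (f : Set (Cfsg.IrrCharacter (Subgroup.centralizer (Q : Set G)))) (hf : Cfsg.IsInducedBlockIn M (Subgroup.centralizer (Q : Set G)) (Subgroup.centralizer (P : Set G)) c f) (T' : Subgroup G) (hT' : ∀ g : G, g ∈ T' ↔ (g ∈ Subgroup.normalizer (Q : Set G) ∧ Cfsg.StabilizesBlock (Subgroup.centralizer (Q : Set G)) f g)) : T' = T ⊔ Subgroup.centralizer (Q : Set G) ∧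 (Subgroup.centralizer (Q : Set G)).relIndex T' = (Subgroup.centralizer (P : Set G)).relIndex T ∧ Cfsg.blockRank p f = 1 ∧ Cfsg.IsNilpotentBlock p M f := by
    have hp := CA.BlkDefect.p_eq_zero hM
    haveI := Fintype.ofFinite G
    have hm := mx_of_ind hM hPD hc
    obtain rfl := eq_St hM hc.1 hT
    obtain rfl := eq_St hM hf.2.1 hT'
    have hPC : P ≤ CC Q := (le_CC_of_isCyclic hcyc).trans (CC_anti hQP)
    have h1 := (isInducedBlockIn_CC_iff hM hm.pr.pg hPC (CC_anti hQP) hf.1 hf.2.1).1 hf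
    have hb := blk_ab hM hf.2.1
    have hq : Pr p ⊤ Q (ab M (CC Q) f) := ⟨le_top, hm.pr.pg.to_le hQP, by rwa [top_inf_eq]⟩
    have hs : NSub p ⊤ Q (ab M (CC Q) f) P (ab M (CC P) c) :=
      ⟨hq, hm.pr, hQP, hPC.trans (CC_le_NN Q),
        mem_fixed_iff_le.2 (hPC.trans (mem_fixed_iff_le.1 hb.fixed)), h1⟩
    have hN : St ⊤ P (ab M (CC P) c) ≤ NN Q := St_le_NN.trans (NN_le_NN hcyc hQP)
    have h2 := hm.St_eq hp hs.sub hPC
    rw [inf_eq_left.2 hN, top_inf_eq] at h2
    have h3 : ¬ p ∣ (CC P).relIndex (St ⊤ P (ab M (CC P) c)) := by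
      have := hm.not_dvd hp
      rwa [top_inf_eq, sup_eq_right.2 (le_CC_of_isCyclic hcyc)] at this
    have h4 : St ⊤ P (ab M (CC P) c) ⊓ CC Q ≤ CC P := fun g hg => by
      obtain ⟨⟨x, hx⟩, hx1⟩ := ne_bot_iff_exists_ne_one.1 hQ1
      refine mem_CC_of_fix hm.pr.pg hcyc St_le_NN h3 hg.1 (hQP hx) (fun h => hx1 (Subtype.ext h)) ?_
      rw [← mem_CC.1 hg.2 x hx]; group
    have hn : Nil p (CC Q) (ab M (CC Q) f) :=
      ((hm.local hp (L := CC Q) hs.sub (hQP.trans hPC) inf_le_right (by simpa using hq.C_le_St)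
        hPC).nil_iff_of_comm hp (le_CC_of_isCyclic hcyc)).2 fun g hg => h4
          ⟨mem_St.2 ⟨mem_top g, (mem_St.1 hg).2⟩, (mem_St.1 hg).1⟩
    refine ⟨h2, ?_, rank_eq_one_of_nil_ab hM hf.2.1 hn, (isNilpotentBlock_iff_ab hM).2 ⟨hf.2.1, hn⟩⟩
    rw [h2, relIndex_sup_of_norm (hN.trans (normalizer_le_normalizer_centralizer Q)),
      ← inf_relIndex_left, ← inf_relIndex_left _ (CC P)]
    exact congrArg (relIndex · _) (le_antisymm (le_inf inf_le_left h4) (inf_le_inf_left _ (CC_anti hQP)))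

end Cfsg.Agent.S4645
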