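import Cfsg.Statements.S4647
import Cfsg.Agent.Lib.Block.BlkDim
import Cfsg.Agent.Lib.Block.H11Fus
import Cfsg.Agent.Lib.Block.BlkPi

set_option autoImplicit false
open Cfsg

namespace Cfsg.Agent.S4647
open Cfsg MonoidAlgebra CA.BlkAlg CA.BlkVal CA.BlkOmega CA.BlkRed CA.BlkCore CA.BlkDefect CA.BlkInd CA.BlkHeight CA.SylIn CA.H12PPart CChar.CharFun CChar.CharOrth Subgroup CA.BlkKer CChar.CharKer CA.H11Amb CA.H11Def CA.H11Pair CA.H11Max CA.H11Brg CA.BlkFirst CA.BlkPi CA.BlkDim CA.H11Fus MulAction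

/-- The two-sided action. -/
@[reducible] def act {G : Type*} [Group G] (S : Subgroup G) : MulAction (S × S) G where
  smul u x := u.1 * x * (u.2 : G)⁻¹
  one_smul x := by change (1 : G) * x * (1 : G)⁻¹ = x; simp
  mul_smul u w x := by
    change (u.1 * w.1 : G) * x * (u.2 * w.2 : G)⁻¹ = u.1 * (w.1 * x * (w.2 : G)⁻¹) * (u.2 : G)⁻¹
    group

/-- Let B be a block of the finite group G relative to a maximal ideal M of the algebraic integers containing the prime p, p^a the p-part of the order of G and p^d the order of a defect group D of B. If Σ_{χ ∈ B} χ(1)² = p^(2a−d) (the least possible value), then B is nilpotent. -/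
theorem result {G : Type*} [Group G] [Finite G] (p : ℕ) [Fact p.Prime] (M : Ideal Cfsg.AlgInt) (hM : Cfsg.IsPModular p M) (B : Set (Cfsg.IrrCharacter G)) (hB : Cfsg.IsPBlock M B) (D : Subgroup G) (hD : Cfsg.IsDefectGroup p M B D) (a d : ℕ) (ha : (Nat.card G).factorization p = a) (hd : Nat.card D = p ^ d) (hmin : ∑ᶠ χ ∈ B, Cfsg.charDegree (χ : G → ℂ) ^ 2 = p ^ (2 * a - d)) : Cfsg.IsNilpotentBlock p M B := by
  classical
  haveI := Fintype.ofFinite G
  haveI := charP_k hM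
  have hD' := (isDefectGroup_iff_top hM hB).mp hD
  obtain ⟨S, hS⟩ := hD'.pg.exists_le_sylow
  letI := act (S : Subgroup G)
  have hsm : ∀ (u : S × S) (x : G), u • x = u.1 * x * (u.2 : G)⁻¹ := fun _ _ => rfl
  have hΓ : IsPGroup p (S × S) := IsPGroup.of_card (n := 2 * a) (by
    rw [Nat.card_prod, S.card_eq_multiplicity, ha]; ring)
  set e := eB M B
  let E := LinearMap.toMatrix (MonoidAlgebra.basis G (k M)) (MonoidAlgebra.basis G (k M))
    (LinearMap.mulLeft (k M) e)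
  have hE : ∀ x y, E x y = e.coeff (x * y⁻¹) := fun x y => by
    refine (LinearMap.toMatrix_apply _ _ _ _ _).trans ?_
    change (e * single y 1).coeff x = _
    rw [coeff_mul_single_apply, mul_one]
  have hr : E.rank = p ^ (2 * a - d) := by
    rw [Matrix.rank_eq_finrank_range_toLin E (MonoidAlgebra.basis G (k M))
      (MonoidAlgebra.basis G (k M)), Matrix.toLin_toMatrix, finrank_eB (isSat_of_isPBlock hM hB),
      ← hmin, finsum_mem_eq_finite_toFinset_sum _ (Set.toFinite B)]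
    congr 1; ext; simp
  obtain ⟨x, y, h1, h2, -, h3⟩ := exists_orbit hΓ (E := E) (fun u x y => by
      rw [hE, hE, hsm, hsm, ← mem_Z_iff_coeff.mp (eB_mem_Z B) u.1 (x * y⁻¹)]; congr 1; group)
    (by rw [← LinearMap.toMatrix_comp, ← LinearMap.mulLeft_mul, eB_mul_self hM hB])
    (fun h => eB_ne_zero hM hB (ext_coeff fun g => by
      rw [← mul_one g, ← inv_one, ← hE, h]; rfl))
  let φ : S × S →* G := (S : Subgroup G).subtype.comp (MonoidHom.fst _ _)
  let ψ : S × S →* G := (S : Subgroup G).subtype.comp (MonoidHom.snd _ _)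
  have h4 : Nat.card (stabilizer (S × S) y) ≤ Nat.card D := by
    refine le_trans (Nat.card_le_card_of_injective
      (fun u : stabilizer (S × S) y => (⟨φ u, mem_map_of_mem _ u.2⟩ : (stabilizer (S × S) y).map φ))
      fun u w h => ?_) (hD'.card_le le_top ((hΓ.to_subgroup _).map φ)
        (br_ne_zero_iff.mpr ⟨x * y⁻¹, mem_CC.mpr ?_, hE x y ▸ h1⟩))
    · have e1 : (u.1.1 : G) = w.1.1 := (congrArg Subtype.val h :)
      have e2 := (u.2.trans w.2.symm : u.1 • y = w.1 • y)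
      rw [hsm, hsm, e1, mul_right_inj, inv_inj] at e2
      exact Subtype.ext (Prod.ext (Subtype.ext e1) (Subtype.ext e2))
    · rintro _ ⟨u, hu, rfl⟩
      have e1 : (u.1 : G) * y * (u.2 : G)⁻¹ = y := hu
      have e2 : (u.1 : G) * x * (u.2 : G)⁻¹ = x := h2 hu
      change (u.1 : G) * _ = _ * u.1
      conv_rhs => rw [← e1, ← e2]
      group
  have h5 : E.rank ≤ (stabilizer (S × S) y).index := by
    have e1 := (stabilizer (S × S) y).index_mul_card
    rw [Nat.card_prod, S.card_eq_multiplicity, ha, ← pow_add] at e1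
    have e2 := card_le_of_le hS
    rw [S.card_eq_multiplicity, ha, hd, Nat.pow_le_pow_iff_right hM.1.one_lt] at e2
    refine Nat.le_of_mul_le_mul_right ?_ (pow_pos hM.1.pos d)
    rw [hr, ← pow_add, show 2 * a - d + d = a + a by omega, ← e1, ← hd]
    exact Nat.mul_le_mul_left _ h4
  have key : ∀ (Q : Subgroup G), ∀ n ∈ NN Q, br Q e ≠ 0 →
      ∃ g : S × S, stabilizer (S × S) n ⊓ Q.comap ψ ≤ stabilizer (S × S) (g • y) := fun Q n hn h => by
    obtain ⟨z, hz, hz'⟩ := br_ne_zero_iff.mp h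
    refine h3 h5 _ (z * n) n (fun u hu => ?_) (fun u hu => hu.1) (by rwa [hE, mul_inv_cancel_right])
    have e1 : (u.1 : G) * n * (u.2 : G)⁻¹ = n := hu.1
    have e2 : (u.1 : G) ∈ Q := by
      rw [show (u.1 : G) = n * u.2 * n⁻¹ by rw [eq_mul_inv_iff_mul_eq, ← mul_inv_eq_iff_eq_mul, e1]]
      exact (mem_normalizer_iff.mp hn _).mp hu.2
    rw [hsm, ← mul_assoc, mem_CC.mp hz _ e2, mul_assoc z, mul_assoc z, e1]
  obtain ⟨g, hg⟩ := key D 1 (one_mem _) hD'.ne
  have h6 := eq_of_le_of_card_ge hg (by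
    rw [stabilizer_smul_eq_stabilizer_map_conj, card_map_of_injective (MulAut.conj g).injective]
    exact h4.trans (Nat.card_le_card_of_injective (fun u : D => (⟨(⟨u, hS u.2⟩, ⟨u, hS u.2⟩),
      by simp [hsm], u.2⟩ : (stabilizer (S × S) (1 : G) ⊓ D.comap ψ : Subgroup _)))
      fun u w h => Subtype.ext (congrArg (fun z => (z.1.1 : G)) h)))
  refine (isNilpotentBlock_iff hM).mpr ⟨hB, fun Q f hf h7 n hn hn' => ?_⟩
  obtain ⟨c, hc⟩ := exists_conj_le_sylow S hf.pg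
  have h8 : c * n * c⁻¹ ∈ NN (c •ᶜ Q) := by rw [← conj_NN]; exact conj_mem_conj.mpr (St_le_NN hn)
  obtain ⟨g', hg'⟩ := key (c •ᶜ Q) _ h8 (by
    have := br_conj_ne_zero (fun h0 => hf.blk.ne (by rw [← h7, h0, zero_mul])) c
    rwa [mem_Z_iff_cjA.mp (eB_mem_Z B)] at this)
  obtain ⟨w, hw⟩ : ∃ w : S, (w : G)⁻¹ * (c * n * c⁻¹) ∈ CC (c •ᶜ Q) := by
    refine ⟨(g * g'⁻¹).1⁻¹ * (g * g'⁻¹).2, mem_CC.mpr fun t ht => ?_⟩
    have e1 := hg' (x := (⟨_, hc ((mem_normalizer_iff.mp h8 t).mp ht)⟩, ⟨t, hc ht⟩))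
      ⟨by simp [hsm, mul_assoc], ht⟩
    have e2 : g • y = (g * g'⁻¹) • g' • y := by rw [smul_smul, inv_mul_cancel_right]
    have e3 := mem_map_of_mem (MulAut.conj (g * g'⁻¹)).toMonoidHom e1
    rw [← stabilizer_smul_eq_stabilizer_map_conj, ← e2, ← h6] at e3
    have e4 := e3.1
    generalize g * g'⁻¹ = h at e4 ⊢
    have e5 : (h.1 : G) * (c * n * c⁻¹ * t * (c * n * c⁻¹)⁻¹) * (h.1 : G)⁻¹ * 1 *
      ((h.2 : G) * t * (h.2 : G)⁻¹)⁻¹ = 1 := e4
    rw [mul_one, mul_inv_eq_one] at e5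
    push_cast
    calc t * (((h.1 : G)⁻¹ * h.2)⁻¹ * (c * n * c⁻¹))
        = (h.2 : G)⁻¹ * ((h.2 : G) * t * (h.2 : G)⁻¹) * h.1 * (c * n * c⁻¹) := by group
      _ = _ := by rw [← e5]; group
  obtain ⟨m, hm⟩ := S.2 w⁻¹
  have h9 := mul_pow_mul_inv_mem (inv_mem hw) (y := (w : G)⁻¹) (normalizer_le_normalizer_centralizer _
    (by have := mul_mem (CC_le_NN _ hw) (inv_mem h8); rwa [mul_inv_cancel_right] at this)) (p ^ m)
  have h10 : ((w : G)⁻¹) ^ p ^ m = 1 := congrArg Subtype.val hm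
  rw [h10, inv_one, mul_one, show ((w : G)⁻¹ * (c * n * c⁻¹))⁻¹ * (w : G)⁻¹ = c * n⁻¹ * c⁻¹ by group,
    conj_pow, ← conj_CC, conj_mem_conj] at h9
  exact inv_mem_iff.mp (mem_of_pow_p_pow_mem hM.1 (by rwa [orderOf_inv]) h9)

end Cfsg.Agent.S4647
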