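import Cfsg.Statements.S4649
import Cfsg.Agent.Lib.Block.H11Uni

set_option autoImplicit false
open Cfsg

namespace Cfsg.Agent.S4649

open CA.H11Uni CA.H11Fb CA.H11Exc CA.H11Orb CA.H11Brg CA.H11Fus CA.H11Max CA.H11Amb CA.H11Pair CA.BlkCore CA.H11Star CA.H11NilB Subgroup

/-- A block with cyclic defect group, of a finite group relative to a maximal ideal M of the algebraic integers containing the prime p, is nilpotent if and only if its p-regular rank is 1 (it has a unique irreducible Brauer character). -/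
theorem result {G : Type*} [Group G] [Finite G] (p : ℕ) [Fact p.Prime] (M : Ideal Cfsg.AlgInt) (hM : Cfsg.IsPModular p M) (B : Set (Cfsg.IrrCharacter G)) (hB : Cfsg.IsPBlock M B) (P : Subgroup G) (hPD : Cfsg.IsDefectGroup p M B P) (hcyc : IsCyclic P) : Cfsg.IsNilpotentBlock p M B ↔ Cfsg.blockRank p B = 1 := by
  haveI := Fintype.ofFinite G
  haveI := Fintype.ofFinite P
  obtain ⟨e, h⟩ := exists_mx (p_eq hM) (blk_eB hM hB) ((isDefectGroup_iff_top hM hB).1 hPD)
  have F := fb_of_cyclic hM hB h hcyc (MulEquiv.refl P)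
  rw [isNilpotentBlock_iff hM, and_iff_right hB]
  refine ⟨rank_eq_one_of_nil hM hB, fun h1 => F.nil_iff.2 ?_⟩
  rcases subsingleton_or_nontrivial P with _ | _
  · exact Nat.card_eq_one_iff_unique.2 ⟨⟨fun a b => Subtype.ext (MulEquiv.ext fun _ =>
      Subsingleton.elim _ _)⟩, inferInstance⟩
  · rw [← (exists_std F hcyc).1, h1]

end Cfsg.Agent.S4649
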