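import Cfsg.Statements.S4650
import Cfsg.Agent.Lib.Block.H11Cyc

set_option autoImplicit false
open Cfsg

namespace Cfsg.Agent.S4650

open CA.H11Brg CA.H11Pair CA.H11Def CA.H11Amb CA.H11Max CA.H11Fus CA.BlkCore CA.SylIn CA.H11Cyc Subgroup

/-- Let B be a block of the finite group G relative to a maximal ideal M of the algebraic integers containing the prime p, with a nontrivial commutative defect group P; let c be a block of C_G(P) inducing B and T the stabilizer of c in N_G(P). Then T/C_G(P) acts freely on the non-identity elements of P (an element of T fixing a non-identity element of P under conjugation lies in C_G(P)) if and only if, for every nontrivial subgroup Q of P, the block of C_G(Q) induced by c inside C_G(Q) is a nilpotent block of C_G(Q). -/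
theorem result {G : Type*} [Group G] [Finite G] (p : ℕ) [Fact p.Prime] (M : Ideal Cfsg.AlgInt) (hM : Cfsg.IsPModular p M) (B : Set (Cfsg.IrrCharacter G)) (hB : Cfsg.IsPBlock M B) (P : Subgroup G) (hPD : Cfsg.IsDefectGroup p M B P) (hPab : ∀ x ∈ P, ∀ y ∈ P, x * y = y * x) (hP1 : P ≠ ⊥) (c : Set (Cfsg.IrrCharacter (Subgroup.centralizer (P : Set G)))) (hc : Cfsg.IsInducedBlock M (Subgroup.centralizer (P : Set G)) c B) (T : Subgroup G) (hT : ∀ g : G, g ∈ T ↔ (g ∈ Subgroup.normalizer (P : Set G) ∧ Cfsg.StabilizesBlock (Subgroup.centralizer (P : Set G)) c g)) : (∀ g ∈ T, ∀ x ∈ P, x ≠ 1 → g * x * g⁻¹ = x → g ∈ Subgroup.centralizer (P : Set G)) ↔ ∀ Q : Subgroup G, Q ≤ P → Q ≠ ⊥ → ∀ f : Set (Cfsg.IrrCharacter (Subgroup.centralizer (Q : Set G))), Cfsg.IsInducedBlockIn M (Subgroup.centralizer (Q : Set G)) (Subgroup.centralizer (P : Set G)) c f → Cfsg.IsNilpotentBlock p M f := by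
  have hp := CA.BlkDefect.p_eq_zero hM
  have hm := mx_of_ind hM hPD hc
  have hT' := eq_St hM hc.1 hT
  have hPC : ∀ Q ≤ P, P ≤ CC Q := fun Q hQ x hx => mem_CC.2 fun u hu => hPab u (hQ hu) x hx
  have key : ∀ Q ≤ P, ∀ f : Set (IrrCharacter (CC Q)), IsInducedBlockIn M (CC Q) (CC P) c f →
      (IsNilpotentBlock p M f ↔ T ⊓ CC Q ≤ CC P) := by
    intro Q hQ f hf
    have h1 := (isInducedBlockIn_CC_iff hM hm.pr.pg (hPC Q hQ) (CC_anti hQ) hf.1 hf.2.1).1 hf
    have hb := blk_ab hM hf.2.1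
    have hq : Pr p ⊤ Q (ab M (CC Q) f) := ⟨le_top, hm.pr.pg.to_le hQ, by rwa [top_inf_eq]⟩
    have hs : NSub p ⊤ Q (ab M (CC Q) f) P (ab M (CC P) c) :=
      ⟨hq, hm.pr, hQ, (hPC Q hQ).trans (CC_le_NN Q),
        mem_fixed_iff_le.2 ((hPC Q hQ).trans (mem_fixed_iff_le.1 hb.fixed)), h1⟩
    have hl := hm.local hp (L := CC Q) hs.sub (hQ.trans (hPC Q hQ)) inf_le_right
      (by simpa using hq.C_le_St) (hPC Q hQ)
    rw [isNilpotentBlock_iff_ab hM, and_iff_right hf.2.1, hl.nil_iff_of_comm hp (hPC P le_rfl)]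
    have : St (CC Q) P (ab M (CC P) c) = T ⊓ CC Q := by
      ext x
      rw [hT']
      simp only [mem_inf, mem_top, true_and]
      tauto
    rw [this]
  constructor
  · intro h Q hQ h0 f hf
    rw [key Q hQ f hf]
    rintro g ⟨hg, hg'⟩
    obtain ⟨⟨x, hx⟩, hx1⟩ := ne_bot_iff_exists_ne_one.1 h0
    refine h g hg x (hQ hx) (fun h => hx1 (Subtype.ext h)) ?_
    rw [← mem_CC.1 hg' x hx]; group
  · intro h g hg x hx hx1 hgx
    have hQ : zpowers x ≤ P := zpowers_le_of_mem hx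
    obtain ⟨a, ha⟩ := exists_sub hp hm.pr hQ
    have hs := ha.nsub hp hm.pr ((hPC _ hQ).trans (CC_le_NN _))
    obtain ⟨f, hf, rfl⟩ := exists_of_pr hM hs.left
    have hf' : IsInducedBlockIn M (CC (zpowers x)) (CC P) c f :=
      (isInducedBlockIn_CC_iff hM hm.pr.pg (hPC _ hQ) (CC_anti hQ) hc.1 hf.2).2 hs.br
    refine (key _ hQ f hf').1 (h _ hQ (by simpa using hx1) f hf') (mem_inf.2 ⟨hg, ?_⟩)
    rw [CC_zpowers, mem_centralizer_singleton_iff, ← mul_inv_eq_iff_eq_mul, hgx]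

end Cfsg.Agent.S4650
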