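import Cfsg.Statements.S4651
import Cfsg.Agent.Lib.Block.H10KR

set_option autoImplicit false
open Cfsg

namespace Cfsg.Agent.S4651
open Cfsg CA.BlkCore CA.H10KR Subgroup

/-- An alternating-sum identity over chains of p-subgroups (the character-count form behind the chain reformulation of Alperin's weight conjecture, which holds unconditionally for the difference k − l). Let b be a block of the finite group G relative to a maximal ideal M of the algebraic integers containing the prime p. Consider the nonempty chains s = {Q_0 < Q_1 < ⋯ < Q_m} of nontrivial p-subgroups of G in which every member is normal in the largest member; let N_G(s) be the intersection of the normalizers of the members (the stabilizer of the chain), and let b_s be the set of irreducible characters of N_G(s) lying in blocks of N_G(s) that induce b. Then #G · (k(b) − l(b)) equals the sum over all such chains s of (−1)^m · #N_G(s) · (k(b_s) − l(b_s)), where k counts irreducible characters and l is the p-regular rank;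 equivalently, k(b) − l(b) is the alternating sum of k(b_s) − l(b_s) over representatives of the conjugacy classes of such chains. -/
theorem result {G : Type*} [Group G] [Finite G] (p : ℕ) [Fact p.Prime] (M : Ideal Cfsg.AlgInt) (hM : Cfsg.IsPModular p M) (b : Set (Cfsg.IrrCharacter G)) (hb : Cfsg.IsPBlock M b) : (Nat.card G : ℤ) * ((Nat.card b : ℤ) - (Cfsg.blockRank p b : ℤ)) = ∑ᶠ s ∈ {s : Finset (Subgroup G) | s.Nonempty ∧ (∀ Q ∈ s, ∀ R ∈ s, Q ≤ R ∨ R ≤ Q) ∧ (∀ Q ∈ s, Q ≠ ⊥ ∧ IsPGroup p Q) ∧ ∃ T ∈ s, ∀ Q ∈ s, Q ≤ T ∧ T ≤ Subgroup.normalizer ((Q : Subgroup G) : Set G)}, (-1 : ℤ) ^ (s.card - 1) * (Nat.card (((⨅ Q ∈ s, Subgroup.normalizer ((Q : Subgroup G) : Set G) : Subgroup G))) : ℤ) * ((Nat.card {ψ : Cfsg.IrrCharacter (((⨅ Q ∈ s, Subgroup.normalizer ((Q : Subgroup G) : Set G) : Subgroup G))) | ∃ β : Set (Cfsg.IrrCharacter (((⨅ Q ∈ s, Subgroup.normalizer ((Q : Subgroup G) : Set G) : Subgroup G)))), ψ ∈ β ∧ Cfsg.IsInducedBlock M (((⨅ Q ∈ s, Subgroup.normalizer ((Q : Subgroup G) : Set G)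 : Subgroup G))) β b} : ℤ) - (Cfsg.blockRank p {ψ : Cfsg.IrrCharacter (((⨅ Q ∈ s, Subgroup.normalizer ((Q : Subgroup G) : Set G) : Subgroup G))) | ∃ β : Set (Cfsg.IrrCharacter (((⨅ Q ∈ s, Subgroup.normalizer ((Q : Subgroup G) : Set G) : Subgroup G)))), ψ ∈ β ∧ Cfsg.IsInducedBlock M (((⨅ Q ∈ s, Subgroup.normalizer ((Q : Subgroup G) : Set G) : Subgroup G))) β b} : ℤ)) := by
  classical
  haveI := Fintype.ofFinite G
  haveI := Fintype.ofFinite (Subgroup G)
  obtain ⟨χ, hχ⟩ := block_nonempty hM hb
  simp only [IA_subtype hM hb hχ]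
  rw [finsum_mem_eq_finite_toFinset_sum _ (Set.toFinite _)]
  have h0 := card_sub_rank hM (φ := MonoidHom.id G) Function.injective_id χ
  rw [IA_id hM hb hχ] at h0
  rw [h0]
  have h1 := fun H : Subgroup G => card_sub_rank hM (φ := H.subtype) H.subtype_injective χ
  simp only [mul_assoc, h1, Finset.mul_sum, range_subtype]
  rw [Finset.sum_comm]
  refine Finset.sum_congr rfl fun u _ => ?_
  by_cases hu : u ≠ 1 ∧ ∃ n : ℕ, orderOf u = p ^ n
  swap
  · simp [hu]
  have h2 := sum_good hu.1 hu.2 (W p M χ)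
  rw [← Finset.add_sum_erase _ _ (a := ∅)
    (Finset.mem_filter.2 ⟨Finset.mem_univ _, good_iff.2 (Or.inl rfl)⟩), add_eq_zero_iff_eq_neg,
    ← Finset.sum_neg_distrib] at h2
  rw [if_pos ⟨⟨u, rfl⟩, hu⟩]
  have h3 : (MonoidHom.id G).range = st (∅ : Finset (Subgroup G)) := by
    ext x; simp
  rw [h3, ← one_mul (W p M χ _)]
  refine h2.trans ?_
  simp only [hu, and_true, mul_ite, mul_zero, ne_eq, not_false_eq_true]
  rw [← Finset.sum_filter]
  refine Finset.sum_congr ?_ fun s hs => ?_
  · ext s
    simp only [Finset.mem_erase, Finset.mem_filter, Finset.mem_univ, true_and, good_iff,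
      Set.Finite.mem_toFinset, Set.mem_setOf_eq]
    constructor
    · rintro ⟨h, h' | h'⟩
      · exact (h h').elim
      · exact h'
    · exact fun h => ⟨h.1.1.ne_empty, Or.inr h⟩
  · have h4 : s.Nonempty := ((Set.Finite.mem_toFinset _).1 (Finset.mem_filter.1 hs).1).1
    obtain ⟨n, hn⟩ := Nat.exists_eq_succ_of_ne_zero (Finset.card_pos.2 h4).ne'
    rw [hn, Nat.succ_sub_one, pow_succ]
    ring

end Cfsg.Agent.S4651
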