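import Cfsg.Statements.S4654
import Cfsg.Agent.Lib.Block.H12Brg
import Cfsg.Agent.Lib.Block.BlkCov

set_option autoImplicit false
open Cfsg

namespace Cfsg.Agent.S4654

open MonoidAlgebra CA.BlkAlg CA.BlkVal CA.BlkOmega CA.BlkRed CA.BlkCore CA.BlkDefect CA.SylIn
  CA.BlkHeight CA.H12Cover CA.H11Amb CA.H11Def CA.H11Pair CA.H11Brg CA.H12Fong CA.H12FR CA.H12Brg
  CA.BlkCov CChar.CharFun CChar.CharOrth CChar.CharInt CChar.CharKer Subgroup

/-- Fix a prime p and a maximal ideal M of the algebraic integers containing p. Let P be a normal p-subgroup of the finite group G, B a p-block of G and e a p-block of C_G(P) such that (P, e) is a Brauer pair of B (as P is normal, this says that e occurs in the idempotent of B, which is supported on C_G(P)). Let T be the stabilizer of e in G under conjugation. Then the idempotent of e is a block idempotent of T: some block E of T has, at every element of T, the same idempotent coefficient as e (zero off C_G(P)); and the idempotent of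 B is the sum of the distinct G-conjugates of the idempotent of e: its coefficient at g is the sum over all x in G of the coefficient of e at x⁻¹ g x, divided by the order of T. -/
theorem result {G : Type*} [Group G] [Fintype G] (p : ℕ) [Fact p.Prime] (M : Ideal Cfsg.AlgInt) (hM : Cfsg.IsPModular p M) (P : Subgroup G) [P.Normal] (hP : IsPGroup p P) (B : Set (Cfsg.IrrCharacter G)) (e : Set (Cfsg.IrrCharacter (Subgroup.centralizer (P : Set G)))) (hBe : Cfsg.IsBrauerPairOf p M B P e) (T : Subgroup G) (hT : ∀ x : G, x ∈ T ↔ Cfsg.StabilizesBlock (Subgroup.centralizer (P : Set G)) e x) : (∃ E : Set (Cfsg.IrrCharacter T), Cfsg.IsPBlock M E ∧ ∀ t : T, Cfsg.blockCoeff E t = Cfsg.subgroupBlockCoeff (Subgroup.centralizer (P : Set G)) e (t : G)) ∧ ∀ g : G, Cfsg.blockCoeff B g = (Nat.card T : ℂ)⁻¹ * ∑ x : G, Cfsg.subgroupBlockCoeff (Subgroup.centralizer (P : Set G)) e (x⁻¹ * g * x) := by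
  classical
  have hp := p_eq_zero hM
  obtain ⟨hpr, hB, h⟩ := (isBrauerPairOf_iff hM).1 hBe
  have he := hpr.2
  have hpr' := pr_of hM hpr
  have hNN := NN_top_of_normal P
  have hTs : T = St ⊤ P (ab M (CC P) e) := eq_St hM he fun y => by
    rw [hT]; exact ⟨fun h => ⟨hNN (mem_top y), h⟩, fun h => h.2⟩
  have hT' : ∀ x, x ∈ T ↔ cjS x e = e := fun x => by
    rw [hT, stabilizesBlock_CC_iff hM he (hNN (mem_top x)), ab, cjA_emb_eB]
    exact ⟨ab_inj hM (isPBlock_cjS hM x he) he, fun h => by rw [h]⟩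
  refine ⟨?_, fun g => ?_⟩
  · obtain ⟨E, hE, h1⟩ := exists_ab (H := T) hM (hTs ▸ hpr'.blk_St hp)
    exact ⟨E, hE, (blockCoeff_eq_iff hM hE he fun x hx => (hT' x).2 (cjS_of_mem hx e)).2 h1⟩
  have hE := blk_eB hM hB
  have h0 := hE.br_eq_self hp hP le_top hNN
  rw [h0] at h
  have hsB := isSat_of_isPBlock hM hB
  have hse := isSat_of_isPBlock hM he
  have hcov : Cov (CC P) B e := (cov_iff_eB hsB hse).2 (h.trans_ne (blk_ab hM he).ne)
  have hs := IsSat.orb hM hse
  obtain ⟨a, ha, h1⟩ := exists_eB_eq_emb hsB (br_eq_self_iff.1 h0)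
  have h2 := eB_mul_emb_of_cov hM hs (fun g => cjS_orb g e) hB (hcov.mono le_rfl (subset_orb e))
  rw [h1, ← map_mul, eB_mul_eB hs ha] at h2
  rw [h1, ab, ← map_mul, eB_mul_eB ha hse] at h
  have h3 := eB_injOn (hs.inter ha) ha (emb_injective _ h2)
  have h4 := eB_injOn (ha.inter hse) hse (emb_injective _ h)
  have h5 : ∀ x, cjS x a = a := fun x => eB_injOn (IsSat.cjS hM x ha) ha (emb_injective _ (by
    rw [← cjA_emb_eB, ← h1]; exact mem_Z_iff_cjA.1 (eB_mem_Z B) x))
  obtain rfl : a = orb e := (Set.inter_eq_right.1 h3).antisymm fun θ ⟨x, hx⟩ => by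
    rw [← h5 x]; exact Set.inter_eq_right.1 h4 hx
  have h6 : ∑ x : G, fB (cjS x e) = (Nat.card T : ℂ) • fB (orb e) := by
    refine eq_of_omega (sum_mem fun x _ => fB_mem_Z _) (Subalgebra.smul_mem _ (fB_mem_Z _) _)
      fun θ => ?_
    rw [map_sum, map_smul]
    simp only [omega_fB, Finset.sum_boole, smul_eq_mul]
    split_ifs with h6
    · obtain ⟨y, hy⟩ := h6
      rw [mul_one, ← Fintype.card_subtype, ← Nat.card_eq_fintype_card, Nat.cast_inj]
      refine Nat.card_congr ((Equiv.mulLeft y⁻¹).subtypeEquiv fun x => ?_)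
      have e1 : θ ∈ cjS x e ↔ cjI y θ ∈ cjS (y⁻¹ * x) e := by
        rw [mem_cjS, mem_cjS, cjI_cjI, mul_inv_cancel_left]
      rw [e1, Equiv.coe_mulLeft, hT']
      exact ⟨fun h => block_eq_of_mem hM (isPBlock_cjS hM _ he) he h hy, fun h => h.symm ▸ hy⟩
    · rw [mul_zero, Nat.cast_eq_zero, Finset.card_eq_zero, Finset.filter_eq_empty_iff]
      exact fun x _ hx => h6 ⟨x, hx⟩
  simp only [subgroupBlockCoeff_eq, ← coeff_cjA, cjA_emb_fB]
  rw [← coeff_sum', ← map_sum, h6, map_smul, coeff_smul', ← fB_eq_emb hsB ha h1, coeff_fB,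
    inv_mul_cancel_left₀ (Nat.cast_ne_zero.2 Nat.card_pos.ne')]

end Cfsg.Agent.S4654
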