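import Cfsg.Statements.S4655
import Cfsg.Agent.Lib.Block.H11Brg

set_option autoImplicit false
open Cfsg

namespace Cfsg.Agent.S4655

open CA.H11Brg CA.H11Pair CA.H11Def CA.H11Amb CA.BlkCore CA.SylIn

/-- Fix a prime p and a maximal ideal M of the algebraic integers containing p. Let (P, e) be a Brauer pair of the finite group G (P a p-subgroup, e a p-block of C_G(P)) and Q a subgroup of P. Then there is exactly one p-block f of C_G(Q) such that the Brauer pair (Q, f) lies below (P, e). -/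
theorem result {G : Type*} [Group G] [Fintype G] (p : ℕ) [Fact p.Prime] (M : Ideal Cfsg.AlgInt) (hM : Cfsg.IsPModular p M) (P Q : Subgroup G) (e : Set (Cfsg.IrrCharacter (Subgroup.centralizer (P : Set G)))) (hPe : Cfsg.IsBrauerPair p M P e) (hQP : Q ≤ P) : ∃! f : Set (Cfsg.IrrCharacter (Subgroup.centralizer (Q : Set G))), Cfsg.IsPBlock M f ∧ Cfsg.SubpairLE p M Q f P e := by
  have hp := CA.BlkDefect.p_eq_zero hM
  obtain ⟨a, ha⟩ := exists_sub hp (pr_of hM hPe) hQP
  obtain ⟨f, hf, rfl⟩ := exists_of_pr hM (ha.pr (pr_of hM hPe))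
  refine ⟨f, ⟨hf.2, (subpairLE_iff hM hf.2 hPe.2).2 ha⟩, fun f' hf' => ?_⟩
  exact ab_inj hM hf'.1 hf.2 ((sub_of_subpairLE hM hf'.2).unique hp (pr_of hM hPe) ha)

end Cfsg.Agent.S4655
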