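import Cfsg.Statements.S4657
import Cfsg.Agent.Lib.Block.H11Brg

set_option autoImplicit false
open Cfsg

namespace Cfsg.Agent.S4657

open CA.H11Brg CA.H11Pair CA.H11Def CA.H11Amb CA.BlkCore CA.SylIn

/-- Fix a prime p and a maximal ideal M of the algebraic integers containing p. Every Brauer pair (P, e) of the finite group G is a Brauer pair of exactly one p-block B of G. -/
theorem result {G : Type*} [Group G] [Fintype G] (p : ℕ) [Fact p.Prime] (M : Ideal Cfsg.AlgInt) (hM : Cfsg.IsPModular p M) (P : Subgroup G) (e : Set (Cfsg.IrrCharacter (Subgroup.centralizer (P : Set G)))) (hPe : Cfsg.IsBrauerPair p M P e) : ∃! B : Set (Cfsg.IrrCharacter G), Cfsg.IsBrauerPairOf p M B P e := by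
  have hp := CA.BlkDefect.p_eq_zero hM
  obtain ⟨b, hb, h⟩ := (pr_of hM hPe).exists_of hp
  obtain ⟨B, hB, rfl⟩ := exists_eB hM hb
  refine ⟨B, (isBrauerPairOf_iff hM).2 ⟨hPe, hB, h⟩, fun B' hB' => ?_⟩
  obtain ⟨-, h1, h2⟩ := (isBrauerPairOf_iff hM).1 hB'
  exact eB_inj hM h1 hB ((pr_of hM hPe).of_unique hp (blk_eB hM h1) hb h2 h)

end Cfsg.Agent.S4657
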