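import Cfsg.Statements.S4658
import Cfsg.Agent.Lib.Block.H11Brg

set_option autoImplicit false
open Cfsg

namespace Cfsg.Agent.S4658

open CA.H11Brg CA.H11Pair CA.H11Def CA.H11Amb CA.BlkCore CA.SylIn

/-- Fix a prime p and a maximal ideal M of the algebraic integers containing p. Let (Q, f) ≤ (P, e) be Brauer pairs of the finite group G and B a p-block of G. Then (P, e) is a Brauer pair of B if and only if (Q, f) is. -/
theorem result {G : Type*} [Group G] [Fintype G] (p : ℕ) [Fact p.Prime] (M : Ideal Cfsg.AlgInt) (hM : Cfsg.IsPModular p M) (P Q : Subgroup G) (e : Set (Cfsg.IrrCharacter (Subgroup.centralizer (P : Set G)))) (f : Set (Cfsg.IrrCharacter (Subgroup.centralizer (Q : Set G)))) (hPe : Cfsg.IsBrauerPair p M P e) (hQf : Cfsg.IsBrauerPair p M Q f) (hle : Cfsg.SubpairLE p M Q f P e) (B : Set (Cfsg.IrrCharacter G)) (hB : Cfsg.IsPBlock M B) : Cfsg.IsBrauerPairOf p M B P e ↔ Cfsg.IsBrauerPairOf p M B Q f := by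
  have hp := CA.BlkDefect.p_eq_zero hM
  rw [isBrauerPairOf_iff hM, isBrauerPairOf_iff hM,
    (sub_of_subpairLE hM hle).of_iff hp le_top (blk_eB hM hB)]
  exact ⟨fun h => ⟨hQf, h.2⟩, fun h => ⟨hPe, h.2⟩⟩

end Cfsg.Agent.S4658
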