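import Cfsg.Statements.S4661
import Cfsg.Agent.Lib.Block.H11Fus

set_option autoImplicit false
open Cfsg

namespace Cfsg.Agent.S4661

open CA.H11Brg CA.H11Pair CA.H11Def CA.H11Amb CA.H11Max CA.H11Fus CA.BlkCore CA.SylIn

/-- Fix a prime p and a maximal ideal M of the algebraic integers containing p. Let (P, e) be a maximal Brauer pair of the p-block B of the finite group G, Q ≤ P, and f the p-block of C_G(Q) with (Q, f) ≤ (P, e). Then C_P(Q) is contained in a defect group of f (as a block of the group C_G(Q)); and for some x in G the conjugate pair (x Q x⁻¹, conjugate of f) again lies below (P, e) and C_P(x Q x⁻¹) is a defect group of the conjugate of f in C_G(x Q x⁻¹). -/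
theorem result {G : Type*} [Group G] [Fintype G] (p : ℕ) [Fact p.Prime] (M : Ideal Cfsg.AlgInt) (hM : Cfsg.IsPModular p M) (B : Set (Cfsg.IrrCharacter G)) (P Q : Subgroup G) (e : Set (Cfsg.IrrCharacter (Subgroup.centralizer (P : Set G)))) (f : Set (Cfsg.IrrCharacter (Subgroup.centralizer (Q : Set G)))) (hmax : Cfsg.IsMaximalBrauerPair p M B P e) (hQP : Q ≤ P) (hf : Cfsg.IsPBlock M f) (hle : Cfsg.SubpairLE p M Q f P e) : (∃ D : Subgroup (Subgroup.centralizer (Q : Set G)), Cfsg.IsDefectGroup p M f D ∧ (P ⊓ Subgroup.centralizer (Q : Set G)).subgroupOf (Subgroup.centralizer (Q : Set G)) ≤ D) ∧ ∃ x : G, Cfsg.SubpairLE p M (Q.map (MulAut.conj x).toMonoidHom) (Cfsg.conjBlock Q x f) P e ∧ Cfsg.IsDefectGroup p M (Cfsg.conjBlock Q x f) ((P ⊓ Subgroup.centralizer ((Q.map (MulAut.conj x).toMonoidHom) : Set G)).subgroupOf (Subgroup.centralizer ((Q.map (MulAut.conj x).toMonoidHom) : Set G))) := by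
  have hp := CA.BlkDefect.p_eq_zero hM
  have h := mx_of hM hmax
  have hs := sub_of_subpairLE hM hle
  have hq := hs.pr h.pr
  have he := hmax.1.1.2
  constructor
  · obtain ⟨D, hD, h1⟩ := exists_isDef_ge hp hq.blk (inf_le_inf_right _ le_top)
      (h.pr.pg.to_inf_left) (br_cent_ne hp h.pr hs)
    rw [top_inf_eq] at hD
    exact ⟨D.subgroupOf _, (isDefectGroup_iff_subgroupOf hM hf hD.le).2 hD,
      Subgroup.subgroupOf_mono _ h1⟩
  · obtain ⟨x, -, h1, h2⟩ := h.exists_conj_isDef hp hq (h.of_sub hp hs)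
    obtain ⟨h5, h6⟩ := conjBlock_spec hM x hf
    have h3 := isDef_cent_of_norm hp (h1.pr h.pr) h2
    rw [top_inf_eq, ← h6] at h3
    exact ⟨x, (subpairLE_iff hM h5 he).2 (h6 ▸ h1), (isDefectGroup_CC_iff hM h5).2 h3⟩

end Cfsg.Agent.S4661
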