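import Cfsg.Statements.S4662
import Cfsg.Agent.Lib.Block.H11Fus

set_option autoImplicit false
open Cfsg

namespace Cfsg.Agent.S4662

open CA.H11Brg CA.H11Pair CA.H11Def CA.H11Amb CA.H11Max CA.H11Fus CA.BlkCore CA.SylIn

/-- Fix a prime p and a maximal ideal M of the algebraic integers containing p. Let (P, e) be a maximal Brauer pair of the p-block B of the finite group G, Q ≤ P, and f the p-block of C_G(Q) with (Q, f) ≤ (P, e). Let T be the stabilizer of f in N_G(Q). Then the idempotent of f is a block idempotent of T, and N_P(Q) is contained in a defect group of that block of T; moreover for some x in G the conjugate pair (x Q x⁻¹, conjugate of f) again lies below (P, e) and, with T' the stabilizer of the conjugate of f in N_G(x Q x⁻¹), N_P(x Q x⁻¹) is a defect group of the block of T' whose idempotent is that of the conjugate of f. -/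
theorem result {G : Type*} [Group G] [Fintype G] (p : ℕ) [Fact p.Prime] (M : Ideal Cfsg.AlgInt) (hM : Cfsg.IsPModular p M) (B : Set (Cfsg.IrrCharacter G)) (P Q : Subgroup G) (e : Set (Cfsg.IrrCharacter (Subgroup.centralizer (P : Set G)))) (f : Set (Cfsg.IrrCharacter (Subgroup.centralizer (Q : Set G)))) (hmax : Cfsg.IsMaximalBrauerPair p M B P e) (hQP : Q ≤ P) (hf : Cfsg.IsPBlock M f) (hle : Cfsg.SubpairLE p M Q f P e) (T : Subgroup G) (hT : ∀ y : G, y ∈ T ↔ y ∈ Subgroup.normalizer (Q : Set G) ∧ Cfsg.StabilizesBlock (Subgroup.centralizer (Q : Set G)) f y) : (∃ F : Set (Cfsg.IrrCharacter T), Cfsg.IsPBlock M F ∧ (∀ t : T, Cfsg.blockCoeff F t = Cfsg.subgroupBlockCoeff (Subgroup.centralizer (Q : Set G)) f (t : G)) ∧ ∃ D : Subgroup T, Cfsg.IsDefectGroup p M F D ∧ (P ⊓ Subgroup.normalizer (Q : Set G)).subgroupOf T ≤ D) ∧ ∃ x : G, Cfsg.SubpairLE p M (Q.map (MulAut.conj x).toMonoidHom) (Cfsg.conjBlock Q x f) P e ∧ ∀ (T' : Subgroup G), (∀ y : G, y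 ∈ T' ↔ y ∈ Subgroup.normalizer ((Q.map (MulAut.conj x).toMonoidHom) : Set G) ∧ Cfsg.StabilizesBlock (Subgroup.centralizer ((Q.map (MulAut.conj x).toMonoidHom) : Set G)) (Cfsg.conjBlock Q x f) y) → ∃ F' : Set (Cfsg.IrrCharacter T'), Cfsg.IsPBlock M F' ∧ (∀ t : T', Cfsg.blockCoeff F' t = Cfsg.subgroupBlockCoeff (Subgroup.centralizer ((Q.map (MulAut.conj x).toMonoidHom) : Set G)) (Cfsg.conjBlock Q x f) (t : G)) ∧ Cfsg.IsDefectGroup p M F' ((P ⊓ Subgroup.normalizer ((Q.map (MulAut.conj x).toMonoidHom) : Set G)).subgroupOf T') := by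
  have hp := CA.BlkDefect.p_eq_zero hM
  have h := mx_of hM hmax
  have hs := sub_of_subpairLE hM hle
  have hq := hs.pr h.pr
  have he := hmax.1.1.2
  constructor
  · obtain rfl := eq_St hM hf hT
    obtain ⟨F, hF, h1, h2⟩ := exists_block_of_le hM (⟨hq.pg, hf⟩ : IsBrauerPair p M Q f) hq.le_St
      (by simpa using hq.C_le_St) le_rfl
    obtain ⟨D, hD, h3⟩ := exists_isDef_ge hp (hq.blk_St hp) (Sub.norm_le_St hp h.pr hs)
      (h.pr.pg.to_inf_left) (hs.br_norm_ne hp h.pr)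
    exact ⟨F, hF, h1, D.subgroupOf _, (isDefectGroup_iff_subgroupOf hM hF hD.le).2 (by rw [h2]; exact hD),
      Subgroup.subgroupOf_mono _ h3⟩
  · obtain ⟨x, -, h1, h2⟩ := h.exists_conj_isDef hp hq (h.of_sub hp hs)
    obtain ⟨h5, h6⟩ := conjBlock_spec hM x hf
    refine ⟨x, (subpairLE_iff hM h5 he).2 (h6 ▸ h1), fun T' hT' => ?_⟩
    obtain rfl := eq_St hM h5 hT'
    rw [← h6] at h1 h2
    have hq' := h1.pr h.pr
    obtain ⟨F, hF, h3, h4⟩ := exists_block_of_le hM (⟨hq'.pg, h5⟩ : IsBrauerPair p M _ _) hq'.le_St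
      (by simpa using hq'.C_le_St) le_rfl
    exact ⟨F, hF, h3, (isDefectGroup_iff_subgroupOf hM hF h2.le).2 (by rw [h4]; exact h2)⟩

end Cfsg.Agent.S4662
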