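import Cfsg.Statements.S4663
import Cfsg.Agent.Lib.Block.H11Fus

set_option autoImplicit false
open Cfsg

namespace Cfsg.Agent.S4663

open CA.H11Brg CA.H11Pair CA.H11Def CA.H11Amb CA.H11Max CA.H11Fus CA.BlkCore CA.SylIn

/-- Fix a prime p and a maximal ideal M of the algebraic integers containing p. Brauer's Third Main Theorem in the language of Brauer pairs: for the principal p-block B₀ of the finite group G and any p-subgroup Q, a p-block e of C_G(Q) makes (Q, e) a Brauer pair of B₀ if and only if e is the principal p-block of C_G(Q). Equivalently, modulo M the truncation to C_G(Q) of the idempotent of B₀ is the idempotent of the principal block of C_G(Q). -/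
theorem result {G : Type*} [Group G] [Fintype G] (p : ℕ) [Fact p.Prime] (M : Ideal Cfsg.AlgInt) (hM : Cfsg.IsPModular p M) (Q : Subgroup G) (hQ : IsPGroup p Q) (e : Set (Cfsg.IrrCharacter (Subgroup.centralizer (Q : Set G)))) (he : Cfsg.IsPBlock M e) : Cfsg.IsBrauerPairOf p M (Cfsg.principalBlock M G) Q e ↔ e = Cfsg.principalBlock M (Subgroup.centralizer (Q : Set G)) := by
  have hp := CA.BlkDefect.p_eq_zero hM
  have hB : IsPBlock M (principalBlock M G) := isPBlock_principalBlock
  have hq := pr_of hM (⟨hQ, he⟩ : IsBrauerPair p M Q e)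
  rw [isBrauerPairOf_iff hM, eq_principal_iff_ab hM he]
  exact ⟨fun h => aug_of_of hp (blk_eB hM hB) (aug_eB_principal hM) hq h.2.2,
    fun h => ⟨⟨hQ, he⟩, hB, of_of_aug hp (blk_eB hM hB) (aug_eB_principal hM) hq h⟩⟩

end Cfsg.Agent.S4663
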