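import Cfsg.Statements.S4664
import Cfsg.Agent.Lib.Block.H11Contrib

set_option autoImplicit false
open Cfsg

namespace Cfsg.Agent.S4664

open CA.H11Contrib CA.BlkAlg CA.BlkVal CA.BlkOmega CA.BlkRed CA.BlkCore CA.BlkHeight CA.BlkReg CA.H12Orth CA.H13Span CChar.CharFun CChar.CharOrth CChar.CharGen CChar.CharInt

/-- Fix a prime p and a maximal ideal M of the algebraic integers containing p, and let B be a p-block of the finite group G. Let m be the p'-part of the order of G and η = exp(2πi/m). Then every coefficient of the idempotent of B lies in the cyclotomic field ℚ(η). -/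
theorem result {G : Type*} [Group G] [Fintype G] (p : ℕ) [Fact p.Prime] (M : Ideal Cfsg.AlgInt) (hM : Cfsg.IsPModular p M) (B : Set (Cfsg.IrrCharacter G)) (hB : Cfsg.IsPBlock M B) (g : G) : Cfsg.blockCoeff B g ∈ IntermediateField.adjoin ℚ ({Complex.exp (2 * Real.pi * Complex.I / ((Nat.card G / p ^ (Nat.card G).factorization p : ℕ) : ℂ))} : Set ℂ) := by
  classical
  by_cases hg : p ∣ orderOf g
  · rw [CA.H12Second.blockCoeff_eq_zero hM (isSat_of_isPBlock hM hB) hg]
    exact zero_mem _
  have h0 : Nat.card G ≠ 0 := Nat.card_pos.ne'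
  have hm : Nat.card G / p ^ (Nat.card G).factorization p ≠ 0 := (Nat.ordCompl_pos p h0).ne'
  have h1 : orderOf g⁻¹ ∣ Nat.card G / p ^ (Nat.card G).factorization p := by
    refine (Nat.Coprime.pow_right ((Nat.card G).factorization p) ?_).dvd_of_dvd_mul_left
      (by rw [Nat.ordProj_mul_ordCompl_eq_self]; exact orderOf_dvd_natCard _)
    rw [orderOf_inv, Nat.coprime_comm]
    exact hM.1.coprime_iff_not_dvd.2 hg
  rw [blockCoeff_eq_sum]
  refine mul_mem (inv_mem (natCast_mem _ _)) (sum_mem fun χ _ => mul_mem ?_ ?_)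
  · rw [irr_apply_one_eq χ.2]
    exact natCast_mem _ _
  · obtain ⟨ω, h2, h3⟩ := char_exists_pow_eq_sum (char_of_irr χ.2) (irr_apply_one_eq χ.2) g⁻¹
    rw [← char_apply_inv (char_of_irr χ.2), ← pow_one g⁻¹, h3]
    refine sum_mem fun i _ => pow_mem ?_ _
    haveI : NeZero (Nat.card G / p ^ (Nat.card G).factorization p) := ⟨hm⟩
    obtain ⟨c, hc⟩ := h1
    obtain ⟨j, -, hj⟩ := (Complex.isPrimitiveRoot_exp _ hm).eq_pow_of_pow_eq_one (ξ := ω i)
      (by rw [hc, pow_mul, h2, one_pow])
    rw [← hj]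
    exact pow_mem (IntermediateField.mem_adjoin_simple_self ℚ _) _

end Cfsg.Agent.S4664
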