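import Cfsg.Statements.S4665
import Cfsg.Agent.Lib.Block.H11Contrib

set_option autoImplicit false
open Cfsg

namespace Cfsg.Agent.S4665

open CA.H11Contrib CA.BlkVal CA.BlkCore CA.BlkHeight CA.BlkReg CA.H12Orth CA.H13Span CChar.CharFun CChar.CharOrth CChar.CharGen CChar.CharInt

/-- Fix a prime p, a maximal ideal M of the algebraic integers containing p, and a p-block B of the finite group G, and let p^a be the p-part of the order of G. Let χ be an integer combination of the irreducible characters in B. If the function that agrees with χ on p-regular elements and vanishes on p-singular elements is again an integer combination of the irreducible characters in B, then p^a divides χ(1). -/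
theorem result {G : Type*} [Group G] [Fintype G] (p : ℕ) [Fact p.Prime] (M : Ideal Cfsg.AlgInt) (hM : Cfsg.IsPModular p M) (B : Set (Cfsg.IrrCharacter G)) (hB : Cfsg.IsPBlock M B) (χ : G → ℂ) (hχ : (∃ n : Cfsg.IrrCharacter G → ℤ, ∀ g : G, χ g = ∑ᶠ ψ ∈ B, (n ψ : ℂ) * (ψ : G → ℂ) g)) (h0 : (∃ n : Cfsg.IrrCharacter G → ℤ, ∀ g : G, Cfsg.pRegularPart p χ g = ∑ᶠ ψ ∈ B, (n ψ : ℂ) * (ψ : G → ℂ) g)) : ∃ k : ℤ, χ 1 = (p ^ (Nat.card G).factorization p : ℂ) * k := by
  obtain ⟨n, hn⟩ := hχ
  obtain ⟨m, hm⟩ := h0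
  obtain ⟨a, ha⟩ := gen_apply_one (gen_of_coeffs hn)
  have h1 := v_apply_le hM (γ := 1) (inSpan_of_coeffs hm).1 (fun ψ => by
    obtain ⟨c, hc⟩ := inner_gen_gen (gen_of_coeffs hm) (gen_of_irr ψ.2)
    exact hc ▸ mem_O_iff.1 (intCast_mem_O c)) (fun g hg => pReg_of_dvd _ hg) 1
  rw [pReg_one hM.1, ha, card_centralizer_one, one_mul, v_card hM, ← pow_dvd_iff_v_le hM] at h1
  obtain ⟨c, rfl⟩ := h1
  exact ⟨c, by rw [ha]; push_cast; rfl⟩

end Cfsg.Agent.S4665
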