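import Cfsg.Statements.S4668
import Cfsg.Agent.Lib.Block.H12Cons

set_option autoImplicit false
open Cfsg

namespace Cfsg.Agent.S4668

open CA.BlkAlg CA.BlkVal CA.BlkCore CA.BlkDefect CA.SylIn CA.BlkInd CA.BlkHeight CA.BlkFirst
  CA.H11Amb CA.H11Def CA.H11Pair CA.H11Brg CA.H12Cover CA.H12Fong CA.H12FR CA.H12Brg CA.H12Cons
  CA.H12PSolv Subgroup

/-- Fix a prime p and a maximal ideal M of the algebraic integers containing p. Let Q₀ < Q₁ < ⋯ < Q_m be a strictly increasing chain of p-subgroups of the finite group G and N the intersection of their normalizers. Then every block idempotent of N is supported on C_G(Q_m): for every p-block E of N, the idempotent coefficient of E vanishes at every element of N outside C_G(Q_m). -/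
theorem result {G : Type*} [Group G] [Fintype G] (p : ℕ) [Fact p.Prime] (M : Ideal Cfsg.AlgInt) (hM : Cfsg.IsPModular p M) (m : ℕ) (Q : Fin (m + 1) → Subgroup G) (hQ : StrictMono Q) (hQp : ∀ i, IsPGroup p (Q i)) (N : Subgroup G) (hN : ∀ g : G, g ∈ N ↔ ∀ i, g ∈ Subgroup.normalizer (Q i : Set G)) (E : Set (Cfsg.IrrCharacter N)) (hE : Cfsg.IsPBlock M E) (n : N) (hn : (n : G) ∉ Subgroup.centralizer (Q (Fin.last m) : Set G)) : Cfsg.blockCoeff E n = 0 := by
  have hp := p_eq_zero hM
  by_contra h0
  have h1 : ¬ p ∣ orderOf (n : G) := by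
    rw [orderOf_coe]
    exact fun h => h0 (blockCoeff_eq_zero_of_dvd hM (isSat_of_isPBlock hM hE) h)
  have hNQ : ∀ i, N ≤ NN (Q i) := fun i g hg => (hN g).1 hg i
  have hR : ((Q (Fin.last m)).subgroupOf N).Normal := normal_subgroupOf_of_le_normalizer (hNQ _)
  have h2 : n ∈ centralizer (((Q (Fin.last m)).subgroupOf N : Subgroup N) : Set N) := by
    by_contra h
    exact h0 (blockCoeff_eq_zero_of_supp (isSat_of_isPBlock hM hE) (fun x hx =>
      coeff_eB_eq_zero_of_normal hM (isSat_of_isPBlock hM hE) (isPGroup_subgroupOf (hQp _) N) hx) h)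
  have h3 : ∀ x ∈ N, x ∈ Q (Fin.last m) → x * n = n * x := fun x hx hx' =>
    congrArg Subtype.val (h2 ⟨x, hx⟩ hx')
  have key : ∀ i, (n : G) ∈ CC (Q i) := fun i => by
    induction i using Fin.induction with
    | zero =>
      refine fun x hx => h3 x ((hN x).2 fun j => le_normalizer (hQ.monotone (Fin.zero_le j) hx))
        (hQ.monotone (Fin.zero_le _) hx)
    | succ i ih =>
      have hle := hQ.monotone (Fin.castSucc_le_succ i)
      refine CA.Coprime2.p_times_q (P := Q i.castSucc) (Q := zpowers (n : G)) (U := Q i.succ)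
        (hQp _) (by rw [Nat.card_zpowers]; exact CA.Fitting.coprime_iff_not_dvd.2 h1) (hQp _)
        (by rw [CA.Fitting.centralizer_zpowers]
            exact fun x hx => mem_centralizer_singleton_iff.2 (ih x hx))
        (hle.trans le_normalizer) ((zpowers_le.2 n.2).trans (hNQ _)) ?_ (mem_zpowers _)
      rintro x ⟨hx, hx'⟩
      rw [CA.Fitting.centralizer_zpowers, mem_centralizer_singleton_iff]
      refine h3 x ((hN x).2 fun j => ?_) (hQ.monotone (Fin.le_last _) hx)
      rcases le_or_gt j i.castSucc with hj | hj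
      · exact CC_le_NN _ (CC_anti (hQ.monotone hj) hx')
      · exact le_normalizer (hQ.monotone (Fin.castSucc_lt_iff_succ_le.1 hj) hx)
  exact hn (key _)

end Cfsg.Agent.S4668
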