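import Cfsg.Statements.S4669
import Cfsg.Agent.Lib.Block.H12DC2

set_option autoImplicit false
open Cfsg

namespace Cfsg.Agent.S4669

open CA.BlkVal CA.BlkCore CA.BlkDefect CA.BlkHeight CA.H12PPart CA.H12Cover CA.H12DC CA.H12DC2
  CChar.CharFun CChar.CharOrth CChar.CharInt CChar.CharKer Subgroup

/-- Fix a prime p and a maximal ideal M of the algebraic integers containing p. If the p-block B of the finite group G has a defect group P contained in the centre of G, then B has p-regular rank one (a single irreducible Brauer character). -/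
theorem result {G : Type*} [Group G] [Fintype G] (p : ℕ) [Fact p.Prime] (M : Ideal Cfsg.AlgInt) (hM : Cfsg.IsPModular p M) (B : Set (Cfsg.IrrCharacter G)) (hB : Cfsg.IsPBlock M B) (P : Subgroup G) (hD : Cfsg.IsDefectGroup p M B P) (hPZ : P ≤ Subgroup.center G) : Cfsg.blockRank p B = 1 := by
  exact blockRank_eq hM hB hD (top_le_iff.1 fun g _ => mem_sup_right fun x hx =>
    (mem_center_iff.1 (hPZ hx) g).symm)

end Cfsg.Agent.S4669
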