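import Cfsg.Statements.S4670
import Cfsg.Agent.Lib.Block.H11Brg

set_option autoImplicit false
open Cfsg

namespace Cfsg.Agent.S4670

open CA.H11Brg CA.H11Pair CA.H11Def CA.H11Amb CA.BlkCore CA.SylIn CA.BlkVal

/-- Fix a prime p and a maximal ideal M of the algebraic integers containing p. Let P be a p-subgroup of the finite group G and H a subgroup containing N_G(P). For every p-block B of G with defect group P there is exactly one p-block c of H with defect group P whose idempotent agrees with that of B, modulo the local ideal at M, at every element of C_G(P) (their Brauer-map images at P coincide); and every p-block c of H with defect group P arises in this way from exactly one such B. This is the Brauer correspondence over H. -/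
theorem result {G : Type*} [Group G] [Fintype G] (p : ℕ) [Fact p.Prime] (M : Ideal Cfsg.AlgInt) (hM : Cfsg.IsPModular p M) (P H : Subgroup G) (hP : IsPGroup p P) (hH : Subgroup.normalizer (P : Set G) ≤ H) : (∀ B : Set (Cfsg.IrrCharacter G), Cfsg.IsPBlock M B → Cfsg.IsDefectGroup p M B P → ∃! c : Set (Cfsg.IrrCharacter H), Cfsg.IsPBlock M c ∧ Cfsg.IsDefectGroup p M c (P.subgroupOf H) ∧ ∀ x : G, x ∈ Subgroup.centralizer (P : Set G) → Cfsg.MemLocalIdeal M (Cfsg.blockCoeff B x - Cfsg.subgroupBlockCoeff H c x)) ∧ (∀ c : Set (Cfsg.IrrCharacter H), Cfsg.IsPBlock M c → Cfsg.IsDefectGroup p M c (P.subgroupOf H) → ∃! B : Set (Cfsg.IrrCharacter G), Cfsg.IsPBlock M B ∧ Cfsg.IsDefectGroup p M B P ∧ ∀ x : G, x ∈ Subgroup.centralizer (P : Set G) → Cfsg.MemLocalIdeal M (Cfsg.blockCoeff B x - Cfsg.subgroupBlockCoeff H c x)) := by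
  have hp := CA.BlkDefect.p_eq_zero hM
  have hPH : P ≤ H := Subgroup.le_normalizer.trans hH
  have hN : H ⊓ NN P = ⊤ ⊓ NN P := by rw [top_inf_eq, inf_eq_right.2 hH]
  have key : ∀ (B : Set (IrrCharacter G)) (c : Set (IrrCharacter H)), IsPBlock M B → IsPBlock M c →
      ((∀ x : G, x ∈ Subgroup.centralizer (P : Set G) →
        MemLocalIdeal M (blockCoeff B x - subgroupBlockCoeff H c x)) ↔
        br P (eB M B) = br P (ab M H c)) := by
    intro B c hB hc
    constructor
    · intro h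
      refine CA.BlkAlg.ext_coeff fun x => ?_
      by_cases hx : x ∈ CC P
      · rw [coeff_br_of_mem _ hx, coeff_br_of_mem _ hx, ← memLocalIdeal_coeff_iff hM hB hc]
        exact h x hx
      · rw [coeff_br_of_not_mem _ hx, coeff_br_of_not_mem _ hx]
    · intro h x hx
      rw [memLocalIdeal_coeff_iff hM hB hc, ← coeff_br_of_mem _ hx, h, coeff_br_of_mem _ hx]
  refine ⟨fun B hB hD => ?_, fun c hc hD => ?_⟩
  · rw [isDefectGroup_iff_top hM hB] at hD
    obtain ⟨a, ha, h1, h2⟩ := exists_blk_of_isDef hp (H := H) (hN ▸ hD.blk_br hp (blk_eB hM hB))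
      (hN ▸ hD.isDef_br)
    obtain ⟨c, hc, rfl⟩ := exists_ab hM ha
    refine ⟨c, ⟨hc, (isDefectGroup_iff_subgroupOf hM hc hPH).2 h1, (key B c hB hc).2 h2.symm⟩,
      fun c' hc' => ab_inj hM hc'.1 hc ?_⟩
    have h3 := (key B c' hB hc'.1).1 hc'.2.2
    exact blk_eq_of_br_eq hp hP hPH (blk_ab hM hc'.1) ha (h3 ▸ hD.ne) (h3.symm.trans h2.symm)
  · rw [isDefectGroup_iff_subgroupOf hM hc hPH] at hD
    obtain ⟨a, ha, h1, h2⟩ := exists_blk_of_isDef hp (H := ⊤) (hN ▸ hD.blk_br hp (blk_ab hM hc))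
      (hN ▸ hD.isDef_br)
    obtain ⟨B, hB, rfl⟩ := exists_eB hM ha
    refine ⟨B, ⟨hB, (isDefectGroup_iff_top hM hB).2 h1, (key B c hB hc).2 h2⟩,
      fun B' hB' => eB_inj hM hB'.1 hB ?_⟩
    have h3 := (key B' c hB'.1 hc).1 hB'.2.2
    exact blk_eq_of_br_eq hp hP le_top (blk_eB hM hB'.1) ha (h3 ▸ hD.ne) (h3.trans h2.symm)

end Cfsg.Agent.S4670
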