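import Cfsg.Statements.S4671
import Cfsg.Agent.Lib.Block.H12Brg

set_option autoImplicit false
open Cfsg

namespace Cfsg.Agent.S4671

open CA.BlkAlg CA.BlkVal CA.BlkCore CA.BlkDefect CA.SylIn CA.BlkInd CA.BlkHeight CA.BlkFirst
  CA.H11Amb CA.H11Def CA.H11Pair CA.H11Brg CA.H12Cover CA.H12Fong CA.H12FR CA.H12Brg Subgroup

/-- Fix a prime p and a maximal ideal M of the algebraic integers containing p. Let N be a normal subgroup of the finite group G, B a p-block of G and P a defect group of B. Then there is a p-block c of N, stable under conjugation by P and covered by B (some member of B has a constituent in c on restriction to N), such that P ∩ N is a defect group of c. -/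
theorem result {G : Type*} [Group G] [Fintype G] (p : ℕ) [Fact p.Prime] (M : Ideal Cfsg.AlgInt) (hM : Cfsg.IsPModular p M) (N : Subgroup G) [N.Normal] [Fintype N] (B : Set (Cfsg.IrrCharacter G)) (hB : Cfsg.IsPBlock M B) (P : Subgroup G) (hP : Cfsg.IsDefectGroup p M B P) : ∃ c : Set (Cfsg.IrrCharacter N), Cfsg.IsPBlock M c ∧ (∀ x ∈ P, Cfsg.StabilizesBlock N c x) ∧ (∃ χ ∈ B, ∃ θ ∈ c, Cfsg.classInner (fun n : N => (χ : G → ℂ) n) (θ : N → ℂ) ≠ 0) ∧ Cfsg.IsDefectGroup p M c ((P ⊓ N).subgroupOf N) := by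
  obtain ⟨e, he, h⟩ := exists_cov' N (blk_eB hM hB)
  obtain ⟨n, -, h1, h2, h3⟩ := exists_conj_isDef_inf (p_eq_zero hM) le_top (NN_top_of_normal N) he
    (blk_eB hM hB) h ((isDefectGroup_iff_top hM hB).1 hP)
  obtain ⟨c, hc, h4⟩ := exists_ab hM (he.conj_of_mem (NN_top_of_normal N (mem_top n)))
  refine ⟨c, hc, fun x hx => (stabilizesBlock_iff hM hc).2 ⟨NN_top_of_normal N (mem_top x),
    h4 ▸ h2 x hx⟩, (cov_iff_ab hM hB hc).2 ?_,
    (isDefectGroup_iff_subgroupOf hM hc inf_le_right).2 (h4 ▸ h1)⟩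
  rw [h4, cov_conj (blk_eB hM hB) (mem_top n)]
  exact h

end Cfsg.Agent.S4671
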