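import Cfsg.Statements.S4672
import Cfsg.Agent.Lib.Block.H12Brg

set_option autoImplicit false
open Cfsg

namespace Cfsg.Agent.S4672

open CA.BlkAlg CA.BlkVal CA.BlkCore CA.BlkDefect CA.SylIn CA.BlkInd CA.BlkHeight CA.BlkFirst
  CA.H11Amb CA.H11Def CA.H11Pair CA.H11Brg CA.H12Cover CA.H12Fong CA.H12FR CA.H12Brg Subgroup

/-- Fix a prime p and a maximal ideal M of the algebraic integers containing p. Let N be a normal subgroup of the finite group G of p-power index and c a p-block of N stable under conjugation by G. Then the idempotent of c is a block idempotent of G: there is a p-block B of G whose idempotent coefficients agree with those of c on N and vanish off N; and for every defect group P of such a block B, G = NP and P ∩ N is a defect group of c. -/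
theorem result {G : Type*} [Group G] [Fintype G] (p : ℕ) [Fact p.Prime] (M : Ideal Cfsg.AlgInt) (hM : Cfsg.IsPModular p M) (N : Subgroup G) [N.Normal] (hN : ∃ k : ℕ, N.index = p ^ k) (c : Set (Cfsg.IrrCharacter N)) (hc : Cfsg.IsPBlock M c) (hst : ∀ x : G, Cfsg.StabilizesBlock N c x) : (∃ B : Set (Cfsg.IrrCharacter G), Cfsg.IsPBlock M B ∧ ∀ g : G, Cfsg.blockCoeff B g = Cfsg.subgroupBlockCoeff N c g) ∧ ∀ B : Set (Cfsg.IrrCharacter G), Cfsg.IsPBlock M B → (∀ g : G, Cfsg.blockCoeff B g = Cfsg.subgroupBlockCoeff N c g) → ∀ P : Subgroup G, Cfsg.IsDefectGroup p M B P → N ⊔ P = ⊤ ∧ Cfsg.IsDefectGroup p M c ((P ⊓ N).subgroupOf N) := by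
  have hNN := NN_top_of_normal N
  have hN' : ∃ n, N.relIndex ⊤ = p ^ n := by rwa [relIndex_top_right]
  have he := blk_ab hM hc
  have hE := blk_of_pquot hM le_top hNN hN' he fun g _ => ((stabilizesBlock_iff hM hc).1 (hst g)).2
  obtain ⟨B, hB, h⟩ := exists_eB hM hE
  refine ⟨⟨B, hB, (blockCoeff_eq_iff_top hM hB hc).2 h⟩, fun B hB h P hP => ?_⟩
  rw [isDefectGroup_iff_top hM hB, (blockCoeff_eq_iff_top hM hB hc).1 h] at hP
  exact ⟨sup_comm P N ▸ sup_eq_of_pquot (p_eq_zero hM) le_top hNN hN' he hE hP,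
    (isDefectGroup_iff_subgroupOf hM hc inf_le_right).2 (hP.inf' (p_eq_zero hM) he le_top hNN)⟩

end Cfsg.Agent.S4672
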