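import Cfsg.Statements.S4673
import Cfsg.Agent.Lib.Block.H12Brg

set_option autoImplicit false
open Cfsg

namespace Cfsg.Agent.S4673

open CA.BlkAlg CA.BlkVal CA.BlkCore CA.BlkDefect CA.SylIn CA.BlkInd CA.BlkHeight CA.BlkFirst
  CA.H11Amb CA.H11Def CA.H11Pair CA.H11Brg CA.H12Cover CA.H12Fong CA.H12FR CA.H12Brg Subgroup

/-- Fix a prime p and a maximal ideal M of the algebraic integers containing p. Let N ≤ L be normal subgroups of the finite group G with L/N a p-group, let B be a p-block of G covering the p-block c of N (some member of B has a constituent in c on restriction to N), and suppose that N contains a defect group of B. Then the stabilizer T of c in G satisfies T ∩ L = N. -/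
theorem result {G : Type*} [Group G] [Fintype G] (p : ℕ) [Fact p.Prime] (M : Ideal Cfsg.AlgInt) (hM : Cfsg.IsPModular p M) (N L : Subgroup G) [N.Normal] [L.Normal] [Fintype N] (hNL : N ≤ L) (hLN : ∃ k : ℕ, (N.subgroupOf L).index = p ^ k) (B : Set (Cfsg.IrrCharacter G)) (hB : Cfsg.IsPBlock M B) (c : Set (Cfsg.IrrCharacter N)) (hc : Cfsg.IsPBlock M c) (hcov : (∃ χ ∈ B, ∃ θ ∈ c, Cfsg.classInner (fun n : N => (χ : G → ℂ) n) (θ : N → ℂ) ≠ 0)) (hD : ∃ D : Subgroup G, Cfsg.IsDefectGroup p M B D ∧ D ≤ N) (T : Subgroup G) (hT : ∀ x : G, x ∈ T ↔ Cfsg.StabilizesBlock N c x) : T ⊓ L = N := by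
  have hp := p_eq_zero hM
  have hNN := NN_top_of_normal N
  have he := blk_ab hM hc
  have hE := blk_eB hM hB
  have h := (cov_iff_ab hM hB hc).1 hcov
  obtain rfl : T = ⊤ ⊓ Stab (ab M N c) := by
    ext x; rw [hT, stabilizesBlock_iff hM hc]
    exact ⟨fun h => ⟨mem_top x, h.2⟩, fun h => ⟨hNN (mem_top x), h.2⟩⟩
  set T := ⊤ ⊓ Stab (ab M N c)
  have hNT : N ≤ T ⊓ L := le_inf (le_stab le_top he) hNL
  have hq : ∃ n, N.relIndex (T ⊓ L) = p ^ n := by
    obtain ⟨n, hn⟩ := hLN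
    have : N.relIndex (T ⊓ L) ∣ p ^ n := 
      hn ▸ Dvd.intro _ (relIndex_mul_relIndex N _ L hNT inf_le_right)
    obtain ⟨m, -, hm⟩ := (Nat.dvd_prime_pow Fact.out).1 this
    exact ⟨m, hm⟩
  have he' := blk_of_pquot hM hNT (le_top.trans hNN) hq he
    (mem_fixed_iff_le.2 (inf_le_left.trans inf_le_right))
  obtain ⟨Q, hQ⟩ := exists_isDef hp he'
  obtain ⟨P, hP, h1⟩ := knorr hp inf_le_left (CA.Rad.le_normalizer_inf le_normalizer
    (le_top.trans (NN_top_of_normal L))) he' (fr_blk le_top hNN he hE h)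
    (by rwa [mul_assoc, he.idem]) hQ
  obtain ⟨D, hD, hDN⟩ := hD
  obtain ⟨x, -, h2⟩ := ((isDefectGroup_iff_top hM hB).1 hD).exists_conj_eq
    (fr_isDef hp le_top hNN he hE h hP)
  rw [← sup_eq_of_pquot hp hNT (le_top.trans hNN) hq he he' hQ, sup_eq_right, ← h1, ← h2,
    ← conj_eq_of_normal x N]
  exact inf_le_left.trans (conj_mono x hDN)

end Cfsg.Agent.S4673
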