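import Cfsg.Statements.S4674
import Cfsg.Agent.Lib.Block.H12Brg

set_option autoImplicit false
open Cfsg

namespace Cfsg.Agent.S4674

open CA.BlkAlg CA.BlkVal CA.BlkCore CA.BlkDefect CA.SylIn CA.BlkInd CA.BlkHeight CA.BlkFirst
  CA.H11Amb CA.H11Def CA.H11Pair CA.H11Brg CA.H12Cover CA.H12Fong CA.H12FR CA.H12Brg Subgroup

/-- Fix a prime p and a maximal ideal M of the algebraic integers containing p. Let N be a normal subgroup of the finite group G, Q a p-subgroup of N, H = N_G(Q) and L = H ∩ N = N_N(Q). Let d be a p-block of N with defect group Q and e the p-block of L with defect group Q that induces d inside N (its Brauer correspondent). Then block induction from H to G is a bijection from the p-blocks of H covering e onto the p-blocks of G covering d: every block of H covering e induces exactly one block of G, and that block covers d; and every block of G covering d is induced by exactly one block of H covering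 e. -/
theorem result {G : Type*} [Group G] [Fintype G] (p : ℕ) [Fact p.Prime] (M : Ideal Cfsg.AlgInt) (hM : Cfsg.IsPModular p M) (N : Subgroup G) [N.Normal] [Fintype N] (Q : Subgroup G) (hQ : IsPGroup p Q) (hQN : Q ≤ N) [Fintype ↥(Subgroup.normalizer (Q : Set G) ⊓ N)] (d : Set (Cfsg.IrrCharacter N)) (hd : Cfsg.IsPBlock M d) (hdQ : Cfsg.IsDefectGroup p M d (Q.subgroupOf N)) (e : Set (Cfsg.IrrCharacter ↥(Subgroup.normalizer (Q : Set G) ⊓ N))) (he : Cfsg.IsPBlock M e) (heQ : Cfsg.IsDefectGroup p M e (Q.subgroupOf (Subgroup.normalizer (Q : Set G) ⊓ N))) (hed : Cfsg.IsInducedBlockIn M N (Subgroup.normalizer (Q : Set G) ⊓ N) e d) : (∀ c : Set (Cfsg.IrrCharacter ↥(Subgroup.normalizer (Q : Set G))), Cfsg.IsPBlock M c → (∃ ψ ∈ c, ∃ ξ ∈ e, Cfsg.classInner (fun l : ↥(Subgroup.normalizer (Q : Set G) ⊓ N) => (ψ : ↥(Subgroup.normalizer (Q : Set G)) → ℂ) (Subgroup.inclusion inf_le_left l)) (ξ : ↥(Subgroup.normalizer (Q : Set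 G) ⊓ N) → ℂ) ≠ 0) → ∃! B : Set (Cfsg.IrrCharacter G), Cfsg.IsInducedBlock M (Subgroup.normalizer (Q : Set G)) c B ∧ (∃ χ ∈ B, ∃ θ ∈ d, Cfsg.classInner (fun n : N => (χ : G → ℂ) n) (θ : N → ℂ) ≠ 0)) ∧ (∀ B : Set (Cfsg.IrrCharacter G), Cfsg.IsPBlock M B → (∃ χ ∈ B, ∃ θ ∈ d, Cfsg.classInner (fun n : N => (χ : G → ℂ) n) (θ : N → ℂ) ≠ 0) → ∃! c : Set (Cfsg.IrrCharacter ↥(Subgroup.normalizer (Q : Set G))), (Cfsg.IsPBlock M c ∧ ∃ ψ ∈ c, ∃ ξ ∈ e, Cfsg.classInner (fun l : ↥(Subgroup.normalizer (Q : Set G) ⊓ N) => (ψ : ↥(Subgroup.normalizer (Q : Set G)) → ℂ) (Subgroup.inclusion inf_le_left l)) (ξ : ↥(Subgroup.normalizer (Q : Set G) ⊓ N) → ℂ) ≠ 0) ∧ Cfsg.IsInducedBlock M (Subgroup.normalizer (Q : Set G)) c B) := by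
  have hp := p_eq_zero hM
  have hNN := NN_top_of_normal N
  have hd' := blk_ab hM hd
  have hQ' := (isDefectGroup_iff_subgroupOf hM hd hQN).1 hdQ
  have hle : Q ≤ NN Q ⊓ N := le_inf le_normalizer hQN
  have h1 := (isInducedBlockIn_iff_br hM hQ hle inf_le_right
    (le_inf (inf_le_right.trans (CC_le_NN Q)) inf_le_left) inf_le_left he hd).1 hed
  have h2 : br Q (ab M N d) = ab M _ e := by
    have := hQ'.blk_br hp hd'
    rw [inf_comm] at this
    exact (blk_ab hM he).eq_of_mul_ne_zero this (h1.trans_ne (blk_ab hM he).ne)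
  have hind : ∀ {c B}, IsPBlock M c → IsPBlock M B → (IsInducedBlock M (NN Q) c B ↔ _) :=
    fun hc hB => isInducedBlock_iff_ab hM hQ le_normalizer (CC_le_NN Q) le_rfl hc hB
  have hcov : ∀ {c : Set (IrrCharacter (NN Q))}, IsPBlock M c → (_ ↔ _) := fun hc =>
    covIn_iff_ab hM (inf_le_left : NN Q ⊓ N ≤ NN Q) hc he
  have hb : ∀ {c : Set (IrrCharacter (NN Q))}, IsPBlock M c → Blk (⊤ ⊓ NN Q) (ab M _ c) :=
    fun hc => by rw [top_inf_eq]; exact blk_ab hM hc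
  constructor
  · intro c hc h
    obtain ⟨B, hB⟩ := inducedBlockDefined_of_normalizer hM hQ le_normalizer (CC_le_NN Q) le_rfl hc
    refine ⟨B, ⟨hB, (cov_iff_ab hM hB.2.1 hd).2 ?_⟩, fun B' hB' => induced_unique hM hB'.1 hB⟩
    exact hk_cov hp le_top hd' hQ' (blk_eB hM hB.2.1) (h2 ▸ (hcov hc).1 h)
      ((hind hc hB.2.1).1 hB) (hb hc).mem
  · intro B hB h
    obtain ⟨c, hc, h3, h4⟩ := hk_exists hp le_top hNN hd' hQ' (blk_eB hM hB)
      ((cov_iff_ab hM hB hd).1 h)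
    obtain ⟨c, hc', rfl⟩ := exists_ab hM (top_inf_eq (NN Q) ▸ hc)
    refine ⟨c, ⟨⟨hc', (hcov hc').2 (h2 ▸ h3)⟩, (hind hc' hB).2 h4⟩, fun c' h' => ?_⟩
    exact ab_inj hM h'.1.1 hc' (hk_unique hp le_top hNN hd' hQ' (blk_eB hM hB) (hb h'.1.1)
      (h2 ▸ (hcov h'.1.1).1 h'.1.2) ((hind h'.1.1 hB).1 h'.2) hc h3 h4)

end Cfsg.Agent.S4674
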