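import Cfsg.Statements.S4679
import Cfsg.Agent.Lib.Block.H11Fus

set_option autoImplicit false
open Cfsg

namespace Cfsg.Agent.S4679

open CA.H11Brg CA.H11Pair CA.H11Def CA.H11Amb CA.H11Max CA.H11Fus CA.BlkCore CA.SylIn

/-- Fix a prime p and a maximal ideal M of the algebraic integers containing p, a p-block B of the finite group G with maximal Brauer pair (P, e), its fusion system F on P, a Brauer pair (Q, f) ≤ (P, e), and let T be the stabilizer of f in N_G(Q). Then Q is fully normalized in F if and only if N_P(Q) is a defect group of the block of T whose idempotent is that of f. -/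
theorem result {G : Type*} [Group G] [Fintype G] (p : ℕ) [Fact p.Prime] (M : Ideal Cfsg.AlgInt) (hM : Cfsg.IsPModular p M) (B : Set (Cfsg.IrrCharacter G)) (P : Subgroup G) (e : Set (Cfsg.IrrCharacter (Subgroup.centralizer (P : Set G)))) (hmax : Cfsg.IsMaximalBrauerPair p M B P e) (F : Cfsg.FusionSystem P) (hF : Cfsg.IsBlockFusionSystemOn p M B P e F) (Q : Subgroup G) (f : Set (Cfsg.IrrCharacter (Subgroup.centralizer (Q : Set G)))) (hQP : Q ≤ P) (hf : Cfsg.IsPBlock M f) (hle : Cfsg.SubpairLE p M Q f P e) (T : Subgroup G) (hT : ∀ y : G, y ∈ T ↔ y ∈ Subgroup.normalizer (Q : Set G) ∧ Cfsg.StabilizesBlock (Subgroup.centralizer (Q : Set G)) f y) : F.IsFullyNormalized Q ↔ ∃ F' : Set (Cfsg.IrrCharacter T), Cfsg.IsPBlock M F' ∧ (∀ t : T, Cfsg.blockCoeff F' t = Cfsg.subgroupBlockCoeff (Subgroup.centralizer (Q : Set G)) f (t : G)) ∧ Cfsg.IsDefectGroup p M F' ((P ⊓ Subgroup.normalizer (Q : Set G)).subgroupOf T) := by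
  have hp := CA.BlkDefect.p_eq_zero hM
  have h := mx_of hM hmax
  have hs := sub_of_subpairLE hM hle
  have hq := hs.pr h.pr
  obtain rfl := eq_St hM hf hT
  have hC : CC Q ≤ St ⊤ Q (ab M (CC Q) f) := by simpa using hq.C_le_St
  have hN := Sub.norm_le_St hp h.pr hs
  rw [((isBlockFusionSystemOn_iff hM).1 hF).2.fullyNorm_iff hp h hs]
  constructor
  · intro hD
    obtain ⟨F', hF', h1, h2⟩ := exists_block_of_le hM (⟨hq.pg, hf⟩ : IsBrauerPair p M Q f)
      hq.le_St hC le_rfl
    exact ⟨F', hF', h1, (isDefectGroup_iff_subgroupOf hM hF' hN).2 (by rw [h2]; exact hD)⟩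
  · rintro ⟨F', hF', h1, h2⟩
    have h3 := (isDefectGroup_iff_subgroupOf hM hF' hN).1 h2
    rwa [(blockCoeff_eq_iff hM hF' hf hC).1 h1] at h3

end Cfsg.Agent.S4679
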