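import Cfsg.Statements.S4681
import Cfsg.Agent.Lib.Block.H11Fus

set_option autoImplicit false
open Cfsg

namespace Cfsg.Agent.S4681

open CA.H11Brg CA.H11Pair CA.H11Def CA.H11Amb CA.H11Max CA.H11Fus CA.BlkCore CA.SylIn

/-- Fix a prime p and a maximal ideal M of the algebraic integers containing p. Let B₀ be the principal p-block of the finite group G, P a Sylow p-subgroup and e₀ the principal p-block of C_G(P). Then (P, e₀) is a maximal Brauer pair of B₀, and the fusion system of B₀ on (P, e₀) is the fusion system of G on P: its maps from each subgroup of P are exactly the conjugation maps into P by elements of G. -/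
theorem result {G : Type*} [Group G] [Fintype G] (p : ℕ) [Fact p.Prime] (M : Ideal Cfsg.AlgInt) (hM : Cfsg.IsPModular p M) (S : Sylow p G) : Cfsg.IsMaximalBrauerPair p M (Cfsg.principalBlock M G) (S : Subgroup G) (Cfsg.principalBlock M (Subgroup.centralizer ((S : Subgroup G) : Set G))) ∧ ∀ F : Cfsg.FusionSystem (S : Subgroup G), Cfsg.IsBlockFusionSystemOn p M (Cfsg.principalBlock M G) (S : Subgroup G) (Cfsg.principalBlock M (Subgroup.centralizer ((S : Subgroup G) : Set G))) F → ∀ Q : Subgroup G, F.Hom Q = (Cfsg.groupFusionSystem (S : Subgroup G)).Hom Q := by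
  have hp := CA.BlkDefect.p_eq_zero hM
  have hB : IsPBlock M (principalBlock M G) := isPBlock_principalBlock
  have hb := blk_eB hM hB
  have ha := aug_eB_principal (G := G) hM
  obtain ⟨e, h, he⟩ := exists_mx_of_aug hp hb ha (isSylowIn_top S)
  obtain ⟨e', he', rfl⟩ := exists_of_pr hM h.pr
  obtain rfl := (eq_principal_iff_ab hM he'.2).2 he
  refine ⟨isMaximal_of_mx hM hB he'.2 h, fun F hF Q => CA.Fus.hom_eq_iff.2 fun φ => ?_⟩
  rw [((isBlockFusionSystemOn_iff hM).1 hF).2, CA.Fus.mor_group]
  constructor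
  · rintro ⟨h1, g, h2, f, -, h3⟩
    exact ⟨h1, fun x hx => by rw [h2 x hx]; exact h3.le (conj_mem_conj.2 hx), g, h2⟩
  · rintro ⟨h1, h2, g, h3⟩
    obtain ⟨f, hf⟩ := exists_sub hp h.pr h1
    refine ⟨h1, g, h3, f, hf, sub_of_aug hp ((hf.pr h.pr).conj_of_mem trivial) h.pr ?_ he
      (conj_le_iff.2 fun x hx => h3 x hx ▸ h2 x hx)⟩
    rw [aug_cjA, aug_of_sub hp hf he]

end Cfsg.Agent.S4681
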