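import Cfsg.Statements.S4683
import Cfsg.Agent.Lib.Block.H11Sec
import Cfsg.Agent.Lib.Block.H11Fus

set_option autoImplicit false
open Cfsg

namespace Cfsg.Agent.S4683

open Cfsg CA.BlkVal CA.BlkCore CA.BlkReg CA.H11Sec CA.H11Cyclo CA.H11Contrib CA.BlkBas CChar.CharFun CChar.CharOrth CChar.CharGen Subgroup ComplexConjugate

/-- Fix a prime p and a maximal ideal M of the algebraic integers containing p, a p-block B of the finite group G, a p-element u and a p-block e of C = C_G(u) such that (⟨u⟩, e) is a Brauer pair of B (a Brauer element of B). For χ ∈ B let χ_u be the e-part of the class function c ↦ χ(u c) on C and χ_u' the e-part of c ↦ χ(u⁻¹ c). Then the sum over χ ∈ B and over the p-regular elements s of C of χ_u(s)·χ_u'(s⁻¹) equals the order of C times the p-regular rank of e (the number of irreducible Brauer characters of e). -/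
theorem result {G : Type*} [Group G] [Fintype G] (p : ℕ) [Fact p.Prime] (M : Ideal Cfsg.AlgInt) (hM : Cfsg.IsPModular p M) (B : Set (Cfsg.IrrCharacter G)) (u : G) (hu : ∃ k : ℕ, orderOf u = p ^ k) (e : Set (Cfsg.IrrCharacter (Subgroup.centralizer (Subgroup.zpowers u : Set G)))) (hBe : Cfsg.IsBrauerPairOf p M B (Subgroup.zpowers u) e) : ∑ᶠ χ ∈ B, ∑ᶠ s : Subgroup.centralizer (Subgroup.zpowers u : Set G), Cfsg.pRegularPart p (Cfsg.blockPart e (fun c : Subgroup.centralizer (Subgroup.zpowers u : Set G) => (χ : G → ℂ) (u * c))) s * Cfsg.blockPart e (fun c : Subgroup.centralizer (Subgroup.zpowers u : Set G) => (χ : G → ℂ) (u⁻¹ * c)) s⁻¹ = (Nat.card (Subgroup.centralizer (Subgroup.zpowers u : Set G)) : ℂ) * (Cfsg.blockRank p e : ℂ) := by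
  classical
  have hH := CA.H11Amb.CC_zpowers u
  have hind := (CA.H11Fus.isBrauerPairOf_iff_ind hM hBe.1.1).1 hBe
  have hu' := self_mem_of_eq hH
  rw [← sum_cb_self hM hu hH hind, Finset.mul_sum, ← finsum_mem_coe_finset]
  simp only [Finset.coe_filter, Finset.mem_univ, true_and, Set.setOf_mem_eq]
  refine finsum_mem_congr rfl fun χ _ => ?_
  rw [finsum_eq_sum_of_fintype, cb_def, sp_def, inner_pReg_pReg, card_mul_inner]
  refine Finset.sum_congr rfl fun s _ => ?_
  congr 1
  rw [blockPart_eq_sum', blockPart_eq_sum', Finset.sum_apply, Finset.sum_apply, map_sum]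
  refine Finset.sum_congr rfl fun ξ _ => ?_
  have hH' : centralizer (zpowers u : Set G) ≤ centralizer {u⁻¹} := fun x hx =>
    mem_centralizer_singleton_iff.2 (Commute.inv_right (mem_centralizer_singleton_iff.1 (hH.le hx))).eq
  obtain ⟨n, hn⟩ := inner_char_char (char_restrict (char_of_irr χ.2) (centralizer (zpowers u : Set G)))
    (char_of_irr ξ.2)
  obtain ⟨m, -, hm⟩ := irr_apply_one ξ.2
  have h1 := inner_tr_irr hH' (inv_mem hu') χ.1 ξ
  have h2 := char_apply_inv (char_of_irr ξ.2) ⟨u, hu'⟩
  simp only [Pi.smul_apply, smul_eq_mul, map_mul]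
  rw [inner_tr_irr hH.le hu', char_apply_inv (char_of_irr ξ.2)]
  congr 1
  refine h1.trans ?_
  rw [hn, hm, map_mul, map_div₀, Complex.conj_natCast, Complex.conj_natCast, ← h2]
  rfl

end Cfsg.Agent.S4683
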