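import Cfsg.Statements.S4684
import Cfsg.Agent.Lib.Block.H11Foc

set_option autoImplicit false
open Cfsg

namespace Cfsg.Agent.S4684

open CA.H11NilB CA.H11Fus CA.H11Brg CA.H11Foc Subgroup

/-- Fix a prime p and a maximal ideal M of the algebraic integers containing p, a p-block B of the finite group G with maximal Brauer pair (P, e) and fusion system F on P. Then the number of irreducible characters of height zero in B is divisible by the index in P of the focal subgroup of F. -/
theorem result {G : Type*} [Group G] [Fintype G] (p : ℕ) [Fact p.Prime] (M : Ideal Cfsg.AlgInt) (hM : Cfsg.IsPModular p M) (B : Set (Cfsg.IrrCharacter G)) (P : Subgroup G) (e : Set (Cfsg.IrrCharacter (Subgroup.centralizer (P : Set G)))) (hmax : Cfsg.IsMaximalBrauerPair p M B P e) (F : Cfsg.FusionSystem P) (hF : Cfsg.IsBlockFusionSystemOn p M B P e F) : (F.focalSubgroup.subgroupOf P).index ∣ Nat.card {χ : Cfsg.IrrCharacter G // χ ∈ B ∧ Cfsg.blockHeight p B (χ : G → ℂ) = 0} := by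
    have h := mx_of hM hmax
    have hB := (max_spec hM hmax).1
    have := index_dvd_card_height hM hB h 0 ⊥ fun χ hχ h0 l hl =>
      Subtype.ext (eq_one_of_height_zero hM hB h l.2 hχ h0 hl)
    rwa [index_bot, lin_eq hM h.pr ((isBlockFusionSystemOn_iff hM).1 hF).2,
      card_Ann (commutator_le F)] at this

end Cfsg.Agent.S4684
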