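import Cfsg.Statements.S4685
import Cfsg.Agent.Lib.Block.H11Foc

set_option autoImplicit false
open Cfsg

namespace Cfsg.Agent.S4685

open CA.H11NilB CA.H11Fus CA.H11Brg CA.H11Foc CA.H11Amb Subgroup

/-- Fix a prime p and a maximal ideal M of the algebraic integers containing p, a p-block B of the finite group G with maximal Brauer pair (P, e) and fusion system F on P. Then for every h the number of irreducible characters of height h in B is divisible by the index of Z(P) ∩ foc(F) in Z(P), where foc(F) is the focal subgroup of F. -/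
theorem result {G : Type*} [Group G] [Fintype G] (p : ℕ) [Fact p.Prime] (M : Ideal Cfsg.AlgInt) (hM : Cfsg.IsPModular p M) (B : Set (Cfsg.IrrCharacter G)) (P : Subgroup G) (e : Set (Cfsg.IrrCharacter (Subgroup.centralizer (P : Set G)))) (hmax : Cfsg.IsMaximalBrauerPair p M B P e) (F : Cfsg.FusionSystem P) (hF : Cfsg.IsBlockFusionSystemOn p M B P e F) (h : ℕ) : ((P ⊓ Subgroup.centralizer (P : Set G) ⊓ F.focalSubgroup).subgroupOf (P ⊓ Subgroup.centralizer (P : Set G))).index ∣ Nat.card {χ : Cfsg.IrrCharacter G // χ ∈ B ∧ Cfsg.blockHeight p B (χ : G → ℂ) = h} := by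
    have hm := mx_of hM hmax
    have hB := (max_spec hM hmax).1
    have h1 := lin_eq hM hm.pr ((isBlockFusionSystemOn_iff hM).1 hF).2
    have := index_dvd_card_height hM hB hm h ((Ann ((CC P).subgroupOf P ⊔
      F.focalSubgroup.subgroupOf P)).subgroupOf _) fun χ hχ _ l hl => mem_subgroupOf.2 (mem_Ann.2
        (sup_le (fun v hv => eq_one_of_central hM hB hm l.2 hχ hl hv) (mem_Ann.1 (h1 ▸ l.2))))
    rw [← relIndex, h1, relIndex_Ann (commutator_le F), ← inf_subgroupOf_left (CC P),
      relIndex_subgroupOf inf_le_left] at this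
    rwa [inf_subgroupOf_left]

end Cfsg.Agent.S4685
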