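import Cfsg.Statements.S4687
import Cfsg.Agent.Lib.Block.H11Fus

set_option autoImplicit false
open Cfsg

namespace Cfsg.Agent.S4687

open CA.H11Brg CA.H11Pair CA.H11Def CA.H11Amb CA.H11Max CA.H11Fus CA.BlkCore CA.SylIn

/-- Fix a prime p and a maximal ideal M of the algebraic integers containing p, and a p-block B of the finite group G with maximal Brauer pair (P, e), P abelian. Then B is nilpotent if and only if its inertial quotient is trivial: every element of N_G(P) stabilizing e centralizes P. -/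
theorem result {G : Type*} [Group G] [Fintype G] (p : ℕ) [Fact p.Prime] (M : Ideal Cfsg.AlgInt) (hM : Cfsg.IsPModular p M) (B : Set (Cfsg.IrrCharacter G)) (P : Subgroup G) (e : Set (Cfsg.IrrCharacter (Subgroup.centralizer (P : Set G)))) (hmax : Cfsg.IsMaximalBrauerPair p M B P e) (hab : ∀ x ∈ P, ∀ y ∈ P, x * y = y * x) : Cfsg.IsNilpotentBlock p M B ↔ ∀ x : G, x ∈ Subgroup.normalizer (P : Set G) → Cfsg.StabilizesBlock (Subgroup.centralizer (P : Set G)) e x → x ∈ Subgroup.centralizer (P : Set G) := by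
  have hP : P ≤ CC P := fun x hx => mem_CC.2 fun u hu => hab u hu x hx
  rw [isNilpotentBlock_iff hM, (mx_of hM hmax).nil_iff_of_comm (CA.BlkDefect.p_eq_zero hM) hP,
    and_iff_right hmax.1.2.1]
  have he := hmax.1.1.2
  constructor
  · exact fun h x h1 h2 => h (mem_St.2 ⟨trivial, h1, (stabilizesBlock_CC_iff hM he h1).1 h2⟩)
  · intro h x hx
    obtain ⟨-, h1, h2⟩ := mem_St.1 hx
    exact h x h1 ((stabilizesBlock_CC_iff hM he h1).2 h2)

end Cfsg.Agent.S4687
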