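import Cfsg.Statements.S4690
import Cfsg.Agent.Lib.Block.H11NilB

set_option autoImplicit false
open Cfsg

namespace Cfsg.Agent.S4690

open CA.H11NilB CA.H11Fus CA.BlkHeight CA.BlkCore CA.H11Max CA.H11Brg CA.H11Eta CA.H11Star CA.H13Span CChar.CharInt

/-- Fix a prime p and a maximal ideal M of the algebraic integers containing p, and a nilpotent p-block B of the finite group G with defect group P. Then there is a bijection from B onto the irreducible characters of P carrying the height of each χ ∈ B to the exponent of p in the degree of its image. -/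
theorem result {G : Type*} [Group G] [Fintype G] (p : ℕ) [Fact p.Prime] (M : Ideal Cfsg.AlgInt) (hM : Cfsg.IsPModular p M) (B : Set (Cfsg.IrrCharacter G)) (hnil : Cfsg.IsNilpotentBlock p M B) (P : Subgroup G) (hP : Cfsg.IsDefectGroup p M B P) : ∃ Φ : B ≃ Cfsg.IrrCharacter P, ∀ χ : B, Cfsg.blockHeight p B ((χ : Cfsg.IrrCharacter G) : G → ℂ) = (Cfsg.charDegree ((Φ χ : Cfsg.IrrCharacter P) : P → ℂ)).factorization p := by
    obtain ⟨hB, hn⟩ := (isNilpotentBlock_iff hM).1 hnil
    obtain ⟨χ, hχ, h0⟩ := exists_height_zero (p := p) (block_nonempty hM hB)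
    obtain ⟨e, h⟩ := exists_mx (p_eq hM) (blk_eB hM hB) ((isDefectGroup_iff_top hM hB).1 hP)
    obtain ⟨Φ, h1⟩ := exists_equiv_nil hM hB h hn hχ h0
    refine ⟨Φ.symm, fun ψ => ?_⟩
    obtain ⟨η, rfl⟩ := Φ.surjective ψ
    rw [Φ.symm_apply_apply, height_eq_of_deg hM.1 hχ (charDegree_pos η.2).ne' (by
      rw [h1, st_apply_one hM hB h (inSpan_irr hχ), irr_apply_one_eq η.2]), h0, add_zero]

end Cfsg.Agent.S4690
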