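import Cfsg.Statements.S4692
import Cfsg.Agent.Lib.Block.H12Brg
import Cfsg.Agent.Lib.Block.H11Fus
import Cfsg.Agent.Lib.Block.BlkQuo

set_option autoImplicit false
open Cfsg

namespace Cfsg.Agent.S4692

open MonoidAlgebra CA.BlkAlg CA.BlkVal CA.BlkCore CA.BlkDefect CA.SylIn CA.H12PPart
  CA.H11Amb CA.H11Def CA.H11Pair CA.H11Brg CA.H11Max CA.H11Fus CA.H12Fong CA.H12Brg Subgroup

theorem cent {G : Type*} [Group G] [Finite G] {p : ℕ} [hp : Fact p.Prime] {Q N : Subgroup G}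
    [hN : N.Normal] (hQ : IsPGroup p Q) {x : G} (hx : ¬ p ∣ orderOf x) (h1 : x ∈ N) (h2 : x ∈ NN Q)
    (h3 : x ∈ CC (Q ⊓ N)) : x ∈ CC Q := fun u (hu : u ∈ Q) => by
  have h4 : u⁻¹ * (x * u * x⁻¹) ∈ Q ⊓ N := ⟨Q.mul_mem (Q.inv_mem hu)
    (conj_mem_of_mem_normalizer h2 hu), by
      have := mul_mem (hN.conj_mem x h1 u⁻¹) (inv_mem h1)
      simpa [mul_assoc] using this⟩
  set z := u⁻¹ * (x * u * x⁻¹) with hz
  have h5 : ∀ m : ℕ, x ^ m * u = u * z ^ m * x ^ m := fun m => by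
    induction m with
    | zero => simp
    | succ m ih =>
      have : x * z ^ m = z ^ m * x := (h3 _ (pow_mem h4 m)).symm
      calc x ^ (m + 1) * u = x * u * x⁻¹ * (x * z ^ m) * x ^ m := by rw [pow_succ', mul_assoc, ih]; group
        _ = u * (z * z ^ m) * (x * x ^ m) := by
          rw [this, show x * u * x⁻¹ = u * z by rw [hz]; group, ← pow_succ' x, pow_succ x]
          simp only [mul_assoc, (Commute.pow_self x m).eq]
        _ = _ := by rw [← pow_succ', ← pow_succ']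
  have h6 := h5 (orderOf x)
  rw [pow_orderOf_eq_one, one_mul, mul_one, left_eq_mul] at h6
  obtain ⟨k, hk⟩ := CA.BlkQuo.orderOf_eq_pow_of_mem hp.out hQ h4.1
  have h7 : orderOf z = 1 := Nat.Coprime.eq_one_of_dvd
    (hk ▸ ((Nat.Prime.coprime_iff_not_dvd hp.out).2 hx).pow_left k) (orderOf_dvd_of_pow_eq_one h6)
  have h8 := h5 1
  rw [orderOf_eq_one_iff.1 h7] at h8
  simpa using h8.symm

/-- Fix a prime p and a maximal ideal M of the algebraic integers containing p. Let N be a normal subgroup of p-power index in the finite group G and c a p-block of N stable under conjugation by G, and let B be the p-block of G whose idempotent is that of c (it exists and is unique). Then c is nilpotent as a block of N if and only if B is nilpotent as a block of G. -/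
theorem result {G : Type*} [Group G] [Fintype G] (p : ℕ) [Fact p.Prime] (M : Ideal Cfsg.AlgInt) (hM : Cfsg.IsPModular p M) (N : Subgroup G) [N.Normal] (hN : ∃ k : ℕ, N.index = p ^ k) (c : Set (Cfsg.IrrCharacter N)) (hc : Cfsg.IsPBlock M c) (hst : ∀ x : G, Cfsg.StabilizesBlock N c x) (B : Set (Cfsg.IrrCharacter G)) (hB : Cfsg.IsPBlock M B) (hBc : ∀ g : G, Cfsg.blockCoeff B g = Cfsg.subgroupBlockCoeff N c g) : Cfsg.IsNilpotentBlock p M c ↔ Cfsg.IsNilpotentBlock p M B := by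
  have hp := p_eq_zero hM
  have he := (blockCoeff_eq_iff_top hM hB hc).1 hBc
  have hE := blk_eB hM hB
  have hr : ∀ x : G, ¬ p ∣ orderOf x → x ∈ N := fun x => CA.BlkQuo.regular_mem_of_index hM.1 N hN
  have hn : ∀ (Q : Subgroup G) (x : G), x ∈ NN Q → x ∈ NN (N ⊓ CC Q) := fun Q x hx =>
    inf_normalizer_le_normalizer_inf _ _ ⟨NN_top_of_normal N trivial,
      normalizer_le_normalizer_centralizer Q hx⟩
  have hm : ∀ (Q : Subgroup G) (F f : (k M)[G]), Blk (⊤ ⊓ CC Q) F → Blk (N ⊓ CC Q) f → F * f ≠ 0 →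
      F * f = f := fun Q F f hF hf h => hf.mul_eq_self_of_ne (mem_ZA.2 ⟨fun x hx => by_contra
        fun e => hx ⟨hr x (not_dvd_of_coeff_ne hM hF e), (by_contra fun h' => e
          (hF.supp x fun h => h' h.2))⟩, fixed_anti (inf_le_inf_right _ le_top) hF.fixed⟩) hF.idem h
  rw [isNilpotentBlock_iff_ab hM, isNilpotentBlock_iff hM, ← he, and_iff_right hc, and_iff_right hB]
  refine ⟨fun h Q F hF h1 x hx hx' => ?_, fun h Q f hf h1 x hx hx' => ?_⟩
  · refine cent hF.pg hx' (hr x hx') (St_le_NN hx) ?_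
    obtain ⟨F₀, h2⟩ := exists_sub hp hF (inf_le_left (b := N))
    have h3 := h2.pr hF
    have hx0 : x ∈ NN (Q ⊓ N) := inf_normalizer_le_normalizer_inf _ _
      ⟨St_le_NN hx, NN_top_of_normal N trivial⟩
    have h4 := h2.fixed_of_stab hp hF trivial (St_le_NN hx) (mem_St.1 hx).2.2 hx0
    obtain ⟨f, h5, h6⟩ := exists_cov' (N ⊓ CC (Q ⊓ N)) h3.blk
    have hC : ∀ n ∈ CC (Q ⊓ N), n ∈ NN (Q ⊓ N) := fun n h => centralizer_le_normalizer _ h
    obtain ⟨n, h7, h8⟩ := exists_conj_of_cov (inf_le_inf_right _ le_top)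
      (fun n h => hn _ n (hC n h.2)) h5 (h5.conj_of_mem (hn _ x hx0)) h3.blk h6
      (by rw [← h4, ← map_mul]; exact (map_ne_zero_iff _ (cjA x).injective).2 h6)
    have h9 : n⁻¹ * x ∈ St ⊤ (Q ⊓ N) f := mem_St.2 ⟨trivial, mul_mem (inv_mem (hC n h7.2)) hx0, by
      rw [cjA_mul_apply, h8, ← cjA_mul_apply, inv_mul_cancel, cjA_one]⟩
    have h10 := pReg_mem hM.1 h9
    have h11 := not_dvd_orderOf_pReg hM.1 (n⁻¹ * x)
    have h12 := h (Q ⊓ N) f ⟨inf_le_right, h3.pg, h5⟩ (by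
      rw [← hm _ _ _ h3.blk h5 h6, ← mul_assoc, (h2.of_iff hp le_top hE).1 h1]) _
      (mem_St.2 ⟨hr _ h11, (mem_St.1 h10).2⟩) h11
    obtain ⟨m, h13⟩ := orderOf_pPart hM.1 (n⁻¹ * x)
    have h14 : (n⁻¹ * x) ^ p ^ m ∈ CC (Q ⊓ N) := by
      rw [← pPart_mul_pReg p (n⁻¹ * x), (commute_pPart_pReg hM.1 _).mul_pow, ← h13,
        pow_orderOf_eq_one, one_mul]
      exact pow_mem h12 _
    refine mem_of_pow_p_pow_mem hM.1 hx' (n := m) ?_
    simpa using mul_mem (inv_mem (mul_pow_mul_inv_mem (inv_mem h7.2)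
      (normalizer_le_normalizer_centralizer _ hx0) (p ^ m))) h14
  obtain ⟨F, h2, h3⟩ := exists_cov (⊤ ⊓ CC Q) hf.blk
  have h4 := hm _ _ _ h2 hf.blk h3
  have h5 := (mem_St.1 hx).2
  refine h Q F ⟨le_top, hf.pg, h2⟩ (h2.mul_eq_self_of_ne (br_mem_ZA_C hE.mem)
    (br_idem hp hf.pg (fixed_anti le_top hE.fixed) hE.idem) fun e => hf.blk.ne ?_) x
    (mem_St.2 ⟨trivial, h5.1, h2.eq_of_mul_ne_zero (h2.conj_of_mem
      (inf_normalizer_le_normalizer_inf _ _ ⟨NN_top_of_normal ⊤ trivial,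
        normalizer_le_normalizer_centralizer Q h5.1⟩)) fun e => hf.blk.ne ?_⟩) hx'
  · rw [← h1, ← h4, ← mul_assoc, e, zero_mul]
  · have h6 : cjA x F * f = f := by rw [← h5.2, ← map_mul, h4]
    rw [← h6, ← h4, ← mul_assoc, e, zero_mul]

end Cfsg.Agent.S4692
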