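import Cfsg.Statements.S4693
import Cfsg.Agent.Lib.Block.H11Fus

set_option autoImplicit false
open Cfsg

namespace Cfsg.Agent.S4693

open CA.H11Brg CA.H11Pair CA.H11Def CA.H11Amb CA.H11Max CA.H11Fus CA.BlkCore CA.SylIn Subgroup

/-- Fix a prime p and a maximal ideal M of the algebraic integers containing p, a p-block B of the finite group G with maximal Brauer pair (P, e) and fusion system F on P, and a Brauer pair (Q, f) ≤ (P, e) with Q centric in F. Suppose every element of G normalizes Q and stabilizes f. Then the idempotent of B agrees with that of f modulo M at every element of G, and f is the idempotent of a nilpotent block of Q·C_G(Q): some p-block of Q·C_G(Q) has the idempotent coefficients of f and is nilpotent. -/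
theorem result {G : Type*} [Group G] [Fintype G] (p : ℕ) [Fact p.Prime] (M : Ideal Cfsg.AlgInt) (hM : Cfsg.IsPModular p M) (B : Set (Cfsg.IrrCharacter G)) (P : Subgroup G) (e : Set (Cfsg.IrrCharacter (Subgroup.centralizer (P : Set G)))) (hmax : Cfsg.IsMaximalBrauerPair p M B P e) (F : Cfsg.FusionSystem P) (hF : Cfsg.IsBlockFusionSystemOn p M B P e F) (Q : Subgroup G) (f : Set (Cfsg.IrrCharacter (Subgroup.centralizer (Q : Set G)))) (hQP : Q ≤ P) (hf : Cfsg.IsPBlock M f) (hle : Cfsg.SubpairLE p M Q f P e) (hcen : F.IsCentric Q) (hG : ∀ x : G, x ∈ Subgroup.normalizer (Q : Set G) ∧ Cfsg.StabilizesBlock (Subgroup.centralizer (Q : Set G)) f x) : (∀ g : G, Cfsg.MemLocalIdeal M (Cfsg.blockCoeff B g - Cfsg.subgroupBlockCoeff (Subgroup.centralizer (Q : Set G)) f g)) ∧ ∃ F' : Set (Cfsg.IrrCharacter ↥(Q ⊔ Subgroup.centralizer (Q : Set G))), Cfsg.IsPBlock M F' ∧ (∀ t : ↥(Q ⊔ Subgroup.centralizer (Q : Set G)), Cfsg.blockCoeff F' t = Cfsg.subgroupBlockCoeff (Subgroup.centralizer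 (Q : Set G)) f (t : G)) ∧ Cfsg.IsNilpotentBlock p M F' := by
  have hp := CA.BlkDefect.p_eq_zero hM
  have h := mx_of hM hmax
  have hs := sub_of_subpairLE hM hle
  have hq := hs.pr h.pr
  have hT : St ⊤ Q (ab M (CC Q) f) = ⊤ :=
    (eq_St hM hf (T := ⊤) fun y => ⟨fun _ => hG y, fun _ => trivial⟩).symm
  have hC := (((isBlockFusionSystemOn_iff hM).1 hF).2.centric_iff hp h hs).1 hcen
  constructor
  · have h1 := hq.blk_St hp
    rw [hT] at h1
    have h2 : eB M B = ab M (CC Q) f := hq.of_unique hp h.blk h1 (h.of_sub hp hs)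
      (by rw [hq.br_self]; exact hq.blk.idem)
    intro g
    rw [memLocalIdeal_coeff_iff hM hmax.1.2.1 hf, h2]
  · obtain ⟨F', hF', h1, h2⟩ := exists_block_of_le hM (⟨hq.pg, hf⟩ : IsBrauerPair p M Q f)
      (L := Q ⊔ CC Q) le_sup_left le_sup_right (by rw [hT]; exact le_top)
    refine ⟨F', hF', h1, (isNilpotentBlock_iff_ab hM).2 ⟨hF', ?_⟩⟩
    rw [h2]
    have h3 : IsDef p (Q ⊔ ⊤ ⊓ CC Q) (ab M (CC Q) f) Q :=
      isDef_sup_of_cent hp hq (Sub.refl p ⊤ Q _) (by rwa [top_inf_eq]) le_rfl inf_le_left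
        (le_inf le_rfl le_normalizer)
    rw [top_inf_eq] at h3
    exact nil_of_le_sup h3 (sup_le le_normalizer (CC_le_NN Q)) le_rfl

end Cfsg.Agent.S4693
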