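import Cfsg.Statements.S4694
import Cfsg.Agent.Lib.Block.BlkDom
import Cfsg.Agent.Lib.Block.H12Cover
import Cfsg.Agent.Lib.Char.Ext
import Cfsg.Agent.Lib.Block.BlkCov

set_option autoImplicit false
open Cfsg

namespace Cfsg.Agent.S4694
open Cfsg MonoidAlgebra CA.BlkAlg CA.BlkVal CA.BlkOmega CA.BlkRed CA.BlkCore CA.BlkDefect CA.BlkInd CA.BlkHeight CA.SylIn CA.H12PPart CChar.CharFun CChar.CharOrth Subgroup CA.BlkKer CChar.CharKer CA.BlkZero CChar.CharInt CA.BlkReg CA.BlkGal CA.BlkQuo CA.BlkCov CA.H12Cover CA.Clif CA.BlkDom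

theorem dz_under {p : ℕ} (hp : p.Prime) {S : Type*} [Group S] [Finite S] {N : Subgroup S} [N.Normal]
    {χ : IrrCharacter S} (h : DZ p χ) {θ : IrrCharacter N} (ho : Over N χ.1 θ.1) : DZ p θ := by
  classical
  haveI := Fintype.ofFinite N
  obtain ⟨e, he, h1⟩ := CA.Ext.exists_dvd_index θ.2 χ.2 (over_iff.1 ho)
  have hd : charDegree χ.1 = e * charDegree θ.1 := by
    apply charDegree_eq
    rw [h1, irr_apply_one_eq θ.2]; push_cast; rfl
  have he0 : e ≠ 0 := by
    rintro rfl
    have := charDegree_pos χ.2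
    omega
  have hθ0 := (charDegree_pos θ.2).ne'
  rw [dz_iff_le]
  have h2 := dz_def.1 h
  rw [hd, ← N.card_mul_index, Nat.factorization_mul he0 hθ0,
    Nat.factorization_mul Nat.card_pos.ne' N.index_ne_zero_of_finite] at h2
  simp only [Finsupp.add_apply] at h2
  have h3 : e.factorization p ≤ N.index.factorization p :=
    (Nat.factorization_le_iff_dvd he0 N.index_ne_zero_of_finite).2 he p
  omega

theorem key {p : ℕ} [Fact p.Prime] {M : Ideal AlgInt} (hM : IsPModular p M) {C S : Type*} [Group C]
    [Group S] [Finite C] [Finite S] (φ : C →* S) [φ.range.Normal] (hk : IsPGroup p φ.ker)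
    (hc : ∀ g, g ∈ centralizer (φ.ker : Set C)) {χ : IrrCharacter S} (h : DZ p χ)
    {e : Set (IrrCharacter C)} (he : IsPBlock M e)
    (h0 : chiL (fun x => χ.1 (φ x)) (fB e) ≠ 0) : IsDefectGroup p M e φ.ker := by
  have hs : Function.Surjective φ.rangeRestrict := φ.rangeRestrict_surjective
  have hker : φ.rangeRestrict.ker = φ.ker := MonoidHom.ker_rangeRestrict φ
  have h1 : chiL χ.1 (emb φ.range (fB (infl hs ⁻¹' e))) ≠ 0 := by
    rw [chiL_emb, ← mp_fB hs, CA.H11Brg.chiL_mp]
    exact h0
  obtain ⟨θ, hθ, ho⟩ := (chiL_emb_fB_ne_zero_iff _ (char_of_irr χ.2) _).1 h1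
  have hθz : DZ p θ := dz_under Fact.out h ho
  obtain ⟨P, hP⟩ := CA.BlkDefect.exists_isDefectGroup hM he
  have hk' : IsPGroup p φ.rangeRestrict.ker := by rw [hker]; exact hk
  have hc' : ∀ g, ¬ p ∣ orderOf g → g ∈ centralizer (φ.rangeRestrict.ker : Set C) := by
    intro g _; rw [hker]; exact hc g
  have h2 := isDefectGroup_preimage hs hM hk' hc' he hP
  have h3 := (defectGroup_eq_bot_iff_dz hM (isPBlock_preimage_of_regular hs hM hk' hc' he) hθ h2).2 hθz
  rw [Subgroup.map_eq_bot_iff, hker] at h3
  have h4 : φ.ker ≤ P := CA.BlkInd.le_defectGroup_of_normal hM he hP hk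
  rwa [le_antisymm h4 h3]

/-- Fix a prime p and a maximal ideal M of the algebraic integers containing p, a p-block B of the finite group G and a Brauer pair (Q, e) of B. Let T be the stabilizer of e in N_G(Q) and suppose that (Q, e) carries a weight: the block of T whose idempotent is that of e contains an irreducible character χ that is constant on the cosets of Q and whose degree has p-part equal to the p-part of the index of Q in T. Then Z(Q) is a defect group of e as a block of C_G(Q), and Q is the largest normal p-subgroup of T: every p-subgroup of T normalized by T lies in Q. -/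
theorem result {G : Type*} [Group G] [Fintype G] (p : ℕ) [Fact p.Prime] (M : Ideal Cfsg.AlgInt) (hM : Cfsg.IsPModular p M) (B : Set (Cfsg.IrrCharacter G)) (Q : Subgroup G) (e : Set (Cfsg.IrrCharacter (Subgroup.centralizer (Q : Set G)))) (hQe : Cfsg.IsBrauerPairOf p M B Q e) (T : Subgroup G) (hT : ∀ y : G, y ∈ T ↔ y ∈ Subgroup.normalizer (Q : Set G) ∧ Cfsg.StabilizesBlock (Subgroup.centralizer (Q : Set G)) e y) (F' : Set (Cfsg.IrrCharacter T)) (hF' : Cfsg.IsPBlock M F') (hF'e : ∀ t : T, Cfsg.blockCoeff F' t = Cfsg.subgroupBlockCoeff (Subgroup.centralizer (Q : Set G)) e (t : G)) (χ : Cfsg.IrrCharacter T) (hχ : χ ∈ F') (hχQ : ∀ q : G, q ∈ Q → ∀ t : T, ∀ t' : T, (t' : G) = q * (t : G) → (χ : T → ℂ) t' = (χ : T → ℂ) t) (hdeg : (Cfsg.charDegree (χ : T → ℂ)).factorization p + (Nat.card Q).factorization p = (Nat.card T).factorization p) : Cfsg.IsDefectGroup p M e ((Q ⊓ Subgroup.centralizer (Q : Set G)).subgroupOf (Subgroup.centralizer (Q : Set G))) ∧ ∀ R : Subgroup G, R ≤ T → IsPGroup p R → (∀ t ∈ T, t ∈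 Subgroup.normalizer (R : Set G)) → R ≤ Q := by
  classical
  have hQp : IsPGroup p Q := hQe.1.1
  have he : IsPBlock M e := hQe.1.2
  have hQT : Q ≤ T := by
    intro q hq
    rw [hT]
    refine ⟨Subgroup.le_normalizer hq, ?_, ?_⟩
    · rw [Subgroup.mem_normalizer_iff]
      intro c
      constructor
      · intro hc
        have : q * c * q⁻¹ = c := by rw [hc q hq]; group
        rw [this]; exact hc
      · intro hc
        have h1 := hc q hq
        have : q * c * q⁻¹ = c := by
          have h2 : q * (q * c * q⁻¹) = q * c := by rw [h1]; group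
          exact mul_left_cancel h2
        rw [← this]; exact hc
    · intro ξ hξ
      refine ⟨ξ, hξ, fun k k' hk => ?_⟩
      have : k' = k := by
        apply Subtype.ext
        rw [hk, k.2 q hq]; group
      rw [this]
  have hCT : Subgroup.centralizer (Q : Set G) ≤ T := by
    intro c hc
    rw [hT]
    refine ⟨Subgroup.centralizer_le_normalizer _ hc, Subgroup.le_normalizer hc, ?_⟩
    intro ξ hξ
    refine ⟨ξ, hξ, fun k k' hk => ?_⟩
    have : k' = ⟨c, hc⟩ * k * ⟨c, hc⟩⁻¹ := Subtype.ext hk
    rw [this]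
    exact irr_classFun ξ.2 _ _
  have hTN : T ≤ Subgroup.normalizer (Q : Set G) := fun t ht => ((hT t).1 ht).1
  haveI hQn : (Q.subgroupOf T).Normal := (Subgroup.normal_subgroupOf_iff_le_normalizer hQT).2 hTN
  have hπ : Function.Surjective (QuotientGroup.mk' (Q.subgroupOf T)) := QuotientGroup.mk'_surjective _
  obtain ⟨ψ, hψ⟩ : ∃ ψ, infl hπ ψ = χ := by
    rw [exists_infl_iff, QuotientGroup.ker_mk', le_charKer_iff (char_of_irr χ.2)]
    intro g hg
    exact hχQ g hg 1 g (by simp)
  have hψz : DZ p ψ := by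
    rw [dz_def]
    have h1 : charDegree ψ.1 = charDegree χ.1 := by rw [← hψ, charDegree_infl]
    have h2 := Subgroup.card_eq_card_quotient_mul_card_subgroup (Q.subgroupOf T)
    rw [Nat.card_congr (Subgroup.subgroupOfEquivOfLe hQT).toEquiv] at h2
    rw [h2, Nat.factorization_mul Nat.card_pos.ne' Nat.card_pos.ne'] at hdeg
    simp only [Finsupp.add_apply] at hdeg
    rw [h1]; omega
  constructor
  · let φ : Subgroup.centralizer (Q : Set G) →* T ⧸ Q.subgroupOf T :=
      (QuotientGroup.mk' (Q.subgroupOf T)).comp (Subgroup.inclusion hCT)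
    have hker : φ.ker = (Q ⊓ Subgroup.centralizer (Q : Set G)).subgroupOf
        (Subgroup.centralizer (Q : Set G)) := by
      ext c
      simp [φ, MonoidHom.mem_ker, Subgroup.mem_subgroupOf]
    haveI hCn : ((Subgroup.centralizer (Q : Set G)).subgroupOf T).Normal := by
      rw [Subgroup.normal_subgroupOf_iff_le_normalizer hCT]
      exact fun t ht => ((hT t).1 ht).2.1
    haveI : φ.range.Normal := by
      have : φ.range = ((Subgroup.centralizer (Q : Set G)).subgroupOf T).map
          (QuotientGroup.mk' (Q.subgroupOf T)) := by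
        simp only [φ]
        rw [MonoidHom.range_comp, Subgroup.inclusion_range]
      rw [this]
      exact hCn.map _ hπ
    rw [← hker]
    refine key hM φ ?_ ?_ hψz he ?_
    · rw [hker]
      exact (hQp.to_inf_left).comap_of_injective _ (Subgroup.subtype_injective _)
    · intro g x hx
      rw [hker] at hx
      exact Subtype.ext (g.2 x hx.1)
    · have h1 : chiL χ.1 (fB F') = χ.1 1 := by rw [chiL_fB, if_pos hχ]
      have h2 : fB F' = CA.H11Map.mp (Subgroup.inclusion hCT) (fB e) := by
        ext t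
        change (fB F').coeff t = (CA.H11Map.mp (Subgroup.inclusion hCT) (fB e)).coeff t
        rw [coeff_fB, hF'e, subgroupBlockCoeff]
        split_ifs with ht
        · have := coeff_mp_of_unique (Subgroup.inclusion hCT) (fB e) (g := ⟨t, ht⟩)
            (fun x hx _ => Subgroup.inclusion_injective hCT hx)
          exact this.symm
        · by_contra hne
          obtain ⟨x, hx, -⟩ := exists_of_coeff_mp_ne_zero (Subgroup.inclusion hCT) (Ne.symm hne)
          exact ht (hx ▸ x.2)
      rw [h2, CA.H11Brg.chiL_mp, ← hψ] at h1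
      have h3 : chiL (fun x => ψ.1 (φ x)) (fB e) = ψ.1 1 := by
        simpa [φ] using h1
      rw [h3, irr_apply_one_eq ψ.2]
      exact_mod_cast (charDegree_pos ψ.2).ne'
  · intro R hRT hR hn
    haveI hRn : (R.subgroupOf T).Normal := (Subgroup.normal_subgroupOf_iff_le_normalizer hRT).2 hn
    haveI : ((R.subgroupOf T).map (QuotientGroup.mk' (Q.subgroupOf T))).Normal := hRn.map _ hπ
    have h1 := hψz.eq_bot_of_normal ((R.subgroupOf T).map (QuotientGroup.mk' (Q.subgroupOf T)))
      ((hR.comap_of_injective _ (Subgroup.subtype_injective _)).map _)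
    rw [Subgroup.map_eq_bot_iff, QuotientGroup.ker_mk'] at h1
    intro r hr
    exact h1 (show (⟨r, hRT hr⟩ : T) ∈ R.subgroupOf T from hr)

end Cfsg.Agent.S4694
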