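import Cfsg.Statements.S4696
import Cfsg.Agent.Lib.Block.H11Uni

set_option autoImplicit false
open Cfsg

namespace Cfsg.Agent.S4696

open CA.H11Uni CA.H11Fb CA.H11Exc CA.H11Orb CA.H11Brg CA.H11Fus CA.H11Max CA.H11Amb CA.H11Pair CA.BlkCore CA.H11Star CA.H11NilB Subgroup

/-- Let p be a prime, M a maximal ideal of the algebraic integers containing p, and B a p-block of the finite group G whose defect group D is cyclic of order p^a with a ≥ 1. Let C = C_G(D), let b be a block of C inducing B, let T be the stabilizer of b in N_G(D) (the elements g of N_G(D) such that the g-conjugate of every member of b is again in b), and let e be the index of C in T (the inertial index of B). Then e divides p − 1, every irreducible character in B has height zero, and B is the disjoint union of a set X of e characters and a set Y of (p^a − 1)/e characters, the members of Y agreeing on p-regular elements,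 for which there are signs δ_χ = ±1 (χ ∈ X) and δ₀ = ±1 such that: for every ψ ∈ Y and every p-regular g, δ₀ ψ(g) + Σ_{χ ∈ X} δ_χ χ(g) = 0; for all χ, χ' ∈ X the integers δ_χ χ(1) and δ_χ' χ'(1) are congruent modulo p^a; and for ψ ∈ Y and χ ∈ X, ψ(1) ≡ −e δ₀ δ_χ χ(1) modulo p^a. -/
theorem result {G : Type*} [Group G] [Finite G] (p : ℕ) [Fact p.Prime] (M : Ideal Cfsg.AlgInt) (hM : Cfsg.IsPModular p M) (D : Subgroup G) (hD : IsCyclic D) (a : ℕ) (ha : 1 ≤ a) (hDa : Nat.card D = p ^ a) (B : Set (Cfsg.IrrCharacter G)) (hB : Cfsg.IsPBlock M B) (hBD : Cfsg.IsDefectGroup p M B D) (b : Set (Cfsg.IrrCharacter (Subgroup.centralizer (D : Set G)))) (hind : Cfsg.IsInducedBlock M (Subgroup.centralizer (D : Set G)) b B) (T : Subgroup G) (hT : ∀ g : G, g ∈ T ↔ (g ∈ Subgroup.normalizer (D : Set G) ∧ ∀ θ ∈ b, ∀ θ' : Cfsg.IrrCharacter (Subgroup.centralizer (D : Set G)), (∀ h h' : Subgroup.centralizer (D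 : Set G), (h' : G) = g * h * g⁻¹ → (θ' : Subgroup.centralizer (D : Set G) → ℂ) h' = (θ : Subgroup.centralizer (D : Set G) → ℂ) h) → θ' ∈ b)) (e : ℕ) (he : (Subgroup.centralizer (D : Set G)).relIndex T = e) : e ∣ p - 1 ∧ (∀ χ ∈ B, Cfsg.blockHeight p B (χ : G → ℂ) = 0) ∧ ∃ X Y : Set (Cfsg.IrrCharacter G), B = X ∪ Y ∧ Disjoint X Y ∧ Nat.card X = e ∧ Nat.card Y = (p ^ a - 1) / e ∧ (∀ ψ ∈ Y, ∀ ψ' ∈ Y, ∀ g : G, ¬ p ∣ orderOf g → (ψ : G → ℂ) g = (ψ' : G → ℂ) g) ∧ ∃ (δ : Cfsg.IrrCharacter G → ℤ) (δ₀ : ℤ), (∀ χ ∈ X, δ χ = 1 ∨ δ χ = -1) ∧ (δ₀ = 1 ∨ δ₀ = -1) ∧ (∀ ψ ∈ Y, ∀ g : G, ¬ p ∣ orderOf g → (δ₀ : ℂ) * (ψ : G → ℂ) g + ∑ᶠ χ ∈ X, (δ χ : ℂ) * (χ : G → ℂ) g = 0) ∧ (∀ χ ∈ X, ∀ χ' ∈ X, δ χ * (Cfsg.charDegree (χ : G → ℂ) : ℤ) ≡ δ χ' * (Cfsg.charDegree (χ' : G → ℂ) : ℤ) [ZMOD (p : ℤ) ^ a]) ∧ (∀ ψ ∈ Y, ∀ χ ∈ X, (Cfsg.charDegree (ψ : G → ℂ) : ℤ) ≡ -((e : ℤ) * δ₀ * δ χ * (Cfsg.charDegree (χ : G → ℂ) :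 ℤ)) [ZMOD (p : ℤ) ^ a]) := by
  haveI := Fintype.ofFinite G
  haveI := Fintype.ofFinite D
  haveI : Nontrivial D := Finite.one_lt_card_iff_nontrivial.1
    (hDa ▸ Nat.one_lt_pow (by omega) hM.1.one_lt)
  have F := fb_of_cyclic hM hB (mx_of_ind hM hBD hind) hD (MulEquiv.refl D)
  rw [eq_St hM hind.1 fun g => (hT g).trans (and_congr_right fun hg =>
    stab_iff hM hind.1 (CA.SylIn.normalizer_le_normalizer_centralizer D hg)), ← F.card_E] at he
  obtain ⟨-, C, δ, μ, ε, T, S⟩ := exists_std F hD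
  have h1 : ∀ {x : ℤ}, x * x = 1 → x = 1 ∨ x = -1 := mul_self_eq_one_iff.1
  have h2 : ∀ χ ∈ B \ Set.range μ, ∀ ψ ∈ B \ Set.range μ, ε χ * (charDegree χ.1 : ℤ) ≡
      ε ψ * charDegree ψ.1 [ZMOD (p : ℤ) ^ a] := fun χ hχ ψ hψ =>
    (Int.modEq_iff_dvd.2 (by simpa only [hDa, Nat.cast_pow] using S.dvd T hψ hχ))
  refine ⟨he ▸ (cyc_E F hD).2, fun χ hχ => S.height T hχ, B \ Set.range μ, Set.range μ,
    (Set.diff_union_of_subset (Set.range_subset_iff.2 S.mem)).symm, Set.disjoint_sdiff_left,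
    he ▸ S.card, by rw [Nat.card_range_of_injective S.inj, Nat.card_eq_fintype_card, F.fr.card_ix,
      hDa, he], ?_, ε, -δ, fun χ hχ => h1 (S.non χ hχ).1, h1 (by rw [neg_mul_neg, S.sq]), ?_, h2, ?_⟩
  · rintro _ ⟨i, rfl⟩ _ ⟨j, rfl⟩ g hg
    exact mul_left_cancel₀ (Int.cast_ne_zero.2 (left_ne_zero_of_mul_eq_one S.sq))
      ((S.reg g hg i).trans (S.reg g hg j).symm)
  · rintro _ ⟨i, rfl⟩ g hg
    rw [← S.reg g hg i]; simp
  · rintro _ ⟨i, rfl⟩ χ hχ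
    haveI := Fintype.ofFinite (B \ Set.range μ : Set _)
    have h3 := S.reg 1 (by simpa using hM.1.one_lt.ne') i
    rw [← finsum_set_coe_eq_finsum_mem, finsum_eq_sum_of_fintype] at h3
    simp only [fun χ : IrrCharacter G => CChar.CharInt.irr_apply_one_eq χ.2] at h3
    have h4 : δ * (charDegree (μ i).1 : ℤ) = ∑ ψ : (B \ Set.range μ : Set _),
        ε ψ * (charDegree ψ.1.1 : ℤ) := by exact_mod_cast h3
    have h5 := (Int.ModEq.sum (s := Finset.univ) fun (ψ : (B \ Set.range μ : Set _)) _ =>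
      h2 ψ ψ.2 χ hχ).mul_left δ
    rw [← h4, ← mul_assoc, S.sq, one_mul, Finset.sum_const, Finset.card_univ,
      ← Nat.card_eq_fintype_card, S.card, he] at h5
    convert h5 using 1
    simp; ring

end Cfsg.Agent.S4696
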