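import Cfsg.Statements.S4699
import Cfsg.Agent.Lib.Char.H10TI

set_option autoImplicit false
open Cfsg

namespace Cfsg.Agent.S4699
open Polynomial

theorem geom {F : Type*} [Field F] (p n : ℕ) [Fact p.Prime] [CharP F p] {A : Type*} [Ring A]
    [Algebra F A] (M : A) : ∑ i ∈ Finset.range (p ^ n), M ^ i = (M - 1) ^ (p ^ n - 1) := by
  have h : ∑ i ∈ Finset.range (p ^ n), (X : F[X]) ^ i = (X - 1) ^ (p ^ n - 1) := by
    refine mul_right_cancel₀ (X_sub_C_ne_zero (1 : F)) ?_
    rw [C_1, geom_sum_mul, ← pow_succ, Nat.sub_add_cancel (Nat.one_le_pow _ _ (Fact.out : p.Prime).pos),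
      sub_pow_char_pow, one_pow]
  simpa using congrArg (aeval M) h

theorem mem_range {F V : Type*} [Field F] [AddCommGroup V] [Module F V] (X Y : Module.End F V)
    (hXY : X * Y = 1) (hYX : Y * X = 1) {s : ℕ} (hs : (X - 1) ^ s = 0) (ψ : Module.End F V) (k : ℕ) :
    ∀ (j : ℕ) (v : V), (((LinearMap.mulLeft F X ∘ₗ LinearMap.mulRight F Y - 1 :
      Module.End F (Module.End F V)) ^ k) ψ) (((X - 1) ^ j) v) ∈
      LinearMap.range ((X - 1) ^ (k + j + 1 - s)) := by
  have hle : ∀ a b : ℕ, a ≤ b → LinearMap.range ((X - 1) ^ b) ≤ LinearMap.range ((X - 1) ^ a) :=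
    fun a b h => by
      rw [← Nat.add_sub_cancel' h, pow_add]; exact LinearMap.range_comp_le_range _ _
  have hc : Commute Y (X - 1) := (show Commute Y X from hYX.trans hXY.symm).sub_right (.one_right _)
  induction k with
  | zero =>
    intro j v
    by_cases h : s ≤ j
    · rw [pow_eq_zero_of_le h hs]; simp
    · rw [show 0 + j + 1 - s = 0 by omega]; exact ⟨_, rfl⟩
  | succ k ih =>
    intro j v
    rw [pow_succ', Module.End.mul_apply]
    generalize (((LinearMap.mulLeft F X ∘ₗ LinearMap.mulRight F Y - 1 :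
      Module.End F (Module.End F V)) ^ k) ψ) = φ at ih
    have e : (LinearMap.mulLeft F X ∘ₗ LinearMap.mulRight F Y - 1 :
        Module.End F (Module.End F V)) φ * (X - 1) ^ j =
        (X - 1) * (φ * (X - 1) ^ j) * Y - φ * (X - 1) ^ (j + 1) * Y := by
      rw [pow_succ', mul_assoc φ, mul_assoc (X - 1) _ Y, mul_assoc (X - 1) _ Y, mul_assoc φ,
        ← (hc.pow_right j).eq, ← mul_assoc (X - 1) Y, sub_mul X 1 Y, hXY]
      simp only [LinearMap.sub_apply, LinearMap.comp_apply, LinearMap.mulLeft_apply,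
        LinearMap.mulRight_apply, Module.End.one_apply]
      noncomm_ring
    rw [← Module.End.mul_apply, e]
    refine Submodule.sub_mem _ ?_ (hle _ _ (by omega) (ih (j + 1) (Y v)))
    obtain ⟨w, hw⟩ := ih j (Y v)
    refine hle _ (k + j + 1 - s + 1) (by omega) ⟨w, ?_⟩
    rw [pow_succ', Module.End.mul_apply, hw]; rfl

theorem exists_z {G : Type*} [Group G] [Finite G] (p : ℕ) [Fact p.Prime] (P : Sylow p G)
    (hcyc : IsCyclic P) {n : ℕ} (hn : 1 ≤ n) (hPn : Nat.card P = p ^ n) {F A : Type*} [Field F] [Ring A]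
    [Algebra F A] (ρ : G →* A) {x : P} (hx : ∀ y, y ∈ Subgroup.zpowers x) :
    ∃ (z : A) (e : ℕ), e ≤ p - 1 ∧ (∀ g ∈ Subgroup.normalizer (P : Set G), ρ g * z = z * ρ g) ∧
      (ρ x - 1) ∣ z ∧ z ∣ (ρ x - 1) ^ e := by
  classical
  have hp : p.Prime := Fact.out
  set f := (P : Subgroup G).normalizerMonoidHom with hf
  haveI := Fintype.ofFinite f.range
  have h1 : Nat.card f.range ∣ p - 1 := by
    have h2 := f.range.card_subgroup_dvd_card
    rw [IsCyclic.card_mulAut, hPn, Nat.totient_prime_pow hp hn] at h2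
    refine Nat.Coprime.dvd_of_dvd_mul_left (Nat.Coprime.pow_right _ ?_) h2
    rw [← Subgroup.index_ker, hf, Subgroup.normalizerMonoidHom_ker, Nat.coprime_comm,
      hp.coprime_iff_not_dvd]
    refine fun h => P.not_dvd_index ((h.trans (Subgroup.relIndex_dvd_of_le_left _ ?_)).trans
      (Subgroup.relIndex_dvd_index_of_le Subgroup.le_normalizer))
    letI := hcyc.commGroup
    exact fun a ha b hb => congrArg Subtype.val (mul_comm (⟨b, hb⟩ : P) ⟨a, ha⟩)
  letI := hcyc.commGroup
  let φ := MonoidAlgebra.lift F A P (ρ.comp (P : Subgroup G).subtype)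
  have hφ : ∀ y : P, φ (MonoidAlgebra.single y 1 - 1) = ρ y - 1 := fun y => by simp [φ]
  have hd : ∀ a b : P, (∀ y, y ∈ Subgroup.zpowers a) →
      (MonoidAlgebra.single a 1 - 1 : MonoidAlgebra F P) ∣ MonoidAlgebra.single b 1 - 1 := by
    intro a b ha
    obtain ⟨k, rfl⟩ := (mem_powers_iff_mem_zpowers.2 (ha b))
    simpa [MonoidAlgebra.single_pow] using
      sub_one_dvd_pow_sub_one (MonoidAlgebra.single a (1 : F)) k
  refine ⟨φ (∏ α : f.range, (MonoidAlgebra.single (α.1 x) 1 - 1)), Nat.card f.range,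
    Nat.le_of_dvd (Nat.sub_pos_of_lt hp.one_lt) h1, fun g hg => ?_, ?_, ?_⟩
  · have h2 : ∀ a, ρ g * φ a = φ (MonoidAlgebra.domCongr F F (f ⟨g, hg⟩) a) * ρ g := fun a => by
      induction a using MonoidAlgebra.induction_on with
      | of y =>
        simp only [MonoidAlgebra.of_apply, MonoidAlgebra.domCongr_single, φ, MonoidAlgebra.lift_single,
          one_smul, MonoidHom.comp_apply, Subgroup.coe_subtype, ← map_mul]
        rw [show ((f ⟨g, hg⟩ y : P) : G) = g * y * g⁻¹ from rfl, inv_mul_cancel_right]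
      | add a b ha hb => simp only [map_add, mul_add, add_mul, ha, hb]
      | smul r a ha => simp only [map_smul, mul_smul_comm, smul_mul_assoc, ha]
    rw [h2, map_prod]
    congr 2
    exact Fintype.prod_equiv (Equiv.mulLeft (⟨f ⟨g, hg⟩, _, rfl⟩ : f.range)) _ _ fun α => by simp
  · rw [← hφ]
    exact map_dvd φ ((hd x _ hx).trans (Finset.dvd_prod_of_mem _ (Finset.mem_univ (1 : f.range))))
  · rw [← hφ, ← map_pow, Nat.card_eq_fintype_card, ← Finset.card_univ, ← Finset.prod_const]
    refine map_dvd φ (Finset.prod_dvd_prod_of_dvd _ _ fun α _ => hd _ _ fun y => ?_)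
    obtain ⟨k, hk⟩ := hx (α.1.symm y)
    exact ⟨k, by rw [← α.1.apply_symm_apply y, ← hk]; exact (map_zpow _ _ _).symm⟩

/-- Let p be a prime and G a finite group whose Sylow p-subgroup P is cyclic of order p^n with n ≥ 2 and meets every other Sylow p-subgroup trivially. Then every faithful irreducible representation of G on a finite-dimensional space over a finite field of characteristic p has dimension at least p^n − (p − 1). -/
theorem result {G : Type*} [Group G] [Finite G] (p : ℕ) [Fact p.Prime] (P : Sylow p G) (hcyc : IsCyclic P) (n : ℕ) (hn : 2 ≤ n) (hPn : Nat.card P = p ^ n) (hTI : ∀ Q : Sylow p G, Q ≠ P → (P : Subgroup G) ⊓ (Q : Subgroup G) = ⊥) (F : Type*) [Field F] [Finite F] [CharP F p] (V : Type*) [AddCommGroup V] [Module F V] [FiniteDimensional F V] (ρ : Representation F G V) (hfaith : Function.Injective ρ) (hirr : ρ.IsIrreducible) : p ^ n - (p - 1) ≤ Module.finrank F V := by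
  classical
  have hp : p.Prime := Fact.out
  by_contra hlt
  push Not at hlt
  obtain ⟨x, hx⟩ := hcyc.exists_generator
  obtain ⟨z, e, he, hz, ⟨u, hu⟩, w, hw⟩ := exists_z (F := F) p P hcyc (by omega : 1 ≤ n) hPn ρ hx
  have hox : orderOf x = p ^ n := by rw [← hPn]; exact orderOf_eq_card_of_forall_mem_zpowers hx
  haveI : Nontrivial V := by
    by_contra h
    rw [not_nontrivial_iff_subsingleton] at h
    exact (bot_ne_top (α := Subrepresentation ρ))
      (Subrepresentation.toSubmodule_injective (Subsingleton.elim _ _))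
  haveI : CharP (V →ₗ[F] V) p := charP_of_injective_algebraMap (algebraMap F _).injective p
  have hpow : ∀ k, (ρ x - 1) ^ p ^ k = ρ ((x ^ p ^ k : P) : G) - 1 := fun k => by
    rw [sub_pow_char_pow_of_commute _ _ (Commute.one_right _), one_pow, ← map_pow]; rfl
  have hnil : IsNilpotent (ρ x - 1) := ⟨p ^ n, by rw [hpow, ← hox, pow_orderOf_eq_one]; simp⟩
  set s := Module.finrank F V
  have hs : (ρ x - 1) ^ s = 0 := by
    have h := LinearMap.aeval_self_charpoly (ρ x - 1)
    rwa [hnil.charpoly_eq_X_pow_finrank, map_pow, aeval_X] at h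
  set N := Subgroup.normalizer (P : Set G) with hN
  haveI := Fintype.ofFinite (G ⧸ N)
  haveI := Fintype.ofFinite P
  have hinv : ∀ g, ρ g * ρ g⁻¹ = 1 := fun g => by rw [← map_mul, mul_inv_cancel, map_one]
  have hinv' : ∀ g, ρ g⁻¹ * ρ g = 1 := fun g => by rw [← map_mul, inv_mul_cancel, map_one]
  let f : G ⧸ N → Module.End F V := Quotient.lift (fun g => ρ g * z * ρ g⁻¹) fun a b h => by
    have h1 := hz _ (QuotientGroup.leftRel_apply.1 h)
    calc ρ a * z * ρ a⁻¹ = ρ a * (z * ρ (a⁻¹ * b)) * ρ b⁻¹ := by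
          simp only [map_mul, mul_assoc, hinv, mul_one]
      _ = _ := by rw [← h1, map_mul, ← mul_assoc, ← mul_assoc, hinv, one_mul]
  have hf : ∀ (g : G) (q : G ⧸ N), f (g • q) = ρ g * f q * ρ g⁻¹ := fun g q => by
    obtain ⟨a, rfl⟩ := QuotientGroup.mk_surjective q
    change ρ (g * a) * z * ρ (g * a)⁻¹ = ρ g * (ρ a * z * ρ a⁻¹) * ρ g⁻¹
    simp only [mul_inv_rev, map_mul, mul_assoc]
  set c := ∑ q, f q with hc
  have hcg : ∀ g, ρ g * c = c * ρ g := fun g => by
    rw [show c * ρ g = (∑ q, f (g • q)) * ρ g from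
      congrArg (· * ρ g) (Fintype.sum_equiv (MulAction.toPerm g) _ _ fun _ => rfl).symm, hc,
      Finset.mul_sum, Finset.sum_mul]
    exact Finset.sum_congr rfl fun q _ => by rw [hf, mul_assoc, hinv', mul_one]
  set U := LinearMap.range ((ρ x - 1) ^ (e + 1)) with hU
  have hcz : ∀ v, c v - z v ∈ U := fun v => by
    rw [← Submodule.Quotient.mk_eq_zero, hc, ← Finset.add_sum_erase _ _
      (Finset.mem_univ ((1 : G) : G ⧸ N)), show f ((1 : G) : G ⧸ N) = z by
        change ρ 1 * z * ρ 1⁻¹ = z; simp, LinearMap.add_apply, add_sub_cancel_left,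
      LinearMap.sum_apply, ← Submodule.mkQ_apply, map_sum]
    refine CA.H10TI.sum_free (P := P) (fun q => U.mkQ (f q v)) _ (fun y q hq => ?_)
      (fun q hq y e => ?_) fun q _ => ?_
    · refine Finset.mem_erase.2 ⟨fun e => Finset.ne_of_mem_erase hq ?_, Finset.mem_univ _⟩
      rw [← inv_smul_smul y q, e]
      exact QuotientGroup.eq.2 (by simpa using Subgroup.le_normalizer y.2)
    · obtain ⟨g, rfl⟩ := QuotientGroup.mk_surjective q
      have h1 : g⁻¹ * y * g ∈ N := by simpa [mul_assoc] using QuotientGroup.eq.1 e.symm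
      have h2 : g • P ≠ P := fun h => Finset.ne_of_mem_erase hq (QuotientGroup.eq.2 (by
        simpa using Sylow.smul_eq_iff_mem_normalizer.1 h))
      have h3 : g⁻¹ * y * g ∈ (P : Subgroup G) := by
        have h4 : IsPGroup p (Subgroup.zpowers (g⁻¹ * y * g)) := by
          obtain ⟨k, hk⟩ := IsPGroup.iff_orderOf.1 P.isPGroup' y
          refine IsPGroup.of_card (n := k) ?_
          rw [Nat.card_zpowers, ← hk, ← Subgroup.orderOf_coe]
          simpa using orderOf_injective (MulAut.conj g⁻¹).toMonoidHom (MulAut.conj g⁻¹).injective y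
        have h5 := h4.inf_normalizer_sylow P
        rw [inf_eq_left.2 ((Subgroup.zpowers_le).2 h1)] at h5
        exact (h5 ▸ Subgroup.mem_zpowers _ : _ ∈ _ ⊓ (P : Subgroup G)).2
      have h6 : (y : G) ∈ (P : Subgroup G) ⊓ ((g • P : Sylow p G) : Subgroup G) :=
        ⟨y.2, ⟨_, h3, by simp [mul_assoc]⟩⟩
      rw [hTI _ h2] at h6
      exact Subtype.ext h6
    · rw [← map_sum, Submodule.mkQ_apply, Submodule.Quotient.mk_eq_zero, ← LinearMap.sum_apply]
      have h1 : ∑ y : P, f (y • q) = ∑ i ∈ Finset.range (p ^ n), ((LinearMap.mulLeft F (ρ x) ∘ₗ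
          LinearMap.mulRight F (ρ (x : G)⁻¹) : Module.End F (Module.End F V)) ^ i) (f q) := by
        rw [← hox]
        refine (Finset.sum_bij (fun i _ => x ^ i) (by simp) (fun a ha b hb h =>
          pow_injOn_Iio_orderOf (by simpa using ha) (by simpa using hb) h) (fun y _ => ?_)
          fun i hi => ?_).symm
        · obtain ⟨k, rfl⟩ := mem_powers_iff_mem_zpowers.2 (hx y)
          exact ⟨k % orderOf x, Finset.mem_range.2 (Nat.mod_lt _ (orderOf_pos x)), pow_mod_orderOf _ _⟩
        · clear hi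
          induction i with
          | zero => simp
          | succ i ih =>
            rw [pow_succ', pow_succ', mul_smul, Module.End.mul_apply, ih]
            exact ((hf _ _).trans (mul_assoc _ _ _)).symm
      have h2 := mem_range _ _ (hinv x) (hinv' x) hs (f q) (p ^ n - 1) 0 v
      rw [h1, ← LinearMap.sum_apply, geom (F := F)]
      rw [show p ^ n - 1 + 0 + 1 - s = e + 1 + (p ^ n - s - (e + 1)) by omega, pow_add] at h2
      exact LinearMap.range_comp_le_range _ _ h2
  have hc0 : c = 0 := by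
    let R : Subrepresentation ρ := ⟨LinearMap.range c, by
      rintro g _ ⟨v, rfl⟩
      exact ⟨ρ g v, (LinearMap.congr_fun (hcg g) v).symm⟩⟩
    rcases eq_bot_or_eq_top R with h | h
    · exact LinearMap.range_eq_bot.1 (congrArg Subrepresentation.toSubmodule h)
    · exfalso
      have h1 : Function.Surjective ⇑(ρ x - 1 : Module.End F V) := fun v => by
        obtain ⟨a, rfl⟩ := LinearMap.range_eq_top.1 (congrArg Subrepresentation.toSubmodule h) v
        obtain ⟨b, hb⟩ := hcz a
        refine ⟨((ρ x - 1) ^ e) b + u a, ?_⟩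
        rw [map_add, ← Module.End.mul_apply, ← Module.End.mul_apply, ← pow_succ', hb, ← hu,
          sub_add_cancel]
      obtain ⟨v, hv⟩ := exists_ne (0 : V)
      obtain ⟨a, rfl⟩ := Module.End.iterate_surjective h1 s v
      exact hv (by rw [hs]; rfl)
  have h1 : ∀ k, LinearMap.range ((ρ x - 1) ^ e) ≤ LinearMap.range ((ρ x - 1) ^ (e + k)) := by
    intro k
    induction k with
    | zero => exact le_rfl
    | succ k ih =>
      refine ih.trans ?_
      rintro _ ⟨v, rfl⟩
      obtain ⟨b, hb⟩ := hcz (w v)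
      refine ⟨-b, ?_⟩
      rw [show e + (k + 1) = k + (e + 1) by ring, add_comm e k, pow_add _ k, pow_add _ k,
        Module.End.mul_apply, Module.End.mul_apply, map_neg, hb, hc0, hw]
      simp
  have h2 : (ρ x - 1) ^ e = 0 := by
    have := h1 s
    rwa [pow_add, hs, mul_zero, LinearMap.range_zero, le_bot_iff, LinearMap.range_eq_bot] at this
  have h3 := hpow 1
  rw [pow_eq_zero_of_le (by rw [pow_one]; omega) h2, eq_comm, sub_eq_zero, ← map_one ρ] at h3
  have h4 : orderOf x ∣ p ^ 1 := orderOf_dvd_of_pow_eq_one (Subtype.ext (hfaith h3))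
  rw [hox, Nat.pow_dvd_pow_iff_le_right hp.one_lt] at h4
  omega

end Cfsg.Agent.S4699
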