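import Cfsg.Statements.S4700
import Cfsg.Agent.Lib.Block.H28Br5
-- import your own Cfsg.Agent.* helpers here

set_option autoImplicit false
open Cfsg

namespace Cfsg.Agent.S4700

/-- Let G be a finite perfect group and p a prime such that a Sylow p-subgroup of G has order p, and write the number of Sylow p-subgroups as 1 + np. Let H = O_p'(G). Then either p > 3 and G/H is isomorphic to PSL(2, p); or p = 2^m + 1 > 3 and G/H is isomorphic to SL(2, 2^m); or n = (hup + u^2 + u + h)/(u + 1) for some positive integers h and u. -/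
theorem result {G : Type*} [Group G] [Finite G] (hperf : commutator G = ⊤) (p : ℕ) [Fact p.Prime] (P : Sylow p G) (hP : Nat.card P = p) (n : ℕ) (hn : Nat.card (Sylow p G) = 1 + n * p) : (∃ (F : Type) (_ : Field F) (_ : Fintype F), Fintype.card F = p ∧ 3 < p ∧ Nonempty (G ⧸ Cfsg.pPrimeCore p G ≃* Matrix.ProjectiveSpecialLinearGroup (Fin 2) F)) ∨ (∃ (m : ℕ) (F : Type) (_ : Field F) (_ : Fintype F), Fintype.card F = 2 ^ m ∧ p = 2 ^ m + 1 ∧ 3 < p ∧ Nonempty (G ⧸ Cfsg.pPrimeCore p G ≃* Matrix.SpecialLinearGroup (Fin 2) F)) ∨ (∃ h u : ℕ, 0 < h ∧ 0 < u ∧ n * (u + 1) = h * u * p + u ^ 2 + u + h) := by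
  have hp : p.Prime := Fact.out
  by_cases hs : CA.H28Br2.Star p n
  · exact Or.inr (Or.inr (hs.exists_eq hp.pos))
  obtain ⟨x, h, -⟩ := CA.H28Syl.exists_isSylGen_of_sylow P hP
  obtain ⟨n', h1, h2, h3, h4, h5, -⟩ := CA.H28Br5.brauer_quot h hperf hn hs
  obtain ⟨-, -, h6, ⟨-, -, h7⟩ | ⟨m, F, _, _, h7, h8, -, h9⟩⟩ := CA.H28Br5.brauer h1 h2 h3 h4 h5
  · exact Or.inl ⟨ZMod p, inferInstance, inferInstance, ZMod.card p, h6, h7⟩
  · exact Or.inr (Or.inl ⟨m, F, inferInstance, inferInstance, h7, h8, h6, h9⟩)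

end Cfsg.Agent.S4700
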