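import Cfsg.Statements.S4701
import Cfsg.Agent.Lib.Block.H28Br5
-- import your own Cfsg.Agent.* helpers here

set_option autoImplicit false
open Cfsg

namespace Cfsg.Agent.S4701

/-- Let G be a finite perfect group and p a prime dividing the order of G with p^3 larger than the order of G. Suppose a Sylow p-subgroup of G is not normal and G has no normal subgroup of order 2. Then p > 3 and G is isomorphic to PSL(2, p), or to SL(2, 2^m) with p = 2^m + 1. -/
theorem result {G : Type*} [Group G] [Finite G] (hperf : commutator G = ⊤) (p : ℕ) [Fact p.Prime] (hdvd : p ∣ Nat.card G) (hbig : Nat.card G < p ^ 3) (P : Sylow p G) (hP : ¬ (P : Subgroup G).Normal) (h2 : ∀ N : Subgroup G, N.Normal → Nat.card N ≠ 2) : (∃ (F : Type) (_ : Field F) (_ : Fintype F), Fintype.card F = p ∧ 3 < p ∧ Nonempty (G ≃* Matrix.ProjectiveSpecialLinearGroup (Fin 2) F)) ∨ (∃ (m : ℕ) (F : Type) (_ : Field F) (_ : Fintype F), Fintype.card F = 2 ^ m ∧ p = 2 ^ m + 1 ∧ 3 < p ∧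 Nonempty (G ≃* Matrix.SpecialLinearGroup (Fin 2) F)) := by
  have hp : p.Prime := Fact.out
  have hsq := CA.H28Br5.not_sq_dvd_of_lt hbig (by
    rw [P.card_eq_index_normalizer, ne_eq, Subgroup.index_eq_one]
    exact fun h => hP (Subgroup.normalizer_eq_top_iff.1 h))
  obtain ⟨x, h⟩ := CA.H28Syl.exists_isSylGen hdvd hsq
  obtain ⟨n, hn⟩ := CA.H28Br5.exists_n p G
  have hs := CA.H28Br5.not_star_of_card_lt h hperf hbig hn
  obtain ⟨n', h1, h3, h4, h5, h6, -⟩ := CA.H28Br5.brauer_quot h hperf hn hs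
  have hc := (pPrimeCore p G).card_eq_card_quotient_mul_card_subgroup
  have hK := h2 (pPrimeCore p G) inferInstance
  have hK0 : 0 < Nat.card (pPrimeCore p G) := Nat.card_pos
  have key : p ^ 3 ≤ Nat.card (G ⧸ pPrimeCore p G) * 3 → Nonempty (G ≃* G ⧸ pPrimeCore p G) :=
    fun h7 => by
      have h8 : Nat.card (pPrimeCore p G) < 3 :=
        Nat.lt_of_mul_lt_mul_left ((hc ▸ hbig).trans_le h7)
      exact ⟨QuotientGroup.quotientBot.symm.trans (QuotientGroup.quotientMulEquivOfEq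
        (Subgroup.card_eq_one.1 (by omega)).symm)⟩
  obtain ⟨-, h', h7, ⟨h8, h9, ⟨e⟩⟩ | ⟨m, F, _, _, h8, h9, h10, ⟨e⟩⟩⟩ :=
    CA.H28Br5.brauer h1 h3 h4 h5 h6
  · obtain ⟨e'⟩ := key (by
      rw [h'.card_eq, h5, h8]
      generalize CA.H28Syl.ee (QuotientGroup.mk x : G ⧸ pPrimeCore p G) = f at h9 ⊢
      obtain rfl : p = 2 * f + 1 := by omega
      nlinarith [Nat.zero_le (f * f * f), Nat.zero_le (f * f), show 2 ≤ f by omega])
    exact Or.inl ⟨ZMod p, inferInstance, inferInstance, ZMod.card p, h7, ⟨e'.trans e⟩⟩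
  · obtain ⟨e'⟩ := key (by
      rw [h10, h9]
      obtain ⟨k, hk⟩ : ∃ k, 2 ^ m = k + 4 := by
        have := hp.eq_two_or_odd
        exact ⟨2 ^ m - 4, by omega⟩
      rw [hk, show k + 4 - 1 = k + 3 from rfl]
      nlinarith [Nat.zero_le (k * k * k), Nat.zero_le (k * k)])
    exact Or.inr ⟨m, F, inferInstance, inferInstance, h8, h9, h7, ⟨e'.trans e⟩⟩

end Cfsg.Agent.S4701
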