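import Cfsg.Statements.S4705
import Cfsg.Agent.Lib.Block.H28Fe2
-- import your own Cfsg.Agent.* helpers here

set_option autoImplicit false
open Cfsg

namespace Cfsg.Agent.S4705

open Subgroup CA.H28Syl CA.H28SC CA.H28Br6 CA.H28Br7 CA.H28Br8 CA.H28Fe CA.H28Fe2
open CChar.CharFun CChar.CharOrth CChar.CharKer

/-- Let G be a finite group with centre Z and p > 5 a prime such that a Sylow p-subgroup of G has order p and is not normal. If G has a faithful irreducible character of degree p − 2, then p = 2^a + 1 for some a and G is isomorphic to the direct product of SL(2, 2^a) with Z. -/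
theorem result {G : Type*} [Group G] [Finite G] (p : ℕ) [Fact p.Prime] (hp : 5 < p) (P : Sylow p G) (hP : Nat.card P = p) (hnn : ¬ (P : Subgroup G).Normal) (ζ : G → ℂ) (hζ : Cfsg.IsIrrCharacter G ζ) (hfaith : ∀ g : G, ζ g = ζ 1 → g = 1) (hdeg : Cfsg.charDegree ζ = p - 2) : ∃ (a : ℕ) (F : Type) (_ : Field F) (_ : Fintype F), p = 2 ^ a + 1 ∧ Fintype.card F = 2 ^ a ∧ Nonempty (G ≃* Matrix.SpecialLinearGroup (Fin 2) F × Subgroup.center G) := by
  classical
  have := Fintype.ofFinite G
  obtain ⟨x, h, hPx⟩ := exists_isSylGen_of_sylow P hP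
  rw [hPx] at hnn
  have := Fintype.ofFinite (KK x)
  have := Fintype.ofFinite (center G)
  have hζ' := char_of_irr hζ
  have hf : charKer ζ = ⊥ := eq_bot_iff.2 fun g hg => hfaith g ((mem_charKer hζ').1 hg)
  obtain ⟨he, -, ⟨F⟩⟩ := exists_fam h ⟨ζ, hζ⟩ (by rw [hdeg]; omega) (by
    rw [charCenter_eq_center hζ hf]
    exact fun hx => hnn (normal_of_KK_le h fun k _ => mem_CC.2 (mem_center_iff.1 hx k)))
  have hK := isSylGen_subgroup h (mem_KK x)
  have he' := ee_KK_ne_one h (le_CC_of_faithful h hζ' hfaith (by omega) _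
    (not_dvd_card_pPrimeCore G)) hnn
  obtain ⟨k, hk, hk'⟩ := SetLike.not_le_iff_exists.1 (mt relIndex_eq_one.2 he')
  have hk1 : (k : G) ∈ NN x := mem_NN_of_conj h.ord (a := 1) one_ne_zero (by
    have := congrArg Subtype.val (conj_xp hK.ord ⟨k, hk⟩ 1)
    rw [xp_one hK.ord] at this
    rw [xp_one h.ord]
    exact (show (k : G) * x * (k : G)⁻¹ = _ from this) ▸ pow_mem (mem_zpowers x) _)
  have h1 : CC x ≤ KK x ⊔ center G := fun c hc => by
    obtain ⟨a, v, hv, rfl⟩ := h.exists_eq_xp_mul hc
    exact mul_mem_sup (pow_mem (mem_KK x) _) (VV_le_center h F hf hv)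
  have h2 : NN x ≤ KK x ⊔ center G := fun n hn => by
    by_cases hc : n ∈ CC x
    · exact h1 hc
    · exact (mul_mem_cancel_left (mem_sup_left k.2)).1 (h1
        ((mul_mem_iff_of_index_two he (a := ⟨k, hk1⟩) (b := ⟨n, hn⟩)).2
          (iff_of_false (fun e => hk' (mem_CC.2 (Subtype.ext (mem_CC.1 e)))) hc)))
  have hcm : ∀ a b, Commute ((KK x).subtype a) ((center G).subtype b) :=
    fun a b => mem_center_iff.1 b.2 a
  set f := (KK x).subtype.noncommCoprod (center G).subtype hcm with hfd
  have hs : Function.Surjective f := by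
    rw [← MonoidHom.range_eq_top, hfd, MonoidHom.noncommCoprod_range, range_subtype,
      range_subtype, eq_top_iff]
    intro g _
    obtain ⟨n, hn, s, hs, rfl⟩ := frattini h (KK x) (mem_KK x) g
    exact mul_mem (h2 hn) (mem_sup_left hs)
  have hirr : IsIrrCharacter (KK x) fun k => ζ k := irr_of_char_of_inner_self
    (char_restrict hζ' _) (by
      obtain ⟨lam, hl⟩ := exists_central_unitsHom hζ le_rfl
      have h3 := sum_irr_mul_conj_self (irr_comp_of_surjective hζ f hs)
      rw [Fintype.sum_prod_type_right, Finset.sum_congr rfl (g := fun _ =>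
        ∑ k : KK x, ζ k * (starRingEnd ℂ) (ζ k)) fun z _ => Finset.sum_congr rfl fun k _ => by
          rw [hfd, MonoidHom.noncommCoprod_apply', coe_subtype, coe_subtype, hl, map_mul,
            ← char_apply_inv (char_of_unitsHom lam), map_inv, mul_mul_mul_comm, Units.mul_inv,
            one_mul], Finset.sum_const, ← card_mul_inner, Nat.card_prod, Finset.card_univ,
        ← Nat.card_eq_fintype_card, nsmul_eq_mul] at h3
      refine mul_left_cancel₀ (mul_ne_zero (CChar.CharRep.card_ne_zero (G := center G))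
        (CChar.CharRep.card_ne_zero (G := KK x))) ?_
      push_cast at h3
      linear_combination h3)
  obtain ⟨a, F, i1, i2, c1, c2, c3, ⟨e⟩⟩ := core hK (perfect_KK h he') hp ⟨_, hirr⟩
    (by change charDegree ζ + 2 = p; omega) (eq_bot_iff.2 fun g hg => Subtype.ext
      (hfaith g ((mem_charKer (char_of_irr hirr)).1 hg)))
    fun hx => hk' (mem_CC.2 (mem_center_iff.1 hx k))
  refine ⟨a, F, i1, i2, c1, c2, ⟨(MulEquiv.ofBijective f ⟨?_, hs⟩).symm.trans
    (e.prodCongr (MulEquiv.refl _))⟩⟩
  refine (MonoidHom.noncommCoprod_injective _ _ _).2 ⟨subtype_injective _, subtype_injective _, ?_⟩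
  rw [range_subtype, range_subtype, disjoint_def]
  exact fun {g} h3 h4 => congrArg Subtype.val (show (⟨g, h3⟩ : KK x) = 1 from
    mem_bot.1 (c3 ▸ mem_center_iff.2 fun y => Subtype.ext (mem_center_iff.1 h4 y)))

end Cfsg.Agent.S4705
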