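import Cfsg.Statements.S4706
import Cfsg.Agent.Lib.Block.H28Fe3
-- import your own Cfsg.Agent.* helpers here

set_option autoImplicit false
open Cfsg

namespace Cfsg.Agent.S4706

open Subgroup MulAction CA.H28Syl CA.H28SC CA.H28Fe2 CA.H28Fe3 CA.H28Br2 CChar.CharKer

/-- Let p > 2 be a prime and G a permutation group on p letters whose Sylow p-subgroup P has normalizer of order 2p. Then either P is normal in G, or p − 1 = 2^a for some a and G is isomorphic to SL(2, 2^a). -/
theorem result {α : Type*} [Fintype α] [DecidableEq α] {p : ℕ} [Fact p.Prime] (hp : 2 < p) (hα : Fintype.card α = p) (G : Subgroup (Equiv.Perm α)) (P : Sylow p G) (hN : Nat.card (Subgroup.normalizer ((P : Subgroup G) : Set G)) = 2 * p) : (P : Subgroup G).Normal ∨ ∃ (a : ℕ) (F : Type) (_ : Field F) (_ : Fintype F), p = 2 ^ a + 1 ∧ Fintype.card F = 2 ^ a ∧ Nonempty (G ≃* Matrix.SpecialLinearGroup (Fin 2) F) := by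
  classical
  have := Fintype.ofFinite G
  obtain ⟨x, h, hP, hN'⟩ := setup hp P ((dvd_mul_left p 2).trans
    (hN ▸ card_subgroup_dvd_card _)) hN
  rw [hP]
  refine or_iff_not_imp_left.2 fun hn => ?_
  have hα' : Nat.card α = p := Nat.card_eq_fintype_card.trans hα
  have := pretransitive_of_orderOf hα' h.ord
  have : IsPreprimitive G α := IsPreprimitive.of_prime_card (hα' ▸ Fact.out)
  have : Nontrivial α := Finite.one_lt_card_iff_nontrivial.1 (by omega)
  have hO := core_bot (G := G) (X := α) hα'.symm.dvd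
  obtain ⟨hs, he, hG, -⟩ := simple_of_card h hN' hO hn
  have hd : Nat.card G ∣ p.factorial := by
    rw [← hα', ← Nat.card_perm]
    exact card_subgroup_dvd_card G
  have h3 : 3 < p := by
    by_contra h3
    obtain rfl : p = 3 := by omega
    have h4 := Nat.le_of_dvd (by decide) hd
    rw [hs.card_eq, he, show Nat.factorial 3 = 6 from rfl] at h4
    have := Nat.card_pos (α := Sylow 3 G)
    exact card_sylow_ne_one h hG (by omega)
  obtain ⟨-, -, -, hsimp⟩ := simple_of_card h hN' hO hn
  obtain ⟨d, ζ, ψ, h1, h2, h4, h5, h6, h7, h8⟩ := exists_deg h he hG h3 α (Or.inl hα')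
  by_cases h5' : 5 < p
  · obtain ⟨a, F, i1, i2, c1, c2, -, c3⟩ := core h hG h5' ψ h8
      (P1.faithful d h hG hO (Or.inr h4) (P1.ne_one d h4)) (not_mem_center h hn)
    exact ⟨a, F, i1, i2, c1, c2, c3⟩
  · obtain rfl : p = 5 := by
      have := (Fact.out : p.Prime).eq_two_or_odd
      omega
    obtain ⟨e⟩ := CA.H28Simp.simple_60 (card_eq_sixty (not_comm h hn) hs he d h1 h2 h4 h5 h6
      (by omega) (by omega) (hd.trans (Nat.factorial_dvd_factorial (by decide))))
    obtain ⟨F, i1, i2, c1, ⟨e'⟩⟩ := sl2_A5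
    exact ⟨2, F, i1, i2, rfl, c1, ⟨e.trans e'⟩⟩

end Cfsg.Agent.S4706
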