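import Cfsg.Statements.S4707
import Cfsg.Agent.Lib.Block.H28Fe3
-- import your own Cfsg.Agent.* helpers here

set_option autoImplicit false
open Cfsg

namespace Cfsg.Agent.S4707

open Subgroup MulAction CA.H28Syl CA.H28SC CA.H28Fe2 CA.H28Fe3 CA.H28Br2 CChar.CharKer
open CA.PermBasic

/-- Let p > 3 be a prime and G a primitive permutation group of degree 2p that is not doubly transitive. If a Sylow p-subgroup of G has normalizer of order 2p, then p = 5 and G is isomorphic to the alternating group of degree 5. -/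
theorem result {α : Type*} [Fintype α] [DecidableEq α] {p : ℕ} [Fact p.Prime] (hp : 3 < p) (hα : Fintype.card α = 2 * p) (G : Subgroup (Equiv.Perm α)) (hprim : MulAction.IsPreprimitive G α) (hnot2 : ¬ MulAction.IsMultiplyPretransitive G α 2) (P : Sylow p G) (hN : Nat.card (Subgroup.normalizer ((P : Subgroup G) : Set G)) = 2 * p) : p = 5 ∧ Nonempty (G ≃* alternatingGroup (Fin 5)) := by
  classical
  have := Fintype.ofFinite G
  obtain ⟨x, h, hP, hN'⟩ := setup (by omega) P ((dvd_mul_left p 2).trans
    (hN ▸ card_subgroup_dvd_card _)) hN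
  have hα' : Nat.card α = 2 * p := Nat.card_eq_fintype_card.trans hα
  have : Nontrivial α := Finite.one_lt_card_iff_nontrivial.1 (by omega)
  have hO := core_bot (G := G) (X := α) (p := p) (hα' ▸ dvd_mul_left p 2)
  have hn : ¬ (zpowers x).Normal := fun hn => by
    have := normal_pretransitive (X := α) (zpowers x) fun e => by
      have := card_zpowers' h.ord
      rw [e, card_bot] at this
      omega
    have h1 := Nat.le_of_dvd Nat.card_pos (card_dvd_card (G := zpowers x) (X := α))
    rw [card_zpowers' h.ord] at h1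
    omega
  obtain ⟨hs, he, hG, hsimp⟩ := simple_of_card h hN' hO hn
  obtain ⟨d, ζ, ψ, h1, h2, h4, h5, h6, h7, h8⟩ := exists_deg h he hG hp α (Or.inr ⟨hα', hnot2⟩)
  by_cases h5' : 5 < p
  · have hf := P1.faithful d h hG hO (Or.inr h4) (P1.ne_one d h4)
    obtain ⟨a, F, i1, i2, c1, c2, c3, -⟩ := core h hG h5' ψ h8 hf (not_mem_center h hn)
    obtain ⟨k, H⟩ := exists_rel h hG h5' ψ h8 hf (not_mem_center h hn)
    obtain ⟨w⟩ : Nonempty α := inferInstance
    obtain ⟨b, rfl⟩ : ∃ b, a = b + 1 := ⟨a - 1, by
      rcases a with _ | a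
      · omega
      · rfl⟩
    have h9 := H.counts.2
    rw [c3, card_bot, one_mul, show p - 1 = 2 ^ (b + 1) by omega] at h9
    refine absurd (IsPreprimitive.isCoatom_stabilizer_of_isPreprimitive G w) (not_coatom
      (k := b) (m := p - 2) (fun g hg => ?_) ?_ (by omega) ?_
      (h9 ▸ (dvd_mul_left _ p).mul_right _))
    · obtain ⟨t, z, ht, rfl⟩ := H.even_dec hg
      rwa [mem_bot.1 (c3.le z.2), one_mul]
    · rcases b with _ | _ | b <;> omega
    · have := card_eq_card_mul_card_stabilizer (G := G) w
      rw [h9, hα'] at this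
      exact Nat.eq_of_mul_eq_mul_left (show 0 < 2 * p by omega) (by rw [← this]; ring)
  · obtain rfl : p = 5 := by
      have := (Fact.out : p.Prime).eq_two_or_odd
      omega
    refine ⟨rfl, CA.H28Simp.simple_60 (card_eq_sixty (not_comm h hn) hs he d h1 h2 h4 h5 h6
      (by omega) (by omega) ?_)⟩
    rw [show 10 = Nat.card α from hα'.symm, ← Nat.card_perm]
    exact card_subgroup_dvd_card G

end Cfsg.Agent.S4707
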