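import Cfsg.Statements.S4708
import Cfsg.Agent.Lib.Block.H12Brg
import Cfsg.Agent.Lib.Block.BlkCov

set_option autoImplicit false
open Cfsg

namespace Cfsg.Agent.S4708

open MonoidAlgebra CA.BlkAlg CA.BlkVal CA.BlkOmega CA.BlkRed CA.BlkCore CA.BlkDefect CA.SylIn
  CA.BlkHeight CA.H12Cover CA.H11Amb CA.H11Def CA.H11Pair CA.H11Brg CA.H12Fong CA.H12FR CA.H12Brg
  CA.BlkCov CChar.CharFun CChar.CharOrth CChar.CharInt CChar.CharKer Subgroup

/-- Let p be a prime, M a maximal ideal of the algebraic integers containing p, G a finite group and H a normal subgroup. Write λ(X) for the sum of the squares of the degrees of the irreducible characters in the principal p-block of a group X. Then λ(H) ≤ λ(G) ≤ [G : H]·λ(H). -/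
theorem result {G : Type*} [Group G] [Finite G] (p : ℕ) [Fact p.Prime] (M : Ideal Cfsg.AlgInt) (hM : Cfsg.IsPModular p M) (H : Subgroup G) [H.Normal] : (∑ᶠ θ ∈ Cfsg.principalBlock M H, Cfsg.charDegree (θ : H → ℂ) ^ 2) ≤ (∑ᶠ χ ∈ Cfsg.principalBlock M G, Cfsg.charDegree (χ : G → ℂ) ^ 2) ∧ (∑ᶠ χ ∈ Cfsg.principalBlock M G, Cfsg.charDegree (χ : G → ℂ) ^ 2) ≤ H.index * ∑ᶠ θ ∈ Cfsg.principalBlock M H, Cfsg.charDegree (θ : H → ℂ) ^ 2 := by
  classical
  have := Fintype.ofFinite G
  have := Fintype.ofFinite H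
  rw [CA.H12Orth.finsum_mem_irr, CA.H12Orth.finsum_mem_irr]
  have hb : IsPBlock M (principalBlock M H) := isPBlock_principalBlock
  have hB : IsPBlock M (principalBlock M G) := isPBlock_principalBlock
  constructor
  · choose! f h1 h2 using fun θ (h : θ ∈ principalBlock M H) =>
      exists_over_of_cov hM hb (isSat_of_isPBlock hM hB) (cov_principal hM H) h
    rw [← Finset.sum_fiberwise_of_maps_to (t := Finset.univ.filter (· ∈ principalBlock M G))
      (g := f) fun θ h => by simpa using h1 θ (by simpa using h)]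
    refine Finset.sum_le_sum fun χ _ => (Finset.sum_sq_le_sq_sum_of_nonneg
      fun _ _ => Nat.zero_le _).trans (Nat.pow_le_pow_left ?_ 2)
    obtain ⟨m, h3, h4⟩ := char_exists_nat_coeffs (char_restrict (char_of_irr χ.2) H)
    have h5 := congrFun h4 1
    simp only [OneMemClass.coe_one, Finset.sum_apply, Pi.smul_apply, smul_eq_mul,
      irr_apply_one_eq χ.2, fun θ : IrrCharacter H => irr_apply_one_eq θ.2] at h5
    have h6 : charDegree χ.1 = ∑ θ, m θ * charDegree θ.1 := by exact_mod_cast h5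
    rw [h6]
    refine (Finset.sum_le_sum fun θ hθ => Nat.le_mul_of_pos_left _ (Nat.pos_of_ne_zero
      fun e => ?_)).trans (Finset.sum_le_sum_of_subset (Finset.subset_univ _))
    simp only [Finset.mem_filter, Finset.mem_univ, true_and] at hθ
    have := over_iff.1 (h2 θ hθ.1)
    rw [hθ.2, h3, e] at this
    exact this Nat.cast_zero
  have h1 := congrArg (fun a => a.coeff 1) (emb_fB_eq (cjS_principal (N := H) hM))
  simp only [coeff_emb_of_mem H _ (one_mem H), coeff_fB, blockCoeff_eq_sum] at h1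
  have e : (⟨1, one_mem H⟩ : H) = 1 := rfl
  simp only [e, fun χ : IrrCharacter G => irr_apply_one_eq χ.2,
    fun χ : IrrCharacter H => irr_apply_one_eq χ.2, map_natCast, ← pow_two, ← H.card_mul_index] at h1
  have h0 : (Nat.card H : ℂ) ≠ 0 := Nat.cast_ne_zero.2 Nat.card_pos.ne'
  have h0' : (H.index : ℂ) ≠ 0 := Nat.cast_ne_zero.2 index_ne_zero_of_finite
  push_cast at h1
  field_simp at h1
  have h2 : H.index * ∑ θ with θ ∈ principalBlock M H, charDegree θ.1 ^ 2 = ∑ χ with χ ∈
      {χ : IrrCharacter G | ∃ θ ∈ principalBlock M H, Over H χ.1 θ.1}, charDegree χ.1 ^ 2 := by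
    rw [mul_comm]; exact_mod_cast h1
  rw [h2]
  refine Finset.sum_le_sum_of_subset fun χ hχ => ?_
  obtain ⟨θ, h3⟩ := exists_under H χ
  simp only [Finset.mem_filter, Finset.mem_univ, true_and] at hχ ⊢
  exact ⟨θ, under_mem_principal hM hχ h3, h3⟩

end Cfsg.Agent.S4708
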