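import Cfsg.Statements.S4709
import Cfsg.Agent.Lib.Block.H11Frob

set_option autoImplicit false
open Cfsg

namespace Cfsg.Agent.S4709

open CA.H11Frob CA.H12PPart CA.SylIn CA.BlkCore CChar.CharOrth

/-- Let p be a prime, M a maximal ideal of the algebraic integers containing p, and G a finite group with a nontrivial abelian Sylow p-subgroup P; put N = N_G(P), C = C_G(P). Suppose N/C is cyclic of order m with 1 < m < #P − 1 (C has index m in N and N is generated by C and one element), and C_G(y) ∩ N = C for every non-identity y ∈ P. Put r = (#P − 1)/m. Then there is s ≤ m such that the principal p-block is the disjoint union of a set X of s characters containing the principal character and a set Y of r characters, with integers a_χ ≠ 0 (χ ∈ X), d and a sign δ = ±1, such that: every χ ∈ X takes the value a_χ at every element whose p-part is a non-identity element of P; there is a map ζ from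 the non-principal linear characters ψ of P onto Y, constant on N-conjugacy classes, with ζ_ψ(z) = d + δ·Σ ψ'(y) for every z whose p-part y is a non-identity element of P, the sum running over the N-conjugates ψ' of ψ; (d − δ)^2 + (r − 1) d^2 + Σ_{χ ∈ X} a_χ^2 = m + 1; all members of Y agree on p-regular elements; and (r d − δ) η(g) + Σ_{χ ∈ X} a_χ χ(g) = 0 for every η ∈ Y and every p-regular g. -/
theorem result {G : Type*} [Group G] [Finite G] (p : ℕ) [Fact p.Prime] (M : Ideal Cfsg.AlgInt) (hM : Cfsg.IsPModular p M) (P : Sylow p G) (hab : IsMulCommutative P) (hP1 : Nat.card P ≠ 1) (m : ℕ) (hm1 : 1 < m) (hm2 : m + 1 < Nat.card P) (hCN : (Subgroup.centralizer ((P : Subgroup G) : Set G)).relIndex (Subgroup.normalizer ((P : Subgroup G) : Set G)) = m) (hcyc : ∃ g : G, g ∈ Subgroup.normalizer ((P : Subgroup G) : Set G) ∧ Subgroup.centralizer ((P : Subgroup G) : Set G) ⊔ Subgroup.zpowers g =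 Subgroup.normalizer ((P : Subgroup G) : Set G)) (hfrob : ∀ y : G, y ∈ (P : Subgroup G) → y ≠ 1 → Subgroup.centralizer ({y} : Set G) ⊓ Subgroup.normalizer ((P : Subgroup G) : Set G) = Subgroup.centralizer ((P : Subgroup G) : Set G)) : ∃ (s : ℕ) (X Y : Set (Cfsg.IrrCharacter G)), s ≤ m ∧ Cfsg.principalBlock M G = X ∪ Y ∧ Disjoint X Y ∧ Nat.card X = s ∧ Nat.card Y = (Nat.card P - 1) / m ∧ (∃ χ₁ ∈ X, (χ₁ : G → ℂ) = fun _ => 1) ∧ ∃ (a : Cfsg.IrrCharacter G → ℤ) (d δ : ℤ) (ζ : (↥(P : Subgroup G) →* ℂˣ) → Cfsg.IrrCharacter G), (δ = 1 ∨ δ = -1) ∧ (∀ χ ∈ X, a χ ≠ 0 ∧ ∀ z y : G, Cfsg.IsPPart p z y → y ∈ (P : Subgroup G) → y ≠ 1 → (χ : G → ℂ) z = (a χ : ℂ)) ∧ (∀ ψ : ↥(P : Subgroup G) →* ℂˣ, ψ ≠ 1 → ζ ψ ∈ Y) ∧ (∀ η ∈ Y, ∃ ψ : ↥(P : Subgroup G) →* ℂˣ, ψ ≠ 1 ∧ ζ ψ = η) ∧ (∀ ψ ψ' : ↥(P : Subgroup G) →* ℂˣ, ψ ≠ 1 → (∃ n : G, n ∈ Subgroup.normalizer ((P : Subgroup G) : Set G) ∧ ∀ w w' : ↥(P : Subgroup G),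 (w' : G) = n * w * n⁻¹ → ψ' w' = ψ w) → ζ ψ' = ζ ψ) ∧ (∀ ψ : ↥(P : Subgroup G) →* ℂˣ, ψ ≠ 1 → ∀ (z : G) (y : ↥(P : Subgroup G)), Cfsg.IsPPart p z (y : G) → (y : G) ≠ 1 → (ζ ψ : G → ℂ) z = (d : ℂ) + (δ : ℂ) * ∑ᶠ ψ' ∈ {ψ' : ↥(P : Subgroup G) →* ℂˣ | ∃ n : G, n ∈ Subgroup.normalizer ((P : Subgroup G) : Set G) ∧ ∀ w w' : ↥(P : Subgroup G), (w' : G) = n * w * n⁻¹ → ψ' w' = ψ w}, ((ψ' y : ℂˣ) : ℂ)) ∧ ((d - δ) ^ 2 + ((Nat.card P - 1) / m - 1 : ℤ) * d ^ 2 + ∑ᶠ χ ∈ X, a χ ^ 2 = (m : ℤ) + 1) ∧ (∀ η ∈ Y, ∀ η' ∈ Y, ∀ g : G, ¬ p ∣ orderOf g → (η : G → ℂ) g = (η' : G → ℂ) g) ∧ (∀ η ∈ Y, ∀ g : G, ¬ p ∣ orderOf g → ((((Nat.card P - 1) / m : ℕ) : ℂ) * d - δ) * (η : G → ℂ) g + ∑ᶠ χ ∈ X, (a χ : ℂ) * (χ : G → ℂ) g = 0) := by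
  classical
  haveI := Fintype.ofFinite G
  have F : Frob p (P : Subgroup G) m := ⟨isSylowIn_top P, hab.1.1, hCN, hfrob⟩
  haveI := F.nontrivial hm2
  obtain ⟨i₀⟩ : Nonempty (Ix (P : Subgroup G)) := inferInstance
  obtain ⟨δ, d, μ, E⟩ := F.exists_exc hM i₀
  have hn := E.norm F hM i₀
  have hr : (Fintype.card (Ix (P : Subgroup G)) : ℤ) = ((Nat.card P : ℤ) - 1) / m := by
    rw [show (Nat.card P : ℤ) = (1 + Fintype.card (Ix (P : Subgroup G)) * m : ℕ) from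
      congrArg _ F.card_eq]
    push_cast
    rw [add_sub_cancel_left, Int.mul_ediv_cancel _ (Nat.cast_ne_zero.2 F.m_pos.ne')]
  have hp : ∀ {z y : G}, IsPPart p z y → IsConj y (pPart p z) := fun h => by
    rw [(isPPart_iff hM.1).1 h]
  refine ⟨_, principalBlock M G \ Set.range μ, Set.range μ, ?_, ?_, Set.disjoint_sdiff_left, rfl,
    ?_, ⟨irrOne G, ⟨irrOne_mem_principalBlock hM, E.one_not_mem F hM⟩, rfl⟩, co p m i₀, d, δ,
    fun ψ => if h : ψ ≠ 1 then μ (ix ψ h) else irrOne G, E.sign, fun χ h => ⟨E.co_ne_zero F hM h.1 h.2 _,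
      fun z y hz hy h1 => E.val_other F hM h.1 h.2 i₀ (y := ⟨y, hy⟩) (fun e => h1 (congrArg Subtype.val e))
        (hp hz)⟩, fun ψ h => ?_, ?_, fun ψ φ h e => ?_, fun ψ h z y hz h1 => ?_, by rw [← hr]; exact hn,
    ?_, ?_⟩
  · have h1 : 1 ≤ (d - δ) ^ 2 + ((Fintype.card (Ix (P : Subgroup G)) : ℤ) - 1) * d ^ 2 := by
      have h2 : (2 : ℤ) ≤ Fintype.card (Ix (P : Subgroup G)) := by
        exact_mod_cast Fintype.one_lt_card
      by_cases h : d = 0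
      · rw [h]; nlinarith [E.sq]
      · have : 1 ≤ d ^ 2 := by have := sq_pos_of_ne_zero h; omega
        nlinarith [sq_nonneg (d - δ)]
    rw [CA.H12Orth.finsum_mem_irr] at hn
    have h3 := Finset.card_nsmul_le_sum (Finset.univ.filter (· ∈ principalBlock M G \ Set.range μ))
      (fun χ => co p m i₀ χ ^ 2) 1 fun χ h => by
        have h' := (Finset.mem_filter.1 h).2
        have := sq_pos_of_ne_zero (E.co_ne_zero F hM h'.1 h'.2 i₀); omega
    rw [Nat.card_eq_fintype_card, Fintype.card_subtype]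
    simp only [nsmul_eq_mul, mul_one] at h3
    omega
  · rw [Set.diff_union_of_subset]
    rintro _ ⟨i, rfl⟩
    exact E.mem F hM i
  · rw [Nat.card_range_of_injective E.inj, Nat.card_eq_fintype_card, F.card_ix]
  · simp only [dif_pos h]; exact ⟨_, rfl⟩
  · rintro _ ⟨i, rfl⟩
    obtain ⟨ψ, h, rfl⟩ := ix_surj i
    exact ⟨ψ, h, dif_pos h⟩
  · have h' : φ ≠ 1 := fun e' => h (cl_eq_one.1 (by rw [← e', cl_eq_iff.2 e]))
    simp only [dif_pos h, dif_pos h']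
    exact congrArg μ (ix_eq_iff.2 e)
  · simp only [dif_pos h]
    rw [E.val_mu F hM _ (fun e => h1 (congrArg Subtype.val e)) (hp hz), eta_ix]
    rfl
  · rintro _ ⟨i, rfl⟩ _ ⟨j, rfl⟩ g hg
    exact E.reg_eq F hM i j hg
  · rintro _ ⟨i, rfl⟩ g hg
    rw [← F.card_ix]
    exact E.reg_rel F hM i₀ i hg

end Cfsg.Agent.S4709
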