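import Cfsg.Statements.S4711
import Cfsg.Agent.Lib.Block.BlkPr
import Cfsg.Agent.Lib.Block.H12Orth
import Cfsg.Agent.Lib.Odd.BG1b

set_option autoImplicit false
open Cfsg

namespace Cfsg.Agent.S4711
open Cfsg MonoidAlgebra CA.BlkAlg CA.BlkVal CA.BlkOmega CA.BlkRed CA.BlkCore CA.BlkDefect CA.BlkInd CA.BlkHeight CA.SylIn CA.H12PPart CChar.CharFun CChar.CharOrth Subgroup CA.BlkKer CChar.CharKer CA.BlkZero CChar.CharInt CA.H12Orth

open scoped ComplexConjugate

theorem ker_or {G : Type*} [Group G] [Fintype G] (P : Subgroup G) [Fintype P] {χ : G → ℂ}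
    (hχ : IsCharacter G χ)
    (h : IsIrrCharacter ↥(normalizer (P : Set G)) (fun n : ↥(normalizer (P : Set G)) => χ n)) :
    P ≤ charKer χ ∨ ∑ x : P, χ x = 0 := by
  classical
  by_cases h0 : ∑ x : P, χ x = 0
  · exact Or.inr h0
  left
  set N := normalizer (P : Set G) with hN
  have hle : P ≤ N := le_normalizer
  haveI : (P.subgroupOf N).Normal := normal_subgroupOf_of_le_normalizer le_rfl
  have key := le_charKer_of_omega_ne_zero (χ := (⟨_, h⟩ : IrrCharacter N)) (P.subgroupOf N) (by
    rw [omega_apply, chiL_setSum]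
    refine div_ne_zero (fun e => h0 ?_) (irr_apply_one_ne_zero h)
    rw [← e]
    refine Finset.sum_bij (fun x _ => (⟨x, hle x.2⟩ : N)) (fun x _ => Finset.mem_filter.2 ⟨Finset.mem_univ _, x.2⟩)
      (fun a _ b _ e => Subtype.ext (congrArg (fun n : N => (n : G)) e))
      (fun b hb => ⟨⟨b, (Finset.mem_filter.1 hb).2⟩, Finset.mem_univ _, rfl⟩) (fun _ _ => rfl))
  intro x hx
  have := apply_of_mem_charKer (key (show (⟨x, hle hx⟩ : N) ∈ P.subgroupOf N from hx))
  exact (mem_charKer hχ).mpr this

/-- Let p be a prime, M a maximal ideal of the algebraic integers containing p, G a finite group, P a Sylow p-subgroup and N = N_G(P). Then G has p-length 1 (G = O_{p',p,p'}(G)) if and only if every irreducible character in the principal p-block of G restricts to an irreducible character of N. -/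
theorem result {G : Type*} [Group G] [Finite G] (p : ℕ) [Fact p.Prime] (M : Ideal Cfsg.AlgInt) (hM : Cfsg.IsPModular p M) (P : Sylow p G) : Cfsg.PLengthLE p 1 G ↔ ∀ χ ∈ Cfsg.principalBlock M G, Cfsg.IsIrrCharacter ↥(Subgroup.normalizer ((P : Subgroup G) : Set G)) (fun n : ↥(Subgroup.normalizer ((P : Subgroup G) : Set G)) => (χ : G → ℂ) n) := by
  classical
  have hp : p.Prime := Fact.out
  haveI := Fintype.ofFinite G
  rw [CA.BG.pLengthLE_one_iff]
  haveI : (pPrimePCore p G).Normal := by unfold pPrimePCore; infer_instance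
  set K := pPrimeCore p G with hK
  constructor
  · intro h χ hχ
    have hker : K ≤ charKer χ.1 := (kerB_principalBlock hM).ge.trans (kerB_le hχ)
    have hPle : (P : Subgroup G) ≤ pPrimePCore p G := by
      have h1 : IsPGroup p (((P : Subgroup G).map (QuotientGroup.mk' (pPrimePCore p G)))) :=
        P.isPGroup'.map _
      obtain ⟨n, hn⟩ := IsPGroup.iff_card.1 h1
      have h2 := card_subgroup_dvd_card ((P : Subgroup G).map (QuotientGroup.mk' (pPrimePCore p G)))
      rw [hn, ← index_eq_card] at h2
      have h3 : p ^ n = 1 := Nat.Coprime.eq_one_of_dvd (h.symm.pow_left n) h2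
      rw [h3, card_eq_one, Subgroup.map_eq_bot_iff, QuotientGroup.ker_mk'] at hn
      exact hn
    have hfr := Sylow.normalizer_sup_eq_top' P hPle
    have hsurj : Function.Surjective ((QuotientGroup.mk' K).comp
        (normalizer ((P : Subgroup G) : Set G)).subtype) := by
      rw [← MonoidHom.range_eq_top, MonoidHom.range_comp, range_subtype, eq_top_iff,
        ← map_top_of_surjective _ (QuotientGroup.mk'_surjective K), ← hfr, Subgroup.map_sup]
      refine sup_le le_rfl ?_
      have h1 : pCore p (G ⧸ K) ≤ (P.mapSurjective (QuotientGroup.mk'_surjective K) : Sylow p _) :=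
        IsPGroup.le_sylow_of_normal CA.Core.isPGroup_pCore _
      exact (map_comap_le _ _).trans (h1.trans (map_mono le_normalizer))
    have := irr_comp_of_surjective (irr_deflate χ.2 hker) _ hsurj
    convert this using 2 with n
    exact (deflate_mk hker n).symm
  · intro h
    set B := principalBlock M G with hB
    set O := normalClosure ((P : Subgroup G) : Set G) with hO
    haveI := Fintype.ofFinite (P : Subgroup G)
    have hint := blockCoeff_mem_O hM (isPBlock_principalBlock (M := M) (G := G))
    have hsum : ∀ y : G, ¬ p ∣ orderOf y → ∑ χ with χ ∈ B, χ.1 1 * conj (χ.1 y) =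
        ∑ χ with χ ∈ B, (∑ x : (P : Subgroup G), χ.1 x) * conj (χ.1 y) := by
      intro y hy
      simp_rw [Finset.sum_mul]
      rw [Finset.sum_comm, Finset.sum_eq_single (1 : (P : Subgroup G))]
      · rfl
      · intro x _ hx
        obtain ⟨k, hk⟩ := IsPGroup.iff_orderOf.1 P.isPGroup' x
        refine orth_conj hM hint (isPPart_self hp ⟨k, by rw [orderOf_coe, hk]⟩)
          (isPPart_one_iff.2 hy) ?_
        rw [isConj_one_left]
        exact fun e => hx (Subtype.ext e)
      · simp
    have hreg : ∀ y ∈ O, ¬ p ∣ orderOf y → y ∈ K := by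
      intro y hyO hy
      have e : ∑ χ with χ ∈ B, χ.1 1 * conj (χ.1 y) = ∑ χ with χ ∈ B, χ.1 1 * conj (χ.1 1) := by
        rw [hsum y hy, hsum 1 (by simpa using hp.ne_one)]
        refine Finset.sum_congr rfl fun χ hχ => ?_
        rcases ker_or (P : Subgroup G) (char_of_irr χ.2) (h χ (by simpa using hχ)) with h1 | h1
        · rw [apply_of_mem_charKer (normalClosure_le_normal h1 hyO)]
        · rw [h1, zero_mul, zero_mul]
      have e2 : ∑ χ with χ ∈ B, (charDegree χ.1 : ℝ) * ((χ.1 1).re - (χ.1 y).re) = 0 := by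
        have := congrArg Complex.re e
        rw [Complex.re_sum, Complex.re_sum, eq_comm, ← sub_eq_zero, ← Finset.sum_sub_distrib] at this
        rw [← this]
        refine Finset.sum_congr rfl fun χ _ => ?_
        rw [irr_apply_one_eq χ.2]
        simp [mul_sub]
      rw [Finset.sum_eq_zero_iff_of_nonneg fun χ _ => mul_nonneg (Nat.cast_nonneg _)
        (sub_nonneg.2 (char_re_le (char_of_irr χ.2) y))] at e2
      rw [hK, ← kerB_principalBlock hM]
      refine mem_iInf.2 fun χ => mem_iInf.2 fun hχ => (mem_charKer (char_of_irr χ.2)).2 ?_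
      have := e2 χ (by simpa using hχ)
      rcases mul_eq_zero.1 this with h1 | h1
      · exact absurd (Nat.cast_eq_zero.1 h1) (charDegree_pos χ.2).ne'
      · exact char_eq_of_re_eq (char_of_irr χ.2) (sub_eq_zero.1 h1).symm
    have hOp : IsPGroup p (O.map (QuotientGroup.mk' K)) := by
      rintro ⟨_, x, hx, rfl⟩
      obtain ⟨k, hk⟩ := orderOf_pPart hp x
      refine ⟨k, Subtype.ext ?_⟩
      have h1 : QuotientGroup.mk' K (pReg p x) = 1 :=
        (QuotientGroup.eq_one_iff _).2 (hreg _ (pReg_mem hp hx) (not_dvd_orderOf_pReg hp x))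
      show (QuotientGroup.mk' K x) ^ p ^ k = 1
      rw [← pPart_mul_pReg p x, map_mul, h1, mul_one, ← map_pow, ← hk, pow_orderOf_eq_one, map_one]
    haveI : (O.map (QuotientGroup.mk' K)).Normal := Normal.map inferInstance _ (QuotientGroup.mk'_surjective K)
    have hle : (P : Subgroup G) ≤ pPrimePCore p G :=
      le_normalClosure.trans (map_le_iff_le_comap.1 (CA.Core.le_pCore hOp))
    exact ((hp.coprime_iff_not_dvd.2 P.not_dvd_index).symm).of_dvd_left (index_dvd_of_le hle)

end Cfsg.Agent.S4711
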