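import Cfsg.Statements.S4712
import Cfsg.Agent.Lib.Block.H12Sub
import Cfsg.Agent.Lib.Block.BlkIBr
import Cfsg.Agent.Lib.Block.H11Sec
import Cfsg.Agent.Lib.Block.BlkGal
import Cfsg.Agent.Lib.Block.H11Contrib

set_option autoImplicit false
open Cfsg

namespace Cfsg.Agent.S4712
open Cfsg MonoidAlgebra CA.BlkAlg CA.BlkVal CA.BlkOmega CA.BlkRed CA.BlkCore CA.BlkDefect CA.BlkInd CA.BlkHeight CA.SylIn CA.H12PPart CChar.CharFun CChar.CharOrth Subgroup CA.BlkKer CChar.CharKer CA.BlkZero CChar.CharInt CA.BlkReg CA.BlkGal CA.BlkQuo CA.BlkBas CA.BlkIdem CA.BlkIBr CChar.CharGen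

open scoped ComplexConjugate

variable {p : ℕ} {M : Ideal AlgInt}

theorem col {G : Type*} [Group G] [Finite G] (hM : IsPModular p M) {A : Set (IrrCharacter G)}
    [DecidablePred (· ∈ A)] (hA : IsSat M A) {x : G} (hx : ∃ n : ℕ, orderOf x = p ^ n) :
    ∃ b : Set (IrrCharacter (centralizer ({x} : Set G))), IsSat M b ∧
      ∀ [DecidablePred (· ∈ b)] (y y' : centralizer ({x} : Set G)), ¬ p ∣ orderOf y →
        ¬ p ∣ orderOf y' →
        ∑ ζ with ζ ∈ A, ζ.1 (x * y) * conj (ζ.1 (x * y')) =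
          ∑ ψ with ψ ∈ b, ψ.1 y * conj (ψ.1 y') := by
  classical
  haveI := Fintype.ofFinite G
  haveI := Fintype.ofFinite (centralizer ({x} : Set G))
  have hs : IsSat M {ξ : IrrCharacter (centralizer ({x} : Set G)) |
      lam M ξ.1 (trunc _ (eB M A)) = 1} := fun ξ hξ ψ h => by
    change lam M ψ.1 _ = 1
    rw [← h]; exact hξ
  refine ⟨_, hs, fun y y' hy hy' => ?_⟩
  have hpp : IsPPart p (x * y) x :=
    isPPart_mul (y.2 x rfl) hx (by rwa [Subgroup.orderOf_coe])
  have hmem : x * y ∈ centralizer ({x} : Set G) :=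
    mul_mem (by rintro _ rfl; rfl) y.2
  rw [← CA.H12Sub.sum_sub_orth hM hx hs hy hy', Finset.sum_filter]
  refine Finset.sum_congr rfl fun ζ _ => ?_
  split_ifs with hζ
  · congr 1
    have h1 := CA.H12Second.nagao hM (centralizer ({x} : Set G)) hA.compl hs.compl (fun ξ hξ => by
      obtain ⟨β, hβ⟩ := CA.H11Sec.defined hM hx rfl (isPBlock_blockOf (M := M) ξ)
      obtain ⟨η, hη⟩ := block_nonempty hM hβ.2.1
      have h2 := @lam_trunc_of_isInducedBlock _ _ _ _ _ _ _ _ _ _ hM hβ (self_mem_blockOf hM ξ) hη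
      rw [h2 (eB_mem_Z _)]
      apply lam_eB_of_mem hA.compl
      intro h3
      apply hξ
      change lam M ξ.1 _ = 1
      rw [h2 (eB_mem_Z _)]
      exact lam_eB_of_mem hA h3) hmem hpp le_rfl (χ := ζ) (fun h => h hζ)
    rw [fB_compl, map_sub, map_one, mul_sub, mul_one, map_sub, chiL_single, one_mul,
      sub_eq_zero] at h1
    exact h1
  · rw [CA.H12Second.nagao hM (centralizer ({x} : Set G)) hA hs (fun ξ hξ => hξ) hmem hpp le_rfl hζ,
      zero_mul]

theorem aut_nat {K : Type*} [Group K] [Fintype K] (hM : IsPModular p M) {b : Set (IrrCharacter K)}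
    [DecidablePred (· ∈ b)] (hb : IsSat M b) (α : K ≃* K) :
    ∃ n : ℕ, ∑ s with ¬ p ∣ orderOf s, ∑ ψ with ψ ∈ b, ψ.1 (α s) * conj (ψ.1 s) = n := by
  classical
  have h1 : ∀ s, ¬ p ∣ orderOf s → ∑ ψ with ψ ∈ b, ψ.1 (α s) * conj (ψ.1 s) =
      ∑ i : IBr M K with blk i ⊆ b, phi p (ibrEquiv hM α i) s * conj (Phi i s) := by
    intro s hs
    have hs' : ¬ p ∣ orderOf (α s) := by rwa [MulEquiv.orderOf_eq]
    simp only [irr_apply_eq hM _ hs', Finset.sum_mul, phi_ibrEquiv]
    rw [Finset.sum_comm, Finset.sum_filter]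
    refine Finset.sum_congr rfl fun i _ => ?_
    split_ifs with hi
    · rw [Phi, Finset.sum_apply, map_sum, Finset.mul_sum, Finset.sum_filter]
      refine Finset.sum_congr rfl fun ψ _ => ?_
      split_ifs with hψ
      · simp only [Pi.smul_apply, smul_eq_mul, map_mul, Complex.conj_natCast]; ring
      · have : dn ψ.1 i = 0 := dn_eq_zero hM fun h => hψ (hi h)
        simp [this]
    · refine Finset.sum_eq_zero fun ψ hψ => ?_
      have : dn ψ.1 i = 0 := by
        by_contra h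
        exact hi ((mem_iff_blk_subset hM hb h).1 (Finset.mem_filter.1 hψ).2)
      simp [this]
  rw [Finset.sum_congr rfl fun s hs => h1 s (Finset.mem_filter.1 hs).2, Finset.sum_comm]
  refine ⟨∑ i : IBr M K with blk i ⊆ b, if ibrEquiv hM α i = i then Nat.card K else 0, ?_⟩
  rw [Nat.cast_sum]
  refine Finset.sum_congr rfl fun i _ => ?_
  have h2 := (ibrAll K hM).inner_φ_Φ hM (fun _ _ _ _ => Set.mem_univ _) (ibrEquiv hM α i) i
  rw [ibrAll_φ, ibrAll_Φ, classInner] at h2
  have h3 : ∑ s with ¬ p ∣ orderOf s, phi p (ibrEquiv hM α i) s * conj (Phi i s) =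
      ∑ s, phi p (ibrEquiv hM α i) s * conj (Phi i s) := by
    rw [Finset.sum_filter]
    refine Finset.sum_congr rfl fun s _ => ?_
    split_ifs with h
    · rw [phi_of_dvd _ h, zero_mul]
    · rfl
  have h0 : (Nat.card K : ℂ) ≠ 0 := Nat.cast_ne_zero.2 Nat.card_pos.ne'
  rw [h3, (inv_mul_eq_iff_eq_mul₀ h0).1 h2]
  split_ifs <;> simp

theorem sum_fiber {G : Type*} [Group G] [Fintype G] [DecidableEq G] (hp : p.Prime) {u : G}
    (hu : ∃ n : ℕ, orderOf u = p ^ n) [Fintype (centralizer ({u} : Set G))] (F : G → ℂ) :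
    ∑ g with pPart p g = u, F g =
      ∑ c : centralizer ({u} : Set G) with ¬ p ∣ orderOf c, F (u * c) := by
  symm
  have hc : ∀ c : centralizer ({u} : Set G), Commute u c := fun c => c.2 u rfl
  refine Finset.sum_bij (fun c _ => u * c) (fun c h => ?_) (fun c _ d _ h => ?_) (fun g h => ?_)
    (fun c h => rfl)
  · refine Finset.mem_filter.2 ⟨Finset.mem_univ _, pPart_mul_of hp (hc c) hu ?_⟩
    simpa using (Finset.mem_filter.1 h).2
  · exact Subtype.ext (mul_left_cancel h)
  · have h1 := (Finset.mem_filter.1 h).2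
    refine ⟨⟨pReg p g, ?_⟩, Finset.mem_filter.2 ⟨Finset.mem_univ _, ?_⟩, ?_⟩
    · rintro _ rfl
      rw [← h1]
      exact commute_pPart_pReg hp g
    · rw [← Subgroup.orderOf_coe]; exact not_dvd_orderOf_pReg hp g
    · subst h1; exact pPart_mul_pReg p g

theorem sec_nat {G : Type*} [Group G] [Fintype G] [DecidableEq G] (hM : IsPModular p M)
    {A : Set (IrrCharacter G)} [DecidablePred (· ∈ A)] (hA : IsSat M A) {k : ℕ}
    (hk : k.Coprime (Nat.card G)) (hr : ∀ g : G, ¬ p ∣ orderOf g → g ^ k = g) (u : G) :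
    ∃ n : ℕ, ∑ g with pPart p g = u, ∑ χ with χ ∈ A, χ.1 (g ^ k) * conj (χ.1 g) = n := by
  classical
  have hp := hM.1
  by_cases hu : ∃ n : ℕ, orderOf u = p ^ n
  swap
  · refine ⟨0, ?_⟩
    rw [Nat.cast_zero]
    exact Finset.sum_eq_zero fun g hg => (hu (by
      rw [← (Finset.mem_filter.1 hg).2]; exact orderOf_pPart hp g)).elim
  haveI := Fintype.ofFinite (centralizer ({u} : Set G))
  rw [sum_fiber hp hu]
  have hc : ∀ c : centralizer ({u} : Set G), Commute u c := fun c => c.2 u rfl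
  have hpow : ∀ c : centralizer ({u} : Set G), ¬ p ∣ orderOf c → (u * c) ^ k = u ^ k * c := by
    intro c h
    rw [(hc c).mul_pow, hr c (by rwa [Subgroup.orderOf_coe])]
  have huk : ∃ n : ℕ, orderOf (u ^ k) = p ^ n := by rwa [orderOf_pow_eq hk]
  by_cases hcj : IsConj (u ^ k) u
  · obtain ⟨a, ha⟩ := isConj_iff.1 hcj
    have hC := centralizer_pow hk u
    have hmem : ∀ c ∈ centralizer ({u} : Set G), a * c * a⁻¹ ∈ centralizer ({u} : Set G) := by
      intro c h
      rw [← hC] at h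
      rw [mem_centralizer_singleton_iff] at h ⊢
      calc a * c * a⁻¹ * u = a * c * a⁻¹ * (a * u ^ k * a⁻¹) := by rw [ha]
        _ = a * (c * u ^ k) * a⁻¹ := by simp only [mul_assoc, inv_mul_cancel_left]
        _ = (a * u ^ k * a⁻¹) * (a * c * a⁻¹) := by
          rw [h]; simp only [mul_assoc, inv_mul_cancel_left]
        _ = _ := by rw [ha]
    have hn : a ∈ normalizer ((centralizer ({u} : Set G) : Subgroup G) : Set G) :=
      Subgroup.mem_normalizer_fintype hmem
    let α : centralizer ({u} : Set G) ≃* centralizer ({u} : Set G) :=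
      (centralizer ({u} : Set G)).normalizerMonoidHom ⟨a, hn⟩
    have hα : ∀ c : centralizer ({u} : Set G), (α c : G) = a * c * a⁻¹ := fun c => rfl
    obtain ⟨b, hb, hcol⟩ := col hM hA hu
    obtain ⟨n, hn⟩ := aut_nat hM hb α
    refine ⟨n, ?_⟩
    rw [← hn]
    refine Finset.sum_congr rfl fun c h => ?_
    have h := (Finset.mem_filter.1 h).2
    rw [← hcol (α c) c (by rwa [MulEquiv.orderOf_eq]) h, hpow c h]
    refine Finset.sum_congr rfl fun χ _ => ?_
    congr 1
    rw [hα, ← irr_classFun χ.2 (u ^ k * c) a]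
    refine congrArg _ ?_
    calc a * (u ^ k * c) * a⁻¹ = (a * u ^ k * a⁻¹) * (a * c * a⁻¹) := by
          simp only [mul_assoc, inv_mul_cancel_left]
      _ = _ := by rw [ha]
  · refine ⟨0, ?_⟩
    rw [Nat.cast_zero]
    refine Finset.sum_eq_zero fun c h => ?_
    have h := (Finset.mem_filter.1 h).2
    have h' : ¬ p ∣ orderOf (c : G) := by rwa [Subgroup.orderOf_coe]
    rw [hpow c h]
    exact CA.H12Orth.orth_conj hM (fB_mem_OG_of_isSat hA)
      (isPPart_mul ((hc c).pow_left k) huk h') (isPPart_mul (hc c) hu h') hcj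

theorem rank_le {G : Type*} [Group G] [Finite G] (hM : IsPModular p M)
    {A : Set (IrrCharacter G)} (hA : IsSat M A) {k : ℕ}
    (hk : k.Coprime (Nat.card G)) (hr : ∀ g : G, ¬ p ∣ orderOf g → g ^ k = g) :
    blockRank p A ≤ Nat.card {χ : IrrCharacter G // χ ∈ A ∧ pw hk χ = χ} := by
  classical
  haveI := Fintype.ofFinite G
  have hp := hM.1
  have h0 : (Nat.card G : ℂ) ≠ 0 := Nat.cast_ne_zero.2 Nat.card_pos.ne'
  choose n hn using sec_nat hM hA hk hr
  have h1 : (Nat.card G : ℂ) * Nat.card {χ : IrrCharacter G // χ ∈ A ∧ pw hk χ = χ} =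
      ∑ u, n u := by
    rw [Nat.cast_sum, ← Finset.sum_congr rfl fun u _ => hn u,
      Finset.sum_fiberwise Finset.univ (pPart p)
        (fun g => ∑ χ with χ ∈ A, χ.1 (g ^ k) * conj (χ.1 g)), Finset.sum_comm, Nat.card_eq_fintype_card,
      Nat.card_eq_fintype_card, Fintype.card_subtype, ← Finset.filter_filter,
      Finset.card_filter, Nat.cast_sum, Finset.mul_sum]
    refine Finset.sum_congr rfl fun χ _ => ?_
    have h2 := inner_irr_irr' (pw hk χ) χ
    rw [classInner, Nat.card_eq_fintype_card] at h2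
    rw [Nat.card_eq_fintype_card] at h0
    have h3 := (inv_mul_eq_iff_eq_mul₀ h0).1 h2
    simp only [pw_apply] at h3
    rw [h3]
    by_cases h : pw hk χ = χ <;> simp [h]
  have h2 : (Nat.card G : ℂ) * blockRank p A = n 1 := by
    rw [← hn 1, Finset.sum_comm, CA.H11Contrib.blockRank_eq_sum hM hA, Finset.mul_sum]
    refine Finset.sum_congr rfl fun χ _ => ?_
    rw [CA.H11Contrib.mm_def, classInner, mul_inv_cancel_left₀ h0, Finset.sum_filter]
    refine Finset.sum_congr rfl fun g _ => ?_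
    rw [pRegularPart_apply, pPart_eq_one_iff hp]
    by_cases h : p ∣ orderOf g
    · simp [h]
    · simp [h, hr g h]
  have h3 : Nat.card G * blockRank p A ≤
      Nat.card G * Nat.card {χ : IrrCharacter G // χ ∈ A ∧ pw hk χ = χ} := by
    have e1 : Nat.card G * blockRank p A = n 1 := by exact_mod_cast h2
    have e2 : Nat.card G * Nat.card {χ : IrrCharacter G // χ ∈ A ∧ pw hk χ = χ} = ∑ u, n u := by
      exact_mod_cast h1
    rw [e1, e2]
    exact Finset.single_le_sum (fun _ _ => Nat.zero_le _) (Finset.mem_univ 1)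
  exact Nat.le_of_mul_le_mul_left h3 Nat.card_pos

theorem exists_gen (hp : p.Prime) (hodd : p ≠ 2) {N : ℕ} (hN : N ≠ 0) :
    ∃ k : ℕ, k.Coprime N ∧ k ≡ 1 [MOD N / p ^ N.factorization p] ∧
      ∀ m : ℕ, m.Coprime N → m ≡ 1 [MOD N / p ^ N.factorization p] → ∃ j, m ≡ k ^ j [MOD N] := by
  set a := N.factorization p
  haveI := ZMod.isCyclic_units_of_prime_pow p hp hodd a
  haveI : NeZero (p ^ a) := ⟨pow_ne_zero _ hp.ne_zero⟩
  obtain ⟨γ, hγ⟩ := IsCyclic.exists_monoid_generator (α := (ZMod (p ^ a))ˣ)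
  have hco : (p ^ a).Coprime (N / p ^ a) := (Nat.coprime_ordCompl hp hN).pow_left a
  have hN' : p ^ a * (N / p ^ a) = N := Nat.ordProj_mul_ordCompl_eq_self N p
  obtain ⟨k, h1, h2⟩ := Nat.chineseRemainder hco (γ : ZMod (p ^ a)).val 1
  have hk : (k : ZMod (p ^ a)) = γ := by
    rw [(ZMod.natCast_eq_natCast_iff _ _ _).2 h1, ZMod.natCast_zmod_val]
  refine ⟨k, ?_, h2, fun m hm hm1 => ?_⟩
  · rw [← hN']
    refine Nat.Coprime.mul_right ?_ ?_
    · rw [← ZMod.isUnit_iff_coprime, hk]; exact γ.isUnit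
    · unfold Nat.Coprime
      rw [h2.gcd_eq, Nat.gcd_one_left]
  · have hm' : m.Coprime (p ^ a) := hm.of_dvd_right (Dvd.intro _ hN')
    obtain ⟨j, hj⟩ := hγ (ZMod.unitOfCoprime m hm')
    refine ⟨j, ?_⟩
    rw [← hN', ← Nat.modEq_and_modEq_iff_modEq_mul hco]
    constructor
    · rw [← ZMod.natCast_eq_natCast_iff, Nat.cast_pow, hk, ← Units.val_pow_eq_pow_val]
      have : γ ^ j = ZMod.unitOfCoprime m hm' := hj
      rw [this, ZMod.coe_unitOfCoprime]
    · exact hm1.trans (by simpa using (h2.pow j).symm)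

/-- Let p be an odd prime, M a maximal ideal of the algebraic integers containing p, G a finite group of order n with p-part p^a, and B a p-block of G. Call an irreducible character χ p-rational when χ(g^k) = χ(g) for every g and every k coprime to n with k ≡ 1 modulo n/p^a (χ is fixed by the Galois automorphisms fixing the roots of unity of order prime to p). Then the number of p-rational irreducible characters in B is at least the p-regular rank of B (the number of irreducible Brauer characters in B). -/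
theorem result {G : Type*} [Group G] [Finite G] (p : ℕ) [Fact p.Prime] (hodd : p ≠ 2) (M : Ideal Cfsg.AlgInt) (hM : Cfsg.IsPModular p M) (B : Set (Cfsg.IrrCharacter G)) (hB : Cfsg.IsPBlock M B) : Cfsg.blockRank p B ≤ Nat.card {χ : Cfsg.IrrCharacter G // χ ∈ B ∧ ∀ k : ℕ, Nat.Coprime k (Nat.card G) → k ≡ 1 [MOD Nat.card G / p ^ (Nat.card G).factorization p] → ∀ g : G, (χ : G → ℂ) (g ^ k) = (χ : G → ℂ) g} := by
  have hp : p.Prime := Fact.out
  obtain ⟨k, hk, hk1, hgen⟩ := exists_gen hp hodd (Nat.card_pos (α := G)).ne'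
  have hr : ∀ g : G, ¬ p ∣ orderOf g → g ^ k = g := by
    intro g hg
    have h1 : orderOf g ∣ Nat.card G / p ^ (Nat.card G).factorization p :=
      Nat.dvd_ordCompl_of_dvd_not_dvd (_root_.orderOf_dvd_natCard g) hg
    conv_rhs => rw [← pow_one g]
    exact pow_eq_pow_iff_modEq.2 (hk1.of_dvd h1)
  refine (rank_le hM (isSat_of_isPBlock hM hB) hk hr).trans (Nat.card_le_card_of_injective
    (fun χ => ⟨χ.1, χ.2.1, fun m hm hm1 g => ?_⟩) fun χ ψ h => ?_)
  · obtain ⟨j, hj⟩ := hgen m hm hm1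
    have h1 : g ^ m = g ^ k ^ j :=
      pow_eq_pow_iff_modEq.2 (hj.of_dvd (_root_.orderOf_dvd_natCard g))
    rw [h1]
    have h2 := (pw_eq_self_iff hk).1 χ.2.2
    clear hj h1
    induction j with
    | zero => simp
    | succ j ih => rw [pow_succ, pow_mul, h2, ih]
  · exact Subtype.ext (congrArg Subtype.val h :)

end Cfsg.Agent.S4712
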