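import Cfsg.Statements.S4713
import Cfsg.Agent.Lib.Char.H12Deg
import Cfsg.Agent.Lib.Grp.H12PSolv

set_option autoImplicit false
open Cfsg

namespace Cfsg.Agent.S4713

open CA.PF CA.OQuo CA.H12Gl CA.H12Gl2 CA.H12Mon CA.H12Deg Subgroup
open CA.BG hiding cj cj_one cj_mul cj_inv_cj cj_cj_inv mem_cent1

/-- Let p be a prime and G a finite p-solvable group. Then G has a normal abelian Sylow p-subgroup if and only if the degree of every irreducible character of G is prime to p. -/
theorem result {G : Type*} [Group G] [Finite G] (p : ℕ) [Fact p.Prime] (hsolv : Cfsg.IsPSolvable p G) (P : Sylow p G) : ((P : Subgroup G).Normal ∧ IsMulCommutative P) ↔ ∀ χ : Cfsg.IrrCharacter G, ¬ p ∣ Cfsg.charDegree (χ : G → ℂ) := by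
  have := Fintype.ofFinite G
  have hp : p.Prime := Fact.out
  refine ⟨fun ⟨h1, h2⟩ χ h => P.not_dvd_index (h.trans (relIndex_top_right (P : Subgroup G) ▸
    ito (nrm_top _) h2 (mem_irr_top.2 χ.2))), fun h => ?_⟩
  obtain ⟨Q, h1, h2, h3⟩ := ito_syl hp hsolv fun χ hχ => h ⟨χ, mem_irr_top.1 hχ⟩
  obtain rfl := h1.eq_of_normal h2.le_normalizer (syl_top hp P)
  exact ⟨h2.normal_of_top, h3⟩

end Cfsg.Agent.S4713
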