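import Cfsg.Statements.S4714
import Cfsg.Agent.Lib.Block.H12DC2

set_option autoImplicit false
open Cfsg

namespace Cfsg.Agent.S4714

open CA.BlkVal CA.BlkCore CA.BlkDefect CA.BlkHeight CA.H12PPart CA.H12Cover CA.H12DC CA.H12DC2
  CChar.CharFun CChar.CharOrth CChar.CharInt CChar.CharKer Subgroup

/-- Let p be a prime, M a maximal ideal of the algebraic integers containing p, D a p-subgroup of the finite group G with G = D·C_G(D), and B a p-block with defect group D. Let χ be a member of B having D in its kernel (there is exactly one, the canonical character of B). Then the irreducible characters in B are exactly the functions θ on G for which there is an irreducible character ζ of D such that θ(yx) = ζ(y)χ(x) whenever y ∈ D, x has order prime to p and x commutes with y, and θ(z) = 0 whenever the p-part of z does not lie in D. -/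
theorem result {G : Type*} [Group G] [Finite G] (p : ℕ) [Fact p.Prime] (M : Ideal Cfsg.AlgInt) (hM : Cfsg.IsPModular p M) (D : Subgroup G) (hD : IsPGroup p D) (hG : D ⊔ Subgroup.centralizer (D : Set G) = ⊤) (B : Set (Cfsg.IrrCharacter G)) (hB : Cfsg.IsPBlock M B) (hBD : Cfsg.IsDefectGroup p M B D) (χ : Cfsg.IrrCharacter G) (hχ : χ ∈ B) (hχD : ∀ y ∈ D, (χ : G → ℂ) y = (χ : G → ℂ) 1) : (∀ θ : Cfsg.IrrCharacter G, θ ∈ B ↔ ∃ ζ : Cfsg.IrrCharacter D, (∀ (y : D) (x : G), ¬ p ∣ orderOf x → Commute (y : G) x → (θ : G → ℂ) ((y : G) * x) = (ζ : D → ℂ) y * (χ : G → ℂ) x) ∧ (∀ z : G, (∀ y : G, Cfsg.IsPPart p z y → y ∉ D) → (θ : G → ℂ) z = 0)) ∧ ∀ ζ : Cfsg.IrrCharacter D, ∃ θ ∈ B, (∀ (y : D) (x : G), ¬ p ∣ orderOf x → Commute (y : G) x → (θ : G → ℂ) ((y : G) * x) = (ζ : D → ℂ) y * (χ : G → ℂ) x) ∧ (∀ z : G, (∀ y : G, Cfsg.IsPPart p z y → y ∉ D) → (θ : G → ℂ) z = 0) := by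
  have := Fintype.ofFinite G
  have := normal_of_sup hG
  have h0 : ∀ θ ∈ B, ∀ z : G, (∀ y : G, IsPPart p z y → y ∉ D) → θ.1 z = 0 := fun θ hθ z hz =>
    by_contra fun e => hz _ (isPPart_pPart hM.1 z) (CA.H12DC.pPart_mem hM hB hBD hθ e)
  refine ⟨fun θ => ⟨fun hθ => ?_, fun ⟨ζ, h1, h2⟩ => ?_⟩, fun ζ => ?_⟩
  · obtain ⟨ζ, -, h⟩ := exists_eq hM hB hBD hG hχ hχD hθ
    exact ⟨ζ, fun y x hx _ => h y x hx, h0 θ hθ⟩
  · obtain ⟨ψ, hψ, h⟩ := exists_mem hM hB hBD hG hχ hχD ζ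
    rwa [show θ = ψ from Subtype.ext (eq_of_formula hM.1 (fun g hg => by_contra fun e => hg
      (h2 g fun y hy => (isPPart_iff hM.1).1 hy ▸ e)) (fun g => CA.H12DC.pPart_mem hM hB hBD hψ)
      h1 fun x y hy _ => h x y hy)]
  · obtain ⟨ψ, hψ, h⟩ := exists_mem hM hB hBD hG hχ hχD ζ
    exact ⟨ψ, hψ, fun y x hx _ => h y x hx, h0 ψ hψ⟩

end Cfsg.Agent.S4714
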