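import Cfsg.Statements.S4715
import Cfsg.Agent.Lib.Block.BlkSubs

set_option autoImplicit false
open Cfsg

namespace Cfsg.Agent.S4715
open Cfsg MonoidAlgebra CA.BlkAlg CA.BlkVal CA.BlkOmega CA.BlkRed CA.BlkCore CA.BlkDefect CA.BlkInd CA.BlkHeight CA.SylIn CA.H12PPart CChar.CharFun CChar.CharOrth Subgroup CA.BlkKer CChar.CharKer CA.H11Amb CA.H11Def CA.H11Pair CA.H11Max CA.H11Brg CA.BlkFirst CA.BlkPi CA.BlkReg CA.H11Sec CA.H11Cyclo CA.H11Av CA.BlkSubs CChar.CharGen

/-- Let p be a prime, M a maximal ideal of the algebraic integers containing p, B a p-block of the finite group G with defect group D of order p^d, H = D·C_G(D), b a block of H inducing B, T the stabilizer of b in N_G(D) and e = [T : H] the inertial index of B; let n be the integer with p^n ≤ e < p^(n+1) and p^c the order of the centre of D. Then every irreducible character in B has height h with h + c ≤ n + d. -/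
theorem result {G : Type*} [Group G] [Finite G] (p : ℕ) [Fact p.Prime] (M : Ideal Cfsg.AlgInt) (hM : Cfsg.IsPModular p M) (B : Set (Cfsg.IrrCharacter G)) (hB : Cfsg.IsPBlock M B) (D : Subgroup G) (hBD : Cfsg.IsDefectGroup p M B D) (d : ℕ) (hDd : Nat.card D = p ^ d) (H : Subgroup G) (hH : H = D ⊔ Subgroup.centralizer (D : Set G)) (b : Set (Cfsg.IrrCharacter H)) (hind : Cfsg.IsInducedBlock M H b B) (T : Subgroup G) (hT : ∀ g : G, g ∈ T ↔ (g ∈ Subgroup.normalizer (D : Set G) ∧ ∀ θ ∈ b, ∀ θ' : Cfsg.IrrCharacter H, (∀ h h' : H, (h' : G) = g * h * g⁻¹ → (θ' : H → ℂ) h' = (θ : H → ℂ) h) → θ' ∈ b)) (e : ℕ) (he : H.relIndex T = e) (n : ℕ) (hn : p ^ n ≤ e ∧ e < p ^ (n + 1)) (c : ℕ) (hc : Nat.card (Subgroup.center D) = p ^ c) : ∀ χ ∈ B, Cfsg.blockHeight p B (χ : G → ℂ) + c ≤ n + d := by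
  classical
  intro χ hχ
  haveI := Fintype.ofFinite G
  haveI : ∀ u : G, Fintype (centralizer ({u} : Set G)) := fun _ => Fintype.ofFinite _
  have hp := p_eq_zero hM
  have hD := isPGroup_of_isDefectGroup hBD
  subst hH
  have h3 : D ⊔ CC D ≤ NN D := sup_le le_normalizer (CC_le_NN _)
  have hmx : Mx p ⊤ (eB M B) D (ab M _ b) := ⟨blk_eB hM hB, ⟨le_top, hD, by
    rw [top_inf_eq]; exact blk_CC_of_sup hp hD (blk_ab hM hind.1)⟩,
    (isInducedBlock_iff_ab hM hD le_sup_left le_sup_right h3 hind.1 hB).mp hind,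
    (isDefectGroup_iff_top hM hB).mp hBD⟩
  have hST : St ⊤ D (ab M _ b) ≤ T := fun t ht => (hT t).mpr ⟨St_le_NN ht, fun θ hθ θ' h => by
    obtain ⟨h1, h2⟩ := cB_spec hM (show t •ᶜ (D ⊔ CC D) = D ⊔ CC D by
      rw [conj_sup, conj_CC, conj_eq_of_mem_normalizer (St_le_NN ht)]) hind.1
    rw [← ab_inj hM h1 hind.1 (h2.trans (mem_St.mp ht).2.2)]
    exact ⟨θ, hθ, h⟩⟩
  have hHT : D ⊔ CC D ≤ T := (sup_le hmx.pr.le_St (by simpa using hmx.pr.C_le_St)).trans hST
  let Z := D ⊓ CC D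
  haveI := Fintype.ofFinite Z
  choose bb hb1 hb2 hb3 using fun u : Z => exists_major hM hB hmx u.2.1 u.2.2
  have hu : ∀ u : Z, ∃ n, orderOf (u : G) = p ^ n := fun u => pel_of_mem hM.1 hD u.2.1
  have hχ' := irr_classFun χ.2
  let P : Z → G → ℂ := fun u => pj p (bb u) u χ.1
  let a : Z → ℝ := fun u => ‖cb p (bb u) u χ.1 χ.1‖
  have hs := fun u => isSat_of_isPBlock hM (hb2 u).1
  have hZC : ∀ u : Z, D ≤ CC (zpowers (u : G)) := fun u =>
    (mem_CC_iff_le.mp u.2.2).trans (CC_zpowers _).ge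
  have h4 : ∀ u w : Z, ‖classInner (P u) (P w)‖ ≤ if ∃ t ∈ T, t * u * t⁻¹ = w then a u else 0 :=
    fun u w => by
      by_cases h : ∀ g : G, g * u * g⁻¹ = w → ab M _ (bb w) ≠ cjA g (ab M _ (bb u))
      · rw [inner_pj_eq_zero hM (hu u) (hu w) (hb2 u).1 (hb2 w).1 h _ hχ', norm_zero]
        positivity
      push Not at h
      obtain ⟨g, h1, h2⟩ := h
      have h5 := hb1 w
      have h6 := hZC w
      rw [h2, ← h1, ← conj_zpowers] at h5
      rw [← h1, ← conj_zpowers] at h6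
      obtain ⟨t, ht, h7⟩ := Mx.exists_conj_of_major hp hmx (hZC u) h6 (hb1 u) h5
      rw [if_pos ⟨t, hST ht, by
        rw [← h1, ← mul_inv_cancel_left g t, mul_assoc g, ← mem_CC.mp h7 _ (mem_zpowers _)]; group⟩]
      simp only [P]
      rw [pj_conj hM (hu u) h1 (hb2 u).1 (hb2 w).1 h2 hχ', inner_pj_pj hM (hs u) (hu u) rfl]
  have h5 : ∀ u : Z, (Finset.univ.filter fun w : Z => ∃ t ∈ T, t * u * t⁻¹ = w).card ≤ e :=
    fun u => by
      rw [← he, relIndex, index, ← Fintype.card_subtype, ← Nat.card_eq_fintype_card]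
      refine Nat.card_le_card_of_surjective (fun q => ⟨⟨q.out * u * (q.out : G)⁻¹, ?_⟩, _, q.out.2,
        rfl⟩) ?_
      · have := ((hT _).mp q.out.2).1
        exact ⟨(mem_normalizer_iff.mp this _).mp u.2.1, (conj_mem_CC this).mpr u.2.2⟩
      · rintro ⟨w, t, ht, h⟩
        obtain ⟨x, hx⟩ := QuotientGroup.mk_out_eq_mul ((D ⊔ CC D).subgroupOf T) ⟨t, ht⟩
        refine ⟨QuotientGroup.mk ⟨t, ht⟩, Subtype.ext (Subtype.ext ?_)⟩
        have h6 : (x.1 : G) * u = u * x.1 := mem_centralizer_singleton_iff.mp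
          ((sup_le (mem_CC_iff_le.mp u.2.2) ((CC_anti (zpowers_le.mpr u.2.1)).trans
            (CC_zpowers _).le) : D ⊔ CC D ≤ _) x.2)
        simp only [hx, coe_mul, ← h]
        rw [mul_assoc t, h6]; group
  have h6 : ∑ u, a u ≤ e := by
    have e1 := norm_inner_sq_le (θ := ∑ u, P u) (classFun_sum _ fun u _ => pj_classFun _) χ
    have e2 : classInner (∑ u, P u) χ.1 = (∑ u, a u : ℝ) := by
      rw [inner_sum_left]
      push_cast
      exact Finset.sum_congr rfl fun u _ => by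
        rw [← cb_eq_inner_pj' hM (hs u) rfl _ hχ', cb_self_eq_norm]
    have e3 : ‖classInner (∑ u, P u) (∑ u, P u)‖ ≤ e * ∑ u, a u := by
      rw [inner_sum_left, Finset.mul_sum]
      refine norm_sum_le_of_le _ fun u _ => ?_
      rw [inner_sum_right]
      refine (norm_sum_le_of_le _ fun w _ => h4 u w).trans ?_
      rw [← Finset.sum_filter, Finset.sum_const, nsmul_eq_mul]
      exact mul_le_mul_of_nonneg_right (by exact_mod_cast h5 u) (norm_nonneg _)
    have e4 : 0 ≤ ∑ u, a u := Finset.sum_nonneg fun _ _ => norm_nonneg _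
    rw [e2, Complex.norm_real, Real.norm_of_nonneg e4] at e1
    rcases e4.eq_or_lt with h | h
    · rw [← h]; positivity
    · exact le_of_mul_le_mul_right (by nlinarith) h
  have hd : blockDefect p B = d := Nat.pow_right_injective hM.1.two_le
    ((card_defectGroup hM hB hBD).symm.trans hDd)
  haveI : NeZero (p ^ d) := ⟨pow_ne_zero _ hM.1.ne_zero⟩
  have hn' : ∀ u : Z, orderOf (u : G) ∣ p ^ d := fun u => hDd ▸ orderOf_dvd_natCard D u.2.1
  have h7 : ∀ (w : (ZMod (p ^ d))ˣ) (u : Z),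
      ‖cb p (bb u) ((u : G) ^ ex w) χ.1 χ.1‖ = a (u ^ ex w) := fun w u => by
    have e1 := eq_centralizer_pow_ex (hn' u) rfl w
    have e2 : zpowers ((u : G) ^ ex w) = zpowers (u : G) :=
      zpowers_pow_of_coprime ((coprime_ex w).coprime_dvd_right (hn' u))
    have e3 := (hb1 u).unique hp hmx.pr (e2 ▸ hb1 (u ^ ex w))
    rw [cb_congr hM e1 (hb2 u).1 (hb2 (u ^ ex w)).1 e3]
    rfl
  have h8 : ∀ u : Z, (p : ℝ) ^ blockHeight p B χ.1 ≤
      av (p ^ d) fun k => ‖(p : ℂ) ^ d * cb p (bb u) ((u : G) ^ k) χ.1 χ.1‖ := fun u => by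
    have e1 := cb_mem_cyc hM (hb2 u).1 le_rfl (CA.BlkBas.self_mem_of_eq rfl) (hn' u)
      (gen_of_irr χ.2) (gen_of_irr χ.2)
    rw [hb3, hd] at e1
    refine pow_le_av hM e1 (mul_ne_zero (pow_ne_zero _ (Nat.cast_ne_zero.mpr hM.1.ne_zero)) ?_)
      fun w => ?_
    · rw [pow_one, Ne, cb_self_eq_zero]
      exact sp_ne_zero_of_major hM (hu u) rfl (hb2 u) (hb3 u) hχ
    · have := v_pow_cb_le hM (hs u) (pel_pow hM.1 (hu u) _)
        (eq_centralizer_pow_ex (hn' u) rfl w) hχ (gen_of_irr χ.2)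
      rwa [hd] at this
  have h9 := Finset.sum_le_sum fun u (_ : u ∈ Finset.univ) => h8 u
  rw [← av_sum] at h9
  have h10 := h9.trans (av_le (c := p ^ d * e) fun w => by
    simp only [norm_mul, norm_pow, Complex.norm_natCast, h7, ← Finset.mul_sum]
    refine mul_le_mul_of_nonneg_left (le_trans (le_of_eq ?_) h6) (by positivity)
    exact Equiv.sum_comp (powCoprime (G := Z) (n := ex w)
      ((coprime_ex w).symm.coprime_dvd_left (hDd ▸ card_dvd_of_le inf_le_left))) a)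
  have hZ : Nat.card Z = p ^ c := (card_center_eq D).symm.trans hc
  rw [Finset.sum_const, Finset.card_univ, ← Nat.card_eq_fintype_card, hZ, nsmul_eq_mul] at h10
  have h11 : p ^ c * p ^ blockHeight p B χ.1 ≤ p ^ d * e := by exact_mod_cast h10
  have h12 := h11.trans_lt (Nat.mul_lt_mul_of_pos_left hn.2 (pow_pos hM.1.pos d))
  rw [← pow_add, ← pow_add, Nat.pow_lt_pow_iff_right hM.1.one_lt] at h12
  omega

end Cfsg.Agent.S4715
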