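import Cfsg.Statements.S4716
import Cfsg.Agent.Lib.Block.H11Sec

set_option autoImplicit false
open Cfsg

namespace Cfsg.Agent.S4716

open Cfsg CA.BlkVal CA.BlkCore CA.BlkReg CA.H11Sec CA.H11Cyclo CA.H11Contrib CA.BlkBas CChar.CharFun CChar.CharOrth CChar.CharGen Subgroup

/-- Let p be a prime, M a maximal ideal of the algebraic integers containing p, and B a p-block of defect d of the finite group G all of whose irreducible characters have height zero. Let y be a p-element, C = C_G(y), and b a block of C inducing B and having the same defect d (a major subsection). Then k(B)^2 ≤ p^(2d)·l(b), where k(B) is the number of irreducible characters in B and l(b) the p-regular rank of b (its number of irreducible Brauer characters); in particular (y = 1) k(B)^2 ≤ p^(2d)·l(B). -/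
theorem result {G : Type*} [Group G] [Finite G] (p : ℕ) [Fact p.Prime] (M : Ideal Cfsg.AlgInt) (hM : Cfsg.IsPModular p M) (B : Set (Cfsg.IrrCharacter G)) (hB : Cfsg.IsPBlock M B) (d : ℕ) (hd : Cfsg.blockDefect p B = d) (hh : ∀ χ ∈ B, Cfsg.blockHeight p B (χ : G → ℂ) = 0) (y : G) (hy : ∃ k : ℕ, orderOf y = p ^ k) (b : Set (Cfsg.IrrCharacter ↥(Subgroup.centralizer ({y} : Set G)))) (hind : Cfsg.IsInducedBlock M (Subgroup.centralizer ({y} : Set G)) b B) (hbd : Cfsg.blockDefect p b = d) : Nat.card B ^ 2 ≤ p ^ (2 * d) * Cfsg.blockRank p b := by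
  classical
  cases nonempty_fintype G
  haveI : NeZero (orderOf y) := ⟨(orderOf_pos y).ne'⟩
  have hy' : y ∈ centralizer ({y} : Set G) := self_mem_of_eq rfl
  have h1 : ∀ χ ∈ B, ∀ ψ ∈ B, (Fintype.card (ZMod (orderOf y))ˣ : ℝ) ≤
      ∑ w : (ZMod (orderOf y))ˣ, ‖(p : ℂ) ^ d * cb p b (y ^ ex w) χ.1 ψ.1‖ ^ 2 := fun χ hχ ψ hψ => by
    rw [← hbd]
    refine card_le_sum_norm_sq
      (cb_mem_cyc hM hind.1 le_rfl hy' dvd_rfl (gen_of_irr χ.2) (gen_of_irr ψ.2)) ?_
    rw [pow_one]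
    exact mul_ne_zero (pow_ne_zero _ (Nat.cast_ne_zero.2 hM.1.ne_zero))
      (cb_ne_zero hM hy le_rfl hy' hind hχ (hh χ hχ) hψ (hh ψ hψ))
  have h2 : ∀ w : (ZMod (orderOf y))ˣ, ∑ χ with χ ∈ B, ∑ ψ with ψ ∈ B,
      ‖(p : ℂ) ^ d * cb p b (y ^ ex w) χ.1 ψ.1‖ ^ 2 = p ^ (2 * d) * blockRank p b := fun w => by
    have hw := eq_centralizer_pow_ex dvd_rfl rfl w
    rw [← sum_norm_cb_self hM (pel_pow hM.1 hy _) hw hind, Finset.mul_sum]
    refine Finset.sum_congr rfl fun χ _ => ?_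
    rw [← sum_norm_cb_sq hM (pel_pow hM.1 hy _) hw hind, Finset.mul_sum]
    refine Finset.sum_congr rfl fun ψ _ => ?_
    rw [norm_mul, norm_pow, Complex.norm_natCast]; ring
  have h3 := Finset.sum_le_sum fun χ (hχ : χ ∈ Finset.univ.filter (· ∈ B)) =>
    Finset.sum_le_sum fun ψ (hψ : ψ ∈ Finset.univ.filter (· ∈ B)) =>
      h1 χ (Finset.mem_filter.1 hχ).2 ψ (Finset.mem_filter.1 hψ).2
  replace h3 := h3.trans_eq ((Finset.sum_congr rfl fun χ _ => Finset.sum_comm).trans Finset.sum_comm)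
  simp only [h2, Finset.sum_const, nsmul_eq_mul, Finset.card_univ] at h3
  have h4 := card_units_pos (n := orderOf y)
  rw [card_set_eq]
  have h5 : (((Finset.univ.filter (· ∈ B)).card : ℝ)) ^ 2 ≤ p ^ (2 * d) * blockRank p b := by
    nlinarith
  exact_mod_cast h5

end Cfsg.Agent.S4716
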