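import Cfsg.Statements.S4717
import Cfsg.Agent.Lib.Block.BlkMisc
import Cfsg.Agent.Lib.Block.BlkFirst
import Cfsg.Agent.Lib.Block.H11Max
import Cfsg.Agent.S0936

set_option autoImplicit false
open Cfsg

namespace Cfsg.Agent.S4717
open Cfsg MonoidAlgebra CA.BlkAlg CA.BlkVal CA.BlkOmega CA.BlkRed CA.BlkCore CA.BlkDefect CA.BlkInd CA.BlkHeight CA.SylIn CA.H12PPart CChar.CharFun CChar.CharOrth Subgroup CA.BlkKer CChar.CharKer CA.BlkZero CChar.CharInt CA.BlkReg CA.BlkRob CA.BlkMisc CA.H11Amb CA.H11Def CA.H11Pair CA.H11Brg CA.BlkFirst CA.H11Max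

theorem defect_le {G : Type*} [Group G] [Finite G] {p : ℕ} [Fact p.Prime] {M : Ideal AlgInt}
    (hM : IsPModular p M) {H : Subgroup G} {b : Set (IrrCharacter H)} {B : Set (IrrCharacter G)}
    (h : IsInducedBlock M H b B) : blockDefect p b ≤ blockDefect p B := by
  have hb := ((isInducedBlock_iff hM).mp h).1
  have hB := ((isInducedBlock_iff hM).mp h).2.1
  obtain ⟨Q, hQ⟩ := exists_isDefectGroup hM hb
  obtain ⟨E, hE, h1⟩ := exists_defectGroup_ge_of_induced hM h hQ
  have := card_le_of_le h1
  rw [card_map_of_injective (subtype_injective H), card_defectGroup hM hb hQ,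
    card_defectGroup hM hB hE] at this
  exact (Nat.pow_le_pow_iff_right hM.1.one_lt).mp this

/-- Let p be a prime, M a maximal ideal of the algebraic integers containing p, and r a natural number; say that a finite group X has deficiency class r when X has no non-principal p-block of defect ≥ r. If G has deficiency class r then so does the centralizer of every p-element of G; conversely, if r > 0 and the centralizer of every element of order p has deficiency class r, then G has deficiency class r. -/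
theorem result {G : Type*} [Group G] [Finite G] (p : ℕ) [Fact p.Prime] (M : Ideal Cfsg.AlgInt) (hM : Cfsg.IsPModular p M) (r : ℕ) : ((∀ B' : Set (Cfsg.IrrCharacter G), Cfsg.IsPBlock M B' → B' ≠ Cfsg.principalBlock M G → Cfsg.blockDefect p B' < r) → ∀ y : G, (∃ k : ℕ, orderOf y = p ^ k) → (∀ B' : Set (Cfsg.IrrCharacter ↥(Subgroup.centralizer ({y} : Set G))), Cfsg.IsPBlock M B' → B' ≠ Cfsg.principalBlock M ↥(Subgroup.centralizer ({y} : Set G)) → Cfsg.blockDefect p B' < r)) ∧ (0 < r → (∀ y : G, orderOf y = p → (∀ B' : Set (Cfsg.IrrCharacter ↥(Subgroup.centralizer ({y} : Set G))), Cfsg.IsPBlock M B' → B' ≠ Cfsg.principalBlock M ↥(Subgroup.centralizer ({y} : Set G)) → Cfsg.blockDefect p B' < r)) → (∀ B' : Set (Cfsg.IrrCharacter G), Cfsg.IsPBlock M B' → B' ≠ Cfsg.principalBlock M G → Cfsg.blockDefect p B' < r)) := by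
  have key : ∀ y : G, (∃ n, orderOf y = p ^ n) → IsPGroup p (zpowers y) ∧
      zpowers y ≤ centralizer ({y} : Set G) ∧
      centralizer ((zpowers y : Subgroup G) : Set G) ≤ centralizer ({y} : Set G) ∧
      centralizer ({y} : Set G) ≤ normalizer ((zpowers y : Subgroup G) : Set G) := fun y ⟨n, hn⟩ =>
    ⟨IsPGroup.of_card (by rw [Nat.card_zpowers, hn]),
      zpowers_le.mpr (mem_centralizer_singleton_iff.mpr rfl),
      centralizer_le (by simp), fun x hx => mem_normalizer_of_conj_le (by
        rw [conj_zpowers, mem_centralizer_singleton_iff.mp hx, mul_inv_cancel_right])⟩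
  refine ⟨fun h y hy b hb hne => ?_, fun hr h B hB hne => ?_⟩
  · obtain ⟨h1, h2, h3, h4⟩ := key y hy
    have hdef := inducedBlockDefined_of_normalizer hM h1 h2 h3 h4 hb
    obtain ⟨B, hB⟩ := id hdef
    exact (defect_le hM hB).trans_lt (h B ((isInducedBlock_iff hM).mp hB).2.1 fun h5 =>
      hne ((Cfsg.Agent.S0936.result p M hM _ b hdef).mp (h5 ▸ hB)))
  · by_contra hlt
    obtain ⟨D, hD⟩ := exists_isDefectGroup hM hB
    have hDp := isPGroup_of_isDefectGroup hD
    haveI : Nontrivial D := (nontrivial_iff_ne_bot D).mpr fun h0 => by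
      rw [← blockDefect_eq_zero_iff hM hB hD] at h0; omega
    haveI := hDp.center_nontrivial
    obtain ⟨z, hz⟩ := exists_prime_orderOf_dvd_card' (G := center D) p
      (((hDp.to_subgroup _).card_eq_or_dvd).resolve_left Finite.one_lt_card.ne')
    rw [← orderOf_coe, ← orderOf_coe] at hz
    set y : G := z.1.1
    have hDy : D ≤ centralizer ({y} : Set G) := fun x hx =>
      mem_centralizer_singleton_iff.mpr (congrArg Subtype.val (mem_center_iff.mp z.2 ⟨x, hx⟩))
    obtain ⟨h1, h2, h3, h4⟩ := key y ⟨1, by rw [hz, pow_one]⟩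
    have hp : (p : k M) = 0 := (natCast_k_eq_zero_iff hM p).mpr dvd_rfl
    obtain ⟨e, he⟩ := exists_mx hp (blk_eB hM hB) ((isDefectGroup_iff_top hM hB).mp hD)
    have hyD : zpowers y ≤ D := zpowers_le.mpr z.1.2
    obtain ⟨f, hf⟩ := exists_sub hp he.pr hyD
    have hC : ⊤ ⊓ CC (zpowers y) = centralizer ({y} : Set G) := by rw [top_inf_eq, CC_zpowers]
    have hfb := (hf.pr he.pr).blk
    rw [hC] at hfb
    obtain ⟨b, hb, rfl⟩ := exists_ab hM hfb
    have hI : IsInducedBlock M _ b B :=
      (isInducedBlock_iff_ab hM h1 h2 h3 h4 hb hB).mpr (he.of_sub hp hf)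
    have hdef : InducedBlockDefined M _ b := ⟨B, hI⟩
    have hlt2 := h y hz b hb fun h5 => hne (induced_unique hM hI
      ((Cfsg.Agent.S0936.result p M hM _ b hdef).mpr h5))
    obtain ⟨E, hE⟩ := exists_isDefectGroup hM hb
    have h6 := card_cent_le hp he.pr hf (by rw [hC]; exact (isDefectGroup_iff_map hM hb).mp hE)
    rw [CC_zpowers, inf_eq_left.mpr hDy, card_map_of_injective (subtype_injective _),
      card_defectGroup hM hb hE, card_defectGroup hM hB hD] at h6
    have := (Nat.pow_le_pow_iff_right hM.1.one_lt).mp h6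
    omega

end Cfsg.Agent.S4717
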