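import Cfsg.Statements.S4718
import Cfsg.Agent.Lib.Block.BlkMisc

set_option autoImplicit false
universe u
open Cfsg

namespace Cfsg.Agent.S4718
open Cfsg MonoidAlgebra CA.BlkAlg CA.BlkVal CA.BlkOmega CA.BlkRed CA.BlkCore CA.BlkDefect CA.BlkInd CA.BlkHeight CA.SylIn CA.H12PPart CChar.CharFun CChar.CharOrth Subgroup CA.BlkKer CChar.CharKer CA.BlkZero CChar.CharInt CA.BlkReg CA.BlkRob CA.BlkMisc

/-- Let p be a prime and a a natural number. There is a bound N such that every finite group whose Sylow p-subgroups have order p^a and whose only p-block (relative to a maximal ideal of the algebraic integers containing p) is the principal block has order at most N. -/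
theorem result (p : ℕ) [Fact p.Prime] (a : ℕ) : ∃ N : ℕ, ∀ (G : Type u) [Group G] [Finite G] (M : Ideal Cfsg.AlgInt), Cfsg.IsPModular p M → (Nat.card G).factorization p = a → (∀ B : Set (Cfsg.IrrCharacter G), Cfsg.IsPBlock M B → B = Cfsg.principalBlock M G) → Nat.card G ≤ N := by
  obtain ⟨N, hN⟩ := landau.{u} (p ^ (2 * a) + 4)
  refine ⟨N, fun G _ _ M hM ha h => hN G ?_⟩
  have h1 := CA.H11Contrib.four_mul_card_le hM (isPBlock_principalBlock (M := M) (G := G))
  have h2 : principalBlock M G = Set.univ := Set.eq_univ_of_forall fun χ =>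
    h _ (isPBlock_blockOf χ) ▸ self_mem_blockOf hM χ
  have h3 : p ^ (2 * blockDefect p (principalBlock M G)) ≤ p ^ (2 * a) :=
    Nat.pow_le_pow_right hM.1.pos (by rw [blockDefect_eq]; omega)
  rw [← card_irr, ← Nat.card_congr (Equiv.Set.univ _), ← h2]
  omega

end Cfsg.Agent.S4718
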