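import Cfsg.Statements.S4719
import Cfsg.Agent.Lib.Grp.H10BF
import Cfsg.Agent.S4717

set_option autoImplicit false
universe u
open Cfsg

namespace Cfsg.Agent.S4719
open Cfsg MonoidAlgebra CA.BlkAlg CA.BlkVal CA.BlkOmega CA.BlkRed CA.BlkCore CA.BlkDefect CA.BlkInd CA.BlkHeight CA.SylIn CA.H12PPart CChar.CharFun CChar.CharOrth Subgroup CA.BlkKer CChar.CharKer CA.BlkZero CChar.CharInt CA.BlkReg CA.BlkRob CA.BlkMisc

theorem aux (a j : ℕ) : ∃ N : ℕ, ∀ (G : Type u) [Group G] [Finite G] (M : Ideal AlgInt) (r : ℕ),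
    IsPModular 2 M → (Nat.card G).factorization 2 ≤ a →
    (∀ B : Set (IrrCharacter G), IsPBlock M B → B ≠ principalBlock M G → blockDefect 2 B < r) →
    ∀ E Q : Subgroup G, (∀ x ∈ E, ∀ y ∈ E, x * y = y * x) → (∀ x ∈ E, x * x = 1) →
    2 ^ (r + 1) ≤ Nat.card E → Q ≤ E → Q ≤ center G → 2 ^ r ≤ Nat.card Q * 2 ^ j →
    Nat.card G ≤ N := by
  induction j with
  | zero =>
    obtain ⟨N, hN⟩ := landau.{u} (2 ^ (2 * a) + 4)
    refine ⟨N, fun G _ _ M r hM ha h E Q _ h2 _ hQ hZ hr => hN G ?_⟩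
    haveI : Q.Normal := ⟨fun a ha g => by
      rwa [mem_center_iff.1 (hZ ha) g, mul_inv_cancel_right]⟩
    have h1 := CA.H11Contrib.four_mul_card_le hM (isPBlock_principalBlock (M := M) (G := G))
    have h2 : principalBlock M G = Set.univ := Set.eq_univ_of_forall fun χ => by
      by_contra hχ
      have hB := isPBlock_blockOf (M := M) χ
      obtain ⟨D, hD⟩ := exists_isDefectGroup hM hB
      have h3 := card_le_of_le (le_defectGroup_of_normal hM hB hD (P := Q) fun x =>
        ⟨1, Subtype.ext (by rw [pow_one, sq]; exact h2 x (hQ x.2))⟩)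
      rw [card_defectGroup hM hB hD] at h3
      have h4 := Nat.pow_lt_pow_right one_lt_two (h _ hB fun e => hχ (e ▸ self_mem_blockOf hM χ))
      omega
    have h3 : 2 ^ (2 * blockDefect 2 (principalBlock M G)) ≤ 2 ^ (2 * a) :=
      Nat.pow_le_pow_right hM.1.pos (by rw [blockDefect_eq]; omega)
    rw [← card_irr, ← Nat.card_congr (Equiv.Set.univ _), ← h2]
    omega
  | succ j ih =>
    obtain ⟨N, hN⟩ := ih
    obtain ⟨N', hN'⟩ := CA.H10BF.bound.{u} N (a + 1)
    refine ⟨N + N', fun G _ _ M r hM ha h E Q h1 h2 hE hQ hZ hr => ?_⟩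
    by_cases hj : 2 ^ r ≤ Nat.card Q * 2 ^ j
    · exact le_add_right (hN G M r hM ha h E Q h1 h2 hE hQ hZ hj)
    have h3 : 2 * Nat.card Q < Nat.card E := by
      have := Nat.le_mul_of_pos_right (Nat.card Q) (Nat.two_pow_pos j)
      omega
    have h4 : ∀ s : G, ∃ t ∈ E, t ∉ Q ∧ s * t ∉ Q := fun s => by
      classical
      by_contra h4
      push Not at h4
      have := Nat.card_le_card_of_injective (fun t : E => (if h : t.1 ∈ Q then Sum.inl ⟨t, h⟩
        else Sum.inr ⟨_, h4 t t.2 h⟩ : Q ⊕ Q)) fun t t' e => by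
          by_cases h : t.1 ∈ Q <;> by_cases h' : t'.1 ∈ Q <;> simp [h, h'] at e <;> exact e
      rw [Nat.card_sum] at this
      omega
    have key : ∀ v ∈ E, v ∉ Q → Nat.card (centralizer ({v} : Set G)) ≤ N := fun v hv hv' => by
      have h5 : E ≤ centralizer ({v} : Set G) := fun x hx =>
        mem_centralizer_singleton_iff.2 (h1 x hx v hv)
      have h6 : Q ⊔ zpowers v ≤ E := sup_le hQ (zpowers_le.2 hv)
      refine hN _ M r hM (le_trans ((Nat.factorization_le_iff_dvd Nat.card_pos.ne'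
        Nat.card_pos.ne').2 (card_subgroup_dvd_card _) 2) ha)
        ((Cfsg.Agent.S4717.result 2 M hM r).1 h v ⟨1, CA.H13Inv.orderOf_eq_two_iff.2 ⟨h2 v hv,
          fun e => hv' (e ▸ Q.one_mem)⟩⟩) (E.subgroupOf _) ((Q ⊔ zpowers v).subgroupOf _)
        (fun x hx y hy => Subtype.ext (h1 _ hx _ hy)) (fun x hx => Subtype.ext (h2 _ hx))
        (by rwa [Nat.card_congr (subgroupOfEquivOfLe h5).toEquiv]) (comap_mono h6)
        (fun x hx => mem_center_iff.2 fun g => Subtype.ext ?_) ?_
      · exact ((sup_le (fun y hy => mem_centralizer_singleton_iff.2 (mem_center_iff.1 (hZ hy) g).symm)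
          (zpowers_le.2 (mem_centralizer_singleton_iff.2
            (mem_centralizer_singleton_iff.1 g.2).symm)) : Q ⊔ zpowers v ≤
              centralizer ({g.1} : Set G)) hx g rfl)
      · rw [Nat.card_congr (subgroupOfEquivOfLe (h6.trans h5)).toEquiv]
        obtain ⟨c, hc⟩ := card_dvd_of_le (le_sup_left : Q ≤ Q ⊔ zpowers v)
        have h7 : 2 ≤ c := by
          by_contra h7
          have h8 : Nat.card (Q ⊔ zpowers v : Subgroup G) ≤ Nat.card Q := by
            rw [hc]; exact mul_le_of_le_one_right' (by omega)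
          exact hv' (eq_of_le_of_card_ge le_sup_left h8 ▸ mem_sup_right (mem_zpowers v))
        rw [hc, mul_assoc]
        exact hr.trans (Nat.mul_le_mul_left _ (by rw [pow_succ']; exact Nat.mul_le_mul_right _ h7))
    obtain ⟨s, hs, hs', -⟩ := h4 1
    obtain ⟨t, ht, ht', hst⟩ := h4 s
    exact le_add_left (hN' G s t (h2 s hs) (h2 t ht) (h1 s hs t ht) (key s hs hs') (key t ht ht')
      (key _ (E.mul_mem hs ht) hst) (Nat.lt_succ_of_le ha))

/-- For every natural number a there is a bound N with the following property. Let G be a finite group with Sylow 2-subgroups of order 2^a and r ≥ 0 such that G has no non-principal 2-block (relative to a maximal ideal of the algebraic integers containing 2) of defect ≥ r, and suppose a Sylow 2-subgroup of G contains an elementary abelian subgroup of order 2^(r+1). Then the order of G is at most N. -/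
theorem result (a : ℕ) : ∃ N : ℕ, ∀ (G : Type u) [Group G] [Finite G] (M : Ideal Cfsg.AlgInt) (r : ℕ) (P : Sylow 2 G), Cfsg.IsPModular 2 M → Nat.card P = 2 ^ a → (∀ B : Set (Cfsg.IrrCharacter G), Cfsg.IsPBlock M B → B ≠ Cfsg.principalBlock M G → Cfsg.blockDefect 2 B < r) → (∃ E : Subgroup G, E ≤ (P : Subgroup G) ∧ IsMulCommutative E ∧ (∀ x ∈ E, x * x = 1) ∧ Nat.card E = 2 ^ (r + 1)) → Nat.card G ≤ N := by
  obtain ⟨N, hN⟩ := aux.{u} a a
  refine ⟨N, fun G _ _ M r P hM hP h ⟨E, h1, h2, h3, h4⟩ => hN G M r hM ?_ h E ⊥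
    (fun x hx y hy => mul_comm_of_mem_isMulCommutative E hx hy) h3 h4.ge bot_le bot_le ?_⟩
  · rw [P.card_eq_multiplicity] at hP
    exact (Nat.pow_right_injective le_rfl hP).le
  · have := card_le_of_le h1
    rw [h4, show Nat.card (P : Subgroup G) = 2 ^ a from hP, pow_succ] at this
    rw [card_bot]; omega

end Cfsg.Agent.S4719
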