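import Cfsg.Statements.S4720
import Cfsg.Agent.Lib.Block.H11Prin

set_option autoImplicit false
open Cfsg

namespace Cfsg.Agent.S4720

open Cfsg CA.BlkVal CA.BlkCore CA.H12Orth CA.H12PPart CA.H11Av CA.H11Prin CA.BlkKer CChar.CharFun CChar.CharOrth CChar.CharGen CChar.CharKer CChar.CharInt Subgroup ComplexConjugate

theorem sum_conj_eq {G : Type*} [Group G] [Fintype G] (N : Subgroup G) [Fintype N] (y : G)
    (F : G → ℂ) [DecidablePred fun z : G => ∃ n ∈ N, n * y * n⁻¹ = z] :
    ∑ x : N, F (x * y * (x : G)⁻¹) = Nat.card ↥(N ⊓ centralizer ({y} : Set G)) *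
      ∑ z : G with ∃ n ∈ N, n * y * n⁻¹ = z, F z := by
  classical
  rw [← Finset.sum_fiberwise_of_maps_to (s := Finset.univ)
    (t := Finset.univ.filter fun z : G => ∃ n ∈ N, n * y * n⁻¹ = z)
    (g := fun x : N => (x : G) * y * (x : G)⁻¹) (fun x _ => by simpa using ⟨x, x.2, rfl⟩),
    Finset.mul_sum]
  refine Finset.sum_congr rfl fun z hz => ?_
  obtain ⟨n, hn, rfl⟩ := (Finset.mem_filter.1 hz).2
  refine (Finset.sum_congr rfl fun x hx => congrArg F (Finset.mem_filter.1 hx).2).trans ?_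
  rw [Finset.sum_const, nsmul_eq_mul, ← Fintype.card_subtype, ← Nat.card_eq_fintype_card]
  congr 2
  refine Nat.card_congr ⟨fun x => ⟨n⁻¹ * x.1, N.mul_mem (N.inv_mem hn) x.1.2,
    mem_centralizer_singleton_iff.2 ?_⟩, fun c => ⟨⟨n * c, N.mul_mem hn c.2.1⟩, ?_⟩,
    fun x => by ext; simp, fun x => by ext; simp⟩
  · have := x.2
    rw [mul_inv_eq_iff_eq_mul] at this
    rw [mul_assoc, this]; group
  · have := mem_centralizer_singleton_iff.1 c.2.2
    simp only [mul_inv_rev, mul_assoc]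
    rw [← mul_assoc (c : G) y, this]; group

/-- Let p be a prime, M a maximal ideal of the algebraic integers containing p, P a p-subgroup of the finite group G, N a subgroup with P ≤ N ≤ N_G(P), and U a nonempty subset of P normalized by N such that an element of U and an element of P that are conjugate in G are already conjugate in N, and such that λ(C_G(y)) = w·#C_N(y) for every y ∈ U with one rational number w, where λ(X) denotes the sum of the squares of the degrees of the irreducible characters in the principal p-block of X. For a complex function θ on P and χ in the principal block of G put a_χ(θ) = #P⁻¹ Σ_{y ∈ P} χ(y) θ(y⁻¹). Then for generalized characters θ, η of P with θ vanishing outside U, Σ_χ a_χ(θ)·conj(a_χ(η)) = (w/#P²)·Σ_{y ∈ P} θ(y)·conj(Σ_{x ∈ N} η(x y x⁻¹)) (η extended by zero off P; the conjugates lie in P), the first sum over the principal p-block of G. -/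
theorem result {G : Type*} [Group G] [Finite G] (p : ℕ) [Fact p.Prime] (M : Ideal Cfsg.AlgInt) (hM : Cfsg.IsPModular p M) (P : Subgroup G) (hP : IsPGroup p P) (N : Subgroup G) (hPN : P ≤ N) (hNN : N ≤ Subgroup.normalizer (P : Set G)) (U : Set G) (hUne : U.Nonempty) (hUP : U ⊆ (P : Set G)) (hUN : ∀ n ∈ N, ∀ u ∈ U, n * u * n⁻¹ ∈ U) (hfus : ∀ u ∈ U, ∀ g : G, g * u * g⁻¹ ∈ (P : Set G) → ∃ n ∈ N, n * u * n⁻¹ = g * u * g⁻¹) (w : ℚ) (hw : ∀ y ∈ U, ((∑ᶠ ψ ∈ Cfsg.principalBlock M ↥(Subgroup.centralizer ({y} : Set G)), Cfsg.charDegree (ψ : ↥(Subgroup.centralizer ({y} : Set G)) → ℂ) ^ 2) : ℚ) = w * Nat.card ↥(N ⊓ Subgroup.centralizer ({y} : Set G))) (θ η : ↥P → ℂ) (hθ : Cfsg.IsGeneralizedCharacter ↥P θ) (hη : Cfsg.IsGeneralizedCharacter ↥P η) (hθU : ∀ y : ↥P, (y : G) ∉ U → θ y = 0) : ∑ᶠ χ ∈ Cfsg.principalBlock M G, ((Nat.card ↥P : ℂ)⁻¹ * ∑ᶠ y : ↥P, (χ : G → ℂ) (y : G) * θ y⁻¹) * (starRingEnd ℂ) ((Nat.card ↥P : ℂ)⁻¹ * ∑ᶠ y : ↥P, (χ : G → ℂ) (y : G) * η y⁻¹) = ((w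 : ℂ) / ((Nat.card ↥P : ℂ) ^ 2)) * ∑ᶠ y : ↥P, θ y * (starRingEnd ℂ) (∑ᶠ x : ↥N, Cfsg.extendByZero P η ((x : G) * (y : G) * (x : G)⁻¹)) := by
  classical
  cases nonempty_fintype G
  rw [finsum_mem_irr]
  simp only [finsum_eq_sum_of_fintype]
  have hp : ∀ y : P, ∃ n, orderOf (y : G) = p ^ n := fun y => pel_of_mem hM.1 hP y.2
  have h1 : ∀ y z : P, (y : G) ∈ U → ∑ χ with χ ∈ principalBlock M G,
      χ.1 (y⁻¹ : P) * conj (χ.1 (z⁻¹ : P)) = if ∃ n ∈ N, n * y * n⁻¹ = z then
        (w : ℂ) * Nat.card ↥(N ⊓ centralizer ({(y : G)} : Set G)) else 0 := fun y z hy => by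
    split_ifs with h
    · obtain ⟨n, -, h⟩ := h
      have := congrArg (Rat.cast : ℚ → ℂ) (hw y hy)
      rw [finsum_mem_irr] at this
      push_cast at this
      rw [← this, ← finsum_mem_irr (principalBlock M (centralizer ({(y : G)} : Set G))),
        ← sum_col_self hM (hp y)]
      refine Finset.sum_congr rfl fun χ _ => ?_
      rw [coe_inv, coe_inv, char_apply_inv (char_of_irr χ.2), char_apply_inv (char_of_irr χ.2), ← h,
        irr_classFun χ.2, Complex.conj_conj, mul_comm]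
    · refine sum_col_of_not_isConj hM isPBlock_principalBlock (hp _) (hp _) fun e => h ?_
      obtain ⟨g, e⟩ := isConj_iff.1 e
      have e' : g * y * g⁻¹ = z := by
        rw [← inv_inj, ← coe_inv, ← e]; simp [mul_assoc]
      exact e' ▸ hfus y hy g (e' ▸ z.2)
  have h2 : ∀ F : P → ℂ, ∑ y, F y = ∑ y, F y⁻¹ := fun F => (Equiv.sum_comp (Equiv.inv P) F).symm
  calc _ = ∑ y : P, ∑ z : P, ((Nat.card P : ℂ) ^ 2)⁻¹ * (θ y * conj (η z) *
        ∑ χ with χ ∈ principalBlock M G, χ.1 (y⁻¹ : P) * conj (χ.1 (z⁻¹ : P))) := by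
        simp only [Finset.mul_sum]
        rw [Finset.sum_congr rfl fun y _ => Finset.sum_comm, Finset.sum_comm]
        refine Finset.sum_congr rfl fun χ _ => ?_
        rw [h2 fun y => _ * (χ.1 y * θ y⁻¹), h2 fun y => _ * (χ.1 y * η y⁻¹), map_sum,
          Finset.sum_mul_sum]
        refine Finset.sum_congr rfl fun y _ => Finset.sum_congr rfl fun z _ => ?_
        simp only [inv_inv, map_mul, map_inv₀, Complex.conj_natCast]; ring
    _ = _ := by
        rw [Finset.mul_sum]
        refine Finset.sum_congr rfl fun y _ => ?_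
        by_cases hy : (y : G) ∈ U
        · rw [sum_conj_eq N y (extendByZero P η), Finset.sum_filter,
            Finset.sum_congr rfl fun z _ => (mul_boole _ _).symm, CA.Ind.sum_ext_mul]
          simp only [h1 y _ hy, map_mul, map_sum, Complex.conj_natCast, Finset.mul_sum]
          refine Finset.sum_congr rfl fun z _ => ?_
          split_ifs <;> simp; ring
        · simp [hθU y hy]

end Cfsg.Agent.S4720
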