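import Cfsg.Statements.S4721
import Cfsg.Agent.Lib.Block.H11Frob
import Cfsg.Agent.Lib.Block.H11Inv

set_option autoImplicit false
open Cfsg

namespace Cfsg.Agent.S4721

open CA.H11Frob CA.H11Inv CA.H11PS CA.H12PPart CA.SylIn CA.BlkCore CChar.CharOrth CChar.CharFun CChar.CharInt CChar.CharKer Subgroup

section
variable {G : Type*} [Group G] [Fintype G] {p : ℕ} [Fact p.Prime] {M : Ideal AlgInt}
  {P : Subgroup G}

theorem exists_zero (F : Frob p P 3) (hM : IsPModular p M) [Nontrivial (Ix P)] :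
    ∃ δ μ, Exc p M P 3 δ 0 μ := by
  classical
  obtain ⟨i, j, hij⟩ := exists_pair_ne (Ix P)
  obtain ⟨δ, d, μ, E⟩ := F.exists_exc hM i
  by_cases hd : d = 0
  · exact ⟨δ, μ, hd ▸ E⟩
  have hn := E.norm F hM i
  have hr := E.reg_rel F hM i i (g := 1) (by rw [orderOf_one]; exact hM.1.not_dvd_one)
  have h1 : irrOne G ∈ Finset.univ.filter (· ∈ principalBlock M G \ Set.range μ) :=
    Finset.mem_filter.2 ⟨Finset.mem_univ _, irrOne_mem_principalBlock hM, E.one_not_mem F hM⟩
  rw [CA.H12Orth.finsum_mem_irr, ← Finset.add_sum_erase _ _ h1, E.co_one F hM] at hn hr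
  have h2 : (2 : ℤ) ≤ Fintype.card (Ix P) := by exact_mod_cast Fintype.one_lt_card
  have h3 := Finset.sum_nonneg (s := (Finset.univ.filter
    (· ∈ principalBlock M G \ Set.range μ)).erase (irrOne G)) (f := fun χ => co p 3 i χ ^ 2)
    fun _ _ => sq_nonneg _
  have h4 : 1 ≤ d ^ 2 := by have := sq_pos_of_ne_zero hd; omega
  have h5 : d = δ := by
    have : d ^ 2 ≤ 3 := by push_cast at hn; nlinarith [sq_nonneg (d - δ)]
    have : d ≤ 1 := by nlinarith
    have : -1 ≤ d := by nlinarith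
    by_contra h
    have : d = -δ := by rcases E.sign with e | e <;> omega
    subst this
    push_cast at hn
    nlinarith [E.sq]
  subst h5
  have h6 : d ^ 2 = 1 := by rw [pow_two, E.sq]
  rw [h6, sub_self] at hn
  push_cast at hn
  have h7 : Fintype.card (Ix P) = 2 ∨ Fintype.card (Ix P) = 3 ∨ Fintype.card (Ix P) = 4 := by omega
  rcases h7 with h | h | h
  · have := E.swap hij fun k => by
      by_contra hk
      push Not at hk
      have := Fintype.two_lt_card_iff.2 ⟨k, i, j, hk.1, hk.2, hij⟩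
      omega
    exact ⟨_, _, sub_self d ▸ this⟩
  · obtain ⟨k, hk⟩ := IsPGroup.iff_card.1 F.syl.isPGroup
    rw [F.card_eq, h] at hk
    have a := (Nat.prime_dvd_prime_iff_eq Nat.prime_two hM.1).1
      (Nat.prime_two.dvd_of_dvd_pow (hk ▸ by norm_num : 2 ∣ p ^ k))
    have b := (Nat.prime_dvd_prime_iff_eq Nat.prime_five hM.1).1
      (Nat.prime_five.dvd_of_dvd_pow (hk ▸ by norm_num : 5 ∣ p ^ k))
    omega
  · exfalso
    have h8 := card_of_sum_sq (s := (Finset.univ.filter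
      (· ∈ principalBlock M G \ Set.range μ)).erase (irrOne G)) (a := co p 3 i) (n := 0)
      (fun χ h => by
        have := (Finset.mem_filter.1 (Finset.mem_of_mem_erase h)).2
        exact E.co_ne_zero F hM this.1 this.2 i) (by norm_num) (by omega)
    rw [Finset.card_eq_zero.1 h8.1, Finset.sum_empty, h, irr_apply_one_eq (μ i).2, irrOne_apply] at hr
    have : (4 * d - d) * (charDegree (μ i).1 : ℤ) + 1 = 0 := by
      apply Int.cast_injective (α := ℂ)
      push_cast at hr ⊢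
      linear_combination hr
    have h9 : (3 : ℤ) ∣ 1 := ⟨-d * charDegree (μ i).1, by linear_combination this⟩
    omega

theorem mul_conj (F : Frob p P 3) {a b : P} (ha : a * a = 1) (h1 : a ≠ 1) (h : IsConj (a : G) b)
    (hne : a ≠ b) : IsConj (a : G) (a * b : P) := by
  obtain ⟨n, rfl⟩ := F.exists_smul h
  have h3 : ∀ x : P, n • n • n • x = x := fun x => by
    rw [← mul_smul, ← mul_smul]
    apply Frob.smul_of_mem
    haveI : ((centralizer (P : Set G)).subgroupOf (normalizer (P : Set G))).Normal := by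
      rw [← normalizerMonoidHom_ker]; infer_instance
    have := pow_index_mem (H := (centralizer (P : Set G)).subgroupOf (normalizer (P : Set G))) n
    rw [← relIndex, F.idx, pow_three'] at this
    exact this
  have h4 : a * n • a * n • n • a = 1 := by
    by_contra e
    refine hne (Frob.smul_of_mem (F.mem_cent e ?_) a).symm
    rw [smul_mul', smul_mul', h3, F.comm, mul_assoc]
  have h5 : (n • n • a) * (n • n • a) = 1 := by rw [← smul_mul', ← smul_mul', ha, smul_one, smul_one]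
  rw [eq_inv_of_mul_eq_one_left h4, inv_eq_of_mul_eq_one_left h5, ← mul_smul]
  exact isConj_iff.2 ⟨_, rfl⟩

theorem exists_ix (F : Frob p P 3) (h4 : 4 < Nat.card P) {a : P} (ha : a * a = 1) (h1 : a ≠ 1) :
    ∃ j : Ix P, ∀ b : P, IsConj (a : G) b → eta j b = 3 := by
  classical
  haveI := Fintype.ofFinite P
  obtain ⟨T, hT, h3⟩ := F.sec.wt a a.2 fun e => h1 (Subtype.ext e)
  rw [hT.card_eq (F.sylIn a.2), mul_right_inj' Nat.card_pos.ne'] at h3
  obtain ⟨⟨b, hb⟩, hab⟩ : ∃ b : {y : P // IsConj (a : G) y}, b ≠ ⟨a, IsConj.refl _⟩ := by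
    haveI := Finite.one_lt_card_iff_nontrivial.1 (h3.ge.trans_lt' (by norm_num : 1 < 3))
    exact exists_ne _
  replace hab : a ≠ b := fun e => hab (Subtype.ext e.symm)
  have hb1 : b ≠ 1 := by rintro rfl; exact h1 (Subtype.ext (by simpa using hb))
  have hb2 : b * b = 1 := by
    obtain ⟨n, rfl⟩ := F.exists_smul hb
    rw [← smul_mul', ha, smul_one]
  have hab1 : a * b ≠ 1 := fun e => hab (mul_left_cancel (ha.trans e.symm))
  have hv : ∀ (ψ : P →* ℂˣ) (x : P), x * x = 1 → hc ψ x = 1 ∨ hc ψ x = -1 := fun ψ x hx => by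
    rw [← mul_self_eq_one_iff, hc_apply, ← Units.val_mul, ← map_mul, hx, map_one, Units.val_one]
  obtain ⟨ψ, hψ, e1, e2⟩ : ∃ ψ : P →* ℂˣ, ψ ≠ 1 ∧ hc ψ a = 1 ∧ hc ψ b = 1 := by
    by_contra h
    push Not at h
    have : ∑ ψ : P →* ℂˣ, (1 + hc ψ a + hc ψ b + hc ψ (a * b)) = 4 := by
      rw [Finset.sum_eq_single 1]
      · simp [hc_one]; norm_num
      · intro ψ _ hψ
        rw [show hc ψ (a * b) = hc ψ a * hc ψ b by simp [hc]]
        rcases hv ψ a ha with e | e
        · rw [e, (hv ψ b hb2).resolve_left (h ψ hψ e)]; ring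
        · rw [e]; ring
      · simp
    simp only [Finset.sum_add_distrib, sum_hc F.comm h1, sum_hc F.comm hb1, sum_hc F.comm hab1,
      Finset.sum_const, Finset.card_univ, ← Nat.card_eq_fintype_card, card_hom F.comm] at this
    have : Nat.card P = 4 := by
      rw [nsmul_eq_mul, mul_one, add_zero, add_zero, add_zero] at this
      exact_mod_cast this
    omega
  have key : ∀ x : P, IsConj (a : G) x → hc ψ x = 1 := fun x hx => by
    rcases CA.H13Misc.four_of_card_le_three h3.le ⟨a, IsConj.refl _⟩ ⟨b, hb⟩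
      ⟨_, mul_conj F ha h1 hb hab⟩ ⟨x, hx⟩ with e | e | e | e | e | e <;>
      replace e := congrArg Subtype.val e <;> simp only at e
    · exact absurd e hab
    · exact absurd (left_eq_mul.1 e) hb1
    · rw [← e, e1]
    · exact absurd (right_eq_mul.1 e) h1
    · rw [← e, e2]
    · rw [← e, show hc ψ (a * b) = hc ψ a * hc ψ b by simp [hc], e1, e2, one_mul]
  refine ⟨ix ψ hψ, fun x hx => ?_⟩
  rw [eta, Finset.sum_apply, Finset.sum_congr rfl (g := fun _ => 1), Finset.sum_const,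
    F.card_fiber]
  · simp
  · intro φ hφ
    obtain ⟨n, rfl⟩ := Quotient.exact (Finset.mem_filter.1 hφ).2
    exact key (n⁻¹ • x) (hx.trans (isConj_iff.2 ⟨_, rfl⟩))

theorem exists_vanish (F : Frob p P 3) (h4 : 4 < Nat.card P) {t : G} (ht : orderOf t = 2) :
    ∃ j : Ix P, tau p 3 j t = 0 ∧ ∀ x y, IsConj t x → IsConj t y → tau p 3 j (x * y) = 0 := by
  have hp : p.Prime := Fact.out
  have ht2 := CA.H13Inv.mul_self ht
  have hsq : ∀ x, IsConj t x → x * x = 1 := fun x hx =>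
    CA.H13Inv.mul_self (CA.H13Inv.orderOf_eq_of_isConj hx ▸ ht)
  by_cases h2 : p = 2
  · subst h2
    obtain ⟨a, h1, ha⟩ := F.exists_conj (g := t) (by rw [ht])
    rw [(pPart_eq_self_iff hp).2 ⟨1, ht⟩] at ha
    have ha2 : a * a = 1 := Subtype.ext (hsq _ ha.symm)
    obtain ⟨j, hj⟩ := exists_ix F h4 ha2 h1
    refine ⟨j, ?_, fun x y hx hy => ?_⟩
    · rw [F.tau_apply j (y := a) (by rwa [(pPart_eq_self_iff hp).2 ⟨1, ht⟩]), hj a (IsConj.refl _)]
      simp
    by_cases hz : 2 ∣ orderOf (x * y)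
    swap
    · exact F.tau_reg j hz
    have hi := conj_pPart_prod hp (hsq x hx) (hsq y hy)
    have hQ : IsPGroup 2 ↥(zpowers x ⊔ zpowers (pPart 2 (x * y))) :=
      (CA.H13Lift.isPGroup_zpowers ⟨1, CA.H13Inv.orderOf_eq_of_isConj hx ▸ ht⟩).to_sup_of_normal_right'
        (CA.H13Lift.isPGroup_zpowers (orderOf_pPart hp _)) (zpowers_le.2
          (mem_normalizer_of_conj_le (by
            rw [conj_zpowers, hi, zpowers_inv])))
    obtain ⟨c, -, hc⟩ := F.syl.exists_conj_le hQ le_top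
    have hx1 := conj_le_iff.1 hc x (mem_sup_left (mem_zpowers _))
    have hy1 := conj_le_iff.1 hc _ (mem_sup_right (mem_zpowers _))
    rw [← pPart_conj hp, show c * (x * y) * c⁻¹ = c * x * c⁻¹ * (c * y * c⁻¹) by group] at hy1
    rw [← classFun_apply (θ := tau 2 3 j) (lift_classFun hp (F.stab_tau j)) _ c,
      show c * (x * y) * c⁻¹ = c * x * c⁻¹ * (c * y * c⁻¹) by group]
    have hz' : pPart 2 (c * x * c⁻¹ * (c * y * c⁻¹)) ≠ 1 := by
      rw [Ne, pPart_eq_one_iff hp, show c * x * c⁻¹ * (c * y * c⁻¹) = c * (x * y) * c⁻¹ by group,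
        CA.H13Inv.orderOf_conj]
      exact not_not.2 hz
    have hx' := hx.trans (isConj_iff.2 ⟨c, rfl⟩)
    have hy' := hy.trans (isConj_iff.2 ⟨c, rfl⟩)
    generalize c * x * c⁻¹ = x at *
    generalize c * y * c⁻¹ = y at *
    set u := pPart 2 (x * y)
    have hxC := F.le_cent hy1 hx1
    have hyC : y ∈ centralizer ({u} : Set G) := by
      have := mul_mem (inv_mem hxC)
        (mem_centralizer_singleton_iff.2 (commute_pPart hp (x * y)).symm.eq)
      rwa [inv_mul_cancel_left] at this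
    have hS := F.sylIn hy1
    obtain ⟨w, hw, h5, h6⟩ := pPart_mul_of_npc (F.sec.npc u hy1 hz') hS.toSylow
      (fun a ha b hb => Subtype.ext (mem_centralizer_singleton_iff.1
        (F.le_cent (hS.mem_toSylow.1 hb) (hS.mem_toSylow.1 ha)))) (x := ⟨x, hxC⟩) (x' := ⟨y, hyC⟩)
      (hS.mem_toSylow.2 hx1) (k := 1) (Subtype.ext (by simpa [pow_two] using hsq y hy'))
      (hS.mem_toSylow.2 (by rw [coe_pPart hp]; exact hy1))
    replace h6 : u = x * w := by simpa [coe_pPart hp] using congrArg Subtype.val h6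
    replace h5 : IsConj x (w : G) := hx'.symm.trans (hy'.trans ((Subgroup.subtype _).map_isConj h5))
    have h7 := mul_conj F (a := ⟨x, hx1⟩) (b := ⟨w, hS.mem_toSylow.1 hw⟩) (Subtype.ext (hsq x hx'))
      (fun e => h1 (Subtype.ext (by
        have : x = 1 := congrArg Subtype.val e
        simpa [this] using ha.trans hx'))) h5 fun e => hz' (by
          rw [h6, ← show x = w from congrArg Subtype.val e, hsq x hx'])
    rw [F.tau_apply j (y := a) (ha.trans (hx'.trans (show IsConj x u from h6 ▸ h7))), hj a (IsConj.refl _)]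
    simp
  · haveI := F.nontrivial h4
    obtain ⟨j⟩ : Nonempty (Ix P) := inferInstance
    refine ⟨j, F.tau_reg j ?_, fun x y hx hy => F.tau_reg j fun hz => ?_⟩
    · rw [ht]; exact fun h => h2 ((Nat.prime_dvd_prime_iff_eq hp Nat.prime_two).1 h)
    obtain ⟨a, h1, ha⟩ := F.exists_conj hz
    have hi := isConj_iff.2 ⟨_, conj_pPart_prod hp (hsq x hx) (hsq y hy)⟩
    obtain ⟨n, hn⟩ := F.exists_smul (x := a) (y := a⁻¹)
      (ha.trans (hi.trans (CChar.CharProd.isConj_inv ha.symm)))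
    have h3 : (n * n : normalizer (P : Set G)).1 ∈ centralizer (P : Set G) :=
      F.mem_cent h1 (by rw [mul_smul, hn, smul_inv', hn, inv_inv])
    haveI : ((centralizer (P : Set G)).subgroupOf (normalizer (P : Set G))).Normal := by
      rw [← normalizerMonoidHom_ker]; infer_instance
    have := pow_index_mem (H := (centralizer (P : Set G)).subgroupOf (normalizer (P : Set G))) n
    rw [← relIndex, F.idx, pow_three', mem_subgroupOf, coe_mul, mul_mem_cancel_left h3] at this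
    rw [Frob.smul_of_mem this] at hn
    obtain ⟨k, hk⟩ := IsPGroup.iff_orderOf.1 F.syl.isPGroup a
    have h8 : orderOf a = 2 := orderOf_eq_prime (by rw [pow_two]; nth_rewrite 1 [hn]; simp) h1
    exact h2 ((Nat.prime_dvd_prime_iff_eq Nat.prime_two hp).1
      (Nat.prime_two.dvd_of_dvd_pow (hk ▸ h8 ▸ dvd_rfl : 2 ∣ p ^ k))).symm

end

/-- Let p be a prime, M a maximal ideal of the algebraic integers containing p, and G a finite group with a nontrivial abelian Sylow p-subgroup P, N = N_G(P), C = C_G(P), such that N/C is cyclic of order 3, #P > 4, and C_G(y) ∩ N = C for every non-identity y ∈ P. Then the principal p-block is the disjoint union of a set X of exactly 3 characters containing the principal character and a set Y of (#P − 1)/3 characters, with signs a_χ = ±1 (χ ∈ X, a = 1 at the principal character) and δ = ±1 such that every χ ∈ X takes the value a_χ at every element whose p-part is a non-identity element of P, and there is a map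 ζ from the non-principal linear characters of P onto Y, constant on N-conjugacy classes, with ζ_ψ(z) = δ·Σ ψ'(y) over the N-orbit of ψ, for z with p-part y ≠ 1 in P. If moreover G has an involution lying in no proper normal subgroup of G, then exactly two of the three numbers −δ and a_χ (χ ∈ X non-principal) equal −1, and the product of the degrees of the two non-principal members of X and of any member of Y is a perfect square. -/
theorem result {G : Type*} [Group G] [Finite G] (p : ℕ) [Fact p.Prime] (M : Ideal Cfsg.AlgInt) (hM : Cfsg.IsPModular p M) (P : Sylow p G) (hab : IsMulCommutative P) (hP1 : Nat.card P ≠ 1) (hCN : (Subgroup.centralizer ((P : Subgroup G) : Set G)).relIndex (Subgroup.normalizer ((P : Subgroup G) : Set G)) = 3) (hcyc : ∃ g : G, g ∈ Subgroup.normalizer ((P : Subgroup G) : Set G) ∧ Subgroup.centralizer ((P : Subgroup G) : Set G) ⊔ Subgroup.zpowers g = Subgroup.normalizer ((P : Subgroup G) : Set G)) (hm2 : 3 + 1 < Nat.card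 P) (hfrob : ∀ y : G, y ∈ (P : Subgroup G) → y ≠ 1 → Subgroup.centralizer ({y} : Set G) ⊓ Subgroup.normalizer ((P : Subgroup G) : Set G) = Subgroup.centralizer ((P : Subgroup G) : Set G)) : ∃ (X Y : Set (Cfsg.IrrCharacter G)), Cfsg.principalBlock M G = X ∪ Y ∧ Disjoint X Y ∧ Nat.card X = 3 ∧ Nat.card Y = (Nat.card P - 1) / 3 ∧ (∃ χ₁ ∈ X, (χ₁ : G → ℂ) = fun _ => 1) ∧ ∃ (a : Cfsg.IrrCharacter G → ℤ) (δ : ℤ) (ζ : (↥(P : Subgroup G) →* ℂˣ) → Cfsg.IrrCharacter G), (δ = 1 ∨ δ = -1) ∧ (∀ χ ∈ X, (a χ = 1 ∨ a χ = -1) ∧ ∀ z y : G, Cfsg.IsPPart p z y → y ∈ (P : Subgroup G) → y ≠ 1 → (χ : G → ℂ) z = (a χ : ℂ)) ∧ (∀ ψ : ↥(P : Subgroup G) →* ℂˣ, ψ ≠ 1 → ζ ψ ∈ Y) ∧ (∀ η ∈ Y, ∃ ψ : ↥(P : Subgroup G) →* ℂˣ, ψ ≠ 1 ∧ ζ ψ = η) ∧ (∀ ψ ψ' : ↥(P : Subgroup G) →* ℂˣ, ψ ≠ 1 → (∃ n : G, n ∈ Subgroup.normalizer ((P : Subgroup G) : Set G) ∧ ∀ w w' : ↥(P : Subgroup G), (w' : G) = n * w * n⁻¹ → ψ' w' = ψ w) → ζ ψ' = ζ ψ) ∧ (∀ ψ : ↥(P : Subgroup G) →* ℂˣ, ψ ≠ 1 → ∀ (z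 : G) (y : ↥(P : Subgroup G)), Cfsg.IsPPart p z (y : G) → (y : G) ≠ 1 → (ζ ψ : G → ℂ) z = (δ : ℂ) * ∑ᶠ ψ' ∈ {ψ' : ↥(P : Subgroup G) →* ℂˣ | ∃ n : G, n ∈ Subgroup.normalizer ((P : Subgroup G) : Set G) ∧ ∀ w w' : ↥(P : Subgroup G), (w' : G) = n * w * n⁻¹ → ψ' w' = ψ w}, ((ψ' y : ℂˣ) : ℂ)) ∧ ((∃ t : G, orderOf t = 2 ∧ ∀ K : Subgroup G, K.Normal → t ∈ K → K = ⊤) → Nat.card {χ : Cfsg.IrrCharacter G // χ ∈ X ∧ (χ : G → ℂ) ≠ (fun _ => 1) ∧ a χ = -1} + (if δ = 1 then 1 else 0) = 2 ∧ ∀ η ∈ Y, IsSquare (Cfsg.charDegree (η : G → ℂ) * ∏ᶠ χ ∈ {χ : Cfsg.IrrCharacter G | χ ∈ X ∧ (χ : G → ℂ) ≠ fun _ => 1}, Cfsg.charDegree (χ : G → ℂ))) := by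
  classical
  haveI := Fintype.ofFinite G
  have F : Frob p (P : Subgroup G) 3 := ⟨isSylowIn_top P, hab.1.1, hCN, hfrob⟩
  haveI := F.nontrivial hm2
  obtain ⟨i₀⟩ : Nonempty (Ix (P : Subgroup G)) := inferInstance
  obtain ⟨δ, μ, E⟩ := exists_zero F hM
  have hn := E.norm F hM i₀
  rw [CA.H12Orth.finsum_mem_irr] at hn
  obtain ⟨h3, hs⟩ := card_of_sum_sq (s := Finset.univ.filter (· ∈ principalBlock M G \ Set.range μ))
    (a := co p 3 i₀) (n := 3) (fun χ h => by
      have := (Finset.mem_filter.1 h).2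
      exact E.co_ne_zero F hM this.1 this.2 i₀) le_rfl (by push_cast at hn ⊢; nlinarith [E.sq])
  have hp : ∀ {z y : G}, IsPPart p z y → IsConj y (pPart p z) := fun h => by
    rw [(isPPart_iff hM.1).1 h]
  refine ⟨principalBlock M G \ Set.range μ, Set.range μ, ?_, Set.disjoint_sdiff_left, ?_,
    ?_, ⟨irrOne G, ⟨irrOne_mem_principalBlock hM, E.one_not_mem F hM⟩, rfl⟩, co p 3 i₀, δ,
    fun ψ => if h : ψ ≠ 1 then μ (ix ψ h) else irrOne G, E.sign,
    fun χ h => ⟨hs χ (Finset.mem_filter.2 ⟨Finset.mem_univ _, h⟩),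
      fun z y hz hy h1 => E.val_other F hM h.1 h.2 i₀ (y := ⟨y, hy⟩) (fun e => h1 (congrArg Subtype.val e))
        (hp hz)⟩, fun ψ h => ?_, ?_, fun ψ φ h e => ?_, fun ψ h z y hz h1 => ?_, ?_⟩
  · rw [Set.diff_union_of_subset]
    rintro _ ⟨i, rfl⟩
    exact E.mem F hM i
  · rw [Nat.card_eq_fintype_card, Fintype.card_subtype, ← h3]
  · rw [Nat.card_range_of_injective E.inj, Nat.card_eq_fintype_card, F.card_ix]
  · simp only [dif_pos h]; exact ⟨_, rfl⟩
  · rintro _ ⟨i, rfl⟩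
    obtain ⟨ψ, h, rfl⟩ := ix_surj i
    exact ⟨ψ, h, dif_pos h⟩
  · have h' : φ ≠ 1 := fun e' => h (cl_eq_one.1 (by rw [← e', cl_eq_iff.2 e]))
    simp only [dif_pos h, dif_pos h']
    exact congrArg μ (ix_eq_iff.2 e)
  · simp only [dif_pos h]
    rw [E.val_mu F hM _ (fun e => h1 (congrArg Subtype.val e)) (hp hz), eta_ix, Int.cast_zero, zero_add]
    rfl
  rintro ⟨t, ht, hK⟩
  obtain ⟨j, h1, h2⟩ := exists_vanish F hm2 ht
  have h0 : irrOne G ∈ Finset.univ.filter (· ∈ principalBlock M G \ Set.range μ) :=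
    Finset.mem_filter.2 ⟨Finset.mem_univ _, irrOne_mem_principalBlock hM, E.one_not_mem F hM⟩
  obtain ⟨χ, ψ, hne, hX⟩ := Finset.card_eq_two.1
    (by rw [Finset.card_erase_of_mem h0, h3] : (Finset.erase _ (irrOne G)).card = 2)
  have hχ : χ ∈ Finset.erase _ (irrOne G) := hX ▸ Finset.mem_insert_self _ _
  have hψ : ψ ∈ Finset.erase _ (irrOne G) := hX ▸ Finset.mem_insert_of_mem (Finset.mem_singleton_self _)
  have hr1 : ¬ p ∣ orderOf (1 : G) := by rw [orderOf_one]; exact hM.1.not_dvd_one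
  have e1 := E.tau_eq F hM i₀ j 1
  have e2 := E.tau_eq F hM i₀ j t
  have e3 := sum_eq_zero_of_products (F.tau_span hM j).1 h2
  rw [E.sum_tau F hM i₀ j] at e3
  rw [F.tau_reg _ hr1] at e1
  rw [h1] at e2
  simp only [CA.H12Orth.finsum_mem_irr, ← Finset.add_sum_erase _ _ h0, hX, Finset.sum_pair hne,
    E.co_one F hM, irrOne_apply, irr_apply_one_eq (Subtype.prop _),
    charDegree_eq (χ := (irrOne G).1) (n := 1) (by simp [irrOne_apply])] at e1 e2 e3
  have hk : ∀ ξ : IrrCharacter G, ξ ≠ irrOne G → ∃ r : ℤ, ξ.1 t = r ∧ (r : ℚ) ≠ charDegree ξ.1 :=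
    fun ξ h => by
      obtain ⟨r, hr⟩ := exists_int (char_of_irr ξ.2) (CA.H13Inv.mul_self ht)
      refine ⟨r, hr, fun e => h (Subtype.ext ((charKer_eq_top_iff ξ.2).1 (hK _ inferInstance ?_)))⟩
      rw [mem_charKer (char_of_irr ξ.2), hr, irr_apply_one_eq ξ.2]
      exact_mod_cast e
  obtain ⟨r, hr, hr'⟩ := hk χ (Finset.ne_of_mem_erase hχ)
  obtain ⟨s, hs₁, hs'⟩ := hk ψ (Finset.ne_of_mem_erase hψ)
  obtain ⟨u, hu, hu'⟩ := hk (μ j) fun e => E.one_not_mem F hM ⟨j, e⟩
  rw [hr, hs₁, hu] at e2 e3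
  obtain ⟨k1, k2⟩ := signs (c := -δ) (r := r) (s := s) (u := u) (charDegree_pos χ.2) (charDegree_pos ψ.2)
    (charDegree_pos (μ j).2) (hs χ (Finset.mem_of_mem_erase hχ)) (hs ψ (Finset.mem_of_mem_erase hψ))
    (by rcases E.sign with e | e <;> simp [e])
    (by apply Rat.cast_injective (α := ℂ); push_cast at e1 ⊢; linear_combination -e1)
    (by apply Rat.cast_injective (α := ℂ); push_cast at e2 ⊢; linear_combination -e2)
    (by apply Rat.cast_injective (α := ℂ); push_cast at e3 ⊢; linear_combination e3) hr' hs' hu'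
  have hX' : ∀ ξ : IrrCharacter G, (ξ ∈ principalBlock M G \ Set.range μ ∧ ξ.1 ≠ fun _ => 1) ↔
      ξ ∈ ({χ, ψ} : Finset _) := fun ξ => by
    rw [← hX, Finset.mem_erase, Finset.mem_filter, and_comm, Ne, Ne, Subtype.ext_iff]
    simp only [Finset.mem_univ, true_and]
    rfl
  refine ⟨?_, ?_⟩
  · rw [Nat.card_eq_fintype_card, Fintype.card_subtype]
    simp only [← and_assoc, hX', ← Finset.filter_filter, Finset.filter_mem_eq_inter,
      Finset.univ_inter, Finset.card_filter, Finset.sum_pair hne]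
    rcases hs χ (Finset.mem_of_mem_erase hχ) with a | a <;>
      rcases hs ψ (Finset.mem_of_mem_erase hψ) with b | b <;> rcases E.sign with c | c <;>
      simp only [a, b, c] at k1 ⊢ <;> simp at k1 ⊢
  · rintro _ ⟨i, rfl⟩
    rw [show {ξ : IrrCharacter G | ξ ∈ principalBlock M G \ Set.range μ ∧ ξ.1 ≠ fun _ => 1} =
      (({χ, ψ} : Finset _) : Set _) from Set.ext hX', finprod_mem_coe_finset, Finset.prod_pair hne,
      mul_comm, charDegree_eq ((E.reg_eq F hM i j hr1).trans (irr_apply_one_eq (μ j).2))]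
    exact k2

end Cfsg.Agent.S4721
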