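import Cfsg.Statements.S4722
import Cfsg.Agent.Lib.Block.H11Prin
import Cfsg.Agent.Lib.Block.BlkZero

set_option autoImplicit false
open Cfsg

namespace Cfsg.Agent.S4722

open Cfsg CA.BlkVal CA.BlkCore CA.H12Orth CA.H12PPart CA.H11Av CA.H11Prin CA.BlkKer CChar.CharFun CChar.CharOrth CChar.CharGen CChar.CharKer CChar.CharInt Subgroup ComplexConjugate

/-- Let M be a maximal ideal of the algebraic integers containing 2, P a 2-subgroup of the finite group G, U a subset of P, and t an involution of G such that no element of U is inverted by any conjugate of t. Let θ be a generalized character of P vanishing outside U, and for χ in the principal 2-block B₀ put a_χ = #P⁻¹ Σ_{y ∈ P} χ(y) θ(y⁻¹). Then Σ_{χ ∈ B₀} a_χ χ(t)^2/χ(1) = 0, Σ_{χ ∈ B₀} a_χ χ(1) = 0 and Σ_{χ ∈ B₀} a_χ χ(t) = 0. If moreover #P⁻¹ Σ_{y ∈ P} θ(y) ≠ 0, then either at least two of the a_χ have positive real part and at least two have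 negative real part, or G has a proper normal subgroup containing O_2'(G) and t. -/
theorem result {G : Type*} [Group G] [Finite G] (M : Ideal Cfsg.AlgInt) (hM : Cfsg.IsPModular 2 M) (P : Subgroup G) (hP : IsPGroup 2 P) (U : Set G) (hUP : U ⊆ (P : Set G)) (t : G) (ht : orderOf t = 2) (hinv : ∀ u ∈ U, ∀ g : G, (g * t * g⁻¹) * u * (g * t * g⁻¹)⁻¹ ≠ u⁻¹) (θ : ↥P → ℂ) (hθ : Cfsg.IsGeneralizedCharacter ↥P θ) (hθU : ∀ y : ↥P, (y : G) ∉ U → θ y = 0) : (∑ᶠ χ ∈ Cfsg.principalBlock M G, ((Nat.card ↥P : ℂ)⁻¹ * ∑ᶠ y : ↥P, (χ : G → ℂ) (y : G) * θ y⁻¹) * (χ : G → ℂ) t ^ 2 / (χ : G → ℂ) 1 = 0) ∧ (∑ᶠ χ ∈ Cfsg.principalBlock M G, ((Nat.card ↥P : ℂ)⁻¹ * ∑ᶠ y : ↥P, (χ : G → ℂ) (y : G) * θ y⁻¹) * (χ : G → ℂ) 1 = 0) ∧ (∑ᶠ χ ∈ Cfsg.principalBlock M G, ((Nat.card ↥P : ℂ)⁻¹ * ∑ᶠ y : ↥P, (χ : G → ℂ) (y : G) * θ y⁻¹) * (χ : G → ℂ) t = 0) ∧ ((Nat.card ↥P : ℂ)⁻¹ * ∑ᶠ y : ↥P, θ y ≠ 0 → (2 ≤ Nat.card {χ : Cfsg.IrrCharacter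 G // χ ∈ Cfsg.principalBlock M G ∧ 0 < (((Nat.card ↥P : ℂ)⁻¹ * ∑ᶠ y : ↥P, (χ : G → ℂ) (y : G) * θ y⁻¹)).re} ∧ 2 ≤ Nat.card {χ : Cfsg.IrrCharacter G // χ ∈ Cfsg.principalBlock M G ∧ (((Nat.card ↥P : ℂ)⁻¹ * ∑ᶠ y : ↥P, (χ : G → ℂ) (y : G) * θ y⁻¹)).re < 0}) ∨ ∃ K : Subgroup G, K.Normal ∧ K ≠ ⊤ ∧ Cfsg.pPrimeCore 2 G ≤ K ∧ t ∈ K) := by
  classical
  cases nonempty_fintype G
  simp only [finsum_mem_irr]
  simp only [finsum_eq_sum_of_fintype]
  have htt : t * t = 1 := by rw [← sq, ← ht, pow_orderOf_eq_one]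
  have ht' : t⁻¹ = t := inv_eq_of_mul_eq_one_right htt
  have hp : ∀ y : P, ∃ n, orderOf (y : G) = 2 ^ n := fun y => pel_of_mem hM.1 hP y.2
  have key : ∀ F : IrrCharacter G → ℂ, (∀ y : P, ((y⁻¹ : P) : G) ∈ U →
      ∑ χ with χ ∈ principalBlock M G, χ.1 y * F χ = 0) → ∑ χ with χ ∈ principalBlock M G,
        ((Nat.card P : ℂ)⁻¹ * ∑ y : P, χ.1 y * θ y⁻¹) * F χ = 0 := fun F h => by
    simp only [Finset.mul_sum, Finset.sum_mul]
    rw [Finset.sum_comm]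
    refine Finset.sum_eq_zero fun y _ => ?_
    by_cases hy : ((y⁻¹ : P) : G) ∈ U
    · rw [← mul_zero ((Nat.card P : ℂ)⁻¹ * θ y⁻¹), ← h y hy, Finset.mul_sum]
      exact Finset.sum_congr rfl fun _ _ => by ring
    · simp [hθU _ hy]
  have hni : ∀ y : P, ((y⁻¹ : P) : G) ∈ U → ∀ x z : G, IsConj t x → IsConj (y : G) z →
      x * z * x⁻¹ ≠ z⁻¹ := fun y hy x z hx hz e => by
    obtain ⟨a, rfl⟩ := isConj_iff.1 hx
    obtain ⟨c, rfl⟩ := isConj_iff.1 hz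
    refine hinv _ hy (c⁻¹ * a) ?_
    have := congrArg (fun w => c⁻¹ * w⁻¹ * c) e
    simpa [mul_assoc] using this
  have h1 := key (fun χ => χ.1 t ^ 2 / χ.1 1) fun y hy => by
    rw [← sum_invol_eq_zero hM isPBlock_principalBlock htt htt (g := (y : G))
      (by rw [(pPart_eq_self_iff hM.1).2 (hp y)]; exact hni y hy)]
    exact Finset.sum_congr rfl fun _ _ => by ring
  have h2 := key (fun χ => χ.1 1) fun y hy => by
    rw [← sum_col_of_not_isConj hM isPBlock_principalBlock (hp y) (w := 1) ⟨0, by simp⟩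
      fun e => hni y hy t 1 (IsConj.refl t) e (by simp)]
    exact Finset.sum_congr rfl fun χ _ => by rw [conj_irr_one χ.2]
  have hr : ∀ χ : IrrCharacter G, conj (χ.1 t) = χ.1 t := fun χ => by
    rw [← char_apply_inv (char_of_irr χ.2), ht']
  have h3 := key (fun χ => χ.1 t) fun y hy => by
    rw [← sum_col_of_not_isConj hM isPBlock_principalBlock (hp y) (w := t) ⟨1, by simpa⟩
      fun e => hni y hy t t (IsConj.refl t) e (by simp [ht', htt])]
    exact Finset.sum_congr rfl fun χ _ => by rw [hr]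
  refine ⟨by simpa only [mul_div_assoc] using h1, h2, h3, fun h0 => ?_⟩
  obtain ⟨a, ha⟩ : ∃ a : IrrCharacter G → ℤ, ∀ χ : IrrCharacter G,
      (Nat.card P : ℂ)⁻¹ * ∑ y : P, χ.1 y * θ y⁻¹ = a χ := by
    choose a ha using fun χ : IrrCharacter G => inner_gen_gen (gen_restrict (gen_of_irr χ.2) P) hθ
    exact ⟨a, fun χ => by simp only [← ha, CChar.CharFun.inner_def, gen_apply_inv hθ]⟩
  have hd : ∀ χ : IrrCharacter G, χ.1 1 = (charDegree χ.1 : ℝ) := fun χ => irr_apply_one_eq χ.2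
  have hr' : ∀ χ : IrrCharacter G, χ.1 t = (χ.1 t).re := fun χ =>
    (Complex.conj_eq_iff_re.1 (hr χ)).symm
  have hone : irrOne G ∈ Finset.univ.filter (· ∈ principalBlock M G) := by
    simpa using irrOne_mem_principalBlock hM
  have ha0 : a (irrOne G) ≠ 0 := fun e => h0 (by
    have := ha (irrOne G)
    rw [e, Int.cast_zero] at this
    rw [← this, ← Equiv.sum_comp (Equiv.inv P)]
    simp [irrOne])
  simp only [ha, Complex.intCast_re] at h1 h2 h3 ⊢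
  rw [Finset.sum_congr rfl fun χ _ => by rw [hd, hr']] at h1
  rw [Finset.sum_congr rfl fun χ _ => by rw [hd]] at h2
  rw [Finset.sum_congr rfl fun χ _ => by rw [hr']] at h3
  replace h1 : ∑ χ with χ ∈ principalBlock M G,
      (a χ : ℝ) * (χ.1 t).re ^ 2 / (charDegree χ.1 : ℝ) = 0 := by
    simp only [mul_div_assoc]; exact_mod_cast h1
  replace h2 : ∑ χ with χ ∈ principalBlock M G, (a χ : ℝ) * (charDegree χ.1 : ℝ) = 0 := by
    exact_mod_cast h2
  replace h3 : ∑ χ with χ ∈ principalBlock M G, (a χ : ℝ) * (χ.1 t).re = 0 := by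
    exact_mod_cast h3
  have hd0 : ∀ χ ∈ Finset.univ.filter (· ∈ principalBlock M G), (0 : ℝ) < charDegree χ.1 :=
    fun χ _ => Nat.cast_pos.2 (charDegree_pos χ.2)
  rw [or_iff_not_imp_left]
  intro hn
  obtain ⟨c, hc⟩ : ∃ c : ℝ, ∀ χ ∈ Finset.univ.filter (· ∈ principalBlock M G), (a χ : ℝ) ≠ 0 →
      (χ.1 t).re = c * charDegree χ.1 := by
    rcases not_and_or.1 hn with h | h
    · refine ratio_eq hd0 h2 h3 h1 fun i hi j hj e e' => ?_
      have := Finite.card_le_one_iff_subsingleton.1 (Nat.lt_succ_iff.1 (not_le.1 h))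
      exact congrArg Subtype.val (this.elim ⟨i, (Finset.mem_filter.1 hi).2, e⟩
        ⟨j, (Finset.mem_filter.1 hj).2, e'⟩)
    · obtain ⟨c, hc⟩ := ratio_eq (a := fun χ => -(a χ : ℝ)) (r := fun χ => (χ.1 t).re) hd0
        (by simpa using h2) (by simpa using h3) (by simpa [neg_div] using h1) fun i hi j hj e e' => by
        have := Finite.card_le_one_iff_subsingleton.1 (Nat.lt_succ_iff.1 (not_le.1 h))
        exact congrArg Subtype.val (this.elim ⟨i, (Finset.mem_filter.1 hi).2, neg_pos.1 e⟩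
          ⟨j, (Finset.mem_filter.1 hj).2, neg_pos.1 e'⟩)
      exact ⟨c, fun χ h e => hc χ h (neg_ne_zero.2 e)⟩
  have hc1 : c = 1 := by
    have := hc _ hone (Int.cast_ne_zero.2 ha0)
    rw [CA.BlkZero.charDegree_irrOne] at this
    simpa [irrOne] using this.symm
  obtain ⟨χ, hχ, h4, h5⟩ : ∃ χ ∈ Finset.univ.filter (· ∈ principalBlock M G),
      χ ≠ irrOne G ∧ (a χ : ℝ) ≠ 0 := by
    by_contra h
    push Not at h
    rw [Finset.sum_eq_single_of_mem _ hone fun χ h1 h2 => by rw [h χ h1 h2, zero_mul]] at h2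
    exact mul_ne_zero (Int.cast_ne_zero.2 ha0) (hd0 _ hone).ne' h2
  refine ⟨charKer χ.1, inferInstance, fun e => h4 (Subtype.ext ((charKer_eq_top_iff χ.2).1 e)), ?_, ?_⟩
  · rw [← kerB_principalBlock hM]; exact kerB_le (Finset.mem_filter.1 hχ).2
  · rw [mem_charKer (char_of_irr χ.2), hr', hc χ hχ h5, hc1, one_mul, hd]

end Cfsg.Agent.S4722
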