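import Cfsg.Statements.S4723
import Cfsg.Agent.Lib.Block.BlkPr
import Cfsg.Agent.Lib.Block.H12Brg

set_option autoImplicit false
open Cfsg

namespace Cfsg.Agent.S4723
open Cfsg MonoidAlgebra CA.BlkAlg CA.BlkVal CA.BlkOmega CA.BlkRed CA.BlkCore CA.BlkDefect CA.BlkInd CA.BlkHeight CA.SylIn CA.H12PPart CChar.CharFun CChar.CharOrth Subgroup CA.BlkKer CChar.CharKer CA.BlkZero CChar.CharInt CA.BlkReg CA.BlkGal CA.BlkQuo CA.BlkBas CA.BlkIdem CA.BlkIBr CChar.CharGen CA.BlkCov CA.H12Cover CA.Clif CA.BlkInt CA.BlkPr CA.H11Amb CA.H11Def CA.H11Brg CA.H12Brg CA.H12Fong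

/-- Let p be a prime, M a maximal ideal of the algebraic integers containing p, H a normal subgroup of the finite group G and b a p-block of H. Let T be the stabilizer of b in G. Then b contains a character θ of height zero whose own stabilizer in G (the elements g with θ(g h g⁻¹) = θ(h) for all h ∈ H) has index prime to p in T, i.e. contains a Sylow p-subgroup of T. -/
theorem result {G : Type*} [Group G] [Finite G] (p : ℕ) [Fact p.Prime] (M : Ideal Cfsg.AlgInt) (hM : Cfsg.IsPModular p M) (H : Subgroup G) [H.Normal] (b : Set (Cfsg.IrrCharacter ↥H)) (hb : Cfsg.IsPBlock M b) (T : Subgroup G) (hT : (∀ g : G, g ∈ T ↔ ∀ θ ∈ b, ∀ θ' : Cfsg.IrrCharacter ↥H, (∀ h h' : ↥H, (h' : G) = g * h * g⁻¹ → (θ' : ↥H → ℂ) h' = (θ : ↥H → ℂ) h) → θ' ∈ b)) : ∃ θ ∈ b, Cfsg.blockHeight p b (θ : ↥H → ℂ) = 0 ∧ ∃ S : Subgroup G, S ≤ T ∧ (∀ g : G, g ∈ S ↔ (g ∈ T ∧ ∀ h h' : ↥H, (h' : G) = g * h * g⁻¹ → (θ : ↥H → ℂ) h' = (θ : ↥H → ℂ) h)) ∧ ¬ p ∣ S.relIndex T := by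
  classical
  rename_i hN
  have hp : p.Prime := Fact.out
  have := Fintype.ofFinite G
  have := Fintype.ofFinite H
  have := Fintype.ofFinite T
  have := Fintype.ofFinite (H.subgroupOf T)
  have hp0 := p_eq_zero hM
  have hT' : ∀ g, g ∈ T ↔ g ∈ Stab (ab M H b) := fun g => by
    rw [hT, ← inv_mem_iff (H := Stab (ab M H b)), ← stab_iff hM hb]
    refine forall₃_congr fun θ _ θ' => imp_congr_left ⟨fun h n => h _ _ (by simp [mul_assoc]),
      fun h x y e => ?_⟩
    rw [h y]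
    exact congrArg θ.1 (Subtype.ext (by show g⁻¹ * (y : G) * g⁻¹⁻¹ = x; rw [e]; group))
  have he := blk_ab hM hb
  have hHT : H ≤ T := fun g hg => (hT' g).2 (he.mem.2 g hg)
  have hNN : T ≤ NN H := le_top.trans (NN_top_of_normal H)
  have hfix : ab M H b ∈ Fixed (k M) T := fun g hg => (hT' g).1 hg
  obtain ⟨E, P, hE, h1, hP, h2⟩ := exists_cov_fong hp0 hHT hNN he hfix
  obtain ⟨B, hB, rfl⟩ := exists_ab hM hE
  obtain ⟨D, hD⟩ := exists_isDefectGroup hM hb
  have e1 := fact_isDef_le hp0 hHT hNN he hE h1 ((isDefectGroup_iff_map hM hb).1 hD) hP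
  have e2 := factorization_card_defectGroup hM hB ((isDefectGroup_iff_subgroupOf hM hB hP.le).2 hP)
  rw [Nat.card_congr (subgroupOfEquivOfLe hP.le).toEquiv] at e2
  rw [Nat.factorization_eq_zero_of_not_dvd h2, e2, card_map_of_injective H.subtype_injective,
    factorization_card_defectGroup hM hb hD] at e1
  obtain ⟨χ, hχ, h0⟩ := exists_height_zero (p := p) (block_nonempty hM hB)
  obtain ⟨θ, hθ, ho⟩ := exists_underIn_of_mul hM hHT hB hb (by
    rw [← (CA.H12FR.commute_ZA hHT he hE.mem).eq]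
    exact mul_eq_of_cov_of_fixed hHT he hfix hE h1) hχ
  rw [← inner_so hHT, so_res hHT] at ho
  have h3 := apply_one_eq χ.2 ((so_irr_iff hHT).2 θ.2) ho
  obtain ⟨m, hm⟩ := inner_char_char (char_restrict (char_of_irr χ.2) (H.subgroupOf T))
    (char_of_irr ((so_irr_iff hHT).2 θ.2))
  rw [hm] at ho
  rw [hm, inertia_so hHT, show so T θ.1 1 = θ.1 1 from rfl, irr_apply_one_eq χ.2,
    irr_apply_one_eq θ.2] at h3
  have h4 : charDegree χ.1 = m * (inertia θ.1).relIndex T * charDegree θ.1 := by exact_mod_cast h3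
  have hi0 : (inertia θ.1).relIndex T ≠ 0 := index_ne_zero_of_finite
  have e3 := congrArg (fun n => n.factorization p) h4
  simp only [Nat.factorization_mul (mul_ne_zero (Nat.cast_ne_zero.1 ho) hi0) (charDegree_pos θ.2).ne',
    Nat.factorization_mul (Nat.cast_ne_zero.1 ho) hi0, Finsupp.add_apply] at e3
  have e4 := factorization_add_blockDefect (p := p) hχ
  have e5 := factorization_add_blockDefect (p := p) hθ
  have e6 := fact_relIndex (p := p) hHT
  refine ⟨θ, hθ, by omega, inertia θ.1 ⊓ T, inf_le_right, fun g => ?_, ?_⟩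
  · rw [mem_inf, and_comm, mem_inertia']
    refine and_congr_right' ⟨fun h x y e => ?_, fun h n => h _ _ rfl⟩
    rw [← h x]
    exact congrArg θ.1 (Subtype.ext e)
  · rw [inf_relIndex_right, hp.dvd_iff_one_le_factorization hi0]
    omega

end Cfsg.Agent.S4723
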