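import Cfsg.Statements.S4725
import Cfsg.Agent.Lib.Block.BlkCov
import Cfsg.Agent.Lib.Char.Ind

set_option autoImplicit false
open Cfsg

namespace Cfsg.Agent.S4725
open Cfsg MonoidAlgebra CA.BlkAlg CA.BlkVal CA.BlkOmega CA.BlkRed CA.BlkCore CA.BlkDefect CA.BlkInd CA.BlkHeight CA.SylIn CA.H12PPart CChar.CharFun CChar.CharOrth Subgroup CA.BlkKer CChar.CharKer CA.BlkZero CChar.CharInt CA.BlkReg CA.BlkGal CA.BlkQuo CA.BlkCov CA.H12Cover CA.Clif

/-- Let p be a prime, M a maximal ideal of the algebraic integers containing p, H a subgroup of the finite group G, and b a p-block of H inducing the p-block B of G, with b and B of the same defect. Then for every height-zero ζ ∈ b there is a height-zero χ ∈ B whose multiplicity in the character induced from ζ is not divisible by p. -/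
theorem result {G : Type*} [Group G] [Fintype G] (p : ℕ) [Fact p.Prime] (M : Ideal Cfsg.AlgInt) (hM : Cfsg.IsPModular p M) (H : Subgroup G) (b : Set (Cfsg.IrrCharacter ↥H)) (B : Set (Cfsg.IrrCharacter G)) (hind : Cfsg.IsInducedBlock M H b B) (hdef : Cfsg.blockDefect p b = Cfsg.blockDefect p B) (ζ : Cfsg.IrrCharacter ↥H) (hζ : ζ ∈ b) (hζ0 : Cfsg.blockHeight p b (ζ : ↥H → ℂ) = 0) : ∃ χ ∈ B, Cfsg.blockHeight p B (χ : G → ℂ) = 0 ∧ ∃ a : ℕ, Cfsg.classInner (Cfsg.indFun H (ζ : ↥H → ℂ)) (χ : G → ℂ) = (a : ℂ) ∧ ¬ p ∣ a := by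
  classical
  have := Fintype.ofFinite H
  obtain ⟨hb, hB, -⟩ := (isInducedBlock_iff hM).1 hind
  obtain ⟨χ₀, hχ₀⟩ := block_nonempty hM hB
  have h1 : lam M ζ.1 (trunc H (eB M B)) = 1 := by
    rw [lam_trunc_of_isInducedBlock hM hind hζ hχ₀ (eB_mem_Z B),
      lam_eB_of_mem (isSat_of_isPBlock hM hB) hχ₀]
  rw [lam_trunc_eB H ζ (isSat_of_isPBlock hM hB), omega_trunc_fB] at h1
  have h2 := v_eq_one_of_res_ne_zero (h1.trans_ne one_ne_zero)
  have hne : (H.index : ℂ) * ζ.1 1 ≠ 0 :=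
    mul_ne_zero (Nat.cast_ne_zero.2 index_ne_zero_of_finite) (irr_apply_one_ne_zero ζ.2)
  rw [v_div_eq_one_iff hne] at h2
  have h3 : v M ((H.index : ℂ) * ζ.1 1) = v M (p : ℂ) ^ minNu p B := by
    rw [map_mul, v_natCast hM index_ne_zero_of_finite, v_irr_one hM, ← pow_add]
    congr 1
    have e1 := factorization_add_blockDefect (p := p) hζ
    have e2 := blockDefect_add_minNu (p := p) ⟨χ₀, hχ₀⟩
    have e3 := factorization_index_add H p
    omega
  by_contra hcon
  push Not at hcon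
  refine absurd (h2.trans h3) (ne_of_lt (Valuation.map_sum_lt _ (pow_ne_zero _ (v_p_ne_zero hM))
    fun χ hχ => ?_))
  have hχ' : χ ∈ B := (Finset.mem_filter.1 hχ).2
  obtain ⟨a, ha⟩ := inner_char_char (char_of_irr ζ.2) (char_restrict (char_of_irr χ.2) H)
  have e := blockHeight_add_minNu (p := p) hχ'
  rw [ha, map_mul, v_irr_one hM]
  by_cases h0 : blockHeight p B χ.1 = 0
  · have hd : p ∣ a := hcon χ hχ' h0 a (by
      rw [← ha, CA.Ind.inner_ind_left H _ (irr_classFun χ.2)])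
    rw [← e, h0, zero_add]
    exact mul_lt_of_lt_one_left (pow_pos (v_p_pos hM) _) ((v_natCast_lt_one_iff hM a).2 hd)
  · exact (mul_le_of_le_one_left' (mem_O_iff.1 (natCast_mem_O a))).trans_lt
      ((v_p_pow_lt_iff hM).2 (by omega))

end Cfsg.Agent.S4725
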