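import Cfsg.Statements.S4726
import Cfsg.Agent.Lib.Block.BlkFirst

set_option autoImplicit false
open Cfsg

namespace Cfsg.Agent.S4726
open Cfsg MonoidAlgebra CA.BlkAlg CA.BlkVal CA.BlkOmega CA.BlkRed CA.BlkCore CA.BlkDefect CA.BlkInd CA.BlkHeight CA.SylIn CA.H12PPart CChar.CharFun CChar.CharOrth Subgroup CA.BlkKer CChar.CharKer CA.BlkFirst

/-- Let p be a prime, M a maximal ideal of the algebraic integers containing p, H a subgroup of the finite group G and b a p-block of H with defect group D₀ such that C_G(D₀) ≤ H. Then b induces a block of G, and for every block B of G induced by b there is a defect group D of B with Z(D) ≤ Z(D₀) ≤ D₀ ≤ D (as subgroups of G). In particular, if the defect groups of B are abelian then D₀ is a defect group of B. -/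
theorem result {G : Type*} [Group G] [Finite G] (p : ℕ) [Fact p.Prime] (M : Ideal Cfsg.AlgInt) (hM : Cfsg.IsPModular p M) (H : Subgroup G) (b : Set (Cfsg.IrrCharacter ↥H)) (hb : Cfsg.IsPBlock M b) (D₀ : Subgroup ↥H) (hD₀ : Cfsg.IsDefectGroup p M b D₀) (hC : Subgroup.centralizer ((D₀.map H.subtype : Subgroup G) : Set G) ≤ H) : Cfsg.InducedBlockDefined M H b ∧ ∀ B : Set (Cfsg.IrrCharacter G), Cfsg.IsInducedBlock M H b B → (∃ D : Subgroup G, Cfsg.IsDefectGroup p M B D ∧ (Subgroup.center ↥D).map D.subtype ≤ ((Subgroup.center ↥D₀).map D₀.subtype).map H.subtype ∧ ((Subgroup.center ↥D₀).map D₀.subtype).map H.subtype ≤ D₀.map H.subtype ∧ D₀.map H.subtype ≤ D) ∧ (∀ D : Subgroup G, Cfsg.IsDefectGroup p M B D → IsMulCommutative ↥D → Cfsg.IsDefectGroup p M B (D₀.map H.subtype)) := by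
  refine ⟨inducedBlockDefined_of_defectGroup hM hb hD₀ hC, fun B hB => ?_⟩
  obtain ⟨E, hE, h1, h2⟩ := exists_defectGroup_centralizer_le hM (map_subtype_le D₀)
    (by rwa [← comap_subtype, comap_map_eq_self_of_injective H.subtype_injective]) hC hB
  constructor
  · refine ⟨E, hE, ?_, map_mono (map_subtype_le _), h1⟩
    rintro _ ⟨z, hz, rfl⟩
    have hzc : (z : G) ∈ centralizer ((D₀.map H.subtype : Subgroup G) : Set G) :=
      fun w hw => congrArg Subtype.val (mem_center_iff.mp hz ⟨w, h1 hw⟩)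
    obtain ⟨u, hu, e⟩ := h2 ⟨z.2, hzc⟩
    refine ⟨u, ⟨⟨u, hu⟩, mem_center_iff.mpr fun w => Subtype.ext ?_, rfl⟩, e⟩
    exact (mem_centralizer_map_subtype D₀ u).mp (by rwa [← e] at hzc) w w.2
  · intro D hD hab
    obtain ⟨x, rfl⟩ := exists_conj_eq_of_isDefectGroup hM hB.2.1 hD hE
    have : x •ᶜ D ≤ D₀.map H.subtype := fun z hz => h2 ⟨hz, fun w hw => ?_⟩
    · rwa [le_antisymm h1 this]
    · obtain ⟨a, ha, rfl⟩ := hz
      obtain ⟨c, hc, rfl⟩ := h1 hw
      rw [← map_mul, ← map_mul]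
      exact congrArg _ (congrArg Subtype.val (hab.is_comm.comm ⟨c, hc⟩ ⟨a, ha⟩))

end Cfsg.Agent.S4726
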