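import Cfsg.Statements.S4727
import Cfsg.Agent.Lib.Block.BlkPi
import Cfsg.Agent.Lib.Block.H12Second

set_option autoImplicit false
open Cfsg

namespace Cfsg.Agent.S4727
open Cfsg MonoidAlgebra CA.BlkAlg CA.BlkVal CA.BlkOmega CA.BlkRed CA.BlkCore CA.BlkDefect CA.BlkInd CA.BlkHeight CA.SylIn CA.H12PPart CChar.CharFun CChar.CharOrth Subgroup CA.BlkKer CChar.CharKer CA.H11Amb CA.H11Def CA.H11Pair CA.H11Max CA.H11Brg CA.BlkFirst CA.BlkPi

/-- Let p be a prime, π a set of primes containing p, M a maximal ideal of the algebraic integers containing p, and B a p-block of the finite group G with defect group D; let B₁ be the block of N_G(D) with defect group D that induces B (the Brauer correspondent of B). Suppose every element of O_π'(N_G(D)), the largest normal subgroup of N_G(D) whose order has no prime divisor in π, lies in the kernel of every member of B₁. If y is a p-element whose centralizer C has a normal Hall π'-subgroup (every element of C whose order has no prime divisor in π lies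 in O_π'(C)), then χ(y x) = χ(y) for every χ ∈ B and every x ∈ C whose order has no prime divisor in π. -/
theorem result {G : Type*} [Group G] [Finite G] (p : ℕ) [Fact p.Prime] (M : Ideal Cfsg.AlgInt) (hM : Cfsg.IsPModular p M) (π : Set ℕ) (hpπ : p ∈ π) (B : Set (Cfsg.IrrCharacter G)) (hB : Cfsg.IsPBlock M B) (D : Subgroup G) (hBD : Cfsg.IsDefectGroup p M B D) (B₁ : Set (Cfsg.IrrCharacter ↥(Subgroup.normalizer (D : Set G)))) (hB₁ : Cfsg.IsInducedBlock M (Subgroup.normalizer (D : Set G)) B₁ B) (hB₁D : Cfsg.IsDefectGroup p M B₁ (D.subgroupOf (Subgroup.normalizer (D : Set G)))) (hker : ∀ n : ↥(Subgroup.normalizer (D : Set G)), n ∈ Cfsg.piCore {q | q ∉ π} ↥(Subgroup.normalizer (D : Set G)) → n ∈ Cfsg.blockKer B₁) (y : G) (hy : ∃ k : ℕ, orderOf y = p ^ k) (hC : ∀ x : ↥(Subgroup.centralizer ({y} : Set G)), (∀ q : ℕ, q.Prime → q ∣ orderOf x → q ∉ π) → x ∈ Cfsg.piCore {q | q ∉ π} ↥(Subgroup.centralizer ({y} : Set G))) : ∀ χ ∈ B, ∀ x : G, x ∈ Subgroup.centralizer ({y} : Set G) → (∀ q : ℕ,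 q.Prime → q ∣ orderOf x → q ∉ π) → (χ : G → ℂ) (y * x) = (χ : G → ℂ) y := by
  haveI := charP_k hM
  have hp : (p : k M) = 0 := CharP.cast_eq_zero _ p
  have hσ : p ∉ {q | q ∉ π} := fun h => h hpπ
  intro χ hχ x hx hs
  have hy' := CA.H12Second.isPGroup_zpowers hy
  have hC' := CC_zpowers y
  have h1 : zpowers y ≤ centralizer ({y} : Set G) :=
    zpowers_le.mpr (mem_centralizer_singleton_iff.mpr rfl)
  have h2 : centralizer ({y} : Set G) ≤ NN (zpowers y) := hC' ▸ CC_le_NN _
  rw [CA.H12Second.apply_eq_sum_blocks hM χ.1 (centralizer ({y} : Set G)) (y * x),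
    CA.H12Second.apply_eq_sum_blocks hM χ.1 (centralizer ({y} : Set G)) y]
  refine Finset.sum_congr rfl fun b hb => ?_
  rw [mem_blocks] at hb
  by_cases h : IsInducedBlock M _ b B
  · have h3 := kr_of_corr hM hσ hB hBD hB₁ hker
      ⟨le_top, hy', by rw [top_inf_eq, hC']; exact blk_ab hM hb⟩
      ((isInducedBlock_iff_ab hM hy' h1 hC'.le h2 hb hB).mp h)
    have h4 : (⟨x, hx⟩ : centralizer ({y} : Set G)) ∈ blockKer b :=
      mem_blockKer_of_kr hM hb ((OC_le _).trans hC'.le) (h2.trans (NN_le_NN_OC _))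
        (not_dvd_of_pi hσ) h3 (by
          rw [OC, hC']; exact ⟨_, hC ⟨x, hx⟩ (by rwa [orderOf_mk]), rfl⟩)
    have h5 := congrArg (emb _) (single_mul_fB h4)
    rw [map_mul, emb_single] at h5
    rw [← mul_one (1 : ℂ), ← single_mul_single, mul_assoc, h5, mul_one]
  · rw [CA.H12Second.second_main hM hy hB hχ hb h hx fun h3 => hs p Fact.out h3 hpπ]
    have := CA.H12Second.second_main hM hy hB hχ hb h (one_mem _)
      (by rw [orderOf_one]; exact hM.1.not_dvd_one)
    rw [mul_one] at this
    exact this.symm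

end Cfsg.Agent.S4727
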