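import Cfsg.Statements.S4728
import Cfsg.Agent.Lib.Block.BlkPi

set_option autoImplicit false
open Cfsg

namespace Cfsg.Agent.S4728
open Cfsg MonoidAlgebra CA.BlkAlg CA.BlkVal CA.BlkOmega CA.BlkRed CA.BlkCore CA.BlkDefect CA.BlkInd CA.BlkHeight CA.SylIn CA.H12PPart CChar.CharFun CChar.CharOrth Subgroup CA.BlkKer CChar.CharKer CA.H11Amb CA.H11Def CA.H11Pair CA.H11Max CA.H11Brg CA.BlkFirst CA.BlkPi

/-- Let p be a prime, π a set of primes containing p, M a maximal ideal of the algebraic integers containing p, B a p-block of the finite group G with defect group D, and B₁ the block of N_G(D) with defect group D inducing B. Let D₀ be a p-subgroup, H₀ = D₀·C_G(D₀), and b a block of H₀ inducing B. Write O_π'(X) for the largest normal subgroup of X whose order has no prime divisor in π. Suppose that O_π'(C_G(D₀)) is a normal Hall π'-subgroup of C_G(D₀) (it contains every element of C_G(D₀) whose order has no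 prime divisor in π) and that every element of it lies in the kernel of every member of b. Then every element of O_π'(N_G(D)) lies in the kernel of every member of B₁. -/
theorem result {G : Type*} [Group G] [Finite G] (p : ℕ) [Fact p.Prime] (M : Ideal Cfsg.AlgInt) (hM : Cfsg.IsPModular p M) (π : Set ℕ) (hpπ : p ∈ π) (B : Set (Cfsg.IrrCharacter G)) (hB : Cfsg.IsPBlock M B) (D : Subgroup G) (hBD : Cfsg.IsDefectGroup p M B D) (B₁ : Set (Cfsg.IrrCharacter ↥(Subgroup.normalizer (D : Set G)))) (hB₁ : Cfsg.IsInducedBlock M (Subgroup.normalizer (D : Set G)) B₁ B) (hB₁D : Cfsg.IsDefectGroup p M B₁ (D.subgroupOf (Subgroup.normalizer (D : Set G)))) (D₀ : Subgroup G) (hD₀ : IsPGroup p D₀) (H₀ : Subgroup G) (hH₀ : H₀ = D₀ ⊔ Subgroup.centralizer (D₀ : Set G)) (b : Set (Cfsg.IrrCharacter ↥H₀)) (hb : Cfsg.IsInducedBlock M H₀ b B) (hcompl : ∀ x : ↥(Subgroup.centralizer (D₀ : Set G)), (∀ q : ℕ, q.Prime → q ∣ orderOf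 x → q ∉ π) → x ∈ Cfsg.piCore {q | q ∉ π} ↥(Subgroup.centralizer (D₀ : Set G))) (hkerb : ∀ x : ↥(Subgroup.centralizer (D₀ : Set G)), x ∈ Cfsg.piCore {q | q ∉ π} ↥(Subgroup.centralizer (D₀ : Set G)) → ∀ θ ∈ b, ∀ h : ↥H₀, (h : G) = (x : G) → (θ : ↥H₀ → ℂ) h = (θ : ↥H₀ → ℂ) 1) : ∀ n : ↥(Subgroup.normalizer (D : Set G)), n ∈ Cfsg.piCore {q | q ∉ π} ↥(Subgroup.normalizer (D : Set G)) → n ∈ Cfsg.blockKer B₁ := by
  haveI := charP_k hM
  have hp : (p : k M) = 0 := CharP.cast_eq_zero _ p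
  have hσ : p ∉ {q | q ∉ π} := fun h => h hpπ
  have h1 : D₀ ≤ H₀ := hH₀ ▸ le_sup_left
  have h2 : CC D₀ ≤ H₀ := hH₀ ▸ le_sup_right
  have h3 : H₀ ≤ NN D₀ := hH₀ ▸ sup_le le_normalizer (CC_le_NN _)
  have hb0 := blk_ab hM hb.1
  have hZ : ab M H₀ b ∈ ZA (k M) (CC D₀) := mem_ZA.mpr
    ⟨br_eq_self_iff.mp (hb0.br_eq_self hp hD₀ h1 h3), fixed_anti h2 hb0.fixed⟩
  obtain ⟨f, hf, hbf⟩ := exists_blk_le hZ hb0.idem hb0.ne
  have h4 : br D₀ (eB M B) * f = f := by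
    rw [← hbf, ← mul_assoc, (isInducedBlock_iff_ab hM hD₀ h1 h2 h3 hb.1 hB).mp hb]
  have h5 : KU {q | q ∉ π} D₀ f := fun x hx hs => by
    have := single_mul_ab hM hb.1 (x := ⟨x, h2 hx⟩) fun θ hθ =>
      hkerb ⟨x, hx⟩ (hcompl _ (by rwa [orderOf_mk])) θ hθ _ rfl
    rw [← hbf, ← mul_assoc, this]
  have hD := (isDefectGroup_iff_top hM hB).mp hBD
  obtain ⟨e, he⟩ := exists_mx hp (blk_eB hM hB) hD
  have h6 := Mx.kr_of_ku hp he ⟨le_top, hD₀, by rwa [top_inf_eq]⟩ h4 h5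
  have h7 := CA.Core.le_normalizer_map_piCore (π := {q | q ∉ π}) (NN D)
  have hb1 := blk_ab hM hB₁.1
  have h8 : D ≤ NN D := le_normalizer
  intro x hx
  refine mem_blockKer_of_kr hM hB₁.1 (map_subtype_le _) h7 (not_dvd_of_pi hσ)
    (kr_of_br hb1 (map_subtype_le _) h7 (not_dvd_of_pi hσ) he.pr.pg (h8.trans h7)
      (fixed_anti h8 hb1.fixed) ?_ he.pr.blk.ne (h6.mono (inf_le_OC (CC_le_NN D)))) ⟨x, hx, rfl⟩
  rw [← br_eq_ab_of_induced hM hBD hB₁, br_br_of_le le_rfl, he.of]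

end Cfsg.Agent.S4728
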