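import Cfsg.Statements.S4729
import Cfsg.Agent.Lib.Block.BlkPr
import Cfsg.Agent.Lib.Char.Ext

set_option autoImplicit false
open Cfsg

namespace Cfsg.Agent.S4729
open Cfsg MonoidAlgebra CA.BlkAlg CA.BlkVal CA.BlkOmega CA.BlkRed CA.BlkCore CA.BlkDefect CA.BlkInd CA.BlkHeight CA.SylIn CA.H12PPart CChar.CharFun CChar.CharOrth Subgroup CA.BlkKer CChar.CharKer CA.BlkZero CChar.CharInt

theorem geom {z : ℂ} {m : ℕ} (h : z ^ m = 1) [Decidable (z = 1)] :
    ∑ j ∈ Finset.range m, z ^ j = if z = 1 then (m : ℂ) else 0 := by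
  split_ifs with h1
  · simp [h1]
  · have := geom_sum_eq h1 m
    rw [this, h, sub_self, zero_div]

theorem res_eq {G : Type*} [Group G] [Finite G] {p : ℕ} [Fact p.Prime] {M : Ideal AlgInt}
    (hM : IsPModular p M) (P : Sylow p G) {χ : IrrCharacter G} (hχ : χ ∈ principalBlock M G)
    {z : G} (hz : z ∈ centralizer ((P : Subgroup G) : Set G)) : v M (χ.1 z - χ.1 1) < 1 := by
  have h1 := res_centralChar_eq_of_mem hM isPBlock_principalBlock hχ (irrOne_mem_principalBlock hM) z
  have hle : (P : Subgroup G) ≤ centralizer ({z} : Set G) := fun x hx => by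
    rw [mem_centralizer_iff]
    rintro _ rfl
    exact (hz x hx).symm
  have hi : ¬ p ∣ (centralizer ({z} : Set G)).index := fun h =>
    P.not_dvd_index (h.trans (index_dvd_of_le hle))
  have h2 : centralChar (irrOne G).1 z = (centralizer ({z} : Set G)).index := by
    rw [centralChar_def]
    show _ * 1 / 1 = _
    simp
  have hO := isIntegral_mem (M := M) (isIntegral_centralChar χ.2 z)
  rw [h2, res_eq_res_iff hO (natCast_mem_O _)] at h1
  have h3 := v_mul_lt_one_left h1 (isIntegral_mem (M := M) (char_isIntegral (char_of_irr χ.2) 1))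
  have h4 : (centralChar χ.1 z - (centralizer ({z} : Set G)).index) * χ.1 1 =
      (centralizer ({z} : Set G)).index * (χ.1 z - χ.1 1) := by
    have := irr_apply_one_ne_zero χ.2
    rw [centralChar_def]
    field_simp
  rwa [h4, map_mul, (v_natCast_eq_one_iff hM _).2 hi, one_mul] at h3

/-- Let p be a prime, M a maximal ideal of the algebraic integers containing p, G a finite perfect group and P a Sylow p-subgroup. If the principal p-block of G contains a faithful irreducible character of degree less than 2p, then the centralizer of P is a p-group. -/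
theorem result {G : Type*} [Group G] [Finite G] (p : ℕ) [Fact p.Prime] (M : Ideal Cfsg.AlgInt) (hM : Cfsg.IsPModular p M) (hperf : commutator G = ⊤) (P : Sylow p G) (χ : Cfsg.IrrCharacter G) (hχ : χ ∈ Cfsg.principalBlock M G) (hfaith : ∀ g : G, (χ : G → ℂ) g = (χ : G → ℂ) 1 → g = 1) (hdeg : Cfsg.charDegree (χ : G → ℂ) < 2 * p) : IsPGroup p ↥(Subgroup.centralizer ((P : Subgroup G) : Set G)) := by
  classical
  have hp : p.Prime := Fact.out
  have key : ∀ y ∈ centralizer ((P : Subgroup G) : Set G), ¬ p ∣ orderOf y → y = 1 := by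
    intro y hy hpy
    by_contra hy1
    obtain ⟨n, ρ, hρ⟩ := char_of_irr χ.2
    have hE := CChar.CharRep.exists_eigenbasis
      (Nat.cast_ne_zero.2 Nat.card_pos.ne') ρ y
    set m := orderOf y with hm
    have hm0 : m ≠ 0 := (orderOf_pos y).ne'
    set d := Module.finrank ℂ (Fin n → ℂ) with hd
    obtain ⟨b, ω, hb, hω, hpow, -⟩ := hE
    have h1 : χ.1 1 = d := by rw [← hρ, Representation.char_one]
    have hdeg' : d < 2 * p := by rwa [charDegree_eq h1] at hdeg
    have hmult : ∀ l : ℂ, l ^ m = 1 → l ≠ 1 → p ∣ (Finset.univ.filter fun i => ω i = l).card := by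
      intro l hl hl1
      have hl0 : l ≠ 0 := fun e => by rw [e, zero_pow hm0] at hl; exact zero_ne_one hl
      have e : ((m * (Finset.univ.filter fun i => ω i = l).card : ℕ) : ℂ) =
          ∑ j ∈ Finset.range m, (χ.1 (y ^ j) - χ.1 1) * l⁻¹ ^ j := by
        simp_rw [sub_mul]
        rw [Finset.sum_sub_distrib, ← Finset.mul_sum, geom (by rw [inv_pow, hl, inv_one]),
          if_neg (by simpa using hl1), mul_zero, sub_zero]
        simp_rw [← hρ, hpow, Finset.sum_mul, ← mul_pow]
        rw [Finset.sum_comm]
        have : ∀ i, ∑ j ∈ Finset.range m, (ω i * l⁻¹) ^ j = if ω i = l then (m : ℂ) else 0 := by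
          intro i
          rw [geom (by rw [mul_pow, hω, inv_pow, hl, inv_one, one_mul])]
          simp only [mul_inv_eq_one₀ hl0]
        simp_rw [this]
        rw [← Finset.sum_filter, Finset.sum_const, nsmul_eq_mul, Nat.cast_mul, mul_comm]
      have hv : v M ((m * (Finset.univ.filter fun i => ω i = l).card : ℕ) : ℂ) < 1 := by
        rw [e]
        refine v_sum_lt_one _ _ fun j _ => v_mul_lt_one_left (res_eq hM P hχ (pow_mem hy j)) ?_
        exact isIntegral_mem (isIntegral_of_pow_eq_one hm0 (by
          rw [← pow_mul, mul_comm, pow_mul, inv_pow, hl, inv_one, one_pow]))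
      exact ((Nat.Prime.dvd_mul hp).1 ((v_natCast_lt_one_iff hM _).1 hv)).resolve_left hpy
    obtain ⟨i, hi⟩ : ∃ i, ω i ≠ 1 := by
      by_contra hc
      push Not at hc
      refine hy1 (hfaith y ?_)
      have := hpow 1
      rw [pow_one] at this
      rw [h1, ← hρ, this]
      simp [hc]
    have hge : ∀ j, ω j ≠ 1 → p ≤ (Finset.univ.filter fun k => ω k = ω j).card := fun j hj =>
      Nat.le_of_dvd (Finset.card_pos.2 ⟨j, by simp⟩) (hmult _ (hω j) hj)
    have hcard : (Finset.univ.filter fun k => ω k = ω i).card = p := by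
      obtain ⟨c, hc⟩ := hmult _ (hω i) hi
      have h2 := hge i hi
      have h3 : (Finset.univ.filter fun k => ω k = ω i).card ≤ d := by
        simpa using Finset.card_le_univ (Finset.univ.filter fun k => ω k = ω i)
      rw [hc] at h2 h3 ⊢
      have h4 : c < 2 := by nlinarith [hp.pos]
      interval_cases c
      · have := hp.pos; omega
      · exact mul_one p
    have hoth : ∀ j, ω j ≠ ω i → ω j = 1 := by
      intro j hj
      by_contra hj1
      have h2 := hge j hj1
      have h3 : ((Finset.univ.filter fun k => ω k = ω i) ∪ (Finset.univ.filter fun k => ω k = ω j)).card ≤ d := by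
        exact (Finset.card_le_univ _).trans_eq (Fintype.card_fin d)
      rw [Finset.card_union_of_disjoint (Finset.disjoint_filter.2 fun k _ e e' => hj (e'.symm.trans e))] at h3
      omega
    have hdet : LinearMap.det (ρ y) = ω i ^ p := by
      have : LinearMap.toMatrix b b (ρ y) = Matrix.diagonal ω := by
        ext j k
        rw [LinearMap.toMatrix_apply, hb, map_smul, Module.Basis.repr_self, Matrix.diagonal_apply]
        by_cases e : j = k
        · simp [e]
        · simp [e, Finsupp.single_apply, Ne.symm e]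
      rw [← LinearMap.det_toMatrix b, this, Matrix.det_diagonal,
        ← Finset.prod_filter_mul_prod_filter_not Finset.univ (fun k => ω k = ω i),
        Finset.prod_congr rfl (fun k hk => (Finset.mem_filter.1 hk).2),
        Finset.prod_const, hcard, Finset.prod_eq_one fun k hk => hoth k (Finset.mem_filter.1 hk).2,
        mul_one]
    have hone : CA.Ext.detHom ρ y = 1 := by
      have : commutator G ≤ (CA.Ext.detHom ρ).ker := Abelianization.commutator_subset_ker _
      exact this (hperf ▸ mem_top y)
    have h5 : ω i ^ p = 1 := by rw [← hdet, ← CA.Ext.detHom_apply, hone, Units.val_one]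
    refine hi ?_
    have := pow_gcd_eq_one.2 ⟨h5, hω i⟩
    rwa [(hp.coprime_iff_not_dvd.2 hpy).gcd_eq_one, pow_one] at this
  rintro ⟨g, hg⟩
  obtain ⟨k, hk⟩ := orderOf_pPart hp g
  refine ⟨k, Subtype.ext ?_⟩
  show g ^ p ^ k = 1
  rw [← pPart_mul_pReg p g, key _ (pReg_mem hp hg) (not_dvd_orderOf_pReg hp g), mul_one, ← hk,
    pow_orderOf_eq_one]

end Cfsg.Agent.S4729
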