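import Cfsg.Statements.S4730
import Cfsg.Agent.Lib.Block.BlkCov

set_option autoImplicit false
open Cfsg

namespace Cfsg.Agent.S4730
open Cfsg MonoidAlgebra CA.BlkAlg CA.BlkVal CA.BlkOmega CA.BlkRed CA.BlkCore CA.BlkDefect CA.BlkInd CA.BlkHeight CA.SylIn CA.H12PPart CChar.CharFun CChar.CharOrth Subgroup CA.BlkKer CChar.CharKer CA.BlkZero CChar.CharInt CA.BlkReg CA.BlkGal CA.BlkQuo CA.BlkCov CA.H12Cover CA.Clif

/-- Let p be a prime, M a maximal ideal of the algebraic integers containing p, and G a finite group with trivial centre, Sylow p-subgroup P of order p^a and centre Z(P) of order p^b. If χ is a faithful irreducible character of G whose degree is a power of p, then the p-block of χ has defect at most a − b; in particular, if P is abelian then χ lies in a block of defect zero. -/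
theorem result {G : Type*} [Group G] [Finite G] (p : ℕ) [Fact p.Prime] (M : Ideal Cfsg.AlgInt) (hM : Cfsg.IsPModular p M) (hZ : Subgroup.center G = ⊥) (P : Sylow p G) (a b : ℕ) (ha : Nat.card P = p ^ a) (hb : Nat.card (Subgroup.center ↥(P : Subgroup G)) = p ^ b) (χ : Cfsg.IrrCharacter G) (hfaith : ∀ g : G, (χ : G → ℂ) g = (χ : G → ℂ) 1 → g = 1) (n : ℕ) (hdeg : Cfsg.charDegree (χ : G → ℂ) = p ^ n) : Cfsg.blockDefect p (Cfsg.blockOf M (χ : G → ℂ)) ≤ a - b ∧ (IsMulCommutative ↥(P : Subgroup G) → Cfsg.blockDefect p (Cfsg.blockOf M (χ : G → ℂ)) = 0) := by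
  classical
  have hp : p.Prime := Fact.out
  have hB := isPBlock_blockOf (M := M) χ
  have hχ := self_mem_blockOf hM χ
  have key : blockDefect p (blockOf M χ.1) ≤ a - b := by
    obtain ⟨ψ, hψ, hmin⟩ := exists_minNu_eq (p := p) ⟨χ, hχ⟩
    have e1 := blockDefect_add_minNu (p := p) ⟨χ, hχ⟩
    have e2 : (Nat.card G).factorization p = a := by
      have := P.card_eq_multiplicity
      rw [ha] at this
      exact (Nat.pow_right_injective hp.two_le this).symm
    suffices b ≤ (charDegree ψ.1).factorization p by omega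
    let f : center P →* G := (P : Subgroup G).subtype.comp (center P).subtype
    have hf : Function.Injective f := Subtype.val_injective.comp Subtype.val_injective
    have := Fintype.ofFinite (center P)
    obtain ⟨m, hm⟩ := inner_char_char (char_comp (char_of_irr ψ.2) f) char_one
    rw [inner_one_right, hb, inv_mul_eq_iff_eq_mul₀ (by simp [hp.ne_zero])] at hm
    have h1 : ∀ z, z ≠ 1 → v M (ψ.1 (f z)) < v M (ψ.1 1) := fun z hz => by
      have hi : ¬ p ∣ (centralizer ({f z} : Set G)).index := fun h => P.not_dvd_index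
        (h.trans (index_dvd_of_le fun x hx => mem_centralizer_singleton_iff.2
          (congrArg Subtype.val (mem_center_iff.1 z.2 ⟨x, hx⟩))))
      have h0 : χ.1 (f z) = 0 := by
        refine (eq_zero_or_mem_charCenter_of_coprime χ.2 (irr_apply_one_eq χ.2) (f z)
          (hdeg ▸ (hp.coprime_iff_not_dvd.2 hi).pow_left n)).resolve_right fun h => hz (hf ?_)
        rw [charCenter_eq_center χ.2 (eq_bot_iff.2 fun g hg => hfaith g (apply_of_mem_charKer hg)),
          hZ] at h
        rw [mem_bot.1 h, map_one]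
      have h2 : lam M ψ.1 (classSum (k M) (f z)) = 0 := by
        rw [← lam_eq_of_mem hM hB hχ hψ]
        exact by_contra fun h => apply_ne_zero_of_lam_ne_zero h h0
      have h3 := v_index_mul_le (M := M) ψ (f z)
      have h4 := mt (lam_classSum_ne_zero_iff (M := M) ψ (f z)).2 (not_not.2 h2)
      rw [(v_natCast_eq_one_iff hM _).2 hi, one_mul] at h3 h4
      exact lt_of_le_of_ne h3 h4
    have h2 : v M (∑ z, ψ.1 (f z)) = v M (ψ.1 1) := by
      rw [← Finset.add_sum_erase _ _ (Finset.mem_univ 1), map_one]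
      exact Valuation.map_add_eq_of_lt_left _ (Valuation.map_sum_lt _ (v_irr_one_ne_zero ψ)
        fun z hz => h1 z (Finset.mem_erase.1 hz).1)
    rw [hm, v_irr_one hM, map_mul, Nat.cast_pow, map_pow] at h2
    exact (v_p_pow_le_iff hM).1 (h2 ▸ mul_le_of_le_one_right' (mem_O_iff.1 (natCast_mem_O m)))
  refine ⟨key, fun hc => ?_⟩
  have : center P = ⊤ := eq_top_iff.2 fun x _ => mem_center_iff.2 fun y => hc.is_comm.comm y x
  rw [this, card_top, ha] at hb
  have := Nat.pow_right_injective hp.two_le hb
  omega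

end Cfsg.Agent.S4730
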