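import Cfsg.Statements.S4731
import Cfsg.Agent.Lib.Block.BlkInt

set_option autoImplicit false
open Cfsg

namespace Cfsg.Agent.S4731
open Cfsg MonoidAlgebra CA.BlkAlg CA.BlkVal CA.BlkOmega CA.BlkRed CA.BlkCore CA.BlkDefect CA.BlkInd CA.BlkHeight CA.SylIn CA.H12PPart CChar.CharFun CChar.CharOrth Subgroup CA.BlkKer CChar.CharKer CA.BlkZero CChar.CharInt CA.BlkReg CA.BlkGal CA.BlkQuo CA.BlkBas CA.BlkIdem CA.BlkIBr CChar.CharGen CA.BlkCov CA.H12Cover CA.Clif CA.BlkInt

/-- Let p ≠ q be primes, M_p and M_q maximal ideals of the algebraic integers containing p and q respectively, and G a finite group with no element of order pq; let q^b be the q-part of the order of G. For a p-block B_p (relative to M_p), a q-block B_q (relative to M_q) and a p-singular element y, the sum of χ(1)χ(y) over the irreducible characters χ lying in both B_p and B_q is q^b times an algebraic integer. -/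
theorem result {G : Type*} [Group G] [Finite G] (p q : ℕ) [Fact p.Prime] [Fact q.Prime] (hpq : p ≠ q) (Mp Mq : Ideal Cfsg.AlgInt) (hMp : Cfsg.IsPModular p Mp) (hMq : Cfsg.IsPModular q Mq) (hno : ∀ g : G, orderOf g ≠ p * q) (b : ℕ) (hb : (Nat.card G).factorization q = b) (Bp : Set (Cfsg.IrrCharacter G)) (hBp : Cfsg.IsPBlock Mp Bp) (Bq : Set (Cfsg.IrrCharacter G)) (hBq : Cfsg.IsPBlock Mq Bq) (y : G) (hy : p ∣ orderOf y) : ∃ ω : Cfsg.AlgInt, ∑ᶠ χ ∈ Bp ∩ Bq, (Cfsg.charDegree (χ : G → ℂ) : ℂ) * (χ : G → ℂ) y = (q : ℂ) ^ b * (ω : ℂ) := by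
  classical
  have hp := hMp.1
  have hq := hMq.1
  have hu := isPPart_pPart hp y
  have hC : ¬ q ∣ Nat.card (centralizer ({pPart p y} : Set G)) := fun hd => by
    obtain ⟨x, hx⟩ := exists_prime_orderOf_dvd_card' q hd
    rw [← orderOf_coe] at hx
    obtain ⟨n, hn⟩ := orderOf_pPart hp y
    have hn0 : n ≠ 0 := fun h0 => by
      rw [h0, pow_zero, orderOf_eq_one_iff, pPart_eq_one_iff hp] at hn
      exact hn hy
    have h1 : orderOf (pPart p y ^ (orderOf (pPart p y) / p)) = p :=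
      orderOf_pow_orderOf_div (orderOf_pos _).ne' (hn ▸ dvd_pow_self p hn0)
    have hc : Commute (pPart p y ^ (orderOf (pPart p y) / p)) x :=
      (Commute.symm (mem_centralizer_singleton_iff.1 x.2)).pow_left _
    refine hno _ ((hc.orderOf_mul_eq_mul_orderOf_of_coprime ?_).trans (by rw [h1, hx]))
    rw [h1, hx]
    exact (Nat.coprime_primes hp hq).2 hpq
  obtain ⟨a, -, ha⟩ := exists_nagao hMp (isSat_of_isPBlock hMp hBp) hu
  have h1 : ∑ᶠ χ ∈ Bp ∩ Bq, (charDegree χ.1 : ℂ) * χ.1 y =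
      Nat.card G * (fB Bq * (single y 1 * emb _ (fB a))).coeff 1 := by
    rw [coeff_fB_mul, mul_inv_cancel_left₀ (Nat.cast_ne_zero.2 Nat.card_pos.ne'),
      CA.H12Orth.finsum_mem_irr, Finset.sum_filter, Finset.sum_filter]
    refine Finset.sum_congr rfl fun χ _ => ?_
    rw [inv_one, ← one_def, mul_one, ha, ← irr_apply_one_eq χ.2]
    by_cases h1 : χ ∈ Bp <;> by_cases h2 : χ ∈ Bq <;> simp [h1, h2]
  have hq0 : (q : ℂ) ^ b ≠ 0 := pow_ne_zero _ (Nat.cast_ne_zero.2 hq.ne_zero)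
  refine ⟨⟨(∑ᶠ χ ∈ Bp ∩ Bq, (charDegree χ.1 : ℂ) * χ.1 y) / (q : ℂ) ^ b,
    isIntegral_of_forall_O hq (n := b) ?_ fun M hM => ?_⟩, by simp only; field_simp⟩
  · rw [mul_div_cancel₀ _ hq0, CA.H12Orth.finsum_mem_irr]
    exact IsIntegral.sum _ fun χ _ => (isIntegral_natCast _).mul (char_isIntegral (char_of_irr χ.2) y)
  · rw [h1, mul_div_right_comm]
    refine mul_mem ?_ (mul_mem (fB_mem_OG hM ((isPBlock_congr hMq hM).1 hBq))
      (mul_mem (single_mem_OG y (one_mem _))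
        (emb_mem_OG _ (fB_mem_OG_of_isSat (isSat_of_not_dvd hM hC a)))) 1)
    rw [div_mem_iff hq0, v_natCast hM Nat.card_pos.ne', hb, map_pow]

end Cfsg.Agent.S4731
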