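import Cfsg.Statements.S4732
import Cfsg.Agent.Lib.Block.H10BFJ
import Cfsg.Agent.S4469

set_option autoImplicit false
universe u v
open Cfsg

namespace Cfsg.Agent.S4732
open CA.H10BFJ CA.BlkVal CChar.CharKer CChar.CharFun Subgroup

/-- A monotone form of the bound for complex linear groups. -/
def J (d : ℕ) : ℕ :=
  (Finset.range (d + 1)).sup fun n => Nat.factorial n * 12 ^ (n * (Nat.primeCounting (n + 1) + 1))

theorem jor {G : Type*} [Group G] [Finite G] {χ : G → ℂ} (hχ : IsCharacter G χ)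
    (hf : ∀ g : G, χ g = χ 1 → g = 1) {d : ℕ} (hd : charDegree χ ≤ d) :
    ∃ A : Subgroup G, (∀ x ∈ A, ∀ y ∈ A, x * y = y * x) ∧ A.index ≤ J d := by
  obtain ⟨A, -, h1, h2⟩ := Cfsg.Agent.S4469.result χ hχ hf _ rfl
  exact ⟨A, h1, h2.trans (Finset.le_sup (f := fun n => Nat.factorial n *
    12 ^ (n * (Nat.primeCounting (n + 1) + 1))) (Finset.mem_range.mpr (Nat.lt_succ_of_le hd)))⟩

/-- Let p be a prime. There is a function f of two natural-number arguments such that every finite group G admitting a faithful representation of degree n over a field of characteristic p, with Sylow p-subgroups of order p^m, has a normal abelian subgroup A with [G : A] < f(m, n). -/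
theorem result (p : ℕ) [Fact p.Prime] : ∃ f : ℕ → ℕ → ℕ, ∀ (G : Type u) [Group G] [Finite G] (F : Type v) [Field F] [CharP F p] (n : ℕ) (ρ : Representation F G (Fin n → F)), Function.Injective ρ → ∀ m : ℕ, (Nat.card G).factorization p = m → ∃ A : Subgroup G, A.Normal ∧ IsMulCommutative A ∧ A.index < f m n := by
  refine ⟨fun m n => (J (1 + 2 * n ^ 2) * (p ^ m * J ((1 + 2 * n ^ 2) ^ (2 * (p ^ m) ^ 2)))).factorial
    + 1, fun G _ _ F _ _ n ρ hρ m hm => ?_⟩
  have hp : p.Prime := Fact.out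
  obtain ⟨M, hM⟩ := exists_isPModular hp
  haveI := charP_k hM
  obtain ⟨σ, hσ⟩ := exists_special (p := p) (k M)
    ((LinearMap.toMatrixAlgEquiv' (R := F) (n := Fin n)).toMulEquiv.toMonoidHom.comp ρ)
    ((LinearMap.toMatrixAlgEquiv' (R := F) (n := Fin n)).injective.comp hρ)
  obtain ⟨Θ, hΘ, hd, hk⟩ := exists_proj hM σ hσ
  rw [hm] at hd
  set K := charKer Θ
  have hK : ¬ p ∣ Nat.card K := fun h => by
    obtain ⟨x, hx⟩ := exists_prime_orderOf_dvd_card' p h
    exact hk x (apply_of_mem_charKer x.2) (by rw [orderOf_coe, hx])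
  have hΘ' := char_deflate hΘ (le_refl K)
  obtain ⟨A0, hA0, hi0⟩ := jor hΘ' (fun g hg => by
    rw [← mem_charKer hΘ', charKer_deflate_self hΘ] at hg
    exact hg) (d := (1 + 2 * n ^ 2) ^ (2 * (p ^ m) ^ 2)) (by
      have : deflate K Θ 1 = Θ 1 := deflate_mk (le_refl K) 1
      simpa [charDegree, this] using hd)
  obtain ⟨Q⟩ : Nonempty (Sylow p A0) := inferInstance
  haveI : (Q : Subgroup A0).Normal := ⟨fun x hx g => by
    rw [show g * x = x * g from Subtype.ext (hA0 _ g.2 _ x.2), mul_inv_cancel_right]; exact hx⟩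
  obtain ⟨H, hH⟩ := Subgroup.exists_right_complement'_of_coprime Q.card_coprime_index
  have hQ : Nat.card Q ≤ p ^ m := by
    rw [Q.card_eq_multiplicity, ← hm]
    refine Nat.pow_le_pow_right hp.pos ?_
    exact (Nat.factorization_le_iff_dvd Nat.card_pos.ne' Nat.card_pos.ne').mpr
      ((card_subgroup_dvd_card A0).trans (card_quotient_dvd_card K)) p
  set L := (H.map A0.subtype).comap (QuotientGroup.mk' K) with hL
  have hLi : L.index ≤ p ^ m * J ((1 + 2 * n ^ 2) ^ (2 * (p ^ m) ^ 2)) := by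
    rw [hL, index_comap_of_surjective _ (QuotientGroup.mk'_surjective K), index_map_subtype,
      hH.index_eq_card]
    exact Nat.mul_le_mul hQ hi0
  have hLc : ¬ p ∣ Nat.card L := fun h => by
    obtain ⟨x, hx⟩ := exists_prime_orderOf_dvd_card' p h
    obtain ⟨y, hy, hxy⟩ := x.2
    have h1 : orderOf (⟨y, hy⟩ : H) ∣ p := by
      rw [← orderOf_coe, ← orderOf_coe, show ((y : A0) : G ⧸ K) = QuotientGroup.mk' K x from hxy,
        ← hx, ← orderOf_coe]
      exact orderOf_map_dvd _ _
    rcases (Nat.dvd_prime hp).mp h1 with h2 | h2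
    · have h3 : y = 1 := congrArg Subtype.val (orderOf_eq_one_iff.mp h2)
      have h4 : (x : G) ∈ K := by
        rw [← QuotientGroup.eq_one_iff, ← QuotientGroup.mk'_apply, ← hxy, h3, map_one]
      exact hk x (apply_of_mem_charKer h4) (by rw [orderOf_coe, hx])
    · apply Q.not_dvd_index
      rw [hH.symm.index_eq_card, ← h2]
      exact orderOf_dvd_natCard _
  obtain ⟨Ψ, hΨ, hd', hf'⟩ := exists_faithful hM hLc (σ.comp L.subtype)
    (hσ.comp Subtype.val_injective)
  obtain ⟨A, hA, hi⟩ := jor hΨ hf' hd'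
  set B := A.map L.subtype with hB
  have hBi : B.index ≤ J (1 + 2 * n ^ 2) * (p ^ m * J ((1 + 2 * n ^ 2) ^ (2 * (p ^ m) ^ 2))) := by
    rw [hB, index_map_subtype]
    exact Nat.mul_le_mul hi hLi
  refine ⟨B.normalCore, inferInstance, ⟨⟨fun x y => Subtype.ext ?_⟩⟩, Nat.lt_succ_of_le ?_⟩
  · obtain ⟨a, ha, h1⟩ := B.normalCore_le x.2
    obtain ⟨b, hb, h2⟩ := B.normalCore_le y.2
    rw [coe_mul, coe_mul, ← h1, ← h2, ← map_mul, hA a ha b hb, map_mul]
  · refine le_trans (Nat.le_of_dvd (Nat.factorial_pos _) ?_) (Nat.factorial_le hBi)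
    rw [normalCore_eq_ker, index_ker, index_eq_card, ← Nat.card_perm]
    exact card_subgroup_dvd_card _

end Cfsg.Agent.S4732
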