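import Cfsg.Statements.S4734
import Cfsg.Agent.Lib.Block.BlkPi

set_option autoImplicit false
open Cfsg

namespace Cfsg.Agent.S4734
open Cfsg MonoidAlgebra CA.BlkAlg CA.BlkVal CA.BlkOmega CA.BlkRed CA.BlkCore CA.BlkDefect CA.BlkInd CA.BlkHeight CA.SylIn CA.H12PPart CChar.CharFun CChar.CharOrth Subgroup CA.BlkKer CChar.CharKer CA.H11Amb CA.H11Def CA.H11Pair CA.H11Max CA.H11Brg CA.BlkFirst CA.BlkPi

/-- Let p be a prime, π a set of primes containing p, M a maximal ideal of the algebraic integers containing p, B a p-block of the finite group G with defect group D, and B₁ the block of N_G(D) with defect group D inducing B. Write O_π'(X) for the largest normal subgroup of X whose order has no prime divisor in π, and suppose every element of O_π'(N_G(D)) lies in the kernel of every member of B₁. Let G₀ be a subgroup and B₀ a block of G₀ with defect group D₀ such that C_G(D₀) ≤ G₀ and B₀ induces B. Then every element of O_π'(G₀) lies in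 the kernel of every member of B₀. -/
theorem result {G : Type*} [Group G] [Finite G] (p : ℕ) [Fact p.Prime] (M : Ideal Cfsg.AlgInt) (hM : Cfsg.IsPModular p M) (π : Set ℕ) (hpπ : p ∈ π) (B : Set (Cfsg.IrrCharacter G)) (hB : Cfsg.IsPBlock M B) (D : Subgroup G) (hBD : Cfsg.IsDefectGroup p M B D) (B₁ : Set (Cfsg.IrrCharacter ↥(Subgroup.normalizer (D : Set G)))) (hB₁ : Cfsg.IsInducedBlock M (Subgroup.normalizer (D : Set G)) B₁ B) (hB₁D : Cfsg.IsDefectGroup p M B₁ (D.subgroupOf (Subgroup.normalizer (D : Set G)))) (hker : ∀ n : ↥(Subgroup.normalizer (D : Set G)), n ∈ Cfsg.piCore {q | q ∉ π} ↥(Subgroup.normalizer (D : Set G)) → n ∈ Cfsg.blockKer B₁) (G₀ : Subgroup G) (B₀ : Set (Cfsg.IrrCharacter ↥G₀)) (hB₀ : Cfsg.IsInducedBlock M G₀ B₀ B) (D₀ : Subgroup ↥G₀) (hD₀ : Cfsg.IsDefectGroup p M B₀ D₀) (hC : Subgroup.centralizer ((D₀.map G₀.subtype : Subgroup G) : Set G) ≤ G₀) : ∀ x : ↥G₀, x ∈ Cfsg.piCore {q | q ∉ π} ↥G₀ → x ∈ Cfsg.blockKer B₀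 := by
  haveI := charP_k hM
  have hp : (p : k M) = 0 := CharP.cast_eq_zero _ p
  have hσ : p ∉ {q | q ∉ π} := fun h => h hpπ
  have hb := blk_ab hM hB₀.1
  have hD := (isDefectGroup_iff_map hM hB₀.1).mp hD₀
  obtain ⟨f, hf⟩ := exists_mx hp hb hD
  have hfb := hf.pr.blk
  rw [inf_eq_right.mpr hC] at hfb
  have h1 := (isInducedBlock_iff_pair hM hf.pr.pg hf.pr.le hC hB₀.1 hB hfb hf.of).mp hB₀
  have h2 := kr_of_corr hM hσ hB hBD hB₁ hker ⟨le_top, hf.pr.pg, by rwa [top_inf_eq]⟩ h1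
  have h3 := CA.Core.le_normalizer_map_piCore (π := {q | q ∉ π}) G₀
  intro x hx
  exact mem_blockKer_of_kr hM hB₀.1 (map_subtype_le _) h3 (not_dvd_of_pi hσ)
    (kr_of_br hb (map_subtype_le _) h3 (not_dvd_of_pi hσ) hf.pr.pg (hf.pr.le.trans h3)
      (fixed_anti hf.pr.le hb.fixed) hf.of hfb.ne (h2.mono (inf_le_OC hC))) ⟨x, hx, rfl⟩

end Cfsg.Agent.S4734
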