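import Cfsg.Statements.S4735
import Cfsg.Agent.Lib.Block.BlkInt

set_option autoImplicit false
open Cfsg

namespace Cfsg.Agent.S4735
open Cfsg MonoidAlgebra CA.BlkAlg CA.BlkVal CA.BlkOmega CA.BlkRed CA.BlkCore CA.BlkDefect CA.BlkInd CA.BlkHeight CA.SylIn CA.H12PPart CChar.CharFun CChar.CharOrth Subgroup CA.BlkKer CChar.CharKer CA.BlkZero CChar.CharInt CA.BlkReg CA.BlkGal CA.BlkQuo CA.BlkBas CA.BlkIdem CA.BlkIBr CChar.CharGen CA.BlkCov CA.H12Cover CA.Clif CA.BlkInt

/-- Let p be a prime, M a maximal ideal of the algebraic integers containing p, G a finite group, H = O_p'(G) and Ḡ = G/H. For x ∈ G write λ(G, x) for the sum of |χ(x)|^2 over the irreducible characters χ in the principal p-block of G. Then λ(G, x) is a positive integer, λ(G, x) = λ(Ḡ, x̄) where x̄ is the image of x, and λ(G, x) ≤ #C_Ḡ(x̄). Moreover λ(G, 1) = [G : H] if and only if the principal block is the only p-block of Ḡ. -/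
theorem result {G : Type*} [Group G] [Finite G] (p : ℕ) [Fact p.Prime] (M : Ideal Cfsg.AlgInt) (hM : Cfsg.IsPModular p M) (x : G) : (∃ n : ℕ, 0 < n ∧ ∑ᶠ χ ∈ Cfsg.principalBlock M G, Complex.normSq ((χ : G → ℂ) x) = n) ∧ ∑ᶠ χ ∈ Cfsg.principalBlock M G, Complex.normSq ((χ : G → ℂ) x) = ∑ᶠ ψ ∈ Cfsg.principalBlock M (G ⧸ Cfsg.pPrimeCore p G), Complex.normSq ((ψ : G ⧸ Cfsg.pPrimeCore p G → ℂ) (QuotientGroup.mk x)) ∧ ∑ᶠ χ ∈ Cfsg.principalBlock M G, Complex.normSq ((χ : G → ℂ) x) ≤ (Nat.card ↥(Subgroup.centralizer ({(QuotientGroup.mk x : G ⧸ Cfsg.pPrimeCore p G)} : Set (G ⧸ Cfsg.pPrimeCore p G))) : ℝ) ∧ ((∑ᶠ χ ∈ Cfsg.principalBlock M G, Cfsg.charDegree (χ : G → ℂ) ^ 2) = (Cfsg.pPrimeCore p G).index ↔ ∀ B : Set (Cfsg.IrrCharacter (G ⧸ Cfsg.pPrimeCore p G)), Cfsg.IsPBlock M B → B = Cfsg.principalBlock M (G ⧸ Cfsg.pPrimeCore p G)) := by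
  classical
  have hp : p.Prime := Fact.out
  have hφ := QuotientGroup.mk'_surjective (pPrimeCore p G)
  have hK : ¬ p ∣ Nat.card (QuotientGroup.mk' (pPrimeCore p G)).ker := by
    rw [QuotientGroup.ker_mk']; exact not_dvd_card_pPrimeCore hp
  have him : ∀ {R : Type} [AddCommMonoid R] (F : IrrCharacter G → R),
      ∑ᶠ χ ∈ principalBlock M G, F χ = ∑ᶠ ψ ∈ principalBlock M (G ⧸ pPrimeCore p G),
        F (infl hφ ψ) := fun F => by
    rw [← image_principal_of_not_dvd hφ hM hK, finsum_mem_image (infl_injective hφ).injOn]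
  have h2 := him fun χ => Complex.normSq (χ.1 x)
  refine ⟨?_, h2, ?_, ?_⟩
  · rw [CA.H12Orth.finsum_mem_irr]
    obtain ⟨n, hn⟩ := exists_int_of_pw (f := fun χ : IrrCharacter G => χ.1 x * χ.1 x⁻¹)
      (Finset.univ.filter (· ∈ principalBlock M G))
      (fun k hk χ => by simp [pw_mem_principal_iff])
      (fun χ _ => (char_isIntegral (char_of_irr χ.2) _).mul (char_isIntegral (char_of_irr χ.2) _))
      fun σ k hk h χ _ => by rw [map_mul, h (char_of_irr χ.2), h (char_of_irr χ.2)]; rfl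
    have h3 : ∑ χ with χ ∈ principalBlock M G, Complex.normSq (χ.1 x) = n := by
      apply Complex.ofReal_injective
      rw [Complex.ofReal_intCast, ← hn, Complex.ofReal_sum]
      exact Finset.sum_congr rfl fun χ _ => by
        rw [char_apply_inv (char_of_irr χ.2), Complex.mul_conj]
    have h4 : (0 : ℝ) < n := by
      rw [← h3]
      exact Finset.sum_pos' (fun _ _ => Complex.normSq_nonneg _)
        ⟨irrOne G, by simpa using irrOne_mem_principalBlock hM, by simp [irrOne_apply]⟩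
    have h5 : 0 < n := by exact_mod_cast h4
    refine ⟨n.toNat, by omega, ?_⟩
    rw [h3]
    exact_mod_cast (Int.toNat_of_nonneg h5.le).symm
  · rw [h2, CA.H12Orth.finsum_mem_irr, ← sum_irr_norm_sq]
    simp only [Complex.normSq_eq_norm_sq]
    exact Finset.sum_le_sum_of_subset_of_nonneg (Finset.filter_subset _ _) fun _ _ _ => sq_nonneg _
  · rw [him, CA.H12Orth.finsum_mem_irr, index_eq_card, ← sum_charDegree_sq]
    simp only [charDegree_infl]
    refine ⟨fun h B hB => ?_, fun h => Finset.sum_congr (Finset.filter_true_of_mem fun ψ _ => ?_)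
      fun _ _ => rfl⟩
    · obtain ⟨ψ, hψ⟩ := block_nonempty hM hB
      refine block_eq_of_mem hM hB isPBlock_principalBlock hψ (by_contra fun h0 => ?_)
      refine absurd h (ne_of_lt (Finset.sum_lt_sum_of_subset (Finset.filter_subset _ _)
        (Finset.mem_univ ψ) (by simpa using h0) (pow_pos (charDegree_pos ψ.2) _)
        fun _ _ _ => Nat.zero_le _))
    · rw [← h _ (isPBlock_blockOf ψ)]
      exact self_mem_blockOf hM ψ

end Cfsg.Agent.S4735
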