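import Cfsg.Statements.S4736
import Cfsg.Agent.Lib.Loc.PQSol

set_option autoImplicit false
open Cfsg

namespace Cfsg.Agent.S4736

open Cfsg CA CA.PF CA.PQSol CA.EqO CA.H12Deg Subgroup
open CA.BG hiding cj cj_one cj_mul cj_inv_cj cj_cj_inv mem_cent1
open scoped commutatorElement

/-- Let p be a prime, M a maximal ideal of the algebraic integers containing p, and G a finite p-solvable group with Sylow p-subgroup P. Then P is abelian if and only if every irreducible character in the principal p-block of G has height zero. -/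
theorem result {G : Type*} [Group G] [Finite G] (p : ℕ) [Fact p.Prime] (M : Ideal Cfsg.AlgInt) (hM : Cfsg.IsPModular p M) (hsolv : Cfsg.IsPSolvable p G) (P : Sylow p G) : IsMulCommutative P ↔ ∀ χ ∈ Cfsg.principalBlock M G, Cfsg.blockHeight p (Cfsg.principalBlock M G) (χ : G → ℂ) = 0 := by
  haveI := Fintype.ofFinite G
  have hp : p.Prime := Fact.out
  set A := pPrimeCore p G with hA
  have hf := QuotientGroup.mk'_surjective A
  haveI := Fintype.ofFinite (G ⧸ A)
  have hP := syl_map' hp hf (syl_top hp P)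
  have hs := H12PSolv.psolv_quotient hsolv A
  have h0 : sInf ((fun ψ : IrrCharacter G => (charDegree (ψ : G → ℂ)).factorization p) '' principalBlock M G) = 0 :=
    Nat.sInf_eq_zero.2 (.inl ⟨_, (b0_cf hM hsolv (triv_irr ⊤)).2 (by rw [cfker_triv]; exact le_top), by
      simp only [deg_eq (χ := triv (⊤ : Subgroup G)) (n := 1) (by simp)]; simp⟩)
  have h1 : ∀ χ : IrrCharacter G, blockHeight p (principalBlock M G) χ.1 = 0 ↔ ¬ p ∣ charDegree χ.1 := fun χ => by
    rw [blockHeight, h0, Nat.sub_zero, Nat.factorization_eq_zero_iff]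
    simp [hp, (deg_pos (mem_irr_top.2 χ.2)).ne']
  simp only [h1]
  refine ⟨fun h χ hχ => ?_, fun h => ?_⟩
  · have hV : IsPi {p} (pCore p (G ⧸ A)) := isPi_of_isPGroup hp Core.isPGroup_pCore
    have h2 := (comm_iff_le_cent.1 (comm_map h (QuotientGroup.mk' A))).trans
      ((cent_anti (hP.le_of_norm' hV le_top (top_norm _ _))).trans
        (H12PSolv.centralizer_pCore_le hs Core.pPrimeCore_quotient_pPrimeCore))
    have h3 := le_antisymm h2 (hP.le_of_norm' hV le_top (top_norm _ _))
    obtain ⟨ψ, h4, h5⟩ := CChar.CharKer.irr_exists_quotient χ.2 A fun g hg =>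
      (irr_mem_cfker (mem_irr_top.2 χ.2)).1 ((b0_cf hM hsolv (mem_irr_top.2 χ.2)).1 hχ hg)
    have h6 : charDegree ψ = charDegree χ.1 := deg_congr (h5 1)
    exact fun hd => hP.not_dvd hp ((h6 ▸ hd).trans (ito (h3 ▸ nrm_top _) (comm_map h _) (mem_irr_top.2 h4)))
  · obtain ⟨Q, h2, h3, h4⟩ := ito_syl hp hs fun χ hχ => by
      have h1 := mem_irr_top.2 (CChar.CharKer.irr_inflate (mem_irr_top.1 hχ))
      have h2 : charDegree (fun g : G => χ (g : G ⧸ A)) = charDegree χ := deg_congr rfl
      exact h2 ▸ h _ ((b0_cf hM hsolv h1).2 fun x hx => (irr_mem_cfker h1).2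
        (by rw [(QuotientGroup.eq_one_iff x).2 hx]; rfl))
    have h5 := comm_iff_der_eq_bot.1 h4
    have h6 := commutator_mono (h2.le_of_normal h3.le_normalizer hP.pi le_top) (h2.le_of_normal h3.le_normalizer hP.pi le_top)
    rw [h5, ← map_commutator, le_bot_iff, Subgroup.map_eq_bot_iff, QuotientGroup.ker_mk'] at h6
    exact comm_iff_der_eq_bot.2 (BG.eq_bot_mono (le_inf (der_le _) h6) ((syl_top hp P).pi.inf_eq_bot pi_core))

end Cfsg.Agent.S4736
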