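import Cfsg.Statements.S4955
import Cfsg.Agent.Lib.Char.H10FS
import Cfsg.Agent.Lib.Char.CharMisc
import Cfsg.Agent.Lib.Block.BlkHeight

set_option autoImplicit false
open Cfsg

namespace Cfsg.Agent.S4955
open CA.H10FS CA.MatRep CA.H11FS CA.Clif CA.Gall CA.Ind2 CA.Ext CChar.CharFun CChar.CharOrth CChar.CharInt CChar.CharProd CChar.CharKer CA.Ind Subgroup

theorem k_congr {A B : Type*} [Group A] [Group B] [Finite A] (e : A ≃* B) :
    Nat.card (ConjClasses A) = Nat.card (ConjClasses B) := by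
  have a := card_comm_eq_card_conjClasses_mul_card A
  have b := card_comm_eq_card_conjClasses_mul_card B
  rw [← Nat.card_congr e.toEquiv] at b
  have c : Nat.card {p : A × A // Commute p.1 p.2} = Nat.card {p : B × B // Commute p.1 p.2} := by
    refine Nat.card_congr ((Equiv.prodCongr e.toEquiv e.toEquiv).subtypeEquiv fun p => ?_)
    exact ⟨fun h => h.map e, fun h => Commute.of_map e.injective h⟩
  rw [c, b] at a
  exact (Nat.eq_of_mul_eq_mul_right Nat.card_pos a).symm

/-- Let X be a finite group with an abelian normal Sylow p-subgroup V (a normal p-subgroup of index prime to p in which any two elements commute), and let G be a complement to V in X. Then for every v in V, writing C for the centralizer of v in G, the number k(X) of conjugacy classes of X satisfies k(X) ≤ (order of C)·(order of V) − ((order of G) − k(G)); the statement is written with the subtracted term moved to the left. In particular, if some v in V is centralized by no nonidentity element of G, then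 k(X) is at most the order of V. -/
theorem result {X : Type*} [Group X] [Finite X] (p : ℕ) [Fact p.Prime] (V : Subgroup X) [V.Normal] (hVp : IsPGroup p V) (hidx : ¬ p ∣ V.index) (hab : ∀ a ∈ V, ∀ b ∈ V, a * b = b * a) (G : Subgroup X) (hGV : Subgroup.IsComplement' V G) (v : X) (hv : v ∈ V) : Nat.card (ConjClasses X) + Nat.card G ≤ Nat.card ↥(G ⊓ Subgroup.centralizer ({v} : Set X)) * Nat.card V + Nat.card (ConjClasses G) := by
  classical
  haveI : Fintype X := Fintype.ofFinite _
  haveI : Fintype V := Fintype.ofFinite _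
  have hp : p.Prime := Fact.out
  obtain ⟨M, hM⟩ := CA.BlkVal.exists_isPModular hp
  have hne : ∀ χ : IrrCharacter X, ∀ s ∈ V, χ.1 s ≠ 0 := by
    intro χ s hs h0
    have hr : IsCharacter V (fun n : V => χ.1 n) := char_comp (char_of_irr χ.2) V.subtype
    obtain ⟨θ, hθ, hi⟩ := exists_irr_inner_ne_zero (char_classFun hr) (fun h => by
      have := congrFun h 1
      exact irr_apply_one_ne_zero χ.2 (by simpa using this))
    obtain ⟨e, he, h1⟩ := CA.Ext.exists_dvd_index hθ χ.2 hi
    rw [irr_apply_one_of_comm (fun a b => Subtype.ext (hab _ a.2 _ b.2)) hθ, mul_one] at h1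
    obtain ⟨n, hn⟩ := IsPGroup.iff_orderOf.1 hVp ⟨s, hs⟩
    have h2 := CA.BlkHeight.res_char_pElt hM (char_of_irr χ.2) (x := s)
      ⟨n, by rw [← hn]; exact (Subgroup.orderOf_mk s hs).symm⟩
    rw [h0, h1, CA.BlkVal.res_zero, CA.BlkVal.res_natCast, eq_comm,
      CA.BlkVal.natCast_k_eq_zero_iff hM] at h2
    exact hidx (h2.trans he)
  let S : Finset X := Finset.univ.filter fun s => Subgroup.zpowers s = Subgroup.zpowers v
  have hvS : v ∈ S := by simp [S]
  have hSV : ∀ s ∈ S, s ∈ V := fun s hs => by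
    have h := (Finset.mem_filter.1 hs).2
    exact (Subgroup.zpowers_le.2 hv) (h ▸ Subgroup.mem_zpowers s)
  have hS : ∀ s ∈ S, ∀ k : ℕ, k.Coprime (Nat.card X) → s ^ k ∈ S := by
    intro s hs k hk
    have h := (Finset.mem_filter.1 hs).2
    refine Finset.mem_filter.2 ⟨Finset.mem_univ _, ?_⟩
    rw [← h]
    apply le_antisymm (Subgroup.zpowers_le.2 (Subgroup.npow_mem_zpowers s k))
    rw [Subgroup.zpowers_le, mem_zpowers_pow_iff]
    exact Nat.Coprime.coprime_dvd_right (orderOf_dvd_natCard s) hk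
  have hC : ∀ s ∈ S, Subgroup.centralizer ({s} : Set X) = Subgroup.centralizer ({v} : Set X) := by
    intro s hs
    have h := (Finset.mem_filter.1 hs).2
    have key : ∀ a b : X, a ∈ Subgroup.zpowers b →
        Subgroup.centralizer ({b} : Set X) ≤ Subgroup.centralizer ({a} : Set X) := by
      rintro a b ⟨k, rfl⟩ x hx
      rw [Subgroup.mem_centralizer_singleton_iff] at hx ⊢
      exact ((show Commute x b from hx).zpow_right k).eq
    exact le_antisymm (key _ _ (h ▸ Subgroup.mem_zpowers v)) (key _ _ (h ▸ Subgroup.mem_zpowers s))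
  have hCc : Nat.card (Subgroup.centralizer ({v} : Set X)) =
      Nat.card ↥(G ⊓ Subgroup.centralizer ({v} : Set X)) * Nat.card V := by
    rw [← Nat.card_prod]
    symm
    refine Nat.card_eq_of_bijective (fun q => ⟨q.2 * q.1, Subgroup.mul_mem _
      (Subgroup.mem_centralizer_singleton_iff.2 (hab _ q.2.2 _ hv)) q.1.2.2⟩) ⟨?_, ?_⟩
    · rintro ⟨a, b⟩ ⟨c, d⟩ h
      have h1 : (b : X) * a = d * c := congrArg Subtype.val h
      have h2 := hGV.1 (a₁ := (b, ⟨a, a.2.1⟩)) (a₂ := (d, ⟨c, c.2.1⟩)) h1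
      simp only [Prod.mk.injEq, Subtype.mk.injEq] at h2
      exact Prod.ext (Subtype.ext h2.2) h2.1
    · rintro ⟨x, hx⟩
      obtain ⟨⟨u, g⟩, rfl⟩ := hGV.2 x
      refine ⟨(⟨g, g.2, ?_⟩, u), rfl⟩
      exact (Subgroup.mul_mem_cancel_left _
        (Subgroup.mem_centralizer_singleton_iff.2 (hab _ u.2 _ hv))).1 hx
  let A := Finset.univ.filter (fun χ : IrrCharacter X => V ≤ charKer (χ : X → ℂ))
  have hA : A.card = Nat.card (ConjClasses G) := by
    rw [← k_congr hGV.symm.QuotientMulEquiv, ← card_irr, Nat.card_congr (irrQuotientEquiv V),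
      Nat.card_eq_fintype_card, Fintype.card_subtype]
  have hsq : ∑ χ ∈ A, ‖χ.1 1‖ ^ 2 = (Nat.card G : ℝ) := by
    have h := sum_degree_sq_quotient V
    rw [hGV.symm.index_eq_card] at h
    apply Complex.ofReal_injective
    push_cast
    rw [← h]
    refine Finset.sum_congr rfl fun χ _ => ?_
    rw [irr_apply_one_eq χ.2]; simp
  have h1 : ∑ χ : IrrCharacter X, ∑ s ∈ S, ‖χ.1 s‖ ^ 2 =
      S.card * (Nat.card (Subgroup.centralizer ({v} : Set X)) : ℝ) := by
    rw [Finset.sum_comm, Finset.sum_congr rfl (fun s hs => by rw [sum_irr_norm_sq, hC s hs])]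
    simp
  have h2 : ∑ χ ∈ A, ∑ s ∈ S, ‖χ.1 s‖ ^ 2 = S.card * (Nat.card G : ℝ) := by
    rw [← hsq, Finset.mul_sum]
    refine Finset.sum_congr rfl fun χ hχ => ?_
    rw [Finset.sum_congr rfl (g := fun _ => ‖χ.1 1‖ ^ 2) (fun s hs => by
      rw [(mem_charKer (char_of_irr χ.2)).1 ((Finset.mem_filter.1 hχ).2 (hSV s hs))])]
    simp
  have h3 : (Aᶜ.card : ℝ) * S.card ≤ ∑ χ ∈ Aᶜ, ∑ s ∈ S, ‖χ.1 s‖ ^ 2 := by
    have := Finset.card_nsmul_le_sum Aᶜ (fun χ : IrrCharacter X => ∑ s ∈ S, ‖χ.1 s‖ ^ 2) (S.card : ℝ)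
      (fun χ _ => CChar.CharMisc.card_le_sum_norm_sq (char_of_irr χ.2) S hS
        (fun s hs => hne χ s (hSV s hs)))
    simpa using this
  have h4 := Finset.sum_add_sum_compl A (fun χ : IrrCharacter X => ∑ s ∈ S, ‖χ.1 s‖ ^ 2)
  have h5 : A.card + Aᶜ.card = Nat.card (ConjClasses X) := by
    rw [Finset.card_add_card_compl, ← card_irr, Nat.card_eq_fintype_card]
  have hpos : (0 : ℝ) < S.card := by exact_mod_cast Finset.card_pos.2 ⟨v, hvS⟩
  have h6 : (Aᶜ.card : ℝ) + Nat.card G ≤ Nat.card (Subgroup.centralizer ({v} : Set X)) := by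
    apply le_of_mul_le_mul_left _ hpos
    rw [h1, h2] at h4
    nlinarith
  have h7 : Aᶜ.card + Nat.card G ≤ Nat.card (Subgroup.centralizer ({v} : Set X)) := by
    exact_mod_cast h6
  omega

end Cfsg.Agent.S4955
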