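import Cfsg.Statements.S4956
import Mathlib


set_option autoImplicit false
open Cfsg

namespace Cfsg.Agent.S4956

theorem ker_card {X : Type*} [Group X] [Finite X] (V : Subgroup X) [V.Normal]
    (hab : ∀ a ∈ V, ∀ b ∈ V, a * b = b * a) (g h : X) (hc : (Nat.card V).Coprime (Nat.card (Subgroup.closure {g, h} : Subgroup X))) :
    Nat.card {p : V × V // (p.1 : X) * (g * p.2 * g⁻¹) = p.2 * (h * p.1 * h⁻¹)} =
      Nat.card V * Nat.card {v : V // g * v = v * g ∧ h * v = v * h} := by
  classical
  letI : CommGroup V := { (inferInstance : Group V) with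
    mul_comm := fun a b => Subtype.ext (hab _ a.2 _ b.2) }
  set H : Subgroup X := Subgroup.closure {g, h} with hH
  haveI : Fintype H := Fintype.ofFinite _
  let c : X → V →* V := fun x => (MulAut.conjNormal (H := V) x).toMonoidHom
  have hc1 : ∀ x (v : V), ((c x v : V) : X) = x * v * x⁻¹ := fun x v => rfl
  have hcm : ∀ x y (v : V), c (x * y) v = c x (c y v) := fun x y v => Subtype.ext (by
    simp [hc1, mul_assoc])
  let f : V × V →* V := MonoidHom.coprod (MonoidHom.id V / c h) (c g / MonoidHom.id V)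
  have hf : ∀ p : V × V, f p = p.1 / c h p.1 * (c g p.2 / p.2) := fun p => rfl
  let N : V →* V := ∏ a : H, c a
  have hN : ∀ v, N v = ∏ a : H, c a v := fun v => by simp [N, MonoidHom.finset_prod_apply]
  have hNc : ∀ (a : H) v, N (c a v) = N v := by
    intro a v
    rw [hN, hN]
    exact Fintype.prod_equiv (Equiv.mulRight a) _ _ (fun b => by simp [hcm])
  have hcN : ∀ (a : H) v, c a (N v) = N v := by
    intro a v
    rw [hN, map_prod]
    exact Fintype.prod_equiv (Equiv.mulLeft a) _ _ (fun b => by simp [hcm])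
  have hgH : g ∈ H := Subgroup.subset_closure (by simp)
  have hhH : h ∈ H := Subgroup.subset_closure (by simp)
  have hpow : Function.Bijective (fun v : V => v ^ Nat.card H) := (powCoprime hc).bijective
  have hker : N.ker = f.range := by
    ext v
    constructor
    · intro hv
      have key : ∀ a ∈ H, ∀ v : V, v / c a v ∈ f.range := by
        intro a ha
        induction ha using Subgroup.closure_induction with
        | mem x hx =>
          intro v
          rcases hx with rfl | rfl
          · exact ⟨(1, v⁻¹), by rw [hf]; simp [div_eq_mul_inv, mul_comm]⟩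
          · exact ⟨(v, 1), by rw [hf]; simp⟩
        | one => intro v; have : c 1 v = v := Subtype.ext (by simp [hc1]); simp [this]
        | mul x y _ _ hx hy =>
          intro v
          have : v / c (x * y) v = (v / c y v) * (c y v / c x (c y v)) := by rw [hcm]; simp
          rw [this]; exact f.range.mul_mem (hy v) (hx _)
        | inv x _ hx =>
          intro v
          have h1 := f.range.inv_mem (hx (c x⁻¹ v))
          have h2 : c x (c x⁻¹ v) = v := by
            rw [← hcm]; exact Subtype.ext (by simp [hc1])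
          rw [h2] at h1
          simpa using h1
      have h1 : v ^ Nat.card H = ∏ a : H, v / c a v := by
        rw [Finset.prod_div_distrib, ← hN, (MonoidHom.mem_ker).1 hv]
        simp [Nat.card_eq_fintype_card]
      have h2 : v ^ Nat.card H ∈ f.range := by
        rw [h1]; exact Subgroup.prod_mem _ (fun a _ => key a a.2 v)
      have h3 : v ∈ Subgroup.zpowers (v ^ Nat.card H) := by
        rw [mem_zpowers_pow_iff]
        exact (Nat.Coprime.coprime_dvd_left (orderOf_dvd_natCard v) hc).symm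
      exact (Subgroup.zpowers_le.2 h2) h3
    · rintro ⟨p, rfl⟩
      rw [MonoidHom.mem_ker, hf, map_mul, map_div, map_div]
      have a1 := hNc ⟨h, hhH⟩ p.1
      have a2 := hNc ⟨g, hgH⟩ p.2
      simp only at a1 a2
      rw [a1, a2]; simp
  have hrange : Nat.card N.range = Nat.card {v : V // g * v = v * g ∧ h * v = v * h} := by
    refine Nat.card_congr (Equiv.subtypeEquivRight fun v => ?_)
    constructor
    · rintro ⟨w, rfl⟩
      have a1 := congrArg Subtype.val (hcN ⟨g, hgH⟩ w)
      have a2 := congrArg Subtype.val (hcN ⟨h, hhH⟩ w)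
      simp only [hc1] at a1 a2
      exact ⟨mul_inv_eq_iff_eq_mul.1 a1, mul_inv_eq_iff_eq_mul.1 a2⟩
    · rintro ⟨h1, h2⟩
      obtain ⟨w, hw⟩ := hpow.2 v
      simp only at hw
      have hfix : ∀ a ∈ H, c a v = v := by
        intro a ha
        induction ha using Subgroup.closure_induction with
        | mem x hx =>
          rcases hx with rfl | rfl
          · exact Subtype.ext (by rw [hc1, h1]; simp)
          · exact Subtype.ext (by rw [hc1, h2]; simp)
        | one => exact Subtype.ext (by simp [hc1])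
        | mul x y _ _ hx hy => rw [hcm, hy, hx]
        | inv x _ hx =>
          conv_lhs => rw [← hx]
          rw [← hcm]; exact Subtype.ext (by simp [hc1])
      have hfw : ∀ a ∈ H, c a w = w := by
        intro a ha
        apply hpow.1
        simp only
        rw [← map_pow, hw, hfix a ha]
      refine ⟨w, ?_⟩
      rw [hN, ← hw, Finset.prod_congr rfl (fun (a : H) _ => hfw a a.2)]
      simp [Nat.card_eq_fintype_card]
  have hkerf : Nat.card f.ker = Nat.card {p : V × V // (p.1 : X) * (g * p.2 * g⁻¹) = p.2 * (h * p.1 * h⁻¹)} := by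
    refine Nat.card_congr (Equiv.subtypeEquivRight fun p => ?_)
    rw [MonoidHom.mem_ker, hf, div_mul_div_comm, div_eq_one, mul_comm (c h p.1), Subtype.ext_iff]
    rfl
  have e1 := Subgroup.card_eq_card_quotient_mul_card_subgroup f.ker
  have e2 := Subgroup.card_eq_card_quotient_mul_card_subgroup N.ker
  rw [Nat.card_congr (QuotientGroup.quotientKerEquivRange f).toEquiv, Nat.card_prod] at e1
  rw [Nat.card_congr (QuotientGroup.quotientKerEquivRange N).toEquiv, hker, hrange] at e2
  rw [← hkerf]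
  have hpos : 0 < Nat.card f.range := Nat.card_pos
  apply Nat.eq_of_mul_eq_mul_left hpos
  rw [← e1]
  conv_lhs => rw [show Nat.card V * Nat.card V = Nat.card V * (Nat.card {v : V // g * v = v * g ∧ h * v = v * h} * Nat.card f.range) by rw [← e2]]
  ring

theorem comm_card {X : Type*} [Group X] [Finite X] (V : Subgroup X) [V.Normal]
    (hab : ∀ a ∈ V, ∀ b ∈ V, a * b = b * a) (G : Subgroup X) (hGV : Subgroup.IsComplement' V G)
    (hcop : (Nat.card V).Coprime (Nat.card G)) :
    Nat.card {p : X × X // Commute p.1 p.2} = Nat.card V * ∑ᶠ v : V,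
      Nat.card {p : ↥(G ⊓ Subgroup.centralizer ({(v : X)} : Set X)) × ↥(G ⊓ Subgroup.centralizer ({(v : X)} : Set X)) // Commute p.1 p.2} := by
  classical
  haveI : Fintype V := Fintype.ofFinite _
  haveI : Fintype {q : G × G // Commute q.1 q.2} := Fintype.ofFinite _
  have hd : Disjoint V G := hGV.disjoint
  have huniq : ∀ a ∈ V, ∀ b ∈ V, ∀ g ∈ G, ∀ h ∈ G, a * g = b * h → a = b ∧ g = h := by
    intro a ha b hb g hg h hh e
    have h1 : b⁻¹ * a = h * g⁻¹ := by
      calc b⁻¹ * a = b⁻¹ * (a * g) * g⁻¹ := by simp [mul_assoc]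
        _ = h * g⁻¹ := by rw [e]; simp [mul_assoc]
    have h2 : b⁻¹ * a = 1 := (Subgroup.disjoint_def.1 hd) (V.mul_mem (V.inv_mem hb) ha)
      (h1 ▸ G.mul_mem hh (G.inv_mem hg))
    refine ⟨(inv_mul_eq_one.1 h2).symm, ?_⟩
    rw [h2] at h1
    exact (mul_inv_eq_one.1 h1.symm).symm
  let F : (Σ q : {q : G × G // Commute q.1 q.2},
      {p : V × V // (p.1 : X) * (q.1.1 * p.2 * (q.1.1 : X)⁻¹) = p.2 * (q.1.2 * p.1 * (q.1.2 : X)⁻¹)}) →
      {p : X × X // Commute p.1 p.2} := fun s =>
    ⟨(s.2.1.1 * s.1.1.1, s.2.1.2 * s.1.1.2), by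
      obtain ⟨⟨⟨g, h⟩, hgh⟩, ⟨⟨u, w⟩, huw⟩⟩ := s
      dsimp only at hgh huw ⊢
      have e : (g : X) * h = h * g := congrArg Subtype.val hgh.eq
      change (u : X) * g * (w * h) = w * h * (u * g)
      calc (u : X) * g * (w * h) = u * (g * w * (g : X)⁻¹) * (g * h) := by simp [mul_assoc]
        _ = w * (h * u * (h : X)⁻¹) * (h * g) := by rw [huw, e]
        _ = w * h * (u * g) := by simp [mul_assoc]⟩
  have hF : Function.Bijective F := by
    constructor
    · rintro ⟨⟨⟨g, h⟩, hgh⟩, ⟨⟨u, w⟩, huw⟩⟩ ⟨⟨⟨g', h'⟩, hgh'⟩, ⟨⟨u', w'⟩, huw'⟩⟩ e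
      have a : (u : X) * g = u' * g' := congrArg (fun p => p.1.1) e
      have b : (w : X) * h = w' * h' := congrArg (fun p => p.1.2) e
      obtain ⟨a1, a2⟩ := huniq _ u.2 _ u'.2 _ g.2 _ g'.2 a
      obtain ⟨b1, b2⟩ := huniq _ w.2 _ w'.2 _ h.2 _ h'.2 b
      obtain rfl := Subtype.ext a1
      obtain rfl := Subtype.ext a2
      obtain rfl := Subtype.ext b1
      obtain rfl := Subtype.ext b2
      rfl
    · rintro ⟨⟨x, y⟩, hxy⟩
      obtain ⟨⟨u, g⟩, rfl⟩ := hGV.2 x
      obtain ⟨⟨w, h⟩, rfl⟩ := hGV.2 y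
      have e : (u : X) * g * (w * h) = w * h * (u * g) := hxy.eq
      have e' : (u : X) * (g * w * (g : X)⁻¹) * (g * h) = w * (h * u * (h : X)⁻¹) * (h * g) := by
        calc (u : X) * (g * w * (g : X)⁻¹) * (g * h) = u * g * (w * h) := by simp [mul_assoc]
          _ = w * h * (u * g) := e
          _ = _ := by simp [mul_assoc]
      have hn : V.Normal := inferInstance
      obtain ⟨a1, a2⟩ := huniq _ (V.mul_mem u.2 (hn.conj_mem _ w.2 _)) _ (V.mul_mem w.2 (hn.conj_mem _ u.2 _))
        _ (G.mul_mem g.2 h.2) _ (G.mul_mem h.2 g.2) e'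
      exact ⟨⟨⟨(g, h), Subtype.ext a2⟩, ⟨(u, w), a1⟩⟩, rfl⟩
  rw [← Nat.card_eq_of_bijective F hF, Nat.card_sigma, finsum_eq_sum_of_fintype]
  rw [Finset.sum_congr rfl (fun q _ => ker_card V hab q.1.1 q.1.2 (Nat.Coprime.coprime_dvd_right
    (Subgroup.card_dvd_of_le ((Subgroup.closure_le _).2 (by
      rintro x (rfl | rfl)
      · exact q.1.1.2
      · exact q.1.2.2))) hcop)), ← Finset.mul_sum]
  congr 1
  rw [← Nat.card_sigma, ← Nat.card_sigma]
  refine Nat.card_congr
    { toFun := fun s => ⟨s.2.1, ⟨(⟨s.1.1.1, s.1.1.1.2, Subgroup.mem_centralizer_singleton_iff.2 s.2.2.1⟩,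
        ⟨s.1.1.2, s.1.1.2.2, Subgroup.mem_centralizer_singleton_iff.2 s.2.2.2⟩),
          Subtype.ext (by have := congrArg Subtype.val s.1.2.eq; exact this)⟩⟩
      invFun := fun s => ⟨⟨(⟨s.2.1.1, s.2.1.1.2.1⟩, ⟨s.2.1.2, s.2.1.2.2.1⟩),
          Subtype.ext (by have := congrArg Subtype.val s.2.2.eq; exact this)⟩, ⟨s.1,
          Subgroup.mem_centralizer_singleton_iff.1 s.2.1.1.2.2,
          Subgroup.mem_centralizer_singleton_iff.1 s.2.1.2.2.2⟩⟩
      left_inv := fun s => rfl
      right_inv := fun s => rfl }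

/-- Let X be a finite group, V an abelian normal subgroup of X (any two elements of V commute) and G a complement to V in X whose order is coprime to that of V. Let S be a set of representatives of the orbits of G on V under conjugation: S lies in V and every element of V is conjugate under G to exactly one member of S. Then the number of conjugacy classes of X equals the sum, over s in S, of the number of conjugacy classes of the centralizer of s in G. -/
theorem result {X : Type*} [Group X] [Finite X] (V : Subgroup X) [V.Normal] (hab : ∀ a ∈ V, ∀ b ∈ V, a * b = b * a) (G : Subgroup X) (hGV : Subgroup.IsComplement' V G) (hcop : (Nat.card V).Coprime (Nat.card G)) (S : Finset X) (hSV : ∀ s ∈ S, s ∈ V) (hrep : ∀ v ∈ V, ∃! s, s ∈ S ∧ ∃ g ∈ G, g * v * g⁻¹ = s) : Nat.card (ConjClasses X) = ∑ s ∈ S, Nat.card (ConjClasses ↥(G ⊓ Subgroup.centralizer ({s} : Set X))) := by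
  classical
  haveI : Fintype V := Fintype.ofFinite _
  haveI : Fintype G := Fintype.ofFinite _
  have hn : V.Normal := inferInstance
  have h1 := comm_card V hab G hGV hcop
  rw [card_comm_eq_card_conjClasses_mul_card, finsum_eq_sum_of_fintype, ← hGV.card_mul] at h1
  simp only [card_comm_eq_card_conjClasses_mul_card] at h1
  let k : X → ℕ := fun x => Nat.card (ConjClasses ↥(G ⊓ Subgroup.centralizer ({x} : Set X)))
  have hk : ∀ g ∈ G, ∀ x, k (g * x * g⁻¹) = k x := by
    intro g hg x
    have e : (G ⊓ Subgroup.centralizer ({x} : Set X)).map (MulAut.conj g).toMonoidHom =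
        G ⊓ Subgroup.centralizer ({g * x * g⁻¹} : Set X) := by
      ext y
      simp only [Subgroup.mem_map, Subgroup.mem_inf, Subgroup.mem_centralizer_singleton_iff]
      constructor
      · rintro ⟨z, ⟨hz, hzx⟩, rfl⟩
        refine ⟨G.mul_mem (G.mul_mem hg hz) (G.inv_mem hg), ?_⟩
        simp only [MulEquiv.coe_toMonoidHom, MulAut.conj_apply]
        calc g * z * g⁻¹ * (g * x * g⁻¹) = g * (z * x) * g⁻¹ := by simp [mul_assoc]
          _ = _ := by rw [hzx]; simp [mul_assoc]
      · rintro ⟨hy, hyx⟩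
        refine ⟨g⁻¹ * y * g, ⟨G.mul_mem (G.mul_mem (G.inv_mem hg) hy) hg, ?_⟩, by simp [mul_assoc]⟩
        calc g⁻¹ * y * g * x = g⁻¹ * (y * (g * x * g⁻¹)) * g := by simp [mul_assoc]
          _ = _ := by rw [hyx]; simp [mul_assoc]
    have e2 := (Subgroup.equivMapOfInjective (G ⊓ Subgroup.centralizer ({x} : Set X))
      (MulAut.conj g).toMonoidHom (MulAut.conj g).injective).trans (MulEquiv.subgroupCongr e)
    have a := card_comm_eq_card_conjClasses_mul_card ↥(G ⊓ Subgroup.centralizer ({x} : Set X))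
    have b := card_comm_eq_card_conjClasses_mul_card ↥(G ⊓ Subgroup.centralizer ({g * x * g⁻¹} : Set X))
    rw [← Nat.card_congr e2.toEquiv] at b
    have c : Nat.card {p : ↥(G ⊓ Subgroup.centralizer ({x} : Set X)) × ↥(G ⊓ Subgroup.centralizer ({x} : Set X)) // Commute p.1 p.2} =
        Nat.card {p : ↥(G ⊓ Subgroup.centralizer ({g * x * g⁻¹} : Set X)) × ↥(G ⊓ Subgroup.centralizer ({g * x * g⁻¹} : Set X)) // Commute p.1 p.2} := by
      refine Nat.card_congr ((Equiv.prodCongr e2.toEquiv e2.toEquiv).subtypeEquiv fun p => ?_)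
      exact ⟨fun h => h.map e2, fun h => Commute.of_map e2.injective h⟩
    rw [c, b] at a
    exact Nat.eq_of_mul_eq_mul_right Nat.card_pos a
  let π : G × S → V := fun q => ⟨q.1 * q.2 * (q.1 : X)⁻¹, hn.conj_mem _ (hSV _ q.2.2) _⟩
  have hfib : ∀ v : V, (Finset.univ.filter fun q => π q = v).card =
      Nat.card ↥(G ⊓ Subgroup.centralizer ({(v : X)} : Set X)) := by
    intro v
    obtain ⟨s, ⟨hs, g0, hg0, e0⟩, hu⟩ := hrep v v.2
    rw [← Fintype.card_subtype, ← Nat.card_eq_fintype_card]
    symm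
    refine Nat.card_eq_of_bijective (fun c => ⟨(⟨c.1 * g0⁻¹, G.mul_mem c.2.1 (G.inv_mem hg0)⟩, ⟨s, hs⟩), ?_⟩) ⟨?_, ?_⟩
    · apply Subtype.ext
      have hc := Subgroup.mem_centralizer_singleton_iff.1 c.2.2
      change c.1 * g0⁻¹ * s * (c.1 * g0⁻¹)⁻¹ = v
      rw [← e0]
      calc c.1 * g0⁻¹ * (g0 * v * g0⁻¹) * (c.1 * g0⁻¹)⁻¹ = c.1 * v * c.1⁻¹ := by simp [mul_assoc]
        _ = v := by rw [hc]; simp
    · intro c c' e
      have : c.1 * g0⁻¹ = c'.1 * g0⁻¹ := congrArg (fun q => (q.1.1 : X)) e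
      exact Subtype.ext (mul_right_cancel this)
    · rintro ⟨⟨g, t⟩, ht⟩
      have ht' : (g : X) * t * (g : X)⁻¹ = v := congrArg Subtype.val ht
      have hts : (t : X) = s := hu t ⟨t.2, g⁻¹, G.inv_mem g.2, by rw [← ht']; simp [mul_assoc]⟩
      refine ⟨⟨g * g0, G.mul_mem g.2 hg0, ?_⟩, ?_⟩
      · refine Subgroup.mem_centralizer_singleton_iff.2 ?_
        have : (g : X) * (g0 * v * g0⁻¹) * (g : X)⁻¹ = v := by rw [e0, ← hts, ht']
        calc (g : X) * g0 * v = g * (g0 * v * g0⁻¹) * (g : X)⁻¹ * (g * g0) := by simp [mul_assoc]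
          _ = _ := by rw [this]
      · apply Subtype.ext
        apply Prod.ext
        · exact Subtype.ext (by simp)
        · exact Subtype.ext hts.symm
  have h2 : ∑ q : G × S, k (π q) = ∑ v : V, k v * Nat.card ↥(G ⊓ Subgroup.centralizer ({(v : X)} : Set X)) := by
    rw [← Finset.sum_fiberwise (s := Finset.univ) (g := π)]
    refine Finset.sum_congr rfl fun v _ => ?_
    rw [Finset.sum_congr rfl (g := fun _ => k v) (fun q hq => by rw [(Finset.mem_filter.1 hq).2]),
      Finset.sum_const, hfib, smul_eq_mul, mul_comm]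
  have h3 : ∑ q : G × S, k (π q) = Nat.card G * ∑ s ∈ S, k s := by
    rw [Fintype.sum_prod_type]
    rw [Finset.sum_congr rfl (g := fun _ => ∑ s ∈ S, k s) (fun g _ => by
      rw [← Finset.sum_coe_sort S]
      exact Finset.sum_congr rfl fun s _ => hk _ g.2 _)]
    simp [Nat.card_eq_fintype_card]
  have h4 : Nat.card (ConjClasses X) * (Nat.card V * Nat.card G) = Nat.card V * (Nat.card G * ∑ s ∈ S, k s) := by
    rw [h1, ← h3, h2]
  have hpos : 0 < Nat.card V * Nat.card G := Nat.mul_pos Nat.card_pos Nat.card_pos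
  apply Nat.eq_of_mul_eq_mul_right hpos
  rw [h4]; ring

end Cfsg.Agent.S4956
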