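import Cfsg.Statements.S4958
import Cfsg.Agent.Lib.Char.H10Kn
import Cfsg.Agent.Lib.Odd.BG4x3
import Cfsg.Agent.Lib.Odd.BGMisc

set_option autoImplicit false
open Cfsg

namespace Cfsg.Agent.S4958
open CA.H10Kn CA.BlkVal CA.BG CChar.CharFun Subgroup

open scoped IsMulCommutative

theorem gauss {H : Type*} [Group H] [Fintype H] {p : ℕ} [hp : Fact p.Prime] {M : Ideal AlgInt}
    (hM : IsPModular p M) {F : Type*} [Field F] [Fintype F] [CharP F p] (f : H →* MulChar F ℂ) :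
    ∃ γ : H → ℂ, OS γ ∧ (∀ c, f c = 1 → γ c = -1) ∧ ∀ c, f c ≠ 1 → res M (γ c) = 0 ∧
      ∀ σ : ℂ ≃+* ℂ, ‖σ (γ c)‖ ^ 2 = Fintype.card F := by
  classical
  obtain ⟨ψ, hψ⟩ : ∃ ψ : AddChar F ℂ, ψ.IsPrimitive :=
    ⟨_, AddChar.FiniteField.primitiveChar_to_Complex_isPrimitive F⟩
  have h1 : ∀ x, ψ x ^ p ^ 1 = 1 := fun x => by
    rw [pow_one, ← AddChar.map_nsmul_eq_pow, nsmul_eq_mul, CharP.cast_eq_zero, zero_mul,
      AddChar.map_zero_eq_one]
  have h2 : ∀ x, IsIntegral ℤ (ψ x) := fun x =>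
    isIntegral_of_pow_eq_one (pow_ne_zero _ hp.out.ne_zero) (h1 x)
  have h3 : ∀ x : F, OS fun c => f c x := fun x => by
    by_cases hx : IsUnit x
    · obtain ⟨u, rfl⟩ := hx
      exact OS.of_char (char_of_irr (irr_of_monoidHom
        { toFun := fun c => f c u
          map_one' := by rw [map_one, MulChar.one_apply_coe]
          map_mul' := fun a b => by rw [map_mul, MulChar.coeToFun_mul, Pi.mul_apply] }))
    · simp only [fun c => (f c).map_nonunit hx]; exact OS.zero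
  refine ⟨fun c => gaussSum (f c) ψ, ?_, fun c hc => ?_, fun c hc => ⟨?_, fun σ => ?_⟩⟩
  · have := OS.sum Finset.univ (F := fun x => ψ x • fun c => f c x) fun x _ => (h3 x).smul (h2 x)
    convert this using 1
    funext c
    simp [gaussSum, mul_comm]
  · simp only [hc]
    exact gaussSum_one_left (by simpa using hψ (a := 1) one_ne_zero)
  · have h4 : ∀ x, f c x ∈ O M := fun x => isIntegral_mem ((h3 x).int c)
    simp only [gaussSum]
    rw [res_sum _ _ fun x _ => mul_mem (h4 x) (isIntegral_mem (h2 x))]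
    simp only [fun x => res_mul (h4 x) (isIntegral_mem (h2 x)),
      fun x => res_eq_one_of_pow_p_pow hM (h1 x), mul_one]
    rw [← res_sum _ _ fun x _ => h4 x, MulChar.sum_eq_zero_of_ne_one hc, res_zero]
  · have e : σ (gaussSum (f c) ψ) = gaussSum ((f c).ringHomComp (σ : ℂ →+* ℂ))
        ((σ : ℂ →* ℂ).compAddChar ψ) := by
      simp [gaussSum]
    have := gaussSum_mul_gaussSum_eq_card
      ((MulChar.ringHomComp_ne_one_iff (f := (σ : ℂ →+* ℂ)) σ.injective).2 hc)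
      (hψ.compMulHom_of_isPrimitive (f := (σ : ℂ →* ℂ)) σ.injective)
    rw [← star_gaussSum_eq, ← e, Complex.star_def, Complex.mul_conj, Complex.normSq_eq_norm_sq]
      at this
    exact_mod_cast this

theorem exists_hom {X : Type*} [Group X] [Finite X] {p : ℕ} [hp : Fact p.Prime] {C W : Subgroup X}
    [IsMulCommutative C] [IsMulCommutative W] (hn : C ≤ 𝓝(W)) {n : ℕ} (h0 : n ≠ 0)
    (hW : ♯W = p ^ n) (h : ∀ c ∈ C, c ∉ 𝓒(W) → W ⊓ 𝓒₁(c) = ⊥) :
    ∃ f : C →* MulChar (GaloisField p n) ℂ, ∀ c, f c = 1 ↔ (c : X) ∈ 𝓒(W) := by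
  letI := CA.Act.conjAct hn
  haveI := Fintype.ofFinite (GaloisField p n)
  let t := MulDistribMulAction.toMulAut C W
  have ht : ∀ c : C, t c = 1 ↔ (c : X) ∈ 𝓒(W) := fun c => by
    refine ⟨fun e w hw => ?_, fun e => MulEquiv.ext fun w => Subtype.ext ?_⟩
    · have : (c : X) * w * (c : X)⁻¹ = w := congrArg Subtype.val (DFunLike.congr_fun e (⟨w, hw⟩ : W))
      rw [← mul_inv_eq_iff_eq_mul.1 this]
    · change (c : X) * w * (c : X)⁻¹ = w
      rw [← e w w.2, mul_inv_cancel_right]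
  have hf : ∀ a : t.range, a ≠ 1 → ∀ w : W, a • w = w → w = 1 := by
    rintro ⟨_, c, rfl⟩ ha w hw
    have h1 : (c : X) * w * (c : X)⁻¹ = w := congrArg Subtype.val hw
    have h2 : (w : X) ∈ W ⊓ 𝓒₁((c : X)) :=
      ⟨w.2, mem_centralizer_singleton_iff.2 (mul_inv_eq_iff_eq_mul.1 h1).symm⟩
    rw [h c c.2 fun e => ha (Subtype.ext ((ht c).2 e))] at h2
    exact Subtype.ext h2
  haveI : IsMulCommutative t.range := ⟨⟨by
    rintro ⟨_, a, rfl⟩ ⟨_, b, rfl⟩
    exact Subtype.ext (by change t a * t b = t b * t a; rw [← map_mul, ← map_mul, mul_comm])⟩⟩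
  haveI : Nontrivial W := Finite.one_lt_card_iff_nontrivial.1 (hW ▸ Nat.one_lt_pow h0 hp.out.one_lt)
  haveI := CA.Act.isCyclic_of_fpf_of_comm hf
  have h1 := CA.Act.card_dvd_card_sub_one hf
  rw [hW, ← GaloisField.card p n h0, Nat.card_eq_fintype_card (α := GaloisField p n)] at h1
  obtain ⟨ω, hω⟩ := MulChar.exists_mulChar_orderOf _ h1
    (Complex.isPrimitiveRoot_exp _ Nat.card_pos.ne')
  let e : t.range ≃* zpowers ω := mulEquivOfCyclicCardEq (by rw [Nat.card_zpowers, hω])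
  refine ⟨(zpowers ω).subtype.comp (e.toMonoidHom.comp t.rangeRestrict), fun c => ?_⟩
  rw [← ht]
  simp [Subtype.ext_iff]

theorem dprod_cent {X : Type*} [Group X] [Finite X] {U T W : Subgroup X} (h : DProd U T W) {c : X}
    (hU : c ∈ 𝓝(U)) (hT : c ∈ 𝓝(T)) : DProd (U ⊓ 𝓒₁(c)) (T ⊓ 𝓒₁(c)) (W ⊓ 𝓒₁(c)) := by
  refine ⟨le_cent_mono h.cent inf_le_left inf_le_left,
    eq_bot_iff.2 (h.disj ▸ inf_le_inf inf_le_left inf_le_left), le_antisymm (sup_le
      (inf_le_inf_right _ h.le_left) (inf_le_inf_right _ h.le_right)) fun w hw => ?_⟩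
  obtain ⟨u, hu, t, ht, rfl⟩ := h.exists_mul hw.1
  have e := mem_centralizer_singleton_iff.1 hw.2
  have h1 : u⁻¹ * (c * u * c⁻¹) ∈ U ⊓ T := ⟨U.mul_mem (U.inv_mem hu) (conj_mem_of_mem_norm hU hu), by
    have : u⁻¹ * (c * u * c⁻¹) = t * (c * t * c⁻¹)⁻¹ := by
      rw [eq_mul_inv_iff_mul_eq]
      calc _ = u⁻¹ * (c * (u * t)) * c⁻¹ := by group
        _ = t := by rw [← e]; group
    rw [this]; exact T.mul_mem ht (T.inv_mem (conj_mem_of_mem_norm hT ht))⟩
  rw [h.disj, mem_bot, inv_mul_eq_one, eq_mul_inv_iff_mul_eq] at h1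
  have h2 : u ∈ 𝓒₁(c) := mem_centralizer_singleton_iff.2 h1
  exact mul_mem_sup ⟨hu, h2⟩ ⟨ht, (mul_mem_cancel_left h2).1 hw.2⟩

theorem good {X : Type*} [Group X] [Finite X] {p : ℕ} [hp : Fact p.Prime] {M : Ideal AlgInt}
    (hM : IsPModular p M) {C : Subgroup X} [Fintype C] [IsMulCommutative C] (hC : IsPi {p}ᶜ C)
    (W : Subgroup X) (hW : IsElementaryAbelian p W) (hn : C ≤ 𝓝(W)) :
    ∃ γ : C → ℂ, OS γ ∧ res M (γ 1) ≠ 0 ∧ (∀ c : C, (c : X) ∉ 𝓒(W) → res M (γ c) = 0) ∧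
      ∀ (σ : ℂ ≃+* ℂ) (c : C), ‖σ (γ c)‖ ^ 2 * ♯(W ⊓ 𝓒₁((c : X)) : Subgroup X) ≤ ♯W := by
  induction hk : ♯W using Nat.strong_induction_on generalizing W with | _ k ih => ?_
  subst hk
  by_cases hmin : ∀ U, U ≤ W → C ≤ 𝓝(U) → U = ⊥ ∨ U = W
  · obtain ⟨n, hc⟩ := IsPGroup.iff_card.1 ((isPi_of_elem hp.out hW).isPGroup hp.out)
    have h0 : ∀ c : X, (♯(W ⊓ 𝓒₁(c) : Subgroup X) : ℝ) ≤ ♯W := fun c => by
      exact_mod_cast card_le_of_le inf_le_left
    by_cases hn0 : n = 0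
    · rw [hn0, pow_zero, card_eq_one] at hc
      refine ⟨fun _ => 1, OS.of_char char_one, by simp, fun c h => absurd (fun w hw => ?_) h,
        fun σ c => by simpa using h0 c⟩
      rw [hc, SetLike.mem_coe, mem_bot] at hw
      simp [hw]
    have h1 : ∀ c ∈ C, c ∉ 𝓒(W) → W ⊓ 𝓒₁(c) = ⊥ := fun c hc h =>
      (hmin _ inf_le_left (norm_inf hn (norm_cent1 fun a ha => mem_centralizer_singleton_iff.2
        (mul_comm_of_mem_isMulCommutative C ha hc)))).resolve_right fun e => h fun w hw =>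
          mem_centralizer_singleton_iff.1 ((e.ge : W ≤ _) hw).2
    haveI := hW.1
    haveI := Fintype.ofFinite (GaloisField p n)
    obtain ⟨f, hf⟩ := exists_hom hn hn0 hc h1
    obtain ⟨γ, a, b, d⟩ := gauss hM f
    refine ⟨γ, a, by rw [b 1 (map_one f), res_neg]; simp, fun c h => (d c (mt (hf c).1 h)).1,
      fun σ c => ?_⟩
    by_cases h : f c = 1
    · simpa [b c h] using h0 c
    · rw [(d c h).2 σ, h1 c c.2 (mt (hf c).2 h), card_bot, ← Nat.card_eq_fintype_card,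
        GaloisField.card p n hn0, hc]
      simp
  · push Not at hmin
    obtain ⟨U, h1, h2, h3, h4⟩ := hmin
    obtain ⟨T, h5, h6, h7, h8⟩ := CA.BG4.maschke hp.out hW hn hC h1 h2
    haveI := hW.1
    have hd : DProd U T W :=
      ⟨fun t ht u hu => mul_comm_of_mem_isMulCommutative W (h1 hu) (h5 ht), h7, h8⟩
    obtain ⟨γ, a1, a2, a3, a4⟩ := ih _ (card_lt_of_lt (lt_of_le_of_ne h1 h4)) U
      (elem_of_le hW h1) h2 rfl
    obtain ⟨δ, b1, b2, b3, b4⟩ := ih _ (card_lt_of_lt (lt_of_le_of_ne h5 fun e =>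
      h3 (by rw [← h7, e, inf_of_le_left h1]))) T (elem_of_le hW h5) h6 rfl
    have e : ∀ c, res M ((γ * δ) c) = res M (γ c) * res M (δ c) := fun c =>
      res_mul (isIntegral_mem (a1.int c)) (isIntegral_mem (b1.int c))
    refine ⟨γ * δ, a1.mul b1, by rw [e]; exact mul_ne_zero a2 b2, fun c h => ?_, fun σ c => ?_⟩
    · rw [e]
      by_cases h9 : (c : X) ∈ 𝓒(U)
      · rw [b3 c fun h10 => h ?_, mul_zero]
        intro w hw
        obtain ⟨u, hu, t, ht, rfl⟩ := hd.exists_mul hw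
        rw [mul_assoc, h10 t ht, ← mul_assoc, h9 u hu, mul_assoc]
      · rw [a3 c h9, zero_mul]
    · rw [← hd.card, ← (dprod_cent hd (h2 c.2) (h6 c.2)).card, Pi.mul_apply, map_mul, norm_mul]
      push_cast
      calc _ = (‖σ (γ c)‖ ^ 2 * ♯(U ⊓ 𝓒₁((c : X)) : Subgroup X)) *
            (‖σ (δ c)‖ ^ 2 * ♯(T ⊓ 𝓒₁((c : X)) : Subgroup X)) := by ring
        _ ≤ _ := mul_le_mul (a4 σ c) (b4 σ c) (by positivity) (by positivity)

/-- Let X be a finite group and V a normal subgroup of X in which every element has order dividing the prime p, whose index in X is prime to p and which is its own centralizer in X; so V is an elementary abelian normal Sylow p-subgroup, and any complement G to V in X is a group of order prime to p acting faithfully on the vector space V by conjugation (the coprime linear setting of the k(GV) problem). Let G be a complement to V in X and suppose that for some v in V the centralizer of v in G is abelian. Then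 the number of conjugacy classes of X is at most the order of V (the abelian-stabilizer criterion for the k(GV) problem). -/
theorem result {X : Type*} [Group X] [Finite X] (p : ℕ) [Fact p.Prime] (V : Subgroup X) [V.Normal] (hVexp : ∀ v ∈ V, v ^ p = 1) (hidx : ¬ p ∣ V.index) (hself : Subgroup.centralizer (V : Set X) = V) (G : Subgroup X) (hGV : Subgroup.IsComplement' V G) (v : X) (hv : v ∈ V) (hab : ∀ a ∈ G ⊓ Subgroup.centralizer ({v} : Set X), ∀ b ∈ G ⊓ Subgroup.centralizer ({v} : Set X), a * b = b * a) : Nat.card (ConjClasses X) ≤ Nat.card V := by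
  obtain ⟨M, hM⟩ := exists_isPModular (Fact.out : p.Prime)
  obtain ⟨C, hC⟩ : ∃ C, C = G ⊓ centralizer ({v} : Set X) := ⟨_, rfl⟩
  haveI := Fintype.ofFinite C
  haveI : IsMulCommutative C := ⟨⟨fun a b => Subtype.ext (hab _ (hC.le a.2) _ (hC.le b.2))⟩⟩
  have hV : ∀ a ∈ V, ∀ b ∈ V, a * b = b * a := fun a ha b hb => (hself.ge hb) a ha
  have hCG : C ≤ G := hC ▸ inf_le_left
  obtain ⟨γ, a, b, d, e⟩ := good hM (C := C) ((piNat_compl_iff Fact.out).2 fun h =>
    hidx (hGV.symm.index_eq_card ▸ h.trans (card_dvd_of_le hCG))) V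
    ⟨⟨⟨fun a b => Subtype.ext (hV _ a.2 _ b.2)⟩⟩, hVexp⟩ le_normalizer_of_normal
  refine knorr hM hVexp hidx hV hGV hv hC a b (fun c hc => d c fun h => hc ?_) e
  exact Subtype.ext (disjoint_def.1 hGV.disjoint (hself.le h) (hCG c.2))

end Cfsg.Agent.S4958
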