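import Cfsg.Statements.S4966
import Mathlib

set_option autoImplicit false
open Cfsg

namespace Cfsg.Agent.S4966

open Module LinearMap

theorem eig {F V : Type*} [Field F] [AddCommGroup V] [Module F V] {f : End F V} {c : F} {x : V}
    (h : f x = c • x) (n : ℕ) : (f ^ n) x = c ^ n • x := by
  induction n with
  | zero => simp
  | succ n ih => rw [pow_succ, End.mul_apply, h, map_smul, ih, smul_smul, pow_succ']

theorem half {G : Type*} [Group G] [Fintype G] (h : Odd (Nat.card G)) :
    ∃ s : Finset G, (∀ g x, x ∈ s ↔ g * x * g⁻¹ ∈ s) ∧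
      ∀ {M : Type _} [AddCommMonoid M] (f : G → M), ∑ g, f g = f 1 + ∑ g ∈ s, f g + ∑ g ∈ s, f g⁻¹ := by
  classical
  obtain ⟨c, hc⟩ := exists_injective_nat (ConjClasses G)
  have e : ∀ g x : G, ConjClasses.mk (g * x * g⁻¹) = ConjClasses.mk x := fun g x =>
    ConjClasses.mk_eq_mk_iff_isConj.2 (isConj_iff.2 ⟨g, rfl⟩).symm
  have odd : ∀ g x : G, Commute (g ^ 2) x → Commute g x := fun g x hx => by
    obtain ⟨k, hk⟩ := h
    have := hx.pow_left (k + 1)
    rwa [← pow_mul, show 2 * (k + 1) = Nat.card G + 1 by omega, pow_succ, pow_card_eq_one', one_mul] at this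
  have key : ∀ x : G, c (ConjClasses.mk x) = c (ConjClasses.mk x⁻¹) ↔ x = 1 := fun x => by
    refine ⟨fun hx => ?_, by rintro rfl; simp⟩
    obtain ⟨g, hg⟩ := isConj_iff.1 (ConjClasses.mk_eq_mk_iff_isConj.1 (hc hx))
    have h1 := odd g x (mul_inv_eq_iff_eq_mul.1 (by
      rw [show g ^ 2 * x * (g ^ 2)⁻¹ = g * (g * x * g⁻¹) * g⁻¹ by rw [sq]; group, hg,
        show g * x⁻¹ * g⁻¹ = (g * x * g⁻¹)⁻¹ by group, hg, inv_inv]))
    rw [h1.eq, mul_inv_cancel_right] at hg
    have h2 : x ^ 2 = 1 := by rw [sq]; exact mul_eq_one_iff_eq_inv.2 hg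
    exact orderOf_eq_one_iff.1 (Nat.eq_one_of_dvd_coprimes h.coprime_two_left
      (orderOf_dvd_of_pow_eq_one h2) (orderOf_dvd_natCard x))
  refine ⟨Finset.univ.filter fun x => c (ConjClasses.mk x) < c (ConjClasses.mk x⁻¹), fun g x => ?_, fun f => ?_⟩
  · simp only [Finset.mem_filter, Finset.mem_univ, true_and, e, show (g * x * g⁻¹)⁻¹ = g * x⁻¹ * g⁻¹ by group]
  rw [Finset.sum_equiv (t := Finset.univ.filter fun x => c (ConjClasses.mk x⁻¹) < c (ConjClasses.mk x))
    (g := f) (f := fun g => f g⁻¹) (Equiv.inv G) (by simp) (by simp), Finset.sum_filter, Finset.sum_filter,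
    ← Fintype.sum_ite_eq' 1 f, ← Finset.sum_add_distrib, ← Finset.sum_add_distrib]
  refine Finset.sum_congr rfl fun x _ => ?_
  simp only [← key]
  rcases lt_trichotomy (c (ConjClasses.mk x)) (c (ConjClasses.mk x⁻¹)) with h | h | h
  · simp [h, h.ne, h.not_gt]
  · simp [h]
  · simp [h, h.ne', h.not_gt]

/-- Let F be a finite field of characteristic p, G a finite group of order prime to p, and V a finite-dimensional representation of G over F carrying a nondegenerate G-invariant bilinear form (equivalently, V is self-dual). Then V is the direct sum of two G-invariant subspaces U and W such that U carries a G-invariant alternating bilinear form that is nondegenerate on U and W carries a G-invariant symmetric bilinear form that is nondegenerate on W; moreover when p = 2 the decomposition can be chosen with G acting trivially on W. -/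
theorem result {F : Type*} [Field F] [Fintype F] (p : ℕ) [Fact p.Prime] [CharP F p] {G : Type*} [Group G] [Finite G] (hcop : ¬ p ∣ Nat.card G) {V : Type*} [AddCommGroup V] [Module F V] [FiniteDimensional F V] (ρ : Representation F G V) (B : LinearMap.BilinForm F V) (hB : B.Nondegenerate) (hBinv : ∀ g : G, ∀ x y : V, B (ρ g x) (ρ g y) = B x y) : ∃ U W : Submodule F V, IsCompl U W ∧ (∀ g : G, ∀ u ∈ U, ρ g u ∈ U) ∧ (∀ g : G, ∀ w ∈ W, ρ g w ∈ W) ∧ (∃ A : LinearMap.BilinForm F V, (∀ x : V, A x x = 0) ∧ (∀ g : G, ∀ x ∈ U, ∀ y ∈ U, A (ρ g x) (ρ g y) = A x y) ∧ (∀ x ∈ U, (∀ y ∈ U, A x y = 0) → x = 0)) ∧ (∃ S : LinearMap.BilinForm F V, (∀ x y : V, S x y = S y x) ∧ (∀ g : G, ∀ x ∈ W, ∀ y ∈ W, S (ρ g x) (ρ g y) = S x y) ∧ (∀ x ∈ W, (∀ y ∈ W, S x y = 0) → x = 0)) ∧ (p = 2 → ∀ g : G, ∀ w ∈ W, ρ g w = w) := by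
  classical
  obtain ⟨T, hT⟩ : ∃ T : End F V, ∀ x y, B x (T y) = B y x :=
    ⟨B.symmCompOfNondegenerate B.flip hB.flip, fun x y => B.symmCompOfNondegenerate_left_apply hB.flip x y⟩
  have adj : ∀ g x y, B (ρ g x) y = B x (ρ g⁻¹ y) := fun g x y => by
    rw [← hBinv g x, Representation.self_inv_apply]
  have ext : ∀ x y, (∀ v, B v x = B v y) → x = y := fun x y h =>
    sub_eq_zero.1 (hB.2 _ fun v => by rw [map_sub, h, sub_self])
  have cT : ∀ g, Commute T (ρ g) := fun g => LinearMap.ext fun y => ext _ _ fun x => by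
    rw [End.mul_apply, End.mul_apply, hT, adj, ← hT, adj, inv_inv]
  obtain ⟨n, hKR, n1⟩ := ((1 + T).eventually_isCompl_ker_pow_range_pow.and (Filter.eventually_ge_atTop 1)).exists
  have o1 : ∀ (j : ℕ) x y, ((1 + T) ^ j) x = 0 → B x (((1 + T) ^ j) y) = 0 ∧ B (((1 + T) ^ j) y) x = 0 := fun j => by
    induction j with
    | zero => intro x y h; rw [show x = 0 from h]; simp
    | succ j ih =>
      have k : ∀ x y, ((1 + T) ^ (j + 1)) x = 0 → B x (((1 + T) ^ (j + 1)) y) = 0 := fun x y h => by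
        rw [← (ih ((1 + T) x) y (by rwa [pow_succ] at h)).2, pow_succ', End.mul_apply]
        simp only [LinearMap.add_apply, End.one_apply, map_add, hT, add_comm]
      refine fun x y h => ⟨k x y h, ?_⟩
      rw [← hT, ← k x (T y) h, ← End.mul_apply, (((Commute.one_right T).add_right (Commute.refl T)).pow_right _).eq]
      rfl
  set K := ker ((1 + T) ^ n)
  set R := range ((1 + T) ^ n)
  have o2 : ∀ k ∈ K, ∀ r ∈ R, B k r = 0 ∧ B r k = 0 := by
    rintro k hk _ ⟨y, rfl⟩; exact o1 n k y hk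
  have cm : ∀ {f : End F V}, Commute T f → Commute ((1 + T) ^ n) f := fun h =>
    ((Commute.one_left _).add_left h).pow_left n
  have iK : ∀ {f : End F V}, Commute T f → ∀ k ∈ K, f k ∈ K := fun h k hk => by
    rw [mem_ker, ← End.mul_apply, (cm h).eq, End.mul_apply, hk, map_zero]
  have iR : ∀ {f : End F V}, Commute T f → ∀ r ∈ R, f r ∈ R := fun {f} h => by
    rintro _ ⟨y, rfl⟩; exact ⟨f y, by rw [← End.mul_apply, (cm h).eq]; rfl⟩
  have dec : ∀ v, ∃ k ∈ K, ∃ r ∈ R, k + r = v := fun v => Submodule.mem_sup.1 (hKR.sup_eq_top.ge trivial)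
  have dis : ∀ k ∈ K, ∀ r ∈ R, k + r = 0 → k = 0 ∧ r = 0 := fun k hk r hr h => by
    have := Submodule.disjoint_def.1 hKR.disjoint k hk (eq_neg_of_add_eq_zero_left h ▸ neg_mem hr)
    exact ⟨this, by rwa [this, zero_add] at h⟩
  have nR : ∀ r ∈ R, r + T r = 0 → r = 0 := fun r hr h =>
    Submodule.disjoint_def.1 hKR.disjoint r (End.pow_map_zero_of_le n1 (by rw [pow_one]; exact h)) hr
  have cTT := Commute.refl T
  by_cases hp : p = 2
  swap
  · refine ⟨K, R, hKR, fun g => iK (cT g), fun g => iR (cT g), ⟨B - B.flip, fun x => sub_self (B x x),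
      fun g x _ y _ => by simp [hBinv], fun x hx h => ?_⟩, ⟨B + B.flip, fun x y => add_comm (B x y) _,
      fun g x _ y _ => by simp [hBinv], fun x hx h => nR x hx (hB.2 _ fun v => ?_)⟩, fun h => absurd h hp⟩
    · have h1 : T x = x := ext _ _ fun v => by
        obtain ⟨k, hk, r, hr, rfl⟩ := dec v
        rw [map_add, LinearMap.add_apply, LinearMap.add_apply, (o2 _ (iK cTT x hx) r hr).2, (o2 x hx r hr).2, hT]
        exact congrArg (· + 0) (sub_eq_zero.1 (h k hk))
      have h2 : ((1 + T) ^ n) x = (2 : F) ^ n • x := eig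
        (by rw [LinearMap.add_apply, h1, two_smul]; rfl) n
      refine (smul_eq_zero.1 (h2.symm.trans hx)).resolve_left (pow_ne_zero _ fun e => hp ?_)
      exact (Nat.prime_dvd_prime_iff_eq Fact.out Nat.prime_two).1 ((CharP.cast_eq_zero_iff F p 2).1 e)
    · obtain ⟨k, hk, r, hr, rfl⟩ := dec v
      show B (k + r) (x + T x) = 0
      rw [map_add B, LinearMap.add_apply, (o2 k hk _ (add_mem hx (iR cTT x hx))).1, zero_add, map_add, hT, add_comm]
      exact h r hr
  subst hp
  have := Fintype.ofFinite G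
  have od : Odd (Nat.card G) := Nat.not_even_iff_odd.1 (mt even_iff_two_dvd.1 hcop)
  obtain ⟨s, s1, s2⟩ := half od
  obtain ⟨e, he⟩ : ∃ e : End F V, e = ∑ g, ρ g := ⟨_, rfl⟩
  obtain ⟨z, hz⟩ : ∃ z : End F V, z = ∑ g ∈ s, ρ g := ⟨_, rfl⟩
  obtain ⟨w, hw⟩ : ∃ w : End F V, w = ∑ g ∈ s, ρ g⁻¹ := ⟨_, rfl⟩
  have e0 : e = 1 + z + w := by rw [he, s2, map_one, hz, hw]
  have e1 : ∀ g, ρ g * e = e := fun g => by
    simp only [he, Finset.mul_sum, ← map_mul]; exact Equiv.sum_comp (Equiv.mulLeft g) ρ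
  have e2 : ∀ g, e * ρ g = e := fun g => by
    simp only [he, Finset.sum_mul, ← map_mul]; exact Equiv.sum_comp (Equiv.mulRight g) ρ
  have e3 : e * e = e := by
    nth_rw 2 [he]
    obtain ⟨k, hk⟩ := od
    simp only [Finset.mul_sum, e2, Finset.sum_const, Finset.card_univ, ← Nat.card_eq_fintype_card, hk]
    rw [← Nat.cast_smul_eq_nsmul F]
    push_cast
    rw [CharTwo.two_eq_zero, zero_mul, zero_add, one_smul]
  have e4 : ∀ x y, B (e x) y = B x (e y) := fun x y => by
    simp only [he, LinearMap.sum_apply, map_sum, adj]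
    exact Equiv.sum_comp (Equiv.inv G) fun g => B x (ρ g y)
  have z1 : ∀ x y, B x (z y) = B (w x) y := fun x y => by
    simp only [hz, hw, LinearMap.sum_apply, map_sum, adj, inv_inv]
  have z2 : ∀ g, Commute z (ρ g) := fun g => by
    rw [Commute, SemiconjBy, hz, Finset.sum_mul, Finset.mul_sum]
    exact (Finset.sum_equiv (MulAut.conj g).toEquiv (s1 g) fun x _ => by simp [← map_mul]).symm
  have ce : ∀ g, Commute e (ρ g) := fun g => (e2 g).trans (e1 g).symm
  have Te : Commute T e := he ▸ Commute.sum_right _ _ _ fun g _ => cT g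
  have Tz : Commute T z := hz ▸ Commute.sum_right _ _ _ fun g _ => cT g
  have Tw : Commute T w := hw ▸ Commute.sum_right _ _ _ fun g _ => cT _
  have ez : Commute e z := hz ▸ Commute.sum_right _ _ _ fun g _ => ce g
  have ew : Commute e w := hw ▸ Commute.sum_right _ _ _ fun g _ => ce _
  have ke : ∀ {f : End F V}, Commute e f → ∀ x, e x = 0 → e (f x) = 0 := fun h x hx => by
    rw [← End.mul_apply, h.eq, End.mul_apply, hx, map_zero]
  obtain ⟨a, ha⟩ : ∃ a : End F V, ∀ k ∈ K, ∀ r ∈ R, a (k + r) = z k + r :=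
    ⟨ofIsCompl hKR (z ∘ₗ K.subtype) R.subtype, fun k hk r hr => by
      rw [map_add, ofIsCompl_apply_left hKR ⟨k, hk⟩, ofIsCompl_apply_right hKR ⟨r, hr⟩]; rfl⟩
  have a1 : ∀ g x, a (ρ g x) = ρ g (a x) := fun g x => by
    obtain ⟨k, hk, r, hr, rfl⟩ := dec x
    rw [map_add, ha _ (iK (cT g) k hk) _ (iR (cT g) r hr), ha k hk r hr, map_add, ← End.mul_apply, (z2 g).eq]
    rfl
  have fix : ∀ g, ∀ x ∈ range e, ρ g x = x := by
    rintro g _ ⟨y, rfl⟩; rw [← End.mul_apply, e1]
  let f := (Module.finBasis F (range e)).equivFun.toLinearMap ∘ₗ e.rangeRestrict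
  have hf : ∀ x : range e, f x = (Module.finBasis F (range e)).equivFun x := by
    rintro ⟨_, y, rfl⟩
    exact congrArg (Module.finBasis F (range e)).equivFun (Subtype.ext (congrArg (· y) e3))
  refine ⟨ker e, range e, (IsIdempotentElem.isCompl e3).symm, fun g => ke (ce g), fun g x hx => (fix g x hx).symm ▸ hx,
    ⟨B.compRight a - (B.compRight a).flip, fun x => sub_self (B x (a x)), fun g x _ y _ => by simp [a1, hBinv],
      fun x hx h => ?_⟩, ⟨(dotProductBilin F F).compl₁₂ f f, fun x y => dotProduct_comm (f x) (f y),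
      fun g x hx y hy => by rw [fix g x hx, fix g y hy], fun x hx h => ?_⟩, fun _ => fix⟩
  · obtain ⟨k, hk, r, hr, rfl⟩ := dec x
    obtain ⟨k0, r0⟩ := dis _ (iK Te k hk) _ (iR Te r hr) ((map_add e k r).symm.trans hx)
    have c0 : e (T (w k) - z k + (T r - r)) = 0 := by
      simp only [map_add, map_sub, ke Te.symm _ (ke ew k k0), ke ez k k0, ke Te.symm r r0, r0, sub_self, add_zero]
    have c1 : T (w k) - z k + (T r - r) = 0 := hB.2 _ fun v => by
      have := h (v - e v) (by rw [mem_ker, map_sub, ← End.mul_apply, e3, sub_self])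
      rw [← sub_add_cancel v (e v), map_add B, LinearMap.add_apply, e4, c0, map_zero, add_zero, ← this]
      obtain ⟨k', hk', r', hr', e'⟩ := dec (v - e v)
      rw [← e']
      simp only [LinearMap.sub_apply, BilinForm.compRight_apply, BilinForm.flip_apply, ha k hk r hr, ha k' hk' r' hr']
      simp only [map_add, map_sub, LinearMap.add_apply, hT, z1 k, (o2 _ (iK Tw k hk) r' hr').1, (o2 k hk r' hr').1,
        (o2 _ (iK Tz k' hk') r hr).2, (o2 k' hk' r hr).2]
      ring
    obtain ⟨c2, c3⟩ := dis _ (sub_mem (iK cTT _ (iK Tw k hk)) (iK Tz k hk)) _ (sub_mem (iR cTT r hr) hr) c1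
    have two : ∀ v : V, v + v = 0 := fun v => by rw [← two_smul F, CharTwo.two_eq_zero, zero_smul]
    have c4 : (w * (1 + T)) k = k := by
      rw [e0] at k0
      simp only [LinearMap.add_apply, End.one_apply] at k0
      rw [End.mul_apply, LinearMap.add_apply, map_add, ← End.mul_apply w T, ← Tw.eq, End.mul_apply, sub_eq_zero.1 c2,
        End.one_apply]
      linear_combination (norm := abel) k0 - two k
    have c5 := eig (c4.trans (one_smul F k).symm) n
    rw [((Commute.one_right w).add_right Tw.symm).mul_pow, End.mul_apply, hk, map_zero, one_pow, one_smul] at c5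
    rw [← c5, zero_add]
    exact nR r hr (by rw [sub_eq_zero.1 c3, two])
  · have : f x = 0 := dotProduct_eq_zero_iff.1 fun t => by
      have := h _ ((Module.finBasis F (range e)).equivFun.symm t).2
      rwa [compl₁₂_apply, hf, LinearEquiv.apply_symm_apply] at this
    rw [hf ⟨x, hx⟩, LinearEquiv.map_eq_zero_iff] at this
    exact congrArg Subtype.val this

end Cfsg.Agent.S4966
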