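import Cfsg.Statements.S4959
import Cfsg.Agent.S4966
import Cfsg.Agent.Lib.Char.H10Kn
import Cfsg.Agent.Lib.Odd.BGRep5

set_option autoImplicit false
open Cfsg

namespace Cfsg.Agent.S4959

open CA CA.H10Kn CA.BlkVal CChar.CharFun CChar.CharOrth CChar.CharKer CChar.CharRep Subgroup
open scoped ComplexConjugate commutatorElement

section heis
variable {p : ℕ} [hp : Fact p.Prime] {C A : Type*} [Group C] [AddCommGroup A] [Module (ZMod p) A]

/-- Fixed vectors. -/
def Fx (ρ : Representation (ZMod p) C A) (c : C) : Submodule (ZMod p) A :=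
  LinearMap.eqLocus (ρ c) LinearMap.id

theorem mem_Fx {ρ : Representation (ZMod p) C A} {c : C} {x : A} : x ∈ Fx ρ c ↔ ρ c x = x :=
  Iff.rfl

/-- A function whose square has the size of `n`. -/
def Good {H : Type*} [Group H] [Fintype H] (θ : H → ℂ) (n : H → ℕ) : Prop :=
  OS θ ∧ (∀ (σ : ℂ ≃+* ℂ) c, ‖σ (θ c)‖ ^ 2 = n c) ∧ ∀ c, IsIntegral ℤ (θ c ^ 2 / n c)

theorem Good.mul {H : Type*} [Group H] [Fintype H] {θ η : H → ℂ} {n m : H → ℕ} (h : Good θ n)
    (h' : Good η m) : Good (θ * η) fun c => n c * m c :=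
  ⟨h.1.mul h'.1, fun σ c => by
    rw [Pi.mul_apply, map_mul, norm_mul, mul_pow, h.2.1, h'.2.1, Nat.cast_mul], fun c => by
    rw [Pi.mul_apply, mul_pow, Nat.cast_mul, mul_div_mul_comm]
    exact (h.2.2 c).mul (h'.2.2 c)⟩

theorem exists_fix [Finite C] (hC : ¬ p ∣ Nat.card C) (ρ : Representation (ZMod p) C A)
    (c : C) (f : A →ₗ[ZMod p] ZMod p) (hf : ∀ x, f (ρ c x) = f x) {w : A} (hw : f w ≠ 0) :
    ∃ x ∈ Fx ρ c, f x ≠ 0 := by
  have h1 : ∀ i, f (ρ (c ^ i) w) = f w := fun i => by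
    induction i with
    | zero => simp
    | succ i ih => rw [pow_succ', map_mul, Module.End.mul_apply, hf, ih]
  refine ⟨∑ i ∈ Finset.range (Nat.card C), ρ (c ^ i) w, ?_, ?_⟩
  · rw [mem_Fx, map_sum]
    have h2 := Finset.sum_range_succ' (fun i => ρ (c ^ i) w) (Nat.card C)
    rw [Finset.sum_range_succ, pow_card_eq_one', pow_zero, add_left_inj] at h2
    rw [h2]
    exact Finset.sum_congr rfl fun i _ => by rw [pow_succ', map_mul, Module.End.mul_apply]
  · rw [map_sum]
    simp only [h1, Finset.sum_const, Finset.card_range, nsmul_eq_mul]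
    exact mul_ne_zero (by rwa [Ne, ZMod.natCast_eq_zero_iff]) hw

/-- A module with an invariant bilinear form. -/
structure Dat (p : ℕ) (C A : Type*) [Group C] [AddCommGroup A] [Module (ZMod p) A] where
  ρ : Representation (ZMod p) C A
  b : A →ₗ[ZMod p] A →ₗ[ZMod p] ZMod p
  hb : ∀ c x y, b (ρ c x) (ρ c y) = b x y

/-- The Heisenberg group extended by the operators. -/
@[ext] structure Hs (D : Dat p C A) where
  u : A
  t : ZMod p
  c : C

variable {D : Dat p C A}

instance : Mul (Hs D) :=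
  ⟨fun x y => ⟨x.u + D.ρ x.c y.u, x.t + y.t + D.b x.u (D.ρ x.c y.u), x.c * y.c⟩⟩
instance : One (Hs D) := ⟨⟨0, 0, 1⟩⟩
instance : Inv (Hs D) := ⟨fun x => ⟨-D.ρ x.c⁻¹ x.u, -x.t + D.b x.u x.u, x.c⁻¹⟩⟩

@[simp] theorem mul_u (x y : Hs D) : (x * y).u = x.u + D.ρ x.c y.u := rfl
@[simp] theorem mul_t (x y : Hs D) : (x * y).t = x.t + y.t + D.b x.u (D.ρ x.c y.u) := rfl
@[simp] theorem mul_c (x y : Hs D) : (x * y).c = x.c * y.c := rfl
@[simp] theorem one_u : (1 : Hs D).u = 0 := rfl
@[simp] theorem one_t : (1 : Hs D).t = 0 := rfl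
@[simp] theorem one_c : (1 : Hs D).c = 1 := rfl
@[simp] theorem inv_u (x : Hs D) : x⁻¹.u = -D.ρ x.c⁻¹ x.u := rfl
@[simp] theorem inv_t (x : Hs D) : x⁻¹.t = -x.t + D.b x.u x.u := rfl
@[simp] theorem inv_c (x : Hs D) : x⁻¹.c = x.c⁻¹ := rfl

instance : Group (Hs D) := Group.ofRightAxioms
  (fun x y z => by
    ext
    · simp [add_assoc]
    · simp [D.hb]; ring
    · simp [mul_assoc])
  (fun x => by ext <;> simp)
  (fun x => by ext <;> simp)

instance [Finite A] [Finite C] : Finite (Hs D) :=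
  Finite.of_injective (fun x : Hs D => (x.u, x.t, x.c)) fun x y h => by
    simp only [Prod.mk.injEq] at h
    exact Hs.ext h.1 h.2.1 h.2.2

/-- The preimage of a subspace in the Heisenberg group. -/
def S (D : Dat p C A) (U : Submodule (ZMod p) A) : Subgroup (Hs D) where
  carrier := {y | y.c = 1 ∧ y.u ∈ U}
  one_mem' := ⟨rfl, U.zero_mem⟩
  mul_mem' := fun {x y} hx hy => ⟨by simp [hx.1, hy.1], by simpa [hx.1] using U.add_mem hx.2 hy.2⟩
  inv_mem' := fun {x} hx => ⟨by simp [hx.1], by simpa [hx.1] using hx.2⟩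

instance : (S D ⊤).Normal := ⟨fun x hx g => ⟨by simp [hx.1], trivial⟩⟩

/-- Coordinates. -/
def eS (D : Dat p C A) (U : Submodule (ZMod p) A) : U × ZMod p ≃ S D U where
  toFun q := ⟨⟨q.1, q.2, 1⟩, rfl, q.1.2⟩
  invFun y := (⟨y.1.u, y.2.2⟩, y.1.t)
  left_inv _ := rfl
  right_inv y := Subtype.ext (Hs.ext rfl rfl y.2.1.symm)

theorem card_S (U : Submodule (ZMod p) A) : Nat.card (S D U) = Nat.card U * p := by
  rw [← Nat.card_congr (eS D U), Nat.card_prod, Nat.card_zmod]

theorem sum_S (U : Submodule (ZMod p) A) [Fintype (S D U)] [Fintype U] (F : Hs D → ℂ) :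
    ∑ y : S D U, F y = ∑ u : U, ∑ t : ZMod p, F ⟨u, t, 1⟩ := by
  rw [← (eS D U).sum_comp, Fintype.sum_prod_type]; rfl

theorem z_center (t : ZMod p) : (⟨0, t, 1⟩ : Hs D) ∈ center (Hs D) :=
  mem_center_iff.2 fun g => by ext <;> simp [add_comm]

theorem z_pow (t : ZMod p) (n : ℕ) : (⟨0, t, 1⟩ : Hs D) ^ n = ⟨0, n * t, 1⟩ := by
  induction n with
  | zero => ext <;> simp
  | succ n ih => rw [pow_succ, ih]; ext <;> simp; ring

theorem schur_sum {Y : Type*} [Group Y] [Finite Y] {E : Subgroup Y} [Fintype E] {χ : Y → ℂ}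
    (hχ : IsCharacter Y χ) (hE : IsIrrCharacter E fun e : E => χ e) (x y : Y) :
    χ 1 * ∑ e : E, χ (e * x * (e : Y)⁻¹ * y) = Nat.card E * (χ x * χ y) := by
  obtain ⟨n, ρ, rfl⟩ := hχ
  have hi : Representation.IsIrreducible (ρ.comp E.subtype) :=
    (isIrreducible_iff_irr (G := E) (ρ.comp E.subtype)).2 hE
  obtain ⟨a, ha⟩ := exists_eq_smul_of_commute (G := E) (ρ.comp E.subtype)
    (∑ e : E, ρ (e * x * (e : Y)⁻¹)) fun g => by
      rw [Finset.sum_mul, Finset.mul_sum]
      refine (Fintype.sum_equiv (Equiv.mulLeft g) _ _ fun e => Eq.symm ?_).symm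
      simp only [Equiv.coe_mulLeft, coe_mul, MonoidHom.comp_apply, coe_subtype, ← map_mul]
      congr 1; group
  have h1 := congrArg (LinearMap.trace ℂ _) ha
  have h2 := congrArg (fun T => LinearMap.trace ℂ _ (T * ρ y)) ha
  simp only [map_sum, Finset.sum_mul, ← map_mul, smul_mul_assoc, one_mul, map_smul,
    smul_eq_mul] at h1 h2
  have h3 : ∀ e : E, LinearMap.trace ℂ _ (ρ (e * x * (e : Y)⁻¹)) = ρ.character x := fun e =>
    ρ.char_conj x e
  simp only [h3, Finset.sum_const, Finset.card_univ, nsmul_eq_mul] at h1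
  change _ * ∑ e : E, LinearMap.trace ℂ _ (ρ _) = _
  rw [h2, Nat.card_eq_fintype_card, ← mul_assoc, ← mul_assoc, h1, Representation.character,
    map_one, mul_comm a]
  rfl

theorem good_heis [Finite A] [Fintype C] (hC : ¬ p ∣ Nat.card C) (D : Dat p C A)
    (hn : ∀ x, (∀ y, D.b y x - D.b x y = 0) → x = 0) :
    ∃ θ, Good θ fun c => Nat.card (Fx D.ρ c) := by
  classical
  have := Fintype.ofFinite A
  have := Fintype.ofFinite (Hs D)
  have hz : ∀ t : ZMod p, (⟨0, t, 1⟩ : Hs D) ∈ S D ⊤ := fun t => ⟨rfl, trivial⟩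
  obtain ⟨θ, hθ, -, h1⟩ := exists_irr_of_not_mem (G := S D ⊤) (N := ⊥) (g := ⟨_, hz 1⟩) fun h =>
    one_ne_zero (congrArg (fun y : S D ⊤ => y.1.t) (mem_bot.1 h))
  have hk : ∀ t : ZMod p, t ≠ 0 → (⟨_, hz t⟩ : S D ⊤) ∉ charKer θ := fun t ht h => h1 (by
    convert pow_mem h (t⁻¹).val using 1
    exact Subtype.ext (by rw [coe_pow, z_pow, ZMod.natCast_zmod_val, inv_mul_cancel₀ ht]))
  have cm : ∀ (c : C) (u w : A) (t : ZMod p), D.ρ c w = w → D.ρ c u = u →
      ⁅(⟨w, 0, 1⟩ : Hs D), (⟨u, t, c⟩ : Hs D)⁆ = ⟨0, D.b w u - D.b u w, 1⟩ := by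
    intro c u w t h2 h3
    rw [commutatorElement_def, mul_inv_eq_iff_eq_mul, mul_inv_eq_iff_eq_mul]
    ext <;> simp [h2]
    · abel
    · ring
  have ex : ∀ (c : C) (u : A), u ≠ 0 → D.ρ c u = u →
      ∃ w, D.ρ c w = w ∧ D.b w u - D.b u w ≠ 0 := fun c u h2 h3 => by
    obtain ⟨w, hw⟩ := not_forall.1 (mt (hn u) h2)
    exact exists_fix hC D.ρ c (D.b.flip u - D.b u) (fun x => by
      simp only [LinearMap.sub_apply, LinearMap.flip_apply]
      conv_lhs => rw [← h3, D.hb, D.hb]) hw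
  have v0 : ∀ y : S D ⊤, y.1.u ≠ 0 → θ y = 0 := fun y hy => by
    obtain ⟨w, -, hw⟩ := ex 1 y.1.u hy (by simp)
    have e : ⁅(⟨⟨w, 0, 1⟩, rfl, trivial⟩ : S D ⊤), y⁆ = ⟨_, hz (D.b w y.1.u - D.b y.1.u w)⟩ :=
      Subtype.ext (by
        have e1 : y.1 = ⟨y.1.u, y.1.t, 1⟩ := Hs.ext rfl rfl y.2.1
        refine Eq.trans ?_ (cm 1 y.1.u w y.1.t (by simp) (by simp))
        rw [← e1]; rfl)
    refine apply_eq_zero_of_commutator_mem hθ (h := ⟨⟨w, 0, 1⟩, rfl, trivial⟩) ?_ (e ▸ hk _ hw)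
    rw [e]
    exact center_le_charCenter hθ (mem_center_iff.2 fun g =>
      Subtype.ext (mem_center_iff.1 (z_center _) g.1))
  have hinv : Clif.inertia θ = ⊤ := eq_top_iff.2 fun g _ => funext fun y => by
    rw [Clif.cj_apply]
    by_cases hy : y.1.u = 0
    · congr 1
      refine Subtype.ext ?_
      have : y.1 = ⟨0, y.1.t, 1⟩ := Hs.ext hy rfl y.2.1
      change g * y.1 * g⁻¹ = y.1
      rw [this, mem_center_iff.1 (z_center _) g, mul_inv_cancel_right]
    · rw [v0 y hy, v0]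
      intro h
      apply hy
      have h2 : D.ρ g.c y.1.u = 0 := by simpa [y.2.1] using h
      simpa using congrArg (D.ρ g.c⁻¹) h2
  have hA : Nat.card A = p ^ Module.finrank (ZMod p) A := by
    rw [Module.natCard_eq_pow_finrank (K := ZMod p), Nat.card_zmod]
  have hT : Nat.card (⊤ : Submodule (ZMod p) A) = Nat.card A :=
    Nat.card_congr Submodule.topEquiv.toEquiv
  obtain ⟨χ, hχ, he⟩ := Ext.exists_ext_of_coprime_card hθ hinv (by
    let π : Hs D →* C := ⟨⟨fun y => y.c, rfl⟩, fun _ _ => rfl⟩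
    have e : S D ⊤ = π.ker := by ext y; exact and_iff_left trivial
    rw [card_S, hT, hA, ← pow_succ, e, index_ker]
    exact (((Nat.Prime.coprime_iff_not_dvd hp.out).2 hC).coprime_dvd_right
      (card_subgroup_dvd_card _)).pow_left _)
  have hc := char_of_irr hχ
  have h0 := irr_apply_one_ne_zero hχ
  have v1 : ∀ (c : C) (u : A) (t : ZMod p), u ≠ 0 → D.ρ c u = u → χ ⟨u, t, c⟩ = 0 := by
    intro c u t h2 h3
    obtain ⟨w, w1, hw⟩ := ex c u h2 h3
    refine apply_eq_zero_of_commutator_mem hχ (h := ⟨w, 0, 1⟩) ?_ fun h => hk _ hw ?_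
    · rw [cm c u w t w1 h3]; exact center_le_charCenter hχ (z_center _)
    · rw [cm c u w t w1 h3, mem_charKer hc] at h
      rw [mem_charKer (char_of_irr hθ), ← he, ← he]; exact h
  have zz : ∀ (t : ZMod p) (x : Hs D), χ (x * ⟨0, t, 1⟩) * χ (x * (⟨0, t, 1⟩ : Hs D)⁻¹) = χ x ^ 2 := by
    intro t x
    have a1 := apply_mul_of_mem_charCenter (center_le_charCenter hχ (z_center (D := D) t)) x
    have a2 := apply_mul_of_mem_charCenter (inv_mem (center_le_charCenter hχ (z_center (D := D) t))) x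
    have a3 := apply_mul_of_mem_charCenter (center_le_charCenter hχ (z_center (D := D) t))
      (⟨0, t, 1⟩ : Hs D)⁻¹
    rw [mul_inv_cancel] at a3
    rw [mem_center_iff.1 (z_center t) x, mem_center_iff.1 (inv_mem (z_center t)) x]
    apply mul_left_cancel₀ (mul_ne_zero h0 h0)
    linear_combination χ 1 * χ ((⟨0, t, 1⟩ : Hs D)⁻¹ * x) * a1 + χ ⟨0, t, 1⟩ * χ x * a2 -
      χ x ^ 2 * a3
  have hE : IsIrrCharacter (S D ⊤) fun e : S D ⊤ => χ e := by simpa only [he] using hθ
  have pne : (p : ℂ) ≠ 0 := Nat.cast_ne_zero.2 hp.out.ne_zero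
  have d1 : χ 1 ^ 2 = Nat.card A := by
    have a1 := sum_irr_mul_conj_self hE
    simp only [← char_apply_inv hc] at a1
    rw [sum_S ⊤ fun y => χ y * χ y⁻¹, card_S, hT, Finset.sum_eq_single 0 (fun u _ hu => by
      simp only [fun t => v1 1 u t (fun e => hu (Subtype.ext e)) (by simp), zero_mul,
        Finset.sum_const_zero]) (by simp)] at a1
    have a2 := fun t => zz t 1
    simp only [one_mul] at a2
    simp only [ZeroMemClass.coe_zero, a2, Finset.sum_const, Finset.card_univ, ZMod.card,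
      nsmul_eq_mul, Nat.cast_mul] at a1
    exact mul_left_cancel₀ pne (a1.trans (mul_comm _ _))
  let ι : C →* Hs D := ⟨⟨fun c => ⟨0, 0, c⟩, rfl⟩, fun a b => by ext <;> simp⟩
  have d2 : ∀ c, χ (ι c) * χ (ι c)⁻¹ = Nat.card (Fx D.ρ c) := fun c => by
    have a1 := schur_sum hc hE (ι c) (ι c)⁻¹
    have a2 : ∀ (u : A) (t : ZMod p), χ ((⟨u, t, 1⟩ : Hs D) * ι c * (⟨u, t, 1⟩ : Hs D)⁻¹ * (ι c)⁻¹) =
        if D.ρ c u = u then χ 1 else 0 := fun u t => by
      split_ifs with h
      · congr 1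
        rw [mul_inv_eq_one, mul_inv_eq_iff_eq_mul]
        ext <;> simp [ι, h]
      · rw [← v1 1 (u - D.ρ c u) (D.b u u - D.b u (D.ρ c u)) (fun e => h (sub_eq_zero.1 e).symm)
          (by simp)]
        congr 1
        ext <;> simp [ι, sub_eq_add_neg]
    rw [sum_S ⊤ fun e => χ (e * ι c * e⁻¹ * (ι c)⁻¹), card_S, hT] at a1
    simp only [a2, Finset.sum_const, Finset.card_univ, ZMod.card, nsmul_eq_mul] at a1
    rw [← Finset.mul_sum, ← Submodule.topEquiv.toEquiv.symm.sum_comp, ← Finset.sum_filter] at a1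
    have a3 : (Finset.univ.filter fun u : A => D.ρ c u = u).card = Nat.card (Fx D.ρ c) := by
      rw [Nat.card_eq_fintype_card, Fintype.card_subtype]; rfl
    have a4 : ∀ u : A, (Submodule.topEquiv.toEquiv.symm u : (⊤ : Submodule (ZMod p) A)).1 = u :=
      fun _ => rfl
    simp only [a4, Finset.sum_const, a3, nsmul_eq_mul, Nat.cast_mul, ← d1] at a1
    apply mul_left_cancel₀ (mul_ne_zero (pow_ne_zero 2 h0) pne)
    linear_combination -a1
  refine ⟨fun c => χ (ι c), OS.of_char (char_comp hc ι), fun σ c => ?_, fun c => ?_⟩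
  · have a1 := char_apply_inv (MatRep.isCharacter_map (σ : ℂ →+* ℂ) hc) (ι c)
    have a2 := congrArg σ (d2 c)
    rw [map_mul, map_natCast] at a2
    simp only [RingHom.coe_coe] at a1
    rw [a1, Complex.mul_conj, Complex.normSq_eq_norm_sq] at a2
    exact_mod_cast a2
  · have hcm : ∀ (s : zpowers (ι c)) (e : S D (Fx D.ρ c)), Commute (s : Hs D) e := by
      rintro ⟨_, k, rfl⟩ e
      refine Commute.zpow_left ?_ k
      have := mem_Fx.1 e.2.2
      ext <;> simp [ι, e.2.1, this]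
    have a0 := char_comp hc ((zpowers (ι c)).subtype.noncommCoprod (S D (Fx D.ρ c)).subtype hcm)
    have a1 := ((os_prod a0 ⟨_, mem_zpowers _⟩).mul
      (os_prod (char_comp_inv a0) ⟨_, mem_zpowers _⟩⁻¹)).2 _ irr_one
    rw [inner_one_right] at a1
    simp only [Pi.mul_apply, Prod.inv_mk, inv_inv] at a1
    change IsIntegral ℤ (_ * ∑ e : S D (Fx D.ρ c), χ (ι c * e) * χ (ι c * (e : Hs D)⁻¹)) at a1
    rw [sum_S _ fun e => χ (ι c * e) * χ (ι c * e⁻¹), card_S, Finset.sum_eq_single 0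
      (fun u _ hu => Finset.sum_eq_zero fun t _ => by
        rw [show ι c * ⟨u, t, 1⟩ = ⟨u, t, c⟩ by ext <;> simp [ι, mem_Fx.1 u.2],
          v1 c u t (fun e => hu (Subtype.ext e)) u.2, zero_mul]) (by simp)] at a1
    simp only [ZeroMemClass.coe_zero, zz, Finset.sum_const, Finset.card_univ, ZMod.card,
      nsmul_eq_mul, Nat.cast_mul] at a1
    convert a1 using 1
    field_simp

theorem card_Fx_one (ρ : Representation (ZMod p) C A) : Nat.card (Fx ρ 1) = Nat.card A :=
  Nat.card_congr (Equiv.subtypeUnivEquiv fun x => by rw [mem_Fx, map_one]; rfl)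

theorem char_fix [Finite A] [Finite C] (ρ : Representation (ZMod p) C A) (P : A → Prop)
    (hP : ∀ c x, P x → P (ρ c x)) :
    IsCharacter C fun c => (Nat.card {x // P x ∧ ρ c x = x} : ℂ) := by
  letI : MulAction C {x // P x} :=
    { smul := fun c x => ⟨ρ c x, hP c x x.2⟩
      one_smul := fun x => Subtype.ext (by change ρ 1 x = x; simp)
      mul_smul := fun a b x => Subtype.ext (by change ρ (a * b) x = ρ a (ρ b x); simp) }
  convert char_perm (G := C) {x // P x} using 3 with c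
  exact Nat.card_congr
    { toFun := fun x => ⟨⟨x.1, x.2.1⟩, Subtype.ext x.2.2⟩
      invFun := fun x => ⟨x.1.1, x.1.2, congrArg Subtype.val x.2⟩
      left_inv := fun _ => rfl
      right_inv := fun _ => rfl }

theorem gauss_sq {B : Type*} [AddCommGroup B] [Module (ZMod p) B] [Fintype B] (h2 : p ≠ 2)
    (s : B →ₗ[ZMod p] B →ₗ[ZMod p] ZMod p) (hs : ∀ x y, s x y = s y x)
    (hn : ∀ x, (∀ y, s x y = 0) → x = 0) (ψ : AddChar (ZMod p) ℂ) (hψ : ψ.IsPrimitive) :
    (∑ x, ψ (s x x)) * conj (∑ x, ψ (s x x)) = Nat.card B ∧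
      (∑ x, ψ (s x x)) ^ 2 = conj (∑ x, ψ (s x x)) ^ 2 := by
  classical
  have hc : ∀ t, conj (ψ t) = ψ (-t) := fun t => by
    rw [AddChar.map_neg_eq_inv, Complex.inv_def, Complex.normSq_eq_norm_sq, AddChar.norm_apply]
    simp
  have two : (2 : ZMod p) ≠ 0 := fun h => h2 ((Nat.prime_dvd_prime_iff_eq hp.out Nat.prime_two).1
    ((ZMod.natCast_eq_zero_iff 2 p).1 h))
  simp only [map_sum, hc]
  constructor
  · rw [Finset.sum_mul_sum, Finset.sum_comm]
    have e : ∀ w : B, ∑ u, ψ (s u u) * ψ (-s w w) = ∑ d, ψ (s d d) * ψ (s d w * 2) := fun w =>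
      (Fintype.sum_equiv (Equiv.addRight w) _ _ fun d => by
        rw [← AddChar.map_add_eq_mul, ← AddChar.map_add_eq_mul]
        congr 1
        simp [hs w d]; ring).symm
    simp only [e]
    rw [Finset.sum_comm, Finset.sum_eq_single 0 (fun d _ hd => ?_) (by simp)]
    · simp
    · rw [← Finset.mul_sum]
      obtain ⟨y, hy⟩ := not_forall.1 (mt (hn d) hd)
      let φ : AddChar B ℂ := ψ.compAddMonoidHom ((2 : ZMod p) • s d).toAddMonoidHom
      have h1 : φ ≠ 0 := fun h => by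
        refine hψ (mul_ne_zero hy two) (AddChar.ext _ _ fun t => ?_)
        have := DFunLike.congr_fun h (t • y)
        simp only [φ, AddChar.compAddMonoidHom_apply, LinearMap.toAddMonoidHom_coe, map_smul,
          LinearMap.smul_apply, smul_eq_mul, AddChar.zero_apply] at this
        rw [AddChar.mulShift_apply, AddChar.one_apply, ← this]
        congr 1; ring
      have := AddChar.sum_eq_zero_iff_ne_zero.2 h1
      simp only [φ, AddChar.compAddMonoidHom_apply, LinearMap.toAddMonoidHom_coe,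
        LinearMap.smul_apply, smul_eq_mul, mul_comm (2 : ZMod p)] at this
      rw [this, mul_zero]
  · obtain ⟨a, b, hab⟩ := ZMod.sq_add_sq p (-1)
    rw [sq, sq, Finset.sum_mul_sum, Finset.sum_mul_sum, ← Fintype.sum_prod_type',
      ← Fintype.sum_prod_type']
    let f : B × B → B × B := fun q => (a • q.1 + b • q.2, -b • q.1 + a • q.2)
    have hf : Function.Bijective f := Finite.injective_iff_bijective.1 fun q r h => by
      obtain ⟨h1, h3⟩ := Prod.mk.inj h
      have k1 : (a ^ 2 + b ^ 2) • q.1 = (a ^ 2 + b ^ 2) • r.1 := by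
        linear_combination (norm := module) a • h1 - b • h3
      have k2 : (a ^ 2 + b ^ 2) • q.2 = (a ^ 2 + b ^ 2) • r.2 := by
        linear_combination (norm := module) b • h1 + a • h3
      rw [hab] at k1 k2
      exact Prod.ext (by simpa using k1) (by simpa using k2)
    refine (Fintype.sum_bijective f hf _ _ fun q => ?_).symm
    rw [← AddChar.map_add_eq_mul, ← AddChar.map_add_eq_mul]
    congr 1
    simp only [f, map_add, map_smul, LinearMap.add_apply, LinearMap.smul_apply, smul_eq_mul,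
      hs q.2 q.1]
    linear_combination -(s q.1 q.1 + s q.2 q.2) * hab

theorem good_gauss [Finite A] [Fintype C] (hC : ¬ p ∣ Nat.card C) (h2 : p ≠ 2) (D : Dat p C A)
    (hs : ∀ x y, D.b x y = D.b y x) (hn : ∀ x, (∀ y, D.b x y = 0) → x = 0) :
    ∃ θ, Good θ fun c => Nat.card (Fx D.ρ c) := by
  classical
  have := Fintype.ofFinite A
  obtain ⟨ψ, hψ⟩ : ∃ ψ : AddChar (ZMod p) ℂ, ψ.IsPrimitive :=
    ⟨_, AddChar.FiniteField.primitiveChar_to_Complex_isPrimitive _⟩
  have key := fun c => gauss_sq h2 (D.b.domRestrict₁₂ (Fx D.ρ c) (Fx D.ρ c)) (fun x y => hs x y)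
    fun x hx => Subtype.ext (hn x fun y => by_contra fun h => by
      obtain ⟨w, w1, w2⟩ := exists_fix hC D.ρ c (D.b x) (fun z => by
        conv_lhs => rw [← mem_Fx.1 x.2, D.hb]) h
      exact w2 (hx ⟨w, w1⟩))
  refine ⟨fun c => ∑ x : Fx D.ρ c, ψ (D.b x x), ?_, fun σ c => ?_, fun c => ?_⟩
  · have h1 : ∀ t, IsIntegral ℤ (ψ t) := fun t =>
      isIntegral_of_pow_eq_one hp.out.ne_zero (by
        rw [← AddChar.map_nsmul_eq_pow, nsmul_eq_mul, CharP.cast_eq_zero, zero_mul,
          AddChar.map_zero_eq_one])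
    have := OS.sum Finset.univ fun t _ => (OS.of_char (char_fix D.ρ (fun x => D.b x x = t)
      fun c x hx => by rw [D.hb, hx])).smul (h1 t)
    convert this using 1
    funext c
    rw [Finset.sum_apply, ← Finset.sum_fiberwise (g := fun x : Fx D.ρ c => D.b x x)]
    refine Finset.sum_congr rfl fun t _ => ?_
    rw [Finset.sum_congr rfl fun x hx => by rw [(Finset.mem_filter.1 hx).2], Finset.sum_const,
      nsmul_eq_mul, Pi.smul_apply, smul_eq_mul, mul_comm, ← Fintype.card_subtype,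
      ← Nat.card_eq_fintype_card]
    congr 2
    exact Nat.card_congr
      { toFun := fun x => ⟨x.1.1, x.2, x.1.2⟩
        invFun := fun x => ⟨⟨x.1, x.2.2⟩, x.2.1⟩
        left_inv := fun _ => rfl
        right_inv := fun _ => rfl }
  · have := (key c _ (hψ.compMulHom_of_isPrimitive (f := (σ : ℂ →* ℂ)) σ.injective)).1
    rw [Complex.mul_conj, Complex.normSq_eq_norm_sq] at this
    rw [map_sum]
    exact_mod_cast this
  · obtain ⟨a1, a2⟩ := key c ψ hψ
    have h0 : (Nat.card (Fx D.ρ c) : ℂ) ≠ 0 := Nat.cast_ne_zero.2 Nat.card_pos.ne'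
    refine isIntegral_of_pow_eq_one two_ne_zero ?_
    rw [div_pow, div_eq_one_iff_eq (pow_ne_zero 2 h0), ← a1, mul_pow, ← a2]
    exact sq _

theorem exists_half [Finite A] [Fintype C] (hC : ¬ p ∣ Nat.card C) (D : Dat p C A)
    (ha : ∀ x, D.b x x = 0) (hn : ∀ x, (∀ y, D.b x y = 0) → x = 0) :
    ∃ θ, Good θ fun c => Nat.card (Fx D.ρ c) := by
  classical
  let e := Module.finBasis (ZMod p) A
  let N := LinearMap.toMatrix₂ e e D.b
  let B := Matrix.toLinearMap₂ e e (Matrix.of fun i j => if i < j then N i j else 0)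
  have hB : B - B.flip = D.b := by
    refine LinearMap.ext_basis e e fun i j => ?_
    have h1 : D.b (e j) (e i) = -D.b (e i) (e j) := by
      have := ha (e i + e j)
      simp only [map_add, LinearMap.add_apply, ha] at this
      linear_combination this
    simp only [LinearMap.sub_apply, LinearMap.flip_apply, B, N, Matrix.toLinearMap₂_apply_basis,
      Matrix.of_apply, LinearMap.toMatrix₂_apply]
    rcases lt_trichotomy i j with h | rfl | h
    · simp [h, h.not_gt]
    · simp [ha]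
    · simp [h, h.not_gt, h1]
  refine good_heis hC ⟨D.ρ, ∑ c, B.compl₁₂ (D.ρ c) (D.ρ c), fun c x y => ?_⟩ fun x hx =>
    hn x fun y => ?_
  · simp only [LinearMap.sum_apply, LinearMap.compl₁₂_apply]
    exact Fintype.sum_equiv (Equiv.mulRight c) _ _ fun d => by simp
  · have h1 := hx y
    have h2 : ∀ u w, B u w - B w u = D.b u w := fun u w => by rw [← hB]; rfl
    simp only [LinearMap.sum_apply, LinearMap.compl₁₂_apply, ← Finset.sum_sub_distrib, h2, D.hb,
      Finset.sum_const, Finset.card_univ, nsmul_eq_mul, ← Nat.card_eq_fintype_card] at h1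
    have h3 := (mul_eq_zero.1 h1).resolve_left (by rwa [ZMod.natCast_eq_zero_iff])
    have := ha (x + y)
    simp only [map_add, LinearMap.add_apply, ha] at this
    linear_combination this - h3

theorem good_all [Finite A] [Fintype C] (hC : ¬ p ∣ Nat.card C) (D : Dat p C A)
    (hn : ∀ x, (∀ y, D.b x y = 0) → x = 0) : ∃ θ, Good θ fun c => Nat.card (Fx D.ρ c) := by
  classical
  obtain ⟨U, W, hc, hU, hW, ⟨a, a1, a2, a3⟩, ⟨s, s1, s2, s3⟩, h2⟩ := S4966.result p hC D.ρ D.b
    (LinearMap.BilinForm.nondegenerate_iff_ker_eq_bot.2 (LinearMap.ker_eq_bot'.2 fun x hx =>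
      hn x fun y => by rw [hx]; rfl)) D.hb
  let ρU := (Subrepresentation.mk U fun g _ h => hU g _ h : Subrepresentation D.ρ).toRepresentation
  let ρW := (Subrepresentation.mk W fun g _ h => hW g _ h : Subrepresentation D.ρ).toRepresentation
  obtain ⟨θ, hθ⟩ := exists_half hC ⟨ρU, LinearMap.domRestrict₁₂ a U U, fun c x y => a2 c _ x.2 _ y.2⟩
    (fun x => a1 x) fun x hx => Subtype.ext (a3 _ x.2 fun y hy => hx ⟨y, hy⟩)
  obtain ⟨η, hη⟩ : ∃ η, Good η fun c => Nat.card (Fx ρW c) := by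
    by_cases h : p = 2
    · have e : ∀ c, Nat.card (Fx ρW c) = Nat.card W := fun c =>
        Nat.card_congr (Equiv.subtypeUnivEquiv fun x => Subtype.ext (h2 h c x x.2))
      obtain ⟨r, hr⟩ := IsAlgClosed.exists_pow_nat_eq (Nat.card W : ℂ) two_pos
      refine ⟨r • fun _ => 1, (OS.of_char char_one).smul (IsIntegral.of_pow two_pos
        (hr ▸ isIntegral_natCast _)), fun σ c => ?_, fun c => ?_⟩
      · simp only [Pi.smul_apply, smul_eq_mul, mul_one, e]
        rw [← norm_pow, ← map_pow, hr, map_natCast, Complex.norm_natCast]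
      · simp only [Pi.smul_apply, smul_eq_mul, mul_one, e, hr]
        rw [div_self (Nat.cast_ne_zero.2 Nat.card_pos.ne')]
        exact isIntegral_one
    · exact good_gauss hC h ⟨ρW, LinearMap.domRestrict₁₂ s W W, fun c x y => s2 c _ x.2 _ y.2⟩
        (fun x y => s1 x y) fun x hx => Subtype.ext (s3 _ x.2 fun y hy => hx ⟨y, hy⟩)
  suffices e : ∀ c, Nat.card (Fx ρU c) * Nat.card (Fx ρW c) = Nat.card (Fx D.ρ c) from
    ⟨θ * η, funext e ▸ hθ.mul hη⟩
  intro c
  rw [← Nat.card_prod]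
  refine Nat.card_congr (Equiv.ofBijective (fun q => ⟨q.1.1.1 + q.2.1.1, by
    rw [mem_Fx, map_add]
    exact congrArg₂ _ (congrArg Subtype.val q.1.2) (congrArg Subtype.val q.2.2)⟩) ⟨?_, ?_⟩)
  · intro q r h
    have h' : q.1.1.1 + q.2.1.1 = r.1.1.1 + r.2.1.1 := Subtype.ext_iff.1 h
    have := (Submodule.prodEquivOfIsCompl U W hc).injective (a₁ := (q.1.1, q.2.1))
      (a₂ := (r.1.1, r.2.1)) h'
    exact Prod.ext (Subtype.ext (Prod.mk.inj this).1) (Subtype.ext (Prod.mk.inj this).2)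
  · rintro ⟨x, hx⟩
    obtain ⟨⟨u, w⟩, rfl⟩ := (Submodule.prodEquivOfIsCompl U W hc).surjective x
    have := (Submodule.prodEquivOfIsCompl U W hc).injective (a₁ := (ρU c u, ρW c w))
      (a₂ := (u, w)) ((map_add (D.ρ c) u.1 w.1).symm.trans hx)
    exact ⟨(⟨u, (Prod.mk.inj this).1⟩, ⟨w, (Prod.mk.inj this).2⟩), rfl⟩

theorem os_inv {H : Type*} [Group H] [Fintype H] {π : H → ℂ} (h : OS π) (k : ℕ) :
    ∃ (N : ℕ) (R : H → ℂ), OS R ∧ ∀ c, ∏ i ∈ Finset.range k, ((p : ℂ) ^ i - π c) = p ^ N - π c * R c := by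
  have one : OS fun _ : H => (1 : ℂ) := OS.of_char char_one
  have ip : ∀ n : ℕ, IsIntegral ℤ ((p : ℂ) ^ n) := fun n => (isIntegral_natCast p).pow n
  induction k with
  | zero => exact ⟨0, 0, OS.zero, by simp⟩
  | succ k ih =>
    obtain ⟨N, R, h1, h2⟩ := ih
    refine ⟨N + k, _, ((h1.smul (ip k)).add (one.smul (ip N))).add
      ((h.mul h1).smul isIntegral_one.neg), fun c => ?_⟩
    rw [Finset.prod_range_succ, h2]
    simp only [Pi.add_apply, Pi.smul_apply, Pi.mul_apply, smul_eq_mul]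
    ring

theorem exists_gamma [Finite A] [Fintype C] (hC : ¬ p ∣ Nat.card C) (D : Dat p C A)
    (hn : ∀ x, (∀ y, D.b x y = 0) → x = 0) {M : Ideal AlgInt} (hM : IsPModular p M) :
    ∃ γ : C → ℂ, OS γ ∧ γ 1 = 1 ∧ (∀ c, Fx D.ρ c ≠ ⊤ → res M (γ c) = 0) ∧
      ∀ (σ : ℂ ≃+* ℂ) c, ‖σ (γ c)‖ ^ 2 * Nat.card (Fx D.ρ c) = Nat.card A := by
  obtain ⟨θ, h1, h2, h3⟩ := good_all hC D hn
  have hπ : OS fun c => (Nat.card (Fx D.ρ c) : ℂ) := by
    convert OS.of_char (char_fix D.ρ (fun _ => True) fun _ _ _ => trivial) using 3 with c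
    exact Nat.card_congr (Equiv.subtypeEquivRight fun x => by rw [mem_Fx, true_and])
  have hc : ∀ U : Submodule (ZMod p) A, Nat.card U = p ^ Module.finrank (ZMod p) U := fun U => by
    rw [Module.natCard_eq_pow_finrank (K := ZMod p), Nat.card_zmod]
  have hA : Nat.card A = p ^ Module.finrank (ZMod p) A := by
    rw [Module.natCard_eq_pow_finrank (K := ZMod p), Nat.card_zmod]
  have h0 : ∀ c, (Nat.card (Fx D.ρ c) : ℂ) ≠ 0 := fun c => Nat.cast_ne_zero.2 Nat.card_pos.ne'
  have pne : (p : ℂ) ≠ 0 := Nat.cast_ne_zero.2 hp.out.ne_zero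
  have cj : ∀ {z : ℂ}, IsIntegral ℤ z → IsIntegral ℤ (conj z) := fun h =>
    h.map (starRingEnd ℂ).toIntAlgHom
  obtain ⟨N, R, r1, r2⟩ := os_inv (p := p) hπ (Module.finrank (ZMod p) A + 1)
  have r3 : ∀ c, (p : ℂ) ^ N = Nat.card (Fx D.ρ c) * R c := fun c => by
    rw [← sub_eq_zero, ← r2]
    exact Finset.prod_eq_zero (i := Module.finrank (ZMod p) (Fx D.ρ c))
      (Finset.mem_range.2 (Nat.lt_succ_of_le (Submodule.finrank_le _))) (by rw [hc]; simp)
  have sq : ∀ c, ∃ y, IsIntegral ℤ y ∧ (conj (θ 1) * θ c / Nat.card (Fx D.ρ c)) ^ 2 =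
      ((p ^ (Module.finrank (ZMod p) A - Module.finrank (ZMod p) (Fx D.ρ c)) : ℕ) : ℂ) * y :=
    fun c => ⟨_, (cj (h3 1)).mul (h3 c), by
      have := h0 c
      simp only [card_Fx_one, map_div₀, map_pow, map_natCast]
      rw [Nat.cast_pow, pow_sub₀ _ pne (Submodule.finrank_le _), ← Nat.cast_pow, ← Nat.cast_pow,
        ← hc, ← hA]
      have : (Nat.card A : ℂ) ≠ 0 := Nat.cast_ne_zero.2 Nat.card_pos.ne'
      field_simp⟩
  have int : ∀ c, IsIntegral ℤ (conj (θ 1) * θ c / Nat.card (Fx D.ρ c)) := fun c => by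
    obtain ⟨y, y1, y2⟩ := sq c
    exact IsIntegral.of_pow two_pos (y2 ▸ (isIntegral_natCast _).mul y1)
  refine ⟨fun c => conj (θ 1) * θ c / Nat.card (Fx D.ρ c), ⟨fun g x => ?_, fun μ hμ => ?_⟩, ?_,
    fun c hc' => ?_, fun σ c => ?_⟩
  · have := hπ.1 g x
    simp only at this ⊢
    rw [this, h1.1]
  · have a1 := ((h1.mul r1).smul (cj (h1.int 1))).2 μ hμ
    have e : conj (θ 1) • (θ * R) =
        (p : ℂ) ^ N • fun c => conj (θ 1) * θ c / Nat.card (Fx D.ρ c) := funext fun c => by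
      have := h0 c
      simp only [Pi.smul_apply, Pi.mul_apply, smul_eq_mul, r3 c]
      field_simp
    rw [e, CChar.CharFun.inner_smul_left] at a1
    have a2 : IsIntegral ℤ (Nat.card C * classInner
        (fun c => conj (θ 1) * θ c / Nat.card (Fx D.ρ c)) μ) := by
      rw [card_mul_inner]
      exact IsIntegral.sum _ fun c _ => (int c).mul (cj (char_isIntegral (char_of_irr hμ) c))
    obtain ⟨a, b, hab⟩ := Nat.isCoprime_iff_coprime.2
      (((Nat.Prime.coprime_iff_not_dvd hp.out).2 hC).pow_left N)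
    have hab' : (a : ℂ) * p ^ N + b * Nat.card C = 1 := by exact_mod_cast hab
    have a3 := ((isIntegral_intCast a).mul a1).add ((isIntegral_intCast b).mul a2)
    rwa [← mul_assoc, ← mul_assoc, ← add_mul, hab', one_mul] at a3
  · have := h2 (RingEquiv.refl ℂ) 1
    simp only [RingEquiv.refl_apply] at this
    simp only
    rw [div_eq_one_iff_eq (h0 1), mul_comm, Complex.mul_conj, Complex.normSq_eq_norm_sq, this]
    simp
  · obtain ⟨y, y1, y2⟩ := sq c
    have := congrArg (res M) y2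
    rw [res_pow (isIntegral_mem (int c)), res_mul (isIntegral_mem (isIntegral_natCast _))
      (isIntegral_mem y1), res_natCast, (natCast_k_eq_zero_iff hM _).2 (dvd_pow_self p
        (Nat.sub_ne_zero_of_lt (Submodule.finrank_lt hc'))), zero_mul] at this
    exact pow_eq_zero_iff two_ne_zero |>.1 this
  · have a1 := h2 ((starRingAut (R := ℂ)).trans σ) 1
    simp only [card_Fx_one] at a1
    have a2 : (Nat.card (Fx D.ρ c) : ℝ) ≠ 0 := Nat.cast_ne_zero.2 Nat.card_pos.ne'
    simp only [map_div₀, map_mul, map_natCast, norm_div, norm_mul, div_pow, mul_pow, h2,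
      Complex.norm_natCast]
    rw [← a1]
    field_simp
    rfl

end heis


/-- Let X be a finite group and V a normal subgroup of X in which every element has order dividing the prime p, whose index in X is prime to p and which is its own centralizer in X; so V is an elementary abelian normal Sylow p-subgroup, and any complement G to V in X is a group of order prime to p acting faithfully on the vector space V by conjugation (the coprime linear setting of the k(GV) problem). Let G be a complement to V in X, let v be in V and let H be the centralizer of v in G. Suppose there is a subgroup U of V normalized by H, on which H acts faithfully, and carrying an H-invariant bi-additive pairing β with values in the integers modulo p that is nondegenerate on U (equivalently: the restriction of the module V to H has a faithful self-dual submodule; such a v is called a real vector for G). Then the number of conjugacy classes of X is at most the order of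 V (the real-vector criterion for the k(GV) problem). The pairing is given as a function on X whose relevant values are those on pairs from U. -/
theorem result {X : Type*} [Group X] [Finite X] (p : ℕ) [Fact p.Prime] (V : Subgroup X) [V.Normal] (hVexp : ∀ v ∈ V, v ^ p = 1) (hidx : ¬ p ∣ V.index) (hself : Subgroup.centralizer (V : Set X) = V) (G : Subgroup X) (hGV : Subgroup.IsComplement' V G) (v : X) (hv : v ∈ V) (U : Subgroup X) (hUV : U ≤ V) (hUinv : ∀ h ∈ G, h * v * h⁻¹ = v → ∀ u ∈ U, h * u * h⁻¹ ∈ U) (hUfaith : ∀ h ∈ G, h * v * h⁻¹ = v → (∀ u ∈ U, h * u * h⁻¹ = u) → h = 1) (β : X → X → ZMod p) (hβl : ∀ u ∈ U, ∀ u' ∈ U, ∀ w ∈ U, β (u * u') w = β u w + β u' w) (hβr : ∀ u ∈ U, ∀ w ∈ U, ∀ w' ∈ U, β u (w * w') = β u w + β u w') (hβinv : ∀ h ∈ G, h * v * h⁻¹ = v → ∀ u ∈ U, ∀ w ∈ U, β (h * u * h⁻¹) (h * w * h⁻¹) = β u w) (hβnd : ∀ u ∈ U, (∀ w ∈ U, β u w = 0) → u = 1) : Nat.card (ConjClasses X) ≤ Nat.card V := by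
  classical
  have hp : p.Prime := Fact.out
  obtain ⟨M, hM⟩ := exists_isPModular hp
  obtain ⟨C, hC⟩ : ∃ C, C = G ⊓ centralizer ({v} : Set X) := ⟨_, rfl⟩
  haveI := Fintype.ofFinite C
  have hV : ∀ a ∈ V, ∀ b ∈ V, a * b = b * a := fun a ha b hb => (hself.ge hb) a ha
  have hCG : C ≤ G := hC ▸ inf_le_left
  have hv' : ∀ c : C, (c : X) * v * (c : X)⁻¹ = v := fun c => by
    rw [mem_centralizer_singleton_iff.1 (hC.le c.2).2, mul_inv_cancel_right]
  have hpC : ¬ p ∣ Nat.card C := fun h =>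
    hidx (hGV.symm.index_eq_card ▸ h.trans (card_dvd_of_le hCG))
  have hU : IsElementaryAbelian p U :=
    ⟨⟨⟨fun a b => Subtype.ext (hV _ (hUV a.2) _ (hUV b.2))⟩⟩, fun x hx => hVexp x (hUV hx)⟩
  have hn : C ≤ normalizer (U : Set X) := fun c hc => BG.mem_norm_of_cj_le fun y hy => by
    obtain ⟨u, hu, rfl⟩ := BG.mem_cj'.1 hy
    exact hUinv c (hCG hc) (hv' ⟨c, hc⟩) u hu
  let ρ : Representation (ZMod p) C (BGRep.EV hU) := (BGRep.erep hU).comp (inclusion hn)
  have hρ : ∀ (c : C) (x : BGRep.EV hU), (ρ c x).val = c * x.val * (c : X)⁻¹ := fun c x => rfl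
  let b₁ : BGRep.EV hU → BGRep.EV hU →ₗ[ZMod p] ZMod p := fun x => AddMonoidHom.toZModLinearMap p
    (AddMonoidHom.mk' (fun y => β x.val y.val) fun y z => hβr _ x.val_mem _ y.val_mem _ z.val_mem)
  let b : BGRep.EV hU →ₗ[ZMod p] BGRep.EV hU →ₗ[ZMod p] ZMod p := AddMonoidHom.toZModLinearMap p
    (AddMonoidHom.mk' b₁ fun x y => LinearMap.ext fun z => hβl _ x.val_mem _ y.val_mem _ z.val_mem)
  obtain ⟨γ, g1, g2, g3, g4⟩ := exists_gamma hpC ⟨ρ, b, fun c x y =>
    hβinv c (hCG c.2) (hv' c) _ x.val_mem _ y.val_mem⟩ (fun x hx => BGRep.EV.val_eq_one.1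
      (hβnd _ x.val_mem fun w hw => hx (BGRep.EV.mk hU w hw))) hM
  refine knorr hM hVexp hidx hV hGV hv hC g1 (by rw [g2]; simp) (fun c hc => g3 c fun e => hc
    (Subtype.ext (hUfaith c (hCG c.2) (hv' c) fun u hu => congrArg BGRep.EV.val
      (mem_Fx.1 (e.ge (Submodule.mem_top (x := BGRep.EV.mk hU u hu))))))) fun σ c => ?_
  have e1 := g4 σ c
  have e2 : Nat.card (Fx ρ c) = Nat.card (U ⊓ (V ⊓ centralizer {(c : X)}) : Subgroup X) :=
    Nat.card_congr
      { toFun := fun x => ⟨x.1.val, x.1.val_mem, hUV x.1.val_mem, mem_centralizer_singleton_iff.2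
          (mul_inv_eq_iff_eq_mul.1 (congrArg BGRep.EV.val (mem_Fx.1 x.2))).symm⟩
        invFun := fun x => ⟨BGRep.EV.mk hU x.1 x.2.1, BGRep.EV.ext' (by
          rw [hρ, mul_inv_eq_iff_eq_mul]
          exact (mem_centralizer_singleton_iff.1 x.2.2.2).symm)⟩
        left_inv := fun _ => rfl
        right_inv := fun _ => rfl }
  have e3 := BG.card_sup_mul_inf (A := U) (N := V ⊓ centralizer {(c : X)})
    (BG.norm_of_cent fun u hu => BG.mem_cent.2 fun w hw => hV w hw.1 u (hUV hu))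
  have e4 := card_le_of_le (sup_le hUV inf_le_left : U ⊔ V ⊓ centralizer {(c : X)} ≤ V)
  change _ * (Nat.card (Fx ρ c) : ℝ) = Nat.card U at e1
  rw [e2] at e1
  refine le_of_mul_le_mul_right ?_ (Nat.cast_pos.2 (Nat.card_pos
    (α := (U ⊓ (V ⊓ centralizer {(c : X)}) : Subgroup X))))
  rw [mul_right_comm, e1, ← Nat.cast_mul, ← e3, Nat.cast_mul]
  gcongr

end Cfsg.Agent.S4959
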