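import Cfsg.Statements.S4964
import Cfsg.Agent.Lib.Block.BlkQuo
import Cfsg.Agent.Lib.Grp.Coprime2
import Cfsg.Agent.Lib.Grp.PGFrattini

set_option autoImplicit false
open Cfsg

namespace Cfsg.Agent.S4964
open Cfsg MonoidAlgebra CA.BlkAlg CA.BlkVal CA.BlkOmega CA.BlkRed CA.BlkCore CA.BlkDefect CA.BlkInd CA.BlkHeight CA.SylIn CA.H12PPart CChar.CharFun CChar.CharOrth Subgroup CA.BlkKer CChar.CharKer CA.BlkZero CChar.CharInt CA.BlkReg CA.BlkGal CA.BlkQuo

/-- Let D be a normal p-subgroup of the finite group G, let D′ be its commutator subgroup (normal in G), and fix a maximal ideal M of the algebraic integers containing p. Then (i) two irreducible characters of G ⧸ D′ lie in the same p-block if and only if their inflations to G do, and (ii) every p-block of G contains the inflation of some irreducible character of G ⧸ D′; so inflation induces a bijection between the p-blocks of G ⧸ D′ and the p-blocks of G. -/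
theorem result {G : Type*} [Group G] [Finite G] (p : ℕ) [Fact p.Prime] (M : Ideal Cfsg.AlgInt) (hM : Cfsg.IsPModular p M) (D : Subgroup G) [D.Normal] (hD : IsPGroup p D) : (∀ χ ψ : Cfsg.IrrCharacter (G ⧸ ⁅D, D⁆), Cfsg.SameBlock M (χ : G ⧸ ⁅D, D⁆ → ℂ) (ψ : G ⧸ ⁅D, D⁆ → ℂ) ↔ Cfsg.SameBlock M ((χ : G ⧸ ⁅D, D⁆ → ℂ) ∘ QuotientGroup.mk) ((ψ : G ⧸ ⁅D, D⁆ → ℂ) ∘ QuotientGroup.mk)) ∧ ∀ B : Set (Cfsg.IrrCharacter G), Cfsg.IsPBlock M B → ∃ χ : Cfsg.IrrCharacter (G ⧸ ⁅D, D⁆), ∃ θ ∈ B, (θ : G → ℂ) = (χ : G ⧸ ⁅D, D⁆ → ℂ) ∘ QuotientGroup.mk := by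
  have hφ := QuotientGroup.mk'_surjective ⁅D, D⁆
  have hle : ⁅D, D⁆ ≤ D := commutator_le_left D D
  have hN : IsPGroup p (QuotientGroup.mk' ⁅D, D⁆).ker := by
    rw [QuotientGroup.ker_mk']; exact hD.to_le hle
  refine ⟨fun χ ψ => (sameBlock_infl_iff hφ hM hN fun g hg h => ?_).symm, fun B hB => ?_⟩
  · rw [QuotientGroup.ker_mk']
    refine centralizer_le (SetLike.coe_subset_coe.mpr hle) ?_
    haveI : (D.map (QuotientGroup.mk' ⁅D, D⁆)).Normal := Normal.map inferInstance _ hφ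
    have hc : QuotientGroup.mk' ⁅D, D⁆ g ∈
        centralizer ((D.map (QuotientGroup.mk' ⁅D, D⁆) : Subgroup _) : Set (G ⧸ ⁅D, D⁆)) := by
      by_contra hc
      exact h (coeff_eB_eq_zero_of_normal hM (isSat_of_isPBlock hM (isPBlock_blockOf χ))
        (hD.map _) hc)
    have hc' : (zpowers g).map (QuotientGroup.mk' ⁅D, D⁆) ≤
        centralizer ((D.map (QuotientGroup.mk' ⁅D, D⁆) : Subgroup _) : Set (G ⧸ ⁅D, D⁆)) := by
      rw [MonoidHom.map_zpowers, zpowers_le]; exact hc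
    refine CA.Coprime2.le_centralizer_of_commutator_le_frattini (A := zpowers g) ?_
      (fun a ha x hx => CA.PGFrattini.commutator_le_map_frattini hD ?_) (mem_zpowers g)
    · obtain ⟨n, hn⟩ := IsPGroup.iff_card.mp (hD.to_subgroup (frattini D))
      rw [hn, Nat.card_zpowers]
      exact Nat.Coprime.pow_right _ ((hM.1.coprime_iff_not_dvd.mpr hg).symm)
    · rw [← QuotientGroup.eq_one_iff]
      have := hc' (mem_map_of_mem _ ha) _ (mem_map_of_mem _ hx)
      simp only [QuotientGroup.mk'_apply] at this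
      simp only [QuotientGroup.mk_mul, QuotientGroup.mk_inv, ← this]
      group
  · obtain ⟨ψ, h⟩ := exists_infl_mem hφ hM hN hB
    exact ⟨ψ, _, h, rfl⟩

end Cfsg.Agent.S4964
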