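import Cfsg.Statements.S4965
import Mathlib.GroupTheory.GroupAction.CardCommute


set_option autoImplicit false
open Cfsg

namespace Cfsg.Agent.S4965

/-- Let X be a finite group with an abelian normal subgroup V (any two elements of V commute), and let φ be the action of X ⧸ V on V induced by conjugation (well defined because V is abelian; the hypothesis hφ says that the class of x acts as conjugation by x). Then X has at most as many conjugacy classes as the semidirect product of V by X ⧸ V formed with this action: the split extension has the largest class number among extensions with the given action. -/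
theorem result {X : Type*} [Group X] [Finite X] (V : Subgroup X) [V.Normal] (hab : ∀ a ∈ V, ∀ b ∈ V, a * b = b * a) (φ : X ⧸ V →* MulAut ↥V) (hφ : ∀ (x : X) (v : ↥V), ((φ (QuotientGroup.mk x) v : ↥V) : X) = x * v * x⁻¹) : Nat.card (ConjClasses X) ≤ Nat.card (ConjClasses (SemidirectProduct ↥V (X ⧸ V) φ)) := by
  classical
  let B : (X ⧸ V) × (X ⧸ V) → X × X := fun q =>
    if h : ∃ p : X × X, Commute p.1 p.2 ∧ (p.1 : X ⧸ V) = q.1 ∧ (p.2 : X ⧸ V) = q.2 then h.choose else 1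
  have hB : ∀ x y : X, Commute x y → Commute (B ((x : X ⧸ V), (y : X ⧸ V))).1 (B ((x : X ⧸ V), (y : X ⧸ V))).2 ∧
      ((B ((x : X ⧸ V), (y : X ⧸ V))).1 : X ⧸ V) = x ∧ ((B ((x : X ⧸ V), (y : X ⧸ V))).2 : X ⧸ V) = y := by
    intro x y hxy
    have h : ∃ p : X × X, Commute p.1 p.2 ∧ (p.1 : X ⧸ V) = ((x : X ⧸ V), (y : X ⧸ V)).1 ∧
      (p.2 : X ⧸ V) = ((x : X ⧸ V), (y : X ⧸ V)).2 := ⟨(x, y), hxy, rfl, rfl⟩
    simp only [B, dif_pos h]
    exact h.choose_spec
  have hmem : ∀ x y : X, (y : X ⧸ V) = x → x * y⁻¹ ∈ V := by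
    intro x y h
    have h1 : y⁻¹ * x ∈ V := QuotientGroup.eq.1 h
    have h2 := (inferInstance : V.Normal).conj_mem _ h1 y
    simpa [mul_assoc] using h2
  let F : {p : X × X // Commute p.1 p.2} →
      {p : SemidirectProduct ↥V (X ⧸ V) φ × SemidirectProduct ↥V (X ⧸ V) φ // Commute p.1 p.2} := fun p =>
    ⟨(⟨⟨p.1.1 * (B ((p.1.1 : X ⧸ V), (p.1.2 : X ⧸ V))).1⁻¹, hmem _ _ (hB _ _ p.2).2.1⟩, (p.1.1 : X ⧸ V)⟩,
      ⟨⟨p.1.2 * (B ((p.1.1 : X ⧸ V), (p.1.2 : X ⧸ V))).2⁻¹, hmem _ _ (hB _ _ p.2).2.2⟩, (p.1.2 : X ⧸ V)⟩), by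
      obtain ⟨⟨x, y⟩, hxy⟩ := p
      obtain ⟨h0, h1, h2⟩ := hB x y hxy
      dsimp only at h0 h1 h2 hxy ⊢
      set x0 := (B ((x : X ⧸ V), (y : X ⧸ V))).1
      set y0 := (B ((x : X ⧸ V), (y : X ⧸ V))).2
      unfold Commute SemiconjBy
      ext
      · simp only [SemidirectProduct.mul_left, Subgroup.coe_mul]
        have k1 : ∀ v : V, ((φ (x : X ⧸ V) v : V) : X) = x0 * v * x0⁻¹ := fun v => by rw [← h1, hφ]
        have k2 : ∀ v : V, ((φ (y : X ⧸ V) v : V) : X) = y0 * v * y0⁻¹ := fun v => by rw [← h2, hφ]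
        rw [k1, k2]
        change x * x0⁻¹ * (x0 * (y * y0⁻¹) * x0⁻¹) = y * y0⁻¹ * (y0 * (x * x0⁻¹) * y0⁻¹)
        have e1 : x0 * y0 = y0 * x0 := h0
        have e2 : x * y = y * x := hxy
        calc x * x0⁻¹ * (x0 * (y * y0⁻¹) * x0⁻¹) = x * y * (x0 * y0)⁻¹ := by simp [mul_assoc]
          _ = y * x * (y0 * x0)⁻¹ := by rw [e1, e2]
          _ = y * y0⁻¹ * (y0 * (x * x0⁻¹) * y0⁻¹) := by simp [mul_assoc]
      · simp only [SemidirectProduct.mul_right]
        rw [← QuotientGroup.mk_mul, ← QuotientGroup.mk_mul, hxy.eq]⟩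
  have hF : Function.Injective F := by
    rintro ⟨⟨x, y⟩, hxy⟩ ⟨⟨x', y'⟩, hxy'⟩ h
    have a1 : x * (B ((x : X ⧸ V), (y : X ⧸ V))).1⁻¹ = x' * (B ((x' : X ⧸ V), (y' : X ⧸ V))).1⁻¹ :=
      congrArg (fun p => (p.1.1.left : X)) h
    have a2 : (x : X ⧸ V) = x' := congrArg (fun p => p.1.1.right) h
    have b1 : y * (B ((x : X ⧸ V), (y : X ⧸ V))).2⁻¹ = y' * (B ((x' : X ⧸ V), (y' : X ⧸ V))).2⁻¹ :=
      congrArg (fun p => (p.1.2.left : X)) h
    have b2 : (y : X ⧸ V) = y' := congrArg (fun p => p.1.2.right) h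
    rw [a2, b2] at a1 b1
    simp only [Subtype.mk.injEq, Prod.mk.injEq]
    exact ⟨mul_right_cancel a1, mul_right_cancel b1⟩
  haveI : Finite (SemidirectProduct ↥V (X ⧸ V) φ) :=
    Finite.of_equiv _ (SemidirectProduct.equivProd (φ := φ)).symm
  have hle := Nat.card_le_card_of_injective F hF
  rw [card_comm_eq_card_conjClasses_mul_card, card_comm_eq_card_conjClasses_mul_card,
    SemidirectProduct.card, mul_comm (Nat.card V), ← Subgroup.card_eq_card_quotient_mul_card_subgroup] at hle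
  exact Nat.le_of_mul_le_mul_right hle Nat.card_pos

end Cfsg.Agent.S4965
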