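import Cfsg.Statements.S4967
import Mathlib

set_option autoImplicit false
open Cfsg

namespace Cfsg.Agent.S4967

open MonoidAlgebra Module

universe u v

theorem exists_field {F : Type u} [Field F] {H : Type v} [CommGroup H] {V : Type*} [AddCommGroup V] [Module F V]
    [Nontrivial V] (ρ : Representation F H V)
    (hirr : ∀ U : Submodule F V, (∀ h : H, ∀ u ∈ U, ρ h u ∈ U) → U = ⊥ ∨ U = ⊤) :
    ∃ (E : Type (max u v)) (_ : Field E) (_ : Algebra F E) (π : MonoidAlgebra F H →ₐ[F] E) (e : E ≃ₗ[F] V),
      Function.Surjective π ∧ ∀ r x, e (π r * x) = ρ.asAlgebraHom r (e x) := by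
  obtain ⟨v, hv⟩ := exists_ne (0 : V)
  have sur : ∀ w : V, w ≠ 0 → ∀ x, ∃ r, ρ.asAlgebraHom r w = x := fun w hw x => by
    rcases hirr (LinearMap.range (LinearMap.applyₗ w ∘ₗ ρ.asAlgebraHom.toLinearMap)) (by
      rintro h _ ⟨r, rfl⟩
      exact ⟨of F H h * r, by simp [Representation.asAlgebraHom_of]⟩) with h | h
    · exact absurd (h.le ⟨1, by simp⟩) hw
    · exact h.ge (Submodule.mem_top (x := x))
  have ker : ∀ r, ρ.asAlgebraHom r v = 0 → ρ.asAlgebraHom r = 0 := fun r hr => LinearMap.ext fun x => by
    obtain ⟨s, rfl⟩ := sur v hv x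
    rw [← End.mul_apply, ← map_mul, mul_comm, map_mul, End.mul_apply, hr, map_zero, LinearMap.zero_apply]
  have : (RingHom.ker ρ.asAlgebraHom).IsMaximal := Ideal.isMaximal_iff.2 ⟨fun h => hv (by
    simpa using congrArg (· v) (RingHom.mem_ker.1 h)), fun J r hJ hr hr' => by
      obtain ⟨s, hs⟩ := sur _ (mt (ker r) hr) v
      have := hJ (RingHom.mem_ker.2 (ker (1 - s * r) (by simp [hs])))
      simpa using J.add_mem this (J.mul_mem_left s hr')⟩
  let f := LinearMap.applyₗ v ∘ₗ (Ideal.kerLiftAlg ρ.asAlgebraHom).toLinearMap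
  have hf : ∀ r, f (Ideal.Quotient.mk _ r) = ρ.asAlgebraHom r v := fun _ => rfl
  refine ⟨_ ⧸ RingHom.ker ρ.asAlgebraHom, Ideal.Quotient.field _, inferInstance, Ideal.Quotient.mkₐ F _,
    LinearEquiv.ofBijective f ⟨(injective_iff_map_eq_zero _).2 fun x hx => ?_, fun x => ?_⟩,
    Ideal.Quotient.mk_surjective, fun r x => ?_⟩
  · obtain ⟨r, rfl⟩ := Ideal.Quotient.mk_surjective x
    exact Ideal.Quotient.eq_zero_iff_mem.2 (ker r hx)
  · exact (sur v hv x).elim fun r hr => ⟨_, (hf r).trans hr⟩
  · obtain ⟨s, rfl⟩ := Ideal.Quotient.mk_surjective x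
    exact (hf (r * s)).trans (by rw [map_mul]; rfl)

/-- Let F be a finite field with r elements and of characteristic p, H a finite abelian group of order prime to p, and V a faithful irreducible representation of H over F of dimension n (faithful: distinct elements act differently; irreducible: the only H-invariant subspaces are 0 and V). Call V self-dual when it carries a nondegenerate H-invariant bilinear form. If n = 1 and V is self-dual then H has order at most 2. If n ≥ 2 then V is self-dual if and only if n is even and the order of H divides r^(n/2) + 1. -/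
theorem result {F : Type*} [Field F] [Fintype F] (p : ℕ) [Fact p.Prime] [CharP F p] {H : Type*} [CommGroup H] [Finite H] (hcop : ¬ p ∣ Nat.card H) {V : Type*} [AddCommGroup V] [Module F V] [FiniteDimensional F V] (ρ : Representation F H V) (hfaith : Function.Injective ρ) (hirr : ∀ U : Submodule F V, (∀ h : H, ∀ u ∈ U, ρ h u ∈ U) → U = ⊥ ∨ U = ⊤) : (Module.finrank F V = 1 → (∃ B : LinearMap.BilinForm F V, B.Nondegenerate ∧ ∀ h : H, ∀ x y : V, B (ρ h x) (ρ h y) = B x y) → Nat.card H ≤ 2) ∧ (2 ≤ Module.finrank F V → ((∃ B : LinearMap.BilinForm F V, B.Nondegenerate ∧ ∀ h : H, ∀ x y : V, B (ρ h x) (ρ h y) = B x y) ↔ (Even (Module.finrank F V) ∧ Nat.card H ∣ Fintype.card F ^ (Module.finrank F V / 2) + 1))) := by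
  by_cases h0 : finrank F V = 0
  · exact ⟨by omega, by omega⟩
  have := Module.nontrivial_of_finrank_pos (R := F) (M := V) (Nat.pos_of_ne_zero h0)
  obtain ⟨E, _, _, π, e, hπ, he⟩ := exists_field ρ hirr
  have : Module.Finite F E := Module.Finite.equiv e.symm
  have : Finite E := Module.finite_of_finite F
  let χ : H →* E := π.toMonoidHom.comp (of F H)
  have hχ : ∀ h x, e (χ h * x) = ρ h (e x) := fun h x => (he _ x).trans (by rw [Representation.asAlgebraHom_of])
  have inj : Function.Injective χ := fun a b h => hfaith (LinearMap.ext fun x => by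
    obtain ⟨x, rfl⟩ := e.surjective x
    rw [← hχ, h, hχ])
  have := isCyclic_of_injective_ringHom χ inj
  have ex : ∀ k, (∀ h, χ h ^ k = 1) → Nat.card H ∣ k := fun k hk => by
    rw [← IsCyclic.exponent_eq_card, Monoid.exponent_dvd_iff_forall_pow_eq_one]
    exact fun h => inj (by rw [map_pow, hk, map_one])
  have key : (∃ B : LinearMap.BilinForm F V, B.Nondegenerate ∧ ∀ h : H, ∀ x y : V, B (ρ h x) (ρ h y) = B x y) →
      ∃ k < finrank F E, finrank F E ∣ 2 * k ∧ ∀ h, χ h ^ (Fintype.card F ^ k + 1) = 1 := fun ⟨B, hB, hi⟩ => by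
    let a : MonoidAlgebra F H →ₐ[F] E := lift F _ H (χ.comp invMonoidHom)
    have ha : ∀ h, a (of F H h) = χ h⁻¹ := fun h => by simp [a]
    have adj : ∀ r x y, B (e (π r * x)) (e y) = B (e x) (e (a r * y)) := fun r x y => by
      induction r using MonoidAlgebra.induction_on with
      | of h =>
        rw [ha, ← hi h (e x), ← hχ, ← hχ, ← mul_assoc, ← map_mul, mul_inv_cancel, map_one, one_mul]; rfl
      | add r s hr hs => simp only [map_add, add_mul, LinearMap.add_apply, hr, hs]
      | smul c r hr => simp only [map_smul, smul_mul_assoc, LinearMap.smul_apply, hr]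
    obtain ⟨k, hk⟩ := (FiniteField.bijective_frobeniusAlgHom_pow F E).2 (π.liftOfSurjective hπ a fun r hr => by
      have := hB.2 (e (a r * 1)) fun x => by
        obtain ⟨x, rfl⟩ := e.surjective x
        rw [← adj, show π r = 0 from hr]; simp
      simpa using this)
    have hk' : ∀ h, (FiniteField.frobeniusAlgHom F E ^ k.1) (χ h) = χ h⁻¹ := fun h => by
      dsimp only at hk
      rw [hk, ← ha]; exact AlgHom.liftOfSurjective_apply ..
    refine ⟨k, k.2, ?_, fun h => ?_⟩
    · refine (FiniteField.orderOf_frobeniusAlgHom F E).symm.dvd.trans ?_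
      rw [orderOf_dvd_iff_pow_eq_one, two_mul, pow_add]
      refine AlgHom.ext fun x => ?_
      obtain ⟨r, rfl⟩ := hπ x
      induction r using MonoidAlgebra.induction_on with
      | of h => exact (congrArg _ (hk' h)).trans ((hk' _).trans (by rw [inv_inv]; rfl))
      | add r s hr hs => simp only [map_add, hr, hs]
      | smul c r hr => simp only [map_smul, hr]
    · have := hk' h
      rw [AlgHom.coe_pow, FiniteField.coe_frobeniusAlgHom, pow_iterate] at this
      dsimp only at this
      rw [pow_succ, this, ← map_mul, inv_mul_cancel, map_one]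
  rw [← e.finrank_eq]
  refine ⟨fun h1 hB => ?_, fun h2 => ⟨fun hB => ?_, fun ⟨⟨k, hk⟩, h3⟩ => ?_⟩⟩
  · obtain ⟨k, h3, -, h4⟩ := key hB
    obtain rfl : k = 0 := by omega
    exact Nat.le_of_dvd two_pos (ex _ h4)
  · obtain ⟨k, h3, ⟨c, h4⟩, h5⟩ := key hB
    have k0 : k ≠ 0 := by
      rintro rfl
      have : (⊤ : Submodule F E) ≤ Submodule.span F {1} := fun x _ => by
        obtain ⟨r, rfl⟩ := hπ x
        induction r using MonoidAlgebra.induction_on with
        | of h =>
          rcases sq_eq_one_iff.1 (h5 h) with e | e <;> rw [show π (of F H h) = _ from e]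
          exacts [Submodule.mem_span_singleton_self _, neg_mem (Submodule.mem_span_singleton_self _)]
        | add r s hr hs => rw [map_add]; exact add_mem (hr trivial) (hs trivial)
        | smul c r hr => rw [map_smul]; exact Submodule.smul_mem _ _ (hr trivial)
      have := Submodule.finrank_mono this
      rw [finrank_top, finrank_span_singleton one_ne_zero] at this
      omega
    obtain rfl : c = 1 := by
      rcases c with _ | _ | c
      · omega
      · rfl
      · nlinarith
    rw [mul_one] at h4
    rw [← h4, Nat.mul_div_cancel_left _ two_pos]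
    exact ⟨even_two_mul k, ex _ h5⟩
  let σ := FiniteField.frobeniusAlgHom F E ^ (finrank F E / 2)
  let B : LinearMap.BilinForm F E := (Algebra.traceForm F E).compl₂ σ.toLinearMap
  have hB : ∀ x y, B x y = Algebra.trace F E (x * σ y) := fun _ _ => rfl
  refine ⟨LinearMap.BilinForm.congr e B, LinearMap.BilinForm.Nondegenerate.congr e ⟨fun x hx =>
    (traceForm_nondegenerate F E).1 x fun y => ?_, fun y hy => ?_⟩, fun h x y => ?_⟩
  · obtain ⟨y, rfl⟩ := Finite.surjective_of_injective σ.injective y
    exact hx y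
  · exact (map_eq_zero_iff σ σ.injective).1 ((traceForm_nondegenerate F E).2 _ hy)
  obtain ⟨x, rfl⟩ := e.surjective x
  obtain ⟨y, rfl⟩ := e.surjective y
  have : χ h * σ (χ h) = 1 := by
    rw [AlgHom.coe_pow, FiniteField.coe_frobeniusAlgHom, pow_iterate, ← pow_succ', ← map_pow,
      orderOf_dvd_iff_pow_eq_one.1 ((orderOf_dvd_natCard h).trans h3), map_one]
  simp only [← hχ, LinearMap.BilinForm.congr_apply, e.symm_apply_apply, hB, map_mul]
  rw [mul_mul_mul_comm, this, one_mul]

end Cfsg.Agent.S4967
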