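import Cfsg.Statements.S5006
import Cfsg.Agent.Lib.Spor.M24Blk
import Cfsg.Agent.Lib.Spor.CGNorm

set_option autoImplicit false
open Cfsg

namespace Cfsg.Agent.S5006

open Cfsg CA.NatBits CA.OrbBfs CA.CGroup CA.CGConstr CA.CGParts CA.CGCert CA.CGRank CA.CGDec CA.Perm24 CA.Golay
open CA.M24Core CA.M24Sub CA.M24Tools MulAction
open scoped Pointwise
open CA.M24St2 CA.M24Syl CA.M24Cls CA.CGIso CA.CGLin CA.CGLin2 CA.M24Iso CA.CGNorm CA.M24Blk CA.BlkOne CA.BlkZero CChar.CharFun CChar.CharInt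
set_option maxRecDepth 100000

theorem sum3 (χ : IrrCharacter M24) (l : List ℕ) (n n' : ℕ)
    (h : (okM l && orb mul24 l id24 (fun t m => Nat.beq m (1 + n + n') &&
      Nat.beq (t.cnt fun c => !(Nat.beq c id24) && !allLt 24 fun i => !Nat.beq (ap8 c i) i) n) &&
      orb mul24 l id24 (fun t _ => t.all fun c _ => Nat.beq (powC mul24 id24 c 3) id24)) = true) :
    ∃ m : ℕ, χ.1 1 + n * χ.1 (elt c3A) + n' * χ.1 (elt c3B) = (1 + n + n' : ℕ) * m := by
  rw [Bool.and_eq_true, Bool.and_eq_true] at h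
  have hl := ok_of h.1.1
  obtain ⟨h1, h2⟩ := ncard_elts hl (P := fun g => g ≠ 1 ∧ (fx g).card ≠ 0) _ (fun c g hc => by
    rw [Bool.and_eq_true, ← fx_ne_iff hc, Bool.not_eq_true', ← Bool.not_eq_true, beq_iff, ← R_eq_iff hc R_one]) h.1.2
  have h3 := pow_elts hl 3 h.2
  have : Fact (Nat.Prime 3) := ⟨by norm_num⟩
  have ho : ∀ g : mG.gen l, g ≠ 1 → orderOf (g : M24) = 3 := fun g hg =>
    orderOf_eq_prime (h3 g g.2) fun e => hg (Subtype.ext e)
  refine sum_three (char_restrict (char_of_irr χ.2) (mG.gen l)) (fun g => (fx g).card ≠ 0) (fun g hg hp => ?_)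
    (fun g hg hp => ?_) ?_ h1
  · obtain ⟨k, hk⟩ := conj3A (ho g hg) hp
    exact hk ▸ irr_classFun χ.2 _ k
  · obtain ⟨k, hk⟩ := conj3B (ho g hg) (not_not.1 hp)
    exact hk ▸ irr_classFun χ.2 _ k
  · simpa only [ne_eq, Subtype.ext_iff, Subgroup.coe_one] using h2

theorem idx {x : M24} {n N : ℕ} (h : Nat.card (Subgroup.centralizer ({x} : Set M24)) = N) (e : n * N = 244823040)
    (h0 : 0 < N) : (Subgroup.centralizer ({x} : Set M24)).index = n := by
  have := (Subgroup.centralizer ({x} : Set M24)).index_mul_card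
  rw [h, card_M24, ← e] at this
  exact Nat.eq_of_mul_eq_mul_right h0 this

theorem arith (k : ℕ) (a b : ℤ) (m m' : ℕ) (hk : 1024 * k ∣ 244823040)
    (h : (1024 * k : ℤ) ^ 2 + (226688 * (8 * a) ^ 2 + 485760 * (8 * b) ^ 2) ≤ 244823040)
    (h1 : (1024 * k : ℤ) + 64 * a = 9 * m) (h2 : (1024 * k : ℤ) + 14 * (8 * a) + 12 * (8 * b) = 27 * m') : False := by
  have h3 : k ≤ 15 := by nlinarith [sq_nonneg a, sq_nonneg b]
  have h4 : a ≤ 4 := by nlinarith [sq_nonneg (k : ℤ), sq_nonneg b]
  have h5 : -4 ≤ a := by nlinarith [sq_nonneg (k : ℤ), sq_nonneg b]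
  have h6 : b ≤ 2 := by nlinarith [sq_nonneg (k : ℤ), sq_nonneg a]
  have h7 : -2 ≤ b := by nlinarith [sq_nonneg (k : ℤ), sq_nonneg a]
  interval_cases k <;> interval_cases a <;> interval_cases b <;> omega

theorem no_dz {M : Ideal AlgInt} (hM : IsPModular 2 M) (χ : IrrCharacter M24) : ¬ DZ 2 χ := by
  intro h
  have hd := irr_apply_one_eq χ.2
  have h1 := (dz_iff_pow_dvd Nat.prime_two).1 h
  have h2 := charDegree_dvd_card χ.2
  rw [card_M24, show Nat.factorization 244823040 2 = 10 by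
    rw [Nat.factorization_def _ Nat.prime_two]; decide +kernel] at h1
  rw [card_M24] at h2
  obtain ⟨k, hk⟩ := h1
  rw [hk] at hd h2
  obtain ⟨m1, e1⟩ := sum3 χ [296157030170245377128629833156895881882412279389659201796, 173752697589372817078959399918403224281122480387002597636] 8 0 (by decide +kernel)
  obtain ⟨m2, e2⟩ := sum3 χ [c3B] 0 2 (by decide +kernel)
  obtain ⟨m3, e3⟩ := sum3 χ [296157030170245377128629833156895881882412279389659201796, 173178739612333271532861086458659037230086826523814461956] 14 12 (by decide +kernel)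
  rw [hd] at e1 e2 e3
  obtain ⟨a, ha⟩ := dvd_of_dz hM h (y := elt c3A) (c := 8) (n := 9 * m1 - 1024 * k) (i := 3) (j := 3)
    (by push_cast at e1 ⊢; linear_combination e1) (by norm_num) (by rw [stC3A.card]; norm_num)
  obtain ⟨b, hb⟩ := dvd_of_dz hM h (y := elt c3B) (c := 2) (n := 3 * m2 - 1024 * k) (i := 1) (j := 3)
    (by push_cast at e2 ⊢; linear_combination e2) (by norm_num) (by rw [stC3B.card]; norm_num)
  have ha' : χ.1 (elt c3A) = (8 * a : ℤ) := by
    have := congrArg (Int.cast : ℤ → ℂ) ha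
    push_cast at e1 this ⊢; linear_combination (e1 + this) / 8
  have hb' : χ.1 (elt c3B) = (8 * b : ℤ) := by
    have := congrArg (Int.cast : ℤ → ℂ) hb
    push_cast at e2 this ⊢; linear_combination (e2 + this) / 2
  have n1 : elt c3A ≠ 1 := fun e => by have := ord3A; rw [e, orderOf_one] at this; omega
  have n2 : elt c3B ≠ 1 := fun e => by have := ord3B; rw [e, orderOf_one] at this; omega
  have n3 : ¬ IsConj (elt c3A) (elt c3B) := fun e => by
    obtain ⟨c, hc⟩ := isConj_iff.1 e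
    have := card_fx_conj c (elt c3A)
    rw [hc, card_fx3A, card_fx3B] at this; omega
  have n4 : elt c3A ≠ elt c3B := fun e => n3 (e ▸ IsConj.refl _)
  classical
  have h3 := norm_le χ {1, elt c3A, elt c3B} (by
    simp only [Finset.mem_insert, Finset.mem_singleton]
    rintro x (rfl | rfl | rfl) y (rfl | rfl | rfl) hc <;>
      first | rfl | exact (isConj_one_right.1 hc).symm | exact isConj_one_left.1 hc | exact absurd hc n3 | exact absurd hc.symm n3)
  rw [Finset.sum_insert (by simp [n1.symm, n2.symm]), Finset.sum_insert (by simp [n4]), Finset.sum_singleton,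
    idx stC3A.card (n := 226688) (by norm_num) (by norm_num), idx stC3B.card (n := 485760) (by norm_num) (by norm_num),
    idx (x := 1) (N := 244823040) (n := 1) (by rw [← card_M24]; simp [Subgroup.centralizer_eq_top_iff_subset.2]) (by norm_num) (by norm_num),
    hd, ha', hb', card_M24, Complex.norm_natCast, Complex.norm_intCast, Complex.norm_intCast, sq_abs, sq_abs] at h3
  rw [ha', hb'] at e3
  have h4 : ((1024 : ℝ) * k) ^ 2 + (226688 * (8 * a) ^ 2 + 485760 * (8 * b) ^ 2) ≤ 244823040 := by simpa using h3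
  refine arith k a b m1 m3 (by simpa using h2) (by exact_mod_cast h4) (by omega) ?_
  exact_mod_cast e3

/-- All irreducible complex characters of the Mathieu group `M₂₄` lie in a single 2-block: any two of them lie in the same block relative to every maximal ideal of the algebraic integers containing 2. -/
theorem result (M : Ideal Cfsg.AlgInt) (hM : Cfsg.IsPModular 2 M)
    (χ ψ : Cfsg.IrrCharacter ↥Cfsg.M24) : Cfsg.SameBlock M (χ : ↥Cfsg.M24 → ℂ) (ψ : ↥Cfsg.M24 → ℂ) := by
  refine one_block hM (fun z hz => ?_) (no_dz hM) χ ψ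
  rcases CA.M24Cls.conj2 hz with ⟨k, hk⟩ | ⟨k, hk⟩
  · exact ⟨_, (isConj_iff.2 ⟨k, hk⟩).symm, loc2A⟩
  · exact ⟨_, (isConj_iff.2 ⟨k, hk⟩).symm, loc2B⟩

end Cfsg.Agent.S5006
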