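import Cfsg.Statements.S5014
import Cfsg.Agent.Lib.Root.R1

set_option autoImplicit false
open Cfsg

namespace Cfsg.Agent.S5014

open Subgroup CA.Amb CA.AmbCore CA.AmbRes CA.Root

/-- Let X = ⟨A, B⟩ be a rank one group with unipotent subgroups A and B and let Ω be the set of conjugates of A under X. Then Ω has at least three members, X acts doubly transitively on Ω by conjugation (any two ordered pairs of distinct members are carried to one another by a single element of X), and A acts regularly on Ω with A removed: for C, D in Ω different from A there is exactly one element of A conjugating C to D. -/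
theorem result {G : Type*} [Group G] {A B : Subgroup G} (h : Cfsg.IsRankOnePair A B) :
    (∃ C₁ ∈ Cfsg.unipotentSubgroups A B, ∃ C₂ ∈ Cfsg.unipotentSubgroups A B, ∃ C₃ ∈ Cfsg.unipotentSubgroups A B,
      C₁ ≠ C₂ ∧ C₁ ≠ C₃ ∧ C₂ ≠ C₃) ∧
    (∀ C₁ ∈ Cfsg.unipotentSubgroups A B, ∀ C₂ ∈ Cfsg.unipotentSubgroups A B, ∀ D₁ ∈ Cfsg.unipotentSubgroups A B,
      ∀ D₂ ∈ Cfsg.unipotentSubgroups A B, C₁ ≠ C₂ → D₁ ≠ D₂ →
        ∃ x ∈ A ⊔ B, Cfsg.conjBy C₁ x = D₁ ∧ Cfsg.conjBy C₂ x = D₂) ∧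
    (∀ C ∈ Cfsg.unipotentSubgroups A B, ∀ D ∈ Cfsg.unipotentSubgroups A B, C ≠ A → D ≠ A →
      ∃! a : G, a ∈ A ∧ Cfsg.conjBy C a = D) := by
  have h : RO A B := h
  refine ⟨?_, fun C₁ h1 C₂ h2 D₁ h3 D₂ h4 k k' => ?_, fun C h1 D h2 k k' => ?_⟩
  · obtain ⟨a, ha, h1⟩ := h.exists_ne
    exact ⟨A, Un.left A B, B, h.un_right, cj a B, h.un_right.conj (mem_sup_left ha), h.ne, (h.cj_ne ha).symm,
      fun e => h1 (h.nb ha e.symm)⟩
  · obtain ⟨x, hx, rfl, rfl⟩ := h.pair h1 h2 k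
    obtain ⟨y, hy, rfl, rfl⟩ := h.pair h3 h4 k'
    exact ⟨y * x⁻¹, mul_mem hy (inv_mem hx), by
      show cj _ _ = _; rw [cj_cj, inv_mul_cancel_right], by show cj _ _ = _; rw [cj_cj, inv_mul_cancel_right]⟩
  · obtain ⟨a, ha, rfl⟩ := h.un_ne h1 k
    obtain ⟨b, hb, rfl⟩ := h.un_ne h2 k'
    refine ⟨b * a⁻¹, ⟨mul_mem hb (inv_mem ha), by show cj _ _ = _; rw [cj_cj, inv_mul_cancel_right]⟩,
      fun c hc => eq_mul_inv_of_mul_eq (h.inj (mul_mem hc.1 ha) hb ?_)⟩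
    rw [← cj_cj]; exact hc.2

end Cfsg.Agent.S5014
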