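import Cfsg.Statements.S5015
import Cfsg.Agent.Lib.Root.R1

set_option autoImplicit false
open Cfsg

namespace Cfsg.Agent.S5015

open Subgroup CA.Amb CA.AmbCore CA.AmbRes CA.Root

/-- Let a group Y act doubly transitively on a set Ω with at least three points, and suppose that the stabilizer of a point α contains a nilpotent subgroup A, normalized by that stabilizer, which acts regularly on the points other than α. Then for any y in Y moving α, the subgroups A and y A y⁻¹ are the unipotent subgroups of a rank one group, and the normal closure of A in Y (the subgroup generated by all conjugates of A) is generated by A and y A y⁻¹ alone. -/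
theorem result {Y Ω : Type*} [Group Y] [MulAction Y Ω]
    (h2 : MulAction.IsMultiplyPretransitive Y Ω 2) (hΩ : 3 ≤ ENat.card Ω) (α : Ω) (A : Subgroup Y)
    (hA : A ≤ MulAction.stabilizer Y α) (hAn : ∀ y ∈ MulAction.stabilizer Y α, Cfsg.conjBy A y = A)
    (hnil : Group.IsNilpotent A) (hreg : ∀ β γ : Ω, β ≠ α → γ ≠ α → ∃! a : Y, a ∈ A ∧ a • β = γ)
    (y : Y) (hy : y ∉ MulAction.stabilizer Y α) :
    Cfsg.IsRankOnePair A (Cfsg.conjBy A y) ∧ Subgroup.normalClosure (A : Set Y) = A ⊔ Cfsg.conjBy A y := by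
  have k : ∀ g g' : Y, g • α = g' • α → cj g A = cj g' A := fun g g' e => by
    rw [cj_eq_cj_iff, ← cj_eq_self_iff]
    exact hAn _ (by rw [MulAction.mem_stabilizer_iff, mul_smul, e, inv_smul_smul])
  have hy' : y • α ≠ α := hy
  have fx : ∀ b ∈ cj y A, b • y • α = y • α := fun b hb => by
    have : (y⁻¹ * b * y) • α = α := hA (mem_cj.1 hb)
    rwa [mul_smul, mul_smul, inv_smul_eq_iff] at this
  have u : ∀ a ∈ A, ∀ β ≠ α, a • β = β → a = 1 := fun a ha β hβ e =>
    (hreg β β hβ hβ).unique ⟨ha, e⟩ ⟨one_mem _, one_smul _ _⟩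
  have ne : ∀ a ∈ A, ∀ β ≠ α, a • β ≠ α := fun a ha β hβ e => hβ (by
    rw [smul_eq_iff_eq_inv_smul] at e; rw [e]; exact hA (inv_mem ha))
  refine ⟨ro_mk (fun e => ?_) hnil (Group.nilpotent_of_mulEquiv (cjEquiv y A)) (fun a ha h1 => ?_)
    (fun b hb h1 => ?_), ?_⟩
  · obtain ⟨γ, h1, h2⟩ : ∃ γ, γ ≠ α ∧ γ ≠ y • α := by
      by_contra h0
      push Not at h0
      classical
      have : (Set.univ : Set Ω) ⊆ ({α, y • α} : Finset Ω) := fun x _ => by
        by_cases k1 : x = α
        · simp [k1]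
        · simp [h0 x k1]
      have k := Set.encard_le_encard this
      rw [Set.encard_coe_eq_coe_finsetCard, Set.encard_univ] at k
      have k2 : (({α, y • α} : Finset Ω).card : ℕ∞) ≤ 2 := by exact_mod_cast Finset.card_le_two
      exact absurd (hΩ.trans (k.trans k2)) (by decide)
    obtain ⟨a, ⟨ha, e'⟩, -⟩ := hreg _ γ hy' h1
    exact h2 (e'.symm.trans (fx a (e.le ha)))
  · obtain ⟨c, ⟨hc, e⟩, -⟩ := hreg (y⁻¹ • α) (y⁻¹ • a • y • α) (fun e => hy' (inv_smul_eq_iff.1 e).symm)
      (fun e => h1 (u a ha _ hy' (inv_smul_eq_iff.1 e)))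
    refine ⟨y * c * y⁻¹, conj_mem_cj.2 hc, ?_⟩
    rw [cj_cj]
    exact k _ _ (by rw [mul_smul, mul_smul, e, smul_inv_smul, mul_smul])
  · obtain ⟨c, ⟨hc, e⟩, -⟩ := hreg (y • α) (b • α) hy' (fun e => h1 (by
      have := u _ (mem_cj.1 hb) (y⁻¹ • α) (fun e => hy' (inv_smul_eq_iff.1 e).symm)
        (by rw [mul_smul, smul_inv_smul, mul_smul, e])
      rw [mul_assoc, inv_mul_eq_one] at this
      exact right_eq_mul.1 this))
    refine ⟨c, hc, ?_⟩
    rw [cj_cj]
    exact k _ _ (by rw [mul_smul, e])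
  · rw [← ncl_top]
    refine le_antisymm (ncl_le_iff.2 fun g _ => ?_) (sup_le (le_ncl _ _) (cj_le_ncl _ (mem_top y)))
    by_cases h0 : g • α = α
    · exact (hAn g h0).le.trans le_sup_left
    · obtain ⟨c, ⟨hc, e⟩, -⟩ := hreg (y • α) (g • α) hy' h0
      rw [k g (c * y) (by rw [mul_smul, e]), ← cj_cj]
      exact cj_le_of_mem le_sup_right (mem_sup_left hc)

end Cfsg.Agent.S5015
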