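import Cfsg.Statements.S5017
import Cfsg.Agent.Lib.Root.R1

set_option autoImplicit false
open Cfsg

namespace Cfsg.Agent.S5017

open Subgroup CA.Amb CA.AmbCore CA.AmbRes CA.Root

/-- Let X be a rank one group with unipotent subgroups A and B and N a normal subgroup of X. Then either X = N A or N lies in the centre of X. Consequently a perfect rank one group is quasisimple. -/
theorem result {X : Type*} [Group X] {A B : Subgroup X} (h : Cfsg.IsRankOneGroup X A B) :
    (∀ N : Subgroup X, N.Normal → N ⊔ A = ⊤ ∨ N ≤ Subgroup.center X) ∧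
    (Group.IsPerfect X → Cfsg.IsQuasisimple X) := by
  exact ⟨fun N _ => RO.normal_top h.2 h.1 N, fun hp => RO.quasisimple h.2 h.1 hp.1⟩

end Cfsg.Agent.S5017
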