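import Cfsg.Statements.S5019
import Cfsg.Agent.Lib.Root.R2

set_option autoImplicit false
open Cfsg

namespace Cfsg.Agent.S5019

open Subgroup CA.Amb CA.AmbCore CA.AmbRes CA.Root

/-- Let X be a rank one group with abelian unipotent subgroups A and B, and suppose X acts on an abelian group N (written additively) in such a way that A acts quadratically, meaning a' • (a • n − n) = a • n − n for all a, a' in A and n in N, while X as a whole does not: y • (x • n − n) ≠ x • n − n for some x, y in X and n in N. Then X is a special rank one group. -/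
theorem result {X : Type*} [Group X] {A B : Subgroup X} (h : Cfsg.IsRankOneGroup X A B)
    (hab : Cfsg.HasAbelianUnipotents A B) {N : Type*} [AddCommGroup N] [DistribMulAction X N]
    (hq : ∀ a ∈ A, ∀ a' ∈ A, ∀ n : N, a' • (a • n - n) = a • n - n)
    (hX : ∃ x y : X, ∃ n : N, y • (x • n - n) ≠ x • n - n) : Cfsg.IsSpecialRankOnePair A B := by
  refine special_iff.2 ⟨h.2, RO.sp_of_quad (N := N) h.2 (cs_le fun a ha n a' ha' => hq a ha a' ha' n) fun k => ?_⟩
  obtain ⟨x, y, n, e⟩ := hX
  rw [h.1] at k
  exact e (k (mem_cs (mem_top x) n) y (mem_top y))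

end Cfsg.Agent.S5019
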