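import Cfsg.Statements.S5020
import Cfsg.Agent.Lib.Root.R3
import Cfsg.Agent.Lib.Grp.Quasi

set_option autoImplicit false
open Cfsg

namespace Cfsg.Agent.S5020

open Subgroup CA.Amb CA.AmbCore CA.AmbRes CA.Root

/-- Let X be a special rank one group with abelian unipotent subgroups A and B, and H = N(A) ∩ N(B) its diagonal subgroup. Then either A has at most three elements and X is isomorphic to SL₂(2), SL₂(3) or PSL₂(3); or X = X' A with the commutator subgroup X' quasisimple and the commutator subgroup ⁅A, H⁆ having more than three elements. -/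
theorem result {X : Type*} [Group X] {A B : Subgroup X} (h : Cfsg.IsRankOneGroup X A B)
    (hs : Cfsg.IsSpecialRankOnePair A B) (hab : Cfsg.HasAbelianUnipotents A B) :
    (ENat.card A ≤ 3 ∧ (Nonempty (X ≃* Matrix.SpecialLinearGroup (Fin 2) (ZMod 2)) ∨
        Nonempty (X ≃* Matrix.SpecialLinearGroup (Fin 2) (ZMod 3)) ∨
        Nonempty (X ≃* Matrix.ProjectiveSpecialLinearGroup (Fin 2) (ZMod 3)))) ∨
    (commutator X ⊔ A = ⊤ ∧ Cfsg.IsQuasisimple (commutator X) ∧
      3 < ENat.card ↥(⁅A, Cfsg.rankOneDiagonal A B⁆ : Subgroup X)) := by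
  obtain ⟨h1, h2⟩ := special_iff.1 hs
  have hA := cm_self_iff.2 hab.1
  by_cases h4 : 3 < ENat.card A
  · have hp : commutator X = ⊤ := by
      have := h2.perfect h1 hA h4
      rwa [h.1] at this
    refine Or.inr ⟨by rw [hp, top_sup_eq], ?_, h4.trans_le (Set.encard_le_encard (h2.le_comm h1 hA h4))⟩
    rw [hp]
    exact CA.Quasi.qs_of_equiv (h1.quasisimple h.1 hp) topEquiv.symm
  · rw [not_lt] at h4
    refine Or.inl ⟨h4, ?_⟩
    have : Finite A := ENat.card_lt_top.1 (h4.trans_lt (by decide))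
    rw [ENat.card_eq_coe_natCard] at h4
    have h5 : Nat.card A ≤ 3 := by exact_mod_cast h4
    have h6 : 1 < Nat.card A := (one_lt_card_iff_ne_bot A).2 h1.ne_bot
    obtain ⟨a, ha, a1⟩ := h1.exists_ne
    obtain ⟨b, hb, b1, e⟩ := h1.ex ha a1
    obtain ⟨x, -, e1, -⟩ := h1.swap
    have hB : Nat.card B = Nat.card A := by rw [← e1, card_cj]
    have hp : (Nat.card A).Prime := by
      have : Nat.card A = 2 ∨ Nat.card A = 3 := by omega
      rcases this with e | e <;> rw [e] <;> decide
    have gen : ∀ (C : Subgroup X) (c : X), c ∈ C → c ≠ 1 → (Nat.card C).Prime → C ≤ zpowers c := fun C c hc c1 hp y hy => by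
      have := Fact.mk hp
      obtain ⟨k, hk⟩ := mem_zpowers_of_prime_card (G := C) rfl (g := ⟨c, hc⟩) (fun h0 => c1 (congrArg Subtype.val h0))
        (g' := ⟨y, hy⟩)
      exact ⟨k, congrArg Subtype.val hk⟩
    have top : closure {a, b} = (⊤ : Subgroup X) := by
      rw [eq_top_iff, ← h.1]
      exact sup_le ((gen A a ha a1 hp).trans (zpowers_le.2 (subset_closure (by simp))))
        ((gen B b hb b1 (hB ▸ hp)).trans (zpowers_le.2 (subset_closure (by simp))))
    have hpw : a ^ Nat.card A = 1 := congrArg Subtype.val (pow_card_eq_one' (x := (⟨a, ha⟩ : A)))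
    have ε : X ≃* closure ({a, b} : Set X) := topEquiv.symm.trans (MulEquiv.subgroupCongr top.symm)
    have : Nat.card A = 2 ∨ Nat.card A = 3 := by omega
    rcases this with e' | e' <;> rw [e'] at hpw
    · left
      rcases h2.iso h1 ha hb e hpw with ⟨⟨f⟩⟩ | ⟨⟨f⟩⟩
      · exact ⟨ε.trans f⟩
      · have : center (Matrix.SpecialLinearGroup (Fin 2) (ZMod 2)) = ⊥ := eq_bot_iff.2 fun g hg => by
          rcases (CA.SL2Basic.mem_center_iff g).1 hg with rfl | rfl
          · exact one_mem _
          · exact CA.SL2Unip.neg_eq_self_of_two rfl 1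
        exact ⟨(ε.trans f).trans ((QuotientGroup.quotientMulEquivOfEq this).trans QuotientGroup.quotientBot)⟩
    · right
      exact (h2.iso h1 ha hb e hpw).imp (fun ⟨f⟩ => ⟨ε.trans f⟩) (fun ⟨f⟩ => ⟨ε.trans f⟩)

end Cfsg.Agent.S5020
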