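import Cfsg.Statements.S5021
import Cfsg.Agent.Lib.Root.R2

set_option autoImplicit false
open Cfsg

namespace Cfsg.Agent.S5021

open Subgroup CA.Amb CA.AmbCore CA.AmbRes CA.Root

/-- In a special rank one group with abelian unipotent subgroups A and B, either A is an elementary abelian p-group for some prime p, or A is torsion-free and divisible (every element of A has an n-th root in A for every positive n). -/
theorem result {X : Type*} [Group X] {A B : Subgroup X} (h : Cfsg.IsRankOneGroup X A B)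
    (hs : Cfsg.IsSpecialRankOnePair A B) (hab : Cfsg.HasAbelianUnipotents A B) :
    (∃ p : ℕ, p.Prime ∧ Cfsg.IsElementaryAbelian p A) ∨
    ((∀ a ∈ A, a ≠ 1 → ¬ IsOfFinOrder a) ∧ ∀ a ∈ A, ∀ n : ℕ, 0 < n → ∃ c ∈ A, c ^ n = a) := by
  obtain ⟨h1, h2⟩ := special_iff.1 hs
  by_cases h0 : ∀ a ∈ A, a ≠ 1 → ¬ IsOfFinOrder a
  · exact Or.inr ⟨h0, fun a ha n hn => h2.div h1 h0 ha hn⟩
  · push Not at h0
    obtain ⟨a, ha, k1, k2⟩ := h0
    obtain ⟨p, k, hp, k3, k4⟩ := exists_prime_pow k1 k2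
    exact Or.inl ⟨p, hp, hab.1, fun y hy => h2.exp h1 (cm_self_iff.2 hab.1) (pow_mem ha k) k3 k4 hy⟩

end Cfsg.Agent.S5021
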