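import Cfsg.Statements.S5023
import Cfsg.Agent.Lib.Root.R2

set_option autoImplicit false
open Cfsg

namespace Cfsg.Agent.S5023

open Subgroup CA.Amb CA.AmbCore CA.AmbRes CA.Root

/-- Let X be a rank one group with unipotent subgroups A and B that acts faithfully on an abelian group V (written additively) with A acting quadratically: a' • (a • v − v) = a • v − v for all a, a' in A and v in V. Then A is either torsion-free or an elementary abelian p-group for some prime p. -/
theorem result {X : Type*} [Group X] {A B : Subgroup X} (h : Cfsg.IsRankOneGroup X A B)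
    {V : Type*} [AddCommGroup V] [DistribMulAction X V] (hf : ∀ x : X, (∀ v : V, x • v = v) → x = 1)
    (hq : ∀ a ∈ A, ∀ a' ∈ A, ∀ v : V, a' • (a • v - v) = a • v - v) :
    (∀ a ∈ A, a ≠ 1 → ¬ IsOfFinOrder a) ∨ ∃ p : ℕ, p.Prime ∧ Cfsg.IsElementaryAbelian p A := by
  have h1 : RO A B := h.2
  have hA : cs V A ≤ fx V A := cs_le fun a ha n a' ha' => hq a ha a' ha' n
  have cm : ∀ L : Subgroup X, cs V L ≤ fx V L → Cm L L := fun L hL a ha b hb => by
    rw [← mul_inv_eq_one]
    refine hf _ fun v => ?_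
    rw [mul_smul, ← smul_inv_smul (b * a) v, inv_smul_smul]
    generalize (b * a)⁻¹ • v = w
    have k1 := hL (mem_cs ha w) b hb
    have k2 := hL (mem_cs hb w) a ha
    rw [smul_sub, sub_eq_iff_eq_add] at k1 k2
    rw [mul_smul, mul_smul, k1, k2]; abel
  by_cases h0 : ∀ a ∈ A, a ≠ 1 → ¬ IsOfFinOrder a
  · exact Or.inl h0
  · push Not at h0
    obtain ⟨a, ha, k1, k2⟩ := h0
    obtain ⟨p, k, hp, k3, k4⟩ := exists_prime_pow k1 k2
    exact Or.inr ⟨p, hp, cm_self_iff.1 (cm A hA), fun y hy => h1.exp_of_quad hA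
      (fun k => h1.not_cm ((cm _ k).mono le_sup_left le_sup_right)) (pow_mem ha k) k3 k4 hy⟩

end Cfsg.Agent.S5023
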