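import Cfsg.Statements.S5026
import Cfsg.Agent.Lib.Root.R5

set_option autoImplicit false
open Cfsg

namespace Cfsg.Agent.S5026

open Subgroup CA.Amb CA.AmbCore CA.AmbRes CA.Root
open scoped commutatorElement

/-- Let S be a degenerate set of abstract root subgroups of G (a set of abstract transvection groups) and let a, b be commuting non-identity elements of members of S with a b ≠ 1. Then the members of S centralizing a b are exactly those centralizing both a and b. -/
theorem result {G : Type*} [Group G] {S : Set (Subgroup G)} (hS : Cfsg.IsRootSubgroupSet S) (hdeg : Cfsg.IsDegenerateRootSet S)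
    {a b : G} (ha : a ∈ Cfsg.rootElements S) (hb : b ∈ Cfsg.rootElements S) (hab : a * b = b * a) (hab1 : a * b ≠ 1) :
    Cfsg.centralizingMembers S (Subgroup.zpowers (a * b)) =
      Cfsg.centralizingMembers S (Subgroup.zpowers a) ∩ Cfsg.centralizingMembers S (Subgroup.zpowers b) := by
  have hS : RS S := hS
  obtain ⟨a1, A, hA, ha⟩ := ha
  obtain ⟨b1, B, hB, hb⟩ := hb
  have key : ∀ C : Subgroup G, ∀ x : G, C ≤ 𝐂 (zpowers x) ↔ x ∈ 𝐂 C := fun C x => by
    rw [← zpowers_le]; exact ⟨cent_symm, cent_symm⟩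
  have k : ∀ C ∈ S, a * b ∈ 𝐂 C → a ∈ 𝐂 C := fun C hC h => by
    by_contra h0
    have r1 := hS.di hdeg hA hC fun q => h0 (q.le ha)
    have r2 := hS.di hdeg hB hC fun q => h0 ((mul_mem_cancel_right (q.le hb)).1 h)
    have u := hS.un_of_cj r1 hC hB (inv_mem ha) (inv_ne_one.2 a1) hb (by
      rw [← cj_cent h a⁻¹, inv_mul_cancel_left])
    have e := r1.eq_of_mem u (Un.left A C) b1 hb (r1.eq_of_mem ((Un.left A C).conj (u.le hb)) (Un.left A C) a1
      (by rw [mem_cj, mul_assoc, hab]; simpa using ha) (cj_self ha))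
    exact hab1 (r1.nb' (mul_mem ha (e ▸ hb)) (centralizer_le_normalizer _ h))
  ext C
  simp only [centralizingMembers, Set.mem_inter_iff, Set.mem_setOf_eq, key]
  exact ⟨fun h => ⟨⟨h.1, k C h.1 h.2⟩, h.1, (mul_mem_cancel_left (k C h.1 h.2)).1 h.2⟩,
    fun h => ⟨h.1.1, mul_mem h.1.2 h.2.2⟩⟩

end Cfsg.Agent.S5026
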