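import Cfsg.Statements.S5027
import Cfsg.Agent.Lib.Root.R5

set_option autoImplicit false
open Cfsg

namespace Cfsg.Agent.S5027

open Subgroup CA.Amb CA.AmbCore CA.AmbRes CA.Root
open scoped commutatorElement

/-- Let S be a set of abstract root subgroups of G such that every member of S has a rank one partner in S (the graph of rank one pairs on S has no isolated vertex). Then the second centre of G equals its centre. -/
theorem result {G : Type*} [Group G] {S : Set (Subgroup G)} (hS : Cfsg.IsRootSubgroupSet S)
    (hF : ∀ A ∈ S, ¬ Cfsg.IsIsolatedIn (Cfsg.FAdj S) S A) : Subgroup.upperCentralSeries G 2 = Subgroup.center G := by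
  have hS : RS S := hS
  refine le_antisymm (fun z hz => ?_) (by
    rw [← Subgroup.upperCentralSeries_one]; exact Subgroup.upperCentralSeries_mono G one_le_two)
  have : centralizer {z} = ⊤ := hS.eq_top fun A hA a ha => by
    obtain ⟨B, hB, k⟩ := (ni_iff hA).1 (hF A hA)
    by_cases a1 : a = 1
    · rw [a1]; exact one_mem _
    have h1 := Subgroup.mem_upperCentralSeries_succ_iff.1 hz a
    rw [Subgroup.upperCentralSeries_one] at h1
    have := hS.cent k hB (hS.conj hA z) ha a1 (center_le_centralizer _ h1) (center_le_centralizer _ h1) (by
      rw [mem_center_iff.1 h1 a, ← conj_eq_comm]; exact conj_mem_cj.2 ha)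
    exact mem_centralizer_singleton_iff.2 (commutatorElement_eq_one_iff_mul_comm.1 this).symm
  exact mem_center_iff.2 fun g => mem_centralizer_singleton_iff.1 (this.ge (mem_top g))

end Cfsg.Agent.S5027
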