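import Cfsg.Statements.S5029
import Cfsg.Agent.Lib.Root.R5

set_option autoImplicit false
open Cfsg

namespace Cfsg.Agent.S5029

open Subgroup CA.Amb CA.AmbCore CA.AmbRes CA.Root
open scoped commutatorElement

/-- Let S be a set of abstract root subgroups of G, A ∈ S having a rank one partner in S, and B ∈ S with C = ⁅A, B⁆ ∈ S. Then the members of S contained in AC are the conjugates of A by elements of B together with C, they partition AC, the members of S inside AC partition AC so that A is a line partner of C, and for every non-identity a ∈ A the map b ↦ a⁻¹ b⁻¹ a b is an isomorphism from B onto C. -/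
theorem result {G : Type*} [Group G] {S : Set (Subgroup G)} (hS : Cfsg.IsRootSubgroupSet S)
    {A B : Subgroup G} (hA : ¬ Cfsg.IsIsolatedIn (Cfsg.FAdj S) S A) (hAS : A ∈ S) (hB : B ∈ S) (hC : ⁅A, B⁆ ∈ S) :
    Cfsg.membersIn S (A ⊔ ⁅A, B⁆) = (fun b : G => Cfsg.conjBy A b) '' (B : Set G) ∪ {⁅A, B⁆} ∧
    Cfsg.IsSubgroupPartition (A ⊔ ⁅A, B⁆) (Cfsg.membersIn S (A ⊔ ⁅A, B⁆)) ∧
    A ∈ Cfsg.linePartners S ⁅A, B⁆ ∧
    ∀ a ∈ A, a ≠ 1 → ∃ φ : ↥B ≃* ↥⁅A, B⁆, ∀ b : ↥B, (φ b : G) = a⁻¹ * (b : G)⁻¹ * a * b := by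
  have hS : RS S := hS
  have hN := (ni_iff hAS).1 hA
  have p := hS.ps hAS hB hC
  refine ⟨?_, (p.ln hS hN).2.2, (p.ln hS hN).symm.2, fun a ha a1 => ?_⟩
  · ext E
    constructor
    · rintro ⟨h1, h2⟩
      rcases p.members hS hN h1 h2 with e | ⟨b, hb, e⟩
      exacts [Or.inr e, Or.inl ⟨b, hb, e.symm⟩]
    · rintro (⟨b, hb, rfl⟩ | rfl)
      exacts [⟨hS.conj hAS b, p.cj_le hb⟩, ⟨hC, le_sup_right⟩]
  · let f : B →* ↥⁅A, B⁆ := MonoidHom.mk' (fun b => ⟨⁅a⁻¹, (b : G)⁻¹⁆, p.mem (inv_mem ha) (inv_mem b.2)⟩) fun b b' =>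
      Subtype.ext (by
        show ⁅a⁻¹, ((b : G) * b')⁻¹⁆ = ⁅a⁻¹, (b : G)⁻¹⁆ * ⁅a⁻¹, (b' : G)⁻¹⁆
        rw [hS.cm hB b b.2 b' b'.2, mul_inv_rev, comm_mul_right
          (p.c2 _ (p.mem (inv_mem ha) (inv_mem b'.2)) _ (inv_mem b.2)).symm])
    refine ⟨MulEquiv.ofBijective f ⟨fun b b' e => Subtype.ext (inv_injective (p.inj' hS hN (inv_mem ha) (inv_mem b.2)
      (inv_mem b'.2) (inv_ne_one.2 a1) (congrArg Subtype.val e))), fun c => ?_⟩, fun b => ?_⟩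
    · obtain ⟨b, hb, e⟩ := p.s1 _ (inv_mem ha) (inv_ne_one.2 a1) c c.2
      exact ⟨⟨b⁻¹, inv_mem hb⟩, Subtype.ext (by rw [← e]; show ⁅a⁻¹, b⁻¹⁻¹⁆ = _; rw [inv_inv])⟩
    · show ⁅a⁻¹, (b : G)⁻¹⁆ = _
      group

end Cfsg.Agent.S5029
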