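import Cfsg.Statements.S5030
import Cfsg.Agent.Lib.Root.R6

set_option autoImplicit false
open Cfsg

namespace Cfsg.Agent.S5030

open Subgroup CA.Amb CA.AmbCore CA.AmbRes CA.Root
open scoped commutatorElement

/-- Let S be a set of abstract root subgroups of G and A, B, C ∈ S with ⁅A, B⁆ ∈ S and ⁅B, C⁆ ∈ S, where A and C are different and commute. For a non-identity b ∈ B put X = ⟨A, b⁻¹ C b⟩ and Y = ⟨b⁻¹ A b, C⟩ and R = ⟨A, B, C⟩. Then X and Y are either both abelian or both nilpotent of class exactly two; X and Y commute elementwise; XY is normal in R with R = (XY) B; and R is nilpotent. -/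
theorem result {G : Type*} [Group G] {S : Set (Subgroup G)} (hS : Cfsg.IsRootSubgroupSet S)
    {A B C : Subgroup G} (hA : A ∈ S) (hB : B ∈ S) (hC : C ∈ S) (hAB : ⁅A, B⁆ ∈ S) (hBC : ⁅B, C⁆ ∈ S)
    (hAC : C ∈ Cfsg.commutingPartners S A)
    {b : G} (hb : b ∈ B) (hb1 : b ≠ 1) :
    ((IsMulCommutative ↥(A ⊔ Cfsg.conjBy C b⁻¹) ∧ IsMulCommutative ↥(Cfsg.conjBy A b⁻¹ ⊔ C)) ∨
      ((¬ IsMulCommutative ↥(A ⊔ Cfsg.conjBy C b⁻¹) ∧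
          ⁅⁅A ⊔ Cfsg.conjBy C b⁻¹, A ⊔ Cfsg.conjBy C b⁻¹⁆, A ⊔ Cfsg.conjBy C b⁻¹⁆ = ⊥) ∧
        (¬ IsMulCommutative ↥(Cfsg.conjBy A b⁻¹ ⊔ C) ∧
          ⁅⁅Cfsg.conjBy A b⁻¹ ⊔ C, Cfsg.conjBy A b⁻¹ ⊔ C⁆, Cfsg.conjBy A b⁻¹ ⊔ C⁆ = ⊥))) ∧
    ⁅A ⊔ Cfsg.conjBy C b⁻¹, Cfsg.conjBy A b⁻¹ ⊔ C⁆ = ⊥ ∧
    (∀ r ∈ A ⊔ B ⊔ C, Cfsg.conjBy ((A ⊔ Cfsg.conjBy C b⁻¹) ⊔ (Cfsg.conjBy A b⁻¹ ⊔ C)) r =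
      (A ⊔ Cfsg.conjBy C b⁻¹) ⊔ (Cfsg.conjBy A b⁻¹ ⊔ C)) ∧
    ((A ⊔ Cfsg.conjBy C b⁻¹) ⊔ (Cfsg.conjBy A b⁻¹ ⊔ C)) ⊔ B = A ⊔ B ⊔ C ∧
    Group.IsNilpotent ↥(A ⊔ B ⊔ C) := by
  have hS' : RS S := hS
  have p := hS'.ps hA hB hAB
  have q := (hS'.ps hB hC hBC).symm
  have hc : Cm A C := cm_iff_bot.2 hAC.2.2
  have hβ := inv_mem hb
  have β1 : b⁻¹ ≠ 1 := inv_ne_one.2 hb1
  change ((IsMulCommutative ↥(A ⊔ cj b⁻¹ C) ∧ IsMulCommutative ↥(cj b⁻¹ A ⊔ C)) ∨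
      ((¬ IsMulCommutative ↥(A ⊔ cj b⁻¹ C) ∧ ⁅⁅A ⊔ cj b⁻¹ C, A ⊔ cj b⁻¹ C⁆, A ⊔ cj b⁻¹ C⁆ = ⊥) ∧
        (¬ IsMulCommutative ↥(cj b⁻¹ A ⊔ C) ∧ ⁅⁅cj b⁻¹ A ⊔ C, cj b⁻¹ A ⊔ C⁆, cj b⁻¹ A ⊔ C⁆ = ⊥))) ∧
    ⁅A ⊔ cj b⁻¹ C, cj b⁻¹ A ⊔ C⁆ = ⊥ ∧
    (∀ r ∈ A ⊔ B ⊔ C, cj r ((A ⊔ cj b⁻¹ C) ⊔ (cj b⁻¹ A ⊔ C)) = (A ⊔ cj b⁻¹ C) ⊔ (cj b⁻¹ A ⊔ C)) ∧
    ((A ⊔ cj b⁻¹ C) ⊔ (cj b⁻¹ A ⊔ C)) ⊔ B = A ⊔ B ⊔ C ∧ Group.IsNilpotent ↥(A ⊔ B ⊔ C)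
  have hA' := hS'.conj hA b⁻¹
  have hC' := hS'.conj hC b⁻¹
  have ab : ∀ {X Y : Subgroup G}, X ∈ S → Y ∈ S → (IsMulCommutative ↥(X ⊔ Y) ↔ Cm X Y) := fun hX hY => by
    rw [← cm_self_iff]
    exact ⟨fun h => h.mono le_sup_left le_sup_right, fun h =>
      ((hS'.cm hX).sup_right h).sup_left (h.symm.sup_right (hS'.cm hY))⟩
  refine ⟨?_, (p.cm_XY hS' q hc hβ).bot, fun r hr => ?_, by rw [p.sup_XY q hβ β1, p.sup_R q], p.nil hS' q hc⟩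
  · rw [ab hA hC', ab hA' hC]
    by_cases h : Cm A (cj b⁻¹ C)
    · exact Or.inl ⟨h, q.cm_swap hc hβ β1 h⟩
    · refine Or.inr ⟨⟨h, (hS'.class_two hA hC' (p.not_ro_cj hS' hC hc hβ)).bot⟩,
        fun k => h (p.cm_swap hc.symm hβ β1 k.symm).symm,
        (hS'.class_two hA' hC fun k => q.not_ro_cj hS' hA hc.symm hβ k.symm).bot⟩
  · rw [p.sup_XY q hβ β1]
    rw [← p.sup_R q] at hr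
    exact cj_eq_self (sup_le le_normalizer (norm_sup p.norm q.norm) hr)

end Cfsg.Agent.S5030
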