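import Cfsg.Statements.S5032
import Cfsg.Agent.Lib.Root.R5

set_option autoImplicit false
open Cfsg

namespace Cfsg.Agent.S5032

open Subgroup CA.Amb CA.AmbCore CA.AmbRes CA.Root
open scoped commutatorElement

/-- Let S be a set of abstract root subgroups of G with more than one member. Then the graph of rank one pairs on S is connected if and only if S is a single conjugacy class of G and some member of S has a rank one partner in S. -/
theorem result {G : Type*} [Group G] {S : Set (Subgroup G)} (hS : Cfsg.IsRootSubgroupSet S) (h2 : ∃ A ∈ S, ∃ B ∈ S, A ≠ B) :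
    Cfsg.IsConnectedFamily (Cfsg.FAdj S) S ↔
      (Cfsg.IsConjClassOfSubgroups S ∧ ∃ A ∈ S, ¬ Cfsg.IsIsolatedIn (Cfsg.FAdj S) S A) := by
  have hS : RS S := hS
  obtain ⟨A, hA, B, hB, hne⟩ := h2
  refine ⟨fun h => ⟨⟨⟨A, hA⟩, fun C hC D hD => Rt.exists_cj (h C hC D hD)⟩, A, hA,
    (ni_iff hA).2 (Rt.ni (h A hA B hB) hne.symm)⟩, fun ⟨h, C, hC, k⟩ D hD E hE => ?_⟩
  obtain ⟨g, rfl⟩ := h.2 C hC D hD
  obtain ⟨g', rfl⟩ := h.2 C hC E hE
  have := (ni_iff hC).1 k
  exact (hS.rt_cj hC this g).symm.trans (hS.rt_cj hC this g')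

end Cfsg.Agent.S5032
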