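import Cfsg.Statements.S5033
import Cfsg.Agent.Lib.Root.R6
import Cfsg.Agent.Lib.Grp.Quasi

set_option autoImplicit false
open Cfsg

namespace Cfsg.Agent.S5033

open Subgroup CA.Amb CA.AmbCore CA.AmbRes CA.Root
open scoped commutatorElement

/-- Quasisimplicity criterion for groups generated by abstract root subgroups. Let S be a set of abstract root subgroups of G with more than one member such that: the graph of rank one pairs on S is connected; no two different members of S have the same set of commuting members of S; if S is degenerate then every member of S has more than three elements; and every rank one pair in S is special. Then for every A ∈ S one has G = G' A with A ∩ G' ≠ 1, and the commutator subgroup G' is quasisimple. Moreover G is perfect if S is non-degenerate, or if some rank one pair A, B in S generates a perfect group. -/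
theorem result {G : Type*} [Group G] {S : Set (Subgroup G)} (hS : Cfsg.IsRootSubgroupSet S) (h2 : ∃ A ∈ S, ∃ B ∈ S, A ≠ B)
    (h1 : Cfsg.IsConnectedFamily (Cfsg.FAdj S) S)
    (h2' : ∀ A ∈ S, ∀ C ∈ S, A ≠ C → Cfsg.centralizingMembers S A ≠ Cfsg.centralizingMembers S C)
    (h3 : Cfsg.IsDegenerateRootSet S → ∀ A ∈ S, 3 < ENat.card A)
    (h4 : ∀ A ∈ S, ∀ B ∈ Cfsg.rankOnePartners S A, Cfsg.IsSpecialRankOnePair A B) :
    (∀ A ∈ S, commutator G ⊔ A = ⊤ ∧ A ⊓ commutator G ≠ ⊥) ∧ Cfsg.IsQuasisimple ↥(commutator G) ∧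
    (Cfsg.IsNondegenerateRootSet S → commutator G = ⊤) ∧
    ((∃ A ∈ S, ∃ B ∈ Cfsg.rankOnePartners S A, Group.IsPerfect ↥(A ⊔ B)) → commutator G = ⊤) := by
  have hS' : RS S := hS
  have cl : ∀ A ∈ S, ∀ B ∈ S, ∃ g, B = cj g A := fun A hA B hB => Rt.exists_cj (h1 A hA B hB)
  obtain ⟨A0, hA0, B0, hB0, hne⟩ := h2
  have n0 : NI S A0 := Rt.ni (h1 A0 hA0 B0 hB0) hne.symm
  have hN : ∀ A ∈ S, NI S A := fun A hA => Rt.ni' (h1 A0 hA0 A hA) n0
  have hd : IsDegenerateRootSet S → ∀ A ∈ S, ∀ B ∈ S, RO A B → ⁅A ⊔ B, A ⊔ B⁆ = A ⊔ B := fun hd A hA B hB k =>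
    (special_iff.1 (h4 A hA B ⟨hB, k⟩)).2.perfect k (hS'.cm hA) (h3 hd A hA)
  have hp : commutator G = ⊤ := by
    refine hS'.normal_eq_top cl hA0 ?_
    by_cases h : IsDegenerateRootSet S
    · obtain ⟨B, hB, k⟩ := n0
      exact (le_sup_left.trans (hd h A0 hA0 B hB k).ge).trans (commutator_mono le_top le_top)
    · obtain ⟨E, F, p⟩ := (nd_mk hS' cl ⟨A0, hA0, n0⟩ h).ps A0 hA0
      rw [← p.eq]; exact commutator_mono le_top le_top
  refine ⟨fun A hA => by rw [hp]; exact ⟨top_sup_eq _, by rw [inf_top_eq]; exact hS.ne_bot A hA⟩, ?_,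
    fun _ => hp, fun _ => hp⟩
  obtain ⟨B, hB, k⟩ := n0
  rw [hp]
  exact CA.Quasi.qs_of_equiv (quasisimple_of hp k.center_ne fun N _ => hS'.normal cl hN h2' hd N) topEquiv.symm

end Cfsg.Agent.S5033
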