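import Cfsg.Statements.S5035
import Cfsg.Agent.Lib.Root.R5

set_option autoImplicit false
open Cfsg

namespace Cfsg.Agent.S5035

open Subgroup CA.Amb CA.AmbCore CA.AmbRes CA.Root
open scoped commutatorElement

/-- Let S be a set of abstract root subgroups of G whose graph of rank one pairs is connected, and f a homomorphism from G onto a group H. Then either the images of the members of S form a set of abstract root subgroups of H whose graph of rank one pairs is again connected, or H equals the image of a member of S. -/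
theorem result {G H : Type*} [Group G] [Group H] {S : Set (Subgroup G)} (hS : Cfsg.IsRootSubgroupSet S)
    (hc : Cfsg.IsConnectedFamily (Cfsg.FAdj S) S) (f : G →* H) (hf : Function.Surjective f) :
    (Cfsg.IsRootSubgroupSet ((fun A : Subgroup G => A.map f) '' S) ∧
      Cfsg.IsConnectedFamily (Cfsg.FAdj ((fun A : Subgroup G => A.map f) '' S)) ((fun A : Subgroup G => A.map f) '' S)) ∨
    ∃ A ∈ S, A.map f = ⊤ := by
  have hS : RS S := hS
  have gen : (⨆ A ∈ (fun A : Subgroup G => A.map f) '' S, A) = ⊤ := by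
    rw [eq_top_iff, ← map_top_of_surjective f hf, map_le_iff_le_comap]
    exact (hS.eq_top fun E hE => map_le_iff_le_comap.1 (le_iSup₂_of_le (f := fun A _ => A) _ ⟨E, hE, rfl⟩ le_rfl)).ge
  by_cases h0 : ∃ A ∈ S, A.map f = ⊥
  · obtain ⟨A, hA, e⟩ := h0
    refine Or.inr ⟨A, hA, ?_⟩
    rw [eq_top_iff, ← gen]
    refine iSup₂_le ?_
    rintro _ ⟨B, hB, rfl⟩
    obtain ⟨g, rfl⟩ := Rt.exists_cj (hc A hA B hB)
    show (cj g A).map f ≤ _
    rw [map_cj, e, cj_bot]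
  push Not at h0
  refine Or.inl ⟨⟨?_, ?_, gen, ?_, ?_⟩, ?_⟩
  · rintro _ ⟨A, hA, rfl⟩; exact cm_self_iff.1 ((hS.cm hA).map f)
  · rintro _ ⟨A, hA, rfl⟩; exact h0 A hA
  · rintro _ ⟨A, hA, rfl⟩ g
    obtain ⟨g, rfl⟩ := hf g
    exact ⟨_, hS.conj hA g, map_cj f g A⟩
  · rintro _ ⟨A, hA, rfl⟩ _ ⟨B, hB, rfl⟩
    rcases hS.tri hA hB with k | k | ⟨C, k⟩
    · exact Or.inl (k.map f).bot
    · by_cases e : A.map f = B.map f
      · exact Or.inl (by show ⁅A.map f, B.map f⁆ = ⊥; rw [← e]; exact ((hS.cm hA).map f).bot)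
      · exact Or.inr (Or.inl (k.map f e))
    · refine Or.inr (Or.inr (Ps.case (C := C.map f) ⟨⟨A, hA, rfl⟩, ⟨B, hB, rfl⟩, ⟨C, k.m3, rfl⟩,
        by rw [← k.eq, map_commutator], k.c1.map f, k.c2.map f, ?_, ?_⟩))
      · rintro _ ⟨a, ha, rfl⟩ a1 _ ⟨c, hc, rfl⟩
        obtain ⟨b, hb, rfl⟩ := k.s1 a ha (fun e => a1 (by rw [e, map_one])) c hc
        exact ⟨_, ⟨b, hb, rfl⟩, (map_commutatorElement f a b).symm⟩
      · rintro _ ⟨a, ha, rfl⟩ a1 _ ⟨c, hc, rfl⟩
        obtain ⟨b, hb, rfl⟩ := k.s2 a ha (fun e => a1 (by rw [e, map_one])) c hc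
        exact ⟨_, ⟨b, hb, rfl⟩, (map_commutatorElement f b a).symm⟩
  · rintro _ ⟨A, hA, rfl⟩ _ ⟨B, hB, rfl⟩
    refine rtg_map (fun A : Subgroup G => A.map f) (fun C D k => ?_) (hc A hA B hB)
    by_cases e : C.map f = D.map f
    · rw [e]
    · exact .single ⟨⟨C, k.1, rfl⟩, ⟨D, k.2.1, rfl⟩, RO.map k.2.2 f e⟩

end Cfsg.Agent.S5035
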