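import Cfsg.Statements.S5036
import Cfsg.Agent.Lib.Root.R5

set_option autoImplicit false
open Cfsg

namespace Cfsg.Agent.S5036

open Subgroup CA.Amb CA.AmbCore CA.AmbRes CA.Root
open scoped commutatorElement

/-- Let S be a set of abstract root subgroups of G, A, B ∈ S with C = ⁅A, B⁆ ∈ S, and D ∈ S with ⁅D, C⁆ = A. Put X = ⟨B, D⟩ and N = AC. Then B, D form a rank one pair; the conjugates of A under X are the conjugates of C under X, namely the conjugates of A by elements of B together with C, equally the conjugates of C by elements of D together with A, and they partition N; and the centralizer of N in X is central in X. -/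
theorem result {G : Type*} [Group G] {S : Set (Subgroup G)} (hS : Cfsg.IsRootSubgroupSet S)
    {A B D : Subgroup G} (hA : A ∈ S) (hB : B ∈ S) (hC : ⁅A, B⁆ ∈ S) (hD : D ∈ S) (hDC : ⁅D, ⁅A, B⁆⁆ = A) :
    Cfsg.IsRankOnePair B D ∧
    {E | ∃ x ∈ B ⊔ D, E = Cfsg.conjBy A x} = {E | ∃ x ∈ B ⊔ D, E = Cfsg.conjBy ⁅A, B⁆ x} ∧
    {E | ∃ x ∈ B ⊔ D, E = Cfsg.conjBy A x} = (fun b : G => Cfsg.conjBy A b) '' (B : Set G) ∪ {⁅A, B⁆} ∧
    {E | ∃ x ∈ B ⊔ D, E = Cfsg.conjBy A x} = (fun d : G => Cfsg.conjBy ⁅A, B⁆ d) '' (D : Set G) ∪ {A} ∧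
    Cfsg.IsSubgroupPartition (A ⊔ ⁅A, B⁆) {E | ∃ x ∈ B ⊔ D, E = Cfsg.conjBy A x} ∧
    ∀ x ∈ (B ⊔ D) ⊓ Subgroup.centralizer ((A ⊔ ⁅A, B⁆ : Subgroup G) : Set G), ∀ y ∈ B ⊔ D, x * y = y * x := by
  have hS : RS S := hS
  have p := hS.ps hA hB hC
  have q : Ps S ⁅A, B⁆ D A := by
    have := (hS.ps hD hC (by rw [hDC]; exact hA)).symm
    rwa [hDC] at this
  generalize ⁅A, B⁆ = C at *
  have r := p.ro hS q
  obtain ⟨y, hy, e⟩ := p.exists_cj hS q
  have e1 : {E | ∃ x ∈ B ⊔ D, E = conjBy A x} = {E | ∃ x ∈ B ⊔ D, E = conjBy C x} := by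
    ext E
    exact ⟨fun ⟨x, hx, k⟩ => ⟨x * y⁻¹, mul_mem hx (inv_mem hy), by
        rw [k, ← e]; exact (by rw [cj_cj, inv_mul_cancel_right] : cj x A = cj (x * y⁻¹) (cj y A))⟩,
      fun ⟨x, hx, k⟩ => ⟨x * y, mul_mem hx hy, by rw [k, ← e]; exact cj_cj _ _ _⟩⟩
  have key : ∀ {A B C D : Subgroup G}, Ps S A B C → Ps S C D A →
      {E | ∃ x ∈ B ⊔ D, E = conjBy A x} = (fun b : G => conjBy A b) '' (B : Set G) ∪ {C} := fun {A B C D} p q => by
    ext E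
    constructor
    · rintro ⟨x, hx, rfl⟩
      rcases p.family hS q hx A (Or.inr ⟨1, one_mem _, (cj_one _).symm⟩) with k | ⟨b, hb, k⟩
      exacts [Or.inr k, Or.inl ⟨b, hb, k.symm⟩]
    · rintro (⟨b, hb, rfl⟩ | rfl)
      · exact ⟨b, mem_sup_left hb, rfl⟩
      · obtain ⟨y, hy, e⟩ := p.exists_cj hS q
        exact ⟨y, hy, e.symm⟩
  have nB : NI S B := ⟨D, hD, r⟩
  have hAC : ∀ x ∈ A, x ∈ C → x = 1 := fun x hx hx' => by
    obtain ⟨b, hb, b1⟩ := hS.exists_ne hB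
    exact p.symm.inj hS nB hb hx b1 (p.c2 x hx' b hb).symm
  refine ⟨r, e1, key p q, by rw [e1, sup_comm]; exact key q p, ?_, fun x hx z hz => ?_⟩
  · rw [key p q]
    have d1 : ∀ b ∈ B, cj b A ⊓ C = ⊥ := fun b hb => by
      rw [← p.c2.cj_eq' hb, ← cj_inf, cj_eq_bot]
      exact eq_bot_iff.2 fun x hx => hAC x hx.1 hx.2
    refine ⟨?_, fun x hx _ => ?_, ?_⟩
    · rintro _ (⟨b, hb, rfl⟩ | rfl)
      exacts [p.cj_le hb, le_sup_right]
    · rcases p.cover hx with k | ⟨b, hb, k⟩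
      exacts [⟨C, Or.inr rfl, k⟩, ⟨_, Or.inl ⟨b, hb, rfl⟩, k⟩]
    · rintro _ (⟨b, hb, rfl⟩ | rfl) _ (⟨b', hb', rfl⟩ | rfl) hne
      · refine eq_bot_iff.2 fun x hx => ?_
        obtain ⟨a, ha, rfl⟩ := mem_cj'.1 hx.1
        have h1 : (b'⁻¹ * b) * a * (b'⁻¹ * b)⁻¹ ∈ A := by simpa [mul_assoc] using mem_cj.1 hx.2
        have hb2 := mul_mem (inv_mem hb') hb
        have h2 := hAC ⁅b'⁻¹ * b, a⁆ (mul_mem h1 (inv_mem ha)) (p.symm.mem hb2 ha)
        rw [p.symm.inj hS nB hb2 ha (fun e => hne (by rw [inv_mul_eq_one.1 e]))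
          (commutatorElement_eq_one_iff_mul_comm.1 h2)]
        simp
      · exact d1 b hb
      · rw [inf_comm]; exact d1 b' hb'
      · exact absurd rfl hne
  · have n : B ⊔ D ≤ 𝐍 (A ⊔ C) := sup_le p.norm (sup_comm C A ▸ q.norm)
    rcases r.normal (norm_centralizer n) with k | k
    · exact k x ⟨hx.2, hx.1⟩ z hz
    · have := commutator_mono (le_refl (C ⊔ A)) k.1
      rw [q.comm_sup hS, sup_comm C A, sup_comm _ B, comm_sup_cent p.norm le_rfl, p.comm_sup hS] at this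
      obtain ⟨a, ha, a1⟩ := hS.exists_ne hA
      exact absurd (hAC a ha (this ha)) a1

end Cfsg.Agent.S5036
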