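import Cfsg.Statements.S5037
import Cfsg.Agent.Lib.Root.R5

set_option autoImplicit false
open Cfsg

namespace Cfsg.Agent.S5037

open Subgroup CA.Amb CA.AmbCore CA.AmbRes CA.Root
open scoped commutatorElement

/-- Let S be a class of abstract root subgroups of G that is either degenerate or non-degenerate (so either the commutator case never occurs, or all three cases occur), and A ≠ C members of S. If every member of S commuting with A commutes with C, then A and C have the same commuting members of S; and if every rank one partner of A is a rank one partner of C, then A and C commute and have the same rank one partners. -/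
theorem result {G : Type*} [Group G] {S : Set (Subgroup G)} (hS : Cfsg.IsRootSubgroupClass S)
    (hdn : Cfsg.IsDegenerateRootSet S ∨ Cfsg.IsNondegenerateRootSet S)
    {A C : Subgroup G} (hA : A ∈ S) (hC : C ∈ S) (hAC : A ≠ C) :
    (Cfsg.centralizingMembers S A ⊆ Cfsg.centralizingMembers S C →
      Cfsg.centralizingMembers S A = Cfsg.centralizingMembers S C) ∧
    (Cfsg.rankOnePartners S A ⊆ Cfsg.rankOnePartners S C →
      ⁅A, C⁆ = ⊥ ∧ Cfsg.rankOnePartners S A = Cfsg.rankOnePartners S C) := by
  have hR : RS S := hS.1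
  have e1 : ∀ A C : Subgroup G, centralizingMembers S A ⊆ centralizingMembers S C ↔ ∀ B ∈ S, Cm A B → Cm C B :=
    fun A C => ⟨fun h B hB k => (cm_iff_le.2 (h ⟨hB, k.symm.le⟩).2).symm,
      fun h B k => ⟨k.1, (h B k.1 (cm_iff_le.2 k.2).symm).symm.le⟩⟩
  have e2 : ∀ A C : Subgroup G, rankOnePartners S A ⊆ rankOnePartners S C ↔ ∀ B ∈ S, RO A B → RO C B :=
    fun A C => ⟨fun h B hB k => (h ⟨hB, k⟩).2, fun h B k => ⟨k.1, h B k.1 k.2⟩⟩
  rw [Set.Subset.antisymm_iff, Set.Subset.antisymm_iff, e1, e1, e2, e2]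
  rcases hdn with hd | hn
  · refine ⟨fun h => ⟨h, hR.cm_iff_deg hd hS.2.2 hA hC h⟩, fun h => ?_⟩
    have k : ∀ B ∈ S, Cm C B → Cm A B := fun B hB q => by
      by_contra h0
      exact (h B hB (hR.di hd hA hB h0)).not_cm q
    exact ⟨(k C hC (hR.cm hC)).bot, h, fun B hB q => hR.di hd hA hB fun q' =>
      q.not_cm (hR.cm_iff_deg hd hS.2.2 hC hA k B hB q')⟩
  · have h := nd_of hS hn
    exact ⟨fun k => ⟨k, h.cm_iff hA hC k⟩, fun k => ⟨(h.cm_of_le hA hC k).bot, k, h.ro_iff hA hC k⟩⟩

end Cfsg.Agent.S5037
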