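import Cfsg.Statements.S5039
import Cfsg.Agent.Lib.Root.R6

set_option autoImplicit false
universe u
open Cfsg

namespace Cfsg.Agent.S5039

open Subgroup CA.Amb CA.AmbCore CA.AmbRes CA.Root
open scoped commutatorElement

/-- Let S be a class of abstract root subgroups of G containing two different commuting members. Suppose that, in case S is degenerate and every element of every member of S has order at most 3, the following holds: for every A ∈ S and every rank one partner B of A there are subgroups A₀ ≤ A and B₀ ≤ B generating an image of SL₂(k) with central kernel, k a field with at least four elements, A₀ and B₀ being the images of the unitriangular subgroups. Then every rank one pair A, B in S is special. -/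
theorem result {G : Type u} [Group G] {S : Set (Subgroup G)} (hS : Cfsg.IsRootSubgroupClass S)
    (hcomm : ∃ A ∈ S, ∃ C ∈ S, A ≠ C ∧ ⁅A, C⁆ = ⊥)
    (hH : Cfsg.IsDegenerateRootSet S → (∀ A ∈ S, ∀ a ∈ A, 0 < orderOf a ∧ orderOf a ≤ 3) →
      ∀ A ∈ S, ∀ B ∈ Cfsg.rankOnePartners S A, ∃ A₀ B₀ : Subgroup G, A₀ ≤ A ∧ B₀ ≤ B ∧
        ∃ (k : Type u) (_ : Field k), 3 < ENat.card k ∧ Cfsg.IsPSL2PairOver k A₀ B₀)
    {A B : Subgroup G} (hA : A ∈ S) (hB : B ∈ Cfsg.rankOnePartners S A) : Cfsg.IsSpecialRankOnePair A B := by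
  have hS' : RS S := hS.1
  have k : RO A B := hB.2
  refine special_iff.2 ⟨k, ?_⟩
  by_cases hd : IsDegenerateRootSet S
  · refine hS'.sp_deg hS.2.2 hd hcomm hA hB.1 k fun h => ?_
    obtain ⟨A0, B0, h1, h2, K, _, h3, h4⟩ := hH hd (fun E hE a ha => by
      rcases h E hE a ha with e | e
      · exact ⟨(isOfFinOrder_iff_pow_eq_one.2 ⟨2, two_pos, e⟩).orderOf_pos,
          (Nat.le_of_dvd two_pos (orderOf_dvd_of_pow_eq_one e)).trans (by norm_num)⟩
      · exact ⟨(isOfFinOrder_iff_pow_eq_one.2 ⟨3, three_pos, e⟩).orderOf_pos,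
          Nat.le_of_dvd three_pos (orderOf_dvd_of_pow_eq_one e)⟩) A hA B hB
    obtain ⟨x, hx, a, ha, h5, h6⟩ := exists_diag h3 h4
    exact ⟨x, sup_le_sup h1 h2 hx, a, h1 ha, h1 h5, h6⟩
  · exact (nd_mk hS' hS.2.2 ⟨A, hA, B, hB.1, k⟩ hd).sp hA hB.1 k

end Cfsg.Agent.S5039
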