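import Cfsg.Statements.S5040
import Cfsg.Agent.Lib.Root.R5

set_option autoImplicit false
open Cfsg

namespace Cfsg.Agent.S5040

open Subgroup CA.Amb CA.AmbCore CA.AmbRes CA.Root
open scoped commutatorElement

/-- Let S be a non-degenerate class of abstract root subgroups of G and Δ a weak TI-subset of S. Then the members of Δ commute with one another elementwise. -/
theorem result {G : Type*} [Group G] {S : Set (Subgroup G)} (hS : Cfsg.IsRootSubgroupClass S) (hnd : Cfsg.IsNondegenerateRootSet S)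
    {Δ : Set (Subgroup G)} (hΔ : Cfsg.IsWeakTISubset S Δ) : Cfsg.IsAbelianFamily Δ := by
  have h := nd_of hS hnd
  have hR := h.rs
  obtain ⟨h1, -, h2, h3⟩ := hΔ
  let N : Subgroup G :=
    { carrier := {g | ∀ A, cj g A ∈ Δ ↔ A ∈ Δ}
      one_mem' := fun A => by rw [cj_one]
      mul_mem' := fun {g k} hg hk A => by rw [← cj_cj, hg, hk]
      inv_mem' := fun {g} hg A => by rw [← hg, cj_cj_inv] }
  have k1 : ∀ A ∈ Δ, ∀ E ∈ S, E ≤ 𝐍 A → E ≤ N := fun A hA E hE hn e he => by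
    by_cases e1 : e = 1
    · rw [e1]; exact one_mem _
    rcases h3 e ⟨e1, E, hE, he⟩ with k | k
    · intro B
      refine ⟨fun q => ?_, fun q => k ▸ ⟨B, q, rfl⟩⟩
      obtain ⟨C, hC, e2⟩ := k.ge q
      exact cj_inj.1 e2 ▸ hC
    · exact absurd hA (Set.disjoint_left.1 k ⟨A, hA, cj_eq_self (hn he)⟩)
  have k2 : ∀ A ∈ Δ, ∀ B ∈ S, B ≤ N → ¬ RO A B := fun A hA B hB hn r => h2 (Set.Subset.antisymm h1 fun E hE => by
    obtain ⟨g, rfl⟩ := h.cl A (h1 hA) E hE
    exact ((h.gen (h1 hA) hB r (fun C l => k1 A hA C l.m2 l.cm.symm.le_norm) hn).ge (mem_top g) A).2 hA)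
  intro A hA B hB
  rcases hR.tri (h1 hA) (h1 hB) with k | k | ⟨C, k⟩
  · exact k
  · exact absurd k (k2 A hA B (h1 hB) (k1 B hB B (h1 hB) le_normalizer))
  · obtain ⟨F, p⟩ := (k.ln hR (h.ni A k.m1)).symm.exists_mover hR fun E hE _ => h.ni E hE
    exact absurd (k.ro hR p) (k2 B hB F p.m2 (k1 A hA F p.m2 p.c2.symm.le_norm))

end Cfsg.Agent.S5040
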