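import Cfsg.Statements.S5041
import Cfsg.Agent.Lib.Root.R5

set_option autoImplicit false
open Cfsg

namespace Cfsg.Agent.S5041

open Subgroup CA.Amb CA.AmbCore CA.AmbRes CA.Root
open scoped commutatorElement

/-- Let S be a non-degenerate class of abstract root subgroups of G. Then the graph on S joining A to its line partners, and the commuting graph on S, are both connected. -/
theorem result {G : Type*} [Group G] {S : Set (Subgroup G)} (hS : Cfsg.IsRootSubgroupClass S) (hnd : Cfsg.IsNondegenerateRootSet S) :
    Cfsg.IsConnectedFamily (Cfsg.EAdj S S) S ∧ Cfsg.IsConnectedFamily (Cfsg.DAdj S) S := by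
  have h := nd_of hS hnd
  exact ⟨fun A hA B hB => rtg_map id (fun _ _ l => .single ⟨l.m1, l.m2, l.2⟩) (h.et hA hB),
    fun A hA B hB => rtg_map id (fun _ _ l => .single ⟨l.m1, l.m2, l.ne.symm, l.cm.bot⟩) (h.et hA hB)⟩

end Cfsg.Agent.S5041
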