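import Cfsg.Statements.S5045
import Cfsg.Agent.Lib.Root.I2

set_option autoImplicit false
open Cfsg

namespace Cfsg.Agent.S5045

open Subgroup CA.RInv

/-- Let G be a finite group generated by a set D of root involutions, and W the set of members of D whose product with every other member of D has even order or is trivial (the isolated vertices of the odd-order-product graph on D). Then W is conjugation-invariant and generates a normal 2-subgroup of G meeting D in exactly W; the commutator of two members of D lying in different connected components of that graph, each with more than one member, lies in the subgroup generated by W; and for a in such a component, every member of D commuting with a, different from a and with product with a in D, lies in that component or in W. -/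
theorem result {G : Type*} [Group G] [Finite G] {D : Set G} (hD : Cfsg.IsRootInvolutionSet D) :
    (∀ w ∈ {w | Cfsg.IsIsolatedElem (Cfsg.OddAdj D) D w}, ∀ g : G, g * w * g⁻¹ ∈ {w | Cfsg.IsIsolatedElem (Cfsg.OddAdj D) D w}) ∧
    (Subgroup.closure {w | Cfsg.IsIsolatedElem (Cfsg.OddAdj D) D w}).Normal ∧
    IsPGroup 2 ↥(Subgroup.closure {w | Cfsg.IsIsolatedElem (Cfsg.OddAdj D) D w}) ∧
    (Subgroup.closure {w | Cfsg.IsIsolatedElem (Cfsg.OddAdj D) D w} : Set G) ∩ D = {w | Cfsg.IsIsolatedElem (Cfsg.OddAdj D) D w} ∧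
    (∀ a ∈ D, ∀ b ∈ D, (∃ a' ∈ Cfsg.elemComponentOf (Cfsg.OddAdj D) D a, a' ≠ a) →
      (∃ b' ∈ Cfsg.elemComponentOf (Cfsg.OddAdj D) D b, b' ≠ b) →
      Cfsg.elemComponentOf (Cfsg.OddAdj D) D a ≠ Cfsg.elemComponentOf (Cfsg.OddAdj D) D b →
        a * b * a⁻¹ * b⁻¹ ∈ Subgroup.closure {w | Cfsg.IsIsolatedElem (Cfsg.OddAdj D) D w}) ∧
    (∀ a ∈ D, (∃ a' ∈ Cfsg.elemComponentOf (Cfsg.OddAdj D) D a, a' ≠ a) →
      Cfsg.productPartners D a ⊆ Cfsg.elemComponentOf (Cfsg.OddAdj D) D a ∪ {w | Cfsg.IsIsolatedElem (Cfsg.OddAdj D) D w}) := by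
  have h := ri_of hD
  have hcj : ∀ w ∈ {w | IsIsolatedElem (OddAdj D) D w}, ∀ g : G,
      g * w * g⁻¹ ∈ {w | IsIsolatedElem (OddAdj D) D w} := fun w hw g => by
    obtain ⟨hw, h1⟩ := isolated_iff.1 hw
    refine isolated_iff.2 ⟨hD.conj_mem w hw g, fun y hy h2 => h1 _ (hD.conj_mem y hy g⁻¹) ?_⟩
    simpa [mul_assoc] using h2.cj g⁻¹
  have hle : closure {w | IsIsolatedElem (OddAdj D) D w} ≤ pCore 2 G := (closure_le _).2 fun w hw => by
    obtain ⟨hw, h1⟩ := isolated_iff.1 hw
    exact bs (h.sq w hw) fun g => ⟨2, h.pow_of_not_od hw (hD.conj_mem w hw g)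
      fun h2 => h1 _ (hD.conj_mem w hw g) h2.symm⟩
  refine ⟨hcj, ⟨fun n hn g => ?_⟩, CA.Core.isPGroup_of_le_pCore hle, ?_, ?_, ?_⟩
  · have : (closure {w | IsIsolatedElem (OddAdj D) D w}).map (MulAut.conj g).toMonoidHom ≤
        closure {w | IsIsolatedElem (OddAdj D) D w} := by
      rw [MonoidHom.map_closure]
      exact closure_mono (by rintro _ ⟨w, hw, rfl⟩; exact hcj w hw g)
    exact this ⟨n, hn, rfl⟩
  · refine Set.Subset.antisymm (fun d hd => isolated_iff.2 ⟨hd.2, fun y hy h1 => ?_⟩)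
      fun w hw => ⟨subset_closure hw, hw.1⟩
    exact h.not_od_of_mem CA.Core.isPGroup_pCore (by rw [normalizer_eq_top]; exact le_top) hd.2 hy
      (hle hd.1) h1.symm
  · rintro a ha b hb ⟨a', ha', hne⟩ ⟨b', hb', hne'⟩ hab
    obtain ⟨y, hy, oa⟩ := Rt.exists_od ha'.2 hne
    obtain ⟨y', hy', ob⟩ := Rt.exists_od hb'.2 hne'
    have hn : ¬ Rt D a b := fun r => hab (Set.ext fun x => and_congr_right fun _ =>
      ⟨fun r' => Rt.trans r.symm r', fun r' => Rt.trans r r'⟩)
    rcases h.pair a ha b hb with h1 | h1 | h1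
    · rw [h1.eq]; simpa using one_mem _
    · exact absurd (rt_of ha hb h1) hn
    · rw [h.inv ha, h.inv hb]
      exact subset_closure (isolated_iff.2 ⟨h1.2, fun z hz =>
        h.comm_isolated ha hb hy hy' oa ob hn h1.1 hz⟩)
  · rintro a ha ⟨a', ha', hne⟩ e ⟨⟨he, -, -⟩, hea⟩
    obtain ⟨y, hy, oa⟩ := Rt.exists_od ha'.2 hne
    by_cases h1 : ∀ z ∈ D, ¬ Od z e
    · exact Or.inr (isolated_iff.2 ⟨he, h1⟩)
    push Not at h1
    obtain ⟨z, hz, h1⟩ := h1
    exact Or.inl ⟨he, h.rt_of_ln ha he (h.ln_symm he ha hea) hy oa hz h1⟩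

end Cfsg.Agent.S5045
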