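import Cfsg.Statements.S5046
import Cfsg.Agent.Lib.Root.I2

set_option autoImplicit false
open Cfsg

namespace Cfsg.Agent.S5046

open Subgroup CA.RInv

/-- Let G be a finite group generated by a set D of root involutions whose odd-order-product graph is connected, and d ∈ D. Then the members e of D with the same commuting members as d are exactly those for which the union of the commuting members of d and the members whose product with d has order 4 equals the corresponding union for e. -/
theorem result {G : Type*} [Group G] [Finite G] {D : Set G} (hD : Cfsg.IsRootInvolutionSet D)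
    (hc : Cfsg.IsConnectedSet (Cfsg.OddAdj D) D) {d : G} (hd : d ∈ D) :
    Cfsg.sameCommutingClass D d =
      {e | e ∈ D ∧ Cfsg.commutingMembers D d ∪ Cfsg.fourPartners D d = Cfsg.commutingMembers D e ∪ Cfsg.fourPartners D e} := by
  have h := ri_of hD
  have key : ∀ e ∈ D, commutingMembers D e ∪ fourPartners D e = D \ Ao D e := fun e he => by
    ext y
    refine ⟨?_, fun hy => ?_⟩
    · rintro (hy | hy)
      · exact ⟨hy.1, fun h1 => h.not_od hy.1 he hy.2 h1.2⟩
      · exact ⟨hy.1, fun h1 => h1.2.symm.not_fr hy.2⟩
    · by_cases h1 : Commute y e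
      · exact Or.inl ⟨hy.1, h1⟩
      · exact Or.inr ⟨hy.1, (h.fr_of hy.1 he h1 fun h2 => hy.2 ⟨hy.1, h2⟩).symm⟩
  ext e
  rw [h.mem_E_iff (h.cls_of_conn hc) hd]
  refine and_congr_right fun he => ?_
  rw [key d hd, key e he]
  refine ⟨fun h1 => by rw [h1], fun h1 => ?_⟩
  rw [← Set.sdiff_sdiff_cancel_left (show Ao D e ⊆ D from fun _ h => h.1), ← h1,
    Set.sdiff_sdiff_cancel_left (show Ao D d ⊆ D from fun _ h => h.1)]

end Cfsg.Agent.S5046
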