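import Cfsg.Statements.S5047
import Cfsg.Agent.Lib.Root.I2

set_option autoImplicit false
open Cfsg

namespace Cfsg.Agent.S5047

open Subgroup CA.RInv

/-- Let G be a finite group generated by a set D of root involutions whose odd-order-product graph is connected, a ∈ D, and b a member of D different from a, commuting with a, with ab ∈ D, but not having the same commuting members as a. Then some member x of D with bx of order 4 has ax of order 3. -/
theorem result {G : Type*} [Group G] [Finite G] {D : Set G} (hD : Cfsg.IsRootInvolutionSet D)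
    (hc : Cfsg.IsConnectedSet (Cfsg.OddAdj D) D) {a b : G} (ha : a ∈ D) (hb : b ∈ Cfsg.productPartners D a)
    (hbE : b ∉ Cfsg.sameCommutingClass D a) : ∃ x ∈ Cfsg.fourPartners D b, orderOf (a * x) = 3 := by
  have h := ri_of hD
  have hc' := h.cls_of_conn hc
  obtain ⟨⟨hb, -, -⟩, hba⟩ := hb
  obtain ⟨x, hx, h1, h2⟩ := h.exists_three hc' ha hb (h.ln_symm hb ha hba)
    fun h1 => hbE ((h.mem_E_iff hc' ha).2 ⟨hb, h1⟩)
  exact ⟨x, ⟨hx, h1⟩, h2⟩

end Cfsg.Agent.S5047
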