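import Cfsg.Statements.S5049
import Cfsg.Agent.Lib.Root.I2

set_option autoImplicit false
open Cfsg

namespace Cfsg.Agent.S5049

open Subgroup CA.RInv

/-- Let G be a finite group generated by a set D of odd transpositions (root involutions with no product of order 4), Q = O₂(G), and for a ∈ D let Q_a be the commutator subgroup of Q with a. Then every member of D commuting with a centralizes Q_a; and for b ∈ D with ab of odd order greater than 1, the centralizer of ab in Q is the intersection of the centralizers of a and b in Q. -/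
theorem result {G : Type*} [Group G] [Finite G] {D : Set G} (hD : Cfsg.IsOddTranspositionSet D) {a : G} (ha : a ∈ D) :
    (∀ e ∈ Cfsg.commutingMembers D a, ∀ q ∈ ⁅Cfsg.pCore 2 G, Subgroup.zpowers a⁆, e * q = q * e) ∧
    (∀ b ∈ Cfsg.oddPartners D a,
      Cfsg.pCore 2 G ⊓ Subgroup.centralizer {a * b} = Cfsg.pCore 2 G ⊓ Subgroup.centralizer {a} ⊓ Subgroup.centralizer {b}) := by
  have h := ri_of hD.1
  have hQ : (pCore 2 G).Normal := inferInstance
  have key : ∀ e ∈ D, Commute e a → ∀ q ∈ pCore 2 G, Commute e (q * a * q⁻¹) := fun e he hea q hq => by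
    have hm := hD.1.conj_mem a ha q
    refine h.cm_of he hm (fun h1 => ?_) (hD.2 _ he _ hm)
    let π := QuotientGroup.mk' (pCore 2 G)
    have π1 : π q = 1 := (QuotientGroup.eq_one_iff q).2 hq
    have e1 : π (e * (q * a * q⁻¹)) = π (e * a) := by simp [π1]
    refine h.od_ne_one hm h1 (eq_one_of_odd_two CA.Core.isPGroup_pCore
      ((QuotientGroup.eq_one_iff _).1 (eq_one_of_odd_sq (h := π _) ?_ ?_)) h1.2)
    · exact Odd.of_dvd_nat h1.2 (orderOf_map_dvd _ _)
    · rw [e1, ← map_mul, (h.cm_iff he ha).1 hea, map_one]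
  refine ⟨fun e he q hq => ?_, fun b hb => ?_⟩
  · have : ⁅pCore 2 G, zpowers a⁆ ≤ centralizer {e} := commutator_le.2 fun q hq x hx => by
      obtain ⟨n, rfl⟩ := hx
      refine mem_centralizer_singleton_iff.2 (Commute.eq (Commute.symm ?_))
      rw [commutatorElement_def, ← conj_zpow]
      exact ((key e he.1 he.2 q hq).zpow_right n).mul_right (Commute.zpow_right he.2 n).inv_right
    exact (mem_centralizer_singleton_iff.1 (this hq)).symm
  · obtain ⟨hb, hne, ho⟩ := hb
    ext q
    simp only [mem_inf, mem_centralizer_singleton_iff]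
    refine ⟨fun ⟨hq, h1⟩ => ?_, fun ⟨⟨hq, h1⟩, h2⟩ => ⟨hq, by rw [← mul_assoc, h1, mul_assoc, h2, mul_assoc]⟩⟩
    have hm := hD.1.conj_mem a ha q
    have c1 := key a ha (Commute.refl a) q hq
    have c2 : Commute (q * a * q⁻¹ * a) (a * b) := by
      have i1 := h.inverts ha hb
      have i2 : q * (a * b)⁻¹ * q⁻¹ = (a * b)⁻¹ := by
        rw [(Commute.inv_right h1).eq, mul_inv_cancel_right]
      have i3 : q⁻¹ * (a * b)⁻¹ * q = (a * b)⁻¹ := by
        rw [(Commute.inv_inv h1).eq, inv_mul_cancel_right]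
      have i4 : a * (a * b)⁻¹ * a⁻¹ = a * b := by rw [← conj_inv, i1, inv_inv]
      calc q * a * q⁻¹ * a * (a * b)
          = q * (a * (q⁻¹ * (a * (a * b) * a⁻¹) * q) * a⁻¹) * q⁻¹ * (q * a * q⁻¹ * a) := by group
        _ = _ := by rw [i1, i3, i4, h1, mul_inv_cancel_right]
    have c3 : q * a * q⁻¹ * a = 1 := by
      by_contra hu
      exact h.od_ne_one hb ⟨hne.symm, ho⟩ (h.no_two_mul hm hb
        (by rw [mul_assoc (q * a * q⁻¹) a, h.sq' ha]) ((h.cm_iff hm ha).1 c1.symm) hu c2 ho)
    have c4 : q * a = a * q := by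
      rw [mul_eq_one_iff_eq_inv, h.inv ha, mul_inv_eq_iff_eq_mul] at c3; exact c3
    refine ⟨⟨hq, c4⟩, ?_⟩
    rw [← mul_assoc, c4, mul_assoc, mul_assoc] at h1
    exact mul_left_cancel h1

end Cfsg.Agent.S5049
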