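import Cfsg.Statements.S5053
import Cfsg.Agent.Lib.Root.K1

set_option autoImplicit false
open Cfsg

namespace Cfsg.Agent.S5053

open Subgroup CA.RInv

/-- Let G be a finite group generated by a non-degenerate conjugacy class D of root involutions (some two different members commute, some two have product of odd order, some two have product of order 4) and T a weak TI-subset of D: a subset with more than one element, different from D, whose conjugate by any member of D equals T or is disjoint from it. Then T generates an abelian subgroup. -/
theorem result {G : Type*} [Group G] [Finite G] {D : Set G} (hD : Cfsg.IsNondegenerateRootInvolutionSet D)
    (hcl : Cfsg.IsRootInvolutionClass D)     {T : Set G} (hT : Cfsg.IsWeakTISubsetOfElements D T) : IsMulCommutative ↥(Subgroup.closure T) := by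
  exact isMulCommutative_closure fun a ha b hb => (nd_of hD hcl).weak_ti hT ha hb

end Cfsg.Agent.S5053
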