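import Cfsg.Statements.S5054
import Cfsg.Agent.Lib.Root.K1

set_option autoImplicit false
open Cfsg

namespace Cfsg.Agent.S5054

open Subgroup CA.RInv

/-- Let G be a finite group generated by a non-degenerate conjugacy class D of root involutions. Then for every d ∈ D and every x ∈ D with dx of odd order greater than 1, G is generated by x together with the members of D different from d that commute with d and have product with d in D; and the graph on D joining two different commuting members whose product lies in D is connected. -/
theorem result {G : Type*} [Group G] [Finite G] {D : Set G} (hD : Cfsg.IsNondegenerateRootInvolutionSet D)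
    (hcl : Cfsg.IsRootInvolutionClass D) :
    (∀ d ∈ D, ∀ x ∈ Cfsg.oddPartners D d, Subgroup.closure (Cfsg.productPartners D d ∪ {x}) = ⊤) ∧
    Cfsg.IsConnectedSet (Cfsg.ProdAdj D) D := by
  have h := nd_of hD hcl
  exact ⟨fun d hd x hx => h.gen_top hd hx.1 (Od.symm ⟨hx.2.1.symm, hx.2.2⟩) (fun b hb l => subset_closure (Or.inl
    ⟨⟨hb, (h.ri.ln_cm hd hb l).symm, (h.ri.ln_ne hb l).symm⟩, h.ri.ln_symm hd hb l⟩))
    (subset_closure (Or.inr rfl)), fun a ha b hb => h.et ha hb⟩

end Cfsg.Agent.S5054
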