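import Cfsg.Statements.S5055
import Cfsg.Agent.Lib.Root.K3

set_option autoImplicit false
open Cfsg

namespace Cfsg.Agent.S5055

open Subgroup CA.RInv

/-- The Root Structure Theorem for root involutions. Let G be a finite group with O₂(G) = 1 and trivial centre, generated by a non-degenerate class D of root involutions such that for every d ∈ D the members of D with the same commuting members as d, together with 1, form a subgroup E(d). For d ∈ D let M_d be the subgroup generated by d and the members e ≠ d of D commuting with d with ed ∈ D, let W_d be the set of members of D commuting with d that have no partner with product of odd order among the members commuting with d, and let N_d be the subgroup generated by W_d. Then N_d = M_d; the members of D in N_d are d and the e just described; the commutator subgroup of N_d is E(d); and the members of D central in N_d are exactly those with the same commuting members as d. -/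
theorem result {G : Type*} [Group G] [Finite G] {D : Set G} (hD : Cfsg.IsNondegenerateRootInvolutionSet D)
    (hcl : Cfsg.IsRootInvolutionClass D) (hO : Cfsg.pCore 2 G = ⊥) (hZ : Subgroup.center G = ⊥)
    (hE : ∀ d ∈ D, (Cfsg.sameCommutingSubgroup D d : Set G) = Cfsg.sameCommutingClass D d ∪ {1}) {d : G} (hd : d ∈ D) :
    Subgroup.closure {w | Cfsg.IsIsolatedElem (Cfsg.OddAdj (Cfsg.commutingMembers D d)) (Cfsg.commutingMembers D d) w} =
      Subgroup.closure (Cfsg.productPartners D d ∪ {d}) ∧
    D ∩ (Subgroup.closure (Cfsg.productPartners D d ∪ {d}) : Set G) = Cfsg.productPartners D d ∪ {d} ∧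
    ⁅Subgroup.closure (Cfsg.productPartners D d ∪ {d}), Subgroup.closure (Cfsg.productPartners D d ∪ {d})⁆ =
      Cfsg.sameCommutingSubgroup D d ∧
    Cfsg.sameCommutingClass D d = {e | e ∈ D ∧ e ∈ Subgroup.closure (Cfsg.productPartners D d ∪ {d}) ∧
      ∀ y ∈ Subgroup.closure (Cfsg.productPartners D d ∪ {d}), e * y = y * e} := by
  have h := nd_of hD hcl
  have r := h.ri
  have hE' := he_of r h.cls hE
  rw [wd_iso, ← h.wd_eq hE' hd]
  refine ⟨rfl, Set.Subset.antisymm (fun e he => r.mem_wd he.1 he.2) fun w hw => ⟨hw.1.1, subset_closure hw⟩,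
    h.comm_wd hE' hd, Set.ext fun e => ⟨fun he => ?_, fun he => ?_⟩⟩
  · obtain ⟨he, k⟩ := (r.mem_E_iff h.cls hd).1 he
    exact ⟨he, subset_closure (h.wd_of_E hE' hd he k ▸ r.wd_self he), fun y hy => h.E_cm hE' hd he k hy⟩
  · refine (r.mem_E_iff h.cls hd).2 ⟨he.1, ?_⟩
    by_contra n
    obtain ⟨u, hu, l, f⟩ := h.exists_fr hd (r.mem_wd he.1 he.2.1) n
    exact r.not_fr he.1 hu (he.2.2 u (subset_closure (r.wd_of_ln hd hu l))) f.symm

end Cfsg.Agent.S5055
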