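import Cfsg.Statements.S5057
import Cfsg.Agent.Lib.Root.I1

set_option autoImplicit false
open Cfsg

namespace Cfsg.Agent.S5057

open Subgroup CA.RInv Equiv

set_option maxRecDepth 100000 in
theorem t1 : ∀ g : Perm (Fin 6), Perm.sign g = 1 → g ^ 4 = 1 ∨ g ^ 3 = 1 ∨ g ^ 5 = 1 := by
  decide +kernel

theorem ord (g : alternatingGroup (Fin 6)) :
    orderOf g = 1 ∨ orderOf g = 2 ∨ orderOf g = 4 ∨ orderOf g = 3 ∨ orderOf g = 5 := by
  rcases t1 g g.2 with h | h | h
  · have : orderOf g ∣ 4 := orderOf_dvd_of_pow_eq_one (Subtype.ext h)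
    have h2 := Nat.le_of_dvd (by decide) this
    interval_cases orderOf g <;> simp_all
  · have : orderOf g ∣ 3 := orderOf_dvd_of_pow_eq_one (Subtype.ext h)
    rcases (Nat.dvd_prime Nat.prime_three).1 this with h | h <;> simp [h]
  · have : orderOf g ∣ 5 := orderOf_dvd_of_pow_eq_one (Subtype.ext h)
    rcases (Nat.dvd_prime Nat.prime_five).1 this with h | h <;> simp [h]

theorem ct (g : alternatingGroup (Fin 6)) (h : orderOf g = 2) : (g : Perm (Fin 6)).cycleType = {2, 2} := by
  have h1 : orderOf (g : Perm (Fin 6)) = 2 := by rw [Subgroup.orderOf_coe, h]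
  obtain ⟨n, hn⟩ := Perm.cycleType_prime_order (σ := (g : Perm (Fin 6))) (h1 ▸ Nat.prime_two)
  have h2 := Perm.sum_cycleType (g : Perm (Fin 6))
  have h3 := Finset.card_le_univ (g : Perm (Fin 6)).support
  have h4 := Perm.sign_of_cycleType (g : Perm (Fin 6))
  rw [Perm.mem_alternatingGroup.1 g.2] at h4
  rw [hn, h1] at h2 h4 ⊢
  simp only [Multiset.sum_replicate, smul_eq_mul, Fintype.card_fin, Multiset.card_replicate] at h2 h3 h4
  have : n ≤ 2 := by omega
  interval_cases n
  · exact absurd h4 (by decide)
  · rfl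
  · exact absurd h4 (by decide)

/-- The involutions of the alternating group of degree 6 form a class of root involutions (a single conjugacy class of involutions generating the group, any two of which commute, have product of odd order, or have product of order 4 whose square is again an involution of the class), and the product of any two of them has order at most 5. -/
theorem result :
    Cfsg.IsRootInvolutionClass {g : ↥(alternatingGroup (Fin 6)) | orderOf g = 2} ∧
    ∀ d ∈ {g : ↥(alternatingGroup (Fin 6)) | orderOf g = 2}, ∀ e ∈ {g : ↥(alternatingGroup (Fin 6)) | orderOf g = 2},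
      orderOf (d * e) ≤ 5 := by
  haveI : IsSimpleGroup (alternatingGroup (Fin 6)) := alternatingGroup.isSimpleGroup (by simp)
  let t : alternatingGroup (Fin 6) := ⟨swap 0 1 * swap 2 3, Perm.mem_alternatingGroup.2 (by decide)⟩
  have ht : orderOf t = 2 := ord_of_sq (by decide) (by decide)
  have hcj : ∀ d : alternatingGroup (Fin 6), orderOf d = 2 → ∀ g, orderOf (g * d * g⁻¹) = 2 :=
    fun d hd g => by rw [orderOf_cj, hd]
  refine ⟨⟨⟨fun _ h => h, ?_, hcj, fun a ha b hb => ?_⟩, ⟨t, ht⟩, fun a ha b hb => ?_⟩,
    fun d _ e _ => by rcases ord (d * e) with h | h | h | h | h <;> omega⟩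
  · haveI : (closure {g : alternatingGroup (Fin 6) | orderOf g = 2}).Normal := ⟨fun n hn g => by
      have : (closure {g : alternatingGroup (Fin 6) | orderOf g = 2}).map (MulAut.conj g).toMonoidHom ≤
          closure {g : alternatingGroup (Fin 6) | orderOf g = 2} := by
        rw [MonoidHom.map_closure]
        exact closure_mono (by rintro _ ⟨w, hw, rfl⟩; exact hcj w hw g)
      exact this ⟨n, hn, rfl⟩⟩
    refine (this.eq_bot_or_eq_top).resolve_left fun h => ne_of_ord ht ?_
    exact mem_bot.1 (h ▸ subset_closure ht)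
  · rcases ord (a * b) with h | h | h | h | h
    · exact Or.inr (Or.inl (by rw [h]; decide))
    · left
      have := sq_of_ord h
      rw [mul_eq_one_iff_eq_inv, mul_inv_rev, inv_eq_of_mul_eq_one_right (sq_of_ord ha),
        inv_eq_of_mul_eq_one_right (sq_of_ord hb)] at this
      exact this
    · refine Or.inr (Or.inr ⟨h, ?_⟩)
      change orderOf _ = 2
      rw [orderOf_pow' _ two_ne_zero, h]; rfl
    · exact Or.inr (Or.inl (by rw [h]; decide))
    · exact Or.inr (Or.inl (by rw [h]; decide))
  · have := alternatingGroup.isConj_of (σ := a) (τ := b)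
      (Perm.isConj_iff_cycleType_eq.2 (by rw [ct a ha, ct b hb]))
      (by rw [← Perm.sum_cycleType, ct a ha]; decide)
    obtain ⟨g, hg⟩ := isConj_iff.1 this
    exact ⟨g, hg.symm⟩

end Cfsg.Agent.S5057
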