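import Cfsg.Statements.S5058
import Cfsg.Agent.Lib.Root.E1
import Cfsg.Agent.Lib.Root.I1

set_option autoImplicit false
open Matrix
open Cfsg

namespace Cfsg.Agent.S5058

open CA.RootEx CA.Root CA.RInv CA.SL2Unip CA.SL2Embed CA.Amb CA.AmbCore CA.AmbRes
open scoped MatrixGroups commutatorElement

theorem exists_cen {G : Type*} [Group G] [Finite G] {a b : G} (ha : a * a = 1) (hb : b * b = 1)
    (h : ¬ Odd (orderOf (a * b))) : ∃ z, z ≠ 1 ∧ Commute z a ∧ Commute z b := by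
  obtain ⟨m, hm⟩ := Nat.not_odd_iff_even.1 h
  have h0 := orderOf_pos (a * b)
  have ia : a⁻¹ = a := inv_eq_of_mul_eq_one_right ha
  have ib : b⁻¹ = b := inv_eq_of_mul_eq_one_right hb
  have h1 : (a * b) ^ m * (a * b) ^ m = 1 := by rw [← pow_add, ← hm, pow_orderOf_eq_one]
  have h2 : a * (a * b) ^ m * a⁻¹ = (a * b) ^ m := by
    rw [← conj_pow, show a * (a * b) * a⁻¹ = (a * b)⁻¹ by rw [← mul_assoc, ha, one_mul, _root_.mul_inv_rev, ia, ib],
      inv_pow, inv_eq_of_mul_eq_one_right h1]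
  have h3 : Commute ((a * b) ^ m) a := (mul_inv_eq_iff_eq_mul.1 h2).symm
  refine ⟨(a * b) ^ m, pow_ne_one_of_lt_orderOf (by omega) (by omega), h3, ?_⟩
  have := h3.mul_right ((Commute.refl (a * b)).pow_left m)
  rwa [← mul_assoc, ha, one_mul] at this

variable {F : Type*} [Field F] [Fintype F] [CharP F 2]

theorem neg_one_eq : (-1 : SL(2, F)) = 1 := Subtype.ext (by
  ext i j; simp [CharTwo.neg_eq])

theorem odd_ul {s t : F} (hs : s ≠ 0) (ht : t ≠ 0) : Odd (orderOf (u s * l t)) := by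
  by_contra h
  obtain ⟨z, z1, h1, h2⟩ := exists_cen (by rw [← u_add, CharTwo.add_self_eq_zero, u_eq_one_iff])
    (by rw [← l_add, CharTwo.add_self_eq_zero, CA.Root.l_zero]) h
  obtain ⟨a, b, c, d, e, rfl⟩ := sl_ex4 z
  have k1 := congrArg (fun g : SL(2, F) => g.1 0 0) h1.eq
  have k2 := congrArg (fun g : SL(2, F) => g.1 0 1) h1.eq
  have k3 := congrArg (fun g : SL(2, F) => g.1 0 0) h2.eq
  simp [u, l, Matrix.mul_apply, Fin.sum_univ_two, hs, ht] at k1 k2 k3
  subst k1 k3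
  have k4 : a = d := mul_right_cancel₀ hs (by linear_combination k2)
  subst k4
  have k5 : a = 1 := by
    have : (a - 1) ^ 2 = 0 := by
      have h2 : (2 : F) = 0 := CharTwo.two_eq_zero
      linear_combination e + (1 - a) * h2
    exact sub_eq_zero.1 (pow_eq_zero_iff two_ne_zero |>.1 this)
  subst k5
  exact z1 (sl_ext4 rfl rfl rfl rfl)

theorem psl_ord {G : Type*} [Group G] {A B : Subgroup G} (p : IsPSL2PairOver F A B) {a b : G} (ha : a ∈ A)
    (hb : b ∈ B) (a1 : a ≠ 1) (b1 : b ≠ 1) :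
    Odd (orderOf (a * b)) ∧ (Fintype.card F = 2 → (a * b) ^ 3 = 1) := by
  obtain ⟨φ, -, -, rfl, rfl⟩ := p
  obtain ⟨a, ha, rfl⟩ := ha
  obtain ⟨b, hb, rfl⟩ := hb
  obtain ⟨s, rfl⟩ := mem_up.1 ha
  obtain ⟨t, rfl⟩ := mem_lo.1 hb
  have hs : s ≠ 0 := by rintro rfl; exact a1 (by rw [u_eq_one_iff.2 rfl, map_one])
  have ht : t ≠ 0 := by rintro rfl; exact b1 (by rw [CA.Root.l_zero, map_one])
  rw [← map_mul]
  refine ⟨Odd.of_dvd_nat (odd_ul hs ht) (orderOf_map_dvd _ _), fun h => ?_⟩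
  have e : ∀ s : F, s ≠ 0 → s = 1 := fun s hs => by
    have := FiniteField.pow_card_sub_one_eq_one s hs
    rwa [h, pow_one] at this
  rw [e s hs, e t ht, ← map_pow]
  have h2 : (2 : F) = 0 := CharTwo.two_eq_zero
  have : (u 1 * l 1 : SL(2, F)) ^ 3 = 1 := by
    apply sl_ext4 <;> simp [u, l, pow_succ, Matrix.mul_apply, Fin.sum_univ_two]
    · linear_combination 6 * h2
    · linear_combination 4 * h2
    · linear_combination 4 * h2
    · linear_combination 2 * h2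
  rw [this, map_one]

variable {n : Type*} [Fintype n] [DecidableEq n] {i j : n}

theorem mem_iff (h : i ≠ j) (t : SpecialLinearGroup n F) : (∃ c : F, c ≠ 0 ∧ ∃ g : SpecialLinearGroup n F,
    ((g⁻¹ * t * g : SpecialLinearGroup n F) : Matrix n n F) = transvection i j c) ↔
    t ≠ 1 ∧ ∃ A ∈ Ag F (slι n F) '' XL n F, t ∈ A := by
  have hx := single_mem_XL (F := F) h
  have m : Ag F (slι n F) (vecMulVec (Pi.single i (1 : F)) (Pi.single j 1)) ∈ Ag F (slι n F) '' XL n F :=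
    ⟨_, hx, rfl⟩
  refine ⟨fun ⟨c, hc, g, e⟩ => ⟨?_, _, fwL.conj m g, mem_cj.2 (Subgroup.subset_closure ⟨c, ?_⟩)⟩,
    fun ⟨t1, A, hA, ht⟩ => ?_⟩
  · rintro rfl
    rw [mul_one, inv_mul_cancel, transvection_eq] at e
    exact smul_ne_zero hc (fwL.ne _ hx) (by simpa using e)
  · rw [← transvection_eq]; exact e
  · obtain ⟨g, rfl⟩ := (rtL _ m _ hA).exists_cj
    obtain ⟨c, hc⟩ := (mem_Ag (fwL.sq _ hx)).1 (mem_cj.1 ht)
    refine ⟨c, fun k => t1 ?_, g, by rw [transvection_eq]; exact hc⟩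
    have := fwL.one_of hc k
    rwa [mul_assoc, inv_mul_eq_one, right_eq_mul] at this

theorem sq_one {A : Subgroup (SpecialLinearGroup n F)} (hA : A ∈ Ag F (slι n F) '' XL n F)
    {t : SpecialLinearGroup n F} (ht : t ∈ A) : t * t = 1 := by
  obtain ⟨x, hx, rfl⟩ := hA
  obtain ⟨c, hc⟩ := (mem_Ag (fwL.sq _ hx)).1 ht
  exact fwL.inj (by rw [map_mul, hc, CA.RootEx.one_add_mul (fwL.sq _ hx), CharTwo.add_self_eq_zero]; simp)

theorem tri (h : i ≠ j) {a b : SpecialLinearGroup n F} (ha : a ≠ 1 ∧ ∃ A ∈ Ag F (slι n F) '' XL n F, a ∈ A)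
    (hb : b ≠ 1 ∧ ∃ A ∈ Ag F (slι n F) '' XL n F, b ∈ A) :
    a * b = b * a ∨ (Odd (orderOf (a * b)) ∧ (Fintype.card F = 2 → (a * b) ^ 3 = 1)) ∨
      (orderOf (a * b) = 4 ∧ (a * b) ^ 2 ≠ 1 ∧ ∃ A ∈ Ag F (slι n F) '' XL n F, (a * b) ^ 2 ∈ A) := by
  obtain ⟨a1, A, hA, ha⟩ := ha
  obtain ⟨b1, B, hB, hb⟩ := hb
  rcases fwL.tri' hA hB with k | k | ⟨C, k⟩
  · exact Or.inl (k a ha b hb)
  · exact Or.inr (Or.inl (psl_ord k ha hb a1 b1))
  · have e : (a * b) ^ 2 = ⁅a, b⁆ := by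
      rw [commutatorElement_def, inv_eq_of_mul_eq_one_right (sq_one hA ha),
        inv_eq_of_mul_eq_one_right (sq_one hB hb), pow_two, ← mul_assoc]
    have c1 : (a * b) ^ 2 ≠ 1 := fun k' => b1 (k.inj (fwL.rs genL) (niL _ hA) ha hb a1
      (commutatorElement_eq_one_iff_mul_comm.1 (e ▸ k')))
    refine Or.inr (Or.inr ⟨?_, c1, C, k.m3, e ▸ k.mem ha hb⟩)
    haveI : Fact (Nat.Prime 2) := ⟨Nat.prime_two⟩
    refine orderOf_eq_prime_pow (p := 2) (n := 1) (by simpa using c1) ?_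
    rw [show 2 ^ (1 + 1) = 2 + 2 from rfl, pow_add, e]; exact sq_one k.m3 (k.mem ha hb)

/-- Let F be a finite field of characteristic 2 and n a natural number. Then the transvections of SL_{n+3}(F) (so in every dimension at least 3) (the conjugates of the elementary matrices 1 + c E₁₂, c ≠ 0) form a class of root involutions of SL_{n+3}(F); when F has two elements they form a class of {3,4}⁺-transpositions (every product of odd order has order 1 or 3). -/
theorem result (F : Type*) [Field F] [Fintype F] [CharP F 2] (n : ℕ) :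
    Cfsg.IsRootInvolutionClass {t : Matrix.SpecialLinearGroup (Fin (n + 3)) F | ∃ c : F, c ≠ 0 ∧
        ∃ g : Matrix.SpecialLinearGroup (Fin (n + 3)) F, ((g⁻¹ * t * g : Matrix.SpecialLinearGroup (Fin (n + 3)) F) :
          Matrix (Fin (n + 3)) (Fin (n + 3)) F) = Matrix.transvection 0 1 c} ∧
    (Fintype.card F = 2 → Cfsg.IsThreeFourPlusTranspositionSet {t : Matrix.SpecialLinearGroup (Fin (n + 3)) F | ∃ c : F, c ≠ 0 ∧
        ∃ g : Matrix.SpecialLinearGroup (Fin (n + 3)) F, ((g⁻¹ * t * g : Matrix.SpecialLinearGroup (Fin (n + 3)) F) :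
          Matrix (Fin (n + 3)) (Fin (n + 3)) F) = Matrix.transvection 0 1 c}) := by
  have h01 : (0 : Fin (n + 3)) ≠ 1 := by simp
  have hR : IsRootInvolutionSet {t : SpecialLinearGroup (Fin (n + 3)) F |
      t ≠ 1 ∧ ∃ A ∈ Ag F (slι (Fin (n + 3)) F) '' XL (Fin (n + 3)) F, t ∈ A} := by
    refine ⟨fun t ⟨t1, A, hA, ht⟩ => ord_of_sq (sq_one hA ht) t1, ?_, fun t ⟨t1, A, hA, ht⟩ g =>
      ⟨by simpa using t1, _, fwL.conj hA g, mem_cj.2 (by simpa [mul_assoc] using ht)⟩, fun a ha b hb => ?_⟩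
    · rw [eq_top_iff, ← genL]
      refine iSup₂_le fun A hA t ht => ?_
      by_cases t1 : t = 1
      · rw [t1]; exact one_mem _
      · exact Subgroup.subset_closure ⟨t1, A, hA, ht⟩
    · exact (tri h01 ha hb).imp_right (Or.imp_left fun k => k.1)
  refine ⟨⟨by simpa only [mem_iff h01] using hR,
    ⟨SpecialLinearGroup.transvection h01 1, 1, one_ne_zero, 1, by rw [inv_one, one_mul, mul_one]; rfl⟩, ?_⟩, fun h2 => ?_⟩
  · have key : ∀ t : SpecialLinearGroup (Fin (n + 3)) F, (∃ c : F, c ≠ 0 ∧ ∃ g : SpecialLinearGroup (Fin (n + 3)) F,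
        ((g⁻¹ * t * g : SpecialLinearGroup (Fin (n + 3)) F) : Matrix (Fin (n + 3)) (Fin (n + 3)) F) = transvection 0 1 c) →
        ∃ g, t = g * SpecialLinearGroup.transvection h01 1 * g⁻¹ := by
      rintro t ⟨c, hc, g, e⟩
      obtain ⟨r, rfl⟩ := FiniteField.isSquare_of_char_two (ringChar.eq F 2) c
      have hr : r ≠ 0 := by rintro rfl; simp at hc
      have e1 : g⁻¹ * t * g = SpecialLinearGroup.transvection h01 (r ^ 2 * 1) :=
        Subtype.ext (by rw [e, pow_two, mul_one]; rfl)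
      refine ⟨g * SpecialLinearGroup.diag2n h01 r hr, ?_⟩
      rw [mul_assoc g, CA.SLnGen.conj_diag2n_transvection, ← e1]; group
    intro a ha b hb
    obtain ⟨g, rfl⟩ := key a ha
    obtain ⟨k, rfl⟩ := key b hb
    exact ⟨k * g⁻¹, by group⟩
  · simp only [mem_iff h01]
    refine ⟨hR, fun a ha b hb ho => ?_⟩
    rcases tri h01 ha hb with k | k | k
    · left
      rw [orderOf_eq_one_iff]
      exact eq_one_of_odd_sq ho (((ri_of hR).cm_iff ha hb).1 k)
    · exact (Nat.dvd_prime Nat.prime_three).1 (orderOf_dvd_of_pow_eq_one (k.2 h2))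
    · rw [k.1] at ho; exact absurd ho (by decide)

end Cfsg.Agent.S5058
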