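import Cfsg.Statements.S5060
import Cfsg.Agent.Lib.Root.Q2

set_option autoImplicit false
open Cfsg

namespace Cfsg.Agent.S5060

open Subgroup CA.Quad
open scoped MatrixGroups

/-- Let k ⊆ K be fields with the characteristic of k not 2 and k not of order 3, and let α ∈ K be a non-zero element algebraic over k. Then the subgroup of SL₂(K) generated by the upper unitriangular matrices with entry c and the lower unitriangular matrices with entry cα, c ranging over k, is exactly the group of matrices of SL₂(K) with all entries in k(α). -/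
theorem result {k K : Type*} [Field k] [Field K] [Algebra k K] (hk2 : ringChar k ≠ 2) (hk3 : Nat.card k ≠ 3)
    (α : K) (hα : IsAlgebraic k α) (hα0 : α ≠ 0) :
    (Subgroup.closure ({g : Matrix.SpecialLinearGroup (Fin 2) K | ∃ c : k, (g : Matrix (Fin 2) (Fin 2) K) = !![1, algebraMap k K c; 0, 1]} ∪
        {g : Matrix.SpecialLinearGroup (Fin 2) K | ∃ c : k, (g : Matrix (Fin 2) (Fin 2) K) = !![1, 0; algebraMap k K c * α, 1]}) :
      Set (Matrix.SpecialLinearGroup (Fin 2) K)) =
    {g : Matrix.SpecialLinearGroup (Fin 2) K | ∀ i j : Fin 2, (g : Matrix (Fin 2) (Fin 2) K) i j ∈ IntermediateField.adjoin k ({α} : Set K)} := by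
  set F := IntermediateField.adjoin k ({α} : Set K)
  set H := Subgroup.closure ({g : SL(2, K) | ∃ c : k, (g : Matrix (Fin 2) (Fin 2) K) = !![1, algebraMap k K c; 0, 1]} ∪
    {g : SL(2, K) | ∃ c : k, (g : Matrix (Fin 2) (Fin 2) K) = !![1, 0; algebraMap k K c * α, 1]})
  haveI : FiniteDimensional k F := IntermediateField.adjoin.finiteDimensional hα.isIntegral
  let f := Matrix.SpecialLinearGroup.map (n := Fin 2) (algebraMap F K)
  have h1 : H.comap f = ⊤ := field_case (Ring.two_ne_zero hk2) (three_lt_card hk2 hk3)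
    (z := IntermediateField.AdjoinSimple.gen k α) (fun e => hα0 (congrArg Subtype.val e))
    (fun a => (((IntermediateField.adjoin.powerBasis hα.isIntegral).exists_eq_aeval' a).imp fun _ h => h.symm))
    (fun c => by rw [mem_comap, uu_map]; exact subset_closure (Or.inl ⟨c, rfl⟩))
    (fun c => by rw [mem_comap, ll_map]; exact subset_closure (Or.inr ⟨c, rfl⟩))
  have h2 : H ≤ f.range := (closure_le _).2 (by
    rintro g (⟨c, e⟩ | ⟨c, e⟩)
    · exact ⟨uu (algebraMap k F c), (uu_map _ _).trans (Subtype.ext e.symm)⟩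
    · exact ⟨ll (algebraMap k F c * IntermediateField.AdjoinSimple.gen k α), (ll_map _ _).trans (Subtype.ext e.symm)⟩)
  ext g
  constructor
  · intro hg i j
    obtain ⟨x, rfl⟩ := h2 hg
    exact (x.1 i j).2
  · intro hg
    obtain ⟨a, b, c, d, h, rfl⟩ := ex4 g
    have := h1.ge (mem_top (CA.SL2Embed.mk2 (⟨a, hg 0 0⟩ : F) ⟨b, hg 0 1⟩ ⟨c, hg 1 0⟩ ⟨d, hg 1 1⟩ (Subtype.ext h)))
    rwa [mem_comap, mk_map] at this

end Cfsg.Agent.S5060
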