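import Cfsg.Statements.S5063
import Cfsg.Agent.Lib.Root.Q6

set_option autoImplicit false
universe u
open Cfsg

namespace Cfsg.Agent.S5063

open Subgroup CA.Amb CA.AmbCore CA.AmbRes CA.Root CA.Quad
open scoped commutatorElement

/-- Let k be a field of characteristic not 2 with k not of order 3, M a finite-dimensional k-vector space and G ≤ GL(M) such that (G, M) is a quadratic pair (M irreducible for G, and G generated by its quadratically acting elements σ whose scalar family 1 + c(σ − 1), c ∈ k, lies in G). Write 𝒬_d for the quadratic elements of G of minimal commutator rank, E(σ) for the subgroup generated by the members of 𝒬_d with the same fixed space and commutator space as σ, and Σ for the set of these subgroups. Then G is a central product of finitely many quasisimple normal subgroups G₁, …, G_s (pairwise commuting and together generating G), each generated by the quadratic elements of G it contains, and every quadratic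 element of G lies in one of them. -/
theorem result {k : Type u} [Field k] (hk2 : ringChar k ≠ 2) (hk3 : Nat.card k ≠ 3)
    {M : Type u} [AddCommGroup M] [Module k M] [FiniteDimensional k M]
    {G : Subgroup (LinearMap.GeneralLinearGroup k M)} (hG : Cfsg.IsQuadraticPair G) :
    ∃ (s : ℕ) (Gi : Fin s → Subgroup (LinearMap.GeneralLinearGroup k M)),
      (∀ i, Gi i ≤ G ∧ ∀ g ∈ G, Cfsg.conjBy (Gi i) g = Gi i) ∧ (∀ i j, i ≠ j → ⁅Gi i, Gi j⁆ = ⊥) ∧ (⨆ i, Gi i) = G ∧
      (∀ i, Cfsg.IsQuasisimple ↥(Gi i) ∧ Subgroup.closure (Cfsg.quadraticElements G ∩ (Gi i : Set (LinearMap.GeneralLinearGroup k M))) = Gi i) ∧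
      Cfsg.quadraticElements G ⊆ ⋃ i, (Gi i : Set (LinearMap.GeneralLinearGroup k M)) := by
  haveI := gd_of hk2 hk3
  have hL := red_of_irr hG.1
  set Qs := Cfsg.quadraticElements G
  let ad : (Module.End k M)ˣ → (Module.End k M)ˣ → Prop := fun σ τ => σ ∈ Qs ∧ τ ∈ Qs ∧ σ * τ ≠ τ * σ
  have sy : ∀ a b, ad a b → ad b a := fun a b h => ⟨h.2.1, h.1, h.2.2.symm⟩
  let co : (Module.End k M)ˣ → Set (Module.End k M)ˣ := fun σ => {τ | τ ∈ Qs ∧ Relation.ReflTransGen ad σ τ}
  have le1 : ∀ σ, Subgroup.closure (co σ) ≤ G := fun σ => (closure_le _).2 fun τ h => h.1.1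
  have cmm : ∀ (S T : Set (Module.End k M)ˣ), (∀ a ∈ S, ∀ b ∈ T, a * b = b * a) →
      Cm (Subgroup.closure S) (Subgroup.closure T) := fun S T h =>
    cm_iff_le.2 ((closure_le _).2 fun a ha => by rw [centralizer_closure]; exact fun b hb => (h a ha b hb).symm)
  have nb : ∀ σ ∈ Qs, ∃ τ, ad σ τ := fun σ hσ => by
    by_contra h0
    have c : Cm G (zpowers σ) := by
      rw [← hG.2, zpowers_eq_closure]
      refine cmm _ _ fun a ha b hb => ?_
      by_contra h1
      exact h0 ⟨a, hσ, ha, fun e => h1 (hb ▸ e.symm)⟩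
    have q := mem_qe.1 hσ
    have l : zpowers σ ≤ E G (σ.1 - 1) := zpowers_le.2 q.1.mem_V
    have := hL _ (zpowers_le.2 hσ.1) c.le_norm (uni_of (J := V G (σ.1 - 1)) (n := 2) l (by
      rw [sq, eq_bot_iff]; exact Submodule.mul_le.2 fun a ha b hb => V_mul ha hb))
    exact q.2 (by rw [mem_bot.1 (this.le (mem_zpowers σ))]; simp)
  have sc : ∀ σ, ∀ τ ∈ co σ, Q k (Subgroup.closure (co σ)) (τ.1 - 1) := fun σ τ hτ => by
    have q := mem_qe.1 hτ.1
    refine ⟨q.1.1, fun c => ?_⟩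
    by_cases c0 : c = 0
    · simpa [c0] using In.one
    obtain ⟨ρ, h⟩ := nb τ hτ.1
    have m := ex_mem_qe (q.1.smul c) (smul_ne_zero c0 q.2)
    refine ⟨_, Subgroup.subset_closure ⟨m, (hτ.2.tail h).tail ⟨h.2.1, m, fun e => h.2.2 (Units.ext ?_)⟩⟩, rfl⟩
    have := congrArg Units.val e
    simp only [Units.val_mul, ex_val, mul_add, add_mul, mul_one, one_mul, add_right_inj, mul_smul_comm,
      smul_mul_assoc] at this
    have := smul_right_injective _ c0 this
    rw [mul_sub, sub_mul, mul_one, one_mul, sub_left_inj] at this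
    exact this.symm
  have ce : ∀ σ, ∀ ρ ∈ Qs, ρ ∉ co σ → ρ ∈ 𝐂 (Subgroup.closure (co σ)) := fun σ ρ hρ h => by
    rw [centralizer_closure]
    intro τ hτ
    by_contra h1
    exact h ⟨hρ, hτ.2.tail ⟨hτ.1, hρ, h1⟩⟩
  have le2 : ∀ σ, G ≤ Subgroup.closure (co σ) ⊔ 𝐂 (Subgroup.closure (co σ)) := fun σ => hG.2.ge.trans
    ((closure_le _).2 fun ρ hρ => (em (ρ ∈ co σ)).elim (fun h => mem_sup_left (Subgroup.subset_closure h))
      fun h => mem_sup_right (ce σ ρ hρ h))
  have nm : ∀ σ, G ≤ 𝐍 (Subgroup.closure (co σ)) := fun σ =>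
    (le2 σ).trans (sup_le le_normalizer (centralizer_le_normalizer _))
  have qs : ∀ σ ∈ Qs, Cfsg.IsQuasisimple (Subgroup.closure (co σ)) := fun σ hσ => by
    set L := Subgroup.closure (co σ)
    have r := hL.of_norm (le1 σ) (nm σ)
    obtain ⟨x, hx⟩ := exists_md (sc σ σ ⟨hσ, .refl⟩) (mem_qe.1 hσ).2
    have hA : E L x ∈ Sig L := ⟨x, hx, rfl⟩
    have l1 := r.le_cp (A := E L x) (le_antisymm ((closure_le _).2 fun τ h => h.1)
      (closure_mono fun τ h => mem_qe.2 ⟨sc σ τ h, (mem_qe.1 h.1).2⟩))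
    have l0 : (⨆ C ∈ CA.Quad.cp L (E L x), C) ≤ L := comp_le.trans sig_le
    have l2 := (le2 σ).trans (sup_le l1 ((centralizer_le l0).trans le_sup_right))
    have d : ∀ τ ∈ co σ, τ ∈ (⨆ C ∈ CA.Quad.cp L (E L x), C) ∨ τ ∈ 𝐂 (⨆ C ∈ CA.Quad.cp L (E L x), C) := fun τ h => by
      have := mem_or_cent hG.1 r l2 (sc σ τ h)
      rwa [show ex _ (sc σ τ h).1 = τ from Units.ext (by simp)] at this
    have q := r.qs hA
    have nc := r.not_cm hA
    generalize (⨆ C ∈ CA.Quad.cp L (E L x), C) = T at *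
    have pr : ∀ τ ∈ co σ, τ ∈ T → ∀ ρ, Relation.ReflTransGen ad τ ρ → ρ ∈ T := fun τ h1 h2 ρ h => by
      induction h with
      | refl => exact h2
      | tail k1 k2 ih =>
        exact (d _ ⟨k2.2.1, (h1.2.trans k1).tail k2⟩).resolve_right fun e => k2.2.2 (mem_centralizer_sub.1 e _ ih)
    by_cases h0 : ∃ τ ∈ co σ, τ ∈ T
    · obtain ⟨τ, h1, h2⟩ := h0
      rwa [show L = T from le_antisymm ((closure_le _).2 fun ρ h => pr τ h1 h2 ρ ((rtg_symm sy h1.2).trans h.2)) l0]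
    · exact absurd (cm_iff_le.2 (l0.trans ((closure_le _).2 fun τ h => (d τ h).resolve_left fun e => h0 ⟨τ, h, e⟩))) nc
  let I := {C | ∃ σ ∈ Qs, C = co σ}
  have cm : ∀ i j : I, i ≠ j → Cm (Subgroup.closure i.1) (Subgroup.closure j.1) := by
    rintro ⟨_, σ, hσ, rfl⟩ ⟨_, τ, hτ, rfl⟩ h
    refine cm_iff_le.2 ((closure_le _).2 fun ρ h1 => ce τ ρ h1.1 fun h2 => h (Subtype.ext (Set.ext fun D => ?_)))
    exact ⟨fun k => ⟨k.1, (h2.2.trans (rtg_symm sy h1.2)).trans k.2⟩,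
      fun k => ⟨k.1, (h1.2.trans (rtg_symm sy h2.2)).trans k.2⟩⟩
  haveI : Finite I := finite_of_comm (k := k) _ cm (by
    rintro ⟨_, σ, hσ, rfl⟩ h
    obtain ⟨τ, h1⟩ := nb σ hσ
    exact h1.2.2 (h _ (Subgroup.subset_closure ⟨hσ, .refl⟩) _ (Subgroup.subset_closure ⟨h1.2.1, .single h1⟩)))
  obtain ⟨r, ⟨e⟩⟩ := Finite.exists_equiv_fin I
  have mm : ∀ σ ∈ Qs, ∃ i, σ ∈ Subgroup.closure (e.symm i).1 := fun σ hσ =>
    ⟨e ⟨_, σ, hσ, rfl⟩, Subgroup.subset_closure (by rw [Equiv.symm_apply_apply]; exact ⟨hσ, .refl⟩)⟩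
  refine ⟨r, fun i => Subgroup.closure (e.symm i).1, fun i => ?_, fun i j h => (cm _ _ (e.symm.injective.ne h)).bot,
    le_antisymm (iSup_le fun i => ?_) (hG.2.ge.trans ((closure_le _).2 fun σ hσ => ?_)), fun i => ?_,
    fun σ hσ => Set.mem_iUnion.2 (mm σ hσ)⟩
  · obtain ⟨σ, -, e⟩ := (e.symm i).2
    beta_reduce; rw [e]; exact ⟨le1 σ, fun g hg => cj_eq_self (nm σ hg)⟩
  · obtain ⟨σ, -, e⟩ := (e.symm i).2
    beta_reduce; rw [e]; exact le1 σ
  · obtain ⟨i, h⟩ := mm σ hσ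
    exact mem_iSup_of_mem i h
  · obtain ⟨σ, hσ, e⟩ := (e.symm i).2
    beta_reduce; rw [e]
    exact ⟨qs σ hσ, le_antisymm ((closure_le _).2 fun τ h => h.2)
      (closure_mono fun τ h => ⟨h.1, Subgroup.subset_closure h⟩)⟩

end Cfsg.Agent.S5063
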