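import Cfsg.Statements.S5064
import Cfsg.Agent.Lib.Root.Q6

set_option autoImplicit false
universe u
open Cfsg

namespace Cfsg.Agent.S5064

open Subgroup CA.Amb CA.AmbCore CA.AmbRes CA.Root CA.Quad
open scoped commutatorElement

/-- Let k be a field of characteristic not 2 with k not of order 3, M a finite-dimensional k-vector space and G ≤ GL(M) such that (G, M) is a quadratic pair (M irreducible for G, and G generated by its quadratically acting elements σ whose scalar family 1 + c(σ − 1), c ∈ k, lies in G). Write 𝒬_d for the quadratic elements of G of minimal commutator rank, E(σ) for the subgroup generated by the members of 𝒬_d with the same fixed space and commutator space as σ, and Σ for the set of these subgroups. If σ, τ ∈ 𝒬_d and the subgroup H generated by their two scalar families does not act unipotently on M, then H is isomorphic to SL₂ over a simple algebraic extension k(λ) of k. -/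
theorem result {k : Type u} [Field k] (hk2 : ringChar k ≠ 2) (hk3 : Nat.card k ≠ 3)
    {M : Type u} [AddCommGroup M] [Module k M] [FiniteDimensional k M]
    {G : Subgroup (LinearMap.GeneralLinearGroup k M)} (hG : Cfsg.IsQuadraticPair G)
    {σ τ : LinearMap.GeneralLinearGroup k M} (hσ : σ ∈ Cfsg.minimalQuadraticElements G) (hτ : τ ∈ Cfsg.minimalQuadraticElements G)
    (hH : ¬ Cfsg.IsUnipotentOn (Subgroup.closure (Cfsg.scalarFamily σ ∪ Cfsg.scalarFamily τ))) :
    ∃ (K : Type u) (_ : Field K) (_ : Algebra k K) (lam : K), IsAlgebraic k lam ∧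
      IntermediateField.adjoin k ({lam} : Set K) = ⊤ ∧
      Nonempty (↥(Subgroup.closure (Cfsg.scalarFamily σ ∪ Cfsg.scalarFamily τ)) ≃* Matrix.SpecialLinearGroup (Fin 2) K) := by
  haveI := gd_of hk2 hk3
  have hx := mem_mqe.1 hσ
  have hy := mem_mqe.1 hτ
  have e0 : Cfsg.scalarFamily σ ∪ Cfsg.scalarFamily τ = gens k (σ.1 - 1) (τ.1 - 1) := Set.ext fun g =>
    ⟨fun h => h.elim (fun ⟨c, e⟩ => ⟨c, Or.inl e⟩) fun ⟨c, e⟩ => ⟨c, Or.inr e⟩,
      fun ⟨c, h⟩ => h.imp (fun e => ⟨c, e⟩) fun e => ⟨c, e⟩⟩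
  rw [e0] at hH ⊢
  generalize σ.1 - 1 = x at *
  generalize τ.1 - 1 = y at *
  have h0 : x * y * x ≠ 0 := fun e => hH (isUnip_iff.2 ((hx.uni hy e).mono ((closure_le _).2 (by
    rintro g ⟨c, h | h⟩
    · exact mem_sup_left (mem_E.2 ⟨_, (V G x).smul_mem c hx.1.mem_V, Units.ext h⟩)
    · exact mem_sup_right (mem_E.2 ⟨_, (V G y).smul_mem c hy.1.mem_V, Units.ext h⟩)))))
  obtain ⟨A, _, _, θ, ζ, ζ', h⟩ := exists_mo (k := k) hx.1.1 hy.1.1
  haveI := h.fin
  have e1 := h.one_mul hx hy.1 h0
  have e2 := h.symm.one_mul hy hx.1 fun e => h0 (hy.symm hx e)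
  haveI : Nontrivial A := ⟨1, 0, fun e => hx.2.1 (by rw [← e1, e, map_zero, zero_mul])⟩
  haveI : NoZeroDivisors A := ⟨fun {a b} e => by
    rw [or_iff_not_imp_right]
    intro b0
    refine h.eq_zero (V_l (hx.mem (h.mem_V hx.1 hy.1 b) fun k => b0 (h.eq_zero k)) ?_)
    rw [← mul_assoc, ← map_mul, e, map_zero, zero_mul]⟩
  haveI : IsDomain A := NoZeroDivisors.to_isDomain A
  letI : Field A := fieldOfFiniteDimensional k A
  have inj := h.cl.hom_inj fun a e => h.eq_zero (by rwa [e1] at e)
  have g1 : ∀ c : k, (h.cl.hom (uu (algebraMap k A c)) : Module.End k M) = 1 + c • x := fun c => by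
    rw [h.hom_uu, ← mul_one (algebraMap k A c), h.sm, smul_mul_assoc, e1]
  have g2 : ∀ c : k, (h.cl.hom (ll (algebraMap k A c * ζ)) : Module.End k M) = 1 + c • y := fun c => by
    rw [h.hom_ll, ← mul_one (algebraMap k A c), h.sm, smul_mul_assoc, e2]
  have r : h.cl.hom.range = Subgroup.closure (gens k x y) := by
    refine le_antisymm ?_ ((closure_le _).2 ?_)
    · rw [MonoidHom.range_eq_map, map_le_iff_le_comap]
      refine (field_case (k := k) Gd.two Gd.three (left_ne_zero_of_mul_eq_one h.inv) h.gen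
        (fun c => ?_) fun c => ?_).ge
      exacts [mem_comap.2 (Subgroup.subset_closure ⟨c, Or.inl (g1 c)⟩),
        mem_comap.2 (Subgroup.subset_closure ⟨c, Or.inr (g2 c)⟩)]
    · rintro g ⟨c, e | e⟩
      exacts [⟨_, Units.ext ((g1 c).trans e.symm)⟩, ⟨_, Units.ext ((g2 c).trans e.symm)⟩]
  refine ⟨A, inferInstance, inferInstance, ζ, Algebra.IsAlgebraic.isAlgebraic ζ, eq_top_iff.2 fun a _ => ?_,
    ⟨((MonoidHom.ofInjective inj).trans (MulEquiv.subgroupCongr r)).symm⟩⟩
  obtain ⟨g, rfl⟩ := h.gen a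
  exact IntermediateField.algebra_adjoin_le_adjoin _ _ (Polynomial.aeval_mem_adjoin_singleton k ζ)

end Cfsg.Agent.S5064
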