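import Cfsg.Statements.S5065
import Cfsg.Agent.Lib.Root.Q6

set_option autoImplicit false
universe u
open Cfsg

namespace Cfsg.Agent.S5065

open Subgroup CA.Amb CA.AmbCore CA.AmbRes CA.Root CA.Quad
open scoped commutatorElement

theorem fixed_sup {k M : Type*} [Field k] [AddCommGroup M] [Module k M] (A B : Subgroup (Module.End k M)ˣ) :
    fixedSubmodule (A ⊔ B) = fixedSubmodule A ⊓ fixedSubmodule B := by
  have m : ∀ (A : Subgroup (Module.End k M)ˣ) v, v ∈ fixedSubmodule A ↔ A ≤ MulAction.stabilizer _ v := fun A v => by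
    simp only [fixedSubmodule, Submodule.mem_iInf, LinearMap.mem_ker, LinearMap.sub_apply, sub_eq_zero]; rfl
  ext v; rw [Submodule.mem_inf, m, m, m, sup_le_iff]

theorem comm_sup {k M : Type*} [Field k] [AddCommGroup M] [Module k M] (A B : Subgroup (Module.End k M)ˣ) :
    commutatorSubmodule (A ⊔ B) = commutatorSubmodule A ⊔ commutatorSubmodule B := by
  let T : Submodule k M → Subgroup (Module.End k M)ˣ := fun U =>
    { carrier := {g | ∀ m, g.1 m - m ∈ U}
      one_mem' := by simp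
      mul_mem' := fun {g h} hg hh m => by simpa using add_mem (hg (h.1 m)) (hh m)
      inv_mem' := fun {g} hg m => by simpa [← Module.End.mul_apply] using neg_mem (hg ((g⁻¹).1 m)) }
  have m : ∀ (A : Subgroup (Module.End k M)ˣ) U, commutatorSubmodule A ≤ U ↔ A ≤ T U := fun A U =>
    ⟨fun h g hg v => h (le_iSup₂_of_le (f := fun g (_ : g ∈ A) => LinearMap.range (g.1 - 1)) g hg le_rfl ⟨v, rfl⟩),
      fun h => iSup₂_le fun g hg => by rintro _ ⟨v, rfl⟩; exact h hg v⟩
  exact eq_of_forall_ge_iff fun U => by rw [sup_le_iff, m, m, m, sup_le_iff]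

/-- Let k be a field of characteristic not 2 with k not of order 3, M a finite-dimensional k-vector space and G ≤ GL(M) such that (G, M) is a quadratic pair (M irreducible for G, and G generated by its quadratically acting elements σ whose scalar family 1 + c(σ − 1), c ∈ k, lies in G). Write 𝒬_d for the quadratic elements of G of minimal commutator rank, E(σ) for the subgroup generated by the members of 𝒬_d with the same fixed space and commutator space as σ, and Σ for the set of these subgroups. For σ, τ ∈ 𝒬_d put A = E(σ), B = E(τ) and X = ⟨A, B⟩. Then either X acts unipotently on M, or A and B are the unipotent subgroups of a special rank one group X; in the latter case X contains exactly one central involution acting as −1 on the commutator space [M, X] and trivially on the fixed space C_M(X), and M is the direct sum of C_M(X) and [M, X]. -/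
theorem result {k : Type u} [Field k] (hk2 : ringChar k ≠ 2) (hk3 : Nat.card k ≠ 3)
    {M : Type u} [AddCommGroup M] [Module k M] [FiniteDimensional k M]
    {G : Subgroup (LinearMap.GeneralLinearGroup k M)} (hG : Cfsg.IsQuadraticPair G)
    {σ τ : LinearMap.GeneralLinearGroup k M} (hσ : σ ∈ Cfsg.minimalQuadraticElements G) (hτ : τ ∈ Cfsg.minimalQuadraticElements G) :
    Cfsg.IsUnipotentOn (Cfsg.sameActionSubgroup G σ ⊔ Cfsg.sameActionSubgroup G τ) ∨
    (Cfsg.IsSpecialRankOnePair (Cfsg.sameActionSubgroup G σ) (Cfsg.sameActionSubgroup G τ) ∧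
      (∃! i : LinearMap.GeneralLinearGroup k M, i ∈ Cfsg.sameActionSubgroup G σ ⊔ Cfsg.sameActionSubgroup G τ ∧ i ≠ 1 ∧ i * i = 1 ∧
        (∀ x ∈ Cfsg.sameActionSubgroup G σ ⊔ Cfsg.sameActionSubgroup G τ, i * x = x * i) ∧
        (∀ m ∈ Cfsg.commutatorSubmodule (Cfsg.sameActionSubgroup G σ ⊔ Cfsg.sameActionSubgroup G τ), (i : M →ₗ[k] M) m = -m) ∧
        (∀ m ∈ Cfsg.fixedSubmodule (Cfsg.sameActionSubgroup G σ ⊔ Cfsg.sameActionSubgroup G τ), (i : M →ₗ[k] M) m = m)) ∧
      IsCompl (Cfsg.fixedSubmodule (Cfsg.sameActionSubgroup G σ ⊔ Cfsg.sameActionSubgroup G τ))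
        (Cfsg.commutatorSubmodule (Cfsg.sameActionSubgroup G σ ⊔ Cfsg.sameActionSubgroup G τ))) := by
  haveI := gd_of hk2 hk3
  have hx := mem_mqe.1 hσ
  have hy := mem_mqe.1 hτ
  rw [sas_eq hx, sas_eq hy]
  generalize σ.1 - 1 = x at *
  generalize τ.1 - 1 = y₀ at *
  by_cases h0 : x * y₀ * x = 0
  · exact Or.inl (isUnip_iff.2 (hx.uni hy h0))
  refine Or.inr ⟨special_iff.2 (hx.ro hy h0), ?_⟩
  obtain ⟨y, m, hy', h1, h2⟩ := hx.dich' hy.1 h0
  rw [← E_eq (hy.V_eq m hy'.2.1), fixed_sup, comm_sup, fixed_E hx.1, fixed_E hy'.1, commS_E hx.1, commS_E hy'.1]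
  have b1 : ∀ r, x * (y * (x * r)) = x * r := fun r => by rw [← mul_assoc, ← mul_assoc, h1]
  have b2 : ∀ r, y * (x * (y * r)) = y * r := fun r => by rw [← mul_assoc, ← mul_assoc, h2]
  have b3 : ∀ r, x * (x * r) = 0 := fun r => by rw [← mul_assoc, hx.1.1, zero_mul]
  have b4 : ∀ r, y * (y * r) = 0 := fun r => by rw [← mul_assoc, hy'.1.1, zero_mul]
  have e1 : (x * y + y * x) * x = x := by rw [add_mul, h1, mul_assoc, hx.1.1, mul_zero, add_zero]
  have e2 : (x * y + y * x) * y = y := by rw [add_mul, h2, mul_assoc, hy'.1.1, mul_zero, zero_add]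
  have e3 : x * (x * y + y * x) = x := by rw [mul_add, b3, ← mul_assoc, h1, zero_add]
  have e4 : y * (x * y + y * x) = y := by rw [mul_add, b4, ← mul_assoc, h2, add_zero]
  have hi : (((ex x hx.1.1 * (ex y hy'.1.1)⁻¹ * ex x hx.1.1) ^ 2 : (Module.End k M)ˣ) : Module.End k M) =
      1 - 2 * (x * y + y * x) := by
    rw [mul_assoc] at h1 h2
    simp only [sq, Units.val_mul, ex_val, ex_inv_val, mul_add, add_mul, mul_sub, sub_mul, one_mul, mul_one, mul_assoc,
      b1, b2, b3, b4, h1, h2, hx.1.1, hy'.1.1, mul_zero]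
    noncomm_ring
  have mi : (ex x hx.1.1 * (ex y hy'.1.1)⁻¹ * ex x hx.1.1) ^ 2 ∈ E G x ⊔ E G y := pow_mem (mul_mem (mul_mem
    (mem_sup_left (ex_mem_E hx.1.mem_V)) (mem_sup_right (inv_mem (ex_mem_E hy'.1.mem_V))))
    (mem_sup_left (ex_mem_E hx.1.mem_V))) 2
  have k1 : LinearMap.ker x ⊓ LinearMap.ker y = LinearMap.ker (x * y + y * x) := le_antisymm
    (fun v hv => by simp [LinearMap.mem_ker.1 hv.1, LinearMap.mem_ker.1 hv.2])
    (le_inf ((ker_le_mul x _).trans_eq (by rw [e3])) ((ker_le_mul y _).trans_eq (by rw [e4])))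
  have k2 : LinearMap.range x ⊔ LinearMap.range y = LinearMap.range (x * y + y * x) := le_antisymm
    (sup_le (le_of_eq_of_le (by rw [e1]) (range_mul_le _ x)) (le_of_eq_of_le (by rw [e2]) (range_mul_le _ y)))
    ((LinearMap.range_add_le _ _).trans (sup_le_sup (range_mul_le _ _) (range_mul_le _ _)))
  have ee : (x * y + y * x) * (x * y + y * x) = x * y + y * x := by rw [mul_add, ← mul_assoc, ← mul_assoc, e1, e2]
  have f1 := fixed_sup (E G x) (E G y)
  have f2 := comm_sup (E G x) (E G y)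
  rw [fixed_E hx.1, fixed_E hy'.1, k1] at f1
  rw [commS_E hx.1, commS_E hy'.1, k2] at f2
  rw [k1, k2]
  generalize (ex x hx.1.1 * (ex y hy'.1.1)⁻¹ * ex x hx.1.1) ^ 2 = i at hi mi
  generalize x * y + y * x = e at *
  have a1 : ∀ v ∈ LinearMap.range e, e v = v := by rintro _ ⟨v, rfl⟩; rw [← Module.End.mul_apply, ee]
  have a2 : ∀ v, v - e v ∈ LinearMap.ker e := fun v => by rw [LinearMap.mem_ker, map_sub, a1 _ ⟨v, rfl⟩, sub_self]
  refine ⟨⟨i, ⟨mi, fun h => hx.2.1 ?_, Units.ext ?_, fun g hg => Units.ext ?_, fun v hv => ?_, fun v hv => ?_⟩,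
    fun j hj => Units.ext (LinearMap.ext fun v => ?_)⟩, (LinearMap.IsIdempotentElem.isProj_range e ee).isCompl.symm⟩
  · rw [h, Units.val_one, eq_comm, sub_eq_self, two_mul, ← two_smul k, smul_eq_zero] at hi
    rw [← e1, hi.resolve_left Gd.two, zero_mul]
  · rw [Units.val_mul, hi, Units.val_one]; noncomm_ring [ee]
  · have c1 : e * (g.1 - 1) = g.1 - 1 := LinearMap.ext fun v => a1 _ (f2.le
      (le_iSup₂_of_le (f := fun g (_ : g ∈ E G x ⊔ E G y) => LinearMap.range (g.1 - 1)) g hg le_rfl ⟨v, rfl⟩))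
    have c2 : (g.1 - 1) * e = g.1 - 1 := LinearMap.ext fun v => by
      have := (iInf₂_le g hg : fixedSubmodule (E G x ⊔ E G y) ≤ LinearMap.ker (g.1 - 1)) (f1.ge (a2 v))
      rw [LinearMap.mem_ker, map_sub, sub_eq_zero] at this
      exact this.symm
    have : e * g.1 = g.1 * e := by
      rw [mul_sub, mul_one] at c1; rw [sub_mul, one_mul] at c2; exact sub_left_injective (c1.trans c2.symm)
    rw [Units.val_mul, Units.val_mul, hi, sub_mul, mul_sub, mul_assoc, this, two_mul, two_mul, mul_add, one_mul, mul_one]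
  · rw [hi, two_mul]; simp [a1 v hv]
  · rw [hi, two_mul]; simp [LinearMap.mem_ker.1 hv]
  · conv_lhs => rw [← sub_add_cancel v (e v), map_add, hj.2.2.2.2.2 _ (a2 v), hj.2.2.2.2.1 _ ⟨v, rfl⟩]
    rw [hi, two_mul]; simp; abel

end Cfsg.Agent.S5065
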