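import Cfsg.Statements.S5068
import Cfsg.Agent.Lib.Root.Q6

set_option autoImplicit false
universe u
open Cfsg

namespace Cfsg.Agent.S5068

open Subgroup CA.Amb CA.AmbCore CA.AmbRes CA.Root CA.Quad
open scoped commutatorElement

/-- Let k be a field of characteristic not 2 with k not of order 3, M a finite-dimensional k-vector space and G ≤ GL(M) such that (G, M) is a quadratic pair (M irreducible for G, and G generated by its quadratically acting elements σ whose scalar family 1 + c(σ − 1), c ∈ k, lies in G). Write 𝒬_d for the quadratic elements of G of minimal commutator rank, E(σ) for the subgroup generated by the members of 𝒬_d with the same fixed space and commutator space as σ, and Σ for the set of these subgroups. Let E, F ∈ Σ generate a subgroup acting unipotently on M. Then either E and F commute elementwise, or L = ⁅E, F⁆ belongs to Σ, equals the subgroup generated by the commutators of e with F, and of E with f, for all non-identity e ∈ E, f ∈ F, the group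 ⟨E, F⟩ is nilpotent of class two, and ⟨E, F⟩ lies in U(L), the set of elements g of G normalizing L with (g − 1)M inside the fixed space of L, (g − 1) mapping that fixed space into the commutator space of L, and g acting trivially on the commutator space of L. -/
theorem result {k : Type u} [Field k] (hk2 : ringChar k ≠ 2) (hk3 : Nat.card k ≠ 3)
    {M : Type u} [AddCommGroup M] [Module k M] [FiniteDimensional k M]
    {G : Subgroup (LinearMap.GeneralLinearGroup k M)} (hG : Cfsg.IsQuadraticPair G)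
    {E F : Subgroup (LinearMap.GeneralLinearGroup k M)} (hE : E ∈ Cfsg.quadraticRootSubgroups G) (hF : F ∈ Cfsg.quadraticRootSubgroups G)
    (hu : Cfsg.IsUnipotentOn (E ⊔ F)) :
    ⁅E, F⁆ = ⊥ ∨
    (⁅E, F⁆ ∈ Cfsg.quadraticRootSubgroups G ∧
      (∀ e ∈ E, e ≠ 1 → Subgroup.closure ((fun f : LinearMap.GeneralLinearGroup k M => e * f * e⁻¹ * f⁻¹) '' (F : Set (LinearMap.GeneralLinearGroup k M))) = ⁅E, F⁆) ∧
      (∀ f ∈ F, f ≠ 1 → Subgroup.closure ((fun e : LinearMap.GeneralLinearGroup k M => e * f * e⁻¹ * f⁻¹) '' (E : Set (LinearMap.GeneralLinearGroup k M))) = ⁅E, F⁆) ∧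
      ⁅E ⊔ F, E ⊔ F⁆ ≠ ⊥ ∧ ⁅⁅E ⊔ F, E ⊔ F⁆, E ⊔ F⁆ = ⊥ ∧
      ((E ⊔ F : Subgroup (LinearMap.GeneralLinearGroup k M)) : Set (LinearMap.GeneralLinearGroup k M)) ⊆ Cfsg.quadraticUnipotentCore G ⁅E, F⁆) := by
  haveI := gd_of hk2 hk3
  have hL := red_of_irr hG.1
  rw [qrs_eq] at hE hF ⊢
  have h0 : ¬ RO E F := fun r => r.not_nil le_sup_left le_sup_right (isUnip_iff.1 hu).nil
  have c2 := (hL.ra.rs.class_two ⟨E, hE, rfl⟩ ⟨F, hF, rfl⟩ fun r =>
    h0 ((ro_subgroupOf (le_gen hE) (le_gen hF)).1 r)).map (Subgroup.subtype _)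
  rw [map_commutator, Subgroup.map_sup, map_subgroupOf_eq_of_le (le_gen hE), map_subgroupOf_eq_of_le (le_gen hF)] at c2
  obtain ⟨x, hx, rfl⟩ := hE
  obtain ⟨y, hy, rfl⟩ := hF
  refine (hx.tri hy (by by_contra e; exact h0 (hx.ro hy e).1)).imp Cm.bot fun c => ?_
  have p := c.ps hL
  refine ⟨p.case.1, p.case.2.2.1, p.case.2.2.2, fun e => ?_, c2.bot, fun g hg => ?_⟩
  · have := (commutator_mono le_sup_left le_sup_right).trans e.le
    rw [p.eq] at this
    exact c.2.2.2 ((ex_eq_one _).1 (mem_bot.1 (this (ex_mem_E c.md.1.mem_V))))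
  rw [p.eq]
  set w := x * y - y * x
  let J : Submodule k (Module.End k M) :=
    { carrier := {r | w * r = 0 ∧ r * w = 0 ∧ ∀ m ∈ LinearMap.ker w, r m ∈ LinearMap.range w}
      zero_mem' := ⟨mul_zero _, zero_mul _, fun _ _ => zero_mem _⟩
      add_mem' := fun h h' => ⟨by rw [mul_add, h.1, h'.1, add_zero], by rw [add_mul, h.2.1, h'.2.1, add_zero],
        fun m hm => add_mem (h.2.2 m hm) (h'.2.2 m hm)⟩
      smul_mem' := fun a r h => ⟨by rw [mul_smul_comm, h.1, smul_zero], by rw [smul_mul_assoc, h.2.1, smul_zero],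
        fun m hm => Submodule.smul_mem _ a (h.2.2 m hm)⟩ }
  have j1 : J * J ≤ J := Submodule.mul_le.2 fun r hr s hs => ⟨by rw [← mul_assoc, hr.1, zero_mul],
    by rw [mul_assoc, hs.2.1, mul_zero], fun m hm => by
      rw [Module.End.mul_apply, LinearMap.mem_ker.1 (mul_eq_zero_iff.1 hr.2.1 (hs.2.2 m hm))]; exact zero_mem _⟩
  have hJ := ((sup_le (fun g hg => ⟨c.core hg, c.core (inv_mem hg)⟩) fun g hg => ⟨c.core' hg, c.core' (inv_mem hg)⟩ :
    CA.Quad.E G x ⊔ CA.Quad.E G y ≤ sat J j1) hg).1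
  refine ⟨sup_le E_le E_le hg, (p.c1.sup_right p.c2).symm.le_norm hg, fun m => ?_, fun m hm => ?_, fun m hm => ?_⟩
  · rw [fixed_E c.md.1]; exact mul_eq_zero_iff.1 hJ.1 ⟨m, rfl⟩
  · rw [fixed_E c.md.1] at hm; rw [commS_E c.md.1]; exact hJ.2.2 m hm
  · rw [commS_E c.md.1] at hm; exact sub_eq_zero.1 (mul_eq_zero_iff.1 hJ.2.1 hm)

end Cfsg.Agent.S5068
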