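import Cfsg.Statements.S5067
import Cfsg.Agent.Lib.Root.R1

set_option autoImplicit false
open Cfsg

namespace Cfsg.Agent.S5067

open Subgroup CA.Amb CA.AmbCore CA.AmbRes CA.Root
open scoped commutatorElement

theorem aux {P : Type*} [Group P] [Group.IsNilpotent P] (hna : ¬ IsMulCommutative P) {E : Subgroup P}
    (hE : IsMulCommutative ↥E) :
    Group.nilpotencyClass ↥(Subgroup.normalClosure (E : Set P)) < Group.nilpotencyClass P := by
  set K := Subgroup.normalClosure (E : Set P)
  have hK : K ≤ E ⊔ commutator P := by
    haveI : (E ⊔ commutator P).Normal := normal_iff_top_le.2 (norm_of_commutator_le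
      ((commutator_mono le_top le_top).trans le_sup_right))
    exact normalClosure_le_normal (le_sup_left (a := E) (b := commutator P))
  have h1 : ⁅K, K⁆ ≤ (⊤ : Subgroup P).lowerCentralSeries 2 := by
    refine (commutator_mono hK hK).trans (commutator_le.2 fun x hx y hy => ?_)
    obtain ⟨a, ha, b, hb, rfl⟩ := (mem_sup_of_norm norm_of_normal).1 hx
    obtain ⟨c, hc, d, hd, rfl⟩ := (mem_sup_of_norm norm_of_normal).1 hy
    rw [← QuotientGroup.eq_one_iff, commutatorElement_def]
    have c1 : ∀ z ∈ commutator P, ∀ w : P, Commute (z : P ⧸ (⊤ : Subgroup P).lowerCentralSeries 2) w := fun z hz w => by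
      rw [← commutatorElement_eq_one_iff_commute]
      exact (QuotientGroup.eq_one_iff ⁅z, w⁆).2 (commutator_mem_commutator hz (mem_top w))
    have c2 : Commute (a : P ⧸ (⊤ : Subgroup P).lowerCentralSeries 2) c :=
      congrArg QuotientGroup.mk (cm_self_iff.2 hE a ha c hc)
    exact commutatorElement_eq_one_iff_commute.2
      (Commute.mul_left (c2.mul_right (c1 d hd a).symm) (c1 b hb (c * d)))
  have h2 : ∀ j, K.lowerCentralSeries (j + 1) ≤ (⊤ : Subgroup P).lowerCentralSeries (j + 2) := fun j => by
    induction j with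
    | zero => exact h1
    | succ j ih => exact commutator_mono ih le_top
  obtain ⟨c, hc⟩ : ∃ c, Group.nilpotencyClass P = c + 2 := by
    refine ⟨Group.nilpotencyClass P - 2, (Nat.sub_add_cancel (not_lt.1 fun h => hna ?_)).symm⟩
    have := (Subgroup.lowerCentralSeries_eq_bot_iff_nilpotencyClass_le (G := P)).2 (Nat.le_of_lt_succ h)
    exact ⟨⟨fun a b => cm_iff_bot.2 this a (mem_top a) b (mem_top b)⟩⟩
  rw [hc, Nat.lt_succ_iff, ← Subgroup.lowerCentralSeries_eq_bot_iff_nilpotencyClass_le, ← map_subtype_inj,
    Subgroup.map_bot, top_subtype_lowerCentralSeries, eq_bot_iff]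
  exact (h2 c).trans (hc ▸ Subgroup.lowerCentralSeries_nilpotencyClass).le

/-- Let P be a non-abelian nilpotent p-group (every element of p-power order; P possibly infinite) generated by two abelian subgroups E and F. Then the normal closure of E in P, and likewise that of F, has nilpotency class strictly smaller than that of P. -/
theorem result {P : Type*} [Group P] {p : ℕ} [Fact p.Prime] (hP : IsPGroup p P) [Group.IsNilpotent P]
    (hna : ¬ IsMulCommutative P) {E F : Subgroup P} (hE : IsMulCommutative ↥E) (hF : IsMulCommutative ↥F) (hgen : E ⊔ F = ⊤) :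
    Group.nilpotencyClass ↥(Subgroup.normalClosure (E : Set P)) < Group.nilpotencyClass P ∧
    Group.nilpotencyClass ↥(Subgroup.normalClosure (F : Set P)) < Group.nilpotencyClass P := by
  exact ⟨aux hna hE, aux hna hF⟩

end Cfsg.Agent.S5067
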