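import Cfsg.Statements.S5069
import Cfsg.Agent.Lib.Root.Q6

set_option autoImplicit false
universe u
open Cfsg

namespace Cfsg.Agent.S5069

open Subgroup CA.Amb CA.AmbCore CA.AmbRes CA.Root CA.Quad
open scoped commutatorElement

/-- Let k be a field of characteristic not 2 with k not of order 3, M a finite-dimensional k-vector space and G ≤ GL(M) such that (G, M) is a quadratic pair (M irreducible for G, and G generated by its quadratically acting elements σ whose scalar family 1 + c(σ − 1), c ∈ k, lies in G). Write 𝒬_d for the quadratic elements of G of minimal commutator rank, E(σ) for the subgroup generated by the members of 𝒬_d with the same fixed space and commutator space as σ, and Σ for the set of these subgroups. Then Σ is a disjoint union of finitely many parts Σ₁, …, Σ_r such that the subgroups G_i generated by the Σ_i commute pairwise, each G_i is quasisimple, and inside G_i the members of Σ_i form a class of abstract root subgroups in which every rank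 one pair A, B contains subgroups A₀ ≤ A, B₀ ≤ B generating an image of SL₂(k₁) with central kernel on unitriangular subgroups for some field k₁ with at least four elements. -/
theorem result {k : Type u} [Field k] (hk2 : ringChar k ≠ 2) (hk3 : Nat.card k ≠ 3)
    {M : Type u} [AddCommGroup M] [Module k M] [FiniteDimensional k M]
    {G : Subgroup (LinearMap.GeneralLinearGroup k M)} (hG : Cfsg.IsQuadraticPair G) :
    ∃ (r : ℕ) (part : Fin r → Set (Subgroup (LinearMap.GeneralLinearGroup k M))),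
      (⋃ i, part i) = Cfsg.quadraticRootSubgroups G ∧ (∀ i j, i ≠ j → Disjoint (part i) (part j)) ∧ (∀ i, (part i).Nonempty) ∧
      (∀ i j, i ≠ j → ⁅(⨆ A ∈ part i, A), (⨆ A ∈ part j, A)⁆ = ⊥) ∧
      (∀ i, Cfsg.IsQuasisimple ↥(⨆ A ∈ part i, A) ∧
        Cfsg.IsRootSubgroupClass ((fun A : Subgroup (LinearMap.GeneralLinearGroup k M) => A.subgroupOf (⨆ B ∈ part i, B)) '' (part i)) ∧
        ∀ A ∈ part i, ∀ B ∈ Cfsg.rankOnePartners (part i) A, ∃ A₀ B₀ : Subgroup (LinearMap.GeneralLinearGroup k M), A₀ ≤ A ∧ B₀ ≤ B ∧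
          ∃ (k₁ : Type u) (_ : Field k₁), 3 < ENat.card k₁ ∧ Cfsg.IsPSL2PairOver k₁ A₀ B₀) := by
  haveI := gd_of hk2 hk3
  have hL := red_of_irr hG.1
  rw [qrs_eq]
  let I := {C | ∃ A ∈ Sig G, C = cp G A}
  have dj : ∀ i j : I, i ≠ j → Disjoint i.1 j.1 := by
    rintro ⟨_, A, hA, rfl⟩ ⟨_, B, hB, rfl⟩ h
    refine Set.disjoint_left.2 fun C h1 h2 => h (Subtype.ext (Set.ext fun D => ?_))
    exact ⟨fun k => ⟨k.1, (h2.2.trans (Rt.symm h1.2)).trans k.2⟩, fun k => ⟨k.1, (h1.2.trans (Rt.symm h2.2)).trans k.2⟩⟩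
  have cm : ∀ i j : I, i ≠ j → Cm (⨆ A ∈ i.1, A) (⨆ A ∈ j.1, A) := fun i j h => by
    have := dj i j h
    obtain ⟨_, A, hA, rfl⟩ := i
    obtain ⟨_, B, hB, rfl⟩ := j
    exact cm_iff_le.2 (iSup₂_le fun C hC => (hL.cm_cp hC.1 (Set.disjoint_left.1 this hC)).le)
  haveI : Finite I := finite_of_comm (k := k) _ cm (by rintro ⟨_, A, hA, rfl⟩; exact hL.not_cm hA)
  obtain ⟨r, ⟨e⟩⟩ := Finite.exists_equiv_fin I
  refine ⟨r, fun i => (e.symm i).1, Set.Subset.antisymm (Set.iUnion_subset fun i => ?_) fun A hA =>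
    Set.mem_iUnion.2 ⟨e ⟨_, A, hA, rfl⟩, by simpa using ⟨hA, .refl⟩⟩, fun i j h => dj _ _ (e.symm.injective.ne h),
    fun i => ?_, fun i j h => (cm _ _ (e.symm.injective.ne h)).bot, fun i => ?_⟩
  all_goals obtain ⟨A, hA, e⟩ := (e.symm i).2; beta_reduce
  · rw [e]; exact fun _ h => h.1
  · rw [e]; exact ⟨A, hA, .refl⟩
  · rw [e]
    refine ⟨hL.qs hA, (hL.ra.comp hL.ni A).cls ⟨A, hA, .refl⟩ fun _ h _ h' => comp_conn h h', fun B hB C hC => ?_⟩
    obtain ⟨A₀, B₀, h1, h2, h3⟩ := sig_psl2 hB.1 hC.1.1 hC.2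
    exact ⟨A₀, B₀, h1, h2, k, inferInstance, Gd.three, h3⟩

end Cfsg.Agent.S5069
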