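import Cfsg.Statements.S5070
import Cfsg.Agent.Lib.Root.E2
import Cfsg.Agent.Lib.Lin.CFormSpU

set_option autoImplicit false
open Matrix
open Cfsg

namespace Cfsg.Agent.S5070

open CA.RootEx CA.Root CA.CForm

theorem tvh (F : Type*) [Field F] (m : ℕ) : TvH F (spEquiv F m).toMonoidHom (1 : F) :=
  ⟨sympStd_nondeg F m, (spEquiv F m).injective, one_ne_zero, fun c => ⟨fun _ => ⟨c, by simp⟩, fun _ => rfl⟩,
    fun _ _ _ _ => (spEquiv F m).surjective _⟩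

theorem eqS (F : Type*) [Field F] (m : ℕ) :
    {A : Subgroup ↥(Matrix.symplecticGroup (Fin m) F) | ∃ p : Fin m ⊕ Fin m → F, p ≠ 0 ∧
        A = Subgroup.closure {g : ↥(Matrix.symplecticGroup (Fin m) F) | ∃ c : F, ∀ v : Fin m ⊕ Fin m → F,
          (g : Matrix (Fin m ⊕ Fin m) (Fin m ⊕ Fin m) F) *ᵥ v = v + (c * (v ⬝ᵥ (Matrix.J (Fin m) F *ᵥ p))) • p}} =
      Ag F (fι (spEquiv F m).toMonoidHom) '' XT (sympStd F m) 1 := by
  have key : ∀ p : Fin m ⊕ Fin m → F, Subgroup.closure {g : ↥(Matrix.symplecticGroup (Fin m) F) | ∃ c : F,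
      ∀ v : Fin m ⊕ Fin m → F, (g : Matrix (Fin m ⊕ Fin m) (Fin m ⊕ Fin m) F) *ᵥ v =
        v + (c * (v ⬝ᵥ (Matrix.J (Fin m) F *ᵥ p))) • p} = Ag F (fι (spEquiv F m).toMonoidHom) (tx (sympStd F m) 1 p) := by
    intro p
    have e : ∀ v, v ⬝ᵥ (Matrix.J (Fin m) F *ᵥ p) = -(sympStd F m).B p v := fun v => by
      rw [← Form.symp_symm, sympStd_B]; rfl
    unfold Ag; congr 1; ext g
    refine ⟨fun ⟨c, h⟩ => ⟨-c, LinearMap.ext fun v => (h v).trans ?_⟩, fun ⟨c, h⟩ => ⟨-c, fun v =>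
      (LinearMap.congr_fun h v).trans ?_⟩⟩ <;> simp [e, tx_apply, smul_smul]
  ext A
  exact ⟨fun ⟨p, p0, e⟩ => ⟨_, ⟨p, p0, Form.symp_Q _ _, rfl⟩, (e.trans (key p)).symm⟩,
    fun ⟨_, ⟨p, p0, _, e⟩, e'⟩ => ⟨p, p0, by rw [key, ← e', e]⟩⟩

theorem gen (F : Type*) [Field F] (m : ℕ) :
    ⨆ A ∈ Ag F (fι (spEquiv F m).toMonoidHom) '' XT (sympStd F m) 1, A = ⊤ := by
  rw [← (Subgroup.map_injective (f := (spEquiv F m).toMonoidHom) (spEquiv F m).injective).eq_iff,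
    Subgroup.map_top_of_surjective _ (spEquiv F m).surjective]
  refine (sympStd_nondeg F m).symp_eq_top_of_Tgrp fun x c h => ?_
  by_cases x0 : x = 0
  · subst x0; rw [Form.eichler_zero_left]; exact one_mem _
  refine ⟨(spEquiv F m).symm _, le_gen (S := Ag F (fι (spEquiv F m).toMonoidHom) '' XT (sympStd F m) 1)
    ⟨_, ⟨x, x0, h.Q_p, rfl⟩, rfl⟩ (Subgroup.subset_closure ⟨c, LinearMap.ext fun v => ?_⟩),
    (spEquiv F m).apply_symm_apply _⟩
  rw [fι_apply, MulEquiv.coe_toMonoidHom, MulEquiv.apply_symm_apply, Form.eichler_zero_apply]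
  simp [tx_apply, smul_smul]

/-- Let F be a field, m a natural number and V = F^{2(m+1)} with the standard non-degenerate alternating form f(u, v) = uᵀ J v. For a non-zero vector p let T(p) be the group of symplectic transvections v ↦ v + c f(v, p) p, c ∈ F. Then the subgroups T(p), p ≠ 0, generate the symplectic group Sp_{2(m+1)}(F) and form a degenerate class of abstract F-root subgroups of it (any two of them either commute elementwise or are the unipotent subgroups of a rank one group that is an image of SL₂(F) with central kernel, never the commutator case), and their graph of rank one pairs is connected. -/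
theorem result (F : Type*) [Field F] (m : ℕ) :
    Cfsg.IsRootSubgroupClass {A : Subgroup ↥(Matrix.symplecticGroup (Fin (m + 1)) F) | ∃ p : Fin (m + 1) ⊕ Fin (m + 1) → F, p ≠ 0 ∧
        A = Subgroup.closure {g : ↥(Matrix.symplecticGroup (Fin (m + 1)) F) | ∃ c : F, ∀ v : Fin (m + 1) ⊕ Fin (m + 1) → F,
          (g : Matrix (Fin (m + 1) ⊕ Fin (m + 1)) (Fin (m + 1) ⊕ Fin (m + 1)) F) *ᵥ v =
            v + (c * (v ⬝ᵥ (Matrix.J (Fin (m + 1)) F *ᵥ p))) • p}} ∧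
    Cfsg.IsDegenerateRootSet {A : Subgroup ↥(Matrix.symplecticGroup (Fin (m + 1)) F) | ∃ p : Fin (m + 1) ⊕ Fin (m + 1) → F, p ≠ 0 ∧
        A = Subgroup.closure {g : ↥(Matrix.symplecticGroup (Fin (m + 1)) F) | ∃ c : F, ∀ v : Fin (m + 1) ⊕ Fin (m + 1) → F,
          (g : Matrix (Fin (m + 1) ⊕ Fin (m + 1)) (Fin (m + 1) ⊕ Fin (m + 1)) F) *ᵥ v =
            v + (c * (v ⬝ᵥ (Matrix.J (Fin (m + 1)) F *ᵥ p))) • p}} ∧
    Cfsg.IsKRootSubgroupSet F {A : Subgroup ↥(Matrix.symplecticGroup (Fin (m + 1)) F) | ∃ p : Fin (m + 1) ⊕ Fin (m + 1) → F, p ≠ 0 ∧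
        A = Subgroup.closure {g : ↥(Matrix.symplecticGroup (Fin (m + 1)) F) | ∃ c : F, ∀ v : Fin (m + 1) ⊕ Fin (m + 1) → F,
          (g : Matrix (Fin (m + 1) ⊕ Fin (m + 1)) (Fin (m + 1) ⊕ Fin (m + 1)) F) *ᵥ v =
            v + (c * (v ⬝ᵥ (Matrix.J (Fin (m + 1)) F *ᵥ p))) • p}} ∧
    Cfsg.IsConnectedFamily (Cfsg.FAdj {A : Subgroup ↥(Matrix.symplecticGroup (Fin (m + 1)) F) | ∃ p : Fin (m + 1) ⊕ Fin (m + 1) → F, p ≠ 0 ∧
        A = Subgroup.closure {g : ↥(Matrix.symplecticGroup (Fin (m + 1)) F) | ∃ c : F, ∀ v : Fin (m + 1) ⊕ Fin (m + 1) → F,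
          (g : Matrix (Fin (m + 1) ⊕ Fin (m + 1)) (Fin (m + 1) ⊕ Fin (m + 1)) F) *ᵥ v =
            v + (c * (v ⬝ᵥ (Matrix.J (Fin (m + 1)) F *ᵥ p))) • p}})
      {A : Subgroup ↥(Matrix.symplecticGroup (Fin (m + 1)) F) | ∃ p : Fin (m + 1) ⊕ Fin (m + 1) → F, p ≠ 0 ∧
        A = Subgroup.closure {g : ↥(Matrix.symplecticGroup (Fin (m + 1)) F) | ∃ c : F, ∀ v : Fin (m + 1) ⊕ Fin (m + 1) → F,
          (g : Matrix (Fin (m + 1) ⊕ Fin (m + 1)) (Fin (m + 1) ⊕ Fin (m + 1)) F) *ᵥ v =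
            v + (c * (v ⬝ᵥ (Matrix.J (Fin (m + 1)) F *ᵥ p))) • p}} := by
  rw [eqS]
  have h := tvh F (m + 1)
  refine ⟨⟨h.fw.rs (gen F _), cls_of_rt ⟨_, _, ⟨Pi.single (Sum.inl 0) 1, by simp, Form.symp_Q _ _, rfl⟩, rfl⟩ h.rt⟩,
    degenerate (h.fw.rs (gen F _)) h.tri, h.fw.kroot (gen F _), h.rt⟩

end Cfsg.Agent.S5070
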