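import Cfsg.Statements.S5073
import Cfsg.Agent.Lib.Root.Q6

set_option autoImplicit false
universe u
open Cfsg

namespace Cfsg.Agent.S5073

open Subgroup CA.Amb CA.AmbCore CA.AmbRes CA.Root CA.Quad
open scoped commutatorElement

/-- Let k be a field of characteristic not 2 with k not of order 3, M a finite-dimensional k-vector space and G ≤ GL(M) such that (G, M) is a quadratic pair (M irreducible for G, and G generated by its quadratically acting elements σ whose scalar family 1 + c(σ − 1), c ∈ k, lies in G). Write 𝒬_d for the quadratic elements of G of minimal commutator rank, E(σ) for the subgroup generated by the members of 𝒬_d with the same fixed space and commutator space as σ, and Σ for the set of these subgroups. Let E, F ∈ Σ. If some non-identity element of E commutes with some non-identity element of F, or some non-identity element of E normalizes F, then E and F commute elementwise. -/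
theorem result {k : Type u} [Field k] (hk2 : ringChar k ≠ 2) (hk3 : Nat.card k ≠ 3)
    {M : Type u} [AddCommGroup M] [Module k M] [FiniteDimensional k M]
    {G : Subgroup (LinearMap.GeneralLinearGroup k M)} (hG : Cfsg.IsQuadraticPair G)
    {E F : Subgroup (LinearMap.GeneralLinearGroup k M)} (hE : E ∈ Cfsg.quadraticRootSubgroups G) (hF : F ∈ Cfsg.quadraticRootSubgroups G)
    (h : (∃ e ∈ E, e ≠ 1 ∧ ∃ f ∈ F, f ≠ 1 ∧ e * f = f * e) ∨ E ⊓ Subgroup.normalizer (F : Set (LinearMap.GeneralLinearGroup k M)) ≠ ⊥) :
    ⁅E, F⁆ = ⊥ := by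
  haveI := gd_of hk2 hk3
  have hL := red_of_irr hG.1
  rw [qrs_eq] at hE hF
  obtain ⟨x, hx, rfl⟩ := hE
  obtain ⟨y, hy, rfl⟩ := hF
  by_cases h0 : x * y * x = 0
  · refine (hx.tri hy h0).elim Cm.bot fun c => False.elim ?_
    have p := c.ps hL
    rcases h with ⟨e, he, e1, f, hf, f1, h⟩ | h
    · obtain ⟨u, hu, rfl⟩ := mem_E.1 he
      obtain ⟨v, hv, rfl⟩ := mem_E.1 hf
      refine (c.of_mem hu hv (fun k => e1 ((ex_eq_one _).2 k)) fun k => f1 ((ex_eq_one _).2 k)).2.2.2 ?_
      have := congrArg Units.val h
      simp only [Units.val_mul, ex_val] at this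
      rw [← sub_eq_zero.2 this]; noncomm_ring
    · refine h (eq_bot_iff.2 fun e he => ?_)
      by_contra e1
      have : CA.Quad.E G (x * y - y * x) ≤ CA.Quad.E G y := fun c hc => by
        obtain ⟨b, hb, rfl⟩ := p.s1 e he.1 e1 c hc
        exact mul_mem (conj_mem_of_mem_normalizer he.2 hb) (inv_mem hb)
      have m : x * y - y * x ∈ V G y := by simpa using (show _ ∈ V G y from this (ex_mem_E c.md.1.mem_V))
      have r := hy.range_eq m c.2.2.2
      have e1 := V_l (hy.mem m c.2.2.2) (c.core hx.1.mem_V).2.1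
      have e2 := V_r (hy.mem m c.2.2.2) (c.core hx.1.mem_V).1
      exact c.2.2.2 (by rw [e1, e2, sub_self])
  · exfalso
    have r := (hx.ro hy h0).1
    rcases h with ⟨e, he, e1, f, hf, f1, h⟩ | h
    · obtain ⟨u, hu, rfl⟩ := mem_E.1 he
      obtain ⟨v, hv, rfl⟩ := mem_E.1 hf
      have u0 : u ≠ 0 := fun k => e1 ((ex_eq_one _).2 k)
      have v0 : v ≠ 0 := fun k => f1 ((ex_eq_one _).2 k)
      have := congrArg Units.val h
      simp only [Units.val_mul, ex_val] at this
      have e : u * v = v * u := by rw [← sub_eq_zero, ← sub_eq_zero.2 this]; noncomm_ring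
      refine (hx.of_mem hu u0).ne_of_ro (hy.of_mem hv v0) (by rwa [E_eq (hx.V_eq hu u0), E_eq (hy.V_eq hv v0)]) ?_
      rw [e, mul_assoc, hu.1.1, mul_zero]
    · exact h (eq_bot_iff.2 fun e he => r.nb' he.1 he.2)

end Cfsg.Agent.S5073
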