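import Cfsg.Statements.S5081
import Cfsg.Agent.Lib.Fus.FusInv
-- import your own Cfsg.Agent.* helpers here

set_option autoImplicit false
open Cfsg

namespace Cfsg.Agent.S5081

open CA.Fus CA.AmbSyl in
/-- Let F be a saturated fusion system over a finite p-group S, P a proper subgroup of S that is fully normalized, and H the subgroup of Aut_F(P) generated by the automorphisms that extend to maps of the system defined on strictly larger subgroups of S. Then either P is not essential and H is all of Aut_F(P), or P is essential and the image of H in Out_F(P) = Aut_F(P)/Inn(P) is strongly p-embedded there. -/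
theorem result {Ω : Type*} [Group Ω] {S : Subgroup Ω} [Finite S] (p : ℕ) [Fact p.Prime] (hS : IsPGroup p S) (F : Cfsg.FusionSystem S) (hF : F.IsSaturated p) (P : Subgroup Ω) (hPS : P < S) (hPn : F.IsFullyNormalized P) (H : Subgroup (MulAut P)) (hH : H = Subgroup.closure {α : MulAut P | ∃ (Q : Subgroup Ω) (hPQ : P < Q) (φ : Q →* Ω), φ ∈ F.Hom Q ∧ ∀ x : P, φ (Subgroup.inclusion hPQ.le x) = α x}) : (¬ F.IsEssential p P ∧ H = F.autGroup P) ∨ (F.IsEssential p P ∧ ∃ _ : ((Cfsg.Inn P).subgroupOf (F.autGroup P)).Normal, Cfsg.IsStronglyPEmbedded p ((H.subgroupOf (F.autGroup P)).map (QuotientGroup.mk' ((Cfsg.Inn P).subgroupOf (F.autGroup P))))) := by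
  have e : H = HP F P := by
    rw [hH, HP]
    congr 1
    ext α
    constructor
    · rintro ⟨Q, hPQ, φ, hφ, e⟩
      refine ⟨Q, _, hPQ, mor_ext hφ, fun x hx => ?_⟩
      rw [ext_of_mem φ (hPQ.le hx), act_of_mem α hx]
      exact e ⟨x, hx⟩
    · rintro ⟨Q, g, hPQ, hg, e⟩
      exact ⟨Q, hPQ, _, hg.toHom_mem, fun x => (e x x.2).trans (act_coe α x)⟩
  rw [e]
  have := fin_le hPS.le
  by_cases h : HP F P = F.autGroup P
  · exact Or.inl ⟨fun h1 => ((essential_iff_HP hS hF).1 h1).2.2 h, h⟩
  · have hn := CA.Amb.normal_subgroupOf_of_norm (norm_inn P (F.autGroup P))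
    exact Or.inr ⟨(essential_iff_HP hS hF).2 ⟨hPn, hPS, h⟩, hn,
      (spe_map_iff (isPGroup_inn (hS.to_le hPS.le)) ((inn_le_autInd hPS.le).trans (autInd_le_HP F hPS))
        (HP_le_aut F P)).2 (spe_HP hS hF hPn hPS h).2⟩

end Cfsg.Agent.S5081
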