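import Cfsg.Statements.S5088
import Cfsg.Agent.Lib.Fus.FusInv
-- import your own Cfsg.Agent.* helpers here

set_option autoImplicit false
open Cfsg

namespace Cfsg.Agent.S5088

open CA.Fus CA.AmbSyl in
/-- In a saturated fusion system over a finite p-group, a subgroup Q is normal in the system if and only if there is a chain of subgroups 1 = Q₀ ≤ Q₁ ≤ ⋯ ≤ Qₙ = Q such that each Qᵢ with i ≥ 1 is strongly closed in the system and [Q, Qᵢ] ≤ Qᵢ₋₁. -/
theorem result {Ω : Type*} [Group Ω] {S : Subgroup Ω} [Finite S] (p : ℕ) [Fact p.Prime] (hS : IsPGroup p S) (F : Cfsg.FusionSystem S) (hF : F.IsSaturated p) (Q : Subgroup Ω) : F.IsNormal Q ↔ ∃ (n : ℕ) (Qs : Fin (n + 1) → Subgroup Ω), Qs 0 = ⊥ ∧ Qs (Fin.last n) = Q ∧ Monotone Qs ∧ ∀ i : Fin n, F.StronglyClosed (Qs i.succ) ∧ ⁅Q, Qs i.succ⁆ ≤ Qs (Fin.castSucc i) := by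
  constructor
  · intro h
    obtain ⟨n, c, h0, h1, h2⟩ := exists_fin_chain (normal_chain hS h)
    exact ⟨n, c, h0, h1, Fin.monotone_iff_le_succ.2 fun i => (h2 i).1,
      fun i => ⟨normal_sc (h2 i).2.2.1, (h2 i).2.2.2⟩⟩
  · rintro ⟨n, c, h0, h1, -, h2⟩
    have h3 := chain_of_fin (r := fun U V => F.StronglyClosed V ∧ ⁅Q, V⁆ ≤ U) c h2 (Fin.last n)
    rw [h0, h1] at h3
    refine normal_of_chain hS hF ?_ h3
    rcases h3.cases_tail with h | ⟨_, _, h⟩
    · rw [h]; exact sc_bot F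
    · exact h.1

end Cfsg.Agent.S5088
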