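import Cfsg.Statements.S5093
import Cfsg.Agent.Lib.Fus.FusIso
import Cfsg.Agent.Lib.Grp.Hyperfocal
-- import your own Cfsg.Agent.* helpers here

set_option autoImplicit false
open Cfsg

namespace Cfsg.Agent.S5093

open CA.Fus CA.AmbSyl in
/-- Hyperfocal subgroup Theorem: for a finite group G with Sylow p-subgroup S, the hyperfocal subgroup of the fusion system of G on S equals S ∩ O^p(G), where O^p(G) is the subgroup generated by the elements of order prime to p. -/
theorem result {G : Type*} [Group G] [Finite G] (p : ℕ) [Fact p.Prime] (S : Sylow p G) : (Cfsg.groupFusionSystem (S : Subgroup G)).hyperfocalSubgroup p = (S : Subgroup G) ⊓ Cfsg.pResidual p G := by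
  rw [inf_comm, CA.Hyperfocal.pResidual_inf_eq_closure]
  refine le_antisymm (hyper_le_iff'.2 fun P hP α hα hc x hx => ?_) ((Subgroup.closure_le _).2 ?_)
  · rw [aut_group hP, autInd_eq_img] at hα
    obtain ⟨g, hg, rfl⟩ := (homOn_cjA_normIn ⊤ P).mem_img.1 hα
    obtain ⟨v, hv, e, hv'⟩ := (homOn_cjA_normIn ⊤ P).lift_p' hg hc
    have hn := (Subgroup.zpowers_le.2 hg hv).2
    exact Subgroup.subset_closure ⟨P, hP, x, hx, v, hn, hv', by rw [← e, act_cjA hn hx]⟩
  · rintro _ ⟨Q, hQ, x, hx, n, hn, hc, rfl⟩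
    rw [← act_cjA hn hx]
    refine hyper_le_iff'.1 le_rfl Q hQ _ ?_ (hc.coprime_dvd_left ((homOn_cjA Q).orderOf_dvd hn)) x hx
    rw [aut_group hQ]
    exact cjA_mem_autInd (Subgroup.mem_top n) hn

end Cfsg.Agent.S5093
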