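import Cfsg.Statements.S5094
import Cfsg.Agent.Lib.Grp.H13Z2
import Cfsg.Agent.Lib.Fus.FusNorm

set_option autoImplicit false
open Cfsg

namespace Cfsg.Agent.S5094

/-- Glauberman's Z*-Theorem in fusion language: for a finite group G with Sylow 2-subgroup S, the centre of the fusion system of G on S is the set of elements of S whose image in G/O(G) is central, O(G) being the largest normal subgroup of odd order. -/
theorem result {G : Type*} [Group G] [Finite G] (S : Sylow 2 G) : (Cfsg.groupFusionSystem (S : Subgroup G)).center = (S : Subgroup G) ⊓ (Subgroup.center (G ⧸ Cfsg.oddCore G)).comap (QuotientGroup.mk' (Cfsg.oddCore G)) := by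
  open Subgroup CA.SylIn CA.Fus in
  set K := (center (G ⧸ oddCore G)).comap (QuotientGroup.mk' (oddCore G)) with hK
  have hmem : ∀ x : G, x ∈ K ↔ InZStar 2 x := fun x => by
    rw [hK, mem_comap, mem_center_iff]
    refine ⟨fun h g => ?_, fun h g => ?_⟩
    · rw [← QuotientGroup.eq_one_iff]
      have := h (g : G ⧸ oddCore G)
      simp only [QuotientGroup.mk'_apply] at this
      simp [this]
    · obtain ⟨g, rfl⟩ := QuotientGroup.mk_surjective g
      have := (QuotientGroup.eq_one_iff _).2 (h g)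
      simp only [QuotientGroup.mk_mul, QuotientGroup.mk_inv] at this
      rw [mul_inv_eq_one, mul_inv_eq_iff_eq_mul] at this
      exact this
  refine le_antisymm (fun x hx => ?_) (le_center (central_iff.2 ⟨inf_le_left, fun P f hf => ?_⟩))
  · have hc := center_central (groupFusionSystem (S : Subgroup G))
    have hxS := hc.1 hx
    refine ⟨hxS, (hmem x).2 (CA.H13Z2.zstar_wcl S hxS fun g hg => ?_)⟩
    refine central_fix hc (P := zpowers x) (f := fun y => g * y * g⁻¹)
      (mor_group.2 ⟨zpowers_le.2 hxS, ?_, g, fun _ _ => rfl⟩) (mem_zpowers x) hx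
    rintro _ ⟨k, rfl⟩
    simp only [← conj_zpow]
    exact zpow_mem hg k
  · obtain ⟨hP, hfS, g, hg⟩ := mor_group.1 hf
    have hcen : ∀ n : G, ∀ q ∈ (S : Subgroup G) ⊓ K, n * q * n⁻¹ ∈ (S : Subgroup G) →
        n * q * n⁻¹ = q := fun n q hq h => by
      have h1 : n * q * n⁻¹ * q⁻¹ ∈ (S : Subgroup G) ⊓ pPrimeCore 2 G :=
        ⟨(S : Subgroup G).mul_mem h ((S : Subgroup G).inv_mem hq.1), (hmem q).1 hq.2 n⟩
      rwa [CA.Core.inf_eq_bot_of_isPGroup_of_coprime S.isPGroup' CA.Core.coprime_pPrimeCore,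
        mem_bot, mul_inv_eq_one] at h1
    have hcS : ∀ s ∈ (S : Subgroup G), ∀ q ∈ (S : Subgroup G) ⊓ K, s * q = q * s :=
      fun s hs q hq => mul_inv_eq_iff_eq_mul.1 (hcen s q hq
        (mul_mem (mul_mem hs hq.1) (inv_mem hs)))
    have hQ := isSylowIn_inf_normal S K
    have h1 : IsSylowIn 2 ((S : Subgroup G) ⊓ K) (K ⊓ centralizer (P : Set G)) :=
      hQ.of_le (le_inf inf_le_right fun q hq x hx => hcS x (hP hx) q hq) inf_le_left
    have h2 : IsSylowIn 2 (g⁻¹ •ᶜ ((S : Subgroup G) ⊓ K)) (K ⊓ centralizer (P : Set G)) := by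
      have h3 := hQ.conj_of_mem_normalizer (g := g⁻¹) (by rw [normalizer_eq_top]; trivial)
      refine h3.of_le (le_inf h3.le fun q hq x hx => ?_) inf_le_left
      have h4 := hcS _ (hg x hx ▸ hfS x hx) _ (mem_conj_inv.1 hq)
      have h5 : g * (x * q) * g⁻¹ = g * (q * x) * g⁻¹ := by
        convert h4 using 1 <;> group
      exact mul_left_cancel (mul_right_cancel h5)
    obtain ⟨c, hc, h3⟩ := h1.exists_conj_eq h2
    have h4 : ∀ q ∈ (S : Subgroup G) ⊓ K, g * c * q * (g * c)⁻¹ = q := fun q hq => by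
      refine hcen _ q hq ?_
      have h6 := (conj_mem_conj (g := c)).2 hq
      rw [h3, mem_conj_inv] at h6
      convert (mem_inf.1 h6).1 using 1; group
    have h5 : ∀ x ∈ P, g * c * x * (g * c)⁻¹ = f x := fun x hx => by
      rw [hg x hx, mul_assoc g, ← hc.2 x hx]; group
    refine ⟨fun y => g * c * y * (g * c)⁻¹, mor_group.2 ⟨sup_le hP inf_le_left, ?_,
      g * c, fun _ _ => rfl⟩, h5, h4⟩
    exact conj_le_iff.1 (by
      rw [conj_sup]
      exact sup_le (conj_le_iff.2 fun x hx => h5 x hx ▸ hfS x hx)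
        (conj_le_iff.2 fun q hq => (h4 q hq).symm ▸ hq.1))

end Cfsg.Agent.S5094
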