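import Cfsg.Statements.S5095
import Cfsg.Agent.Lib.Fus.FusInv
-- import your own Cfsg.Agent.* helpers here

set_option autoImplicit false
open Cfsg

namespace Cfsg.Agent.S5095

open CA.Fus CA.AmbSyl in
/-- In a saturated fusion system over a finite p-group S: if Q ≤ P ≤ S with Q centric, and two maps of the system with source P agree on Q, then they differ by an inner automorphism of P induced by an element of the centre of Q. -/
theorem result {Ω : Type*} [Group Ω] {S : Subgroup Ω} [Finite S] (p : ℕ) [Fact p.Prime] (hS : IsPGroup p S) (F : Cfsg.FusionSystem S) (hF : F.IsSaturated p) (P Q : Subgroup Ω) (hQP : Q ≤ P) (hQ : F.IsCentric Q) (φ φ' : P →* Ω) (hφ : φ ∈ F.Hom P) (hφ' : φ' ∈ F.Hom P) (h : ∀ x : P, (x : Ω) ∈ Q → φ x = φ' x) : ∃ z : P, (z : Ω) ∈ Q ∧ (z : Ω) ∈ Subgroup.centralizer (Q : Set Ω) ∧ ∀ y : P, φ' y = φ (z * y * z⁻¹) := by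
  obtain ⟨z, hz, e⟩ := ext_unique hS hF hQ hQP (mor_ext hφ) (mor_ext hφ') fun x hx => by
    rw [ext_of_mem φ (hQP hx), ext_of_mem φ' (hQP hx)]; exact h _ hx
  have h1 := centric_self_le hQ hz
  refine ⟨⟨z, hQP h1⟩, h1, hz.2, fun y => ?_⟩
  rw [← ext_coe φ', e y y.2, ← ext_coe φ]
  rfl

end Cfsg.Agent.S5095
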