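import Cfsg.Statements.S5107
import Cfsg.Agent.Lib.Fus.FusInv
-- import your own Cfsg.Agent.* helpers here

set_option autoImplicit false
open Cfsg

namespace Cfsg.Agent.S5107

open CA.Fus CA.AmbSyl in
/-- If a Sylow p-subgroup S of a finite group G has nilpotency class at most two and its centre is strongly closed in S with respect to G, then every map of the fusion system of G on S is conjugation by an element of N_G(S), and S is the largest subgroup normal in that fusion system. -/
theorem result {G : Type*} [Group G] [Finite G] (p : ℕ) [Fact p.Prime] (S : Sylow p G) (hcl : ⁅(S : Subgroup G), (S : Subgroup G)⁆ ≤ (S : Subgroup G) ⊓ Subgroup.centralizer ((S : Subgroup G) : Set G)) (hZ : Cfsg.IsStronglyClosed ((S : Subgroup G) ⊓ Subgroup.centralizer ((S : Subgroup G) : Set G)) (S : Subgroup G)) : (∀ (P : Subgroup G) (φ : P →* G), φ ∈ (Cfsg.groupFusionSystem (S : Subgroup G)).Hom P → ∃ g ∈ Subgroup.normalizer ((S : Subgroup G) : Set G), ∀ x : P, φ x = g * (x : G) * g⁻¹) ∧ (Cfsg.groupFusionSystem (S : Subgroup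 G)).core = S := by
  have hF := sat_group (sylIn_top S)
  have h : (groupFusionSystem (S : Subgroup G)).IsNormal S :=
    normal_of_chain S.isPGroup' hF (sc_top _) (.tail (.single ⟨sc_group.2 hZ,
      (CA.Amb.commutator_eq_bot_iff'.2 inf_le_right).le⟩) ⟨sc_top _, hcl⟩)
  refine ⟨fun P φ hφ => ?_, le_antisymm (core_le _) (le_core h)⟩
  obtain ⟨α, hα, e⟩ := normal_top_iff.1 h P _ (mor_ext hφ)
  rw [aut_group le_rfl] at hα
  obtain ⟨g, hg, e'⟩ := mem_autInd.1 hα
  exact ⟨g, hg.2, fun x => by rw [← ext_coe φ, ← e x x.2, e' x ((mor_ext hφ).le x.2)]⟩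

end Cfsg.Agent.S5107
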