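import Cfsg.Statements.S5112
import Cfsg.Agent.Lib.Grp.Two3
import Cfsg.Agent.Lib.Fus.FusSat

set_option autoImplicit false
open Cfsg

namespace Cfsg.Agent.S5112


open Subgroup CA.MC2 CA.MC3 CA.Two3

/-- If S is a dihedral or generalized quaternion 2-group of order at least 16, then in every saturated fusion system over S (at the prime 2) the automorphism group Aut_F(S) consists of the inner automorphisms of S. -/
theorem result {Ω : Type*} [Group Ω] {S : Subgroup Ω} [Finite S] (n : ℕ) (hn : 4 ≤ n) (hshape : Nonempty (S ≃* DihedralGroup (2 ^ (n - 1))) ∨ Nonempty (S ≃* QuaternionGroup (2 ^ (n - 2)))) (F : Cfsg.FusionSystem S) (hF : F.IsSaturated 2) : F.autGroup S = Cfsg.Inn S := by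
  obtain ⟨m, rfl⟩ : ∃ m, n = m + 2 := ⟨n - 2, by omega⟩
  have : ∃ (δ : ℤ) (a y : S), MC m 0 δ a y ∧ zpowers a ⊔ zpowers y = ⊤ := by
    rcases hshape with ⟨⟨e⟩⟩ | ⟨⟨e⟩⟩
    · exact ⟨_, exists_of_dihedral_top e⟩
    · exact ⟨_, exists_of_quaternion_top e⟩
  obtain ⟨δ, a, y, h, e⟩ := this
  have hS : IsPGroup 2 S := CA.Core.isPGroup_top_iff.1 (e ▸ h.isPGroup)
  exact ((CA.Fus.sat_syl_top hS hF).eq_of_isPGroup
    ((isPGroup_mulAut_top h (by omega) (fun _ => by omega) e).to_subgroup _)).symm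

end Cfsg.Agent.S5112
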