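import Cfsg.Statements.S5114
import Cfsg.Agent.Lib.Fus.FusPP
-- import your own Cfsg.Agent.* helpers here

set_option autoImplicit false
open Cfsg

namespace Cfsg.Agent.S5114

open CA.Fus CA.AmbSyl in
/-- Let F be a saturated fusion system over a finite p-group S and E a fusion system over S contained in F. If Aut_E(P) contains the subgroup of Aut_F(P) generated by its elements of p-power order for every subgroup P that is centric in F, then the same holds for every subgroup of S (E has index prime to p in F), every map of F with source a subgroup P of S is an element of Aut_F(S) composed with a map of E, and a subgroup is centric in E exactly when it is centric in F. -/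
theorem result {Ω : Type*} [Group Ω] {S : Subgroup Ω} [Finite S] (p : ℕ) [Fact p.Prime] (hS : IsPGroup p S) (F : Cfsg.FusionSystem S) (hF : F.IsSaturated p) (E : Cfsg.FusionSystem S) (hEF : E.IsSubsystemOf F) (h : ∀ P : Subgroup Ω, F.IsCentric P → (Subgroup.closure {α : ↥(F.autGroup P) | ∃ k : ℕ, orderOf α = p ^ k}).map (F.autGroup P).subtype ≤ E.autGroup P) : E.HasPrimeToPIndexIn F p ∧ (∀ (P : Subgroup Ω) (φ : P →* Ω), φ ∈ F.Hom P → ∃ α ∈ F.autGroup S, ∃ φ₀ ∈ E.Hom P, ∀ (x : P) (hx : φ₀ x ∈ S), φ x = ((α ⟨φ₀ x, hx⟩ : S) : Ω)) ∧ ∀ P : Subgroup Ω, E.IsCentric P ↔ F.IsCentric P := by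
  simp only [map_pclosure] at h
  obtain ⟨O, hO⟩ := exists_ostar F p F.IsCentric
  have h1 := hO.le le_rfl fun Q hQ _ => h Q hQ
  have h2 := (hO.inv_centric hS hF).2.mono h1
  refine ⟨ppp_mono (hO.ppp hS hF) h1 hEF, fun P φ hφ => ?_, fun P => ⟨h2.centric, fun hP => centric_sub hEF hP hP.1⟩⟩
  obtain ⟨α, hα, f₀, h3, e⟩ := h2 P _ (mor_ext hφ).le (mor_ext hφ)
  exact ⟨α, hα, _, h3.toHom_mem, fun x hx => by rw [← ext_coe, e x x.2, ← act_of_mem]; rfl⟩

end Cfsg.Agent.S5114
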