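import Cfsg.Statements.S5119
import Cfsg.Agent.Lib.Fus.FusInv
-- import your own Cfsg.Agent.* helpers here

set_option autoImplicit false
open Cfsg

namespace Cfsg.Agent.S5119

open CA.Fus CA.AmbSyl in
/-- Let F be a saturated fusion system over a finite p-group S and E a subsystem of F over a subgroup T that is strongly closed in F. Then E is invariant in F (invariance under Aut_F(T) plus the Frattini condition) if and only if the strong invariance condition holds: for P ≤ Q ≤ T, every map φ of E from P into Q and every map ψ of F with source Q, the transported map ψ φ ψ⁻¹ on ψ(P) is a map of E. -/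
theorem result {Ω : Type*} [Group Ω] {S : Subgroup Ω} [Finite S] (p : ℕ) [Fact p.Prime] (hS : IsPGroup p S) (F : Cfsg.FusionSystem S) (hF : F.IsSaturated p) {T : Subgroup Ω} (E : Cfsg.FusionSystem T) (hE : E.IsSubsystemOf F) (hT : F.StronglyClosed T) : E.IsInvariantIn F ↔ ∀ (P Q : Subgroup Ω) (hPQ : P ≤ Q) (_ : Q ≤ T) (φ : P →* Ω) (_ : φ ∈ E.Hom P) (hφQ : ∀ x : P, φ x ∈ Q) (ψ : Q →* Ω) (_ : ψ ∈ F.Hom Q), ∃ χ ∈ E.Hom ((P.subgroupOf Q).map ψ), ∀ (x : P) (hx : ψ (Subgroup.inclusion hPQ x) ∈ (P.subgroupOf Q).map ψ), χ ⟨ψ (Subgroup.inclusion hPQ x), hx⟩ = ψ ⟨φ x, hφQ x⟩ := by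
  refine ⟨fun h P Q hPQ hQ φ hφ hφQ ψ hψ => ?_, fun h => inv_of_sInv hS hF hE hT
    fun P Q Q' f k k' hQ hPQ hf hm hk => ?_⟩
  · obtain ⟨k', hk⟩ := (mor_ext hψ).iso
    have h1 := inv_sInv h P Q _ _ _ k' hQ hPQ (mor_ext hφ) (fun x hx => by
      rw [ext_of_mem φ hx]; exact hφQ _) hk
    rw [img_ext_of_le ψ hPQ] at h1
    refine ⟨_, h1.toHom_mem, fun x hx => ?_⟩
    show ext ψ (ext φ (k' (ψ ⟨x, hPQ x.2⟩))) = _
    rw [← ext_of_mem ψ (hPQ x.2), hk.gf _ (hPQ x.2), ext_coe, ext_of_mem ψ (hφQ x)]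
  · obtain ⟨χ, hχ, e⟩ := h P Q hPQ hQ _ hf.toHom_mem (fun x => hm x x.2) _ hk.mor.toHom_mem
    have h1 := mor_ext hχ
    have e1 := map_subgroupOf_eq_img (φ := hk.mor.hom.toHom) (f := k) (fun _ => rfl) hPQ
    rw [← e1]
    refine h1.congr fun y hy => ?_
    have hy' := hy
    rw [e1] at hy'
    obtain ⟨x, hx, rfl⟩ := (hk.hom.mono hPQ).mem_img.1 hy'
    rw [ext_of_mem χ hy, hk.gf x (hPQ hx)]
    exact e ⟨x, hx⟩ hy

end Cfsg.Agent.S5119
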