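import Cfsg.Statements.S5121
import Cfsg.Agent.Lib.Fus.FusNG
-- import your own Cfsg.Agent.* helpers here

set_option autoImplicit false
open Cfsg

namespace Cfsg.Agent.S5121

open CA.Fus CA.AmbSyl in
/-- Let G be a finite group with Sylow p-subgroup S and C_G(O_p(G)) ≤ O_p(G). For every subgroup T ≤ S and every normal subsystem E over T of the fusion system of G on S there is exactly one normal subgroup H of G containing T as a Sylow p-subgroup whose fusion system on T is E. -/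
theorem result {G : Type*} [Group G] [Finite G] (p : ℕ) [Fact p.Prime] (S : Sylow p G) (hG : Subgroup.centralizer ((Cfsg.pCore p G : Subgroup G) : Set G) ≤ Cfsg.pCore p G) (T : Subgroup G) (hTS : T ≤ S) (E : Cfsg.FusionSystem T) (hE : E.IsNormalIn (Cfsg.groupFusionSystem (S : Subgroup G)) p) : ∃ H : Subgroup G, (∃ hTH : T ≤ H, H.Normal ∧ (∃ R : Sylow p H, (R : Subgroup H) = T.subgroupOf H) ∧ ∀ P : Subgroup G, E.Hom P = (Cfsg.fusionSystemOfSubgroup H T hTH).Hom P) ∧ ∀ H' : Subgroup G, (∃ hTH' : T ≤ H', H'.Normal ∧ (∃ R : Sylow p H', (R : Subgroup H') = T.subgroupOf H') ∧ ∀ P : Subgroup G, E.Hom P = (Cfsg.fusionSystemOfSubgroup H' T hTH').Hom P) → H' = H := by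
  obtain ⟨H, ⟨h, h1, h2, h3⟩, h4⟩ := exists_normal_model (sylIn_top S) (CA.AmbChar.charP_top_iff.2 hG) hE
  exact ⟨H, ⟨h, CA.Amb.normal_iff_top_le.2 h1, (sylow_eq_iff h).2 h2, fun P => by rw [← h3]⟩,
    fun H' ⟨h', h5, h6, h7⟩ => h4 H' h' (CA.Amb.normal_iff_top_le.1 h5) ((sylow_eq_iff h').1 h6) (fs_ext h7)⟩

end Cfsg.Agent.S5121
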