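import Cfsg.Statements.S5130
import Cfsg.Agent.Lib.Fus.FusTr
-- import your own Cfsg.Agent.* helpers here

set_option autoImplicit false
open Cfsg

namespace Cfsg.Agent.S5130

open CA.Fus CA.AmbSyl
open Cfsg.FusionSystem (normalizerIn centralizerIn)
theorem full_sat {Ω : Type*} [Group Ω] {S T C : Subgroup Ω} [Finite S] {p : ℕ} [Fact p.Prime] (hS : IsPGroup p S)
    {F : FusionSystem S} (hF : F.IsSaturated p) (hT : F.StronglyClosed T) (hC : C ≤ Subgroup.centralizer (T : Set Ω))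
    (h : S ≤ T ⊔ C) {R : FusionSystem T} (hR : ∀ P f, Mor R P f ↔ P ≤ T ∧ Mor F P f) : R.IsSaturated p := by
  intro P hP
  obtain ⟨Q, h1, h2⟩ := exists_fullyNorm F (hP.trans hT.1)
  have hQ := sc_conj hT hP h1
  obtain ⟨f, hf, e⟩ := isConj_iff.1 h1
  refine ⟨Q, isConj_iff.2 ⟨f, (hR _ _).2 ⟨hP, hf⟩, e⟩, fullyAut_iff.2 ⟨hQ, ?_⟩, receptive_iff.2 ⟨hQ, fun U g hg e => ?_⟩⟩
  · have h3 := sat_syl hS hF h2
    have e1 : R.autGroup Q = F.autGroup Q := by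
      ext α; rw [mem_aut hQ, mem_aut h2.1, hR]; exact and_iff_right hQ
    have e2 : autInducedBy S Q = autInducedBy T Q := le_antisymm (fun α hα => by
      obtain ⟨s, hs, e⟩ := mem_autInd.1 hα
      obtain ⟨t, ht, c, hc, rfl⟩ := (CA.Amb.mem_sup_of_norm ((CA.AmbRes.cent_symm hC).trans
        (Subgroup.centralizer_le_normalizer _))).1 (h hs.1)
      exact mem_autInd_of ht fun x hx => by
        rw [e x hx, mul_assoc t c x, ← hC hc x (hQ hx)]; group) (autInd_mono hT.1 Q)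
    rwa [e1, ← e2]
  · obtain ⟨k, hk, e'⟩ := rec_ext (sat_rec' hS hF h2) ((hR _ _).1 hg).2 e
    exact ⟨k, (hR _ _).2 ⟨Nf_le _ _ _, hk.mono fun a ⟨a1, a2, b, b1, b2⟩ => ⟨hT.1 a1, a2, b, hT.1 b1, b2⟩⟩, e'⟩

/-- Let F be a saturated fusion system over a finite p-group S that is the direct product of two subgroups S₁ and S₂, each strongly closed in F. Let R be the full subsystem of F over S₁ (all maps of F between subgroups of S₁) and R′ the subsystem over S₁ of those maps that extend to the subgroup generated with S₂ fixing S₂ elementwise. Then R and R′ are saturated, R′ is normal in F and in R, and R is weakly normal in F. -/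
theorem result {Ω : Type*} [Group Ω] {S : Subgroup Ω} [Finite S] (p : ℕ) [Fact p.Prime] (hS : IsPGroup p S) (F : Cfsg.FusionSystem S) (hF : F.IsSaturated p) (S₁ S₂ : Subgroup Ω) (hprod : Cfsg.IsInternalDirectProduct S₁ S₂ S) (h₁ : F.StronglyClosed S₁) (h₂ : F.StronglyClosed S₂) (R R' : Cfsg.FusionSystem S₁) (hR : ∀ P : Subgroup Ω, P ≤ S₁ → R.Hom P = F.Hom P) (hR' : ∀ P : Subgroup Ω, P ≤ S₁ → R'.Hom P = F.centralizerHom S₂ P) : R.IsSaturated p ∧ R'.IsSaturated p ∧ R'.IsNormalIn F p ∧ R'.IsNormalIn R p ∧ R.IsWeaklyNormalIn F p := by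
  obtain ⟨l₁, l₂, hc, hi, hs⟩ := hprod
  have hc₁ : S₂ ≤ Subgroup.centralizer (S₁ : Set Ω) := fun b hb a ha => hc a ha b hb
  have hc₂ := CA.AmbRes.cent_symm hc₁
  have hle : S₁ ≤ centralizerIn S S₂ := le_inf l₁ hc₂
  have mR : ∀ P f, Mor R P f ↔ P ≤ S₁ ∧ Mor F P f := fun P f =>
    ⟨fun h => ⟨h.le, (hom_eq_iff.1 (hR P h.le) f).1 h⟩, fun h => (hom_eq_iff.1 (hR P h.1) f).2 h.2⟩
  obtain ⟨D, hD⟩ := exists_centSys F l₂
  have mR' : ∀ P f, Mor R' P f ↔ P ≤ S₁ ∧ Mor D P f := fun P f =>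
    ⟨fun h => ⟨h.le, (hom_eq_iff.1 ((hR' P h.le).trans (hD P).symm) f).1 h⟩,
      fun h => (hom_eq_iff.1 ((hR' P h.1).trans (hD P).symm) f).2 h.2⟩
  have s1 := full_sat hS hF h₁ hc₁ hs.ge mR
  have s2 : R'.IsSaturated p := full_sat (hS.to_le (centIn_le S S₂))
    (centSys_sat hS hF (sat_fullyCent hS hF (sc_fullyNorm h₂)) hD) (sc_sub' (centSys_sub hD) h₁ hle) hc₁
    ((centIn_le S S₂).trans hs.ge) mR'
  have sub : R.IsSubsystemOf F := sub_iff.2 fun P f h => ((mR P f).1 h).2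
  have sub' : R'.IsSubsystemOf F := sub_iff.2 fun P f h => ((mR' P f).1 h).2.sub (centSys_sub hD)
  have w : R'.IsWeaklyNormalIn F p := ⟨s2, hF, inv_of_sInv hS hF sub' h₁ fun P Q Q' f k k' hQ hP hf hm i => by
    obtain ⟨g, hg, e⟩ := sc_lift hS hF h₂ i.mor
    have e1 : ∀ x ∈ Q, g x = k x := fun x hx => inv_mul_eq_one.1 (Subgroup.mem_bot.1 (hi.le ⟨S₁.mul_mem (S₁.inv_mem
      (sc_maps h₁ hg (Subgroup.mem_sup_left hx) (hQ hx))) (sc_maps h₁ i.mor hx (hQ hx)), e x hx⟩))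
    obtain ⟨g', j⟩ := hg.iso
    obtain ⟨-, l, hl, e2, e3⟩ := (mor_centSys hD).1 ((mR' P f).1 hf).2
    have := fin_le l₂
    have e4 := sc_img_self h₂ hg le_sup_right
    have h3 : img k P ≤ S₁ := sc_img_le h₁ (i.mor.mono hP) (hP.trans hQ)
    have j' := j.restrict (sup_le_sup_right hP S₂)
    rw [(hg.hom.mono (sup_le_sup_right hP S₂)).img_sup, e4, img_congr fun x hx => e1 x (hP hx)] at j'
    refine (mR' _ _).2 ⟨h3, (mor_centSys hD).2 ⟨h3.trans hle, _, (j'.mor'.comp hl j'.mapg).comp hg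
      (fun y hy => hl.hom.maps_sup (fun x hx => Subgroup.mem_sup_left (e2 x hx ▸ hm x hx))
        (fun x hx => Subgroup.mem_sup_right ((e3 x hx).symm ▸ hx)) _ (j'.mapg y hy)), fun y hy => ?_, fun y hy => ?_⟩⟩
    · obtain ⟨x, hx, rfl⟩ := (i.mor.mono hP).mem_img.1 hy
      rw [i.gf x (hP hx), ← e1 x (hP hx), j.gf x (Subgroup.mem_sup_left (hP hx)), e2 x hx, e1 _ (hm x hx)]
    · obtain ⟨x, hx, rfl⟩ := (hg.mono le_sup_right).mem_img.1 (e4.ge hy)
      rw [j.gf x (Subgroup.mem_sup_right hx), e3 x hx]⟩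
  have := fin_le l₁
  refine ⟨s1, s2, normalIn_iff.2 ⟨w, fun α hα => ?_⟩, nm_of_wn_top (wn_mid hS s1 sub
    (sub_iff.2 fun P f h => (mR P f).2 ⟨h.le, h.sub sub'⟩) w), s1, hF, inv_of_sInv hS hF sub h₁
    fun P Q Q' f k k' hQ hP hf hm i => (mR _ _).2 ⟨sc_img_le h₁ (i.mor.mono hP) (hP.trans hQ),
      ((i.restrict hP).mor'.comp (hf.sub sub) (i.restrict hP).mapg).comp i.mor fun y hy => hm _ ((i.restrict hP).mapg y hy)⟩⟩
  obtain ⟨-, l, hl, e2, e3⟩ := (mor_centSys hD).1 ((mR' _ _).1 ((mem_aut le_rfl).1 hα)).2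
  refine ⟨l, hl.mono ((sup_le l₁ (centIn_le _ _)).trans hs.ge), e2, fun c h => ?_⟩
  obtain ⟨a, ha, b, hb, rfl⟩ := (CA.Amb.mem_sup_of_norm (hc₂.trans (Subgroup.centralizer_le_normalizer _))).1 (hs.ge h.1)
  rw [hl.hom.mul (Subgroup.mem_sup_left ha) (Subgroup.mem_sup_right hb), e3 b hb, e2 a ha, hc a ha b hb,
    hc _ (act_mem α ha) b hb]
  simpa using mul_mem (inv_mem ha) (act_mem α ha)

end Cfsg.Agent.S5130
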