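import Cfsg.Statements.S5139
import Cfsg.Agent.Lib.Fus.FusTr
import Cfsg.Agent.S5093
-- import your own Cfsg.Agent.* helpers here

set_option autoImplicit false
open Cfsg

namespace Cfsg.Agent.S5139

open CA.Fus CA.AmbSyl in
/-- Let G be a finite group with Sylow p-subgroup S and O^p(G) the subgroup generated by the elements of order prime to p. Then the p-residual subsystem of the fusion system of G on S — the saturated subsystem of p-power index over the hyperfocal subgroup — is the fusion system of O^p(G) on S ∩ O^p(G): its maps are exactly the conjugation maps by elements of O^p(G) between subgroups of S ∩ O^p(G). -/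
theorem result {G : Type*} [Group G] [Finite G] (p : ℕ) [Fact p.Prime] (S : Sylow p G) (E : Cfsg.FusionSystem ((Cfsg.groupFusionSystem (S : Subgroup G)).hyperfocalSubgroup p)) (hE : (Cfsg.groupFusionSystem (S : Subgroup G)).IsPResidual p E) : ∃ h : (S : Subgroup G) ⊓ Cfsg.pResidual p G ≤ Cfsg.pResidual p G, ∀ P : Subgroup G, E.Hom P = (Cfsg.fusionSystemOfSubgroup (Cfsg.pResidual p G) ((S : Subgroup G) ⊓ Cfsg.pResidual p G) h).Hom P := by
  have hS := sylIn_top S
  have hn : (⊤ : Subgroup G) ≤ Subgroup.normalizer (pResidual p G : Set G) := by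
    rw [← CA.AmbRes.res_top]; exact CA.AmbRes.norm_res p ⊤
  have hD : (fusionSystemOfSubgroup (pResidual p G) (S ⊓ pResidual p G) inf_le_right).HasPPowerIndexIn
      (groupFusionSystem (S : Subgroup G)) p := by
    refine ppi_iff.2 ⟨sub_iff.2 fun P f hf => ?_, (Cfsg.Agent.S5093.result p S).le, fun P hP α hα hc => ?_⟩
    · obtain ⟨h1, h2, g, -, h3⟩ := (mor_ofSubgroup _).1 hf
      exact mor_group.2 ⟨h1.trans inf_le_left, fun x hx => (h2 x hx).1, g, h3⟩
    · rw [aut_group (hP.trans inf_le_left), autInd_eq_img] at hα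
      obtain ⟨g, hg, rfl⟩ := (homOn_cjA_normIn ⊤ P).mem_img.1 hα
      obtain ⟨v, hv, e, hv'⟩ := (homOn_cjA_normIn ⊤ P).lift_p' hg hc
      rw [aut_ofSubgroup _ hP, ← e]
      refine cjA_mem_autInd ?_ (Subgroup.zpowers_le.2 hg hv).2
      rw [← CA.AmbRes.res_top]; exact CA.AmbRes.mem_res (Subgroup.mem_top v) hv'
  refine ⟨inf_le_right, fun P => le_antisymm
    (ppi_sub S.isPGroup' hD hE.1 hE.2.1 (Cfsg.Agent.S5093.result p S).le P)
    (ppi_sub S.isPGroup' hE.2 (sat_ofSub (hS.inf_norm le_top hn)) hD.1 (Cfsg.Agent.S5093.result p S).ge P)⟩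

end Cfsg.Agent.S5139
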