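import Cfsg.Statements.S5143
import Cfsg.Agent.Lib.Fus.FusCS
-- import your own Cfsg.Agent.* helpers here

set_option autoImplicit false
open Cfsg

namespace Cfsg.Agent.S5143

open CA.Fus CA.AmbSyl in
/-- Let F be a saturated fusion system over a finite p-group S, E a normal subsystem over T, and R a subgroup with T ≤ R ≤ S. Then there is exactly one saturated subsystem D of F over R (exactly one family of map sets) whose p-residual subsystem is that of E: the hyperfocal subgroups of D and E coincide and the p-residual subsystems of D and of E have the same maps. -/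
theorem result {Ω : Type*} [Group Ω] {S : Subgroup Ω} [Finite S] (p : ℕ) [Fact p.Prime] (hS : IsPGroup p S) (F : Cfsg.FusionSystem S) (hF : F.IsSaturated p) {T : Subgroup Ω} (E : Cfsg.FusionSystem T) (hE : E.IsNormalIn F p) (R : Subgroup Ω) (hTR : T ≤ R) (hRS : R ≤ S) : ∃ D : Cfsg.FusionSystem R, (D.IsSaturated p ∧ D.IsSubsystemOf F ∧ D.hyperfocalSubgroup p = E.hyperfocalSubgroup p ∧ ∀ (D₁ : Cfsg.FusionSystem (D.hyperfocalSubgroup p)) (E₁ : Cfsg.FusionSystem (E.hyperfocalSubgroup p)), D.IsPResidual p D₁ → E.IsPResidual p E₁ → ∀ P : Subgroup Ω, D₁.Hom P = E₁.Hom P) ∧ ∀ D' : Cfsg.FusionSystem R, D'.IsSaturated p → D'.IsSubsystemOf F → D'.hyperfocalSubgroup p = E.hyperfocalSubgroup p → (∀ (D₁ : Cfsg.FusionSystem (D'.hyperfocalSubgroup p)) (E₁ : Cfsg.FusionSystem (E.hyperfocalSubgroup p)), D'.IsPResidual p D₁ → E.IsPResidual p E₁ → ∀ P : Subgroup Ω, D₁.Hom P = E₁.Hom P) → ∀ P : Subgroup Ω, D'.Hom P = D.Hom P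 := by
  obtain ⟨D, h1, h2, h3⟩ := exists_es_on hS hE hTR hRS
  have := fin_le hRS
  have := fin_le (nm_le hE)
  have hR := hS.to_le hRS
  obtain ⟨E₁, hE₁⟩ := exists_pres (hS.to_le (nm_le hE)) (nm_sat hE)
  have h4 := ppi_trans hR hE₁.2 h3
  refine ⟨D, ⟨h1, h2, (ppi_hyper hR h3).symm, fun D₁ E₁ h4 h5 => hom_eq_of_sub
    (ppi_sub hR (ppi_trans hR h5.2 h3) h4.1 h4.2.1 (ppi_hyper hR h3).ge)
    (ppi_sub hR h4.2 h5.1 (sub_trans h5.2.1 h3.1) (ppi_hyper hR h3).le)⟩, fun D' h5 h6 _ h7 => ?_⟩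
  obtain ⟨D₁, hD₁⟩ := exists_pres hR h5
  have h8 := ppi_congr hD₁.2 (h7 D₁ E₁ hD₁ hE₁)
  have h9 := pres_nm hS hE hE₁
  exact hom_eq_of_sub (sub_of_ppi hS h9 h6 h2 h5 h1 h8 h4) (sub_of_ppi hS h9 h2 h6 h1 h5 h4 h8)

end Cfsg.Agent.S5143
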