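import Cfsg.Statements.S5147
import Cfsg.Agent.Lib.Fus.FusSolv
import Cfsg.Agent.S5115
-- import your own Cfsg.Agent.* helpers here

set_option autoImplicit false
open Cfsg

namespace Cfsg.Agent.S5147

open CA.Fus CA.AmbSyl in
/-- Let G be a finite group with Sylow 2-subgroup S whose 2-fusion system on S is constrained, and L a component of G (a subnormal quasisimple subgroup). Then the 2-fusion system of L/Z(L) on the image of S ∩ L is constrained. -/
theorem result {G : Type*} [Group G] [Finite G] (S : Sylow 2 G) (hF : (Cfsg.groupFusionSystem (S : Subgroup G)).IsConstrained 2) (L : Subgroup G) (hL : Cfsg.IsComponent L) : (Cfsg.groupFusionSystem (((S : Subgroup G).subgroupOf L).map (QuotientGroup.mk' (Subgroup.center L)))).IsConstrained 2 := by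
  have h1 := Cfsg.Agent.S5115.result S hF L hL.1
  have hs : SylIn 2 ((S : Subgroup G).subgroupOf L) ⊤ := by
    have := (sylIn_subgroupOf_iff inf_le_right le_rfl).2 ((CA.AmbCore.sn_top_iff.2 hL.1).sylIn_inf (sylIn_top S))
    rwa [Subgroup.inf_subgroupOf_right, Subgroup.subgroupOf_self] at this
  refine (quo_group hs _ (QuotientGroup.mk'_surjective _)).constrained hs.pg h1 fun x hx y _ => ?_
  exact Subgroup.mem_center_iff.1 ((QuotientGroup.eq_one_iff x).1 hx.2) y

end Cfsg.Agent.S5147
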