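import Cfsg.Statements.S5156
import Cfsg.Agent.Lib.Fus.FusLim
-- import your own Cfsg.Agent.* helpers here

set_option autoImplicit false
universe u
open Cfsg

namespace Cfsg.Agent.S5156

open CA.Fus CA.AmbSyl in
/-- A saturated fusion system over a finite p-group has a terminating alternating chain of p'-residual and p-residual subsystems (the chain reaches the trivial system — the notion of solvability adapted to fusion systems of p-solvable groups) if and only if it is constrained and its models are p-solvable (a model is a finite group realizing the system on a Sylow p-subgroup with self-centralizing largest normal p-subgroup; it exists and is unique up to isomorphism for constrained systems). -/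
theorem result {Ω : Type u} [Group Ω] {S : Subgroup Ω} [Finite S] (p : ℕ) [Fact p.Prime] (hS : IsPGroup p S) (F : Cfsg.FusionSystem S) (hF : F.IsSaturated p) : F.HasTerminatingResidualSeries p ↔ (F.IsConstrained p ∧ ∀ (G : Type u) [Group G] (ι : S →* G), F.IsModel p G ι → Cfsg.IsPSolvable p G) := by
  refine ⟨fun h => ⟨(term_spec hS hF h).1, fun G _ ι hm => ?_⟩, fun ⟨h1, h2⟩ => ?_⟩
  · have := hm.1
    obtain ⟨j, i⟩ := rz_fIso hm.2.1
    have hs := model_syl hm
    have := i.toHIso.finite
    have h1 := i.symm.ns hs.pg (term_spec hS hF h).2
    rw [group_eq_ofSubgroup] at h1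
    exact CA.H6PSolv.isPSolvable_iff.2 (psolv_of_ns hs (CA.AmbChar.charP_top_iff.2 hm.2.2.2) h1)
  · obtain ⟨G, _, _, ι, j, hm, hs, -, i⟩ := exists_model' hS h1
    refine term_of_ns hS (i.ns hS ?_) _ S F rfl (wn_self hF)
    rw [group_eq_ofSubgroup]
    exact ns_of_psolv hs (CA.H6PSolv.isPSolvable_iff.1 (h2 G ι hm))

end Cfsg.Agent.S5156
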