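import Cfsg.Statements.S5160
import Cfsg.Agent.Lib.Fus.FusSolv
-- import your own Cfsg.Agent.* helpers here

set_option autoImplicit false
open Cfsg

namespace Cfsg.Agent.S5160

open CA.Fus CA.AmbSyl in
/-- Let G be a finite group with nontrivial Sylow p-subgroup S and F its fusion system on S. Suppose (a) no nontrivial proper subgroup of S is strongly closed in F, and (b) the automorphisms of S induced by G are generated by those induced, for R running over the fully normalized radical centric subgroups of F, by the subgroup of N_G(R) generated by its elements of p-power order. Then F is simple. -/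
theorem result {G : Type*} [Group G] [Finite G] (p : ℕ) [Fact p.Prime] (S : Sylow p G) (hS1 : (S : Subgroup G) ≠ ⊥) (ha : ∀ T : Subgroup G, (Cfsg.groupFusionSystem (S : Subgroup G)).StronglyClosed T → T = ⊥ ∨ T = (S : Subgroup G)) (hb : Cfsg.autInducedBy ⊤ (S : Subgroup G) = ⨆ (R : Subgroup G) (_ : (Cfsg.groupFusionSystem (S : Subgroup G)).IsFullyNormalized R ∧ (Cfsg.groupFusionSystem (S : Subgroup G)).IsRadical p R ∧ (Cfsg.groupFusionSystem (S : Subgroup G)).IsCentric R), Cfsg.autInducedBy (Subgroup.closure {g : G | g ∈ Subgroup.normalizer (R : Set G) ∧ ∃ k : ℕ, orderOf g = p ^ k}) (S : Subgroup G)) : (Cfsg.groupFusionSystem (S : Subgroup G)).IsSimple p := by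
  have hs := sylIn_top S
  have hF := sat_group hs
  refine ⟨hF, hS1, fun T E hE => (ha T (nm_sc hE)).imp_right ?_⟩
  rintro rfl
  refine ⟨rfl, fun P => hom_eq_iff.2 fun f => ⟨fun hf => hf.sub (nm_sub hE), fun hf => ?_⟩⟩
  obtain ⟨α, hα, f₀, h0, e⟩ := inv_fratC (nm_inv hE) P f hf.le hf
  suffices α ∈ E.autGroup S from
    (h0.comp ((mem_aut le_rfl).1 this) fun x hx => h0.mem hx).congr fun x hx => (e x hx).symm
  rw [aut_group le_rfl, hb] at hα
  refine iSup₂_le (a := E.autGroup S) (fun R hR β hβ => ?_) hα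
  obtain ⟨g, hg, e⟩ := mem_autInd.1 hβ
  have hRS := hR.1.1
  have h1 : cjA R g ∈ pElementClosure p ((groupFusionSystem (S : Subgroup G)).autGroup R) := by
    rw [aut_group hRS, autInd_eq_img, ← (homOn_cjA_normIn ⊤ R).img_pec, normIn_top]
    exact mem_img_of_mem _ hg.1
  have h2 := CA.AmbChar.pec_le_of_norm (sat_syl S.2 hF hR.1) (autInd_le_aut E hRS) (inv_norm_aut (nm_inv hE) hRS) h1
  have hn : g ∈ Subgroup.normalizer (R : Set G) := CA.AmbChar.pec_le p _ hg.1
  refine (mem_aut le_rfl).2 (mor_of_restrict S.2 hF (nm_sat hE) (nm_sub hE) hR.2.2 hRS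
    (mor_group.2 ⟨le_rfl, fun x hx => act_mem β hx, g, e⟩) (((mem_aut hRS).1 h2).congr fun x hx => ?_))
  rw [act_cjA hn hx, e x (hRS hx)]

end Cfsg.Agent.S5160
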