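import Cfsg.Statements.S5164
import Cfsg.Agent.Lib.Fus.FusAlt2
-- import your own Cfsg.Agent.* helpers here

set_option autoImplicit false
open Cfsg

namespace Cfsg.Agent.S5164

open CA.Fus CA.AmbSyl in
/-- For n ≥ 6 and a prime p, a nontrivial Sylow p-subgroup of the alternating group of degree n is abelian if and only if n < p². -/
theorem result (n p : ℕ) (hn : 6 ≤ n) [Fact p.Prime] (S : Sylow p (alternatingGroup (Fin n))) (hS : (S : Subgroup (alternatingGroup (Fin n))) ≠ ⊥) : IsMulCommutative S ↔ n < p ^ 2 := by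
  have hp := (Fact.out : p.Prime)
  have e : Fin (n / p) × ZMod p ⊕ Fin (n % p) ≃ Fin n := Fintype.equivOfCardEq (by simp [Nat.div_add_mod'])
  obtain ⟨E, hE⟩ := exists_trl (p := p)
  obtain ⟨T⟩ : Nonempty (Sylow p (Equiv.Perm (Fin (n / p)))) := inferInstance
  have h1 := syl_wr (C := Fin (n % p)) (ZMod.card p) (by simpa using Nat.mod_lt _ hp.pos) E T (alternatingGroup _)
  let φ := (Subgroup.subgroupOfEquivOfLe h1.le).symm.trans ((Subgroup.equivMapOfInjective _ e.altCongrHom.toMonoidHom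
    e.altCongrHom.injective).trans (Sylow.equiv (h1.toSylow.mapSurjective (f := e.altCongrHom.toMonoidHom) e.altCongrHom.surjective) S))
  constructor
  · intro h
    by_contra! h2
    have h3 : p ≤ n / p := (Nat.le_div_iff_mul_le hp.pos).2 (by rwa [← sq])
    have h4 : 3 ≤ Fintype.card (Fin (n / p)) := by
      rw [Fintype.card_fin]
      rcases hp.eq_two_or_odd' with rfl | h2
      · omega
      · have := hp.two_le
        have := h2.ne_two_of_dvd_nat dvd_rfl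
        omega
    obtain ⟨⟨π, h5⟩, h6⟩ := Subgroup.ne_bot_iff_exists_ne_one.1 (T.ne_bot_of_dvd_card (by
      rw [Nat.card_perm, Nat.card_eq_fintype_card, Fintype.card_fin]; exact hp.dvd_factorial.2 h3))
    obtain ⟨i, hi⟩ : ∃ i, π i ≠ i := by by_contra! h7; exact h6 (Subtype.ext (Equiv.ext h7))
    obtain ⟨l, h7, h8⟩ := exists_third h4 i (π i)
    have h9 := h.is_comm.comm (φ ⟨_, CA.H10Wr.Wr.σ_mem _ h5, σ_mem_alt (ZMod.card p) (isPGroup_iff_mem.1 T.isPGroup' π h5)⟩)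
      (φ ⟨cc _ i l 1, mul_mem (CA.H10Wr.Wr.e_mem _ _ ((hE _).2 ⟨1, fun _ => rfl⟩))
        (CA.H10Wr.Wr.e_mem _ _ (inv_mem ((hE _).2 ⟨1, fun _ => rfl⟩))), (cc_mem i l 1).2⟩)
    rw [← map_mul, ← map_mul] at h9
    have h10 := congrArg (fun s => s.1 (Sum.inl (i, 0))) (φ.injective h9)
    simp only [Subgroup.coe_mul, Equiv.Perm.mul_apply, cc_apply h7] at h10
    have h11 : (Sum.inl (π i, 0 + 1) : Fin (n / p) × ZMod p ⊕ Fin (n % p)) = Sum.inl (π i, 0) :=
      h10.trans (cc_apply_ne hi h8 _ _)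
    simp at h11
  · intro h
    have h2 : (T : Subgroup (Equiv.Perm (Fin (n / p)))) = ⊥ := by
      by_contra h3
      have := (T.isPGroup'.card_eq_or_dvd.resolve_left (by rwa [Subgroup.card_eq_one])).trans (Subgroup.card_subgroup_dvd_card _)
      rw [Nat.card_perm, Nat.card_eq_fintype_card, Fintype.card_fin, hp.dvd_factorial, Nat.le_div_iff_mul_le hp.pos, ← sq] at this
      omega
    refine ⟨⟨fun x y => ?_⟩⟩
    obtain ⟨⟨x, hx, hx'⟩, rfl⟩ := φ.surjective x
    obtain ⟨⟨y, hy, hy'⟩, rfl⟩ := φ.surjective y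
    rw [← map_mul, ← map_mul]
    refine congrArg φ (Subtype.ext ?_)
    rw [h2, CA.H10Wr.Wr.Ph, Subgroup.map_bot, sup_bot_eq] at hx hy
    obtain ⟨a, ha, rfl⟩ := hx
    obtain ⟨b, hb, rfl⟩ := hy
    change CA.H10Wr.Wr.β _ a * CA.H10Wr.Wr.β _ b = CA.H10Wr.Wr.β _ b * CA.H10Wr.Wr.β _ a
    rw [← map_mul, ← map_mul]
    refine congrArg _ (Prod.ext (funext fun i => Equiv.ext fun c => ?_) ?_)
    · obtain ⟨v, hv⟩ := (hE _).1 ((CA.H10Wr.Wr.mem_bs.1 ha).1 i)
      obtain ⟨w, hw⟩ := (hE _).1 ((CA.H10Wr.Wr.mem_bs.1 hb).1 i)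
      simp [hv, hw, add_right_comm]
    · simp [Subgroup.mem_bot.1 (CA.H10Wr.Wr.mem_bs.1 ha).2]

end Cfsg.Agent.S5164
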