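import Cfsg.Statements.S5166
import Cfsg.Agent.Lib.Spor.M24Syl

set_option autoImplicit false
open Cfsg

namespace Cfsg.Agent.S5166

open Cfsg CA.NatBits CA.OrbBfs CA.CGroup CA.CGConstr CA.CGParts CA.CGCert CA.CGRank CA.CGDec CA.Perm24 CA.Golay
open CA.M24Core CA.M24Sub CA.M24Tools MulAction
open scoped Pointwise
open CA.M24St2 CA.CGFus CA.M24Syl

set_option maxRecDepth 100000 in

/-- The 2-fusion system of the Mathieu group M₁₁ (as the explicit permutation group carved out of the automorphism group of the binary Golay code) on a Sylow 2-subgroup is simple: saturated, over a nontrivial 2-group, with no normal subsystem other than the trivial one and itself. -/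
theorem result (S : Sylow 2 Cfsg.Spor.M11) : (Cfsg.groupFusionSystem (S : Subgroup Cfsg.Spor.M11)).IsSimple 2 := by
  exact fusM st11 (a := 4) st11c1 le11 selfN11 495 369146997115587146891649082651043681173018617330998117376
    [([2, 2, 2, 2, 0], [0]), ([3, 0, 0, 3, 3], [2, 0]), ([2, 2, 2, 2, 1], [2, 0])]
    [[4, 1], [4]] (by decide +kernel) (eqv map11) S

end Cfsg.Agent.S5166
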