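import Cfsg.Statements.S5168
import Cfsg.Agent.Lib.Spor.M24Syl

set_option autoImplicit false
open Cfsg

namespace Cfsg.Agent.S5168

open Cfsg CA.NatBits CA.OrbBfs CA.CGroup CA.CGConstr CA.CGParts CA.CGCert CA.CGRank CA.CGDec CA.Perm24 CA.Golay
open CA.M24Core CA.M24Sub CA.M24Tools MulAction
open scoped Pointwise
open CA.M24St2 CA.CGFus CA.M24Syl

set_option maxRecDepth 100000 in

/-- The 2-fusion system of the Mathieu group M₂₂ (as the explicit permutation group carved out of the automorphism group of the binary Golay code) on a Sylow 2-subgroup is simple: saturated, over a nontrivial 2-group, with no normal subsystem other than the trivial one and itself. -/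
theorem result (S : Sylow 2 Cfsg.Spor.M22) : (Cfsg.groupFusionSystem (S : Subgroup Cfsg.Spor.M22)).IsSimple 2 := by
  exact fusM st22 (a := 7) st22c2 le22 selfN22 3465 565493488239986500995722799542798324125175233247107481856
    [([2, 1, 1, 2, 2, 2, 2, 1, 3, 0, 0, 3, 1], [0]), ([1, 3, 3, 0, 2, 0, 3, 3, 3], [0]), ([0], [2, 0, 2, 0])]
    [[2, 4, 0, 2, 0], [6, 0, 2, 4, 0], [4, 0]] (by decide +kernel) (eqv map22) S

end Cfsg.Agent.S5168
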