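import Cfsg.Statements.S5169
import Cfsg.Agent.Lib.Spor.M24Syl

set_option autoImplicit false
open Cfsg

namespace Cfsg.Agent.S5169

open Cfsg CA.NatBits CA.OrbBfs CA.CGroup CA.CGConstr CA.CGParts CA.CGCert CA.CGRank CA.CGDec CA.Perm24 CA.Golay
open CA.M24Core CA.M24Sub CA.M24Tools MulAction
open scoped Pointwise
open CA.M24St2 CA.CGFus CA.M24Syl

set_option maxRecDepth 100000 in

/-- The 2-fusion system of the Mathieu group M₂₃ (as the explicit permutation group carved out of the automorphism group of the binary Golay code) on a Sylow 2-subgroup is simple: saturated, over a nontrivial 2-group, with no normal subsystem other than the trivial one and itself. -/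
theorem result (S : Sylow 2 Cfsg.Spor.M23) : (Cfsg.groupFusionSystem (S : Subgroup Cfsg.Spor.M23)).IsSimple 2 := by
  exact fusM st23 (a := 7) st23c3 le23 selfN23 79695 565879248691038293452827779259391515434214858818685374976
    [([3, 1, 2, 1, 3, 0, 2, 1, 1, 1], [0]), ([1, 2, 1, 3, 0, 2], [0]), ([3, 1, 1], [4, 0]), ([1, 3, 1, 3, 3, 0, 0, 0, 0, 0, 2, 0], [4])]
    [[4, 0, 2, 4, 2], [6, 4, 0], [8, 2]] (by decide +kernel) (eqv map23) S

end Cfsg.Agent.S5169
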