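import Cfsg.Statements.S5170
import Cfsg.Agent.Lib.Spor.M24Syl

set_option autoImplicit false
open Cfsg

namespace Cfsg.Agent.S5170

open Cfsg CA.NatBits CA.OrbBfs CA.CGroup CA.CGConstr CA.CGParts CA.CGCert CA.CGRank CA.CGDec CA.Perm24 CA.Golay
open CA.M24Core CA.M24Sub CA.M24Tools MulAction
open scoped Pointwise
open CA.M24St2 CA.CGFus CA.M24Syl

set_option maxRecDepth 100000 in

/-- The 2-fusion system of the Mathieu group M₂₄ (as the explicit permutation group of the 24 points preserving the binary Golay code) on a Sylow 2-subgroup is simple: saturated, over a nontrivial 2-group, with no normal subsystem other than the trivial one and itself. -/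
theorem result (S : Sylow 2 Cfsg.M24) : (Cfsg.groupFusionSystem (S : Subgroup Cfsg.M24)).IsSimple 2 := by
  exact fusM st24 (a := 10) st24c3 le24 selfN24 239085 565205769725840036694602927742369884446872112412668068096
    [([1, 3, 3, 0, 0, 3], [0]), ([3, 1, 1], [0]), ([1], [4, 2, 0, 2, 0]), ([1, 2, 1, 1, 2, 1, 1], [6, 4, 2, 4]), ([0, 0, 2, 1, 3, 1], [8, 2, 6, 4, 0, 6, 2])]
    [[0, 8, 6, 4], [10, 8, 0, 8, 4], [10, 8, 4, 0, 8, 0], [2, 8, 6, 4, 8, 0]] (by decide +kernel) Subgroup.topEquiv S

end Cfsg.Agent.S5170
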