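import Cfsg.Statements.S5311
import Cfsg.Agent.Lib.Fus.FusMisc
-- import your own Cfsg.Agent.* helpers here

set_option autoImplicit false
open Cfsg

namespace Cfsg.Agent.S5311

open CA.Fus CA.AmbSyl in
/-- The layer of a saturated fusion system F over a finite p-group S is characteristic in F: for every automorphism α of S that is an automorphism of F (α and its inverse are morphisms from F to F) and every layer E of F over T, α carries T onto T and, for every map φ of E with source P, the map induced by α on α(P) (that is, α ∘ φ ∘ α⁻¹) is a map of E. -/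
theorem result {Ω : Type*} [Group Ω] {S : Subgroup Ω} [Finite S] (p : ℕ) [Fact p.Prime] (hS : IsPGroup p S) (F : Cfsg.FusionSystem S) (hF : F.IsSaturated p)
    (α : ↥S ≃* ↥S) (hα : F.IsMorphism F (S.subtype.comp α.toMonoidHom))
    (hα' : F.IsMorphism F (S.subtype.comp α.symm.toMonoidHom))
    {T : Subgroup Ω} (E : Cfsg.FusionSystem T) (hE : E.IsLayerOf F p) :
    Cfsg.FusionSystem.imageAlong (S.subtype.comp α.toMonoidHom) T = T ∧
      ∀ (P : Subgroup Ω) (φ : ↥P →* Ω), φ ∈ E.Hom P →
        ∀ φ' : ↥(Cfsg.FusionSystem.imageAlong (S.subtype.comp α.toMonoidHom) P) →* Ω,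
          Cfsg.FusionSystem.InducedAlong (S.subtype.comp α.toMonoidHom) φ φ' →
            φ' ∈ E.Hom (Cfsg.FusionSystem.imageAlong (S.subtype.comp α.toMonoidHom) P) := by
  have key : ∀ {θ θ' : Ω → Ω}, FIso F F θ θ' → ∃ E' : FusionSystem (img θ T), FIso E E' θ θ' ∧ E.IsSubsystemOf E' := by
    intro θ θ' i
    obtain ⟨E', j⟩ := exists_fIso E (i.restrict (nm_le hE.1))
    refine ⟨E', j, hE.2.2 _ E' (i.nm hS j hE.1) fun U C hC => ?_⟩
    obtain ⟨C', k⟩ := exists_fIso C (i.symm.restrict (sub_le (subnormal_sub hC.1)))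
    exact j.sub k.symm (hE.2.1 _ C' (i.symm.comp hS hC k))
  have e1 : ∀ β : MulAut S, ∀ x ∈ S, ext (S.subtype.comp β.toMonoidHom) x = act β x := fun β x hx => by
    rw [ext_of_mem _ hx, act_of_mem _ hx]; rfl
  have h1 : ∀ β : MulAut S, F.IsMorphism F (S.subtype.comp β.toMonoidHom) → ∀ P f, Mor F P f →
      Mor F (img (act β) P) fun y => act β (f (act β⁻¹ y)) := fun β hβ P f hf => by
    obtain ⟨g, hg, e⟩ := (morphism_iff.1 hβ).2 P f hf
    rw [img_congr fun x hx => e1 β x (hf.le hx)] at hg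
    refine hg.congr fun y hy => ?_
    obtain ⟨x, hx, rfl⟩ := ((homOn_act β).mono hf.le).mem_img.1 hy
    rw [act_inv_act, ← e1 β x (hf.le hx), e x hx, e1 β _ (hf.mem hx)]
  have i : FIso F F (act α) (act (α⁻¹ : MulAut S)) :=
    ⟨hIso_act α, h1 α hα _ _, fun h => by simpa only [inv_inv] using h1 (α⁻¹ : MulAut S) hα' _ _ h⟩
  have hT := nm_le hE.1
  have : Finite T := fin_le hT
  obtain ⟨E', j, h⟩ := key i
  obtain ⟨E'', j', h'⟩ := key i.symm
  refine ⟨?_, fun P φ hφ φ' hφ' => ?_⟩
  · rw [imageAlong_eq _ hT, img_congr fun x hx => e1 α x (hT hx)]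
    have := j.toHIso.finite
    exact (Subgroup.eq_of_le_of_card_ge (sub_le h) j.card_eq.le).symm
  · have hf := mor_ext hφ
    have hP := hf.le.trans hT
    obtain ⟨-, -, -, h2⟩ := (induced_iff (fun x => (ext_coe φ x).symm) fun y => (ext_coe φ' y).symm).1 hφ'
    rw [mem_hom_iff]
    have := j'.bwd (hf.sub h')
    generalize ext φ' = g at h2
    rw [imageAlong_eq _ hP, img_congr fun x hx => e1 α x (hP hx)]
    refine this.congr fun y hy => ?_
    obtain ⟨x, hx, rfl⟩ := ((homOn_act α).mono hP).mem_img.1 hy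
    rw [act_inv_act, ← e1 α x (hP hx), h2 x hx, e1 α _ (hT (hf.mem hx))]

end Cfsg.Agent.S5311
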