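import Cfsg.Statements.S5345
import Cfsg.Agent.Lib.Spor.Tr3Block

set_option autoImplicit false
open Cfsg

namespace Cfsg.Agent.S5345

/-- Let D be a conjugation-invariant generating set of 3-transpositions of a finite group G and T a Sylow 2-subgroup of G. Then the members of D lying in T generate an abelian subgroup, and their number is the width of D (the largest number of pairwise commuting members of D). -/
theorem result {G : Type*} [Group G] [Finite G] {D : Set G} (hD : Cfsg.IsThreeTranspositionGroup D) (T : Sylow 2 G) : IsMulCommutative (Subgroup.closure {d : G | d ∈ D ∧ d ∈ T}) ∧ {d : G | d ∈ D ∧ d ∈ T}.ncard = Cfsg.commutingWidth D := by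
  open CA CA.Tr3Basic CA.Tr3Block in
  have hc : ∀ a ∈ {d : G | d ∈ D ∧ d ∈ T}, ∀ b ∈ {d : G | d ∈ D ∧ d ∈ T}, Commute a b := fun a ha b hb =>
    commute_of_mul_mem_two hD.1 T.isPGroup' ha.1 hb.1 ((T : Subgroup G).mul_mem ha.2 hb.2)
  refine ⟨⟨⟨fun x y => Subtype.ext ?_⟩⟩, le_antisymm (le_width (fun x hx => hx.1) hc) (width_le fun E hE hEc => ?_)⟩
  · exact (commute_of_mem_closure y.2 fun e he => (commute_of_mem_closure x.2 (hc e he)).symm).eq
  · haveI : Fact (Nat.Prime 2) := ⟨Nat.prime_two⟩
    obtain ⟨P, hP⟩ := (isPGroup_two_closure (fun x hx => sq hD.1 (hE hx)) hEc).exists_le_sylow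
    obtain ⟨g, hg⟩ := MulAction.exists_smul_eq G P T
    refine Set.ncard_le_ncard_of_injOn (fun x => g * x * g⁻¹) (fun x hx => ⟨hD.2.1 g x (hE hx), ?_⟩)
      (fun x _ y _ h => conj_inj.1 h)
    rw [← hg]
    exact Subgroup.smul_mem_pointwise_smul x (MulAut.conj g) (P : Subgroup G) (hP (Subgroup.subset_closure hx))

end Cfsg.Agent.S5345
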