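import Cfsg.Statements.S5346
import Cfsg.Agent.Lib.Spor.Tr3Block

set_option autoImplicit false
open Cfsg

namespace Cfsg.Agent.S5346

/-- Let D be a conjugation-invariant generating set of 3-transpositions of a finite group G and d a member of D. Then D has width 1 (no two different members of D commute) if and only if G is the product of the subgroup generated by d with the largest normal 3-subgroup of G. -/
theorem result {G : Type*} [Group G] [Finite G] {D : Set G} (hD : Cfsg.IsThreeTranspositionGroup D) {d : G} (hd : d ∈ D) : Cfsg.commutingWidth D = 1 ↔ Subgroup.zpowers d ⊔ Cfsg.pCore 3 G = ⊤ := by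
  open CA CA.Tr3Basic CA.Tr3Block in
  rw [width_eq_one_iff ⟨d, hd⟩]
  constructor
  · intro h
    rw [eq_top_iff, ← hD.2.2, Subgroup.closure_le]
    intro e he
    rw [← cancel_left (sq hD.1 hd) e]
    exact Subgroup.mul_mem_sup (Subgroup.mem_zpowers d) (mul_mem_O3_of_width_one hD.1 hD.2.1 h hd he)
  · intro h
    have key : ∀ a ∈ D, d * a ∈ pCore 3 G := by
      intro a ha
      have h1 : a ∈ Subgroup.zpowers d ⊔ pCore 3 G := h ▸ Subgroup.mem_top a
      rw [← SetLike.mem_coe, Subgroup.mul_normal] at h1
      obtain ⟨x, hx, y, hy, rfl⟩ := h1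
      have hx' : x = 1 ∨ x = d := by
        obtain ⟨k, rfl⟩ := hx
        rcases Int.even_or_odd' k with ⟨m, rfl | rfl⟩
        · left; simp [zpow_mul, pow_two, sq hD.1 hd]
        · right; simp [zpow_add, zpow_mul, pow_two, sq hD.1 hd]
      rcases hx' with rfl | rfl
      · simp only [one_mul] at ha
        exact absurd (eq_one_of_pgroup Core.isPGroup_pCore hy (n := 2) (by norm_num)
          (by rw [pow_two, sq hD.1 ha])) (ne_one hD.1 ha)
      · simpa [cancel_left (sq hD.1 hd)] using hy
    intro a ha b hb hab
    refine eq_of_mul_mem_three hD.1 Core.isPGroup_pCore ha hb ?_ hab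
    have := Subgroup.mul_mem _ (Subgroup.inv_mem _ (key a ha)) (key b hb)
    simpa [inv_eq hD.1 ha, mul_assoc] using this

end Cfsg.Agent.S5346
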