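import Cfsg.Statements.S5349
import Cfsg.Agent.Lib.Spor.Tr3Block

set_option autoImplicit false
open Cfsg

namespace Cfsg.Agent.S5349

/-- Let D be a conjugacy class of 3-transpositions generating the finite group G, with at least two members, and d a member of D. Then the set of members of D commuting with exactly the same members of D as d coincides with the set of members of D lying in the coset of d modulo the largest normal 2-subgroup of G, and also with the orbit of d under conjugation by that normal 2-subgroup. -/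
theorem result {G : Type*} [Group G] [Finite G] {D : Set G} (hD : Cfsg.IsThreeTranspositionClass D) (hD2 : ∃ a ∈ D, ∃ b ∈ D, a ≠ b) {d : G} (hd : d ∈ D) : {v : G | v ∈ D ∧ ∀ e ∈ D, Commute v e ↔ Commute d e} = {v : G | v ∈ D ∧ d⁻¹ * v ∈ Cfsg.pCore 2 G} ∧ {v : G | v ∈ D ∧ ∀ e ∈ D, Commute v e ↔ Commute d e} = {v : G | ∃ g ∈ Cfsg.pCore 2 G, v = g * d * g⁻¹} := by
  open CA CA.Tr3Basic CA.Tr3Block in
  obtain ⟨e, he, hde⟩ := exists_not_commute hD hD2 hd
  constructor
  · ext v
    simp only [Set.mem_ofPred_eq, inv_eq hD.1 hd]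
    exact and_congr_right fun hv => rV_iff_mem hD.1 (class_conj hD) hv hd
  · ext v
    refine ⟨fun hv => exists_conj_of_rV hD.1 (class_conj hD) hv.1 hd he hde hv.2, ?_⟩
    rintro ⟨g, hg, rfl⟩
    exact ⟨class_conj hD g d hd, (rV_iff_mem hD.1 (class_conj hD) (class_conj hD g d hd) hd).2
      (mul_conj_mem hD.1 hd hg)⟩

end Cfsg.Agent.S5349
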