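import Cfsg.Statements.S5351
import Cfsg.Agent.Lib.Spor.Tr3Struct

set_option autoImplicit false
open Cfsg

namespace Cfsg.Agent.S5351

/-- Let D be a conjugacy class of 3-transpositions generating the finite group G, with at least two members. Then for every prime p > 3 the largest normal p-subgroup of G is central, and exactly one of the following holds: the largest normal 2-subgroup of G is not central; the largest normal 3-subgroup of G is not central; the layer of G (the product of its components) is non-trivial. -/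
theorem result {G : Type*} [Group G] [Finite G] {D : Set G} (hD : Cfsg.IsThreeTranspositionClass D) (hD2 : ∃ a ∈ D, ∃ b ∈ D, a ≠ b) : (∀ p : ℕ, p.Prime → 3 < p → Cfsg.pCore p G ≤ Subgroup.center G) ∧ ((¬ Cfsg.pCore 2 G ≤ Subgroup.center G ∧ Cfsg.pCore 3 G ≤ Subgroup.center G ∧ Cfsg.layer G = ⊥) ∨ (Cfsg.pCore 2 G ≤ Subgroup.center G ∧ ¬ Cfsg.pCore 3 G ≤ Subgroup.center G ∧ Cfsg.layer G = ⊥) ∨ (Cfsg.pCore 2 G ≤ Subgroup.center G ∧ Cfsg.pCore 3 G ≤ Subgroup.center G ∧ Cfsg.layer G ≠ ⊥)) := by
  open CA CA.Tr3Basic CA.Tr3Block CA.Tr3Prim CA.Tr3Struct in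
  haveI := layer_normal (G := G)
  refine ⟨fun p hp h3 => pCore_le_center (class_group hD) hp h3, ?_⟩
  by_cases h2 : pCore 2 G ≤ Subgroup.center G <;> by_cases h3 : pCore 3 G ≤ Subgroup.center G
  · exact Or.inr (Or.inr ⟨h2, h3, layer_ne_bot hD hD2 h2 h3⟩)
  · exact Or.inr (Or.inl ⟨h2, h3, eq_bot_of_O3 hD layer_perfect (pCore_le_centralizer_layer Nat.prime_three) h3⟩)
  · exact Or.inl ⟨h2, h3, eq_bot_of_O2 hD layer_perfect (pCore_le_centralizer_layer Nat.prime_two) h2⟩
  · exfalso
    obtain ⟨d, hd⟩ := class_nonempty hD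
    rcases V_or_W (D := D) (d := d) with h | h
    · refine h2 (O2_le_center hD.1 (class_conj hD) hD.2.2 fun e he v hv hr => ?_)
      obtain ⟨g, rfl⟩ := class_trans hD he hd
      exact conj_inj.1 (h _ (class_conj hD g v hv) ((isBlk_V (class_conj hD)).conj g hr))
    · refine h3 (O3_le_center hD.1 (class_conj hD) hD.2.2 fun e he v hv hr => ?_)
      obtain ⟨g, rfl⟩ := class_trans hD he hd
      exact conj_inj.1 (h hd _ (class_conj hD g v hv) ((isBlk_W (class_conj hD)).conj g hr))

end Cfsg.Agent.S5351
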