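import Cfsg.Statements.S5354
import Cfsg.Agent.Lib.Spor.Tr3Struct

set_option autoImplicit false
open Cfsg

namespace Cfsg.Agent.S5354

/-- Let D be a conjugation-invariant generating set of 3-transpositions of the finite group G on which G acts primitively by conjugation, and suppose two different members of D commute (width at least 2). Then G has a quasisimple normal subgroup L of index at most 2 with the generalized Fitting subgroup of G equal to L times the centre, the commuting graph of D is connected, and for d in D the subgroup generated by the members of D commuting with d is a maximal D-subgroup: it is proper, and every subgroup generated by members of D that contains it is either it or G. -/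
theorem result {G : Type*} [Group G] [Finite G] {D : Set G} (hD : Cfsg.IsThreeTranspositionGroup D) (hprim : Cfsg.IsPrimitiveUnderConj D) (hw : ∃ a ∈ D, ∃ b ∈ D, a ≠ b ∧ Commute a b) : (∃ L : Subgroup G, L.Normal ∧ Cfsg.IsQuasisimple L ∧ L.index ≤ 2 ∧ Cfsg.generalizedFittingSubgroup G = L ⊔ Subgroup.center G) ∧ (Cfsg.commutingGraph D).Connected ∧ ∀ d ∈ D, Subgroup.closure {y : G | y ∈ D ∧ Commute d y} ≠ ⊤ ∧ ∀ H : Subgroup G, Cfsg.IsDSubgroup D H → Subgroup.closure {y : G | y ∈ D ∧ Commute d y} ≤ H → H = Subgroup.closure {y : G | y ∈ D ∧ Commute d y} ∨ H = ⊤ := by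
  open CA CA.Tr3Basic CA.Tr3Block CA.Tr3Prim CA.Tr3Struct in
  have h := prim_of hD hprim hw
  refine ⟨?_, h.connected, fun d hd => ⟨fun ht => ?_, fun H hH hle => ?_⟩⟩
  · obtain ⟨L, h1, hq, hi, hF⟩ := Prim.exists_comp h
    exact ⟨L, h1, hq, index_le_two h.cls hi, hF⟩
  · obtain ⟨e, he, hde⟩ := h.exists_nc hd
    exact hde (commute_of_mem_closure (ht ▸ Subgroup.mem_top e) fun y hy => hy.2)
  · by_cases hc : ∀ e ∈ D, e ∈ H → Commute d e
    · left
      refine le_antisymm ?_ hle
      rw [← hH]
      exact Subgroup.closure_mono fun x hx => ⟨hx.1, hc x hx.1 hx.2⟩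
    · push Not at hc
      obtain ⟨e, he, heH, hde⟩ := hc
      exact Or.inr (h.subset_of_perp hd he hde (fun y hy hc => hle (Subgroup.subset_closure ⟨hy, hc⟩)) heH)

end Cfsg.Agent.S5354
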