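import Cfsg.Statements.S5356
import Cfsg.Agent.Lib.Spor.H8Tr

set_option autoImplicit false
open Cfsg

namespace Cfsg.Agent.S5356

/-- Let D be a conjugacy class of 3-transpositions generating the finite group G, with at least two members, and d a member of D such that every member of D commuting with d commutes with exactly the same members of D as d. Then there is a Sylow 3-subgroup P of G normalized by d such that G is generated by d, P and the largest normal 2-subgroup of G. -/
theorem result {G : Type*} [Group G] [Finite G] {D : Set G} (hD : Cfsg.IsThreeTranspositionClass D) (hD2 : ∃ a ∈ D, ∃ b ∈ D, a ≠ b) {d : G} (hd : d ∈ D) (hV : {y : G | y ∈ D ∧ Commute d y} = {v : G | v ∈ D ∧ ∀ e ∈ D, Commute v e ↔ Commute d e}) : ∃ P : Sylow 3 G, d ∈ Subgroup.normalizer (P : Set G) ∧ Subgroup.zpowers d ⊔ (P : Subgroup G) ⊔ Cfsg.pCore 2 G = ⊤ := by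
  have h : ∀ a ∈ D, ∀ b ∈ D, Commute a b → a * b ∈ pCore 2 G := fun a ha b hb h =>
    CA.Tr3Block.mul_mem_O2_of_rV hD.1 (CA.Tr3Block.class_conj hD) hb ha (CA.H8Tr.rv hD hd hV ha hb h)
  obtain ⟨P, hP⟩ := CA.H8Tr.syl hD hD2 hd h
  exact ⟨P, hP, CA.H8Tr.gen hD hD2 hd h P⟩

end Cfsg.Agent.S5356
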