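import Cfsg.Statements.S5358
import Cfsg.Agent.Lib.Spor.Refl3

set_option autoImplicit false
open scoped MatrixGroups
open Cfsg

namespace Cfsg.Agent.S5358

/-- Let Q be a non-degenerate quadratic form on the n-dimensional coordinate space over the field with three elements and u, v vectors of the same non-zero norm Q(u) = Q(v) spanning different lines (v ≠ u and v ≠ −u). Then the reflection matrices of u and v commute if and only if u and v are orthogonal for the polar form of Q. -/
theorem result (n : ℕ) (Q : QuadraticForm (ZMod 3) (Fin n → ZMod 3)) (hQ : (QuadraticMap.polarBilin Q).Nondegenerate) (u v : Fin n → ZMod 3) (hu : Q u ≠ 0) (huv : Q u = Q v) (h1 : v ≠ u) (h2 : v ≠ -u) : Commute (Cfsg.reflectionMatrix (⇑Q) u) (Cfsg.reflectionMatrix (⇑Q) v) ↔ QuadraticMap.polar (⇑Q) u v = 0 := by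
  refine Iff.trans ?_ (CA.Refl3.commute_iff (f := CA.CForm.Form.ofQuad Q) hu huv h1 h2)
  obtain ⟨a, ha⟩ := (CA.CForm.orthEquiv (CA.CForm.Form.ofQuad Q)).surjective ((CA.CForm.Form.ofQuad Q).refl u)
  obtain ⟨b, hb⟩ := (CA.CForm.orthEquiv (CA.CForm.Form.ofQuad Q)).surjective ((CA.CForm.Form.ofQuad Q).refl v)
  have ea := (CA.CForm.coe_eq_reflectionMatrix_iff _ a u).2 ha
  have eb := (CA.CForm.coe_eq_reflectionMatrix_iff _ b v).2 hb
  rw [← ha, ← hb, commute_map_iff (MulEquiv.injective _)]
  refine ⟨fun h => Subtype.ext (Units.ext ?_), fun h => ?_⟩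
  · exact (congrArg₂ (· * ·) ea eb).trans (h.eq.trans (congrArg₂ (· * ·) eb ea).symm)
  · exact (congrArg₂ (· * ·) ea eb).symm.trans ((congrArg (fun x => x.1.1) h.eq).trans (congrArg₂ (· * ·) eb ea))

end Cfsg.Agent.S5358
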