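import Cfsg.Statements.S5361
import Cfsg.Agent.Lib.Spor.Tr3Struct

set_option autoImplicit false
open Cfsg

namespace Cfsg.Agent.S5361

/-- Let D be a conjugacy class of 3-transpositions generating the finite group G, and suppose the centre of G is trivial and some two different members of D commute. Then the following are equivalent: (1) the commutator subgroup of G is simple (possibly of prime order); (2) G acts primitively on D by conjugation; (3) the largest normal 2-subgroup and the largest normal 3-subgroup of G are trivial and the commuting graph of D is connected. -/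
theorem result {G : Type*} [Group G] [Finite G] {D : Set G} (hD : Cfsg.IsThreeTranspositionClass D) (hZ : Subgroup.center G = ⊥) (hw : ∃ a ∈ D, ∃ b ∈ D, a ≠ b ∧ Commute a b) : (IsSimpleGroup (commutator G) ↔ Cfsg.IsPrimitiveUnderConj D) ∧ (Cfsg.IsPrimitiveUnderConj D ↔ (Cfsg.pCore 2 G = ⊥ ∧ Cfsg.pCore 3 G = ⊥ ∧ (Cfsg.commutingGraph D).Connected)) := by
  open CA CA.Tr3Basic CA.Tr3Block CA.Tr3Prim CA.Tr3Rank CA.Tr3Struct in
  have hD2 : ∃ a ∈ D, ∃ b ∈ D, a ≠ b := by obtain ⟨a, ha, b, hb, h1, -⟩ := hw; exact ⟨a, ha, b, hb, h1⟩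
  refine ⟨⟨fun h => (prim_of_simple hD h hw).primitive, fun hp => ?_⟩, fun hp => ?_, fun ⟨h2, h3, hc⟩ => ?_⟩
  · have h := prim_of (class_group hD) hp hw
    obtain ⟨L, h1, hq, hi, -⟩ := Prim.exists_comp h
    have : commutator G = L := le_antisymm (commutator_le_of_idx hD hi) (by
      rw [← Quasi.qs_commutator hq]; exact Subgroup.commutator_mono le_top le_top)
    rw [this]
    refine Quasi.simple_of_qs_of_center_eq_bot hq ?_
    have h4 := (Core.map_fitting_le_of_normal L).trans (fitting_le_center (class_group hD) h.O2_le h.O3_le)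
    rw [hZ, le_bot_iff, Subgroup.map_eq_bot_iff_of_injective _ L.subtype_injective] at h4
    exact le_bot_iff.1 (h4 ▸ Fitting.center_le_fitting)
  · have h := prim_of (class_group hD) hp hw
    exact ⟨le_bot_iff.1 (hZ ▸ h.O2_le), le_bot_iff.1 (hZ ▸ h.O3_le), h.connected⟩
  · obtain ⟨L, h1, hq, -⟩ := exists_comp hD hD2 (h2 ▸ bot_le) (h3 ▸ bot_le)
    exact primitive_of_idx hq hD hD2 (fitting_le_center (class_group hD) (h2 ▸ bot_le) (h3 ▸ bot_le))
      (idx_of_connected hq hD hc)

end Cfsg.Agent.S5361
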