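import Cfsg.Statements.S5362
import Cfsg.Agent.Lib.Spor.Fis19
import Cfsg.Agent.S2601
import Cfsg.Agent.S2603
import Cfsg.Agent.S2604
import Cfsg.Agent.S2605
import Cfsg.Agent.S2606
import Cfsg.Agent.S2607
import Cfsg.Agent.S2608
import Cfsg.Agent.S0302
import Cfsg.Agent.S0303

set_option autoImplicit false
open scoped MatrixGroups
open Cfsg

namespace Cfsg.Agent.S5362

open CA CA.Fis CA.Tr3Prim CA.Tr3Block CA.Tr3Rank CA.Tr3Basic CA.CForm CA.CForm.Form

theorem out_plus (p : ℕ) [Fact p.Prime] (hp : p = 2 ∨ p = 3) {m : ℕ} (hm : 3 ≤ m) :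
    Nat.card (Out (POmega (ZMod p) (quadFormPlus m (ZMod p)))) ∣ if m = 4 then 24 else 8 := by
  have hF : Fintype.card (ZMod p) = p ^ 1 := by simp
  by_cases h3 : m = 3
  · subst h3
    obtain ⟨φ, a, -, b⟩ := S2601.result le_rfl hF (n := 4) (by omega)
    rw [out_card S0302.result.some, card_of_surj a, b]
    rcases hp with rfl | rfl <;> simp
  rcases hp with rfl | rfl
  · have := S2607.result le_rfl hF (m := m) (by omega)
    split_ifs at this ⊢ <;> rw [Nat.card_congr this.some.toEquiv] <;> simp [Fintype.card_perm, Nat.factorial]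
  · have := S2608.result le_rfl hF (by omega) (m := m) (by omega)
    split_ifs at this ⊢ <;> rw [Nat.card_congr this.some.toEquiv] <;>
      simp [Fintype.card_perm, Nat.factorial, DihedralGroup.card]

theorem out_minus (p : ℕ) [Fact p.Prime] (hp : p = 2 ∨ p = 3) {m : ℕ} (hm : 2 ≤ m) {a b : ZMod p} (hab : Aniso a b) :
    Nat.card (Out (POmega (ZMod p) (quadFormMinus m (ZMod p) a b))) ∣ 8 := by
  have hF : Fintype.card (ZMod p) = p ^ 1 := by simp
  by_cases h3 : m = 2
  · subst h3
    haveI := Fintype.ofFinite (GaloisField p 2)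
    have hK : Fintype.card (GaloisField p 2) = p ^ 2 := by
      rw [← Nat.card_eq_fintype_card, GaloisField.card p 2 two_ne_zero]
    obtain ⟨φ, c, -, d⟩ := S2603.result (p := p) le_rfl (pow_one p).symm hK (n := 4) (by omega) (by omega)
    rw [out_card (S0303.result (ZMod.card p) hK a b hab).some, card_of_surj c, d]
    rcases hp with rfl | rfl <;> simp
  rcases hp with rfl | rfl
  · exact (S2605.result le_rfl hF (m := m + 1) (by omega) a b hab).2 ▸ by decide
  · have := S2606.result le_rfl hF (by omega) (m := m + 1) (by omega) a b hab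
    split_ifs at this <;> exact Nat.card_congr this.some.toEquiv ▸ by simp [DihedralGroup.card]

/-- Let D be a conjugacy class of 3-transpositions generating the finite group G, with trivial centre and trivial largest normal 2- and 3-subgroups, and suppose the commuting graph of D is not connected. Let F be the generalized Fitting subgroup of G. Then G/F is isomorphic to the symmetric group of degree 3, and F is isomorphic either to the commutator subgroup of the isometry group of the hyperbolic quadratic form in dimension 8 over the field with two elements, or to the commutator subgroup of the isometry group of the hyperbolic quadratic form in dimension 8 over the field with three elements modulo its centre. -/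
theorem result {G : Type*} [Group G] [Finite G] {D : Set G} (hD : Cfsg.IsThreeTranspositionClass D) (hZ : Subgroup.center G = ⊥) (h2 : Cfsg.pCore 2 G = ⊥) (h3 : Cfsg.pCore 3 G = ⊥) (hdisc : ¬ (Cfsg.commutingGraph D).Connected) (F : Subgroup G) [F.Normal] (hF : F = Cfsg.generalizedFittingSubgroup G) : Nonempty (G ⧸ F ≃* Equiv.Perm (Fin 3)) ∧ (Nonempty (F ≃* Cfsg.Omega (ZMod 2) (Cfsg.quadFormPlus 4 (ZMod 2))) ∨ Nonempty (F ≃* Cfsg.POmega (ZMod 3) (Cfsg.quadFormPlus 4 (ZMod 3)))) := by
  have fs := fs_of_class hD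
  have g : Gen D := ⟨hD.2.2, hZ⟩
  obtain ⟨x, hx⟩ := class_nonempty hD
  have nc : ¬ Cm D := fun c => hdisc (by
    haveI : Nonempty D := ⟨⟨x, hx⟩⟩
    refine ⟨fun a b => c (fun y => ∀ hy, (commutingGraph D).Reachable a ⟨y, hy⟩) (fun u hu v hv c p _ => ?_) a a.2 b b.2
      (fun _ => .rfl) b.2⟩
    by_cases e : u = v
    · exact e ▸ p hu
    · exact (p hu).trans (SimpleGraph.Adj.reachable ⟨fun k => e (congrArg Subtype.val k), .inl c⟩))
  have two : ∃ a ∈ D, ∃ b ∈ D, a ≠ b := by
    by_contra! k
    exact nc fun P _ a ha b hb p => k a ha b hb ▸ p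
  have cn : Cn D := ⟨fun a ha b hb => (class_trans hD ha hb).imp fun u e => ⟨g.top ▸ Subgroup.mem_top u, e⟩,
    fun a ha => exists_not_commute hD two ha⟩
  have wt : ∀ v ∈ D, ∀ d ∈ D, W D v d → v = d := fun v hv d hd w =>
    eq_of_rW hD.1 (class_conj hD) (h3 ▸ bot_le) hv hd (rW_iff.2 w.symm)
  obtain ⟨L, hL, t⟩ := Qr.tri ⟨fs, cn, fun v hv d hd r => (cn.edge d hd).elim fun e he =>
    eq_of_rV hD.1 (class_conj hD) (h2 ▸ bot_le) hv hd he.1 he.2 r, wt, exists_pair_of_wt cn ⟨x, hx⟩ wt⟩ g nc
  obtain rfl : F = L := hF.trans t.fs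
  obtain ⟨i, i1, d3, k, -⟩ := t.quot
  replace d3 := d3.trans t.dvd_out
  have no : ¬ Nat.card (Out F) ∣ 8 := fun e => absurd ((dvd_pow_self 3 (by omega)).trans (d3.trans e)) (by decide)
  have ok : Nat.card (Out F) ∣ 24 → i = 1 := fun e => by
    by_contra n
    exact absurd ((pow_dvd_pow 3 (show 2 ≤ i by omega)).trans (d3.trans e)) (by decide)
  have p := t.pr hx
  obtain ⟨K, _, _, hK⟩ := f4_exists
  rcases p.list_nv (hF := hK) (t.not_vl hx) with ⟨n, h3, φ, hφ⟩ | ⟨n, f, h6, hf, τ, c⟩ | ⟨n, h6, f, hf, τ, c⟩ | c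
  · exact (t.not_sym hx h3 hφ).elim
  · rcases o2_bridge hf (by simp; omega) c with ⟨m, a, g', φ, hφ⟩ | ⟨m, a, g', φ, hφ⟩ <;>
      obtain ⟨e⟩ := t.iso hx g' hφ <;>
      have e2 := out_card (e.trans ((QuotientGroup.quotientMulEquivOfEq ((p.fiso hφ.symm).cen_comm g')).trans
        QuotientGroup.quotientBot).symm)
    · have := out_plus 2 (.inl rfl) a
      split_ifs at this with h4
      · subst h4; exact ⟨k (ok (e2 ▸ this)), .inl ⟨e⟩⟩
      · exact (no (e2 ▸ this)).elim
    · exact (no (e2 ▸ out_minus 2 (.inl rfl) a (aniso_one_iff.2 (by decide)))).elim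
  · obtain ⟨-, g', φ, hφ⟩ := o3_bridge (by omega) hf c p.cn.edge
    obtain ⟨e⟩ := t.iso hx g' hφ
    obtain ⟨m, rfl | rfl⟩ := Nat.even_or_odd' n
    · obtain ⟨j, rfl⟩ : ∃ j, m = j + 1 := ⟨m - 1, by omega⟩
      rcases hf.isIndex_even (m := j) (by simp; omega) with j' | j'
      · have e2 := e.trans (c.o3_comm (by omega) hf (j'.equivalent_plus hf (by simp)).nonempty_mulEquiv).some
        have := out_plus 3 (.inr rfl) (m := j + 1) (by omega)
        split_ifs at this with h4
        · obtain rfl : j = 3 := by omega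
          exact ⟨k (ok (out_card e2 ▸ this)), .inr ⟨e2⟩⟩
        · exact (no (out_card e2 ▸ this)).elim
      · have e2 := e.trans (c.o3_comm (by omega) hf (j'.equivalent_minus hf (by simp; omega) an3).nonempty_mulEquiv).some
        exact (no (out_card e2 ▸ out_minus 3 (.inr rfl) (m := j) (by omega) an3)).elim
    · have e2 := e.trans (c.o3_comm (by omega) hf (hf.nonempty_isom_equiv_odd (m := m) (by simp))).some
      have := S2604.result (F := ZMod 3) (p := 3) (f := 1) le_rfl rfl (by omega) (m := m) (by omega)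
      exact (no (((out_card e2).trans (Nat.card_congr this.some.toEquiv)) ▸ by simp)).elim
  · exact (t.not_fi hx c).elim

end Cfsg.Agent.S5362
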