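import Cfsg.Statements.S5363
import Cfsg.Agent.Lib.Spor.Tr3Block
import Cfsg.Agent.Lib.Grp.H13Inv

set_option autoImplicit false
open Cfsg

namespace Cfsg.Agent.S5363

/-- Let D be a conjugation-invariant set of involutions of a finite group G. Then every product of two members of D has odd order or order 2 if and only if, for every a in D and every b in D different from a and commuting with a, the members of D commuting with a b are exactly those commuting with both a and b. -/
theorem result {G : Type*} [Group G] [Finite G] {D : Set G} (hinv : ∀ d ∈ D, orderOf d = 2) (hconj : ∀ g : G, ∀ d ∈ D, g * d * g⁻¹ ∈ D) : (∀ a ∈ D, ∀ b ∈ D, Odd (orderOf (a * b)) ∨ orderOf (a * b) = 2) ↔ ∀ a ∈ D, ∀ b ∈ D, b ≠ a → Commute a b → {y : G | y ∈ D ∧ Commute (a * b) y} = {y : G | y ∈ D ∧ Commute a y} ∩ {y : G | y ∈ D ∧ Commute b y} := by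
  open CA CA.Tr3Basic in
  have sq : ∀ d ∈ D, d * d = 1 := fun d hd => mul_self_of_orderOf (hinv d hd)
  constructor
  · intro h a ha b hb hne hab
    ext y
    simp only [Set.mem_inter_iff, Set.mem_ofPred_eq]
    refine ⟨fun ⟨hy, hc⟩ => ?_, fun ⟨⟨hy, h1⟩, _, h2⟩ => ⟨hy, h1.mul_left h2⟩⟩
    have key : Commute a y := by
      rcases h y hy a ha with h1 | h1
      · have ht : orderOf (a * b) = 2 := orderOf_eq_two
          (by simpa [pow_two] using sq_of_commute (sq a ha) (sq b hb) hab)
          (fun h' => hne (by rw [← cancel_left (sq a ha) b, h', mul_one]))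
        have hcm : Commute (y * a) (a * b) := hc.symm.mul_left ((Commute.refl a).mul_right hab)
        have ho := hcm.orderOf_mul_eq_mul_orderOf_of_coprime (by rw [ht]; exact h1.coprime_two_right)
        rw [ht, mul_assoc, cancel_left (sq a ha)] at ho
        rcases h y hy b hb with h2 | h2
        · rw [ho] at h2; exact absurd h2 (by simp)
        · have : orderOf (y * a) = 1 := by omega
          exact (commute_of_sq (sq y hy) (sq a ha) (by rw [orderOf_eq_one_iff.1 this, one_pow])).symm
      · exact (commute_of_sq (sq y hy) (sq a ha) (by rw [← h1, pow_orderOf_eq_one])).symm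
    refine ⟨⟨hy, key⟩, hy, ?_⟩
    rw [← cancel_left (sq a ha) b]
    exact key.mul_left hc
  · intro h a ha b hb
    rcases Nat.even_or_odd (orderOf (a * b)) with he | he
    swap
    · exact Or.inl he
    right
    set z := (a * b) ^ (orderOf (a * b) / 2) with hz
    have z2 : orderOf z = 2 := H13Inv.orderOf_pow_half he
    have za : Commute z a := H13Inv.commute_pow_half_left (sq a ha) (sq b hb) he
    have zb : Commute z b := H13Inv.commute_pow_half_right (sq a ha) (sq b hb) he
    have hc : a * z ∈ D := by
      rcases H13Inv.conj_mul_half (sq a ha) (sq b hb) he with ⟨-, k, hk⟩ | ⟨-, k, hk⟩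
      · rw [hz, ← hk]; exact hconj _ _ ha
      · rw [hz, ← hk]; exact hconj _ _ hb
    have := h a ha _ hc (fun h' => ne_one_of_orderOf z2 (by simpa using h')) ((Commute.refl a).mul_right za.symm)
    rw [cancel_left (sq a ha)] at this
    have hb' : b ∈ {y : G | y ∈ D ∧ Commute z y} := ⟨hb, zb⟩
    rw [this] at hb'
    have hd := orderOf_dvd_of_pow_eq_one (sq_of_commute (sq a ha) (sq b hb) hb'.1.2)
    rcases (Nat.dvd_prime Nat.prime_two).1 hd with h1 | h1
    · rw [h1] at he; exact absurd he (by simp)
    · exact h1

end Cfsg.Agent.S5363
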