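import Cfsg.Statements.S5364
import Cfsg.Agent.Lib.Spor.Tr3Block

set_option autoImplicit false
open Cfsg

namespace Cfsg.Agent.S5364

/-- Let D be a conjugation-invariant set of involutions of a finite group G and t an involution in the centre of G such that d t does not lie in D for any d in D. If the images of the members of D in G modulo the subgroup generated by t satisfy the 3-transposition order conditions (each has order 2 and any two have product of order at most 3), then so do the members of D. -/
theorem result {G : Type*} [Group G] [Finite G] {D : Set G} (hinv : ∀ d ∈ D, orderOf d = 2) (hconj : ∀ g : G, ∀ d ∈ D, g * d * g⁻¹ ∈ D) (t : G) (ht : orderOf t = 2) (htZ : t ∈ Subgroup.center G) (hDt : ∀ d ∈ D, d * t ∉ D) [(Subgroup.zpowers t).Normal] (himg : Cfsg.IsThreeTranspositionSet ((QuotientGroup.mk : G → G ⧸ Subgroup.zpowers t) '' D)) : Cfsg.IsThreeTranspositionSet D := by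
  open CA CA.Tr3Basic in
  have sq : ∀ d ∈ D, d * d = 1 := fun d hd => mul_self_of_orderOf (hinv d hd)
  have hz : ∀ x ∈ Subgroup.zpowers t, x = 1 ∨ x = t := by
    rintro _ ⟨k, rfl⟩
    rcases Int.even_or_odd' k with ⟨m, rfl | rfl⟩
    · left; simp [zpow_mul, pow_two, mul_self_of_orderOf ht]
    · right; simp [zpow_add, zpow_mul, pow_two, mul_self_of_orderOf ht]
  have hc := Subgroup.mem_center_iff.1 htZ
  refine ⟨hinv, fun d hd e he => ?_⟩
  rcases himg.2 _ ⟨d, hd, rfl⟩ _ ⟨e, he, rfl⟩ with h | h
  · left
    rw [← QuotientGroup.mk_mul, ← QuotientGroup.mk_pow, QuotientGroup.eq_one_iff] at h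
    rcases hz _ h with h | h
    · exact h
    · refine absurd ?_ (hDt e he)
      have := hconj d e he
      rw [inv_of_mul_self (sq d hd)] at this
      rwa [hc e, ← h, pow_two, ← mul_assoc, cancel_right (sq e he)]
  · right
    rw [← QuotientGroup.mk_mul, ← QuotientGroup.mk_pow, QuotientGroup.eq_one_iff] at h
    rcases hz _ h with h | h
    · exact h
    · refine absurd ?_ (hDt _ (hconj e d hd))
      have := hconj d e he
      rw [inv_of_mul_self (sq d hd)] at this
      rw [inv_of_mul_self (sq e he), hc, ← h]
      simpa [pow_succ, mul_assoc, cancel_left (sq e he), cancel_left (sq d hd), sq e he] using this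

end Cfsg.Agent.S5364
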