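import Cfsg.Statements.S5365
import Cfsg.Agent.Lib.Spor.Tr3Block

set_option autoImplicit false
open Cfsg

namespace Cfsg.Agent.S5365

open CA CA.Tr3Basic CA.Tr3Block CA.H27Words Equiv

def R5 : List Rule := complete 200 [([0,0],[]), ([1,1],[]), ([2,2],[]), ([3,3],[]), ([1,0,1],[0,1,0]), ([2,0],[0,2]),
  ([3,0],[0,3]), ([2,1,2],[1,2,1]), ([3,1],[1,3]), ([3,2,3],[2,3,2])]
  [([2,1,2,0],3,2,true), ([3,2,3,1],3,2,true), ([3,2,1,3,0],4,3,true)]

theorem holds_R5 {G : Type*} [Group G] {a b c d : G} (ha : a * a = 1) (hb : b * b = 1) (hc : c * c = 1)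
    (hd : d * d = 1) (hab : a * b * a = b * a * b) (hac : a * c = c * a) (had : a * d = d * a)
    (hbc : b * c * b = c * b * c) (hbd : b * d = d * b) (hcd : c * d * c = d * c * d) :
    Holds (fam [a, b, c, d]) R5 := by
  apply complete_sound
  intro r hr
  have : r = ([0,0],[]) ∨ r = ([1,1],[]) ∨ r = ([2,2],[]) ∨ r = ([3,3],[]) ∨ r = ([1,0,1],[0,1,0]) ∨
      r = ([2,0],[0,2]) ∨ r = ([3,0],[0,3]) ∨ r = ([2,1,2],[1,2,1]) ∨ r = ([3,1],[1,3]) ∨ r = ([3,2,3],[2,3,2]) := by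
    simpa only [List.mem_cons, List.not_mem_nil, or_false] using (show r ∈ [_, _, _, _, _, _, _, _, _, _] from hr)
  rcases this with rfl | rfl | rfl | rfl | rfl | rfl | rfl | rfl | rfl | rfl
  · simpa using ha
  · simpa using hb
  · simpa using hc
  · simpa using hd
  · simpa [mul_assoc] using hab.symm
  · simpa using hac.symm
  · simpa using had.symm
  · simpa [mul_assoc] using hbc.symm
  · simpa using hbd.symm
  · simpa [mul_assoc] using hcd.symm

theorem closure_swap5 :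
    Subgroup.closure ({swap 0 1, swap 1 2, swap 2 3, swap 3 4} : Set (Perm (Fin 5))) = ⊤ := by
  rw [← closure_adj_swap 4]
  congr 1
  ext x
  simp only [Set.mem_insert_iff, Set.mem_singleton_iff, Set.mem_range]
  constructor
  · rintro (rfl | rfl | rfl | rfl)
    exacts [⟨0, rfl⟩, ⟨1, rfl⟩, ⟨2, rfl⟩, ⟨3, rfl⟩]
  · rintro ⟨i, rfl⟩
    fin_cases i
    exacts [Or.inl rfl, Or.inr (Or.inl rfl), Or.inr (Or.inr (Or.inl rfl)), Or.inr (Or.inr (Or.inr rfl))]

theorem exists_hom_S5 {G : Type*} [Group G] {a b c d : G} (ha : a * a = 1) (hb : b * b = 1) (hc : c * c = 1)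
    (hd : d * d = 1) (hab : a * b * a = b * a * b) (hac : a * c = c * a) (had : a * d = d * a)
    (hbc : b * c * b = c * b * c) (hbd : b * d = d * b) (hcd : c * d * c = d * c * d) :
    ∃ φ : Perm (Fin 5) →* G, φ (swap 0 1) = a ∧ φ (swap 1 2) = b ∧ φ (swap 2 3) = c ∧ φ (swap 3 4) = d := by
  obtain ⟨φ, hφ⟩ := exists_hom (Γ := Perm (Fin 5)) (fam [swap 0 1, swap 1 2, swap 2 3, swap 3 4])
    (fam [a, b, c, d])
    (holds_R5 (by decide) (by decide) (by decide) (by decide) (by decide) (by decide) (by decide) (by decide)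
      (by decide) (by decide))
    (holds_R5 ha hb hc hd hab hac had hbc hbd hcd) (n := 200) (m := 4)
    (W := [[],[0],[1],[2],[3],[1,0],[0,2],[0,3],[0,1],[2,1],[1,3],[1,2],[3,2],[2,3],[0,1,0],[2,1,0],[1,0,3],[1,0,2],
      [0,3,2],[0,2,3],[0,2,1],[0,1,3],[1,2,1],[3,2,1],[2,1,3],[0,1,2],[1,3,2],[2,3,2],[1,2,3],[0,2,1,0],[0,1,0,3],
      [1,2,1,0],[3,2,1,0],[2,1,0,3],[0,1,0,2],[1,0,3,2],[0,2,3,2],[1,0,2,3],[1,0,2,1],[0,3,2,1],[0,2,1,3],[0,1,2,1],
      [1,3,2,1],[2,3,2,1],[1,2,1,3],[0,1,3,2],[2,1,3,2],[1,2,3,2],[0,1,2,3],[1,0,2,1,0],[0,3,2,1,0],[0,2,1,0,3],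
      [0,1,2,1,0],[1,3,2,1,0],[2,3,2,1,0],[1,2,1,0,3],[0,1,0,3,2],[2,1,0,3,2],[1,0,2,3,2],[0,1,0,2,3],[0,1,0,2,1],
      [1,0,3,2,1],[0,2,3,2,1],[1,0,2,1,3],[0,1,3,2,1],[2,1,3,2,1],[1,2,3,2,1],[0,1,2,1,3],[0,2,1,3,2],[1,2,1,3,2],
      [0,1,2,3,2],[0,1,0,2,1,0],[1,0,3,2,1,0],[0,2,3,2,1,0],[1,0,2,1,0,3],[0,1,3,2,1,0],[2,1,3,2,1,0],[1,2,3,2,1,0],
      [0,1,2,1,0,3],[0,2,1,0,3,2],[1,2,1,0,3,2],[0,1,0,2,3,2],[0,1,0,3,2,1],[2,1,0,3,2,1],[1,0,2,3,2,1],
      [0,1,0,2,1,3],[0,2,1,3,2,1],[1,2,1,3,2,1],[0,1,2,3,2,1],[1,0,2,1,3,2],[0,1,2,1,3,2],[0,1,0,3,2,1,0],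
      [2,1,0,3,2,1,0],[1,0,2,3,2,1,0],[0,1,0,2,1,0,3],[0,2,1,3,2,1,0],[1,2,1,3,2,1,0],[0,1,2,3,2,1,0],
      [1,0,2,1,0,3,2],[0,1,2,1,0,3,2],[0,2,1,0,3,2,1],[1,2,1,0,3,2,1],[0,1,0,2,3,2,1],[1,0,2,1,3,2,1],
      [0,1,2,1,3,2,1],[0,1,0,2,1,3,2],[0,2,1,0,3,2,1,0],[1,2,1,0,3,2,1,0],[0,1,0,2,3,2,1,0],[1,0,2,1,3,2,1,0],
      [0,1,2,1,3,2,1,0],[0,1,0,2,1,0,3,2],[1,0,2,1,0,3,2,1],[0,1,2,1,0,3,2,1],[0,1,0,2,1,3,2,1],
      [1,0,2,1,0,3,2,1,0],[0,1,2,1,0,3,2,1,0],[0,1,0,2,1,3,2,1,0],[0,1,0,2,1,0,3,2,1],[0,1,0,2,1,0,3,2,1,0]])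
    (by decide +kernel) (by rw [image_fam4]; exact closure_swap5) (by simp; decide)
  exact ⟨φ, hφ 0 (by norm_num), hφ 1 (by norm_num), hφ 2 (by norm_num), hφ 3 (by norm_num)⟩

section
variable {G : Type*} [Group G] {D : Set G}

/-- neighbours in the commuting graph -/
def Nb (D : Set G) (d y : G) : Prop := y ∈ D ∧ y ≠ d ∧ Commute d y

theorem Nb.symm {d y : G} (hd : d ∈ D) (h : Nb D d y) : Nb D y d := ⟨hd, h.2.1.symm, h.2.2.symm⟩

set_option synthInstance.maxSize 4000 in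
theorem loc (hD : IsThreeTranspositionSet D) {d : G}
    (h : Nonempty (↥(Subgroup.closure {y : G | y ∈ D ∧ y ≠ d ∧ Commute d y}) ≃* Perm (Fin 3))) :
    (∀ y z, Nb D d y → Nb D d z → Commute y z → y = z) ∧
    (∀ a b y, Nb D d a → Nb D d b → ¬ Commute a b → Nb D d y → y = a ∨ y = b ∨ y = a * b * a) ∧
    ∃ a b, Nb D d a ∧ Nb D d b ∧ ¬ Commute a b := by
  obtain ⟨e⟩ := h
  have key : ∀ y, Nb D d y → ∃ σ : Perm (Fin 3), σ * σ = 1 ∧ σ ≠ 1 ∧ (e.symm σ : G) = y := by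
    intro y hy
    refine ⟨e ⟨y, Subgroup.subset_closure hy⟩, ?_, ?_, by simp⟩
    · rw [← map_mul, ← map_one e]; congr 1; exact Subtype.ext (sq hD hy.1)
    · rw [Ne, map_eq_one_iff _ e.injective, Subtype.ext_iff]; exact ne_one hD hy.1
  have hc : ∀ σ τ : Perm (Fin 3), Commute (e.symm σ : G) (e.symm τ) ↔ σ * τ = τ * σ := by
    intro σ τ
    rw [commute_iff_eq, ← Subgroup.coe_mul, ← Subgroup.coe_mul, ← map_mul, ← map_mul, Subtype.coe_inj,
      e.symm.injective.eq_iff]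
  refine ⟨fun y z hy hz hyz => ?_, fun a b y ha hb hab hy => ?_, ?_⟩
  · obtain ⟨σ, h1, h2, rfl⟩ := key y hy
    obtain ⟨τ, h3, h4, rfl⟩ := key z hz
    have k : ∀ σ τ : Perm (Fin 3), σ * σ = 1 → σ ≠ 1 → τ * τ = 1 → τ ≠ 1 → σ * τ = τ * σ → σ = τ := by
      decide +kernel
    rw [k σ τ h1 h2 h3 h4 ((hc _ _).1 hyz)]
  · obtain ⟨σ, h1, h2, rfl⟩ := key a ha
    obtain ⟨τ, h3, h4, rfl⟩ := key b hb
    obtain ⟨ρ, h5, h6, rfl⟩ := key y hy
    have k : ∀ σ τ ρ : Perm (Fin 3), σ * σ = 1 → τ * τ = 1 → ρ * ρ = 1 → ρ ≠ 1 → σ * τ ≠ τ * σ →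
        ρ = σ ∨ ρ = τ ∨ ρ = σ * τ * σ := by decide +kernel
    rcases k σ τ ρ h1 h3 h5 h6 (fun h => hab ((hc _ _).2 h)) with rfl | rfl | rfl <;> simp
  · by_contra hno
    push Not at hno
    have := sq_of_mem_closure (S := {y : G | y ∈ D ∧ y ≠ d ∧ Commute d y}) (fun x hx => sq hD hx.1)
      (fun x hx y hy => hno x y hx hy) (e.symm (swap 0 1 * swap 1 2)).2
    rw [← Subgroup.coe_mul, ← map_mul, OneMemClass.coe_eq_one, map_eq_one_iff _ e.symm.injective] at this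
    exact absurd this (by decide)

theorem closure_eq_range {Γ : Type*} [Group Γ] (φ : Γ →* G) (hφ : Function.Injective φ) (S : Set Γ)
    (hS : Subgroup.closure S = ⊤) (h1 : ∀ s ∈ S, φ s ∈ D) (h2 : ∀ x ∈ D, x ∈ φ.range) :
    Nonempty (Subgroup.closure D ≃* Γ) := by
  have : φ.range = Subgroup.closure D := by
    apply le_antisymm
    · rw [MonoidHom.range_eq_map, ← hS, MonoidHom.map_closure]
      apply Subgroup.closure_mono
      rintro _ ⟨s, hs, rfl⟩
      exact h1 s hs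
    · exact (Subgroup.closure_le _).2 h2
  exact ⟨((MonoidHom.ofInjective hφ).trans (MulEquiv.subgroupCongr this)).symm⟩

theorem case5 (hD : IsThreeTranspositionSet D) (hconj : ∀ g : G, ∀ d ∈ D, g * d * g⁻¹ ∈ D)
    (hloc : ∀ d ∈ D, Nonempty (↥(Subgroup.closure {y : G | y ∈ D ∧ y ≠ d ∧ Commute d y}) ≃* Perm (Fin 3)))
    {a b e d : G} (hd : d ∈ D) (ha : Nb D d a) (hb : Nb D d b) (hab : ¬ Commute a b) (he : Nb D a e)
    (hde : ¬ Commute d e) (hbe : ¬ Commute b e) : Nonempty (Subgroup.closure D ≃* Perm (Fin 5)) := by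
  obtain ⟨φ, h1, h2, h3, h4⟩ := exists_hom_S5 (sq hD ha.1) (sq hD hb.1) (sq hD he.1) (sq hD hd)
    (braid hD ha.1 hb.1 hab) he.2.2.eq ha.2.2.symm.eq (braid hD hb.1 he.1 hbe) hb.2.2.symm.eq
    (braid hD he.1 hd fun h => hde h.symm)
  have hφ : Function.Injective φ := by
    refine injective_of_test φ (swap 0 1 * swap 2 3) ?_ fun σ hσ => ?_
    · rw [map_mul, h1, h3]; exact mul_ne_one hD ha.1 he.2.1.symm
    · refine Perm.alternatingGroup_le_of_normal (by simp) ?_ (by rw [Perm.mem_alternatingGroup]; decide)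
      exact (Subgroup.nontrivial_iff_exists_ne_one _).2 ⟨σ, Subgroup.subset_normalClosure rfl, hσ⟩
  have hT : ∀ i j : Fin 5, i ≠ j → φ (swap i j) ∈ D := by
    intro i j hij
    obtain ⟨g, hg⟩ := isConj_iff.1 (Perm.isConj_swap (show (0 : Fin 5) ≠ 1 by decide) hij)
    rw [← hg, map_mul, map_mul, map_inv, h1]
    exact hconj _ _ ha.1
  have hC : ∀ σ τ, Commute (φ σ) (φ τ) ↔ σ * τ = τ * σ := fun σ τ => by
    rw [commute_iff_eq, ← map_mul, ← map_mul, hφ.eq_iff]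
  refine closure_eq_range φ hφ _ closure_swap5 ?_ fun x hx => ?_
  · rintro s (rfl | rfl | rfl | rfl) <;> exact hT _ _ (by decide)
  by_cases hc : ∃ i j, i ≠ j ∧ Commute (φ (swap i j)) x
  · obtain ⟨i, j, hij, hc⟩ := hc
    by_cases hxe : x = φ (swap i j)
    · exact ⟨_, hxe.symm⟩
    have k : ∀ i j : Fin 5, i ≠ j → ∃ k l m : Fin 5, k ≠ l ∧ l ≠ m ∧ swap k l ≠ swap i j ∧ swap l m ≠ swap i j ∧
        swap i j * swap k l = swap k l * swap i j ∧ swap i j * swap l m = swap l m * swap i j ∧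
        swap k l * swap l m ≠ swap l m * swap k l := by decide +kernel
    obtain ⟨k, l, m, k1, k2, k3, k4, k5, k6, k7⟩ := k i j hij
    rcases (loc hD (hloc _ (hT i j hij))).2.1 (φ (swap k l)) (φ (swap l m)) x
      ⟨hT _ _ k1, hφ.ne k3, (hC _ _).2 k5⟩ ⟨hT _ _ k2, hφ.ne k4, (hC _ _).2 k6⟩ (fun h => k7 ((hC _ _).1 h))
      ⟨hx, hxe, hc⟩ with rfl | rfl | rfl
    · exact ⟨_, rfl⟩
    · exact ⟨_, rfl⟩
    · exact ⟨swap k l * swap l m * swap k l, by rw [map_mul, map_mul]⟩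
  exfalso
  push Not at hc
  have key : ∀ i j k l : Fin 5, i ≠ j → k ≠ l → swap i j ≠ swap k l → swap i j * swap k l = swap k l * swap i j →
      Nb D x (φ (swap i j * swap k l) * x * (φ (swap i j * swap k l))⁻¹) := by
    intro i j k l hij hkl hne hcm
    have hp := hT i j hij
    have hq := hT k l hkl
    have hpq := (hC _ _).2 hcm
    refine ⟨hconj _ _ hx, ?_, ?_⟩
    · rw [Ne, conj_eq_iff_commute, map_mul]
      intro h
      exact hc i j hij ((commute_mul_iff hD hp hq hx (hφ.ne hne) hpq).1 h.symm).1.symm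
    · have := string_eq hD hp hx hq hpq (hc i j hij) (fun h => hc k l hkl h.symm) [1,0,2,1,2,0] [0,2,1,2,0,1]
        (by decide +kernel)
      rw [map_mul, mul_inv_rev, inv_eq hD hp, inv_eq hD hq, commute_iff_eq]
      simpa [mul_assoc] using this
  have y1 := key 0 1 2 3 (by decide) (by decide) (by decide) (by decide)
  have y2 := key 0 2 1 3 (by decide) (by decide) (by decide) (by decide)
  have y3 := key 0 3 1 2 (by decide) (by decide) (by decide) (by decide)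
  have e1 : φ (swap 0 2 * swap 1 3) = φ (swap 0 1 * swap 2 3) * φ (swap 0 3 * swap 1 2) := by
    rw [← map_mul]; congr 1; decide
  rw [e1] at y2
  generalize φ (swap 0 1 * swap 2 3) = u at y1 y2
  generalize φ (swap 0 3 * swap 1 2) = v at y2 y3
  have e2 : u * v * x * (u * v)⁻¹ = u * (v * x * v⁻¹) * u⁻¹ := by group
  rw [e2] at y2
  have := (loc hD (hloc x hx)).1 _ _ y1 y2 ((commute_conj_iff _ _ _).2 y3.2.2)
  exact y3.2.1 (conj_inj.1 this).symm

theorem case33 [Finite G] (hD : IsThreeTranspositionSet D) (hconj : ∀ g : G, ∀ d ∈ D, g * d * g⁻¹ ∈ D)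
    (hloc : ∀ d ∈ D, Nonempty (↥(Subgroup.closure {y : G | y ∈ D ∧ y ≠ d ∧ Commute d y}) ≃* Perm (Fin 3)))
    {a b e d : G} (hd : d ∈ D) (h3 : Nat.card (pCore 3 ↥(Subgroup.centralizer ({d} : Set G))) = 3)
    (ha : Nb D d a) (hb : Nb D d b) (hab : ¬ Commute a b) (he : Nb D a e)
    (hde : ¬ Commute d e) (hbe : Commute b e) : Nonempty (Subgroup.closure D ≃* Perm (Fin 3) × Perm (Fin 3)) := by
  haveI : Fact (Nat.Prime 3) := ⟨Nat.prime_three⟩
  have hbe' : Nb D b e := ⟨he.1, by rintro rfl; exact hab he.2.2, hbe⟩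
  have sa := sq hD ha.1
  have sb := sq hD hb.1
  have sd := sq hD hd
  have se := sq hD he.1
  have third : ∀ {z x y : G}, Nb D z x → Nb D z y → ¬ Commute x y → Nb D z (x * y * x) := by
    intro z x y hx hy hxy
    have := hconj x y hy.1
    rw [inv_eq hD hx.1] at this
    refine ⟨this, ?_, (hx.2.2.mul_right hy.2.2).mul_right hx.2.2⟩
    rintro rfl
    exact hxy (((commute_conj_iff x x y).1 (by
      rw [mul_inv_cancel_right, inv_eq hD hx.1]; exact hx.2.2.symm)))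
  have rw_of : ∀ {z w x y : G}, z ∈ D → w ∈ D → Nb D z x → Nb D z y → Nb D w x → Nb D w y → ¬ Commute x y →
      rW D z w := by
    intro z w x y hz hw h1 h2 h3 h4 hxy
    ext t
    constructor
    · intro ht
      rcases (loc hD (hloc w hw)).2.1 x y t h3 h4 hxy ht with rfl | rfl | rfl
      exacts [h1, h2, third h1 h2 hxy]
    · intro ht
      rcases (loc hD (hloc z hz)).2.1 x y t h1 h2 hxy ht with rfl | rfl | rfl
      exacts [h3, h4, third h3 h4 hxy]
  have q1 : a * b ∈ pCore 3 G := mul_mem_O3_of_rW hD hconj hb.1 ha.1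
    (rw_of hb.1 ha.1 (hb.symm hd) hbe' (ha.symm hd) he hde)
  have q2 : d * e ∈ pCore 3 G := mul_mem_O3_of_rW hD hconj he.1 hd
    (rw_of he.1 hd (he.symm ha.1) (hbe'.symm hb.1) ha hb hab)
  have cad : Commute a d := ha.2.2.symm
  have cbd : Commute b d := hb.2.2.symm
  have cae : Commute a e := he.2.2
  have hz : ∀ c ∈ pCore 3 G, Commute c d → c ∈ Subgroup.zpowers (a * b) := by
    intro c hc hcd
    have mem : ∀ c : G, Commute c d → c ∈ Subgroup.centralizer ({d} : Set G) := fun c h =>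
      Subgroup.mem_centralizer_singleton_iff.2 h.eq
    have hle : (pCore 3 G).subgroupOf (Subgroup.centralizer ({d} : Set G)) ≤ pCore 3 _ :=
      Core.le_pCore (Core.isPGroup_pCore.comap_subtype)
    let w : Subgroup.centralizer ({d} : Set G) := ⟨a * b, mem _ (cad.mul_left cbd)⟩
    have h1 : Subgroup.zpowers w = pCore 3 _ := by
      apply Subgroup.eq_of_le_of_card_ge
      · exact (Subgroup.zpowers_le_of_mem (hle q1))
      · rw [h3, Nat.card_zpowers, ← Subgroup.orderOf_coe, orderOf_eq_three hD ha.1 hb.1 hab]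
    have h2 : (⟨c, mem c hcd⟩ : Subgroup.centralizer ({d} : Set G)) ∈ Subgroup.zpowers w := h1 ▸ hle hc
    obtain ⟨k, hk⟩ := h2
    exact ⟨k, congrArg Subtype.val hk⟩
  have i1 : a * d * (a * b) * (a * d)⁻¹ = (a * b)⁻¹ := by
    rw [mul_inv_rev, mul_inv_rev, inv_eq hD ha.1, inv_eq hD hb.1, inv_eq hD hd]
    calc a * d * (a * b) * (d * a) = a * (d * (a * b) * d) * a := by group
      _ = b * a := by rw [← (cad.mul_left cbd).eq, cancel_right sd, cancel_left sa]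
  have i2 : a * d * (d * e) * (a * d)⁻¹ = (d * e)⁻¹ := by
    rw [mul_inv_rev, mul_inv_rev, inv_eq hD ha.1, inv_eq hD he.1, inv_eq hD hd]
    calc a * d * (d * e) * (d * a) = a * (d * (d * e) * d) * a := by group
      _ = e * d := by rw [cancel_left sd, (cae.mul_right cad).eq, cancel_right sa]
  have cc : Commute (d * e) (a * b) := (cad.symm.mul_right cbd.symm).mul_left (cae.symm.mul_right hbe.symm)
  have inv : ∀ q ∈ pCore 3 G, a * d * q * (a * d)⁻¹ = q⁻¹ := by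
    intro q hq
    have hd' := hconj q d hd
    have h1 := rW_of_mul_mem hD Core.isPGroup_pCore hd' hd (mul_conj_mem hD hd hq)
    have h2 : Nb D (q * d * q⁻¹) a := by
      have : a ∈ {y : G | y ∈ D ∧ y ≠ d ∧ Commute d y} := ha
      rw [h1] at this; exact this
    obtain ⟨k, hk⟩ : ∃ k : ℤ, q * d * q⁻¹ = (d * e) ^ k * d * ((d * e) ^ k)⁻¹ := by
      rcases (loc hD (hloc a ha.1)).2.1 d e _ (ha.symm hd) he hde (h2.symm hd') with h | h | h
      · exact ⟨0, by simpa using h⟩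
      · exact ⟨1, by rw [h, zpow_one, conj_of_not_commute hD hd he.1 hde]⟩
      · refine ⟨-1, ?_⟩
        rw [h, zpow_neg_one, inv_inv, mul_inv_rev, inv_eq hD hd, inv_eq hD he.1, braid hD hd he.1 hde,
          cancel_right sd, mul_assoc]
    obtain ⟨j, hj⟩ := hz (((d * e) ^ k)⁻¹ * q) (mul_mem (inv_mem (zpow_mem q2 k)) hq) (by
      rw [← conj_eq_iff_commute]
      calc ((d * e) ^ k)⁻¹ * q * d * (((d * e) ^ k)⁻¹ * q)⁻¹ = ((d * e) ^ k)⁻¹ * (q * d * q⁻¹) * (d * e) ^ k := by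
            group
        _ = d := by rw [hk]; group)
    have hq' : q = (d * e) ^ k * (a * b) ^ j := by
      simp only at hj; rw [hj]; group
    have hi : ((d * e) ^ k * (a * b) ^ j)⁻¹ = (d * e)⁻¹ ^ k * (a * b)⁻¹ ^ j := by
      rw [(cc.zpow_zpow k j).eq, mul_inv_rev, inv_zpow, inv_zpow]
    rw [hq', hi, ← i1, ← i2, conj_zpow, conj_zpow]
    generalize a * d = s
    simp only [mul_assoc, inv_mul_cancel_left]
  obtain ⟨φ, hφ, p1, p2⟩ := exists_S3 hD ha.1 hb.1 hab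
  obtain ⟨ψ, hψ, p3, p4⟩ := exists_S3 hD hd he.1 hde
  have hcomm : ∀ σ τ, Commute (φ σ) (ψ τ) := by
    intro σ τ
    have hσ : φ σ ∈ Subgroup.closure ({a, b} : Set G) := by
      rw [← p1, ← p2, ← Set.image_pair, ← MonoidHom.map_closure, closure_swap3]; exact ⟨σ, trivial, rfl⟩
    have hτ : ψ τ ∈ Subgroup.closure ({d, e} : Set G) := by
      rw [← p3, ← p4, ← Set.image_pair, ← MonoidHom.map_closure, closure_swap3]; exact ⟨τ, trivial, rfl⟩
    refine commute_of_mem_closure hτ fun y hy => (commute_of_mem_closure hσ fun z hz' => ?_).symm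
    rcases hy with h | h <;> rcases hz' with h' | h' <;> rw [h, h']
    exacts [cad.symm, cbd.symm, cae.symm, hbe.symm]
  let χ := φ.noncommCoprod ψ hcomm
  have hχ : ∀ σ τ, χ (σ, τ) = φ σ * ψ τ := fun _ _ => rfl
  have hinj : Function.Injective χ := by
    rw [injective_iff_map_eq_one]
    rintro ⟨σ, τ⟩ h
    rw [hχ] at h
    have h1 : ∀ ρ, ρ * σ = σ * ρ := fun ρ => hφ (by
      rw [map_mul, map_mul, eq_inv_of_mul_eq_one_left h]; exact (hcomm ρ τ).inv_right.eq)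
    have k : ∀ σ : Perm (Fin 3), (∀ ρ, ρ * σ = σ * ρ) → σ = 1 := by decide +kernel
    obtain rfl := k σ h1
    rw [map_one, one_mul, map_eq_one_iff _ hψ] at h
    rw [h]; rfl
  have ma : a ∈ χ.range := ⟨(swap 0 1, 1), by rw [hχ, p1, map_one, mul_one]⟩
  have mb : b ∈ χ.range := ⟨(swap 1 2, 1), by rw [hχ, p2, map_one, mul_one]⟩
  have md : d ∈ χ.range := ⟨(1, swap 0 1), by rw [hχ, p3, map_one, one_mul]⟩
  have me : e ∈ χ.range := ⟨(1, swap 1 2), by rw [hχ, p4, map_one, one_mul]⟩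
  refine closure_eq_range χ hinj {(swap 0 1, 1), (swap 1 2, 1), (1, swap 0 1), (1, swap 1 2)} ?_ ?_ fun x hx => ?_
  · rw [eq_top_iff]
    rintro ⟨σ, τ⟩ -
    have h1 : (σ, τ) = MonoidHom.inl _ _ σ * MonoidHom.inr _ _ τ := by simp
    have h2 : ∀ (f : Perm (Fin 3) →* Perm (Fin 3) × Perm (Fin 3)) (K : Subgroup _), f (swap 0 1) ∈ K →
        f (swap 1 2) ∈ K → ∀ ρ, f ρ ∈ K := by
      intro f K k1 k2 ρ
      have : Subgroup.closure ({swap 0 1, swap 1 2} : Set (Perm (Fin 3))) ≤ K.comap f := by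
        rw [Subgroup.closure_le]; rintro _ (rfl | rfl); exacts [k1, k2]
      exact this (closure_swap3 ▸ Subgroup.mem_top ρ)
    rw [h1]
    exact mul_mem (h2 _ _ (Subgroup.subset_closure (by simp)) (Subgroup.subset_closure (by simp)) _)
      (h2 _ _ (Subgroup.subset_closure (by simp)) (Subgroup.subset_closure (by simp)) _)
  · rintro s (rfl | rfl | rfl | rfl) <;> rw [hχ]
    · rw [p1, map_one, mul_one]; exact ha.1
    · rw [p2, map_one, mul_one]; exact hb.1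
    · rw [p3, map_one, one_mul]; exact hd
    · rw [p4, map_one, one_mul]; exact he.1
  by_cases c1 : Commute a x
  · by_cases hxa : x = a
    · exact hxa ▸ ma
    rcases (loc hD (hloc a ha.1)).2.1 d e x (ha.symm hd) he hde ⟨hx, hxa, c1⟩ with rfl | rfl | rfl
    exacts [md, me, mul_mem (mul_mem md me) md]
  by_cases c2 : Commute d x
  · by_cases hxa : x = d
    · exact hxa ▸ md
    rcases (loc hD (hloc d hd)).2.1 a b x ha hb hab ⟨hx, hxa, c2⟩ with rfl | rfl | rfl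
    exacts [ma, mb, mul_mem (mul_mem ma mb) ma]
  exfalso
  have t1 := cube hD hx ha.1 fun h => c1 h.symm
  have t2 := cube hD hx hd fun h => c2 h.symm
  have e1 : x * d = x * a * (a * d) := by rw [mul_assoc, cancel_left sa]
  rw [e1] at t2
  generalize x * a = g at t1 t2
  generalize a * d = s at inv t2
  have step : ∀ q ∈ pCore 3 G, g * s * q * (g * s)⁻¹ = g * q⁻¹ * g⁻¹ := fun q hq => by
    rw [← inv q hq]; group
  have hn : ∀ q ∈ pCore 3 G, g * q⁻¹ * g⁻¹ ∈ pCore 3 G := fun q hq =>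
    (inferInstance : (pCore 3 G).Normal).conj_mem _ (inv_mem hq) g
  have : (g * s) ^ 3 * (a * b) * ((g * s) ^ 3)⁻¹ = g ^ 3 * (a * b)⁻¹ * (g ^ 3)⁻¹ := by
    calc (g * s) ^ 3 * (a * b) * ((g * s) ^ 3)⁻¹
        = g * s * (g * s * (g * s * (a * b) * (g * s)⁻¹) * (g * s)⁻¹) * (g * s)⁻¹ := by
          simp only [pow_succ, pow_zero, one_mul, mul_inv_rev, mul_assoc]
      _ = _ := by
          rw [step _ q1, step _ (hn _ q1), step _ (hn _ (hn _ q1))]
          simp only [pow_succ, pow_zero, one_mul, mul_inv_rev, mul_assoc, inv_inv]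
  rw [t1, t2] at this
  simp only [one_mul, inv_one, mul_one] at this
  exact hab (commute_of_pow hD ha.1 hb.1 (n := 2) (by norm_num) (by rw [pow_two]; nth_rewrite 2 [this]; simp))

end

/-- Let D be a non-empty conjugation-invariant set of involutions of a finite group G satisfying the 3-transposition order conditions, and suppose that for every d in D the members of D other than d commuting with d generate a subgroup isomorphic to the symmetric group of degree 3, and the largest normal 3-subgroup of the centralizer of d has order 3. Then the subgroup generated by D is isomorphic to the symmetric group of degree 5 or to the direct product of two symmetric groups of degree 3. -/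
theorem result {G : Type*} [Group G] [Finite G] {D : Set G} (hD : Cfsg.IsThreeTranspositionSet D) (hconj : ∀ g : G, ∀ d ∈ D, g * d * g⁻¹ ∈ D) (hne : D.Nonempty) (hloc : ∀ d ∈ D, Nonempty (↥(Subgroup.closure {y : G | y ∈ D ∧ y ≠ d ∧ Commute d y}) ≃* Equiv.Perm (Fin 3)) ∧ Nat.card (Cfsg.pCore 3 ↥(Subgroup.centralizer ({d} : Set G))) = 3) : Nonempty (↥(Subgroup.closure D) ≃* Equiv.Perm (Fin 5)) ∨ Nonempty (↥(Subgroup.closure D) ≃* Equiv.Perm (Fin 3) × Equiv.Perm (Fin 3)) := by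
  obtain ⟨d, hd⟩ := hne
  have hl := fun d hd => (hloc d hd).1
  obtain ⟨a, b, ha, hb, hab⟩ := (loc hD (hl d hd)).2.2
  obtain ⟨e, he, hde⟩ : ∃ e, Nb D a e ∧ ¬ Commute d e := by
    obtain ⟨x, y, hx, hy, hxy⟩ := (loc hD (hl a ha.1)).2.2
    by_cases h : Commute d x
    · obtain rfl := (loc hD (hl a ha.1)).1 _ _ (ha.symm hd) hx h
      exact ⟨y, hy, hxy⟩
    · exact ⟨x, hx, h⟩
  by_cases hbe : Commute b e
  · exact Or.inr (case33 hD hconj hl hd (hloc d hd).2 ha hb hab he hde hbe)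
  · exact Or.inl (case5 hD hconj hl hd ha hb hab he hde hbe)

end Cfsg.Agent.S5365
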