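import Cfsg.Statements.S5366
import Cfsg.Agent.Lib.Spor.H19Fis

set_option autoImplicit false
open Cfsg

namespace Cfsg.Agent.S5366

open CA.H19Fis Cfsg.LineSystem in
theorem dist {X : Type*} {L : Set (Set X)} (hL : IsFischerSpace L) (x a b : X) :
    lineMap L x (lineMap L a b) = lineMap L (lineMap L x a) (lineMap L x b) := by
  have h := lineMap_isOp hL.1 hL.2.1
  generalize lineMap L = op at h ⊢
  have loc : ∀ x a b, op a b ≠ b → op x (op a b) = op (op x a) (op x b) := by
    intro x a b hab
    have hl := (h.mem a b _).2 ⟨hab, rfl⟩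
    by_cases hx : x ∈ ({a, b, op a b} : Set X)
    · rcases hx with rfl | rfl | rfl
      · rw [h.invol, h.self, h.invol]
      · have h1 := h.comm hab
        rw [← h1.2, h.invol, h.self, h1.2]
        have h2 : ({op a x, x, a} : Set X) ∈ L := by convert hl using 1; ext; simp; tauto
        exact ((h.mem _ _ _).1 h2).2.symm
      · have h2 : ({op a b, a, b} : Set X) ∈ L := by convert hl using 1; ext; simp; tauto
        have h3 : ({op a b, b, a} : Set X) ∈ L := by convert hl using 1; ext; simp; tauto
        rw [h.self, ((h.mem _ _ _).1 h2).2, ((h.mem _ _ _).1 h3).2, (h.comm hab).2]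
    by_cases hall : ∀ y ∈ ({a, b, op a b} : Set X), op x y = y
    · rw [hall a (by simp), hall b (by simp), hall _ (by simp)]
    push Not at hall
    obtain ⟨y, hy, hxy⟩ := hall
    have hm := (h.mem x y _).2 ⟨hxy, rfl⟩
    have hs := subset_span L (({a, b, op a b} : Set X) ∪ {x, y, op x y})
    rcases hL.2.2 _ hl _ hm (fun e => hx (by rw [e]; simp)) ⟨y, hy, by simp⟩ with hi | hi
    · obtain ⟨f, hf, hop⟩ := hom_of_iso h isOp_dual (span_subspace L _) hi
      rw [← hf] at hs
      obtain ⟨a, rfl⟩ := hs (show a ∈ _ by simp)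
      obtain ⟨b, rfl⟩ := hs (show b ∈ _ by simp)
      obtain ⟨x, rfl⟩ := hs (show x ∈ _ by simp)
      simp only [hop]
      rw [distD]
    · obtain ⟨f, hf, hop⟩ := hom_of_iso h isOp_aff (span_subspace L _) hi
      rw [← hf] at hs
      obtain ⟨a, rfl⟩ := hs (show a ∈ _ by simp)
      obtain ⟨b, rfl⟩ := hs (show b ∈ _ by simp)
      obtain ⟨x, rfl⟩ := hs (show x ∈ _ by simp)
      simp only [hop]
      rw [distA]
  by_cases hab : op a b = b
  · rw [hab]
    by_contra hne
    have := loc x _ _ (Ne.symm hne)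
    rw [h.invol, h.invol, hab] at this
    exact hne (by rw [← h.invol x (op (op x a) (op x b)), this])
  · exact loc x a b hab

/-- Let L be a nondegenerate Fischer space on the point type X (every point on a line). Then for every point x the map t(x) — sending a point collinear with x to the third point of their common line and fixing every other point — is a permutation of X of order 2 and an automorphism of the line system; and the set of all t(x) satisfies the 3-transposition order conditions in the permutation group of X (any two have product of order at most 3). -/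
theorem result {X : Type*} (L : Set (Set X)) (hL : Cfsg.IsFischerSpace L) (hnd : Cfsg.LineSystem.IsNondegenerate L) : (∀ x : X, ∃ σ : Equiv.Perm X, ⇑σ = Cfsg.LineSystem.lineMap L x ∧ orderOf σ = 2 ∧ Cfsg.LineSystem.IsIso L L σ) ∧ Cfsg.IsThreeTranspositionSet {σ : Equiv.Perm X | ∃ x : X, ⇑σ = Cfsg.LineSystem.lineMap L x} := by
  open CA.H19Fis Cfsg.LineSystem CA.Tr3Basic in
  have h := lineMap_isOp hL.1 hL.2.1
  have hd := dist hL
  generalize lineMap L = op at h hd ⊢
  let t : X → Equiv.Perm X := fun x => ⟨op x, op x, h.invol x, h.invol x⟩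
  have ht : ∀ x y, t x y = op x y := fun _ _ => rfl
  have hsq : ∀ x, t x * t x = 1 := fun x => Equiv.ext fun y => h.invol x y
  have hord : ∀ x, orderOf (t x) = 2 := by
    intro x
    refine orderOf_eq_two (hsq x) fun e => ?_
    obtain ⟨l, hl, hx⟩ := hnd x
    obtain ⟨y, hy, -⟩ := h.exists_line hl hx
    exact hy (by rw [← ht, e]; rfl)
  have hconj : ∀ x a, t x * t a * t x = t (op x a) := fun x a => Equiv.ext fun y => by
    simp only [Equiv.Perm.mul_apply, ht]
    rw [hd, h.invol]
  have pres : ∀ x, ∀ l ∈ L, t x '' l ∈ L := by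
    intro x l hl
    obtain ⟨a, b, c, rfl⟩ := h.tri l hl
    rw [Set.image_insert_eq, Set.image_pair, h.mem]
    obtain ⟨h1, rfl⟩ := (h.mem _ _ _).1 hl
    simp only [ht]
    rw [← hd]
    exact ⟨fun e => h1 ((t x).injective e), rfl⟩
  have hmem : ∀ σ : Equiv.Perm X, σ ∈ {σ : Equiv.Perm X | ∃ x : X, ⇑σ = op x} → ∃ x, σ = t x := by
    rintro σ ⟨x, hx⟩
    exact ⟨x, Equiv.ext fun y => congrFun hx y⟩
  refine ⟨fun x => ⟨t x, rfl, hord x, fun l => ⟨pres x l, fun hl => ?_⟩⟩, fun σ hσ => ?_, fun σ hσ τ hτ => ?_⟩
  · have := pres x _ hl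
    rwa [← Set.image_comp, ← Equiv.Perm.coe_mul, hsq, Equiv.Perm.coe_one, Set.image_id] at this
  · obtain ⟨x, rfl⟩ := hmem σ hσ
    exact hord x
  · obtain ⟨x, rfl⟩ := hmem σ hσ
    obtain ⟨y, rfl⟩ := hmem τ hτ
    by_cases hxy : op x y = y
    · left
      have := hconj x y
      rw [hxy] at this
      rw [pow_two, ← mul_assoc, this, hsq]
    · right
      apply cube_of_braid (hsq x) (hsq y)
      rw [hconj, hconj, (h.comm hxy).2]

end Cfsg.Agent.S5366
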