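import Cfsg.Statements.S5367
import Cfsg.Agent.Lib.Spor.H19Fis

set_option autoImplicit false
open Cfsg

namespace Cfsg.Agent.S5367

open CA.H19Fis CA.Tr3Basic CA.H27Words Cfsg.LineSystem

def RH : List Rule := complete 200 [([0,0],[]), ([1,1],[]), ([2,2],[]), ([1,0,1],[0,1,0]), ([2,0,2],[0,2,0]),
  ([2,1,2],[1,2,1]), ([0,2,0,1,0,2,0],[1,0,2,0,1])]
  [([2,0,2,1,2],3,2,true), ([2,1,2,0,2],3,2,true), ([0,2,0,1,0,2,0,0],7,6,false), ([0,2,0,1,0,2,0,2],7,5,false),
   ([1,0,1,0,2,0,1,0],3,2,true), ([1,0,1,0,2,0,1,2],3,2,true), ([1,2,0,1,0,2,1,2],6,5,true),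
   ([0,0,2,0,1,0,2,0],2,1,false), ([2,1,2,0,1,0,2,0],3,2,true), ([2,0,1,2,1,0,2,0,1,2],5,4,true),
   ([1,1,2,1,0,2,1],2,1,true), ([0,0,1,0,2,1,0,2],2,1,false), ([0,1,0,2,1,0,2,2],7,6,false)]

theorem holds_RH {G : Type*} [Group G] {a b c : G} (ha : a * a = 1) (hb : b * b = 1) (hc : c * c = 1)
    (hab : a * b * a = b * a * b) (hac : a * c * a = c * a * c) (hbc : b * c * b = c * b * c)
    (hd : b * (a * c * a) * b = (a * c * a) * b * (a * c * a)) : Holds (fam [a, b, c]) RH := by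
  apply complete_sound
  intro r hr
  have : r = ([0,0],[]) ∨ r = ([1,1],[]) ∨ r = ([2,2],[]) ∨ r = ([1,0,1],[0,1,0]) ∨ r = ([2,0,2],[0,2,0]) ∨
      r = ([2,1,2],[1,2,1]) ∨ r = ([0,2,0,1,0,2,0],[1,0,2,0,1]) := by
    simpa only [List.mem_cons, List.not_mem_nil, or_false] using (show r ∈ [_, _, _, _, _, _, _] from hr)
  rcases this with rfl | rfl | rfl | rfl | rfl | rfl | rfl
  · simpa using ha
  · simpa using hb
  · simpa using hc
  · simpa [mul_assoc] using hab.symm
  · simpa [mul_assoc] using hac.symm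
  · simpa [mul_assoc] using hbc.symm
  · simpa [mul_assoc] using hd.symm

def wd (v : Fin 2 → ZMod 3) : List ℕ :=
  if v 0 = 0 then (if v 1 = 0 then [0] else if v 1 = 1 then [2] else [0,2,0])
  else if v 0 = 1 then (if v 1 = 0 then [1] else if v 1 = 1 then [0,1,2,1,0] else [0,1,0,2,0,1,0])
  else (if v 1 = 0 then [0,1,0] else if v 1 = 1 then [1,0,2,0,1] else [1,2,1])

theorem wd_op : ∀ u v, red RH 200 (wd u ++ wd v ++ wd u) = red RH 200 (wd (opA u v)) := by decide +kernel

theorem genA (P : (Fin 2 → ZMod 3) → Prop) (h0 : P ![0, 0]) (h1 : P ![1, 0]) (h2 : P ![0, 1])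
    (h : ∀ u v, P u → P v → P (opA u v)) (u : Fin 2 → ZMod 3) : P u := by
  have key : ∀ u : Fin 2 → ZMod 3, u = ![0, 0] ∨ u = ![1, 0] ∨ u = ![0, 1] ∨ u = opA ![0, 0] ![1, 0] ∨
      u = opA ![0, 0] ![0, 1] ∨ u = opA ![1, 0] ![0, 1] ∨ u = opA ![0, 0] (opA ![1, 0] ![0, 1]) ∨
      u = opA ![1, 0] (opA ![0, 0] ![0, 1]) ∨ u = opA ![0, 0] (opA ![1, 0] (opA ![0, 0] ![0, 1])) := by
    decide +kernel
  rcases key u with rfl | rfl | rfl | rfl | rfl | rfl | rfl | rfl | rfl <;> solve_by_elim (maxDepth := 8)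

def tr (s : DualAffinePoint) : Equiv.Perm (Fin 4) :=
  if 0 ∈ s.1 then (if 1 ∈ s.1 then Equiv.swap 0 1 else if 2 ∈ s.1 then Equiv.swap 0 2 else Equiv.swap 0 3)
  else if 1 ∈ s.1 then (if 2 ∈ s.1 then Equiv.swap 1 2 else Equiv.swap 1 3) else Equiv.swap 2 3

def p01 : DualAffinePoint := ⟨{0, 1}, by decide⟩
def p12 : DualAffinePoint := ⟨{1, 2}, by decide⟩
def p23 : DualAffinePoint := ⟨{2, 3}, by decide⟩

theorem genD (P : DualAffinePoint → Prop) (h0 : P p01) (h1 : P p12) (h2 : P p23)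
    (h : ∀ u v, P u → P v → P (opD u v)) (u : DualAffinePoint) : P u := by
  have key : ∀ u : DualAffinePoint, u = p01 ∨ u = p12 ∨ u = p23 ∨ u = opD p01 p12 ∨
      u = opD p12 p23 ∨ u = opD p01 (opD p12 p23) := by
    decide +kernel
  rcases key u with rfl | rfl | rfl | rfl | rfl | rfl <;> solve_by_elim (maxDepth := 8)

section
variable {G : Type*} [Group G] {D : Set G}

def cj (hD : IsThreeTranspositionGroup D) (a b : D) : D := ⟨a * b * (a : G)⁻¹, hD.2.1 _ _ b.2⟩

theorem cj_ne (hD : IsThreeTranspositionGroup D) {a b : D} : cj hD a b ≠ b ↔ ¬ Commute (a : G) b := by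
  rw [← conj_eq_iff_commute, Ne, Subtype.ext_iff]; rfl

theorem isOp (hD : IsThreeTranspositionGroup D) : IsOp (threeTranspositionLines D) (cj hD) := by
  have tri : ∀ l ∈ threeTranspositionLines D, ∃ x y : D, ¬ Commute (x : G) y ∧ l = {x, y, cj hD y x} := by
    rintro l ⟨x, y, hxy, rfl⟩
    refine ⟨x, y, hxy, ?_⟩
    ext z
    simp [Subtype.ext_iff, cj]
  have hbr : ∀ x y : D, ¬ Commute (x : G) y → cj hD y x = cj hD x y := fun x y hxy => by
    apply Subtype.ext
    simp only [cj, inv_eq hD.1 x.2, inv_eq hD.1 y.2, braid hD.1 x.2 y.2 hxy]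
  have hinv : ∀ x y : D, cj hD x (cj hD x y) = y := fun x y => by
    apply Subtype.ext
    simp only [cj, inv_eq hD.1 x.2, mul_assoc, sq hD.1 x.2, mul_one, cancel_left (sq hD.1 x.2)]
  refine ⟨fun a b c => ⟨fun hl => ?_, ?_⟩, fun l hl => ?_⟩
  · obtain ⟨x, y, hxy, e⟩ := tri _ hl
    have n1 : x ≠ y := fun h => hxy (h ▸ Commute.refl _)
    have n2 : cj hD y x ≠ x := (cj_ne hD).2 fun h => hxy h.symm
    have n3 : cj hD y x ≠ y := by rw [hbr x y hxy]; exact (cj_ne hD).2 hxy
    have e1 : cj hD x y = cj hD y x := (hbr x y hxy).symm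
    have e2 : cj hD x (cj hD y x) = y := by rw [← e1, hinv]
    have e3 : cj hD y (cj hD y x) = x := hinv _ _
    have e4 : cj hD (cj hD y x) x = y := by
      rw [hbr x (cj hD y x) ((cj_ne hD).1 (by rw [e2]; exact n3.symm)), e2]
    have e5 : cj hD (cj hD y x) y = x := by
      rw [hbr y (cj hD y x) ((cj_ne hD).1 (by rw [e3]; exact n2.symm)), e3]
    have ma : a ∈ ({x, y, cj hD y x} : Set D) := e ▸ by simp
    have mb : b ∈ ({x, y, cj hD y x} : Set D) := e ▸ by simp
    have mc : c ∈ ({x, y, cj hD y x} : Set D) := e ▸ by simp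
    have mx : x ∈ ({a, b, c} : Set D) := e ▸ by simp
    have my : y ∈ ({a, b, c} : Set D) := e ▸ by simp
    have mz : cj hD y x ∈ ({a, b, c} : Set D) := e ▸ by simp
    clear e hl
    generalize hz : cj hD y x = z at n2 n3 e1 e2 e3 e4 e5 ma mc mb mz
    simp only [Set.mem_insert_iff, Set.mem_singleton_iff] at ma mb mc mx my mz
    generalize cj hD = op at *
    grind
  · rintro ⟨h1, rfl⟩
    refine ⟨b, a, fun h => (cj_ne hD).1 h1 h.symm, ?_⟩
    ext z
    simp [Subtype.ext_iff, cj]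
    tauto
  · obtain ⟨x, y, -, e⟩ := tri _ hl
    exact ⟨_, _, _, e⟩

theorem caseD (hD : IsThreeTranspositionGroup D) {a b c : D} (hab : ¬ Commute (a : G) b) (hac : ¬ Commute (a : G) c)
    (hbc : Commute (b : G) c) (hne : b ≠ c) :
    Isomorphic (restrict (threeTranspositionLines D) (span (threeTranspositionLines D)
      ({a, b, cj hD a b} ∪ {a, c, cj hD a c}))) dualAffinePlaneTwo := by
  obtain ⟨φ, hφ, h1, h2, h3⟩ := exists_S4 hD.1 b.2 a.2 c.2 (fun h => hne (Subtype.ext h)) hbc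
    (fun h => hab h.symm) hac
  have k1 : ∀ u v, tr u * tr v * (tr u)⁻¹ = tr (opD u v) := by decide +kernel
  have k2 : ∀ u v, tr u = tr v → u = v := by decide +kernel
  have t1 : tr p01 = Equiv.swap 0 1 := by decide +kernel
  have t2 : tr p12 = Equiv.swap 1 2 := by decide +kernel
  have t3 : tr p23 = Equiv.swap 2 3 := by decide +kernel
  have hm : ∀ u, φ (tr u) ∈ D := genD _ (by rw [t1, h1]; exact b.2) (by rw [t2, h2]; exact a.2)
    (by rw [t3, h3]; exact c.2) fun u v _ hv => by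
      rw [← k1, map_mul, map_mul, map_inv]; exact hD.2.1 _ _ hv
  let f : DualAffinePoint → D := fun u => ⟨_, hm u⟩
  have hop : ∀ u v, cj hD (f u) (f v) = f (opD u v) := fun u v => Subtype.ext (by
    simp only [cj, f]; rw [← k1, map_mul, map_mul, map_inv])
  have f1 : f p01 = b := Subtype.ext (by simp only [f, t1, h1])
  have f2 : f p12 = a := Subtype.ext (by simp only [f, t2, h2])
  have f3 : f p23 = c := Subtype.ext (by simp only [f, t3, h3])
  refine plane_iso (isOp hD) isOp_dual f (fun u v h => k2 _ _ (hφ (congrArg Subtype.val h))) hop _ ?_ ?_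
  · rw [← f1, ← f2, ← f3, hop, hop]
    rintro x ((rfl | rfl | rfl) | (rfl | rfl | rfl)) <;> exact ⟨_, rfl⟩
  · intro P hP h
    exact genD P (hP _ (by rw [f1]; simp)) (hP _ (by rw [f2]; simp)) (hP _ (by rw [f3]; simp)) h

theorem caseA (hD : IsThreeTranspositionGroup D) {a b c : D} (hab : ¬ Commute (a : G) b) (hac : ¬ Commute (a : G) c)
    (hbc : ¬ Commute (b : G) c) (hbd : ¬ Commute (b : G) (cj hD a c)) :
    Isomorphic (restrict (threeTranspositionLines D) (span (threeTranspositionLines D)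
      ({a, b, cj hD a b} ∪ {a, c, cj hD a c}))) affinePlaneThree := by
  have hac' : ((cj hD a c : D) : G) = a * c * a := by simp only [cj, inv_eq hD.1 a.2]
  have hR : Holds (fam [(a : G), b, c]) RH := holds_RH (sq hD.1 a.2) (sq hD.1 b.2) (sq hD.1 c.2)
    (braid hD.1 a.2 b.2 hab) (braid hD.1 a.2 c.2 hac) (braid hD.1 b.2 c.2 hbc)
    (hac' ▸ braid hD.1 b.2 (cj hD a c).2 hbd)
  have k1 : ∀ u v, ev (fam [(a : G), b, c]) (wd u) * ev (fam [(a : G), b, c]) (wd v) * ev (fam [(a : G), b, c]) (wd u) =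
      ev (fam [(a : G), b, c]) (wd (opA u v)) := fun u v => by
    rw [← ev_append, ← ev_append]; exact eq_of_red _ hR _ _ _ (wd_op u v)
  have t1 : ev (fam [(a : G), b, c]) (wd ![0, 0]) = a := by
    rw [show wd ![0, 0] = [0] by decide +kernel]; simp
  have t2 : ev (fam [(a : G), b, c]) (wd ![1, 0]) = b := by
    rw [show wd ![1, 0] = [1] by decide +kernel]; simp
  have t3 : ev (fam [(a : G), b, c]) (wd ![0, 1]) = c := by
    rw [show wd ![0, 1] = [2] by decide +kernel]; simp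
  have hm : ∀ u, ev (fam [(a : G), b, c]) (wd u) ∈ D := genA _ (by rw [t1]; exact a.2) (by rw [t2]; exact b.2)
    (by rw [t3]; exact c.2) fun u v hu hv => by
      rw [← k1]; have := hD.2.1 (ev (fam [(a : G), b, c]) (wd u)) _ hv
      rwa [inv_eq hD.1 hu] at this
  let f : (Fin 2 → ZMod 3) → D := fun u => ⟨_, hm u⟩
  have hop : ∀ u v, cj hD (f u) (f v) = f (opA u v) := fun u v => Subtype.ext (by
    simp only [cj, f]; rw [← k1, inv_eq hD.1 (hm u)])
  have f1 : f ![0, 0] = a := Subtype.ext t1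
  have f2 : f ![1, 0] = b := Subtype.ext t2
  have f3 : f ![0, 1] = c := Subtype.ext t3
  have hnc : ∀ w u v, ¬ Commute (f u : G) (f v) → ¬ Commute (f (opA w u) : G) (f (opA w v)) := by
    intro w u v h
    rw [← hop, ← hop]
    simpa only [cj, commute_conj_iff] using h
  have k2 : ∀ u v : Fin 2 → ZMod 3, u ≠ v → ∃ p ∈ [(![0, 0], ![1, 0]), (![0, 0], ![0, 1]), (![1, 0], ![0, 1]),
      (![1, 0], opA ![0, 0] ![0, 1])], ∃ w, (u = opA w p.1 ∧ v = opA w p.2) ∨
        (u = opA w (opA ![0, 0] p.1) ∧ v = opA w (opA ![0, 0] p.2)) := by decide +kernel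
  have hinj : Function.Injective f := by
    intro u v huv
    by_contra hne
    obtain ⟨p, hp, w, hw⟩ := k2 u v hne
    have h1 : ¬ Commute (f p.1 : G) (f p.2) := by
      simp only [List.mem_cons, List.not_mem_nil, or_false] at hp
      rcases hp with rfl | rfl | rfl | rfl <;> simp only [← hop, f1, f2, f3] <;> assumption
    have h2 : ¬ Commute (f u : G) (f v) := by
      rcases hw with ⟨rfl, rfl⟩ | ⟨rfl, rfl⟩
      exacts [hnc _ _ _ h1, hnc _ _ _ (hnc _ _ _ h1)]
    exact h2 (huv ▸ Commute.refl _)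
  refine plane_iso (isOp hD) isOp_aff f hinj hop _ ?_ ?_
  · rw [← f1, ← f2, ← f3, hop, hop]
    rintro x ((rfl | rfl | rfl) | (rfl | rfl | rfl)) <;> exact ⟨_, rfl⟩
  · intro P hP h
    exact genA P (hP _ (by rw [f1]; simp)) (hP _ (by rw [f2]; simp)) (hP _ (by rw [f3]; simp)) h

end

/-- Let D be a conjugation-invariant generating set of 3-transpositions of a finite group G. Then the line system on D whose lines are the triples {x, y, y x y⁻¹} for non-commuting members x, y of D is a Fischer space: two points lie on at most one line, lines have three points, and two different meeting lines generate a subspace isomorphic to the dual affine plane of order two or to the affine plane of order three. -/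
theorem result {G : Type*} [Group G] [Finite G] {D : Set G} (hD : Cfsg.IsThreeTranspositionGroup D) : Cfsg.IsFischerSpace (Cfsg.threeTranspositionLines D) := by
  have h := isOp hD
  refine ⟨h.partial, fun l hl => h.ncard hl, ?_⟩
  rintro l hl m hm hlm ⟨a, hal, ham⟩
  obtain ⟨b, hb, rfl⟩ := h.exists_line hl hal
  obtain ⟨c, hc, rfl⟩ := h.exists_line hm ham
  have hab := (cj_ne hD).1 hb
  have hac := (cj_ne hD).1 hc
  by_cases hbc : Commute (b : G) c
  · exact Or.inl (caseD hD hab hac hbc (by rintro rfl; exact hlm rfl))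
  by_cases hbd : Commute (b : G) (cj hD a c)
  · have e : ({a, c, cj hD a c} : Set D) = {a, cj hD a c, cj hD a (cj hD a c)} := by
      rw [h.invol]; ext; simp; tauto
    rw [e]
    refine Or.inl (caseD hD hab ((cj_ne hD).1 (by rw [h.invol]; exact hc.symm)) hbd ?_)
    rintro rfl
    exact hlm e.symm
  · exact Or.inr (caseA hD hab hac hbc hbd)

end Cfsg.Agent.S5367
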