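import Cfsg.Statements.S5368
import Cfsg.Agent.Lib.Spor.Fis18

set_option autoImplicit false
open scoped MatrixGroups
open Cfsg

namespace Cfsg.Agent.S5368

open CA CA.Fis CA.Tr3Prim CA.Tr3Block CA.Tr3Rank CA.Tr3Basic

/-- Fischer's Theorem on 3-transposition groups. Let D be a conjugacy class of 3-transpositions generating the finite group G, and suppose the centre of G is trivial and the commutator subgroup of G is simple (possibly of prime order). Then one of the following holds: (1) G is isomorphic to a symmetric group with D going to the transpositions; (2) G is isomorphic to a symplectic group over the field with two elements with D going to the transvections (elements g with g − 1 of rank one); (3) G is isomorphic to a projective special unitary group over the field with four elements with D going to the images of the unitary transvections; (4) G is isomorphic to the full isometry group of a hyperbolic or elliptic quadratic form over the field with two elements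 with D going to the orthogonal transvections; (5) G is isomorphic to the subgroup of the isometry group of a non-degenerate quadratic form over the field with three elements generated by the reflections in vectors of a fixed non-zero norm, taken modulo its centre, with D going to the images of those reflections; (6) G with D is of type M(22), M(23) or M(24). -/
theorem result {G : Type*} [Group G] [Finite G] {D : Set G} (hD : Cfsg.IsThreeTranspositionClass D) (hZ : Subgroup.center G = ⊥) (hsimple : IsSimpleGroup (commutator G)) : (∃ n : ℕ, ∃ e : G ≃* Equiv.Perm (Fin n), e '' D = {σ : Equiv.Perm (Fin n) | σ.IsSwap}) ∨ (∃ m : ℕ, ∃ e : G ≃* Matrix.symplecticGroup (Fin m) (ZMod 2), e '' D = {g : Matrix.symplecticGroup (Fin m) (ZMod 2) | ((g : Matrix (Fin m ⊕ Fin m) (Fin m ⊕ Fin m) (ZMod 2)) - 1).rank = 1}) ∨ (∃ (n : ℕ) (F : Type) (_ : Field F) (_ : Fintype F), Fintype.card F = 4 ∧ ∃ e : G ≃* Cfsg.PSU n F 2, e '' D = (QuotientGroup.mk : ↥(Cfsg.SU n F 2) → Cfsg.PSU n F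 2) '' {g : ↥(Cfsg.SU n F 2) | (((g : Matrix.SpecialLinearGroup (Fin n) F) : Matrix (Fin n) (Fin n) F) - 1).rank = 1}) ∨ ((∃ m : ℕ, ∃ e : G ≃* ↥(Cfsg.isometryGroup (ZMod 2) (Cfsg.quadFormPlus m (ZMod 2))), e '' D = {g : ↥(Cfsg.isometryGroup (ZMod 2) (Cfsg.quadFormPlus m (ZMod 2))) | (((g : GL (Fin m ⊕ Fin m) (ZMod 2)) : Matrix (Fin m ⊕ Fin m) (Fin m ⊕ Fin m) (ZMod 2)) - 1).rank = 1}) ∨ (∃ m : ℕ, ∃ e : G ≃* ↥(Cfsg.isometryGroup (ZMod 2) (Cfsg.quadFormMinus m (ZMod 2) 1 1)), e '' D = {g : ↥(Cfsg.isometryGroup (ZMod 2) (Cfsg.quadFormMinus m (ZMod 2) 1 1)) | (((g : GL ((Fin m ⊕ Fin m) ⊕ Fin 2) (ZMod 2)) : Matrix ((Fin m ⊕ Fin m) ⊕ Fin 2) ((Fin m ⊕ Fin m) ⊕ Fin 2) (ZMod 2)) - 1).rank = 1})) ∨ (∃ n : ℕ, ∃ Q : QuadraticForm (ZMod 3) (Fin n → ZMod 3), (QuadraticMap.polarBilin Q).Nondegenerate ∧ ∃ c : ZMod 3, c ≠ 0 ∧ ∃ e : G ≃* ↥(Cfsg.reflectionSubgroup (⇑Q) c) ⧸ Subgroup.center ↥(Cfsg.reflectionSubgroup (⇑Q) c), e '' D = (QuotientGroup.mk : ↥(Cfsg.reflectionSubgroup (⇑Q) c)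 → _) '' {g : ↥(Cfsg.reflectionSubgroup (⇑Q) c) | (g : ↥(Cfsg.isometryGroup (ZMod 3) (⇑Q))) ∈ Cfsg.reflectionsOfNorm (⇑Q) c}) ∨ (Cfsg.IsOfTypeM22 G D ∨ Cfsg.IsOfTypeM23 G D ∨ Cfsg.IsOfTypeM24 G D) := by
    have g : Gen D := ⟨hD.2.2, hZ⟩
    have fs := fs_of_class hD
    by_cases hw : ∃ a ∈ D, ∃ b ∈ D, a ≠ b ∧ Commute a b
    · have p := pr_of_prim (prim_of_simple hD hsimple hw)
      obtain ⟨F, _, _, hF⟩ := f4_exists
      by_cases hv : VL D
      · rcases p.of_vl hv hF with ⟨n, f, hf, τ, c⟩ | ⟨n, hn, τ, c⟩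
        · obtain ⟨m, -, g', φ, hφ⟩ := sp_bridge hf c (class_nonempty hD)
          exact .inr (.inl ⟨m, g'.equiv hφ g⟩)
        · obtain ⟨g', φ, hφ⟩ := u_bridge hF hn c
          exact .inr (.inr (.inl ⟨n, F, _, _, hF, g'.equiv hφ g⟩))
      rcases p.list_nv (hF := hF) hv with ⟨n, h3, φ, hφ⟩ | ⟨n, f, h6, hf, τ, c⟩ | ⟨n, h6, f, hf, τ, c⟩ | c | c | c
      · exact .inl ⟨n, perm_of_fiso h3 hφ g.top hZ⟩
      · exact .inr (.inr (.inr (.inl ((o2_bridge hf (by simp; omega) c).imp
          (fun ⟨m, a, g', φ, hφ⟩ => ⟨m, g'.equiv hφ g⟩) fun ⟨m, a, g', φ, hφ⟩ => ⟨m, g'.equiv hφ g⟩))))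
      · obtain ⟨a, g', φ, hφ⟩ := o3_bridge (by omega) hf c p.cn.edge
        exact .inr (.inr (.inr (.inr (.inl ⟨n, _, a, 1, one_ne_zero, g'.equiv hφ g⟩))))
      · exact .inr (.inr (.inr (.inr (.inr (.inl (c.type hZ))))))
      · exact .inr (.inr (.inr (.inr (.inr (.inr (.inl (c.type hZ)))))))
      · exact .inr (.inr (.inr (.inr (.inr (.inr (.inr (c.type hZ)))))))
    have w : ∀ a ∈ D, ∀ b ∈ D, Commute a b → a = b := fun a ha b hb c => by_contra fun n => hw ⟨a, ha, b, hb, n, c⟩
    obtain ⟨d, hd⟩ := class_nonempty hD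
    obtain ⟨i, e⟩ := fs.pow_three w hd
    haveI : Fact (Nat.Prime 3) := ⟨Nat.prime_three⟩
    have h3 : IsPGroup 3 (commutator G) := Core.isPGroup_pCore.to_le (commutator_le_of_idx hD
      fun a ha b hb => mul_mem_O3_of_width_one hD.1 (class_conj hD) w ha hb)
    have c3 : Nat.card (commutator G) = 3 := by
      obtain ⟨x, hx, x1⟩ : ∃ x ∈ Subgroup.center (commutator G), x ≠ 1 :=
        (Subgroup.nontrivial_iff_exists_ne_one _).1 h3.center_nontrivial
      have : Subgroup.center (commutator G) = ⊤ :=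
        (Subgroup.Normal.eq_bot_or_eq_top inferInstance).resolve_left fun e => x1 (e.le hx)
      letI : CommGroup (commutator G) := Group.commGroupOfCenterEqTop this
      have pr := IsSimpleGroup.prime_card (α := commutator G)
      obtain ⟨n, hn⟩ := IsPGroup.iff_card.1 h3
      rw [hn] at pr ⊢
      rw [Nat.Prime.eq_one_of_pow pr]; rfl
    have le : D.ncard ≤ 3 := by
      rw [← c3, ← SetLike.coe_sort_coe, Nat.card_coe_set_eq]
      exact Set.ncard_le_ncard_of_injOn (d * ·) (fun x hx => mul_mem_commutator hD d hd x hx)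
        (mul_right_injective d).injOn
    refine .inl ⟨3, s3_of_three fs g.top w ?_⟩
    rcases i with _ | _ | i
    · obtain ⟨x, hx⟩ := Set.ncard_eq_one.1 e
      have : d ∈ Subgroup.center G := mem_center_of_forall g.top fun y hy => by
        rw [hx.le hy, ← hx.le hd]
      rw [hZ, Subgroup.mem_bot] at this
      simpa [this] using hD.1.1 d hd
    · exact e
    · rw [e, pow_succ, pow_succ] at le
      have : 0 < 3 ^ i := by positivity
      omega

end Cfsg.Agent.S5368
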