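import Cfsg.Statements.S5369
import Cfsg.Agent.Lib.Spor.Fis18

set_option autoImplicit false
open scoped MatrixGroups
open Cfsg

namespace Cfsg.Agent.S5369

open CA.Fis CA.Tr3Prim CA.Tr3Block CA.Tr3Rank

/-- Let D be a conjugation-invariant generating set of 3-transpositions of the finite group G on which G acts primitively by conjugation, with trivial centre; let d be a member of D commuting with some other member of D (width at least 2), and let H be the subgroup generated by the members of D other than d commuting with d; suppose the largest normal 3-subgroup and the largest normal 2-subgroup of H are central in H. Then one of the following holds: G is isomorphic to a symmetric group of degree at least 7 with D going to the transpositions; G is isomorphic to the full isometry group of a hyperbolic or elliptic quadratic form in dimension at least 6 over the field with two elements with D going to the orthogonal transvections;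 G is isomorphic to the reflection group of a non-degenerate quadratic form in dimension at least 5 over the field with three elements for one non-zero norm, modulo its centre, with D going to the images of those reflections; or G with D is of type M(22), M(23) or M(24). -/
theorem result {G : Type*} [Group G] [Finite G] {D : Set G} (hD : Cfsg.IsThreeTranspositionGroup D) (hprim : Cfsg.IsPrimitiveUnderConj D) (hZ : Subgroup.center G = ⊥) (d : G) (hd : d ∈ D) (hw : ∃ b ∈ D, b ≠ d ∧ Commute d b) (h3 : Cfsg.pCore 3 ↥(Subgroup.closure {y : G | y ∈ D ∧ y ≠ d ∧ Commute d y}) ≤ Subgroup.center ↥(Subgroup.closure {y : G | y ∈ D ∧ y ≠ d ∧ Commute d y})) (h2 : Cfsg.pCore 2 ↥(Subgroup.closure {y : G | y ∈ D ∧ y ≠ d ∧ Commute d y}) ≤ Subgroup.center ↥(Subgroup.closure {y : G | y ∈ D ∧ y ≠ d ∧ Commute d y})) : (∃ n : ℕ, 7 ≤ n ∧ ∃ e : G ≃* Equiv.Perm (Fin n), e '' D = {σ : Equiv.Perm (Fin n) | σ.IsSwap}) ∨ ((∃ m : ℕ, 3 ≤ m ∧ ∃ e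 : G ≃* ↥(Cfsg.isometryGroup (ZMod 2) (Cfsg.quadFormPlus m (ZMod 2))), e '' D = {g : ↥(Cfsg.isometryGroup (ZMod 2) (Cfsg.quadFormPlus m (ZMod 2))) | (((g : GL (Fin m ⊕ Fin m) (ZMod 2)) : Matrix (Fin m ⊕ Fin m) (Fin m ⊕ Fin m) (ZMod 2)) - 1).rank = 1}) ∨ (∃ m : ℕ, 2 ≤ m ∧ ∃ e : G ≃* ↥(Cfsg.isometryGroup (ZMod 2) (Cfsg.quadFormMinus m (ZMod 2) 1 1)), e '' D = {g : ↥(Cfsg.isometryGroup (ZMod 2) (Cfsg.quadFormMinus m (ZMod 2) 1 1)) | (((g : GL ((Fin m ⊕ Fin m) ⊕ Fin 2) (ZMod 2)) : Matrix ((Fin m ⊕ Fin m) ⊕ Fin 2) ((Fin m ⊕ Fin m) ⊕ Fin 2) (ZMod 2)) - 1).rank = 1})) ∨ (∃ n : ℕ, 5 ≤ n ∧ ∃ Q : QuadraticForm (ZMod 3) (Fin n → ZMod 3), (QuadraticMap.polarBilin Q).Nondegenerate ∧ ∃ c : ZMod 3, c ≠ 0 ∧ ∃ e : G ≃* ↥(Cfsg.reflectionSubgroup (⇑Q) c) ⧸ Subgroup.center ↥(Cfsg.reflectionSubgroup (⇑Q) c), e '' D = (QuotientGroup.mk : ↥(Cfsg.reflectionSubgroup (⇑Q) c) → _) '' {g : ↥(Cfsg.reflectionSubgroup (⇑Q) c) | (g : ↥(Cfsg.isometryGroup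 (ZMod 3) (⇑Q))) ∈ Cfsg.reflectionsOfNorm (⇑Q) c}) ∨ (Cfsg.IsOfTypeM22 G D ∨ Cfsg.IsOfTypeM23 G D ∨ Cfsg.IsOfTypeM24 G D) := by
    obtain ⟨b, hb, n, c⟩ := hw
    have p := pr_of_prim (prim_of hD hprim ⟨d, hd, b, hb, n.symm, c⟩)
    have g : Gen D := ⟨hD.2.2, hZ⟩
    have fs := p.fs.dd d
    have hv : ¬ VL D := p.not_vl hd (p.nb hd) fun v hv x hx r => by
      obtain ⟨v, hv', rfl⟩ := fs.fiso_val.surj hv
      obtain ⟨x, hx', rfl⟩ := fs.fiso_val.surj hx
      obtain ⟨e, he, n⟩ := (p.cn_dd hd).edge _ hx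
      obtain ⟨e, he', rfl⟩ := fs.fiso_val.surj he
      rw [eq_of_rV fs.sub_set fs.sub_group.2.1 h2 hv' hx' he' (mt (fs.fiso_val.commute_iff hx' he').2 n)
        ((rV_fiso fs.fiso_val hv' hx').1 r)]
    have q := p.pr_dd hv hd fun v hv x hx r => by
      obtain ⟨v, hv', rfl⟩ := fs.fiso_val.surj hv
      obtain ⟨x, hx', rfl⟩ := fs.fiso_val.surj hx
      rw [eq_of_rW fs.sub_set fs.sub_group.2.1 h3 hv' hx' (rW_iff.2 ((W.fiso fs.fiso_val hv' hx').1 r).symm)]
    obtain ⟨F, _, _, hF⟩ := f4_exists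
    rcases p.list_nv (hF := hF) hv with ⟨n, h3, φ, hφ⟩ | ⟨n, f, h6, hf, τ, c⟩ | ⟨n, h6, f, hf, τ, c⟩ | c | c | c
    · exact .inl ⟨n, swaps_seven (hφ.symm.mem hd) (q.fiso (fiso_dd hφ.symm p.fs hd)), perm_of_fiso h3 hφ g.top hZ⟩
    · exact .inr (.inl ((o2_bridge hf (by simp; omega) c).imp (fun ⟨m, a, g', φ, hφ⟩ => ⟨m, a, g'.equiv hφ g⟩)
        fun ⟨m, a, g', φ, hφ⟩ => ⟨m, a, g'.equiv hφ g⟩))
    · obtain ⟨a, g', φ, hφ⟩ := o3_bridge (by omega) hf c p.cn.edge
      exact .inr (.inr (.inl ⟨n, by omega, _, a, 1, one_ne_zero, g'.equiv hφ g⟩))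
    · exact .inr (.inr (.inr (.inl (c.type hZ))))
    · exact .inr (.inr (.inr (.inr (.inl (c.type hZ)))))
    · exact .inr (.inr (.inr (.inr (.inr (c.type hZ)))))

end Cfsg.Agent.S5369
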