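import Cfsg.Statements.S5392
import Cfsg.Agent.Lib.Spor.LeechI
import Cfsg.Agent.S1567

set_option autoImplicit false
open Cfsg

namespace Cfsg.Agent.S5392

open CA.Leech

/-- The Leech lattice modulo twice itself is a faithful irreducible module for the first Conway group: an automorphism of the rank-24 lattice built from the length-24 code that moves every lattice vector only by twice a lattice vector lies in the centre of the automorphism group (the centre consists of ±1, which act trivially there, so the kernel is exactly the centre), and an additive subgroup lying between twice the lattice and the lattice that is invariant under all lattice automorphisms is one of the two. -/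
theorem result : (∀ g : ↥Cfsg.Co0, (∀ v : ↥Cfsg.leechLattice, ∃ w : ↥Cfsg.leechLattice, ((g • v : ↥Cfsg.leechLattice) : Cfsg.GolayPt → ℤ) - (v : Cfsg.GolayPt → ℤ) = 2 • (w : Cfsg.GolayPt → ℤ)) → g ∈ Subgroup.center ↥Cfsg.Co0) ∧ ∀ M : AddSubgroup (Cfsg.GolayPt → ℤ), (∀ v ∈ Cfsg.leechLattice, (2 : ℤ) • v ∈ M) → M ≤ Cfsg.leechLattice → (∀ g : ↥Cfsg.Co0, ∀ v : ↥Cfsg.leechLattice, (v : Cfsg.GolayPt → ℤ) ∈ M → ((g • v : ↥Cfsg.leechLattice) : Cfsg.GolayPt → ℤ) ∈ M) → (∀ x ∈ M, ∃ w ∈ Cfsg.leechLattice, x = (2 : ℤ) • w) ∨ M = Cfsg.leechLattice := by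
  refine ⟨fun g h => mem_center.2 (pm_one fun y hy => ?_), fun M h2 hle hinv => ?_⟩
  · by_contra hn
    rw [not_or] at hn
    obtain ⟨w, hw⟩ := h y
    have := (cong (g • y).2 y.2 ((sq_smul g y).trans hy ▸ by norm_num) (hy ▸ by norm_num) ⟨w, w.2, hw⟩
      (fun e => hn.1 (Subtype.ext e.symm)) fun e => hn.2 (Subtype.ext (neg_eq_iff_eq_neg.1 e.symm))).2.1
    omega
  rw [or_iff_not_imp_left]
  intro h
  push Not at h
  obtain ⟨x, hx, h⟩ := h
  obtain ⟨y, hy, hn, z, hz, e⟩ := exists_short (hle hx)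
  have yM : y ∈ M := by
    have := sub_mem hx (h2 z hz)
    rwa [two_zsmul, ← two_nsmul, ← e, sub_sub_cancel] at this
  have y0 : y ≠ 0 := fun e' => h z hz (by rw [two_zsmul, ← two_nsmul, ← e, e', sub_zero])
  have tr : ∀ {v w : LL}, Eqv [v] [w] → (v : V) ∈ M → (w : V) ∈ M := fun e hv => by
    obtain ⟨g, rfl⟩ := eqv1.1 e; exact hinv g _ hv
  have k32 : ∀ v : LL, sqNorm (v : V) = 32 → (v : V) ∈ M → M = leechLattice := fun v hv hM =>
    le_antisymm hle (S1567.result ▸ (AddSubgroup.closure_le _).2 fun w hw => tr (eqv32 hv (w := ⟨w, hw.1⟩) hw.2) hM)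
  have h1 := min_norm hy y0
  obtain ⟨c, hc⟩ := dvd_sq hy
  rcases show sqNorm y = 32 ∨ sqNorm y = 48 ∨ sqNorm y = 64 by omega with a | a | a
  · exact k32 ⟨y, hy⟩ a yM
  · have b : sqNorm ((vV + vU2 : LL) : V) = 48 := by
      rw [AddSubgroup.coe_add, sq_add, sqV, mU2.1, (mem_Cl1.1 mVU2).2]; norm_num
    refine k32 vU2 mU2.1 ?_
    simpa using sub_mem (tr (eqv48 (v := ⟨y, hy⟩) a b) yM) (tr (eqv48 (v := ⟨y, hy⟩) a sqV) yM)
  · obtain ⟨u, u1, u2, u3⟩ : ∃ u : LL, sqNorm (u : V) = 32 ∧ dotInt (vU : V) u = 16 ∧ dotInt (vU2 : V) u = 0 :=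
      ⟨_, mem_Cl2.1 (mem_Cl (ps := [cU, cU2]) (c := 245969287479612877740303385746073949603080856140549457930)
        (by decide +kernel))⟩
    have b : sqNorm ((vU2 + u : LL) : V) = 64 := by rw [AddSubgroup.coe_add, sq_add, u1, mU2.1, u3]; norm_num
    refine k32 (vU - u) (by rw [AddSubgroupClass.coe_sub, sq_sub, sqU, u1, u2]; norm_num) ?_
    simpa [eE, add_comm (vU2 : V)] using
      sub_mem (tr (eqv64 (v := ⟨y, hy⟩) a (sq_e8 none)) yM) (tr (eqv64 (v := ⟨y, hy⟩) a b) yM)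

end Cfsg.Agent.S5392
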