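import Cfsg.Statements.S5548
import Cfsg.Agent.Lib.Spor.M24Mod
import Cfsg.Agent.Lib.Spor.CGLin2

set_option autoImplicit false
open Cfsg

namespace Cfsg.Agent.S5548

open Cfsg CA.NatBits CA.OrbBfs CA.CGroup CA.CGConstr CA.CGParts CA.CGCert CA.CGRank CA.CGDec CA.Perm24 CA.Golay
open CA.M24Core CA.M24Sub CA.M24Tools MulAction
open scoped Pointwise
open CA.M24St2 CA.M24Syl CA.M24Cls CA.CGIso CA.CGLin CA.CGLin2 CA.M24Iso CA.M24Mod
open scoped symmDiff
set_option maxRecDepth 100000

theorem supp_single (p : GolayPt) : support₂ (Pi.single p 1 : GolayPt → ZMod 2) = {p} := by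
  ext q
  rw [mem_support, Finset.mem_singleton, Pi.single_apply]
  split_ifs with h <;> simp [h]

/-- For the automorphism group of the length-24 binary Golay code of the definitions (the Mathieu group of degree 24) acting on binary words of length 24 by permuting coordinates, the only invariant subspaces of the space of all words are: zero, the span of the all-ones word, the code itself, the even-weight words, and the whole space. (So the permutation module has a unique composition series.) -/
theorem result (W : Submodule (ZMod 2) (Cfsg.GolayPt → ZMod 2)) (hW : ∀ σ ∈ Cfsg.M24, ∀ w ∈ W, (fun p => w (σ.symm p)) ∈ W) : W = ⊥ ∨ W = Submodule.span (ZMod 2) {fun _ => (1 : ZMod 2)} ∨ W = Cfsg.golayCode ∨ (W : Set (Cfsg.GolayPt → ZMod 2)) = {w | ∑ p, w p = 0} ∨ W = ⊤ := by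
  have hF := fam_of hW
  by_cases hC : W ≤ golayCode
  · by_cases h : ∃ w ∈ W, w ≠ 0 ∧ w ≠ fun _ => 1
    · obtain ⟨w, hw, h0, h1⟩ := h
      refine Or.inr (Or.inr (Or.inl (le_antisymm hC fun v hv => mem_of_supp (hF.of_word (support_mem_Cw.2 (hC hw))
        (fun e => h0 (support_inj (e.trans supp_zero.symm))) (fun e => h1 (support_inj (e.trans supp_one.symm)))
        ⟨w, hw, rfl⟩ (support_mem_Cw.2 hv)))))
    · push Not at h
      by_cases h1 : (fun _ => 1) ∈ W
      · refine Or.inr (Or.inl (le_antisymm (fun w hw => ?_) ((Submodule.span_singleton_le_iff_mem _ _).2 h1)))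
        by_cases h0 : w = 0
        · exact h0 ▸ Submodule.zero_mem _
        · exact h w hw h0 ▸ Submodule.mem_span_singleton_self _
      · exact Or.inl ((Submodule.eq_bot_iff _).2 fun w hw => by_contra fun h0 => h1 (h w hw h0 ▸ hw))
  · obtain ⟨w, hw, hw'⟩ := SetLike.not_le_iff_exists.1 hC
    have h1 : ∀ p q : GolayPt, Pi.single p 1 + Pi.single q 1 ∈ W := fun p q => mem_of_supp (by
      rw [support_add, supp_single, supp_single]
      exact hF.duad (fun e => hw' (support_mem_Cw.1 e)) ⟨w, hw, rfl⟩ p q)
    have h2 : ∀ v : GolayPt → ZMod 2, ∑ p, v p = 0 → v ∈ W := fun v hv => by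
      have h3 := W.sum_mem (t := Finset.univ) fun p _ => W.smul_mem (v p) (h1 p none)
      simp only [smul_add] at h3
      rw [Finset.sum_add_distrib, ← Finset.sum_smul, hv, zero_smul, add_zero] at h3
      simp only [← Pi.single_smul, smul_eq_mul, mul_one, Finset.univ_sum_single] at h3
      exact h3
    by_cases h : ∃ u ∈ W, ∑ p, u p ≠ 0
    · obtain ⟨u, hu, h⟩ := h
      refine Or.inr (Or.inr (Or.inr (Or.inr (eq_top_iff.2 fun v _ => ?_))))
      rcases zmod2_cases (∑ p, v p) with h3 | h3
      · exact h2 v h3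
      · rw [← sub_add_cancel v u]
        refine W.add_mem (h2 _ ?_) hu
        simp only [Pi.sub_apply, Finset.sum_sub_distrib, h3, (zmod2_cases _).resolve_left h, sub_self]
    · push Not at h
      exact Or.inr (Or.inr (Or.inr (Or.inl (Set.ext fun v => ⟨h v, h2 v⟩))))

end Cfsg.Agent.S5548
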