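import Cfsg.Statements.S5393
import Cfsg.Agent.Lib.Spor.M24Mod
import Cfsg.Agent.Lib.Spor.CGLin2
import Cfsg.Agent.S5548

set_option autoImplicit false
open Cfsg

namespace Cfsg.Agent.S5393

open Cfsg CA.NatBits CA.OrbBfs CA.CGroup CA.CGConstr CA.CGParts CA.CGCert CA.CGRank CA.CGDec CA.Perm24 CA.Golay
open CA.M24Core CA.M24Sub CA.M24Tools MulAction
open scoped Pointwise
open CA.M24St2 CA.M24Syl CA.M24Cls CA.CGIso CA.CGLin CA.CGLin2 CA.M24Iso CA.M24Mod
open scoped symmDiff
set_option maxRecDepth 100000

/-- The length-24 code built from the squares modulo 23 contains the all-ones word, and the code modulo the all-ones word is an irreducible module over the field with two elements for the code's automorphism group: a subspace of the code that contains the all-ones word and is invariant under every coordinate permutation preserving the code is either the span of the all-ones word or the whole code. -/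
theorem result : (fun _ : Cfsg.GolayPt => (1 : ZMod 2)) ∈ Cfsg.golayCode ∧ ∀ W : Submodule (ZMod 2) (Cfsg.GolayPt → ZMod 2), (fun _ => (1 : ZMod 2)) ∈ W → W ≤ Cfsg.golayCode → (∀ σ ∈ Cfsg.M24, ∀ w ∈ W, (fun p => w (σ.symm p)) ∈ W) → W = Submodule.span (ZMod 2) {fun _ => (1 : ZMod 2)} ∨ W = Cfsg.golayCode := by
  refine ⟨(show wd full = fun _ => 1 from wd_full) ▸ (wd_mem_iff (by decide)).2 (by decide +kernel), fun W h1 h2 h3 => ?_⟩
  have h4 : wd 3 ∉ golayCode := by rw [wd_mem_iff (by decide)]; decide +kernel
  rcases Cfsg.Agent.S5548.result W h3 with h | h | h | h | h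
  · rw [h, Submodule.mem_bot] at h1
    exact absurd (congrFun h1 none) (by decide)
  · exact Or.inl h
  · exact Or.inr h
  · exact absurd (h2 (show wd 3 ∈ (W : Set (GolayPt → ZMod 2)) by rw [h]; show ∑ p, wd 3 p = 0; decide +kernel)) h4
  · exact absurd (h2 (h ▸ Submodule.mem_top)) h4

end Cfsg.Agent.S5393
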