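import Cfsg.Statements.S5394
import Cfsg.Agent.Lib.Spor.M24Cls

set_option autoImplicit false
open Cfsg

namespace Cfsg.Agent.S5394

open Cfsg CA.NatBits CA.OrbBfs CA.CGroup CA.CGConstr CA.CGParts CA.CGCert CA.CGRank CA.CGDec CA.Perm24 CA.Golay
open CA.M24Core CA.M24Sub CA.M24Tools MulAction
open scoped Pointwise
open CA.M24St2 CA.CGFus CA.M24Syl CA.M24Cls

/-- The automorphism group of the length-24 code built from the squares modulo 23 has exactly two conjugacy classes of involutions: an involution either fixes exactly the eight points of an octad or has no fixed points, both kinds occur, and any two involutions of the same kind are conjugate in the group. -/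
theorem result : (∀ g ∈ Cfsg.M24, orderOf g = 2 → (Finset.univ.filter fun p => g p = p) ∈ Cfsg.octads ∨ ∀ p, g p ≠ p) ∧ (∃ g ∈ Cfsg.M24, orderOf g = 2 ∧ (Finset.univ.filter fun p => g p = p) ∈ Cfsg.octads) ∧ (∃ g ∈ Cfsg.M24, orderOf g = 2 ∧ ∀ p, g p ≠ p) ∧ ∀ g ∈ Cfsg.M24, ∀ h ∈ Cfsg.M24, orderOf g = 2 → orderOf h = 2 → ((∀ p, g p ≠ p) ↔ (∀ p, h p ≠ p)) → ∃ k ∈ Cfsg.M24, k * g * k⁻¹ = h := by
  refine ⟨fun g hg h => ?_, ⟨_, (elt c2A).2, by rw [Subgroup.orderOf_coe, ord2A], ?_⟩,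
    ⟨_, (elt c2B).2, by rw [Subgroup.orderOf_coe, ord2B], card_fx_zero.1 card_fx2B⟩, fun g hg h hh o1 o2 e => ?_⟩
  · rcases conj2 (g := ⟨g, hg⟩) (by rw [Subgroup.orderOf_mk, h]) with ⟨k, e⟩ | ⟨k, e⟩
    · left
      show fx ⟨g, hg⟩ ∈ octads
      rw [← e, fx_conj, fx2A, smul_mem_octads]; exact O0_mem
    · exact Or.inr ((card_fx_zero (g := ⟨g, hg⟩)).1 (by rw [← e, card_fx_conj, card_fx2B]))
  · show fx (elt c2A) ∈ octads
    rw [fx2A]; exact O0_mem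
  have o1' : orderOf (⟨g, hg⟩ : M24) = 2 := by rw [Subgroup.orderOf_mk, o1]
  have o2' : orderOf (⟨h, hh⟩ : M24) = 2 := by rw [Subgroup.orderOf_mk, o2]
  have e' : (fx ⟨g, hg⟩).card = 0 ↔ (fx ⟨h, hh⟩).card = 0 := by rw [card_fx_zero, card_fx_zero]; exact e
  have key : ∀ r k k' : M24, k * r * k⁻¹ = ⟨g, hg⟩ → k' * r * k'⁻¹ = ⟨h, hh⟩ → ∃ k ∈ M24, k * g * k⁻¹ = h := by
    intro r k k' e1 e2
    refine ⟨(k' * k⁻¹ : M24), (k' * k⁻¹).2, ?_⟩
    have : (k' * k⁻¹) * ⟨g, hg⟩ * (k' * k⁻¹)⁻¹ = ⟨h, hh⟩ := by rw [← e1, ← e2]; group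
    exact congrArg Subtype.val this
  by_cases h0 : (fx ⟨g, hg⟩).card = 0
  · obtain ⟨k, e1⟩ := conj2B o1' h0
    obtain ⟨k', e2⟩ := conj2B o2' (e'.1 h0)
    exact key _ _ _ e1 e2
  · obtain ⟨k, e1⟩ := conj2A o1' h0
    obtain ⟨k', e2⟩ := conj2A o2' (fun h => h0 (e'.2 h))
    exact key _ _ _ e1 e2

end Cfsg.Agent.S5394
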