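import Cfsg.Statements.S5396
import Cfsg.Agent.Lib.Grp.H7Ext2

set_option autoImplicit false
open Cfsg

namespace Cfsg.Agent.S5396

open CA.H7Ext CA.CForm

/-- cocycle of the plus form -/
def bp (n : ℕ) : (Fin n ⊕ Fin n → ZMod 2) →+ (Fin n ⊕ Fin n → ZMod 2) →+ ZMod 2 :=
  AddMonoidHom.mk' (fun u => AddMonoidHom.mk' (fun v => ∑ i, u (.inl i) * v (.inr i)) fun v w => by
    simp [mul_add, Finset.sum_add_distrib]) fun u w => by
    ext v; simp [add_mul, Finset.sum_add_distrib]

/-- cocycle of the minus form -/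
def bm (n : ℕ) : ((Fin n ⊕ Fin n) ⊕ Fin 2 → ZMod 2) →+ ((Fin n ⊕ Fin n) ⊕ Fin 2 → ZMod 2) →+ ZMod 2 :=
  AddMonoidHom.mk' (fun u => AddMonoidHom.mk' (fun v => ∑ i, u (.inl (.inl i)) * v (.inl (.inr i)) +
      (u (.inr 0) * v (.inr 0) + u (.inr 0) * v (.inr 1) + u (.inr 1) * v (.inr 1))) fun v w => by
    simp only [Pi.add_apply, mul_add, Finset.sum_add_distrib]; ring) fun u w => by
    refine AddMonoidHom.ext fun v => ?_
    simp only [Pi.add_apply, add_mul, Finset.sum_add_distrib, AddMonoidHom.mk'_apply,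
      AddMonoidHom.add_apply]
    ring

/-- For every n ≥ 1 there exist finite extraspecial 2-groups of order 2^(2n+1) whose 2-rank (the largest rank of an elementary abelian subgroup) is n, and ones whose 2-rank is n + 1 (so for each such order there are two non-isomorphic extraspecial 2-groups, told apart by their 2-rank). -/
theorem result (n : ℕ) (hn : 1 ≤ n) : ∀ r ∈ ({n, n + 1} : Set ℕ), ∃ (E : Type) (_ : Group E) (_ : Finite E), Cfsg.IsExtraspecial 2 E ∧ Nat.card E = 2 ^ (2 * n + 1) ∧ sSup {k : ℕ | ∃ A : Subgroup E, Cfsg.IsElementaryAbelian 2 A ∧ Nat.card A = 2 ^ k} = r := by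
  obtain ⟨n, rfl⟩ : ∃ k, n = k + 1 := ⟨n - 1, by omega⟩
  have ha : Aniso (1 : ZMod 2) 1 := by unfold Aniso; decide
  rintro r (rfl | rfl)
  · obtain ⟨h1, h2, h3⟩ := exists_model (bm n) (minusForm n 1 1) (fun v => by
      rw [minusForm_Q]; simp [quadFormMinus, bm, pow_two]) (minusForm_nondeg n ha)
      (minusForm_isIndex n ha)
    exact ⟨_, _, inferInstance, h1, by rw [h2, finrank_minus]; rfl, h3⟩
  · obtain ⟨h1, h2, h3⟩ := exists_model (bp (n + 1)) (plusForm _ _) (fun v => rfl)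
      (plusForm_nondeg _ _) (plusForm_isIndex _ _)
    exact ⟨_, _, inferInstance, h1, by rw [h2, finrank_plus], h3⟩

end Cfsg.Agent.S5396
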