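import Cfsg.Statements.S5408
import Cfsg.Agent.Lib.Spor.MonT

set_option autoImplicit false
open Cfsg

namespace Cfsg.Agent.S5408

open CA.MonT CA.Leech CA.BG

/-- Let G be a finite group of Monster type at the involution z with Q the extraspecial normal subgroup of order 2^25 of C = C_G(z) (so C/Q is identified with the first Conway group with Q modulo its centre the Leech lattice modulo 2, and z is not weakly closed in Q). Then Q is of plus type: it contains an elementary abelian subgroup of order 2^13. -/
theorem result {G : Type*} [Group G] [Finite G] (z : G) (Q : Subgroup (Subgroup.centralizer ({z} : Set G))) [Q.Normal] (hM : Cfsg.IsOfMonsterType z Q) : ∃ E : Subgroup Q, Cfsg.IsElementaryAbelian 2 E ∧ Nat.card E = 2 ^ 13 := by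
  obtain ⟨κ, R, h⟩ := exists_MT hM
  obtain ⟨g, hs, hn⟩ := h.fused
  obtain ⟨κ, R, h, r⟩ := h.exists_e8 hs hn
  have p := h.pair hs hn
  let f := (Subgroup.centralizer ({z} : Set G)).subtype.comp Q.subtype
  have hf : Function.Injective f := Subtype.val_injective.comp Subtype.val_injective
  have sq : ∀ a ∈ (cj g (Q.map (Subgroup.subtype _))).comap f, a * a = 1 := fun a ha =>
    hf (by rw [map_mul, map_one]; exact p.E_sq ⟨Subgroup.mem_map_of_mem _ a.2, ha⟩)
  refine ⟨(cj g (Q.map (Subgroup.subtype _))).comap f, ⟨⟨⟨fun a b => Subtype.ext ?_⟩⟩, fun a ha => (pow_two a).trans (sq a ha)⟩, ?_⟩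
  · have := sq _ (mul_mem a.2 b.2)
    rwa [mul_eq_one_iff_eq_inv, mul_inv_rev, CA.H7Lge.inv_eq (sq _ a.2), CA.H7Lge.inv_eq (sq _ b.2)] at this
  · rw [← Subgroup.card_map_of_injective hf, Subgroup.map_comap_eq, MonoidHom.range_comp, Subgroup.range_subtype]
    exact (h.hat_eq hs hn r).2.2

end Cfsg.Agent.S5408
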