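import Cfsg.Statements.S5410
import Cfsg.Agent.Lib.Spor.MonT

set_option autoImplicit false
open Cfsg

namespace Cfsg.Agent.S5410

open CA.MonT CA.Leech CA.BG

/-- Let G be a finite group of Monster type at the involution z with Q the extraspecial normal subgroup of order 2^25 of C = C_G(z) (so C/Q is identified with the first Conway group with Q modulo its centre the Leech lattice modulo 2, and z is not weakly closed in Q). Let g in G with s = g z g⁻¹ a member of Q other than z, let X be the image in C/Q of the centralizer of s in C, and let E be the image in C/Q of the intersection of g Q g⁻¹ with C. Then E is a normal subgroup of X, elementary abelian of order 2^11, and it has a complement in X isomorphic to the Mathieu group of degree 24 (the automorphism group of the length-24 binary Golay code). -/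
theorem result {G : Type*} [Group G] [Finite G] (z : G) (Q : Subgroup (Subgroup.centralizer ({z} : Set G))) [Q.Normal] (hM : Cfsg.IsOfMonsterType z Q) (s : G) (hsQ : ∃ hsc : s ∈ Subgroup.centralizer ({z} : Set G), (⟨s, hsc⟩ : Subgroup.centralizer ({z} : Set G)) ∈ Q) (hs : IsConj z s) (hs1 : s ≠ z) (g : G) (hg : g * z * g⁻¹ = s) (X E : Subgroup ((Subgroup.centralizer ({z} : Set G)) ⧸ Q)) (hX : X = ((Subgroup.centralizer ({z} : Set G) ⊓ Subgroup.centralizer ({s} : Set G)).subgroupOf (Subgroup.centralizer ({z} : Set G))).map (QuotientGroup.mk' Q)) (hE : E = (((Q.map (Subgroup.centralizer ({z} : Set G)).subtype).map (MulAut.conj g).toMonoidHom ⊓ Subgroup.centralizer ({z} : Set G)).subgroupOf (Subgroup.centralizer ({z} : Set G))).map (QuotientGroup.mk' Q)) : E ≤ X ∧ (∀ x ∈ X, ∀ y ∈ E, x * y * x⁻¹ ∈ E) ∧ Cfsg.IsElementaryAbelian 2 E ∧ Nat.card E = 2 ^ 11 ∧ ∃ K : Subgroup ((Subgroup.centralizer ({z} : Set G)) ⧸ Q), K ≤ X ∧ E ⊓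 K = ⊥ ∧ E ⊔ K = X ∧ Nonempty (K ≃* Cfsg.M24) := by
  obtain ⟨κ, R, h⟩ := exists_MT hM
  subst hg hX hE
  have hs := mem_map_iff.2 hsQ
  obtain ⟨κ, R, h, r⟩ := h.exists_e8 hs hs1
  have p := h.pair hs hs1
  obtain ⟨a, b, -⟩ := h.hat_eq hs hs1 r
  have c : ∀ k, κ k ∈ im Q _ ↔ k ∈ NN := fun k => (h.mem_hat r p.not_mem p.r.sq).trans cg_e8
  have d : ∀ k, κ k ∈ im Q _ ↔ k ∈ DD := fun k => SetLike.ext_iff.1 a k
  have l := Subgroup.map_mono (f := QuotientGroup.mk' Q) (Subgroup.comap_mono (f := Subgroup.subtype _) (h.B_le hs hs1))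
  have sq : ∀ u ∈ im Q (cj g (Q.map (Subgroup.subtype _)) ⊓ Subgroup.centralizer {z}), u * u = 1 := fun u hu => by
    obtain ⟨a, ha, rfl⟩ := mem_im.1 hu
    exact (QuotientGroup.eq_one_iff (a * a)).2 (h.memQ.2 (Subgroup.zpowers_le.2 hs (p.r.pow a ha.1)))
  have i : ∀ σ, pm σ ∈ DD → σ = 1 := fun σ k => by obtain ⟨_, e⟩ := mem_DD.1 k; rwa [phi_pm] at e
  refine ⟨l, im_norm (h.B_norm hs hs1), ⟨⟨⟨fun a b => Subtype.ext ?_⟩⟩, fun a ha => (pow_two a).trans (sq a ha)⟩, b,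
    (κ.comp pm).range, ?_, eq_bot_iff.2 ?_, le_antisymm (sup_le l ?_) fun x hx => ?_,
    ⟨(MonoidHom.ofInjective ((injective_iff_map_eq_one _).2 fun σ e => i σ ((d _).1 ?_))).symm⟩⟩
  · have := sq _ (mul_mem a.2 b.2)
    rwa [mul_eq_one_iff_eq_inv, mul_inv_rev, CA.H7Lge.inv_eq (sq _ a.2), CA.H7Lge.inv_eq (sq _ b.2)] at this
  · rintro _ ⟨σ, rfl⟩; exact (c _).2 (pm_mem σ)
  · rintro _ ⟨k, σ, rfl⟩
    rw [i σ ((d _).1 k), map_one]; exact one_mem _
  · rintro _ ⟨σ, rfl⟩; exact (c _).2 (pm_mem σ)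
  · obtain ⟨k, rfl⟩ := h.surj x
    have hk := (c k).1 hx
    rw [← inv_mul_cancel_right k (pm (phi ⟨k, hk⟩)), map_mul]
    refine Subgroup.mul_mem_sup ((d _).2 (mem_DD.2 ⟨mul_mem hk (inv_mem (pm_mem _)), ?_⟩)) ⟨_, rfl⟩
    have := phi.map_mul ⟨k, hk⟩ (⟨_, pm_mem (phi ⟨k, hk⟩)⟩ : NN)⁻¹
    rwa [map_inv, phi_pm, mul_inv_cancel] at this
  · exact (show κ (pm σ) = 1 from e) ▸ one_mem _

end Cfsg.Agent.S5410
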