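import Cfsg.Statements.S5420
import Cfsg.Agent.Lib.Grp.H7Lge

set_option autoImplicit false
open Cfsg

namespace Cfsg.Agent.S5420

open Subgroup CA.BG CA.BG4 CA.H7Lge
open scoped commutatorElement

/-- Let Q be an extraspecial 2-subgroup of the finite group G whose centralizer in G is its centre Z and which is normal in the centralizer of Z. If Z lies in the largest normal 2-subgroup of G, then Q is a large extraspecial 2-subgroup of G: it normalizes no non-trivial subgroup of G of odd order. -/
theorem result {G : Type*} [Group G] [Finite G] (Q : Subgroup G) (hL1 : Cfsg.IsExtraspecial 2 ↥Q) (hL2 : Subgroup.centralizer (Q : Set G) = ((Subgroup.center ↥Q).map Q.subtype)) (hL3 : Subgroup.centralizer (((Subgroup.center ↥Q).map Q.subtype) : Set G) ≤ Subgroup.normalizer (Q : Set G)) (hZ : ((Subgroup.center ↥Q).map Q.subtype) ≤ Cfsg.pCore 2 G) : Cfsg.IsLargeExtraspecial Q := by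
  obtain ⟨z, h, hz⟩ := EX.of hL1
  have h' := h.lx' hL2 hL3
  refine h.large h'.norm h'.cent_le fun K hK hn => h'.cent_of_odd hK hn fun k hk => mem_cent1.2 ?_
  rw [hz, zpowers_le] at hZ
  rw [← commutatorElement_eq_one_iff_mul_comm, ← mem_bot (G := G), ← disjoint_iff.1
    (disjoint_of_coprime_natCard (H := K) (K := pCore 2 G) ?_)]
  · exact ⟨comm_mem_of_norm' hk (hn h.mem), comm_mem_of_norm (le_normalizer_of_normal (mem_top k)) hZ⟩
  · obtain ⟨k, hk⟩ := (IsPGroup.iff_card (p := 2)).1 (CA.Core.isPGroup_pCore (p := 2) (G := G))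
    rw [hk]; exact (Nat.coprime_two_right.2 hK).pow_right k

end Cfsg.Agent.S5420
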