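import Cfsg.Statements.S5422
import Cfsg.Agent.Lib.Grp.H7Lge2

set_option autoImplicit false
open Cfsg

namespace Cfsg.Agent.S5422

open Subgroup CA.BG CA.BG4 CA.H7Lge
open scoped commutatorElement

/-- Let Q be an extraspecial 2-subgroup of the finite group G whose centralizer in G is its centre Z and which is normal in the centralizer of Z; suppose Q has width at least 2 (order 2^(2w+1) with w ≥ 2) and g is an element of G not normalizing Z with g Z g⁻¹ inside Q. Then Z lies inside g Q g⁻¹; writing V for the subgroup generated by Z and g Z g⁻¹ (a four-group), the normalizer of V induces on V its full automorphism group, that is, the centralizer of V has index 6 in the normalizer of V; and Q is a large extraspecial 2-subgroup of G. -/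
theorem result {G : Type*} [Group G] [Finite G] (Q : Subgroup G) (hL1 : Cfsg.IsExtraspecial 2 ↥Q) (hL2 : Subgroup.centralizer (Q : Set G) = ((Subgroup.center ↥Q).map Q.subtype)) (hL3 : Subgroup.centralizer (((Subgroup.center ↥Q).map Q.subtype) : Set G) ≤ Subgroup.normalizer (Q : Set G)) (w : ℕ) (hw : 2 ≤ w) (hcard : Nat.card ↥Q = 2 ^ (2 * w + 1)) (g : G) (hg : g ∉ Subgroup.normalizer (((Subgroup.center ↥Q).map Q.subtype) : Set G)) (hZg : (((Subgroup.center ↥Q).map Q.subtype)).map (MulAut.conj g).toMonoidHom ≤ Q) : ((Subgroup.center ↥Q).map Q.subtype) ≤ (Q).map (MulAut.conj g).toMonoidHom ∧ (Subgroup.centralizer ((((Subgroup.center ↥Q).map Q.subtype) ⊔ (((Subgroup.center ↥Q).map Q.subtype)).map (MulAut.conj g).toMonoidHom : Subgroup G) : Set G)).relIndex (Subgroup.normalizer ((((Subgroup.center ↥Q).map Q.subtype) ⊔ (((Subgroup.center ↥Q).map Q.subtype)).map (MulAut.conj g).toMonoidHom : Subgroup G) : Set G)) = 6 ∧ Cfsg.IsLargeExtraspecial Q := by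
    obtain ⟨z, h, hz⟩ := EX.of hL1
    have h' := h.lx' hL2 hL3
    rw [hz] at hg hZg ⊢
    have e : (zpowers z).map (MulAut.conj g).toMonoidHom = zpowers (g * z * g⁻¹) := cj_zpowers _ _
    rw [e] at hZg ⊢
    have hn : g * z * g⁻¹ ≠ z := fun e =>
      hg (cent_le_norm _ (cent_zpowers z ▸ mem_cent1.2 (mul_inv_eq_iff_eq_mul.1 e)))
    obtain ⟨h1, h2⟩ := h.large_of_fused h'.norm h'.cent_le (eight_lt hw hcard) (zpowers_le.1 hZg) hn
    exact ⟨zpowers_le.2 h1, (h'.pair (zpowers_le.1 hZg) hn h1).relIndex_eq, h2⟩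

end Cfsg.Agent.S5422
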