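import Cfsg.Statements.S5423
import Cfsg.Agent.Lib.Lin.H13Hol

set_option autoImplicit false
open Cfsg

namespace Cfsg.Agent.S5423

open Subgroup CA.BG CA.H7Lge CA.H13Hol Module Matrix
open scoped commutatorElement

theorem crd {U : Type*} [Group U] [Finite U] {n : ℕ} (hc : ∀ a b : U, a * b = b * a)
    (he : ∀ a : U, a ^ 2 = 1) (hU : Nat.card U = 2 ^ (n + 1)) {z : U} (hz : z ≠ 1) :
    ∃ ε : U ≃ ZMod 2 × (Fin n → ZMod 2), (∀ a b, ε (a * b) = ε a + ε b) ∧ ε z = (1, 0) := by
  have := Fact.mk Nat.prime_two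
  have h1 : ∀ x y : U, ⁅x, y⁆ = 1 := fun x y => commutatorElement_eq_one_iff_mul_comm.2 (hc x y)
  obtain ⟨k, c, h2⟩ := CA.H7Ext.exists_cov (orderOf_eq_prime (he z) hz)
    (mem_center_iff.2 fun g => hc g z) (fun x y => h1 x y ▸ one_mem _) fun x => he x ▸ one_mem _
  obtain ⟨l, l1, -, l2⟩ := CA.H7Ext.exists_hom (p := 2) (⊥ : Subgroup U) h1 he hz
  have h3 := c.card_eq'
  rw [hU, Module.finrank_fin_fun] at h3
  obtain rfl : n = k := by simpa using h3
  have h4 : ∀ x, l x = 0 → c.π x = 0 → x = 1 := fun x a b => by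
    obtain ⟨r, rfl⟩ := (c.ker x).1 b
    rcases z2 r with rfl | rfl
    · exact c.ζ_zero
    · rw [h2, l2] at a
      exact absurd a one_ne_zero
  refine ⟨Equiv.ofBijective (fun x => (l x, c.π x)) ((Nat.bijective_iff_injective_and_card _).2
    ⟨fun x y e => ?_, by simp [hU, pow_succ']⟩), fun a b => Prod.ext (l1 a b) (c.π_mul a b),
    Prod.ext l2 (h2 ▸ c.π_ζ 1)⟩
  obtain ⟨e1, e2⟩ := Prod.mk.inj e
  have h5 := h4 (x * y) (by rw [l1, e1, aa]) (by rw [c.π_mul, e2, aa])
  exact mul_right_cancel (h5.trans ((he y).symm.trans (sq y)))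

/-- Let G be a finite group that is the split extension of an elementary abelian normal subgroup U of order 2^(n+1), n ≥ 1, by its full automorphism group: U has a complement M in G whose conjugation action on U is faithful and realizes every automorphism of U. Let Z be a subgroup of U of order 2 and Q the largest normal 2-subgroup of the centralizer C of Z. Then Q is extraspecial of order 2^(2n+1) with an elementary abelian subgroup of order 2^(n+1) (plus type), Q is a large extraspecial 2-subgroup of G, and C is the split extension of Q by the general linear group of degree n over the field with two elements. -/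
theorem result {G : Type*} [Group G] [Finite G] (n : ℕ) (hn : 1 ≤ n) (U M : Subgroup G) [U.Normal] (hU : Cfsg.IsElementaryAbelian 2 U) (hUcard : Nat.card ↥U = 2 ^ (n + 1)) (hUM : U ⊓ M = ⊥) (hUM' : U ⊔ M = ⊤) (hfaith : ∀ m ∈ M, (∀ u ∈ U, m * u * m⁻¹ = u) → m = 1) (hfull : ∀ φ : ↥U ≃* ↥U, ∃ m ∈ M, ∀ u : ↥U, ((φ u : ↥U) : G) = m * u * m⁻¹) (Z : Subgroup G) (hZU : Z ≤ U) (hZ : Nat.card ↥Z = 2) (Q : Subgroup G) (hQ : Q = (Cfsg.pCore 2 ↥(Subgroup.centralizer (Z : Set G))).map (Subgroup.centralizer (Z : Set G)).subtype) : Cfsg.IsExtraspecial 2 ↥Q ∧ Nat.card ↥Q = 2 ^ (2 * n + 1) ∧ (∃ E : Subgroup G, E ≤ Q ∧ Cfsg.IsElementaryAbelian 2 E ∧ Nat.card ↥E = 2 ^ (n + 1)) ∧ Cfsg.IsLargeExtraspecial Q ∧ ∃ K : Subgroup G, K ≤ Subgroup.centralizer (Z : Set G) ∧ Q ⊓ K = ⊥ ∧ Q ⊔ K = Subgroup.centralizer (Z : Set G) ∧ Nonempty (↥K ≃* Matrix.GeneralLinearGroup (Fin n) (ZMod 2)) := by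
  have := Fact.mk Nat.prime_two
  obtain ⟨z, hz⟩ := (isCyclic_of_prime_card hZ).exists_generator
  have z1 : (z : G) ≠ 1 := fun e => by
    have := orderOf_eq_card_of_forall_mem_zpowers hz
    rw [show z = 1 from Subtype.ext e, orderOf_one] at this
    omega
  have hZz : Z = zpowers (z : G) := le_antisymm (fun x hx => by
    obtain ⟨k, hk⟩ := hz ⟨x, hx⟩
    exact ⟨k, congrArg Subtype.val hk⟩) (zpowers_le.2 z.2)
  have zU := hZU z.2
  clear hz
  obtain ⟨z, hz⟩ := z
  change z ≠ 1 at z1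
  change z ∈ U at zU
  change Z = zpowers z at hZz
  subst hZz
  rw [cent_zpowers] at hQ ⊢
  have uc : ∀ a b : U, a * b = b * a := hU.1.is_comm.comm
  obtain ⟨ε, ε1, ε2⟩ := crd uc (fun a => Subtype.ext (hU.2 a a.2)) hUcard (z := ⟨z, zU⟩)
    fun e => z1 (congrArg Subtype.val e)
  have ε0 : ε 1 = 0 := by simpa using ε1 1 1
  have ε3 : ∀ x y, ε.symm (x + y) = ε.symm x * ε.symm y := fun x y => ε.injective (by simp [ε1])
  let θ : G → End (ZMod 2) (ZMod 2 × (Fin n → ZMod 2)) := fun g =>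
    (AddMonoidHom.mk' (fun x => ε (MulAut.conjNormal g (ε.symm x))) fun x y => by
      rw [ε3, map_mul, ε1]).toZModLinearMap 2
  have hθ : ∀ g u, θ g (ε u) = ε (MulAut.conjNormal g u) := fun g u => by
    change ε (MulAut.conjNormal g (ε.symm (ε u))) = _
    rw [Equiv.symm_apply_apply]
  have θU : ∀ u : U, θ u = 1 := fun u => LinearMap.ext fun x => by
    obtain ⟨v, rfl⟩ := ε.surjective x
    rw [hθ]
    exact congrArg ε (Subtype.ext (mul_inv_eq_iff_eq_mul.2 (congrArg Subtype.val (uc u v))))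
  have θm : ∀ g h, θ (g * h) = θ g * θ h := fun g h => LinearMap.ext fun x => by
    obtain ⟨v, rfl⟩ := ε.surjective x
    rw [End.mul_apply, hθ, hθ, hθ, map_mul, MulAut.mul_apply]
  have h1 : ∀ g : G, ∃ u : U, (u : G)⁻¹ * g ∈ M := fun g => by
    obtain ⟨u, hu, m, hm, rfl⟩ := mem_sup_of_normal_left.1 (hUM' ▸ mem_top g)
    exact ⟨⟨u, hu⟩, by simpa using hm⟩
  choose κ hκ using h1
  have h2 : ∀ g (u : U), (u : G)⁻¹ * g ∈ M → κ g = u := fun g u h => Subtype.ext (by
    have : (u : G)⁻¹ * κ g ∈ U ⊓ M := ⟨U.mul_mem (U.inv_mem u.2) (κ g).2, by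
      simpa [mul_assoc] using M.mul_mem h (M.inv_mem (hκ g))⟩
    rw [hUM, mem_bot, inv_mul_eq_one] at this
    exact this.symm)
  have h3 : ∀ g h, ε (κ (g * h)) = ε (κ g) + θ g (ε (κ h)) := fun g h => by
    rw [hθ, ← ε1, uc]
    refine congrArg ε (h2 _ _ ?_)
    have := mul_mem (hκ g) (hκ h)
    simpa [mul_assoc] using this
  let f₀ : G → End (ZMod 2) ((ZMod 2 × (Fin n → ZMod 2)) × ZMod 2) := fun g =>
    (θ g ∘ₗ LinearMap.fst _ _ _ + (LinearMap.snd _ _ _).smulRight (ε (κ g))).prod (LinearMap.snd _ _ _)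
  have h4 : ∀ g x, f₀ g x = (θ g x.1 + x.2 • ε (κ g), x.2) := fun _ _ => rfl
  have κ1 : ∀ u : U, κ u = u := fun u => h2 _ _ (by simp)
  let f : G →* End (ZMod 2) ((ZMod 2 × (Fin n → ZMod 2)) × ZMod 2) :=
    { toFun := f₀
      map_one' := LinearMap.ext fun x => by
        rw [h4, show θ 1 = 1 from θU 1, show κ 1 = 1 from κ1 1, ε0]; simp
      map_mul' := fun g h => LinearMap.ext fun x => by
        rw [End.mul_apply, h4, h4, h4, θm, h3]
        simp only [End.mul_apply, map_add, map_smul, smul_add]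
        abel_nf }
  have hf : Function.Injective f := (injective_iff_map_eq_one f).2 fun g hg => by
    have e1 := congrArg Prod.fst ((h4 g (0, 1)).symm.trans (LinearMap.congr_fun hg (0, 1)))
    simp only [map_zero, one_smul, zero_add, End.one_apply] at e1
    have e2 := hκ g
    rw [ε.injective (e1.trans ε0.symm)] at e2
    refine hfaith g (by simpa using e2) fun u hu => ?_
    have e3 := congrArg Prod.fst ((h4 g (ε ⟨u, hu⟩, 0)).symm.trans (LinearMap.congr_fun hg _))
    simp only [zero_smul, add_zero, End.one_apply, hθ] at e3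
    exact congrArg Subtype.val (ε.injective e3)
  have h5 : f z = T 1 0 0 1 := LinearMap.ext fun x => by
    change f₀ z x = _
    rw [h4, show θ z = 1 from θU ⟨z, zU⟩, show κ z = _ from κ1 ⟨z, zU⟩, ε2]
    ext <;> simp [T_apply]
  have : Nonempty (Fin n) := ⟨⟨0, by omega⟩⟩
  obtain ⟨a1, a2, a3, a4, -, a6, K, k1, k2, k3, ⟨k4⟩⟩ := main f hf h5 (fun c a b A => by
    let B : ZMod 2 × (Fin n → ZMod 2) → ZMod 2 × (Fin n → ZMod 2) := fun x => (x.1 + a x.2, A.1 x.2)
    have hB : Function.Injective B := fun x y e => by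
      obtain ⟨e1, e2⟩ := Prod.mk.inj e
      have e3 := ((End.isUnit_iff _).1 A.isUnit).1 e2
      rw [e3] at e1
      exact Prod.ext (add_right_cancel e1) e3
    obtain ⟨m, hm, hm'⟩ := hfull (MulEquiv.ofBijective (MonoidHom.mk' (fun u => ε.symm (B (ε u)))
      fun u v => by
        rw [← ε3, ε1]
        congr 1
        ext <;> simp [B]
        abel) (Finite.injective_iff_bijective.1 (ε.symm.injective.comp (hB.comp ε.injective))))
    have e1 : ∀ x, θ m x = B x := fun x => by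
      obtain ⟨v, rfl⟩ := ε.surjective x
      rw [hθ, ← ε.apply_symm_apply (B _)]
      exact congrArg ε (Subtype.ext (hm' v).symm)
    refine ⟨ε.symm (c, b) * m, LinearMap.ext fun x => ?_⟩
    change f₀ _ x = _
    rw [h4, θm, θU, one_mul, e1, h2 _ (ε.symm (c, b)) (by simpa using hm), Equiv.apply_symm_apply]
    ext <;> simp [T_apply, B] <;> abel) (hQ.trans (core_p_eq Nat.prime_two _).symm)
  rw [Module.finrank_fin_fun] at a4 a6
  refine ⟨a1.extra, a4, a6, a1.large a2 a3 fun L hL hn => ?_, K, k1, k2, k3,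
    ⟨k4.trans GeneralLinearGroup.toLin.symm⟩⟩
  have h6 : U ≤ Q := by
    rw [hQ, ← core_p_eq Nat.prime_two]
    exact le_core (isPi_of_card_eq_pow Nat.prime_two hUcard)
      (fun u hu => mem_cent1.2 (congrArg Subtype.val (uc ⟨u, hu⟩ ⟨z, zU⟩)))
      (le_top.trans (normalizer_eq_top_iff.2 inferInstance).ge)
  have h7 : (♯L).Coprime ♯U := by
    rw [hUcard]
    exact (Nat.coprime_two_right.2 hL).pow_right _
  have h8 := cent_of_norm_cop (le_top.trans (normalizer_eq_top_iff.2 inferInstance).ge) (h6.trans hn) h7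
  have h9 : L ≤ U := fun g hg => by
    have := hfaith _ (hκ g) fun u hu => by
      have e1 := mem_centralizer_iff.1 (h8 hg) u hu
      have e2 : (κ g : G) * u = u * κ g := congrArg Subtype.val (uc _ ⟨u, hu⟩)
      rw [mul_inv_eq_iff_eq_mul, mul_assoc, ← e1, ← mul_assoc, ← mul_assoc, mul_left_inj,
        inv_mul_eq_iff_eq_mul, ← mul_assoc, e2, mul_inv_cancel_right]
    exact inv_mul_eq_one.1 this ▸ (κ g).2
  exact card_eq_one.1 (Nat.Coprime.eq_one_of_dvd h7 (card_dvd_of_le h9))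

end Cfsg.Agent.S5423
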