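import Cfsg.Statements.S5424
import Cfsg.Agent.Lib.Lin.H13Hol

set_option autoImplicit false
open Cfsg

namespace Cfsg.Agent.S5424

open Subgroup CA.BG CA.H7Lge CA.H13Hol Module Matrix

/-- coordinates -/
def crd (n : ℕ) : (Fin (n + 2) → ZMod 2) ≃ₗ[ZMod 2] (ZMod 2 × (Fin n → ZMod 2)) × ZMod 2 where
  toFun x := ((x 0, fun i => x i.succ.succ), x 1)
  invFun y := Fin.cons y.1.1 (Fin.cons y.2 y.1.2)
  map_add' _ _ := rfl
  map_smul' _ _ := rfl
  left_inv x := funext (Fin.cases rfl (Fin.cases rfl fun _ => rfl))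
  right_inv _ := rfl

theorem det_one {m : Type*} [Fintype m] [DecidableEq m] (A : GL m (ZMod 2)) : A.1.det = 1 :=
  (z2 _).resolve_left A.det_ne_zero

/-- over the field with two elements `SL = GL` -/
noncomputable def eqv (m : Type*) [Fintype m] [DecidableEq m] :
    SpecialLinearGroup m (ZMod 2) ≃* (End (ZMod 2) (m → ZMod 2))ˣ :=
  (MulEquiv.ofBijective SpecialLinearGroup.toGL ⟨SpecialLinearGroup.toGL_injective,
    fun A => ⟨⟨A.1, det_one A⟩, Units.ext rfl⟩⟩).trans GeneralLinearGroup.toLin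

/-- Let G be the special linear group of degree n + 2 over the field with two elements, n ≥ 2, let z be a transvection, and let Q be the largest normal 2-subgroup of the centralizer C of z. Then Q is extraspecial of order 2^(2n+1) with an elementary abelian subgroup of order 2^(n+1) (plus type), Q is a large extraspecial 2-subgroup of G, and C is the split extension of Q by the special linear group of degree n over the field with two elements. -/
theorem result (n : ℕ) (hn : 2 ≤ n) (z : Matrix.SpecialLinearGroup (Fin (n + 2)) (ZMod 2)) (hz : (z : Matrix (Fin (n + 2)) (Fin (n + 2)) (ZMod 2)) = Matrix.transvection 0 1 1) (Q : Subgroup (Matrix.SpecialLinearGroup (Fin (n + 2)) (ZMod 2))) (hQ : Q = (Cfsg.pCore 2 ↥(Subgroup.centralizer ({z} : Set (Matrix.SpecialLinearGroup (Fin (n + 2)) (ZMod 2))))).map (Subgroup.centralizer ({z} : Set (Matrix.SpecialLinearGroup (Fin (n + 2)) (ZMod 2)))).subtype) : Cfsg.IsExtraspecial 2 ↥Q ∧ Nat.card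 ↥Q = 2 ^ (2 * n + 1) ∧ (∃ E : Subgroup (Matrix.SpecialLinearGroup (Fin (n + 2)) (ZMod 2)), E ≤ Q ∧ Cfsg.IsElementaryAbelian 2 E ∧ Nat.card ↥E = 2 ^ (n + 1)) ∧ Cfsg.IsLargeExtraspecial Q ∧ ∃ K : Subgroup (Matrix.SpecialLinearGroup (Fin (n + 2)) (ZMod 2)), K ≤ Subgroup.centralizer ({z} : Set (Matrix.SpecialLinearGroup (Fin (n + 2)) (ZMod 2))) ∧ Q ⊓ K = ⊥ ∧ Q ⊔ K = Subgroup.centralizer ({z} : Set (Matrix.SpecialLinearGroup (Fin (n + 2)) (ZMod 2))) ∧ Nonempty (↥K ≃* Matrix.SpecialLinearGroup (Fin n) (ZMod 2)) := by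
  let e := (eqv (Fin (n + 2))).trans (Units.mapEquiv (crd n).conjRingEquiv.toMulEquiv)
  let f := (Units.coeHom _).comp e.toMonoidHom
  have hf : Function.Injective f := Units.val_injective.comp e.injective
  have h1 : ∀ g x, f g (crd n x) = crd n (g.1 *ᵥ x) := fun g x => by
    change crd n (g.1 *ᵥ (crd n).symm (crd n x)) = _
    rw [LinearEquiv.symm_apply_apply]
  have hs : ∀ L : End (ZMod 2) ((ZMod 2 × (Fin n → ZMod 2)) × ZMod 2), IsUnit L → ∃ g, f g = L := by
    rintro _ ⟨L, rfl⟩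
    exact ⟨e.symm L, congrArg Units.val (e.apply_symm_apply L)⟩
  have h2 : f z = T 1 0 0 1 := LinearMap.ext fun x => by
    obtain ⟨x, rfl⟩ := (crd n).surjective x
    rw [h1, hz]
    have e : ∀ x, crd n x = ((x 0, fun i => x i.succ.succ), x 1) := fun _ => rfl
    ext <;> simp [e, T_apply, transvection, add_mulVec, single_mulVec, Function.update_apply,
      Fin.succ_ne_zero]
  have : Nonempty (Fin n) := ⟨⟨0, by omega⟩⟩
  obtain ⟨a1, a2, a3, a4, a5, a6, K, k1, k2, k3, ⟨k4⟩⟩ := main f hf h2 (fun c a b A => hs _ (by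
    refine IsUnit.of_mul_eq_one (T (c + a ((A⁻¹).1 b)) (a ∘ₗ (A⁻¹).1) ((A⁻¹).1 b) (A⁻¹).1) ?_
    rw [T_mul, Units.mul_inv, ← T_one, ← End.mul_apply, Units.mul_inv, End.one_apply, aa, aa, add_assoc,
      add_assoc, aa, add_zero, aa])) (hQ.trans (core_p_eq Nat.prime_two _).symm)
  rw [Module.finrank_fin_fun] at a4 a6
  refine ⟨a1.extra, a4, a6, ?_, K, k1, k2, k3, ⟨k4.trans (eqv _).symm⟩⟩
  obtain ⟨b, hb⟩ := exists_ne (0 : Fin n → ZMod 2)
  obtain ⟨a, ha, -⟩ := exists_dual hb hb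
  let L : End (ZMod 2) ((ZMod 2 × (Fin n → ZMod 2)) × ZMod 2) :=
    1 + LinearMap.inr _ _ _ ∘ₗ a ∘ₗ LinearMap.snd _ _ _ ∘ₗ LinearMap.fst _ _ _
  have hL : L * L = 1 := LinearMap.ext fun x => by simp [L, add_assoc, aa, Prod.ext_iff]
  obtain ⟨g, hg⟩ := hs L (IsUnit.of_mul_eq_one _ hL)
  have h3 : g⁻¹ = g := inv_eq_of_mul_eq_one_right (hf (by rw [map_mul, hg, hL, map_one]))
  have h4 : f (g * z * g⁻¹) = T 1 a 0 1 := LinearMap.ext fun x => by
    rw [h3, map_mul, map_mul, hg, h2]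
    simp [L, T_apply, add_assoc, aa, Prod.ext_iff]
  refine (a1.large_of_fused a2 a3 (eight_lt hn a4) (a5 _ _ _ _ h4) fun h => ?_).2
  rw [h, h2] at h4
  rw [← (T_inj h4).2.1] at ha
  exact zero_ne_one ha

end Cfsg.Agent.S5424
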