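import Cfsg.Statements.S5427
import Cfsg.Agent.Lib.Grp.H7Lge4

set_option autoImplicit false
open Cfsg

namespace Cfsg.Agent.S5427

open Subgroup CA.BG CA.H7Lge

/-- Let z be an involution of the finite group G whose centralizer C has generalized Fitting subgroup Q, an extraspecial 2-group of width at least 2 (order 2^(2w+1), w ≥ 2). Let K be a subgroup of G such that the subgroup U generated by the K-conjugates of z is abelian and C is generated by the C-conjugates of U. Suppose that either some K-conjugate of z other than z lies in Q, or some element u of U ∩ Q outside the subgroup generated by z has z in the largest normal 2-subgroup of its centralizer. Then G is simple and Q is a large extraspecial 2-subgroup of G. -/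
theorem result {G : Type*} [Group G] [Finite G] (z : G) (hz : orderOf z = 2) (Q : Subgroup G) (hQC : Q ≤ Subgroup.centralizer ({z} : Set G)) (hF : (Cfsg.generalizedFittingSubgroup ↥(Subgroup.centralizer ({z} : Set G))).map (Subgroup.centralizer ({z} : Set G)).subtype = Q) (hQ : Cfsg.IsExtraspecial 2 ↥Q) (w : ℕ) (hw : 2 ≤ w) (hcard : Nat.card ↥Q = 2 ^ (2 * w + 1)) (K U : Subgroup G) (hU : U = Subgroup.closure {x : G | ∃ k ∈ K, x = k * z * k⁻¹}) (hUab : IsMulCommutative ↥U) (hgen : Subgroup.closure {x : G | ∃ c ∈ Subgroup.centralizer ({z} : Set G), ∃ u ∈ U, x = c * u * c⁻¹} = Subgroup.centralizer ({z} : Set G)) (h3 : (∃ k ∈ K, k * z * k⁻¹ ∈ Q ∧ k * z * k⁻¹ ≠ z) ∨ ∃ u ∈ U ⊓ Q, u ∉ Subgroup.zpowers z ∧ (∃ hz' : z ∈ Subgroup.centralizer ({u} : Set G), (⟨z, hz'⟩ : ↥(Subgroup.centralizer ({u} : Set G))) ∈ Cfsg.pCore 2 ↥(Subgroup.centralizer ({u} : Set G)))) : IsSimpleGroup G ∧ Cfsg.IsLargeExtraspecial Q := by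
  obtain ⟨z', hE', -⟩ := EX.of hQ
  obtain ⟨h1, h2, h4, h5⟩ := of_fstar hz hF hE'.isPi
  have hE : EX Q z := EX.of_mem hQ h1 fun e => by simp [e] at hz
  have h := hE.lx h2 h4
  have hL : IsLargeExtraspecial Q := by
    rcases h3 with ⟨k, -, a1, a2⟩ | ⟨u, hu, a1, a2, a3⟩
    · exact (hE.large_of_fused h2 h4 (eight_lt hw hcard) a1 a2).2
    · refine hE.large h2 h4 fun K => h.large_of_inv hu.2 ?_ a1
        (by rw [core_p_eq Nat.prime_two]; exact ⟨_, a3, rfl⟩)
      have hu1 := hu.1
      rw [hU] at hu1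
      refine closure_induction (p := fun x _ => x * x = 1) ?_ (mul_one 1) (fun x y hx hy b1 b2 => ?_)
        (fun x _ b => by rw [← mul_inv_rev, b, inv_one]) hu1
      · rintro _ ⟨k, -, rfl⟩
        rw [conj_mul, hE.sq, mul_one, mul_inv_cancel]
      · have : x * y = y * x := congrArg Subtype.val (hUab.1.1 ⟨x, hU.ge hx⟩ ⟨y, hU.ge hy⟩)
        rw [mul_assoc, ← mul_assoc y, ← this, mul_assoc, b2, mul_one, b1]
  refine ⟨h.simple hE.ctr hL.2.2.2 ?_, hL⟩
  rw [← hgen, closure_le]
  rintro _ ⟨c, -, u, hu, rfl⟩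
  refine normalClosure_normal.conj_mem _ ((hU.le.trans ((closure_le _).2 ?_)) hu) c
  rintro _ ⟨k, -, rfl⟩
  exact normalClosure_normal.conj_mem z (subset_normalClosure (Set.mem_singleton z)) k

end Cfsg.Agent.S5427
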