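import Cfsg.Statements.S5428
import Cfsg.Agent.Lib.Grp.H7Lge4

set_option autoImplicit false
open Cfsg

namespace Cfsg.Agent.S5428

open Subgroup CA.BG CA.H7Lge

/-- Let z be an involution of the finite group G whose centralizer C has generalized Fitting subgroup Q extraspecial (as a 2-group), let A be a subgroup of C of odd order, and let R be the centralizer of A in Q; suppose R has order at least 32, the largest normal subgroup of odd order of the centralizer of the subgroup generated by A and R lies in A, the order of that centralizer is not divisible by 4, and g is an element of G with g z g⁻¹ in R but outside the centre Z of Q. Let M be the subgroup generated by A and the centralizer of A (A is normal in it). Then: the centralizer in M of the subgroup generated by R and A, joined with A, equals the subgroup generated by A and Z; the image of R in M/A is a large extraspecial 2-subgroup of M/A; and g z g⁻¹ is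 conjugate to z inside the subgroup generated by R and the centralizer of A in g Q g⁻¹. -/
theorem result {G : Type*} [Group G] [Finite G] (z : G) (hz : orderOf z = 2) (Q : Subgroup G) (hQC : Q ≤ Subgroup.centralizer ({z} : Set G)) (hF : (Cfsg.generalizedFittingSubgroup ↥(Subgroup.centralizer ({z} : Set G))).map (Subgroup.centralizer ({z} : Set G)).subtype = Q) (hQ : Cfsg.IsExtraspecial 2 ↥Q) (A : Subgroup G) (hA : A ≤ Subgroup.centralizer ({z} : Set G)) (hAodd : Odd (Nat.card ↥A)) (R : Subgroup G) (hR : R = Q ⊓ Subgroup.centralizer (A : Set G)) (hR32 : 32 ≤ Nat.card ↥R) (hO : (Cfsg.oddCore ↥(Subgroup.centralizer ((A ⊔ R : Subgroup G) : Set G))).map (Subgroup.centralizer ((A ⊔ R : Subgroup G) : Set G)).subtype ≤ A) (h4 : ¬ 4 ∣ Nat.card ↥(Subgroup.centralizer ((A ⊔ R : Subgroup G) : Set G))) (g : G) (hgR : g * z * g⁻¹ ∈ R) (hgZ : g * z * g⁻¹ ∉ ((Subgroup.center ↥Q).map Q.subtype)) (M : Subgroup G) (hM : M = Subgroup.centralizer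 (A : Set G) ⊔ A) [hn : (A.subgroupOf M).Normal] : (M ⊓ Subgroup.centralizer ((R ⊔ A : Subgroup G) : Set G)) ⊔ A = A ⊔ ((Subgroup.center ↥Q).map Q.subtype) ∧ Cfsg.IsLargeExtraspecial ((R.subgroupOf M).map (QuotientGroup.mk' (A.subgroupOf M))) ∧ ∃ x ∈ R ⊔ ((Q).map (MulAut.conj g).toMonoidHom ⊓ Subgroup.centralizer (A : Set G)), x * (g * z * g⁻¹) * x⁻¹ = z := by
  obtain ⟨z', hE', -⟩ := EX.of hQ
  obtain ⟨h1, h2, h3, -⟩ := of_fstar hz hF hE'.isPi
  have hE : EX Q z := EX.of_mem hQ h1 fun e => by simp [e] at hz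
  rw [hE.map_center] at hgZ ⊢
  have hy : g * z * g⁻¹ ∈ Q := (hR.le hgR).1
  have c8 : 8 < ♯Q := by have := card_le_of_le' (hR.le.trans inf_le_left); omega
  have hne : g * z * g⁻¹ ≠ z := fun e => hgZ (e.symm ▸ mem_zpowers z)
  have hzg := (hE.large_of_fused h2 h3 c8 hy hne).1
  have hzR : z ∈ R := hR.ge ⟨hE.mem, le_cent1_iff.1 hA⟩
  have hER : EX R z := hR ▸ (hE.odd_decomp (hA.trans h2) hAodd).2.2.2.1.resolve_left fun e => by
    rw [hR, e, hE.card] at hR32; omega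
  have odd : ∀ a ∈ A, a ^ 2 ^ 2 = 1 → a = 1 := fun a ha e => (pow_eq_one_iff_of_coprime
    ((Nat.coprime_two_left.2 hAodd).pow_left 2)).1 ⟨e, orderOf_dvd_iff_pow_eq_one.1
      (orderOf_dvd_card_of_mem ha)⟩
  have hD : 𝓒(A ⊔ R) ≤ A ⊔ zpowers z := by
    have a1 : z ∈ 𝓒(A ⊔ R) := by
      rw [cent_sup]; exact ⟨le_cent1_iff.1 hA, le_cent1_iff.1 hER.cent⟩
    have a2 : Syl 2 (zpowers z) 𝓒(A ⊔ R) := Syl.mk'' Nat.prime_two (zpowers_le.2 a1)
      (isPi_of_card_eq Nat.prime_two hE.card) fun e => h4 (by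
        rw [← CA.BG.card_mul_relIndex (zpowers_le.2 a1), hE.card]; exact Nat.mul_dvd_mul_left 2 e)
    rw [← (burnside_hasPC Nat.prime_two a2 (inf_le_right.trans ((norm_zpowers_le hE.sq hE.ne).trans
      (cent_zpowers z).ge))).sup_syl a2, core_p'_eq Nat.prime_two]
    exact sup_le le_sup_right (hO.trans le_sup_left)
  have hRM : R ≤ M := hM ▸ (hR.le.trans inf_le_right).trans le_sup_left
  have h5 : ∃ x ∈ R ⊔ (CA.BG.cj g Q ⊓ 𝓒(A)), x * z * x⁻¹ = g * z * g⁻¹ ∧ x * (g * z * g⁻¹) * x⁻¹ = z := by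
    have hE2 := hE.cj g
    obtain ⟨q, hq, q2⟩ := hER.exists_conj hgR hE2.sq hgZ
    have b := hE2.odd_decomp ((le_cent1_iff.2 (hR.le hgR).2).trans ((hE.lx h2 h3).cj g).norm) hAodd
    have hz' : z ∈ CA.BG.cj g Q ⊓ 𝓒(A) := ⟨hzg, le_cent1_iff.1 hA⟩
    obtain ⟨n, hn, n1⟩ := SetLike.not_le_iff_exists.1 fun e : CA.BG.cj g Q ⊓ 𝓒(A) ≤ 𝓒₁(z) => by
      have : CA.BG.cj g Q ≤ 𝓒₁(z) := b.2.1 ▸ sup_le (b.2.2.1.trans (cent_le_cent1 hz')) e
      rcases hE2.mem_iff.1 (hE2.ctr ⟨hzg, le_cent1_iff.1 this⟩) with c | c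
      exacts [hE.ne c, hne c.symm]
    exact ⟨q * n * q, mul_mem (mul_mem (mem_sup_left hq) (mem_sup_right hn)) (mem_sup_left hq),
      swap hE.sq hE2.sq (mem_cent1.1 (hE.cent hy)).symm
        (mul_inv_eq_iff_eq_mul.2 (mem_cent1.1 (hER.cent hq))) q2
        (mul_inv_eq_iff_eq_mul.2 (mem_cent1.1 (hE2.cent hn.1))) (hE2.conj hn.1 hzg n1)⟩
  obtain ⟨x, hx, x1, x2⟩ := h5
  have hAR : A ⊓ R = ⊥ := eq_bot_iff.2 fun a ha => odd a ha.1 (hER.pow4 ha.2)
  have dec : ∀ c ∈ M, ∃ d ∈ 𝓒(A), ∃ a ∈ A, a * d = c := fun c hc => by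
    obtain ⟨a, ha, d, hd, e⟩ := (mem_sup_norm' (cent_le_norm A)).1 (sup_comm 𝓒(A) A ▸ hM.le hc)
    exact ⟨d, hd, a, ha, e⟩
  have key : ∀ d ∈ 𝓒(A), ∀ a ∈ A, ∀ r ∈ R, (r * (a * d))⁻¹ * (a * d * r) ∈ A → d * r = r * d := by
    intro d hd a ha r hr e
    have b1 : a * r = r * a := (hR.le hr).2 a ha
    have b2 : (r * (a * d))⁻¹ * (a * d * r) = d⁻¹ * r⁻¹ * d * r := by
      rw [← mul_assoc r, ← b1]; group
    rw [b2] at e
    have b3 := odd _ e (by
      have c1 : Commute (d⁻¹ * r⁻¹ * d * r) r⁻¹ := Commute.inv_right ((hR.le hr).2 _ e)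
      have c2 := c1.mul_pow (2 ^ 2)
      rwa [mul_inv_cancel_right, inv_pow, hER.pow4 hr, inv_one, mul_one,
        show d⁻¹ * r⁻¹ * d = d⁻¹ * r⁻¹ * d⁻¹⁻¹ by rw [inv_inv], conj_pow, inv_pow, hER.pow4 hr,
        inv_one, mul_one, mul_inv_cancel, eq_comm, inv_inv] at c2)
    calc d * r = r * d * (d⁻¹ * r⁻¹ * d * r) := by group
      _ = _ := by rw [b3, mul_one]
  refine ⟨le_antisymm (sup_le (inf_le_right.trans (sup_comm R A ▸ hD)) le_sup_left)
    (sup_le le_sup_right (le_sup_of_le_left (zpowers_le.2 ⟨hRM hzR, ?_⟩))), ?_, x, hx, x2⟩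
  · rw [cent_sup]; exact ⟨le_cent1_iff.1 hER.cent, le_cent1_iff.1 hA⟩
  refine large_quot (x := x) hRM hzR (fun e => hE.ne (mem_bot.1 (hAR.le ⟨e, hzR⟩))) hE.sq hER.cent
    hER.pow (fun c hc e r hr => ?_) (fun c hc e => ?_) ?_
    (sup_le hRM (inf_le_right.trans (hM ▸ le_sup_left)) hx) (x1 ▸ hgR) fun e => ?_
  · obtain ⟨d, hd, a, ha, rfl⟩ := dec c hc
    have b1 := key d hd a ha z hzR (by simpa [mul_assoc] using inv_mem e)
    have b2 : d * r * d⁻¹ ∈ R := hR ▸ conj_mem_of_mem_norm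
      (norm_inf ((zpowers_le.2 (mem_cent1.2 b1)).trans h2) (le_norm_of_le (zpowers_le.2 hd))
        (mem_zpowers d)) (hR ▸ hr)
    rwa [show a * d * r * (a * d)⁻¹ = a * (d * r * d⁻¹) * a⁻¹ by group, (hR.le b2).2 a ha,
      mul_inv_cancel_right]
  · obtain ⟨d, hd, a, ha, rfl⟩ := dec c hc
    have b1 : d ∈ 𝓒(A ⊔ R) := by
      rw [cent_sup]; exact ⟨hd, fun r hr => (key d hd a ha r hr (e r hr)).symm⟩
    obtain ⟨b, hb, w, hw, rfl⟩ := (mem_sup_norm' (norm_of_cent (zpowers_le.2 (le_cent1_iff.1 hA)))).1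
      (hD b1)
    rcases hE.mem_iff.1 hw with rfl | rfl
    · exact Or.inl (by simpa using mul_mem ha hb)
    · right
      rw [← mul_assoc a, mem_cent1.1 (hA (mul_mem ha hb)), inv_mul_cancel_left]
      exact mul_mem ha hb
  · rw [← inf_relIndex_right, hAR, relIndex_bot_left]; omega
  · rw [x1] at e
    exact hne (inv_mul_eq_one.1 (mem_bot.1 (hAR.le (mem_inf.2 ⟨e, mul_mem (inv_mem hgR) hzR⟩))))

end Cfsg.Agent.S5428
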