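import Cfsg.Statements.S5429
import Cfsg.Agent.Lib.Grp.H7Lge4

set_option autoImplicit false
open Cfsg

namespace Cfsg.Agent.S5429

open Subgroup CA.BG CA.H7Lge
open scoped commutatorElement

/-- Let z be an involution of the finite group G with centralizer C whose generalized Fitting subgroup Q is extraspecial of width at least 3 (order 2^(2w+1), w ≥ 3); let g be an element of G with g z g⁻¹ in Q but outside the centre Z of Q, and t an involution lying in both Q and g Q g⁻¹ that is not conjugate to z; write P for the centralizer of t in Q and suppose that the elements of C acting trivially by conjugation on P modulo the subgroup generated by t and z are exactly the elements of Q. Then the image of P in the centralizer of t modulo the subgroup generated by t is a large extraspecial 2-subgroup there, and g z g⁻¹ is conjugate to z inside the subgroup generated by P and the centralizer of t in g Q g⁻¹. -/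
theorem result {G : Type*} [Group G] [Finite G] (z : G) (hz : orderOf z = 2) (Q : Subgroup G) (hQC : Q ≤ Subgroup.centralizer ({z} : Set G)) (hF : (Cfsg.generalizedFittingSubgroup ↥(Subgroup.centralizer ({z} : Set G))).map (Subgroup.centralizer ({z} : Set G)).subtype = Q) (hQ : Cfsg.IsExtraspecial 2 ↥Q) (w : ℕ) (hw : 3 ≤ w) (hcard : Nat.card ↥Q = 2 ^ (2 * w + 1)) (g : G) (hgQ : g * z * g⁻¹ ∈ Q) (hgZ : g * z * g⁻¹ ∉ ((Subgroup.center ↥Q).map Q.subtype)) (t : G) (ht : orderOf t = 2) (htQ : t ∈ Q ⊓ (Q).map (MulAut.conj g).toMonoidHom) (htz : ¬ IsConj z t) (P : Subgroup G) (hP : P = Q ⊓ Subgroup.centralizer ({t} : Set G)) (hCP : ∀ c ∈ Subgroup.centralizer ({z} : Set G), (∀ x ∈ P, ∃ y ∈ Subgroup.closure ({t, z} : Set G), c * x * c⁻¹ = x * y) ↔ c ∈ Q) [hn : ((Subgroup.zpowers t).subgroupOf (Subgroup.centralizer ({t} : Set G))).Normal] : Cfsg.IsLargeExtraspecial ((P.subgroupOf (Subgroup.centralizer ({t} : Set G))).map (QuotientGroup.mk' ((Subgroup.zpowers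 t).subgroupOf (Subgroup.centralizer ({t} : Set G))))) ∧ ∃ x ∈ P ⊔ ((Q).map (MulAut.conj g).toMonoidHom ⊓ Subgroup.centralizer ({t} : Set G)), x * (g * z * g⁻¹) * x⁻¹ = z := by
  obtain ⟨z', hE', -⟩ := EX.of hQ
  obtain ⟨h1, h2, h3, -⟩ := of_fstar hz hF hE'.isPi
  have hE : EX Q z := EX.of_mem hQ h1 fun e => by simp [e] at hz
  rw [hE.map_center] at hgZ
  have hne : g * z * g⁻¹ ≠ z := fun e => hgZ (e.symm ▸ mem_zpowers z)
  have hzg := (hE.large_of_fused h2 h3 (eight_lt (by omega) hcard) hgQ hne).1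
  have hE2 := hE.cj g
  have t2 : t * t = 1 := by rw [← pow_two, ← ht, pow_orderOf_eq_one]
  have t1 : t ≠ 1 := fun e => by simp [e] at ht
  have tz : t ∉ zpowers z := fun e => htz ((hE.mem_iff.1 e).resolve_left t1 ▸ IsConj.refl _)
  have tc : t * z = z * t := mem_cent1.1 (hE.cent htQ.1)
  have n1 : ∀ a : G, a * z * a⁻¹ ≠ t := fun a e => htz (isConj_iff.2 ⟨a, e⟩)
  have n2 : ∀ a : G, a * z * a⁻¹ ≠ t * z := fun a e => by
    obtain ⟨q, -, hq⟩ := hE.exists_conj htQ.1 t2 tz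
    exact n1 (q⁻¹ * a) (by rw [← mul_inv_cancel_left q t, ← mul_inv_cancel_right (q * _) q]; rw [← hq] at e; rw [show q⁻¹ * a * z * (q⁻¹ * a)⁻¹ = q⁻¹ * (a * z * a⁻¹) * q by group, e]; group)
  have hzP : z ∈ P := hP.ge ⟨hE.mem, mem_cent1.2 tc.symm⟩
  have hyP : g * z * g⁻¹ ∈ P := hP.ge ⟨hgQ, mem_cent1_symm.1 (hE2.cent htQ.2)⟩
  obtain ⟨q, hq, q2⟩ := hE.exists_move htQ.1 hgQ hgZ fun e => by
    rcases hE.mem_iff.1 e with c | c
    · exact n1 g (by rw [mul_eq_one_iff_eq_inv.1 c, inv_eq t2])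
    · exact n2 g (by rw [eq_mul_inv_of_mul_eq c, inv_eq t2, tc])
  obtain ⟨n, hn, n3⟩ := hE2.exists_move htQ.2 hzg (fun e => by
      rcases hE2.mem_iff.1 e with c | c
      exacts [hE.ne c, hne c.symm]) fun e => by
    rcases hE2.mem_iff.1 e with c | c
    · exact n1 1 (by rw [one_mul, inv_one, mul_one, mul_eq_one_iff_eq_inv.1 c, inv_eq t2])
    · exact n2 g (by rw [← c, tc])
  obtain ⟨x1, x2⟩ := swap hE.sq hE2.sq (mem_cent1.1 (hE.cent hgQ)).symm
    (mul_inv_eq_iff_eq_mul.2 (mem_cent1.1 (hE.cent hq.1))) q2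
    (mul_inv_eq_iff_eq_mul.2 (mem_cent1.1 (hE2.cent hn.1))) n3
  refine ⟨?_, q * n * q, mul_mem (mul_mem (mem_sup_left (hP.ge hq)) (mem_sup_right hn))
    (mem_sup_left (hP.ge hq)), x2⟩
  have k : ∀ c : G, (c * z)⁻¹ * (z * c) ∈ zpowers t → c ∈ 𝓒₁(z) := fun c e => by
    rcases (mem_two t2).1 e with a | a
    · exact mem_cent1.2 (inv_mul_eq_one.1 a)
    · refine absurd ?_ (n2 c⁻¹)
      rw [tc, ← a]; group
  refine large_quot (x := q * n * q) (hP.le.trans inf_le_right) hzP (fun e => ?_) hE.sq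
    ((hP.le.trans inf_le_left).trans hE.cent) (fun x hx => hE.pow x (hP.le hx).1)
    (fun c hc e r hr => ?_) (fun c hc e => ?_) ?_ (mul_mem (mul_mem hq.2 hn.2) hq.2) (x1 ▸ hyP)
    fun e => ?_
  · rcases (mem_two t2).1 e with a | a
    exacts [hE.ne a, tz (a ▸ mem_zpowers z)]
  · exact hP.ge (mem_inf.2 ⟨conj_mem_of_mem_norm (h2 (k c e)) (hP.le hr).1,
      mul_mem (mul_mem hc (hP.le hr).2) (inv_mem hc)⟩)
  · have a1 : c ∈ Q := (hCP c (k c (by simpa using inv_mem (e z hzP)))).1 fun r hr =>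
      ⟨c * ((r * c)⁻¹ * (c * r)) * c⁻¹, by
        have := zpowers_le.2 (subset_closure (show t ∈ ({t, z} : Set G) by simp))
          (conj_mem_of_mem_norm (cent_le_norm _ ((cent_zpowers t).ge hc)) (e r hr))
        exact this, by group⟩
    have a2 : c ∈ 𝓒(Q ⊓ 𝓒₁(t)) := fun r hr => by
      rcases (mem_two t2).1 (e r (hP.ge hr)) with b | b
      · exact inv_mul_eq_one.1 b
      · refine absurd ?_ tz
        have := hE.comm (inv_mem a1) (inv_mem hr.1)
        rwa [← b, show (r * c)⁻¹ * (c * r) = ⁅c⁻¹, r⁻¹⁆ by simp [commutatorElement_def, mul_assoc]]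
    rcases hE.cent_cent htQ.1 a1 a2 with b | b
    · rcases hE.mem_iff.1 (hE.ctr ⟨a1, b⟩) with rfl | rfl
      exacts [Or.inl (one_mem _), Or.inr (by simp)]
    · rcases hE.mem_iff.1 (hE.ctr ⟨mul_mem a1 htQ.1, b⟩) with d | d
      · exact Or.inl (mul_eq_one_iff_eq_inv.1 d ▸ inv_mem (mem_zpowers t))
      · exact Or.inr (by rw [eq_mul_inv_of_mul_eq d]; simp)
  · have a1 := card_inf_mul_relIndex 𝓒₁(t) Q
    have a2 := CA.BG.card_mul_relIndex (zpowers_le.2 (hP.ge ⟨htQ.1, mem_cent1_self t⟩))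
    rw [hE.relIndex_cent htQ.1 fun e => tz (hE.ctr ⟨htQ.1, le_cent1_iff.1 e⟩), inf_comm, ← hP, ← a2,
      Nat.card_zpowers, ht, hcard] at a1
    have : 2 ^ 7 ≤ 2 ^ (2 * w + 1) := Nat.pow_le_pow_right (by norm_num) (by omega)
    omega
  · rw [x1] at e
    rcases (mem_two t2).1 e with a | a
    · exact hne (inv_mul_eq_one.1 a)
    · exact n2 g (by rw [← a, mul_assoc _ z z, hE.sq, mul_one, inv_eq hE2.sq])

end Cfsg.Agent.S5429
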