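import Cfsg.Statements.S5430
import Cfsg.Agent.Lib.Grp.H7Lge2

set_option autoImplicit false
open Cfsg

namespace Cfsg.Agent.S5430

open Subgroup CA.BG CA.BG4 CA.H7Lge
open scoped commutatorElement

/-- Let Q be a large extraspecial 2-subgroup of the finite group G (extraspecial; centralizer equal to its centre; normal in the centralizer of its centre; normalizing no non-trivial subgroup of odd order) with centre generated by z, an involution, of width w ≥ 2 (order 2^(2w+1)); let g be an element outside the centralizer H of z with g z g⁻¹ in Q; write V for the subgroup generated by z and g z g⁻¹, X for the subgroup generated by Q and g Q g⁻¹, R for the subgroup generated by the centralizer of z in g Q g⁻¹ and the centralizer of g z g⁻¹ in Q, and E for the intersection of Q and g Q g⁻¹. Then R is the centralizer of V in X and is the largest normal 2-subgroup of X, and X/R is isomorphic to the symmetric group of degree 3; moreover the normalizer of V is the product of X and the centralizer of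 V in H, X is normal in it, and modulo R it is the direct product of X/R and of the centralizer of V in H modulo R. -/
theorem result {G : Type*} [Group G] [Finite G] (Q : Subgroup G) (hQ : Cfsg.IsLargeExtraspecial Q) (z : G) (hz : ((Subgroup.center ↥Q).map Q.subtype) = Subgroup.zpowers z) (hz2 : orderOf z = 2) (w : ℕ) (hw : 2 ≤ w) (hcard : Nat.card ↥Q = 2 ^ (2 * w + 1)) (g : G) (hgH : g ∉ Subgroup.centralizer ({z} : Set G)) (hgQ : g * z * g⁻¹ ∈ Q) (V X R E : Subgroup G) (hV : V = Subgroup.closure ({z, g * z * g⁻¹} : Set G)) (hX : X = Q ⊔ (Q).map (MulAut.conj g).toMonoidHom) (hR : R = ((Q).map (MulAut.conj g).toMonoidHom ⊓ Subgroup.centralizer ({z} : Set G)) ⊔ (Q ⊓ Subgroup.centralizer ({g * z * g⁻¹} : Set G))) (hE : E = Q ⊓ (Q).map (MulAut.conj g).toMonoidHom) : R = X ⊓ Subgroup.centralizer (V : Set G) ∧ R = (Cfsg.pCore 2 ↥X).map X.subtype ∧ (∃ h : (R.subgroupOf X).Normal, Nonempty (↥X ⧸ R.subgroupOf X ≃* Equiv.Perm (Fin 3))) ∧ Subgroup.normalizer (V : Set G) = X ⊔ (Subgroup.centralizer ({z}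 : Set G) ⊓ Subgroup.centralizer (V : Set G)) ∧ (∀ y ∈ Subgroup.normalizer (V : Set G), ∀ x ∈ X, y * x * y⁻¹ ∈ X) ∧ R ≤ Subgroup.centralizer ({z} : Set G) ⊓ Subgroup.centralizer (V : Set G) ∧ (∀ x ∈ X, ∀ c ∈ Subgroup.centralizer ({z} : Set G) ⊓ Subgroup.centralizer (V : Set G), x * c * x⁻¹ * c⁻¹ ∈ R) ∧ X ⊓ (Subgroup.centralizer ({z} : Set G) ⊓ Subgroup.centralizer (V : Set G)) = R := by
    have h := EX.of' hQ.1 hz
    have h' := h.lx' hQ.2.1 hQ.2.2.1
    have hn : g * z * g⁻¹ ≠ z := fun e => hgH (mem_cent1.2 (mul_inv_eq_iff_eq_mul.1 e))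
    have p := h'.pair hgQ hn (h.large_of_fused h'.norm h'.cent_le (eight_lt hw hcard) hgQ hn).1
    rw [closure_pair] at hV
    have hN : (R.subgroupOf X).Normal := hX ▸ hR ▸ p.normal
    obtain ⟨e⟩ := p.quot hX hR
    have k : ∃ h : (R.subgroupOf X).Normal, Nonempty (↥X ⧸ R.subgroupOf X ≃* Equiv.Perm (Fin 3)) :=
      ⟨hN, ⟨e.symm⟩⟩
    rw [and_iff_right k]
    subst hV hX hR
    rw [cent_pair, ← inf_assoc 𝓒₁(z), inf_idem]
    exact ⟨p.inf_eq.symm, p.core_eq.symm, p.norm_eq,
      fun y hy x hx => conj_mem_of_mem_norm (p.normX hy) hx, p.R_le,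
      fun x hx c hc => p.comm_X (commutator_mem_commutator hx hc), p.inf_eq⟩

end Cfsg.Agent.S5430
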