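import Cfsg.Statements.S5431
import Cfsg.Agent.Lib.Grp.H7Lge2

set_option autoImplicit false
open Cfsg

namespace Cfsg.Agent.S5431

open Subgroup CA.BG CA.BG4 CA.H7Lge
open scoped commutatorElement

/-- Let Q be a large extraspecial 2-subgroup of the finite group G (extraspecial; centralizer equal to its centre; normal in the centralizer of its centre; normalizing no non-trivial subgroup of odd order) with centre generated by z, an involution, of width w ≥ 2 (order 2^(2w+1)); let g be an element outside the centralizer H of z with g z g⁻¹ in Q; write V for the subgroup generated by z and g z g⁻¹, X for the subgroup generated by Q and g Q g⁻¹, R for the subgroup generated by the centralizer of z in g Q g⁻¹ and the centralizer of g z g⁻¹ in Q, and E for the intersection of Q and g Q g⁻¹. Then V is the centre of R, E lies in the second centre of R, R is nilpotent of class at most 3, E and R/E are elementary abelian, R/E is the direct product of the images of the centralizer of g z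 g⁻¹ in Q and of the centralizer of z in g Q g⁻¹ (R is their product and they meet in E), and the commutator subgroup of X and E lies in V. -/
theorem result {G : Type*} [Group G] [Finite G] (Q : Subgroup G) (hQ : Cfsg.IsLargeExtraspecial Q) (z : G) (hz : ((Subgroup.center ↥Q).map Q.subtype) = Subgroup.zpowers z) (hz2 : orderOf z = 2) (w : ℕ) (hw : 2 ≤ w) (hcard : Nat.card ↥Q = 2 ^ (2 * w + 1)) (g : G) (hgH : g ∉ Subgroup.centralizer ({z} : Set G)) (hgQ : g * z * g⁻¹ ∈ Q) (V X R E : Subgroup G) (hV : V = Subgroup.closure ({z, g * z * g⁻¹} : Set G)) (hX : X = Q ⊔ (Q).map (MulAut.conj g).toMonoidHom) (hR : R = ((Q).map (MulAut.conj g).toMonoidHom ⊓ Subgroup.centralizer ({z} : Set G)) ⊔ (Q ⊓ Subgroup.centralizer ({g * z * g⁻¹} : Set G))) (hE : E = Q ⊓ (Q).map (MulAut.conj g).toMonoidHom) : (Subgroup.center ↥R).map R.subtype = V ∧ E ≤ (Subgroup.upperCentralSeries ↥R 2).map R.subtype ∧ Subgroup.upperCentralSeries ↥R 3 = ⊤ ∧ Cfsg.IsElementaryAbelian 2 E ∧ (∀ x ∈ R, ∀ y ∈ R, x * y * x⁻¹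 * y⁻¹ ∈ E ∧ x ^ 2 ∈ E) ∧ ((Q).map (MulAut.conj g).toMonoidHom ⊓ Subgroup.centralizer ({z} : Set G)) ⊓ (Q ⊓ Subgroup.centralizer ({g * z * g⁻¹} : Set G)) = E ∧ ⁅X, E⁆ ≤ V := by
    have h := EX.of' hQ.1 hz
    have h' := h.lx' hQ.2.1 hQ.2.2.1
    have hn : g * z * g⁻¹ ≠ z := fun e => hgH (mem_cent1.2 (mul_inv_eq_iff_eq_mul.1 e))
    have p := h'.pair hgQ hn (h.large_of_fused h'.norm h'.cent_le (eight_lt hw hcard) hgQ hn).1
    rw [closure_pair] at hV
    have h1 : 𝓩(R) = V := hR ▸ hV ▸ p.center_R h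
    have h2 : ⁅X, E⁆ ≤ V := hX ▸ hE ▸ hV ▸ p.comm_E
    have h3 : ⁅R, R⁆ ≤ E := hR ▸ hE ▸ p.der_R
    have h4 : R ≤ X := hX ▸ hR ▸ p.R_le'
    have h5 : ∀ x : R, (x : G) ∈ E → x ∈ Subgroup.upperCentralSeries R 2 := fun x hx =>
      Subgroup.mem_upperCentralSeries_succ_iff.2 fun y => by
        rw [Subgroup.upperCentralSeries_one, ← mem_map_iff_mem R.subtype_injective, CA.BG.map_center, h1]
        exact commutator_comm X E ▸ h2 <| commutator_mem_commutator hx (h4 y.2)
    have h6 : E ≤ R := hE ▸ hR ▸ (le_inf inf_le_left (p.E_le.trans inf_le_right)).trans le_sup_right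
    have h7 : ∀ x ∈ E, x * x = 1 := fun x hx => p.E_sq (hE ▸ hx)
    refine ⟨(CA.BG.map_center R).trans h1, fun x hx => ⟨⟨x, h6 hx⟩, h5 _ hx, rfl⟩,
      eq_top_iff.2 fun x _ => Subgroup.mem_upperCentralSeries_succ_iff.2 fun y =>
        h5 _ (h3 (commutator_mem_commutator x.2 y.2)),
      ⟨⟨⟨fun a b => Subtype.ext ?_⟩⟩, fun a ha => (pow_two a).trans (h7 a ha)⟩,
      fun x hx y hy => ⟨h3 (commutator_mem_commutator hx hy), ?_⟩, ?_, h2⟩
    · have := h7 _ (mul_mem a.2 b.2)
      rw [mul_eq_one_iff_eq_inv, mul_inv_rev, inv_eq (h7 _ a.2), inv_eq (h7 _ b.2)] at this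
      exact this
    · rw [pow_two, hE]; exact p.sq_R (hR ▸ hx)
    · rw [hE]
      exact le_antisymm (le_inf (inf_le_right.trans inf_le_left) (inf_le_left.trans inf_le_left))
        (le_inf (le_inf inf_le_right (p.E_le.trans inf_le_left))
          (le_inf inf_le_left (p.E_le.trans inf_le_right)))

end Cfsg.Agent.S5431
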