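import Cfsg.Statements.S5433
import Cfsg.Agent.Lib.Grp.H7Lge

set_option autoImplicit false
open Cfsg

namespace Cfsg.Agent.S5433

open Subgroup CA.BG CA.BG4 CA.H7Lge
open scoped commutatorElement

/-- Let Q be a large extraspecial 2-subgroup of the finite group G (extraspecial; centralizer equal to its centre; normal in the centralizer of its centre; normalizing no non-trivial subgroup of odd order), and L a normal subgroup of G containing Q. Then G is the product of L and the normalizer of Q. -/
theorem result {G : Type*} [Group G] [Finite G] (Q : Subgroup G) (hQ : Cfsg.IsLargeExtraspecial Q) (L : Subgroup G) [L.Normal] (hQL : Q ≤ L) : L ⊔ Subgroup.normalizer (Q : Set G) = ⊤ := by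
  haveI := Fact.mk Nat.prime_two
  obtain ⟨z, h, hz⟩ := EX.of hQ.1
  have h' := h.lx' hQ.2.1 hQ.2.2.1
  obtain ⟨T, hT⟩ := (h.isPi.isPGroup Nat.prime_two).comap_subtype (K := L) |>.exists_le_sylow
  have h1 := Sylow.normalizer_sup_eq_top (N := L) T
  have h2 : Q ≤ (T : Subgroup L).map L.subtype := by
    rw [← map_subgroupOf_eq_of_le hQL]; exact map_mono hT
  have h3 := h'.center_eq h.ctr (isPi_of_isPGroup Nat.prime_two (T.isPGroup'.map _)) h2
  rw [eq_top_iff, ← h1, sup_comm]
  exact sup_le_sup_left (((h3 ▸ norm_center _).trans (norm_zpowers_le h.sq h.ne)).trans h'.norm) L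

end Cfsg.Agent.S5433
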