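import Cfsg.Statements.S5435
import Cfsg.Agent.Lib.Grp.H7Lge
import Cfsg.Agent.Lib.Block.H13Zstar
import Cfsg.Agent.Lib.Grp.H13Misc
import Cfsg.Agent.Lib.Loc.AmbTr
import Cfsg.Agent.Lib.Grp.PGDihedral
import Cfsg.Agent.Lib.Grp.PGFrattini
import Cfsg.Agent.Lib.Grp.PRes

set_option autoImplicit false
open Cfsg

namespace Cfsg.Agent.S5435

open Subgroup CA.BG CA.H7Lge

/-- Let L be a finite non-abelian simple group with an involution z whose centralizer R is a Sylow 2-subgroup of L whose Frattini subgroup is the subgroup generated by z. Then R is dihedral of order 8. -/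
theorem result {L : Type*} [Group L] [Finite L] [IsSimpleGroup L] (hL : ¬ IsMulCommutative L) (z : L) (hz : orderOf z = 2) (R : Sylow 2 L) (hR : (R : Subgroup L) = Subgroup.centralizer ({z} : Set L)) (hΦ : (frattini ↥(R : Subgroup L)).map (R : Subgroup L).subtype = Subgroup.zpowers z) : Nonempty (↥(R : Subgroup L) ≃* DihedralGroup 4) := by
  have z1 : z ≠ 1 := fun e => by simp [e] at hz
  have z2 : z * z = 1 := by rw [← pow_two, ← hz, pow_orderOf_eq_one]
  have hP : IsPGroup 2 (R : Subgroup L) := R.isPGroup'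
  have hS := syl_top Nat.prime_two R
  have hzR : z ∈ (R : Subgroup L) := hR.ge (mem_cent1_self z)
  have hN : 𝓝((R : Subgroup L)) ≤ R :=
    ((CA.PGFrattini.normalizer_le_normalizer_map_frattini _).trans
      (by rw [hΦ]; exact norm_zpowers_le z2 z1)).trans hR.ge
  have hO : pResidual 2 L = ⊤ := CA.PRes.pResidual_two_eq_top_iff.2 fun N hN => by
    rcases (normal_of_index_eq_two hN).eq_bot_or_eq_top with rfl | rfl
    · rw [index_bot] at hN
      exact hL (by letI := (isCyclic_of_prime_card (p := 2) hN).commGroup; infer_instance)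
    · simp at hN
  have h : SX (R : Subgroup L) z :=
    { mem := hzR
      ne := z1
      sq := z2
      cent := hR.le
      pow := fun x hx => hΦ ▸ pow_two x ▸ CA.PGFrattini.pow_mem_map_frattini hP hx
      inv := fun c hc c2 => by
        by_contra e
        obtain ⟨M, hM, h1⟩ : ∃ M : Subgroup (R : Subgroup L), IsCoatom M ∧ ⟨c, hc.1⟩ ∉ M := by
          by_contra! k
          exact e (hΦ ▸ ⟨_, CA.PGFrattini.mem_frattini_iff.2 k, rfl⟩)
        obtain ⟨t, h2, h3⟩ := CA.AmbTr.thompson_extremal hO (S := R) (M := M.map (R : Subgroup L).subtype)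
          (T := R) (Nat.not_even_iff_odd.1 fun e => R.not_dvd_index e.two_dvd) (map_subtype_le _)
          (by rw [relIndex, subgroupOf, comap_map_eq_self_of_injective (Subgroup.subtype_injective _)]
              exact CA.PGBasic.index_eq_of_isCoatom hP hM) ((pow_two c).trans c2) hP
          (le_cent1_iff.2 hc.2)
        have h4 := hN (mem_norm_of_cj_le h3)
        rw [hc.2 _ h4, inv_mul_cancel_right] at h2
        exact h1 ((mem_map_iff_mem (Subgroup.subtype_injective _)).1 h2) }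
  obtain ⟨g, hy, hne⟩ := CA.H13Zstar.exists_conj_mem_sylow_ne R z2 (CA.H13Misc.not_inZStar hL hz)
  have h' := h.cj g
  have yz : g * z * g⁻¹ ∉ zpowers z := fun e => (h.mem_iff.1 e).elim h'.ne hne
  have hc : cj g (R : Subgroup L) = 𝓒₁(g * z * g⁻¹) := by rw [hR, cj_cent1]
  generalize g * z * g⁻¹ = y at *
  have sq : ∀ e ∈ (R : Subgroup L) ⊓ 𝓒₁(y), e * e = 1 := fun e he =>
    (h'.mem_iff.1 (h'.pow e (hc.ge he.2))).resolve_right fun a => yz (a ▸ h.pow e he.1)
  have hE : ∀ e ∈ (R : Subgroup L) ⊓ 𝓒₁(y), e ∈ zpowers z ∨ e * y ∈ zpowers z := fun e he =>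
    h.inv_cent hy h'.sq he.1 (sq e he) (mem_cent1.1 he.2) fun b hb => by
      have := sq _ (mul_mem hb he)
      rw [← inv_eq this, mul_inv_rev, inv_eq (sq e he), inv_eq (sq b hb)]
  obtain ⟨x, hx, hx2⟩ := h.exists_conj hy h'.sq yz
  have xy : x ∉ 𝓒₁(y) := fun e => z1 (by
    rwa [mem_cent1.1 e, mul_inv_cancel_right, eq_comm, mul_eq_left] at hx2)
  have yc : y * z = z * y := mem_cent1.1 (h.cent hy)
  obtain ⟨a, ha, a1, a2⟩ : ∃ a ∈ (R : Subgroup L), a ∉ 𝓒₁(y) ∧ a * a = z := by
    rcases h.mem_iff.1 (h.pow x hx) with b | b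
    · refine ⟨x * y, mul_mem hx hy, fun e => xy ((mul_mem_cancel_right (mem_cent1_self y)).1 e), ?_⟩
      rw [← mul_assoc, ← inv_eq b, show x⁻¹ * y * x⁻¹ = x * y * x⁻¹ by rw [inv_eq b], hx2, yc,
        mul_assoc, h'.sq, mul_one]
    · exact ⟨x, hx, xy, b⟩
  have a4 : orderOf a = 4 := orderOf_eq_prime_pow (p := 2) (n := 1)
    (by rwa [pow_one, pow_two, a2]) (h.pow4 ha)
  have a5 : y * a * y⁻¹ = a⁻¹ := by
    rw [h.conj hy ha (mt mem_cent1_symm.1 a1), eq_inv_iff_mul_eq_one, mul_assoc,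
      ← mem_cent1.1 (h.cent ha), ← mul_assoc, a2, z2]
  have hza : z ∈ zpowers a := a2 ▸ mul_mem (mem_zpowers a) (mem_zpowers a)
  have h5 : zpowers a ⊔ zpowers y = R := by
    refine le_antisymm (sup_le (zpowers_le.2 ha) (zpowers_le.2 hy)) fun b hb => ?_
    have k : (R : Subgroup L) ⊓ 𝓒₁(y) ≤ zpowers a ⊔ zpowers y := fun e he =>
      (hE e he).elim (fun c => mem_sup_left (zpowers_le.2 hza c)) fun c =>
        (mul_mem_cancel_right (mem_sup_right (mem_zpowers y))).1 (mem_sup_left (zpowers_le.2 hza c))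
    by_cases e : b ∈ 𝓒₁(y)
    · exact k ⟨hb, e⟩
    · exact (mul_mem_cancel_right (mem_sup_left (mem_zpowers a))).1
        (k (mem_inf.2 ⟨mul_mem hb ha, h.mul_cent hy hb ha e a1⟩))
  rw [← h5]
  exact CA.PGDihedral.nonempty_subgroup_mulEquiv_dihedral a4
    (fun e => a1 (mem_cent1_symm.1 (zpowers_le.2 (mem_cent1_self a) e))) ((pow_two y).trans h'.sq) a5

end Cfsg.Agent.S5435
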