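import Cfsg.Statements.S5436
import Cfsg.Agent.Lib.Grp.H7Lge4

set_option autoImplicit false
open Cfsg

namespace Cfsg.Agent.S5436

open Subgroup CA.BG CA.H7Lge

/-- Let z be an involution of the finite group G with centralizer H whose generalized Fitting subgroup Q is extraspecial of width at least 2 (order 2^(2w+1), w ≥ 2); suppose some conjugate of z other than z lies in Q, H/Q is a non-abelian simple group, H acts irreducibly by conjugation on Q modulo the subgroup generated by z (the only H-invariant subgroups of Q containing z are that subgroup and Q), and Q is not the subgroup generated by the conjugates of z lying in H. Then G is simple. -/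
theorem result {G : Type*} [Group G] [Finite G] (z : G) (hz : orderOf z = 2) (Q : Subgroup (Subgroup.centralizer ({z} : Set G))) [Q.Normal] (hF : Cfsg.generalizedFittingSubgroup ↥(Subgroup.centralizer ({z} : Set G)) = Q) (hQ : Cfsg.IsExtraspecial 2 ↥Q) (w : ℕ) (hw : 2 ≤ w) (hcard : Nat.card ↥Q = 2 ^ (2 * w + 1)) (hnwc : ∃ g : G, (∃ hq : g * z * g⁻¹ ∈ Subgroup.centralizer ({z} : Set G), (⟨g * z * g⁻¹, hq⟩ : Subgroup.centralizer ({z} : Set G)) ∈ Q) ∧ g * z * g⁻¹ ≠ z) (hsimp : IsSimpleGroup (↥(Subgroup.centralizer ({z} : Set G)) ⧸ Q)) (hna : ¬ IsMulCommutative (↥(Subgroup.centralizer ({z} : Set G)) ⧸ Q)) (hirr : ∀ W : Subgroup (Subgroup.centralizer ({z} : Set G)), W.Normal → W ≤ Q → (W = Q ∨ ∀ x ∈ W, (x : G) ∈ Subgroup.zpowers z)) (hwcl : Subgroup.closure {x : Subgroup.centralizer ({z} : Set G) | IsConj z (x : G)} ≠ Q) : IsSimpleGroup G := by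
  have hi := (centralizer ({z} : Set G)).subtype_injective
  obtain ⟨z', hE0, -⟩ := EX.of hQ
  have hE' := hE0.map hi
  have hQ' := hE'.extra
  obtain ⟨h1, h2, h4, h5⟩ := of_fstar hz (congrArg _ hF) hE'.isPi
  have hE : EX (Q.map 𝓒₁(z).subtype) z := EX.of_mem hQ' h1 fun e => by simp [e] at hz
  obtain ⟨g, ⟨a1, a2⟩, a3⟩ := hnwc
  have hL := (hE.large_of_fused h2 h4 (eight_lt hw ((card_map_of_injective hi).trans hcard))
    ⟨_, a2, rfl⟩ a3).2
  refine (hE.lx h2 h4).simple hE.ctr hL.2.2.2 ?_
  set W := closure {x : 𝓒₁(z) | IsConj z (x : G)} with hW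
  haveI : W.Normal := by
    refine ⟨fun n hn c => ?_⟩
    refine closure_induction (p := fun n _ => c * n * c⁻¹ ∈ W) (fun x hx => subset_closure ?_)
      (by simp) (fun x y _ _ b1 b2 => by rw [← conj_mul]; exact mul_mem b1 b2)
      (fun x _ b => by rw [← conj_inv]; exact inv_mem b) hn
    exact hx.trans (isConj_iff.2 ⟨c, rfl⟩)
  have h6 : Q ≤ W := inf_eq_right.1 ((hirr (W ⊓ Q) inferInstance inf_le_right).resolve_right fun e => by
    rcases hE.mem_iff.1 (e ⟨_, a1⟩ ⟨subset_closure (isConj_iff.2 ⟨g, rfl⟩), a2⟩) with b | b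
    exacts [hE.ne (conj_eq_one_iff.1 b), a3 b])
  have h7 : W = ⊤ := by
    rw [← comap_map_eq_self (f := QuotientGroup.mk' Q) (H := W) (by rwa [QuotientGroup.ker_mk']),
      (hsimp.eq_bot_or_eq_top_of_normal (W.map (QuotientGroup.mk' Q))
        (Normal.map inferInstance _ (QuotientGroup.mk'_surjective Q))).resolve_left fun e => hwcl
          (le_antisymm (by rwa [Subgroup.map_eq_bot_iff, QuotientGroup.ker_mk'] at e) h6), comap_top]
  intro c hc
  have h8 : W ≤ (normalClosure {z}).comap 𝓒₁(z).subtype := (closure_le _).2 fun x hx => by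
    obtain ⟨k, hk⟩ := isConj_iff.1 hx
    change (x : G) ∈ normalClosure {z}
    exact hk ▸ normalClosure_normal.conj_mem z (subset_normalClosure (Set.mem_singleton z)) k
  exact h8 (x := ⟨c, hc⟩) (h7 ▸ mem_top _)

end Cfsg.Agent.S5436
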