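import Cfsg.Statements.S5437
import Cfsg.Agent.Lib.Grp.SylIn

set_option autoImplicit false
open Cfsg

namespace Cfsg.Agent.S5437

open Subgroup CA.SylIn

/-- Let I be a set of involutions of the finite group G closed under conjugation, and H a subgroup of G. The following are equivalent: (1) for every member x of I lying in H, the conjugates of x lying in H form a single H-class and the centralizer of x lies in H; (2) for every g outside H, no member of I lies in both H and g H g⁻¹; (3) every member of I lying in H fixes exactly one coset in the action of G on the cosets of H. -/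
theorem result {G : Type*} [Group G] [Finite G] (I : Set G) (hI : ∀ x ∈ I, orderOf x = 2) (hIc : ∀ g : G, ∀ x ∈ I, g * x * g⁻¹ ∈ I) (H : Subgroup G) : ((∀ x ∈ I, x ∈ H → (∀ g : G, g * x * g⁻¹ ∈ H → ∃ h ∈ H, h * x * h⁻¹ = g * x * g⁻¹) ∧ Subgroup.centralizer ({x} : Set G) ≤ H) ↔ (∀ g : G, g ∉ H → ∀ x ∈ I, ¬ (x ∈ H ∧ x ∈ (H : Subgroup G).map (MulAut.conj g).toMonoidHom))) ∧ ((∀ g : G, g ∉ H → ∀ x ∈ I, ¬ (x ∈ H ∧ x ∈ (H : Subgroup G).map (MulAut.conj g).toMonoidHom)) ↔ ∀ x ∈ I, x ∈ H → ∃! c : G ⧸ H, x • c = c) := by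
  have key : (∀ g : G, g ∉ H → ∀ x ∈ I, ¬ (x ∈ H ∧ x ∈ g •ᶜ H)) ↔
      ∀ x ∈ I, x ∈ H → ∀ g : G, g * x * g⁻¹ ∈ H → g ∈ H := by
    constructor
    · intro h x hx hxH g hg
      by_contra hne
      exact h g hne _ (hIc g x hx) ⟨hg, conj_mem_conj.2 hxH⟩
    · rintro h g hg x hx ⟨h1, h2⟩
      exact hg (inv_mem_iff.1 (h x hx h1 g⁻¹ (by simpa using mem_conj.1 h2)))
  rw [key]
  constructor
  · constructor
    · intro h x hx hxH g hg
      obtain ⟨a, ha, e⟩ := (h x hx hxH).1 g hg
      have : a⁻¹ * g ∈ H := (h x hx hxH).2 (mem_centralizer_singleton_iff.2 (by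
        calc a⁻¹ * g * x = a⁻¹ * (g * x * g⁻¹) * g := by group
          _ = _ := by rw [← e]; group))
      simpa using mul_mem ha this
    · intro h x hx hxH
      refine ⟨fun g hg => ⟨g, h x hx hxH g hg, rfl⟩, fun c hc => h x hx hxH c ?_⟩
      rwa [mem_centralizer_singleton_iff.1 hc, mul_inv_cancel_right]
  · have hfix : ∀ x g : G, x • (g : G ⧸ H) = g ↔ g⁻¹ * x * g ∈ H := fun x g => by
      rw [MulAction.Quotient.smul_mk, eq_comm, QuotientGroup.eq, smul_eq_mul, mul_assoc]
    constructor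
    · intro h x hx hxH
      refine ⟨((1 : G) : G ⧸ H), (hfix x 1).2 (by simpa using hxH), fun c hc => ?_⟩
      obtain ⟨g, rfl⟩ := QuotientGroup.mk_surjective c
      exact QuotientGroup.eq.2 (by simpa using h x hx hxH g⁻¹ (by simpa using (hfix x g).1 hc))
    · intro h x hx hxH g hg
      have := (h x hx hxH).unique ((hfix x g⁻¹).2 (by simpa using hg))
        ((hfix x 1).2 (by simpa using hxH))
      simpa using QuotientGroup.eq.1 this

end Cfsg.Agent.S5437
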