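import Cfsg.Statements.S5438
import Cfsg.Agent.Lib.Loc.AmbSpe

set_option autoImplicit false
open Cfsg

namespace Cfsg.Agent.S5438

open Subgroup CA.Amb CA.AmbSyl CA.AmbSpe

/-- Let z be a 2-central involution of the finite group G (an involution central in some Sylow 2-subgroup) and H a subgroup containing z such that the coset H is the only coset of H fixed by z (in the action of G on the cosets of H). Then H has odd index in G, and for every 2-element x of H the conjugates of x lying in H form a single H-class. -/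
theorem result {G : Type*} [Group G] [Finite G] (z : G) (hz : Cfsg.IsTwoCentralInvolution z) (H : Subgroup G) (hzH : z ∈ H) (hfix : ∀ g : G, g⁻¹ * z * g ∈ H → g ∈ H) : Odd H.index ∧ ∀ x ∈ H, (∃ k : ℕ, orderOf x = 2 ^ k) → ∀ g : G, g * x * g⁻¹ ∈ H → ∃ h ∈ H, h * x * h⁻¹ = g * x * g⁻¹ := by
  haveI : Fact (Nat.Prime 2) := ⟨Nat.prime_two⟩
  obtain ⟨ho, P, hzP, hc⟩ := hz
  have A : ∀ T : Subgroup G, IsPGroup 2 T → z ∈ T → T ≤ H := by
    intro T hT hzT
    have := eq_of_inf_normalizer_le (Q := T ⊓ H) hT inf_le_left fun n hn =>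
      ⟨hn.1, hfix n (inv_conj_mem_of_mem_normalizer hn.2 ⟨hzT, hzH⟩).2⟩
    exact inf_eq_left.1 this
  have hPH := A _ P.isPGroup' hzP
  have B : ∀ x ∈ H, (∃ k : ℕ, orderOf x = 2 ^ k) → ∃ h ∈ H, z ∈ centralizer {h * x * h⁻¹} := by
    rintro x hx ⟨k, hk⟩
    obtain ⟨h, hh, hle⟩ := (sylIn_of_le P hPH).exists_conj_le (isPGroup_zpowers_of_orderOf hk)
      (zpowers_le.2 hx)
    exact ⟨h, hh, mem_centralizer_singleton_iff.2
      (hc _ (hle (conj_mem_cj.2 (mem_zpowers x)))).symm⟩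
  refine ⟨?_, fun x hx hk g hg => ?_⟩
  · rw [← Nat.not_even_iff_odd]
    exact fun h => P.not_dvd_index (h.two_dvd.trans (index_dvd_of_le hPH))
  obtain ⟨h₁, hh₁, c₁⟩ := B x hx hk
  obtain ⟨h₂, hh₂, c₂⟩ := B _ hg (by rwa [orderOf_conj'])
  set y := h₂ * (g * x * g⁻¹) * h₂⁻¹ with hy
  set k := h₂ * g * h₁⁻¹ with hk'
  have c₃ : k * z * k⁻¹ ∈ centralizer {y} := by
    have : y = k * (h₁ * x * h₁⁻¹) * k⁻¹ := by rw [hy, hk']; group
    rw [this, ← cj_centralizer_singleton]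
    exact conj_mem_cj.2 c₁
  have hz' : IsPGroup 2 (zpowers z) := isPGroup_zpowers_of_orderOf (k := 1) (by simpa using ho)
  obtain ⟨T, hT, hzT⟩ := exists_sylIn_ge hz' (zpowers_le.2 c₂)
  obtain ⟨c, hc', hle⟩ := hT.exists_conj_le (Q := zpowers (k * z * k⁻¹))
    (by rw [← cj_zpowers]; exact isPGroup_cj hz' k) (zpowers_le.2 c₃)
  have h4 := A T hT.pg (hzT (mem_zpowers z)) (hle (conj_mem_cj.2 (mem_zpowers _)))
  have h5 : c * k ∈ H := by
    have := hfix (c * k)⁻¹ (by convert h4 using 1; group)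
    simpa only [inv_inv] using H.inv_mem this
  refine ⟨h₂⁻¹ * (c * k) * h₁, H.mul_mem (H.mul_mem (H.inv_mem hh₂) h5) hh₁, ?_⟩
  have h6 : c * y = y * c := mem_centralizer_singleton_iff.1 hc'
  calc _ = h₂⁻¹ * (c * y) * c⁻¹ * h₂ := by rw [hy, hk']; group
    _ = _ := by rw [h6, hy]; group

end Cfsg.Agent.S5438
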