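import Cfsg.Statements.S5439
import Cfsg.Agent.Lib.Grp.SEmb

set_option autoImplicit false
open Cfsg

namespace Cfsg.Agent.S5439

open Subgroup CA.H13Inv CA.SEmb

/-- Let I and J be two different conjugacy classes of involutions of the finite group G and H a subgroup such that every member of I ∪ J fixes exactly one coset in the action on the cosets of H, and such that for every a in I ∩ H and every b in (I ∪ J) ∩ H different from a and commuting with it, the centralizer of a b lies in H. Then H = G. -/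
theorem result {G : Type*} [Group G] [Finite G] (I J : Set G) (a₀ b₀ : G) (ha₀ : orderOf a₀ = 2) (hb₀ : orderOf b₀ = 2) (hI : I = {x | IsConj a₀ x}) (hJ : J = {x | IsConj b₀ x}) (hIJ : I ≠ J) (H : Subgroup G) (hfix : ∀ x ∈ I ∪ J, ∃! c : G ⧸ H, x • c = c) (hcent : ∀ a ∈ I, a ∈ H → ∀ b ∈ I ∪ J, b ∈ H → a ≠ b → a * b = b * a → Subgroup.centralizer ({a * b} : Set G) ≤ H) : H = ⊤ := by
  by_contra hH
  obtain ⟨g, hg⟩ : ∃ g, g ∉ H := by
    by_contra h
    push Not at h
    exact hH (eq_top_iff.2 fun g _ => h g)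
  have ex : ∀ x ∈ I ∪ J, ∃ a, IsConj x a ∧ a ∈ H := by
    intro x hx
    obtain ⟨c, hc, -⟩ := hfix x hx
    obtain ⟨k, rfl⟩ := QuotientGroup.mk_surjective c
    exact ⟨k⁻¹ * x * k, isConj_iff.2 ⟨k⁻¹, by group⟩, (smul_mk_iff x k).1 hc⟩
  obtain ⟨a, ha, haH⟩ := ex a₀ (Or.inl (hI ▸ IsConj.refl _))
  obtain ⟨b', hb', hbH'⟩ := ex b₀ (Or.inr (hJ ▸ IsConj.refl _))
  set b := g * b' * g⁻¹ with hbd
  have hb : IsConj b₀ b := hb'.trans (isConj_iff.2 ⟨g, rfl⟩)
  have hbH : b ∉ H := fun h => by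
    obtain ⟨c, -, hu⟩ := hfix b (Or.inr (hJ ▸ hb))
    have h1 := hu ((1 : G) : G ⧸ H) (smul_one_iff.2 h)
    have h2 := hu (g : G ⧸ H) ((smul_mk_iff b g).2 (by simpa [hbd, mul_assoc] using hbH'))
    exact hg (mk_eq_one_iff.1 (h2.trans h1.symm))
  have oa : orderOf a = 2 := (orderOf_eq_of_isConj ha).symm.trans ha₀
  have ob : orderOf b = 2 := (orderOf_eq_of_isConj hb).symm.trans hb₀
  have nc : ¬ IsConj a b := fun h => hIJ (by
    have h' : IsConj a₀ b₀ := (ha.trans h).trans hb.symm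
    rw [hI, hJ]
    exact Set.ext fun x => ⟨fun hx => h'.symm.trans hx, fun hx => h'.trans hx⟩)
  have ev := even_of_not_isConj (mul_self oa) (mul_self ob) nc
  have c1 := commute_pow_half_left (mul_self oa) (mul_self ob) ev
  have c2 := commute_pow_half_right (mul_self oa) (mul_self ob) ev
  have c3 := conj_mul_half (mul_self oa) (mul_self ob) ev
  have ow := orderOf_pow_half ev
  set w := (a * b) ^ (orderOf (a * b) / 2)
  have hwH : w ∈ H := by
    obtain ⟨c, -, hu⟩ := hfix a (Or.inl (hI ▸ ha))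
    have h1 := hu ((1 : G) : G ⧸ H) (smul_one_iff.2 haH)
    have h2 := hu (w : G ⧸ H) ((smul_mk_iff a w).2 (by
      rw [mul_assoc, ← c1.eq, inv_mul_cancel_left]; exact haH))
    exact mk_eq_one_iff.1 (h2.trans h1.symm)
  have hm : a * w ∈ I ∪ J := by
    rcases c3 with ⟨-, k, hk⟩ | ⟨-, k, hk⟩
    · exact Or.inl (hI ▸ ha.trans (isConj_iff.2 ⟨_, hk⟩))
    · exact Or.inr (hJ ▸ hb.trans (isConj_iff.2 ⟨_, hk⟩))
  have := hcent a (hI ▸ ha) haH _ hm (H.mul_mem haH hwH)
    (fun h => ne_one ow (by simpa using h.symm)) (by rw [mul_assoc, c1.eq])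
  rw [← mul_assoc, mul_self oa, one_mul] at this
  exact hbH (this (mem_centralizer_singleton_iff.2 c2.eq.symm))

end Cfsg.Agent.S5439
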