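import Cfsg.Statements.S5459
import Cfsg.Agent.Lib.Grp.H13Inv

set_option autoImplicit false
open Cfsg

namespace Cfsg.Agent.S5459

open Subgroup CA.H13Inv
open scoped commutatorElement

/-- Let G be a finite group with a quasisimple normal subgroup L and an involution d such that G is generated by L and d, the centre of L has odd order, and d inverts every element of the centre of L. If the commuting graph on the conjugacy class of the image of d in G modulo the centre of L is connected, then the commuting graph on the conjugacy class of d is connected. -/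
theorem result {G : Type*} [Group G] [Finite G] (L : Subgroup G) [L.Normal] (hL : Cfsg.IsQuasisimple ↥L) (d : G) (hd : orderOf d = 2) (hgen : L ⊔ Subgroup.zpowers d = ⊤) (hodd : Odd (Nat.card ↥(Subgroup.center ↥L))) (hinv : ∀ c ∈ (Subgroup.center ↥L).map L.subtype, d * c * d⁻¹ = c⁻¹) [hn : ((Subgroup.center ↥L).map L.subtype).Normal] (hconn : (Cfsg.commutingGraph (conjugatesOf (QuotientGroup.mk d : G ⧸ (Subgroup.center ↥L).map L.subtype))).Connected) : (Cfsg.commutingGraph (conjugatesOf d)).Connected := by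
  set Z := (Subgroup.center ↥L).map L.subtype with hZ
  let T : G → G → Prop := Relation.ReflTransGen fun x y =>
    x ∈ conjugatesOf d ∧ y ∈ conjugatesOf d ∧ Commute x y
  have sq : ∀ x ∈ conjugatesOf d, x * x = 1 := fun x hx =>
    mul_self ((orderOf_eq_of_isConj hx).symm.trans hd)
  have inv : ∀ x ∈ conjugatesOf d, ∀ c ∈ Z, x * c * x⁻¹ = c⁻¹ := by
    intro x hx c hc
    obtain ⟨g, rfl⟩ := isConj_iff.1 hx
    have := hinv _ (hn.conj_mem c hc g⁻¹)
    calc _ = g * (d * (g⁻¹ * c * g⁻¹⁻¹) * d⁻¹) * g⁻¹ := by group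
      _ = _ := by rw [this]; group
  have root : ∀ c ∈ Z, ∃ e ∈ Z, e * e = c := by
    intro c hc
    have h1 : Odd (Nat.card Z) := by rwa [hZ, card_map_of_injective L.subtype_injective]
    obtain ⟨k, hk⟩ := h1
    refine ⟨c ^ (k + 1), Z.pow_mem hc _, ?_⟩
    have := congrArg Subtype.val (pow_card_eq_one' (x := (⟨c, hc⟩ : Z)))
    rw [hk] at this
    rw [← pow_add, show k + 1 + (k + 1) = 2 * k + 1 + 1 by ring, pow_succ]
    simpa using this
  have cz : ∀ y ∈ conjugatesOf d, ∀ e ∈ Z, ∃ f ∈ Z, f * y * f⁻¹ = y * e := by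
    intro y hy e he
    obtain ⟨f, hf, rfl⟩ := root e he
    refine ⟨f⁻¹, Z.inv_mem hf, ?_⟩
    rw [inv_inv, ← inv y hy f hf]
    group
  have lift : ∀ u v : conjugatesOf (d : G ⧸ Z), (Cfsg.commutingGraph _).Reachable u v →
      ∀ x ∈ conjugatesOf d, (x : G ⧸ Z) = u → ∃ y ∈ conjugatesOf d, (y : G ⧸ Z) = v ∧ T x y := by
    intro u v h x hx e
    rw [SimpleGraph.reachable_iff_reflTransGen] at h
    induction h with
    | refl => exact ⟨x, hx, e, .refl⟩
    | @tail v w _ h ih =>
      obtain ⟨y, hy, e1, t⟩ := ih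
      obtain ⟨g, hg⟩ := isConj_iff.1 w.2
      obtain ⟨g, rfl⟩ := QuotientGroup.mk_surjective g
      have hy' : g * d * g⁻¹ ∈ conjugatesOf d := isConj_iff.2 ⟨g, rfl⟩
      have e2 : ((g * d * g⁻¹ : G) : G ⧸ Z) = w := hg
      set y' := g * d * g⁻¹
      have hc : Commute (v : G ⧸ Z) w := by
        rcases ((SimpleGraph.fromRel_adj _ _ _).1 h).2 with h | h
        exacts [h, h.symm]
      rw [← e1, ← e2] at hc
      have h1 : y * y' * (y * y') ∈ Z := by
        rw [← QuotientGroup.eq_one_iff]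
        simp only [QuotientGroup.mk_mul]
        rw [mul_assoc, ← mul_assoc (y' : G ⧸ Z), ← hc.eq, mul_assoc, ← mul_assoc,
          ← QuotientGroup.mk_mul, ← QuotientGroup.mk_mul, sq y hy, sq y' hy']
        simp
      obtain ⟨e, he, h2⟩ := root _ h1
      obtain ⟨f, hf, h3⟩ := cz y' hy' _ (Z.inv_mem he)
      have hy'' : y' * e⁻¹ ∈ conjugatesOf d := IsConj.trans hy' (isConj_iff.2 ⟨f, h3⟩)
      refine ⟨y' * e⁻¹, hy'', ?_, .tail t ⟨hy, hy'', ?_⟩⟩
      · rw [← e2, QuotientGroup.mk_mul, (QuotientGroup.eq_one_iff _).2 (Z.inv_mem he), mul_one]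
      · have h4 : y * y' * e * (y * y')⁻¹ = e := by
          rw [show y * y' * e * (y * y')⁻¹ = y * (y' * e * y'⁻¹) * y⁻¹ by group, inv y' hy' e he,
            inv y hy _ (Z.inv_mem he), inv_inv]
        have h5 : y * (y' * e⁻¹) * (y * (y' * e⁻¹)) = 1 := by
          calc _ = (y * y' * e * (y * y')⁻¹)⁻¹ * (y * y' * (y * y')) * e⁻¹ := by group
            _ = 1 := by rw [h4, ← h2]; group
        have h6 := inv_eq_of_mul_eq_one_right h5
        rw [mul_inv_rev, inv_eq_of_mul_eq_one_right (sq _ hy''),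
          inv_eq_of_mul_eq_one_right (sq _ hy)] at h6
        exact h6.symm
  have tcj : ∀ g x y, T x y → T (g * x * g⁻¹) (g * y * g⁻¹) := by
    intro g x y h
    induction h with
    | refl => exact .refl
    | tail _ h ih =>
      exact .tail ih ⟨IsConj.trans h.1 (isConj_iff.2 ⟨g, rfl⟩),
        IsConj.trans h.2.1 (isConj_iff.2 ⟨g, rfl⟩), h.2.2.conj g⟩
  have tsy : ∀ x y, T x y → T y x := by
    intro x y h
    induction h with
    | refl => exact .refl
    | tail _ h ih => exact .head ⟨h.2.1, h.1, h.2.2.symm⟩ ih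
  let M : Subgroup G :=
    { carrier := {g | T d (g * d * g⁻¹)}
      one_mem' := by simp only [Set.mem_setOf_eq, one_mul, inv_one, mul_one]; exact .refl
      mul_mem' := fun {a b} ha hb => by
        have := tcj a _ _ hb
        rw [show a * (b * d * b⁻¹) * a⁻¹ = a * b * d * (a * b)⁻¹ by group] at this
        exact Relation.ReflTransGen.trans ha this
      inv_mem' := fun {a} ha => by
        have := tcj a⁻¹ _ _ ha
        rw [show a⁻¹ * (a * d * a⁻¹) * a⁻¹⁻¹ = d by group] at this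
        exact tsy _ _ this }
  have hd0 : d ∈ conjugatesOf d := IsConj.refl d
  have fac : ∀ g : G, ∃ f ∈ Z, f * g ∈ M := by
    intro g
    obtain ⟨y, hy, e, t⟩ := lift ⟨d, IsConj.refl _⟩ ⟨(g * d * g⁻¹ : G), isConj_iff.2 ⟨g, rfl⟩⟩
      (hconn.preconnected _ _) d hd0 rfl
    obtain ⟨f, hf, h⟩ := cz _ (isConj_iff.2 ⟨g, rfl⟩) _ (QuotientGroup.eq.1 e.symm)
    refine ⟨f, hf, ?_⟩
    show T d _
    rw [show f * g * d * (f * g)⁻¹ = f * (g * d * g⁻¹) * f⁻¹ by group, h, mul_inv_cancel_left]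
    exact t
  have hLM : L ≤ M := by
    have h1 : (⊤ : Subgroup L) ≤ M.subgroupOf L := by
      rw [← hL.1.commutator_eq_top, _root_.commutator_def, commutator_le]
      intro a _ b _
      obtain ⟨_, ⟨f, hf, rfl⟩, ha⟩ := fac a
      obtain ⟨_, ⟨f', hf', rfl⟩, hb⟩ := fac b
      have c : ∀ f ∈ center L, ∀ g, f * g * f⁻¹ = g := fun f hf g => by
        rw [← mem_center_iff.1 hf g, mul_inv_cancel_right]
      have : ⁅a, b⁆ = ⁅f * a, f' * b⁆ := by
        rw [commutatorElement_def, commutatorElement_def]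
        calc _ = f * (a * (f' * b * f'⁻¹) * a⁻¹) * f⁻¹ * b⁻¹ := by rw [c f hf, c f' hf']
          _ = f * a * (f' * b) * (f'⁻¹ * (f * a)⁻¹ * b⁻¹ * f'⁻¹⁻¹) * f'⁻¹ := by group
          _ = _ := by rw [mul_assoc f'⁻¹, c _ (inv_mem hf')]; group
      rw [this]
      have ha' : f * a ∈ M.subgroupOf L := ha
      have hb' : f' * b ∈ M.subgroupOf L := hb
      exact mul_mem (mul_mem (mul_mem ha' hb') (inv_mem ha')) (inv_mem hb')
    exact fun x hx => h1 (mem_top (⟨x, hx⟩ : L))
  have hM : ∀ g, g ∈ M := fun g => by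
    have : ⊤ ≤ M := hgen ▸ sup_le hLM (zpowers_le.2 (by
      show T d _
      rw [mul_inv_cancel_right]))
    exact this (mem_top g)
  have fin : ∀ y, T d y → ∀ hy, (Cfsg.commutingGraph (conjugatesOf d)).Reachable ⟨d, hd0⟩ ⟨y, hy⟩ := by
    intro y h
    induction h with
    | refl => exact fun _ => .refl _
    | @tail y w _ h ih =>
      intro hw
      by_cases e : y = w
      · subst e; exact ih hw
      · exact (ih h.1).trans (SimpleGraph.Adj.reachable ((SimpleGraph.fromRel_adj _ _ _).2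
          ⟨fun h => e (congrArg Subtype.val h), Or.inl h.2.2⟩))
  haveI : Nonempty (conjugatesOf d) := ⟨⟨d, hd0⟩⟩
  have all : ∀ y : conjugatesOf d, (Cfsg.commutingGraph (conjugatesOf d)).Reachable ⟨d, hd0⟩ y := by
    rintro ⟨y, hy⟩
    obtain ⟨g, rfl⟩ := isConj_iff.1 hy
    exact fin _ (hM g) _
  exact ⟨fun a b => (all a).symm.trans (all b)⟩

end Cfsg.Agent.S5459
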