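import Cfsg.Statements.S5465
import Cfsg.Agent.Lib.Fi.FiW2
import Cfsg.Agent.Lib.Spor.Fi22Pres

set_option autoImplicit false
open Cfsg

namespace Cfsg.Agent.S5465

/-- Let G be a finite group with trivial centre generated by a conjugation-invariant set D of 3-transpositions on which it acts primitively, such that for some d in D the subgroup generated by the members of D other than d commuting with d has central largest normal 2- and 3-subgroups, and suppose G with D is of type M(24), and let L be the commutator subgroup of G. Let d₁, d₂ be distinct commuting members of D and j = d₁ d₂. Then K, the joint centralizer of d₁ and d₂ in L, is quasisimple, is the generalized Fitting subgroup of the centralizer of j in L, has index 2 in it and contains j, and the centralizer of j in L modulo the subgroup generated by j is isomorphic to the full automorphism group of the Fischer group Fi₂₂ (as presented). -/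
theorem result {G : Type*} [Group G] [Finite G] {D : Set G} (hD : Cfsg.IsThreeTranspositionGroup D) (hprim : Cfsg.IsPrimitiveUnderConj D) (d₀ : G) (hd₀ : d₀ ∈ D) (h3 : Cfsg.pCore 3 ↥(Subgroup.closure {y : G | y ∈ D ∧ y ≠ d₀ ∧ Commute d₀ y}) ≤ Subgroup.center ↥(Subgroup.closure {y : G | y ∈ D ∧ y ≠ d₀ ∧ Commute d₀ y})) (h2 : Cfsg.pCore 2 ↥(Subgroup.closure {y : G | y ∈ D ∧ y ≠ d₀ ∧ Commute d₀ y}) ≤ Subgroup.center ↥(Subgroup.closure {y : G | y ∈ D ∧ y ≠ d₀ ∧ Commute d₀ y})) (h24 : Cfsg.IsOfTypeM24 G D) (L : Subgroup G) (hL : L = commutator G) (d₁ d₂ : G) (h₁ : d₁ ∈ D) (h₂ : d₂ ∈ D) (hne : d₁ ≠ d₂) (hc : Commute d₁ d₂) (K CL : Subgroup G) (hK : K = L ⊓ Subgroup.centralizer ({d₁, d₂} : Set G)) (hCL : CL = L ⊓ Subgroup.centralizer ({d₁ * d₂} : Set G)) [hn : ((Subgroup.zpowers (d₁ * d₂)).subgroupOf CL).Normal] : Cfsg.IsQuasisimple ↥K ∧ K = (Cfsg.generalizedFittingSubgroup ↥CL).map CL.subtype ∧ K ≤ CL ∧ (K.subgroupOf CL).index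 = 2 ∧ d₁ * d₂ ∈ K ∧ Nonempty (↥CL ⧸ (Subgroup.zpowers (d₁ * d₂)).subgroupOf CL ≃* MulAut Cfsg.Spor.Fi22) := by
  subst hL
  obtain ⟨M⟩ := CA.Fi.T24 hD hprim h24
  obtain ⟨e⟩ := CA.Fi22Pres.equiv
  obtain ⟨N⟩ := CA.Fi.model22
  have M' := N.map (e.trans (MulEquiv.subgroupCongr CA.FiSimple.X22.symm)).symm rfl (CA.FiL.prim_map N.prim _)
  have := M'.finite
  obtain ⟨χ, h⟩ := CA.Fi.lo24' M M' h₁ h₂ hne hc
  have p := CA.Fi.pf2 h₁ h₂ hne hc
  obtain ⟨y, hy⟩ : ∃ y : Subgroup.centralizer {d₁, d₂}, y.1 ∈ D ∧ y.1 ∉ ({d₁, d₂} : Set G) :=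
    (h.bij.surjOn (M'.t_mem M'.o)).imp fun _ h => h.1
  have c1 := CA.Fi.mem_cz.1 y.2 d₁ (by simp)
  have c2 := CA.Fi.mem_cz.1 y.2 d₂ (by simp)
  have n1 : y.1 ≠ d₁ := fun e => hy.2 (.inl e)
  have n2 : y.1 ≠ d₂ := fun e => hy.2 (.inr e)
  have s1 := (CA.Fi.six24 M h₁ h₂ hy.1 hne n1.symm n2.symm hc c1.symm c2.symm).mono (T := {d₁, d₂}) (by grind)
  have s2 := (CA.Fi.six24 M hy.1 h₁ h₂ n1 n2 hne c1 c2 hc).mono (T := {d₁, d₂}) (by grind)
  obtain ⟨m1, m2⟩ := CA.Fi.mem24 M h₁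
  have m3 : d₁ * d₂ ∈ commutator G := Subgroup.commutator_mono le_top le_top (s1.mem h M'.prim.cls)
  have hV : Subgroup.zpowers (d₁ * d₂) = commutator G ⊓ Subgroup.closure {d₁, d₂} :=
    CA.Fi.inf_closure m2 (CA.Tr3Basic.sq M.prim.set h₁) (h.comm _ (by simp)) (Subgroup.zpowers_le.2 ⟨m3, Subgroup.mul_mem _
      (Subgroup.subset_closure (by simp)) (Subgroup.subset_closure (by simp))⟩) (by
      simp [CA.Tr3Basic.sq M.prim.set h₁, ← hc.eq])
  obtain ⟨q, z, fs, kc, vk, -, ⟨f, s4, k4⟩, ρ, k5, c5, -⟩ := h.master (CA.FiSimple.simple22 M')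
    (CA.FiSimple.perfect22 M') M.prim p (by simp) ((CA.Fi.top24 M).2.2 2 (by omega))
    (CA.Fi.PF.hu M.prim (CA.Fi.top24 M).2.1 (by omega) (by omega) p) (a := d₁) (by simp) m1
    (fun g e _ => CA.Fi.mem_cz.2 (by
      have := (e _ y.2 hy).inv_right.mul_right (s2.comm e)
      rw [inv_mul_cancel_left] at this
      have h' := this.inv_right.mul_right (s1.comm e)
      rw [inv_mul_cancel_left] at h'
      simp [this, h'])) hK hCL hV (Subgroup.zpowers_le.2 (s1.mem h M'.prim.cls))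
  exact ⟨q, fs, kc, by rw [← k4, Subgroup.index_ker, MonoidHom.range_eq_top.2 s4]; simp [Fintype.card_perm],
    vk (Subgroup.mem_zpowers _), CA.Fi.quot_equiv (CA.Fi.surj_of_card (c5.trans (CA.Fi.caut22 M').symm)) k5⟩

end Cfsg.Agent.S5465
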