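import Cfsg.Statements.S5466
import Cfsg.Agent.Lib.Fi.FiW2

set_option autoImplicit false
open Cfsg

namespace Cfsg.Agent.S5466

/-- Let G be a finite group with trivial centre generated by a conjugation-invariant set D of 3-transpositions on which it acts primitively, such that for some d in D the subgroup generated by the members of D other than d commuting with d has central largest normal 2- and 3-subgroups, and suppose G with D is of type M(24), and let L be the commutator subgroup of G. Let d₁, d₂, d₃ be distinct pairwise commuting members of D, j their product, E the subgroup generated by d₁ d₂ and d₁ d₃ (a four-group lying in L), CL the centralizer of j in L and K its generalized Fitting subgroup. Then K is quasisimple with centre E, K is the centralizer of E in L, K modulo E is isomorphic to the projective special unitary group of dimension 6 over the field with four elements, CL/K is isomorphic to the symmetric group of degree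 3, and CL modulo E is isomorphic to the full automorphism group of that unitary group. -/
theorem result {G : Type*} [Group G] [Finite G] {D : Set G} (hD : Cfsg.IsThreeTranspositionGroup D) (hprim : Cfsg.IsPrimitiveUnderConj D) (d₀ : G) (hd₀ : d₀ ∈ D) (h3 : Cfsg.pCore 3 ↥(Subgroup.closure {y : G | y ∈ D ∧ y ≠ d₀ ∧ Commute d₀ y}) ≤ Subgroup.center ↥(Subgroup.closure {y : G | y ∈ D ∧ y ≠ d₀ ∧ Commute d₀ y})) (h2 : Cfsg.pCore 2 ↥(Subgroup.closure {y : G | y ∈ D ∧ y ≠ d₀ ∧ Commute d₀ y}) ≤ Subgroup.center ↥(Subgroup.closure {y : G | y ∈ D ∧ y ≠ d₀ ∧ Commute d₀ y})) (h24 : Cfsg.IsOfTypeM24 G D) (L : Subgroup G) (hL : L = commutator G) (d₁ d₂ d₃ : G) (h₁ : d₁ ∈ D) (h₂ : d₂ ∈ D) (h₃ : d₃ ∈ D) (h12 : d₁ ≠ d₂) (h13 : d₁ ≠ d₃) (h23 : d₂ ≠ d₃) (c12 : Commute d₁ d₂) (c13 : Commute d₁ d₃) (c23 : Commute d₂ d₃) (E CL K : Subgroup G) (hE : E = Subgroup.closure ({d₁ * d₂, d₁ * d₃} : Set G)) (hCL : CL = L ⊓ Subgroup.centralizer ({d₁ * d₂ * d₃} : Set G))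 (hK : K = (Cfsg.generalizedFittingSubgroup ↥CL).map CL.subtype) : Cfsg.IsQuasisimple ↥K ∧ (Subgroup.center ↥K).map K.subtype = E ∧ K = L ⊓ Subgroup.centralizer (E : Set G) ∧ (∃ (_ : (E.subgroupOf K).Normal) (F : Type) (_ : Field F) (_ : Fintype F), Fintype.card F = 4 ∧ Nonempty (↥K ⧸ E.subgroupOf K ≃* Cfsg.PSU 6 F 2)) ∧ ∃ _ : (K.subgroupOf CL).Normal, Nonempty (↥CL ⧸ K.subgroupOf CL ≃* Equiv.Perm (Fin 3)) ∧ E ≤ CL ∧ ∃ (_ : (E.subgroupOf CL).Normal) (F : Type) (_ : Field F) (_ : Fintype F), Fintype.card F = 4 ∧ Nonempty (↥CL ⧸ E.subgroupOf CL ≃* MulAut (Cfsg.PSU 6 F 2)) := by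
  subst hL
  obtain ⟨M⟩ := CA.Fi.T24 hD hprim h24
  obtain ⟨F, _, _, hF⟩ := CA.Fi.card_F4
  obtain ⟨N⟩ := CA.Fi.model21
  have M' := N.map (CA.FiU6.iso N F hF).some rfl (CA.FiL.prim_map N.prim _)
  have := M'.finite
  obtain ⟨χ, h⟩ := CA.Fi.lo24'' M M' h₁ h₂ h₃ h12 h13 h23 c12 c13 c23
  have p := CA.Fi.pf3 h₁ h₂ h₃ h12 h13 h23 c12 c13 c23
  have s1 := CA.Fi.six24 M h₁ h₂ h₃ h12 h13 h23 c12 c13 c23
  have s2 := (CA.Fi.six24 M h₁ h₃ h₂ h13 h12 h23.symm c13 c12 c23.symm).mono (T := {d₁, d₂, d₃}) (by grind)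
  obtain ⟨m1, m2⟩ := CA.Fi.mem24 M h₁
  have m3 : E ≤ ⁅Subgroup.centralizer {d₁, d₂, d₃}, Subgroup.centralizer {d₁, d₂, d₃}⁆ := hE.le.trans
    ((Subgroup.closure_le _).2 (by rintro _ (rfl | rfl); exacts [s1.mem h M'.prim.cls, s2.mem h M'.prim.cls]))
  have hV : E = commutator G ⊓ Subgroup.closure {d₁, d₂, d₃} :=
    CA.Fi.inf_closure m2 (CA.Tr3Basic.sq M.prim.set h₁) (h.comm _ (by simp)) (le_inf (m3.trans
      (Subgroup.commutator_mono le_top le_top)) (hE.le.trans ((Subgroup.closure_le _).2 (by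
        rintro _ (rfl | rfl) <;> exact Subgroup.mul_mem _ (Subgroup.subset_closure (by simp))
          (Subgroup.subset_closure (by simp)))))) (by
      simp [CA.Tr3Basic.sq M.prim.set h₁, ← c12.eq, ← c13.eq, hE]
      exact ⟨Subgroup.subset_closure (by simp), Subgroup.subset_closure (by simp)⟩)
  have k : ∀ g, Commute g (d₁ * d₂) → Commute g (d₁ * d₃) → g ∈ Subgroup.centralizer {d₁, d₂, d₃} := fun g a b => by
    have u := fun {x y} (hx : x ∈ D) (hy : y ∈ D) (e : x ≠ y) (c : Commute x y) (a : Commute g (x * y)) =>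
      CA.Fi.PF.hu M.prim (CA.Fi.top24 M).2.1 (by omega) (by omega) (CA.Fi.pf2 hx hy e c) _
        ((CA.Tr3Basic.conj_eq_iff_commute _ _).2 a ▸ (CA.Fi.pf2 hx hy e c).conj M.prim g) (g * x * g⁻¹) (by simp)
    have c : Commute g d₁ := (CA.Tr3Basic.conj_eq_iff_commute _ _).1 (by
      have u1 := u h₁ h₂ h12 c12 a
      have u2 := u h₁ h₃ h13 c13 b
      simp only [List.mem_cons, List.not_mem_nil, or_false] at u1 u2
      exact u1.elim id fun e => u2.resolve_right fun e' => h23 (e.symm.trans e'))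
    have a' := c.inv_right.mul_right a
    have b' := c.inv_right.mul_right b
    rw [inv_mul_cancel_left] at a' b'
    exact CA.Fi.mem_cz.2 (by simp [c, a', b'])
  obtain ⟨q, z, fs, kc, vk, ⟨ψ, s3, k3⟩, ⟨f, s4, k4⟩, ρ, k5, c5, -⟩ := h.master (CA.FiSimple.simple21 M')
    (CA.FiSimple.perfect21 M') M.prim p (by simp) ((CA.Fi.top24 M).2.2 3 (by omega))
    (CA.Fi.PF.hu M.prim (CA.Fi.top24 M).2.1 (by omega) (by omega) p) (a := d₁) (by simp) m1
    (fun g e _ => k g (s1.comm e) (s2.comm e)) rfl hCL hV m3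
  obtain rfl := hK.trans fs.symm
  have n1 : (E.subgroupOf _).Normal := k3 ▸ ψ.normal_ker
  have n2 : (Subgroup.subgroupOf _ CL).Normal := k4 ▸ f.normal_ker
  have n3 : (E.subgroupOf CL).Normal := k5 ▸ ρ.normal_ker
  refine ⟨q, z, congrArg _ (le_antisymm (fun g hg x hx => (CA.Fi.comm_closure hg (hV.le hx).2).symm) fun g hg => k g
    (CA.Fi.mem_cz.1 hg _ (hE.ge (Subgroup.subset_closure (by simp))))
    (CA.Fi.mem_cz.1 hg _ (hE.ge (Subgroup.subset_closure (by simp))))), ⟨n1, F, inferInstance, inferInstance, hF,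
    CA.Fi.quot_equiv s3 k3⟩, n2, CA.Fi.quot_equiv s4 k4, vk.trans kc, n3, F, inferInstance, inferInstance, hF,
    CA.Fi.quot_equiv (CA.Fi.surj_of_card (c5.trans (CA.Fi.caut21 M').symm)) k5⟩

end Cfsg.Agent.S5466
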