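import Cfsg.Statements.S5468
import Cfsg.Agent.Lib.Fi.FiW2

set_option autoImplicit false
open Cfsg

namespace Cfsg.Agent.S5468

/-- Let G be a finite group with trivial centre generated by a conjugation-invariant set D of 3-transpositions on which it acts primitively, such that for some d in D the subgroup generated by the members of D other than d commuting with d has central largest normal 2- and 3-subgroups, and suppose G with D is of type M(23). Let d₁, d₂ be distinct commuting members of D, j = d₁ d₂, K the joint centralizer of d₁ and d₂ and C the centralizer of j. Then K has index 2 in C, the centre of K is the subgroup generated by d₁ and d₂, K is quasisimple with K modulo its centre isomorphic to the projective special unitary group of dimension 6 over the field with four elements, and C modulo the subgroup generated by d₁ and d₂ has trivial centre (so it is that unitary group extended by an outer involution). -/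
theorem result {G : Type*} [Group G] [Finite G] {D : Set G} (hD : Cfsg.IsThreeTranspositionGroup D) (hprim : Cfsg.IsPrimitiveUnderConj D) (d₀ : G) (hd₀ : d₀ ∈ D) (h3 : Cfsg.pCore 3 ↥(Subgroup.closure {y : G | y ∈ D ∧ y ≠ d₀ ∧ Commute d₀ y}) ≤ Subgroup.center ↥(Subgroup.closure {y : G | y ∈ D ∧ y ≠ d₀ ∧ Commute d₀ y})) (h2 : Cfsg.pCore 2 ↥(Subgroup.closure {y : G | y ∈ D ∧ y ≠ d₀ ∧ Commute d₀ y}) ≤ Subgroup.center ↥(Subgroup.closure {y : G | y ∈ D ∧ y ≠ d₀ ∧ Commute d₀ y})) (h23 : Cfsg.IsOfTypeM23 G D) (d₁ d₂ : G) (h₁ : d₁ ∈ D) (h₂ : d₂ ∈ D) (hne : d₁ ≠ d₂) (hc : Commute d₁ d₂) (K C V : Subgroup G) (hK : K = Subgroup.centralizer ({d₁, d₂} : Set G)) (hC : C = Subgroup.centralizer ({d₁ * d₂} : Set G)) (hV : V = Subgroup.closure ({d₁, d₂} : Set G)) [hn : (V.subgroupOf C).Normal] : K ≤ C ∧ (K.subgroupOf C).index = 2 ∧ (Subgroup.center ↥K).map K.subtype = V ∧ Cfsg.IsQuasisimple ↥K ∧ (∃ (F : Type) (_ : Field F) (_ : Fintype F), Fintype.card F = 4 ∧ Nonempty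 (↥K ⧸ Subgroup.center ↥K ≃* Cfsg.PSU 6 F 2)) ∧ Subgroup.center (↥C ⧸ V.subgroupOf C) = ⊥ := by
  obtain ⟨M⟩ := CA.Fi.T23 hD hprim h23
  obtain ⟨M'⟩ := CA.Fi.model21
  obtain ⟨χ, h⟩ := CA.Fi.lo23' M M' h₁ h₂ hne hc
  have p := CA.Fi.pf2 h₁ h₂ hne hc
  have s1 := CA.Fi.six23 M h₁ h₂ hne hc
  have s2 := CA.Fi.six23 M h₂ h₁ hne.symm hc.symm
  rw [Set.pair_comm] at s2
  obtain ⟨q, z, -, kc, -, ⟨ψ, s3, k3⟩, ⟨f, s4, k4⟩, ρ, k5, -, i⟩ := h.master (CA.FiSimple.simple21 M')
    (CA.FiSimple.perfect21 M') M.prim p (by simp) ((CA.Fi.top23 M).2.2 2 (by omega))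
    (CA.Fi.PF.hu M.prim (CA.Fi.top23 M).2.1 (by omega) (by omega) p) (L := ⊤) (a := d₁) (by simp) (by simp)
    (fun g e _ => CA.Fi.mem_cz.2 (by simp [s1.comm e, s2.comm e])) (K := K) (C := C) (V := V) (by simp [hK]) (by simp [hC])
    (by simp [hV]) (hV.le.trans ((Subgroup.closure_le _).2 (by
      rintro _ (rfl | rfl); exacts [s1.mem h M'.prim.cls, s2.mem h M'.prim.cls])))
  obtain ⟨F, _, _, hF⟩ := CA.Fi.card_F4
  refine ⟨kc, by rw [← k4, Subgroup.index_ker, MonoidHom.range_eq_top.2 s4]; simp [Fintype.card_perm], z, q,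
    ⟨F, inferInstance, inferInstance, hF, ⟨(CA.Fi.quot_equiv s3 ?_).some.trans (CA.FiU6.iso M' _ hF).some⟩⟩,
    CA.Fi.center_quot M'.center k5 i⟩
  rw [k3, ← z, Subgroup.subgroupOf, Subgroup.comap_map_eq_self_of_injective (Subgroup.subtype_injective _)]

end Cfsg.Agent.S5468
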