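import Cfsg.Statements.S5469
import Cfsg.Agent.Lib.Fi.C2B

set_option autoImplicit false
open Cfsg

namespace Cfsg.Agent.S5469

/-- Let G be a finite group with trivial centre generated by a conjugation-invariant set D of 3-transpositions on which it acts primitively, such that for some d in D the subgroup generated by the members of D other than d commuting with d has central largest normal 2- and 3-subgroups, and suppose G with D is of type M(22). Let d₁, d₂ be distinct commuting members of D, j = d₁ d₂, K the joint centralizer of d₁ and d₂, C the centralizer of j and V the subgroup generated by d₁ and d₂. Then K has index 2 in C, V is the centre of K, and C has a normal subgroup E containing V with E/V elementary abelian of order 2^8 and C/E isomorphic to the full automorphism group of the projective special unitary group of dimension 4 over the field with four elements. -/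
theorem result {G : Type*} [Group G] [Finite G] {D : Set G} (hD : Cfsg.IsThreeTranspositionGroup D) (hprim : Cfsg.IsPrimitiveUnderConj D) (d₀ : G) (hd₀ : d₀ ∈ D) (h3 : Cfsg.pCore 3 ↥(Subgroup.closure {y : G | y ∈ D ∧ y ≠ d₀ ∧ Commute d₀ y}) ≤ Subgroup.center ↥(Subgroup.closure {y : G | y ∈ D ∧ y ≠ d₀ ∧ Commute d₀ y})) (h2 : Cfsg.pCore 2 ↥(Subgroup.closure {y : G | y ∈ D ∧ y ≠ d₀ ∧ Commute d₀ y}) ≤ Subgroup.center ↥(Subgroup.closure {y : G | y ∈ D ∧ y ≠ d₀ ∧ Commute d₀ y})) (h22 : Cfsg.IsOfTypeM22 G D) (d₁ d₂ : G) (h₁ : d₁ ∈ D) (h₂ : d₂ ∈ D) (hne : d₁ ≠ d₂) (hc : Commute d₁ d₂) (K C V : Subgroup G) (hK : K = Subgroup.centralizer ({d₁, d₂} : Set G)) (hC : C = Subgroup.centralizer ({d₁ * d₂} : Set G)) (hV : V = Subgroup.closure ({d₁, d₂} : Set G)) : K ≤ C ∧ (K.subgroupOf C).index = 2 ∧ (Subgroup.center ↥K).map K.subtype = V ∧ ∃ E : Subgroup G, V ≤ E ∧ E ≤ C ∧ (∀ c ∈ C, ∀ x ∈ E, c * x * c⁻¹ ∈ E) ∧ Nat.card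 E = 2 ^ 10 ∧ (∀ x ∈ E, ∀ y ∈ E, x * y * x⁻¹ * y⁻¹ ∈ V ∧ x ^ 2 ∈ V) ∧ ∃ (_ : (E.subgroupOf C).Normal) (F : Type) (_ : Field F) (_ : Fintype F), Fintype.card F = 4 ∧ Nonempty (↥C ⧸ E.subgroupOf C ≃* MulAut (Cfsg.PSU 4 F 2)) := by
  obtain ⟨M⟩ := CA.Fi.T22 hD h22
  have p := CA.Fi.pf2 h₁ h₂ hne hc
  obtain ⟨i1, i2⟩ := CA.C2B.idx M p
  obtain ⟨M, e⟩ := M.recenterL ((CA.Fi.top22 M).2.2 2 (by omega)) (CA.Fi.pf22c M) p
  simp only [List.map_cons, List.map_nil, List.cons.injEq, and_true] at e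
  have ez : d₁ * d₂ = M.e [0,4] := e.1 ▸ e.2 ▸ CA.C2B.pac M
  have ea : d₁ = M.e [0] := e.1 ▸ CA.C2B.pa M
  obtain ⟨h1, ⟨θ, h2, h3⟩, h4, -⟩ := CA.C2B.mainG M
  have h5 := CA.C2B.cardE M
  have h6 := (CA.C2B.exG M).1
  have h7 := CA.C2B.comA M
  rw [CA.LocG.H_cons] at h1 h3 h4 h5
  rw [← ez] at h1 h4 h6
  rw [← ea] at h1 h3 h4 h5 h7
  subst hK hC hV
  generalize M.H ([0,4] :: CA.C2B.es) = E at *
  have a1 : d₁ ∈ Subgroup.closure {d₁, d₂} := Subgroup.subset_closure (by simp)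
  have a2 : Subgroup.zpowers (d₁ * d₂) ≤ Subgroup.closure {d₁, d₂} :=
    Subgroup.zpowers_le.2 (mul_mem a1 (Subgroup.subset_closure (by simp)))
  have dec : ∀ x ∈ Subgroup.zpowers d₁ ⊔ E, ∃ k : ℤ, ∃ y ∈ E, x = d₁ ^ k * y := fun x hx => by
    have : x ∈ ((Subgroup.zpowers d₁ ⊔ E : Subgroup G) : Set G) := hx
    rw [Subgroup.coe_mul_of_left_le_normalizer_right _ _ (Subgroup.zpowers_le.2 (Subgroup.centralizer_le_normalizer _
      fun y hy => (h7 y hy).symm))] at this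
    obtain ⟨_, ⟨k, rfl⟩, y, hy, rfl⟩ := this
    exact ⟨k, y, hy, rfl⟩
  have hK : Subgroup.zpowers d₁ ⊔ E ≤ Subgroup.centralizer {d₁, d₂} := fun x hx => by
    have c1 : Commute x d₁ := by
      obtain ⟨k, y, hy, rfl⟩ := dec x hx
      exact (Commute.zpow_self _ _).mul_left (h7 y hy).symm
    have c2 : Commute x (d₁ * d₂) := Subgroup.mem_centralizer_singleton_iff.1 (h1 hx)
    exact CA.Fi.mem_cz.2 (by simpa [c1] using c1.inv_right.mul_right c2)
  have hn : ((Subgroup.zpowers d₁ ⊔ E).subgroupOf (Subgroup.centralizer {d₁ * d₂})).Normal := by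
    rw [ez, ← h3]; infer_instance
  obtain ⟨F, _, _, hF⟩ := CA.Fi.card_F4
  refine ⟨i1, i2, le_antisymm ?_ ((Subgroup.closure_le _).2 fun x hx => ?_), Subgroup.zpowers d₁ ⊔ E,
    (Subgroup.closure_le _).2 ?_, h1, fun c hc x hx => hn.conj_mem ⟨x, h1 hx⟩ hx ⟨c, hc⟩, h5, fun x hx y hy => ?_,
    hn, F, inferInstance, inferInstance, hF, ?_⟩
  · rintro _ ⟨x, hx, rfl⟩
    have c : ∀ y ∈ Subgroup.zpowers d₁ ⊔ E, y * x.1 = x.1 * y := fun y hy =>
      congrArg Subtype.val (Subgroup.mem_center_iff.1 hx ⟨y, hK hy⟩)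
    obtain ⟨k, y, hy, e⟩ := dec _ (h4 ⟨i1 x.2, c⟩)
    rw [Subgroup.subtype_apply, e]
    refine mul_mem (zpow_mem a1 k) (a2 (h6.ctr ⟨hy, fun u hu => ?_⟩))
    have := c u (Subgroup.mem_sup_right hu)
    rwa [e, ← mul_assoc, ← ((h7 u hu).zpow_left k).eq, mul_assoc, mul_assoc, mul_right_inj] at this
  · have : x ∈ Subgroup.centralizer {d₁, d₂} := CA.Fi.mem_cz.2 (by
      rcases hx with rfl | rfl <;> simp [hc, hc.symm])
    exact ⟨⟨x, this⟩, Subgroup.mem_center_iff.2 fun y => Subtype.ext (CA.Fi.mem_cz.1 y.2 x hx), rfl⟩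
  · have b := Subgroup.mem_sup_left (S := Subgroup.zpowers d₁) (T := E) (Subgroup.mem_zpowers _)
    rintro _ (rfl | rfl)
    · exact b
    · simpa using mul_mem (inv_mem b) (Subgroup.mem_sup_right h6.mem)
  · replace hx := dec x hx
    replace hy := dec y hy
    obtain ⟨k, x, hx, rfl⟩ := hx
    obtain ⟨l, y, hy, rfl⟩ := hy
    have c1 := (h7 x hx).zpow_left k
    have c2 := (h7 y hy).zpow_left k
    have c3 := (h7 x hx).zpow_left l
    refine ⟨?_, c1.mul_pow 2 ▸ mul_mem (pow_mem (zpow_mem a1 k) 2) (a2 (pow_two x ▸ h6.pow x hx))⟩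
    have : d₁ ^ k * x * (d₁ ^ l * y) * (d₁ ^ k * x)⁻¹ * (d₁ ^ l * y)⁻¹ =
        d₁ ^ (k + l) * (x * y * x⁻¹ * y⁻¹) * (d₁ ^ (k + l))⁻¹ := by
      rw [mul_assoc _ x, ← mul_assoc x, ← c3.eq, mul_inv_rev, mul_inv_rev, mul_assoc _ _ (y⁻¹ * _),
        mul_assoc x⁻¹, ← mul_assoc _ y⁻¹, c2.inv_inv.eq]
      group
    rw [this]
    exact mul_mem (mul_mem (zpow_mem a1 _) (a2 (h6.comm hx hy))) (inv_mem (zpow_mem a1 _))
  · revert hn; rw [ez]; intro hn
    exact ⟨(CA.Fi.quot_equiv h2 h3).some.trans (CA.We6.autU F hF).some⟩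

end Cfsg.Agent.S5469
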