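import Cfsg.Statements.S5471
import Cfsg.Agent.Lib.Fi.FiW2

set_option autoImplicit false
open Cfsg

namespace Cfsg.Agent.S5471

/-- Let G be a finite group with trivial centre generated by a conjugation-invariant set D of 3-transpositions on which it acts primitively, such that for some d in D the subgroup generated by the members of D other than d commuting with d has central largest normal 2- and 3-subgroups, and suppose G with D is of type M(23). Let d₁, d₂, d₃ be distinct pairwise commuting members of D and j their product. Then the joint centralizer of d₁, d₂, d₃ is normal in the centralizer of j with quotient isomorphic to the symmetric group of degree 3. -/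
theorem result {G : Type*} [Group G] [Finite G] {D : Set G} (hD : Cfsg.IsThreeTranspositionGroup D) (hprim : Cfsg.IsPrimitiveUnderConj D) (d₀ : G) (hd₀ : d₀ ∈ D) (h3 : Cfsg.pCore 3 ↥(Subgroup.closure {y : G | y ∈ D ∧ y ≠ d₀ ∧ Commute d₀ y}) ≤ Subgroup.center ↥(Subgroup.closure {y : G | y ∈ D ∧ y ≠ d₀ ∧ Commute d₀ y})) (h2 : Cfsg.pCore 2 ↥(Subgroup.closure {y : G | y ∈ D ∧ y ≠ d₀ ∧ Commute d₀ y}) ≤ Subgroup.center ↥(Subgroup.closure {y : G | y ∈ D ∧ y ≠ d₀ ∧ Commute d₀ y})) (h23 : Cfsg.IsOfTypeM23 G D) (d₁ d₂ d₃ : G) (h₁ : d₁ ∈ D) (h₂ : d₂ ∈ D) (h₃ : d₃ ∈ D) (h12 : d₁ ≠ d₂) (h13 : d₁ ≠ d₃) (h23 : d₂ ≠ d₃) (c12 : Commute d₁ d₂) (c13 : Commute d₁ d₃) (c23 : Commute d₂ d₃) (K C : Subgroup G) (hK : K = Subgroup.centralizer ({d₁, d₂, d₃} : Set G)) (hC : C = Subgroup.centralizer ({d₁ * d₂ * d₃} : Set G)) : K ≤ C ∧ ∃ _ : (K.subgroupOf C).Normal, Nonempty (↥C ⧸ K.subgroupOf C ≃* Equiv.Perm (Fin 3)) := by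
  subst hK hC
  obtain ⟨M⟩ := CA.Fi.T23 hD hprim ‹_›
  have h := CA.Fi.pf3 h₁ h₂ h₃ h12 h13 h23 c12 c13 c23
  obtain ⟨f, h1, h2⟩ := CA.Fi.exists_symm M.prim h ((CA.Fi.top23 M).2.2 3 (by omega))
    (CA.Fi.PF.hu M.prim (CA.Fi.top23 M).2.1 le_rfl le_rfl h)
  have e : f.ker = (Subgroup.centralizer {d₁, d₂, d₃}).subgroupOf _ := Subgroup.ext fun g => (h2 g).trans (by
    simp [Subgroup.mem_subgroupOf, CA.Fi.mem_cz])
  refine ⟨fun g hg => Subgroup.mem_centralizer_singleton_iff.2 (CA.Fi.PF.comm h fun a ha => CA.Fi.mem_cz.1 hg a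
    (by simpa using ha)), e ▸ inferInstance, ?_⟩
  have : ((Subgroup.centralizer {d₁, d₂, d₃}).subgroupOf (Subgroup.centralizer {d₁ * d₂ * d₃})).Normal := e ▸ inferInstance
  exact CA.Fi.quot_equiv h1 e

end Cfsg.Agent.S5471
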