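import Cfsg.Statements.S5516
import Cfsg.Agent.Lib.Fi.L24g

set_option autoImplicit false
open Cfsg

namespace Cfsg.Agent.S5516

/-- PΩ⁺(8, 3) (the commutator subgroup of the isometry group of the hyperbolic quadratic form in dimension 8 over the field with three elements, modulo its centre) has exactly 13 conjugacy classes of subgroups of order 3; and a finite group G whose generalized Fitting subgroup L is isomorphic to PΩ⁺(8, 3) with G/L the symmetric group of degree 3 has exactly 7 orbits, under conjugation, on the subgroups of L of order 3. -/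
theorem result {G : Type*} [Group G] [Finite G] (L : Subgroup G) (hL : L = Cfsg.generalizedFittingSubgroup G) (hF : Nonempty (↥L ≃* Cfsg.POmega (ZMod 3) (Cfsg.quadFormPlus 4 (ZMod 3)))) [hn : L.Normal] (hq : Nonempty (G ⧸ L ≃* Equiv.Perm (Fin 3))) : (∃ Y : Fin 13 → Subgroup (Cfsg.POmega (ZMod 3) (Cfsg.quadFormPlus 4 (ZMod 3))), (∀ i, Nat.card (Y i) = 3) ∧ (∀ i j, (∃ g : Cfsg.POmega (ZMod 3) (Cfsg.quadFormPlus 4 (ZMod 3)), (Y i).map (MulAut.conj g).toMonoidHom = Y j) → i = j) ∧ (∀ X : Subgroup (Cfsg.POmega (ZMod 3) (Cfsg.quadFormPlus 4 (ZMod 3))), Nat.card X = 3 → ∃ i, ∃ g : Cfsg.POmega (ZMod 3) (Cfsg.quadFormPlus 4 (ZMod 3)), X.map (MulAut.conj g).toMonoidHom = Y i)) ∧ ∃ Y : Fin 7 → Subgroup G, (∀ i, Y i ≤ L ∧ Nat.card (Y i) = 3) ∧ (∀ i j, (∃ g : G, (Y i).map (MulAut.conj g).toMonoidHom = Y j) → i = j) ∧ ∀ X : Subgroup G, X ≤ L → Nat.card X = 3 → ∃ i, ∃ g : G, X.map (MulAut.conj g).toMonoidHom = Y i := by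
  subst hL
  obtain ⟨M⟩ := CA.Fi.model24
  have := M.finite
  refine ⟨(CA.L24g.sc13 M).iso ((CA.FiL.toP M CA.FiO8.gN).trans CA.FiO8.iso.2.some), ?_⟩
  obtain ⟨h1, _, h2⟩ := CA.Fi.fstarL24 M
  obtain ⟨e⟩ := CA.LocS.unique hF h1 hq h2
  have h := (CA.L24g.sc7 M).comap (f := (Subgroup.subtype _).comp e.toMonoidHom)
    (Subtype.val_injective.comp e.injective) (by
      rw [MonoidHom.range_comp, MonoidHom.range_eq_top.2 e.surjective, ← MonoidHom.range_eq_map, Subgroup.range_subtype])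
    (CA.L24g.hNL M)
  rwa [← CA.L24g.fstar M, ← CA.Fstar.map_fstar_equiv e, Subgroup.map_map,
    Subgroup.comap_map_eq_self_of_injective (Subtype.val_injective.comp e.injective)] at h

end Cfsg.Agent.S5516
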