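import Cfsg.Statements.S5517
import Cfsg.Agent.Lib.Fi.LocG3
import Cfsg.Agent.Lib.Fi.FiT
import Cfsg.Agent.Lib.Spor.FiO7

set_option autoImplicit false
open Cfsg

namespace Cfsg.Agent.S5517

/-- Let G be a finite group with trivial centre generated by a conjugation-invariant set D of 3-transpositions on which it acts primitively, such that for some d in D the subgroup generated by the members of D other than d commuting with d has central largest normal 2- and 3-subgroups, and suppose G with D is of type M(22). Then G has a subgroup L generated by the members of D it contains and isomorphic to Ω(7, 3) (the commutator subgroup of the isometry group of a non-degenerate 7-dimensional quadratic form over the field with three elements, modulo its centre), and every Sylow 3-subgroup of L is a Sylow 3-subgroup of G. -/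
theorem result {G : Type*} [Group G] [Finite G] {D : Set G} (hD : Cfsg.IsThreeTranspositionGroup D) (hprim : Cfsg.IsPrimitiveUnderConj D) (d₀ : G) (hd₀ : d₀ ∈ D) (h3 : Cfsg.pCore 3 ↥(Subgroup.closure {y : G | y ∈ D ∧ y ≠ d₀ ∧ Commute d₀ y}) ≤ Subgroup.center ↥(Subgroup.closure {y : G | y ∈ D ∧ y ≠ d₀ ∧ Commute d₀ y})) (h2 : Cfsg.pCore 2 ↥(Subgroup.closure {y : G | y ∈ D ∧ y ≠ d₀ ∧ Commute d₀ y}) ≤ Subgroup.center ↥(Subgroup.closure {y : G | y ∈ D ∧ y ≠ d₀ ∧ Commute d₀ y})) (h22 : Cfsg.IsOfTypeM22 G D) : ∃ L : Subgroup G, Cfsg.IsDSubgroup D L ∧ Nonempty (↥L ≃* Cfsg.POmega (ZMod 3) (Cfsg.quadFormOdd 3 (ZMod 3))) ∧ ∀ P : Sylow 3 ↥L, ∃ P' : Sylow 3 G, (P : Subgroup ↥L).map L.subtype = (P' : Subgroup G) := by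
  obtain ⟨M⟩ := CA.Fi.T22 hD h22
  refine ⟨M.H CA.FiO7.gens, CA.LocG3.dsub fun w hw => ?_, ⟨(CA.FiL.toP M _).trans CA.FiO7.iso.some⟩,
    CA.LocG3.sylow_map (by decide) ?_⟩
  · simp only [List.mem_cons, List.not_mem_nil, or_false] at hw
    have e := fun i => CA.CWord.ev_gen M.γ i
    rcases hw with rfl | rfl | rfl | rfl | rfl | rfl | rfl | rfl
    exacts [e 1 ▸ CA.Fi.pt22b M ▸ M.t_mem _, e 2 ▸ CA.Fi.pt22c M ▸ M.t_mem _, e 3 ▸ CA.Fi.pt22d M ▸ M.t_mem _,
      e 4 ▸ CA.Fi.pt22e M ▸ M.t_mem _, e 5 ▸ CA.Fi.pt22f M ▸ M.t_mem _, e 6 ▸ CA.Fi.pt22g M ▸ M.t_mem _,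
      e 7 ▸ CA.Fi.pt22h M ▸ M.t_mem _, e 8 ▸ CA.Fi.pt22i M ▸ M.t_mem _]
  · rw [CA.LocG3.index_eq ((M.card_H _).trans CA.Fi22Pres.cardO7) (by decide) (b := 14080) (CA.Fi.card22 M)]
    decide

end Cfsg.Agent.S5517
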