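import Cfsg.Statements.S5519
import Cfsg.Agent.Lib.Fi.C2B
import Cfsg.Agent.Lib.Spor.FiL

set_option autoImplicit false
open Cfsg

namespace Cfsg.Agent.S5519

/-- Let G be a finite group with trivial centre generated by a conjugation-invariant set D of 3-transpositions on which it acts primitively, such that for some d in D the subgroup generated by the members of D other than d commuting with d has central largest normal 2- and 3-subgroups, and suppose G with D is of type M(22). Let d₁, d₂ be distinct commuting members of D and C the centralizer of their product. Then the generalized Fitting subgroup of C is the direct product of a group of order 2 and an extraspecial 2-group of order 2^9, and C modulo it is isomorphic to the full isometry group of the elliptic quadratic form in dimension 6 over the field with two elements. -/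
theorem result {G : Type*} [Group G] [Finite G] {D : Set G} (hD : Cfsg.IsThreeTranspositionGroup D) (hprim : Cfsg.IsPrimitiveUnderConj D) (d₀ : G) (hd₀ : d₀ ∈ D) (h3 : Cfsg.pCore 3 ↥(Subgroup.closure {y : G | y ∈ D ∧ y ≠ d₀ ∧ Commute d₀ y}) ≤ Subgroup.center ↥(Subgroup.closure {y : G | y ∈ D ∧ y ≠ d₀ ∧ Commute d₀ y})) (h2 : Cfsg.pCore 2 ↥(Subgroup.closure {y : G | y ∈ D ∧ y ≠ d₀ ∧ Commute d₀ y}) ≤ Subgroup.center ↥(Subgroup.closure {y : G | y ∈ D ∧ y ≠ d₀ ∧ Commute d₀ y})) (h22 : Cfsg.IsOfTypeM22 G D) (d₁ d₂ : G) (h₁ : d₁ ∈ D) (h₂ : d₂ ∈ D) (hne : d₁ ≠ d₂) (hc : Commute d₁ d₂) (C : Subgroup G) (hC : C = Subgroup.centralizer ({d₁ * d₂} : Set G)) [hn : (Cfsg.generalizedFittingSubgroup ↥C).Normal] : (∃ (E : Type) (_ : Group E) (_ : Finite E), Cfsg.IsExtraspecial 2 E ∧ Nat.card E = 2 ^ 9 ∧ Nonempty (↥(Cfsg.generalizedFittingSubgroup ↥C) ≃* Multiplicative (ZMod 2) × E)) ∧ Nonempty (↥C ⧸ Cfsg.generalizedFittingSubgroup ↥C ≃* Cfsg.isometryGroup (ZMod 2) (Cfsg.quadFormMinus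 2 (ZMod 2) 1 1)) := by
  obtain ⟨M⟩ := CA.Fi.T22 hD h22
  have p := CA.Fi.pf2 h₁ h₂ hne hc
  obtain ⟨M, e⟩ := M.recenterL ((CA.Fi.top22 M).2.2 2 (by omega)) (CA.Fi.pf22c M) p
  simp only [List.map_cons, List.map_nil, List.cons.injEq, and_true] at e
  rw [← e.1, ← e.2, CA.C2B.pac M] at hC
  subst hC
  obtain ⟨h1, ⟨θ, h2, h3⟩, -, h4⟩ := CA.C2B.mainG M
  exact ⟨⟨_, inferInstance, inferInstance, CA.C2B.exP.1, CA.C2B.exP.2, ⟨(MulEquiv.subgroupCongr h4).trans
    ((Subgroup.subgroupOfEquivOfLe h1).trans ((CA.C2B.prodE M).some.trans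
      (MulEquiv.prodCongr (MulEquiv.refl _) (CA.FiL.toP M _))))⟩⟩, CA.Fi.quot_equiv h2 (h3.trans h4.symm)⟩

end Cfsg.Agent.S5519
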