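import Cfsg.Statements.S5541
import Mathlib

set_option autoImplicit false
open Cfsg

namespace Cfsg.Agent.S5541

/-- Let ρ be a representation of a group H on a finite-dimensional real vector space U whose only ρ-invariant subspaces are the zero subspace and U, and suppose U carries a non-zero ρ-invariant symmetric bilinear form. Then the following are equivalent: (1) there is a non-zero ρ-equivariant commutative bilinear product on U of which every ρ-equivariant bilinear product is a scalar multiple; (2) there is a non-zero ρ-invariant trilinear form on U that is symmetric under all permutations of its arguments and of which every ρ-invariant trilinear form is a scalar multiple. -/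
theorem result {H : Type*} [Group H] {U : Type*} [AddCommGroup U] [Module ℝ U] [FiniteDimensional ℝ U] (ρ : Representation ℝ H U) (hirr : ∀ W : Submodule ℝ U, (∀ g : H, W.map (ρ g) ≤ W) → W = ⊥ ∨ W = ⊤) (B : LinearMap.BilinForm ℝ U) (hB0 : B ≠ 0) (hBs : ∀ u v, B u v = B v u) (hBi : ∀ (g : H) (u v : U), B (ρ g u) (ρ g v) = B u v) : (∃ m : U →ₗ[ℝ] U →ₗ[ℝ] U, m ≠ 0 ∧ (∀ u v, m u v = m v u) ∧ (∀ (g : H) (u v : U), m (ρ g u) (ρ g v) = ρ g (m u v)) ∧ ∀ m' : U →ₗ[ℝ] U →ₗ[ℝ] U, (∀ (g : H) (u v : U), m' (ρ g u) (ρ g v) = ρ g (m' u v)) → ∃ c : ℝ, m' = c • m) ↔ (∃ t : U →ₗ[ℝ] U →ₗ[ℝ] U →ₗ[ℝ] ℝ, t ≠ 0 ∧ (∀ u v w, t u v w = t v u w ∧ t u v w = t u w v) ∧ (∀ (g : H) (u v w : U), t (ρ g u) (ρ g v) (ρ g w) = t u v w) ∧ ∀ t' : U →ₗ[ℝ] U →ₗ[ℝ] U →ₗ[ℝ] ℝ, (∀ (g : H) (u v w : U), t' (ρ g u) (ρ g v) (ρ g w) = t' u v w) → ∃ c : ℝ, t' = c • t) := by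
  have hker : LinearMap.ker B = ⊥ := (hirr _ fun g => by
    rintro _ ⟨u, hu, rfl⟩
    refine LinearMap.mem_ker.2 (LinearMap.ext fun v => ?_)
    have h1 : ρ g (ρ g⁻¹ v) = v := by rw [← Module.End.mul_apply, ← map_mul, mul_inv_cancel, map_one]; rfl
    rw [← h1, hBi, LinearMap.mem_ker.1 hu]; rfl).resolve_right fun e => hB0 (LinearMap.ker_eq_top.1 e)
  have hinj : Function.Injective B := LinearMap.ker_eq_bot.1 hker
  let e : U ≃ₗ[ℝ] (U →ₗ[ℝ] ℝ) := LinearEquiv.ofInjectiveOfFinrankEq B hinj (Subspace.dual_finrank_eq).symm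
  have he : ∀ u, e u = B u := fun _ => rfl
  have he' : ∀ f, B (e.symm f) = f := fun f => by rw [← he, e.apply_symm_apply]
  have sur : ∀ (g : H) (v : U), ρ g (ρ g⁻¹ v) = v := fun g v => by
    rw [← Module.End.mul_apply, ← map_mul, mul_inv_cancel, map_one]; rfl
  have k1 : ∀ m : U →ₗ[ℝ] U →ₗ[ℝ] U, (∀ (g : H) (u v : U), m (ρ g u) (ρ g v) = ρ g (m u v)) ↔
      ∀ (g : H) (u v w : U), B (m (ρ g u) (ρ g v)) (ρ g w) = B (m u v) w := fun m =>
    ⟨fun h g u v w => by rw [h, hBi], fun h g u v => hinj (LinearMap.ext fun w => by rw [← sur g w, h, hBi])⟩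
  constructor
  · rintro ⟨m, m0, mc, mi, mu⟩
    have uq : ∀ t' : U →ₗ[ℝ] U →ₗ[ℝ] U →ₗ[ℝ] ℝ, (∀ (g : H) (u v w : U), t' (ρ g u) (ρ g v) (ρ g w) = t' u v w) →
        ∃ c : ℝ, t' = c • m.compr₂ B := fun t' h => by
      obtain ⟨c, hc⟩ := mu (t'.compr₂ e.symm.toLinearMap) ((k1 _).2 fun g u v w => by simp [he', h])
      refine ⟨c, LinearMap.ext₂ fun u v => ?_⟩
      have := congrArg B (LinearMap.congr_fun₂ hc u v)
      simpa [he'] using this
    have t0 : m.compr₂ B ≠ 0 := fun h => m0 (LinearMap.ext₂ fun u v => hinj (by simpa using LinearMap.congr_fun₂ h u v))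
    refine ⟨m.compr₂ B, t0, fun u v w => ⟨by simp [mc u v], ?_⟩, (k1 m).1 mi, uq⟩
    obtain ⟨c, hc⟩ := uq ((m.compr₂ B).compr₂ LinearMap.id |> fun t => (LinearMap.lflip.toLinearMap).comp t)
      fun g u v w => (k1 m).1 mi g u w v
    have h1 : ∀ u v w, B (m u w) v = c * B (m u v) w := fun u v w =>
      LinearMap.congr_fun (LinearMap.congr_fun₂ hc u v) w
    have h2 : ∀ u v w, B (m u v) w = c ^ 3 * B (m u v) w := fun u v w => by
      have := h1 u w v
      rw [mc u w, h1 w v u, mc w v, h1 v u w, mc v u] at this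
      linear_combination this
    have h3 : c = 1 := by
      by_contra hc1
      refine t0 (LinearMap.ext₂ fun u v => LinearMap.ext fun w => ?_)
      have h4 : 1 - c ^ 3 ≠ 0 := fun h => hc1 ((pow_eq_one_iff_of_ne_zero (by norm_num : 3 ≠ 0)).1 (by linarith) |>.resolve_right
        (by norm_num))
      exact (mul_eq_zero.1 (by linear_combination h2 u v w : (1 - c ^ 3) * B (m u v) w = 0)).resolve_left h4
    simp [h1 u v w, h3]
  · rintro ⟨t, t0, ts, ti, tu⟩
    refine ⟨t.compr₂ e.symm.toLinearMap, fun h => t0 (LinearMap.ext₂ fun u v => ?_), fun u v => ?_,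
      (k1 _).2 fun g u v w => by simp [he', ti], fun m' h => ?_⟩
    · simpa using LinearMap.congr_fun₂ h u v
    · exact congrArg e.symm (LinearMap.ext fun w => (ts u v w).1)
    · obtain ⟨c, hc⟩ := tu (m'.compr₂ B) ((k1 m').1 h)
      refine ⟨c, LinearMap.ext₂ fun u v => hinj ?_⟩
      simpa [he'] using LinearMap.congr_fun₂ hc u v

end Cfsg.Agent.S5541
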