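import Cfsg.Statements.S5543
import Cfsg.Agent.Lib.Spor.H19Maj

set_option autoImplicit false
open Cfsg

namespace Cfsg.Agent.S5543

/-- Let V be a finite-dimensional real vector space with a commutative bilinear product and a positive-definite symmetric bilinear form that associates with the product and satisfies the Norton inequality (the Majorana setting of the definitions). Let X be a group of linear automorphisms of V in which every element squares to the identity, and suppose every non-identity element x of X is a Majorana involution with an axial vector a(x) of squared length 1, such that for any two distinct non-identity x, y the product a(x) ∘ a(y) equals (1/8)(a(x) + a(y) − a(xy)) (the dihedral subalgebra of type 2A whose third axis belongs to the involution xy). Then X has order at most 4. -/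
theorem result {V : Type*} [AddCommGroup V] [Module ℝ V] [FiniteDimensional ℝ V] (mul : V →ₗ[ℝ] V →ₗ[ℝ] V) (B : LinearMap.BilinForm ℝ V) (hV : Cfsg.Axial.IsMajoranaAmbient mul B) (X : Subgroup (V ≃ₗ[ℝ] V)) (hX : ∀ x ∈ X, x * x = 1) (ax : (V ≃ₗ[ℝ] V) → V) (hax : ∀ x ∈ X, x ≠ 1 → Cfsg.Axial.IsMajoranaPair mul B x (ax x)) (h1 : ∀ x ∈ X, x ≠ 1 → B (ax x) (ax x) = 1) (h2A : ∀ x ∈ X, ∀ y ∈ X, x ≠ 1 → y ≠ 1 → x ≠ y → mul (ax x) (ax y) = (1 / 8 : ℝ) • (ax x + ax y - ax (x * y))) : Nat.card ↥X ≤ 4 := by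
  classical
  by_contra hc
  push Not at hc
  have : Finite X := Nat.finite_of_card_ne_zero (by omega)
  have := Fintype.ofFinite X
  have ex : ∀ s : Finset X, s.card ≤ 4 → ∃ x, x ∉ s := fun s hs => by
    obtain ⟨x, -, hx⟩ := Finset.exists_mem_notMem_of_card_lt_card (s := s) (t := Finset.univ)
      (by rw [Finset.card_univ, ← Nat.card_eq_fintype_card]; omega)
    exact ⟨x, hx⟩
  have sq : ∀ x : X, x * x = 1 := fun x => Subtype.ext (hX x x.2)
  have iv : ∀ x : X, x⁻¹ = x := fun x => inv_eq_of_mul_eq_one_right (sq x)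
  have cm : ∀ x y : X, x * y = y * x := fun x y => by rw [← iv (x * y), mul_inv_rev, iv, iv]
  have ne : ∀ x y : X, x ≠ y → x * y ≠ 1 := fun x y h e => h (by rw [← iv x, inv_eq_of_mul_eq_one_right e])
  have A : ∀ x y : X, x ≠ 1 → y ≠ 1 → x ≠ y → mul (ax x) (ax y) = (1 / 8 : ℝ) • (ax x + ax y - ax (x * y : X)) :=
    fun x y h1 h2 h3 => h2A x x.2 y y.2 (fun e => h1 (Subtype.ext e)) (fun e => h2 (Subtype.ext e))
      fun e => h3 (Subtype.ext e)
  obtain ⟨t, ht⟩ := ex {1} (by simp)
  obtain ⟨y, hy⟩ := ex {1, t} (Finset.card_le_two.trans (by norm_num))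
  obtain ⟨z, hz⟩ := ex {1, t, y, t * y} Finset.card_le_four
  simp only [Finset.mem_insert, Finset.mem_singleton, not_or] at ht hy hz
  have P := hax t t.2 fun e => ht (Subtype.ext e)
  have l1 : ∀ x : X, t * (t * x) = x := fun x => by rw [← mul_assoc, sq, one_mul]
  have E : ∀ x : X, x ≠ 1 → x ≠ t → mul (ax t) (ax x - ax (t * x : X)) = (1 / 4 : ℝ) • (ax x - ax (t * x : X)) :=
    fun x h1 h2 => by
      rw [map_sub, A t x ht h1 h2.symm, A t (t * x) ht (ne _ _ h2.symm) (fun e => h1 (by simpa using e.symm)), l1]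
      module
  have n1 : y * z ≠ 1 := ne _ _ (Ne.symm hz.2.2.1)
  have n2 : y * z ≠ t := fun e => hz.2.2.2 (by rw [← e, cm y z, mul_assoc, sq, mul_one])
  have n3 : t * y ≠ 1 := ne _ _ (Ne.symm hy.2)
  have n4 : t * z ≠ 1 := ne _ _ (Ne.symm hz.2.1)
  have k : mul (ax y - ax (t * y : X)) (ax z - ax (t * z : X)) = (-1 / 4 : ℝ) • (ax (y * z : X) - ax (t * (y * z) : X)) := by
    simp only [map_sub, LinearMap.sub_apply]
    rw [A y z hy.1 hz.1 (Ne.symm hz.2.2.1), A (t * y) z n3 hz.1 (Ne.symm hz.2.2.2),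
      A y (t * z) hy.1 n4 (fun e => hz.2.2.2 (by rw [e, l1])), A (t * y) (t * z) n3 n4 (fun e => hz.2.2.1 (mul_left_cancel e).symm),
      mul_assoc t y z, show y * (t * z) = t * (y * z) by rw [← mul_assoc, cm y t, mul_assoc],
      show t * y * (t * z) = y * z by rw [cm t y, mul_assoc, l1]]
    module
  have f := CA.Maj.f44 P (E y hy.1 hy.2) (E z hz.1 hz.2.1)
  rw [k, map_smul, E _ n1 n2, map_smul, map_smul, E _ n1 n2] at f
  have e : ax (y * z : X) = ax (t * (y * z) : X) := by linear_combination (norm := module) (64 / 3 : ℝ) • f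
  have e2 := CA.Maj.uniq (hax _ (y * z).2 fun e => n1 (Subtype.ext e))
    (e ▸ hax _ (t * (y * z)).2 fun e => ne _ _ n2.symm (Subtype.ext e))
  exact ht (by simpa using (Subtype.ext e2 : y * z = t * (y * z)).symm)

end Cfsg.Agent.S5543
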