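import Cfsg.Statements.S5544
import Cfsg.Agent.Lib.Spor.H19Sak

set_option autoImplicit false
open Cfsg

namespace Cfsg.Agent.S5544

open CA.Maj Cfsg.Axial

theorem poly {l e b3 b4 b5 b6 : ℝ}
    (h3 : b3 = (-32768 / 7) * l ^ 3 + (36864 / 7) * l ^ 2 + (-1920 / 7) * l * e + (-2169 / 7) * l + (-33 / 7) * e + (33 / 7))
    (h4 : b4 = (8388608 / 7) * l ^ 4 + (-9601024 / 7) * l ^ 3 + 65536 * l ^ 2 * e + 110592 * l ^ 2 + (-640 / 7) * l * e + (-128 / 7) * e ^ 2 + (-19840 / 7) * l + (-3) * e + (156 / 7))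
    (h5 : b5 = (-13958643712 / 49) * l ^ 5 + (16273899520 / 49) * l ^ 4 + (-754974720 / 49) * l ^ 3 * e + (-1633419264 / 49) * l ^ 3 + (12582912 / 49) * l ^ 2 * e + (475136 / 49) * l * e ^ 2 + (8683520 / 7) * l ^ 2 + (259584 / 49) * l * e + (-256 / 49) * e ^ 2 + (-137721 / 7) * l + (-5256 / 49) * e + (5512 / 49))
    (h6 : b6 = (3298534883328 / 49) * l ^ 6 + (-3917010173952 / 49) * l ^ 5 + (177167400960 / 49) * l ^ 4 * e + (469317451776 / 49) * l ^ 4 + (-5511315456 / 49) * l ^ 3 * e + (-25165824 / 7) * l ^ 2 * e ^ 2 + (-22767894528 / 49) * l ^ 3 + (-97910784 / 49) * l ^ 2 * e + (2457600 / 49) * l * e ^ 2 + (16384 / 49) * e ^ 3 + (542429184 / 49) * l ^ 2 + (5162880 / 49) * l * e + (1152 / 49) * e ^ 2 + (-904320 / 7) * l + (-46500 / 49) * e + (29013 / 49))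
    (p1 : 16384 * l ^ 4 + (-18176) * l ^ 3 + 320 * l ^ 2 * e + 1440 * l ^ 2 + (139 / 2) * l * e + 1 * e ^ 2 + (-75 / 2) * l + (-167 / 128) * e + (39 / 128) = 0)
    (p2 : (402653184 / 49) * l ^ 5 + (-453771264 / 49) * l ^ 4 + (19660800 / 49) * l ^ 3 * e + (33103872 / 49) * l ^ 3 + (-1195008 / 49) * l ^ 2 * e + (70656 / 49) * l * e ^ 2 + (-92160 / 7) * l ^ 2 + (124392 / 49) * l * e + (2088 / 49) * e ^ 2 + (-216 / 7) * l + (-8703 / 196) * e + (351 / 196) = 0) :
    e = 1 ∨ b3 = 1 ∨ b4 = 1 ∨ b5 = 1 ∨ b6 = 1 := by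
  obtain ⟨A, hA⟩ : ∃ A, A = (-2949120 / 49) * l ^ 3 + (-138240) * l ^ 2 + (71460 / 49) * l + (8775 / 784) := ⟨_, rfl⟩
  obtain ⟨C, hC⟩ : ∃ C, C = (-754974720 / 49) * l ^ 5 + (796262400 / 49) * l ^ 4 + (-30689280 / 49) * l ^ 3 + (-1002240 / 49) * l ^ 2 + (55260 / 49) * l + (-8775 / 784) := ⟨_, rfl⟩
  have q : A * e + C = 0 := by
    rw [hA, hC]; linear_combination p2 - ((70656 / 49) * l + (2088 / 49)) * p1
  have r : l * (l - 1) * (l - 1 / 8) * ((l - 1 / 64) * (l - 1 / 64)) * (l - 13 / 256) * (l - 1 / 32) * (l - 3 / 128) *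
      (l - 5 / 256) = 0 := by
    have : C * C - (320 * l ^ 2 + (139 / 2) * l + (-167 / 128)) * A * C + (16384 * l ^ 4 + (-18176) * l ^ 3 + 1440 * l ^ 2 + (-75 / 2) * l + (39 / 128)) * A * A = 0 := by
      linear_combination A * A * p1 - (A * e - C + (320 * l ^ 2 + (139 / 2) * l + (-167 / 128)) * A) * q
    rw [hA, hC] at this
    linear_combination (-49 / 35624176739942400) * this
  subst hA hC
  simp only [mul_eq_zero, sub_eq_zero, or_self] at r
  rcases r with ((((((rfl | rfl) | rfl) | rfl) | rfl) | rfl) | rfl) | rfl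
  · exact .inl (by linear_combination (784 / 8775) * q)
  · exact .inl (by linear_combination (-16 / 3151305) * q)
  · exact .inl (by linear_combination (-16 / 33345) * q)
  · have : (e - 1 / 64) * (e - 1 / 8) = 0 := by linear_combination p1
    simp only [mul_eq_zero, sub_eq_zero] at this
    rcases this with rfl | rfl
    · exact .inr (.inl (by rw [h3]; norm_num))
    · exact .inr (.inr (.inl (by rw [h4]; norm_num)))
  · obtain rfl : e = 13 / 256 := by linear_combination (-1792 / 500175) * q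
    exact .inr (.inl (by rw [h3]; norm_num))
  · obtain rfl : e = 0 := by linear_combination (-784 / 62775) * q
    exact .inr (.inr (.inl (by rw [h4]; norm_num)))
  · obtain rfl : e = 3 / 128 := by linear_combination (-56 / 1755) * q
    exact .inr (.inr (.inr (.inl (by rw [h5]; norm_num))))
  · obtain rfl : e = 13 / 256 := by linear_combination (-12544 / 169425) * q
    exact .inr (.inr (.inr (.inr (by rw [h6]; norm_num))))

theorem main {V : Type*} [AddCommGroup V] [Module ℝ V] {m : V →ₗ[ℝ] V →ₗ[ℝ] V} {B : LinearMap.BilinForm ℝ V}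
    {μ0 μ1 : V ≃ₗ[ℝ] V} {a0 a1 am a2 an a3 a4 : V} (hV : IsMajoranaAmbient m B) (h0 : IsMajoranaPair m B μ0 a0)
    (h1 : IsMajoranaPair m B μ1 a1) (n0 : B a0 a0 = 1) (n1 : B a1 a1 = 1) (ham : μ0 a1 = am) (ha2 : μ1 a0 = a2)
    (han : μ0 a2 = an) (ha3 : μ1 am = a3) (ha4 : μ1 an = a4) :
    B a0 a2 = 1 ∨ B a0 a3 = 1 ∨ B a2 an = 1 ∨ B a3 an = 1 ∨ B a4 an = 1 := by
  have cm : ∀ x y, m x y = m y x := hV.1
  have sy := hV.2.1
  have as := hV.2.2.2.1
  obtain ⟨s, hs⟩ : ∃ s, m a0 a1 = s + (1 / 32 : ℝ) • (a0 + a1) := ⟨_, (sub_add_cancel _ _).symm⟩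
  obtain ⟨t, ht⟩ : ∃ t, m a0 a2 = t + (1 / 32 : ℝ) • (a0 + a2) := ⟨_, (sub_add_cancel _ _).symm⟩
  obtain ⟨u, hu⟩ : ∃ u, m a1 am = u + (1 / 32 : ℝ) • (a1 + am) := ⟨_, (sub_add_cancel _ _).symm⟩
  obtain ⟨l, b01⟩ : ∃ l, B a0 a1 = l := ⟨_, rfl⟩
  obtain ⟨e, b02⟩ : ∃ e, B a0 a2 = e := ⟨_, rfl⟩
  obtain ⟨o, b1m⟩ : ∃ o, B a1 am = o := ⟨_, rfl⟩
  obtain ⟨b3, b03⟩ : ∃ o, B a0 a3 = o := ⟨_, rfl⟩
  obtain ⟨b4, b2n⟩ : ∃ o, B a2 an = o := ⟨_, rfl⟩
  obtain ⟨c4, bm3⟩ : ∃ o, B am a3 = o := ⟨_, rfl⟩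
  obtain ⟨b5, b3n⟩ : ∃ o, B a3 an = o := ⟨_, rfl⟩
  obtain ⟨b6, b4n⟩ : ∃ o, B a4 an = o := ⟨_, rfl⟩
  have hs' : m a1 a0 = s + (1 / 32 : ℝ) • (a1 + a0) := by rw [cm, hs, add_comm a0]
  have b10 : B a1 a0 = l := (sy _ _).trans b01
  obtain ⟨p0u, ss0⟩ := core hV h0 h1 n0 n1 ham ha2 han hs ht hu b01 b02 b1m
  obtain ⟨-, ss1⟩ := core hV h1 h0 n1 n0 ha2 ham ha3 hs' hu ht b10 b1m b02
  obtain ⟨p0m, s0, p0s, -, -⟩ := ab hV h0 n0 ham hs b01
  obtain ⟨p12, s1, -, -, -⟩ := ab hV h1 n1 ha2 hs' b10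
  obtain ⟨p0n, t0, p0t, -, -⟩ := ab hV h0 n0 han ht b02
  obtain ⟨-, u1, -, -, -⟩ := ab hV h1 n1 ha3 hu b1m
  have R : a3 = an - (256 * l - 6) • (a2 - am) - ((32768 * l ^ 2 - 2304 * l + 128 * e + 33) / 7) • a1 +
      ((32768 * l ^ 2 - 2304 * l + 128 * o + 33) / 7) • a0 - (32 : ℝ) • (t - u) := by
    linear_combination (norm := module) (196608 / 49 : ℝ) • (ss0.symm.trans ss1).symm
  have f0 := fix_a h0
  have f1 := fix_a h1
  have g0 : ∀ {x y}, μ0 x = y → μ0 y = x := fun h => by rw [← h, CA.Maj.sq h0]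
  have g1 : ∀ {x y}, μ1 x = y → μ1 y = x := fun h => by rw [← h, CA.Maj.sq h1]
  have k0 : ∀ {x y x' y' c}, μ0 x = x' → μ0 y = y' → B x y = c → B x' y' = c := fun h h' e => by
    rw [← h, ← h', h0.2.1, e]
  have k1 : ∀ {x y x' y' c}, μ1 x = x' → μ1 y = y' → B x y = c → B x' y' = c := fun h h' e => by
    rw [← h, ← h', h1.2.1, e]
  have sw : ∀ {x y c}, B x y = c → B y x = c := fun h => (sy _ _).trans h
  have t1 : μ1 t = t := by
    have := congrArg μ1 ht
    rw [h1.1, ha2, g1 ha2, cm a2 a0, ht] at this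
    simp only [map_add, map_smul, ha2, g1 ha2] at this
    linear_combination (norm := module) (-1 : ℝ) • this
  have u0 : μ0 u = u := by
    have := congrArg μ0 hu
    rw [h0.1, ham, g0 ham, cm am a1, hu] at this
    simp only [map_add, map_smul, ham, g0 ham] at this
    linear_combination (norm := module) (-1 : ℝ) • this
  have p00 := idem h0
  have p11 := idem h1
  have p33 : m a3 a3 = a3 := by rw [← ha3, ← ham, ← h1.1, ← h0.1, p11]
  have b0m := k0 f0 ham b01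
  have b0n := k0 f0 han b02
  have b12 := k1 f1 ha2 b10
  have b13 := k1 f1 ha3 b1m
  have b2m := k1 ha2 (g1 ha3) b03
  have b1n := sw (k0 han (g0 ham) b2m)
  have bmn := k0 ham han b12
  have bmm := k0 ham ham n1
  have b22 := k1 ha2 ha2 n0
  have b33 := k1 ha3 ha3 bmm
  have b23 := k1 ha2 ha3 b0m
  have b43 := sw (k1 ha3 ha4 bmn)
  have b42 := sw (k1 ha2 ha4 b0n)
  have b4m := sw (k1 (g1 ha3) ha4 b3n)
  have b41 := sw (k1 f1 ha4 b1n)
  have b40 := sw (k1 (g1 ha2) ha4 b2n)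
  have b0s : B a0 s = l - (1 + l) / 32 := by
    have := as a0 a0 a1
    rw [p00, hs, b01] at this
    simp only [map_add, map_smul, n0, b01, smul_eq_mul] at this
    linear_combination this
  have b1s : B a1 s = l - (1 + l) / 32 := by
    have := as a1 a1 a0
    rw [p11, hs', b10] at this
    simp only [map_add, map_smul, n1, b10, smul_eq_mul] at this
    linear_combination this
  have bms := k0 ham s0 b1s
  have b2s := k1 ha2 s1 b0s
  have b3s := k1 ha3 s1 bms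
  have b0t : B a0 t = e - (1 + e) / 32 := by
    have := as a0 a0 a2
    rw [p00, ht, b02] at this
    simp only [map_add, map_smul, n0, b02, smul_eq_mul] at this
    linear_combination this
  have b1u : B a1 u = o - (1 + o) / 32 := by
    have := as a1 a1 am
    rw [p11, hu, b1m] at this
    simp only [map_add, map_smul, n1, b1m, smul_eq_mul] at this
    linear_combination this
  have b0u : B a0 u = l - (1 + l) / 32 + (o - l) / 32 := by
    have := as a0 a1 am
    rw [hu, hs] at this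
    simp only [map_add, map_smul, LinearMap.add_apply, LinearMap.smul_apply, b01, b0m, b1m, sw bms, smul_eq_mul] at this
    linear_combination this
  have b1t : B a1 t = l - (1 + l) / 32 + (e - l) / 32 := by
    have := as a1 a0 a2
    rw [ht, hs'] at this
    simp only [map_add, map_smul, LinearMap.add_apply, LinearMap.smul_apply, b10, b12, b02, sw b2s, smul_eq_mul] at this
    linear_combination this
  have bmt := k0 ham t0 b1t
  have bmu := k0 ham u0 b1u
  have b2t := k1 ha2 t1 b0t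
  have b2u := k1 ha2 u1 b0u
  have b3t := k1 ha3 t1 bmt
  have b3u := k1 ha3 u1 bmu
  have b4t := k1 ha4 t1 (k0 han t0 b2t)
  have b4u := k1 ha4 u1 (k0 han u0 b2u)
  have R0 := congrArg (B a0) R
  have R1 := congrArg (B a1) R
  have Rm := congrArg (B am) R
  have R2 := congrArg (B a2) R
  have R3 := congrArg (B a3) R
  have R4 := congrArg (B a4) R
  have RR := congrArg (m a0) R
  simp only [map_add, map_sub, map_smul, p00, hs, ht, p0m, p0n, p0t, p0u] at RR
  have Q2 := congrArg (B a2) RR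
  have Q3 := congrArg (B a3) RR
  rw [as, cm a2 a0, ht] at Q2
  rw [cm a0 a3, as, p33] at Q3
  simp only [map_add, map_sub, map_smul, LinearMap.add_apply, LinearMap.smul_apply, smul_eq_mul, n0, n1, b01, b02,
    b03, b0m, b0n, b0t, b0u, b10, b12, b13, b1m, b1n, b1t, b1u, bm3, bmn, sw b2m, bmm, sw b1m, sw b0m, bmt, bmu, b23,
    b2n, b22, b2m, sw b12, sw b02, b2t, b2u, b33, b3n, sw b23, sw bm3, sw b13, sw b03, b3t, b3u, b43, b4n, b42, b4m,
    b41, b40, b4t, b4u, b2s, b3s, sw b3t] at R0 R1 Rm R2 R3 R4 Q2 Q3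
  have l0 : 0 ≤ l := by
    have := hV.2.2.2.2 a0 a1
    rw [p00, p11, b01] at this
    refine le_trans ?_ this
    by_cases h : m a0 a1 = 0
    · rw [h]; simp
    · exact (hV.2.2.1 _ h).le
  obtain rfl : o = e := by
    have : (o - e) * (1920 * l + 303) = 0 := by linear_combination -7 * R0 - 7 * R1
    exact sub_eq_zero.1 ((mul_eq_zero.1 this).resolve_right (by positivity))
  rw [b02, b03, b2n, b3n, b4n]
  have h3 : b3 = (-32768 / 7) * l ^ 3 + (36864 / 7) * l ^ 2 + (-1920 / 7) * l * o + (-2169 / 7) * l + (-33 / 7) * o + (33 / 7) := by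
    linear_combination R0
  subst h3
  have h4 : b4 = (8388608 / 7) * l ^ 4 + (-9601024 / 7) * l ^ 3 + 65536 * l ^ 2 * o + 110592 * l ^ 2 + (-640 / 7) * l * o + (-128 / 7) * o ^ 2 + (-19840 / 7) * l + (-3) * o + (156 / 7) := by
    linear_combination -R2
  have h4' : c4 = b4 := by
    rw [h4]; linear_combination Rm
  subst h4' h4
  have h5 : b5 = (-13958643712 / 49) * l ^ 5 + (16273899520 / 49) * l ^ 4 + (-754974720 / 49) * l ^ 3 * o + (-1633419264 / 49) * l ^ 3 + (12582912 / 49) * l ^ 2 * o + (475136 / 49) * l * o ^ 2 + (8683520 / 7) * l ^ 2 + (259584 / 49) * l * o + (-256 / 49) * o ^ 2 + (-137721 / 7) * l + (-5256 / 49) * o + (5512 / 49) := by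
    linear_combination -R3
  subst h5
  exact poly (l := l) rfl rfl rfl (by linear_combination -R4) (by linear_combination (7 / 48) * Q2)
    (by linear_combination -Q3)

/-- Let V be a finite-dimensional real vector space with a commutative bilinear product and a positive-definite symmetric bilinear form that associates with the product and satisfies the Norton inequality (the Majorana setting of the definitions). Let μ₀ and μ₁ be Majorana involutions with axial vectors a₀ and a₁ of squared length 1, each involution having no other axial vector. Then the product μ₀μ₁ has order at most 6: some power (μ₀μ₁)^n with 1 ≤ n ≤ 6 is the identity (so the two involutions generate a dihedral group of order at most 12). This is the 6-transposition property of Majorana involutions. -/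
theorem result {V : Type*} [AddCommGroup V] [Module ℝ V] [FiniteDimensional ℝ V] (mul : V →ₗ[ℝ] V →ₗ[ℝ] V) (B : LinearMap.BilinForm ℝ V) (hV : Cfsg.Axial.IsMajoranaAmbient mul B) (μ₀ μ₁ : V ≃ₗ[ℝ] V) (a₀ a₁ : V) (h₀ : Cfsg.Axial.IsMajoranaPair mul B μ₀ a₀) (h₁ : Cfsg.Axial.IsMajoranaPair mul B μ₁ a₁) (hu₀ : ∀ a : V, Cfsg.Axial.IsMajoranaPair mul B μ₀ a → a = a₀) (hu₁ : ∀ a : V, Cfsg.Axial.IsMajoranaPair mul B μ₁ a → a = a₁) (hn₀ : B a₀ a₀ = 1) (hn₁ : B a₁ a₁ = 1) : ∃ n : ℕ, 1 ≤ n ∧ n ≤ 6 ∧ (μ₀ * μ₁) ^ n = 1 := by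
  have eq : ∀ {x y : V}, B x x = 1 → B y y = 1 → B x y = 1 → x = y := fun {x y} hx hy h => by
    by_contra hne
    have := hV.2.2.1 _ (sub_ne_zero.2 hne)
    simp only [map_sub, LinearMap.sub_apply, hx, hy, h, hV.2.1 y x] at this
    norm_num at this
  have s0 : μ₀ * μ₀ = 1 := LinearEquiv.ext (CA.Maj.sq h₀)
  have s1 : μ₁ * μ₁ = 1 := LinearEquiv.ext (CA.Maj.sq h₁)
  have i0 := inv_eq_of_mul_eq_one_right s0
  have i1 := inv_eq_of_mul_eq_one_right s1
  have hm := map h₁ h₀.1 h₀.2.1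
  have h2 := map h₀ h₁.1 h₁.2.1
  have hn := map h2 h₀.1 h₀.2.1
  have h3 := map hm h₁.1 h₁.2.1
  have h4 := map hn h₁.1 h₁.2.1
  have n2 := (h₁.2.1 _ _).trans hn₀
  have nn := (h₀.2.1 _ _).trans n2
  have n3 := (h₁.2.1 _ _).trans ((h₀.2.1 _ _).trans hn₁)
  have n4 := (h₁.2.1 _ _).trans nn
  have s0' : ∀ x, μ₀ * (μ₀ * x) = x := fun x => by rw [← mul_assoc, s0, one_mul]
  have s1' : ∀ x, μ₁ * (μ₁ * x) = x := fun x => by rw [← mul_assoc, s1, one_mul]
  rw [i0, i1] at *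
  rcases main hV h₀ h₁ hn₀ hn₁ rfl rfl rfl rfl rfl with h | h | h | h | h
  · rw [← eq hn₀ n2 h] at h2
    have e := congrArg (μ₀ * ·) (uniq h₀ h2)
    exact ⟨2, by omega, by omega, by simpa [pow_succ, mul_assoc, s0, s1, s0', s1'] using e.symm⟩
  · rw [← eq hn₀ n3 h] at h3
    have e := congrArg (μ₀ * ·) (uniq h₀ h3)
    exact ⟨3, by omega, by omega, by simpa [pow_succ, mul_assoc, s0, s1, s0', s1'] using e.symm⟩
  · rw [eq n2 nn h] at h2
    have e := congrArg (· * (μ₁ * μ₀ * μ₁)) (uniq hn h2)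
    exact ⟨4, by omega, by omega, by simpa [pow_succ, mul_assoc, s0, s1, s0', s1'] using e⟩
  · rw [eq n3 nn h] at h3
    have e := congrArg (· * (μ₁ * μ₀ * μ₁ * μ₀ * μ₁)) (uniq hn h3)
    exact ⟨5, by omega, by omega, by simpa [pow_succ, mul_assoc, s0, s1, s0', s1'] using e⟩
  · rw [eq n4 nn h] at h4
    have e := congrArg (· * (μ₁ * μ₀ * μ₁ * μ₀ * μ₁ * μ₀ * μ₁)) (uniq hn h4)
    exact ⟨6, by omega, by omega, by simpa [pow_succ, mul_assoc, s0, s1, s0', s1'] using e⟩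

end Cfsg.Agent.S5544
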