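import Cfsg.Statements.S5545
import Cfsg.Agent.Lib.Spor.H19Maj

set_option autoImplicit false
open Cfsg

namespace Cfsg.Agent.S5545

open CA.Maj Cfsg.Axial in
theorem aux {V : Type*} [AddCommGroup V] [Module ℝ V] {m : V →ₗ[ℝ] V →ₗ[ℝ] V} {B : LinearMap.BilinForm ℝ V}
    (hV : IsMajoranaAmbient m B) {μ : V ≃ₗ[ℝ] V} {a b : V} (h : IsMajoranaPair m B μ a) (hn : B a a = 1)
    (hb : μ b = b) : ∃ x y, m a x = 0 ∧ m a y = (1 / 4 : ℝ) • y ∧ b = B a b • a + x + y ∧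
      m a b = B a b • a + (1 / 4 : ℝ) • y ∧ m a (m a b) = (3 * B a b / 4) • a + (1 / 4 : ℝ) • m a b := by
  obtain ⟨x, y, z, hx, hy, hz, e1, e2⟩ := dec h hV hn b
  generalize B a b = l at *
  have z0 : z = 0 := by linear_combination (norm := module) (1 / 2 : ℝ) • (e2 - e1 - hb)
  rw [z0, add_zero] at e1
  have e3 : m a b = l • a + (1 / 4 : ℝ) • y := by rw [e1]; simp [idem h, hx, hy]
  refine ⟨x, y, hx, hy, e1, e3, ?_⟩
  rw [e3]; simp only [map_add, map_smul, idem h, hy]; module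

/-- Let V be a finite-dimensional real vector space with a commutative bilinear product and a positive-definite symmetric bilinear form that associates with the product and satisfies the Norton inequality (the Majorana setting of the definitions). Let μ₀, μ₁ be commuting Majorana involutions with distinct axial vectors a₀ ≠ a₁ of squared length 1, each involution having no other axial vector. Then either a₀ and a₁ are orthogonal with a₀ ∘ a₁ = 0 (type 2B), or their inner product is 1/8 and, with a₂ = a₀ + a₁ − 8 a₀ ∘ a₁, the vector a₂ is an idempotent and a₀ ∘ a₂ = (1/8)(a₀ + a₂ − a₁), a₁ ∘ a₂ = (1/8)(a₁ + a₂ − a₀) (type 2A: the three idempotents span a subalgebra with aᵢ ∘ aⱼ = (1/8)(aᵢ + aⱼ − aₖ)). -/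
theorem result {V : Type*} [AddCommGroup V] [Module ℝ V] [FiniteDimensional ℝ V] (mul : V →ₗ[ℝ] V →ₗ[ℝ] V) (B : LinearMap.BilinForm ℝ V) (hV : Cfsg.Axial.IsMajoranaAmbient mul B) (μ₀ μ₁ : V ≃ₗ[ℝ] V) (a₀ a₁ : V) (h₀ : Cfsg.Axial.IsMajoranaPair mul B μ₀ a₀) (h₁ : Cfsg.Axial.IsMajoranaPair mul B μ₁ a₁) (hu₀ : ∀ a : V, Cfsg.Axial.IsMajoranaPair mul B μ₀ a → a = a₀) (hu₁ : ∀ a : V, Cfsg.Axial.IsMajoranaPair mul B μ₁ a → a = a₁) (hn₀ : B a₀ a₀ = 1) (hn₁ : B a₁ a₁ = 1) (hc : μ₀ * μ₁ = μ₁ * μ₀) (hne : a₀ ≠ a₁) : (B a₀ a₁ = 0 ∧ mul a₀ a₁ = 0) ∨ (B a₀ a₁ = 1 / 8 ∧ mul (a₀ + a₁ - (8 : ℝ) • mul a₀ a₁) (a₀ + a₁ - (8 : ℝ) • mul a₀ a₁) = a₀ + a₁ - (8 : ℝ) • mul a₀ a₁ ∧ mul a₀ (a₀ + a₁ - (8 : ℝ) • mul a₀ a₁) = (1 / 8 : ℝ) • (a₀ + (a₀ + a₁ - (8 : ℝ) • mul a₀ a₁) - a₁) ∧ mul a₁ (a₀ + a₁ - (8 : ℝ) • mul a₀ a₁) = (1 / 8 : ℝ) • (a₁ + (a₀ + a₁ - (8 : ℝ) • mul a₀ a₁) - a₀)) := by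
  open CA.Maj in
  (
  have f0 : μ₀ a₁ = a₁ := hu₁ _ (by
    have := map h₁ h₀.1 h₀.2.1
    rwa [hc, mul_inv_cancel_right] at this)
  have f1 : μ₁ a₀ = a₀ := hu₀ _ (by
    have := map h₀ h₁.1 h₁.2.1
    rwa [← hc, mul_inv_cancel_right] at this)
  have cm := hV.1
  obtain ⟨x, y, hx, hy, e1, e2, e3⟩ := aux hV h₀ hn₀ f0
  obtain ⟨x', y', hx', hy', e1', e2', e3'⟩ := aux hV h₁ hn₁ f1
  rw [hV.2.1 a₁ a₀] at e1' e2' e3'
  rw [cm a₁ a₀] at e2' e3'
  have i0 := idem h₀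
  have i1 := idem h₁
  have key : ∀ {μ : V ≃ₗ[ℝ] V} {a b x y : V} {l : ℝ}, Cfsg.Axial.IsMajoranaPair mul B μ a → B a a = 1 → mul b b = b →
      mul a x = 0 → mul a y = (1 / 4 : ℝ) • y → b = l • a + x + y → mul a b = l • a + (1 / 4 : ℝ) • y →
      mul a (mul a b) = (3 * l / 4) • a + (1 / 4 : ℝ) • mul a b →
      mul b (mul a b) = (3 * l / 4) • b + (1 / 4 : ℝ) • mul a b →
      mul (mul a b) (mul a b) = (3 * l / 16) • (a + b) + (3 * l / 4 - 1 / 8) • mul a b ∧ (l = 1 / 8 ∨ y = 0) := by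
    intro μ a b x y l h hn i1 hx hy e1 e2 e3 e4
    have i0 := idem h
    have c1 := cm b a
    generalize hs : mul a b = s at *
    have y1 : y = (4 : ℝ) • s - (4 * l) • a := by linear_combination (norm := module) (-4 : ℝ) • e2
    have x1 : x = b + (3 * l) • a - (4 : ℝ) • s := by linear_combination (norm := module) (4 : ℝ) • e2 - e1
    have c2 := (cm s a).trans e3
    have c3 := (cm s b).trans e4
    have g1 := f00 h hx hx
    have g2 := f04 h hx hy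
    have g3 := f44 h hy hy
    rw [x1] at g1
    rw [x1, y1] at g2
    simp only [map_add, map_sub, map_smul, LinearMap.add_apply, LinearMap.sub_apply, LinearMap.smul_apply,
      i0, i1, hs, c1, c2, c3, e3, e4] at g1 g2
    have k : mul s s = (3 * l / 16) • (a + b) + (3 * l / 4 - 1 / 8) • s := by
      linear_combination (norm := module) (1 / 4 : ℝ) • (g1 + g2)
    refine ⟨k, ?_⟩
    have k2 : mul y y = (3 * l - 8 * l ^ 2) • a + (3 * l) • b + (4 * l - 2) • s := by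
      rw [y1]
      simp only [map_sub, map_smul, LinearMap.sub_apply, LinearMap.smul_apply, i0, c2, e3, k]
      module
    rw [k2] at g3
    simp only [map_add, map_smul, i0, hs, e3] at g3
    refine (mul_eq_zero.1 (?_ : (l - 1 / 8) * B y y = 0)).imp sub_eq_zero.1 fun e => by_contra fun c => (hV.2.2.1 y c).ne' e
    have : (l - 1 / 8) • y = 0 := by rw [y1]; linear_combination (norm := module) (-4 / 3 : ℝ) • g3
    rw [← smul_eq_mul, ← map_smul, this, map_zero]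
  obtain ⟨k1, k2⟩ := key h₀ hn₀ i1 hx hy e1 e2 e3 e3'
  obtain ⟨-, k3⟩ := key h₁ hn₁ i0 hx' hy' e1' ((cm _ _).trans e2') (by rw [cm a₁ a₀]; exact e3') (by rw [cm a₁ a₀]; exact e3)
  have c1 := cm a₁ a₀
  generalize B a₀ a₁ = l at *
  by_cases hl : l = 1 / 8
  · subst hl
    have c2 := (cm _ a₀).trans e3
    have c3 := (cm _ a₁).trans e3'
    refine .inr ⟨rfl, ?_, ?_, ?_⟩ <;>
      simp only [map_add, map_sub, map_smul, LinearMap.add_apply, LinearMap.sub_apply, LinearMap.smul_apply,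
        i0, i1, c1, c2, c3, e3, e3', k1] <;> module
  · rw [k2.resolve_left hl] at e2
    rw [k3.resolve_left hl] at e2'
    have : l • (a₀ - a₁) = 0 := by linear_combination (norm := module) e2' - e2
    have l0 := (smul_eq_zero.1 this).resolve_right (sub_ne_zero.2 hne)
    exact .inl ⟨l0, by rw [e2, l0]; simp⟩)

end Cfsg.Agent.S5545
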