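import Cfsg.Statements.S5546
import Cfsg.Agent.Lib.Spor.LeechI

set_option autoImplicit false
open Cfsg

namespace Cfsg.Agent.S5546

open CA.Leech Finset

/-- reduction modulo 13 -/
def r (y : LL) : GolayPt → ZMod 13 := fun i => ((y : V) i : ZMod 13)

theorem r_surj (x : GolayPt → ZMod 13) : ∃ y, r y = x :=
  ⟨⟨_, eight_mem fun i => ((5 * x i).val : ℤ)⟩, funext fun i => by
    simp only [r, Pi.smul_apply, smul_eq_mul, Int.cast_mul, Int.cast_natCast, ZMod.natCast_zmod_val, ← mul_assoc]
    rw [show ((8 : ℤ) : ZMod 13) * 5 = 1 from rfl, one_mul]⟩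

/-- the action modulo 13 -/
noncomputable def ρ (g : Co0) : (GolayPt → ZMod 13) →ₗ[ZMod 13] GolayPt → ZMod 13 :=
  Matrix.toLin' (Matrix.of fun i j => 5 * r (g • e8 j) i)

theorem ρ_r (g : Co0) (y : LL) : ρ g (r y) = r (g • y) := funext fun i => by
  have := congrArg (fun x : V => (5 : ZMod 13) * (x i : ZMod 13)) (eight_smul g y)
  simp only [Pi.smul_apply, smul_eq_mul, Int.cast_mul, ← mul_assoc, Finset.sum_apply, Int.cast_sum, mul_sum] at this
  rw [show 5 * ((8 : ℤ) : ZMod 13) = 1 from rfl, one_mul] at this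
  rw [ρ, Matrix.toLin'_apply]
  have e : ∀ a b : ZMod 13, 5 * a * b = 5 * b * a := fun a b => by ring
  simp only [r, Matrix.of_apply, Matrix.mulVec, dotProduct, this, e]

/-- the inner product with `U` -/
noncomputable def φ : (GolayPt → ZMod 13) →ₗ[ZMod 13] ZMod 13 := dotProductBilin (ZMod 13) (ZMod 13) (r vU)

theorem φ_r (y : LL) : φ (r y) = (dotInt (vU : V) y : ZMod 13) := by
  simp only [φ, r, dotInt, dotProduct, dotProductBilin_apply_apply, Int.cast_sum, Int.cast_mul]

instance : Fact (Nat.Prime 13) := ⟨by norm_num⟩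

theorem rank : Module.finrank (ZMod 13) (LinearMap.ker φ) = 23 := by
  have h := φ.finrank_range_add_finrank_ker
  have : LinearMap.range φ = ⊤ := (Module.Dual.range_eq_top_of_ne_zero fun e => by
    have := φ_r vU
    rw [e, dot_self, sqU] at this
    exact absurd this (by decide))
  rw [this] at h
  simp [CA.Golay.card_GolayPt] at h
  omega

/-- the representation on the orthogonal complement -/
noncomputable def σ : St [vU] →* Module.End (ZMod 13) (LinearMap.ker φ) where
  toFun g := (ρ g).restrict fun x hx => by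
    obtain ⟨y, rfl⟩ := r_surj x
    rwa [LinearMap.mem_ker, ρ_r, φ_r, dot_fix (mem_St1.1 g.2), ← φ_r]
  map_one' := LinearMap.ext fun ⟨x, _⟩ => Subtype.ext (by
    obtain ⟨y, rfl⟩ := r_surj x
    simp [ρ_r])
  map_mul' g h := LinearMap.ext fun ⟨x, _⟩ => Subtype.ext (by
    obtain ⟨y, rfl⟩ := r_surj x
    simp [ρ_r, mul_smul])

theorem σ_inj : Function.Injective σ := by
  have := simple_Co2
  refine (MonoidHom.ker_eq_bot_iff σ).1 ((Subgroup.Normal.eq_bot_or_eq_top inferInstance).resolve_right fun e => ?_)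
  obtain ⟨g, h1, h2⟩ := T0.trans _ mU2 _ (neg_mem_Cl.2 mU2)
  have h3 : σ ⟨g, h1⟩ = 1 := (e ▸ Subgroup.mem_top _ : (⟨g, h1⟩ : St [vU]) ∈ σ.ker)
  have h4 := congrArg (fun f : Module.End (ZMod 13) (LinearMap.ker φ) =>
    (f ⟨r vU2, by rw [LinearMap.mem_ker, φ_r, (mem_Cl1.1 mU2).2]; rfl⟩ : GolayPt → ZMod 13) none) h3
  have h5 : ρ g (r vU2) none = r vU2 none := h4
  rw [ρ_r, h2, r, r, NegMemClass.coe_neg, ok_coe okU2] at h5
  exact absurd h5 (by decide +kernel)

/-- The second Conway group (the stabilizer in the Leech lattice automorphism group of the short vector fixed in the definitions) is isomorphic to a subgroup of the general linear group of degree 23 over the field with 13 elements: there is an injective homomorphism into it. -/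
theorem result : ∃ f : ↥Cfsg.Spor.Co2 →* GL (Fin 23) (ZMod 13), Function.Injective f := by
  let b := Module.finBasisOfFinrankEq _ _ rank
  refine ⟨(((LinearMap.toMatrixAlgEquiv b).toMulEquiv.toMonoidHom.comp σ).toHomUnits).comp
    (eMap Co2_eq).symm.toMonoidHom, fun x y h => (eMap Co2_eq).symm.injective (σ_inj ?_)⟩
  exact (LinearMap.toMatrixAlgEquiv b).injective (congrArg Units.val h)

end Cfsg.Agent.S5546
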