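import Cfsg.Statements.S5549
import Cfsg.Agent.Lib.Spor.M24Mod
import Cfsg.Agent.Lib.Spor.CGLin2

set_option autoImplicit false
open Cfsg

namespace Cfsg.Agent.S5549

open Cfsg CA.NatBits CA.OrbBfs CA.CGroup CA.CGConstr CA.CGParts CA.CGCert CA.CGRank CA.CGDec CA.Perm24 CA.Golay
open CA.M24Core CA.M24Sub CA.M24Tools MulAction
open scoped Pointwise
open CA.M24St2 CA.M24Syl CA.M24Cls CA.CGIso CA.CGLin CA.CGLin2 CA.M24Iso CA.M24Mod
open scoped symmDiff
set_option maxRecDepth 100000

/-- the parity of a word on a set -/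
def dot (t : Finset GolayPt) (c : GolayPt → ZMod 2) : ZMod 2 := ∑ p ∈ t, c p

theorem dot_eq (t : Finset GolayPt) (c : GolayPt → ZMod 2) : dot t c = ((support₂ c ∩ t).card : ZMod 2) := by
  rw [dot, Finset.inter_comm, ← Finset.filter_mem_eq_inter, ← Finset.sum_boole]
  refine Finset.sum_congr rfl fun p _ => ?_
  rcases zmod2_cases (c p) with h | h <;> simp [mem_support, h]

theorem dot_symm (t u : Finset GolayPt) (c : GolayPt → ZMod 2) : dot (t ∆ u) c = dot t c + dot u c := by
  have h := congrArg (Nat.cast : ℕ → ZMod 2) (card_symmDiff (support₂ c ∩ t) (support₂ c ∩ u))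
  rw [dot_eq, dot_eq, dot_eq, show support₂ c ∩ t ∆ u = (support₂ c ∩ t) ∆ (support₂ c ∩ u) from
    inf_symmDiff_distrib_left _ _ _]
  push_cast at h
  rwa [show (2 : ZMod 2) = 0 from rfl, zero_mul, add_zero] at h

theorem dot_Cw {t : Finset GolayPt} (ht : t ∈ Cw) (c : golayCode) : dot t c = 0 := by
  rw [dot_eq, ZMod.natCast_eq_zero_iff_even]
  exact even_inter (support_mem_Cw.2 c.2) ht

theorem dot_pair {p q : GolayPt} (h : p ≠ q) (c : GolayPt → ZMod 2) : dot {p, q} c = c p + c q := Finset.sum_pair h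

theorem rep (g : golayCode →ₗ[ZMod 2] ZMod 2) : ∃ t : Finset GolayPt, t.card ≤ 4 ∧ ∀ c, g c = dot t c := by
  obtain ⟨f, hf⟩ := g.exists_extend
  obtain ⟨t, h4, ht⟩ := leader (support₂ fun p => f (Pi.single p 1))
  refine ⟨t, h4, fun c => ?_⟩
  have h1 := dot_Cw ht c
  rw [dot_symm, CharTwo.add_eq_zero] at h1
  rw [h1, ← hf, LinearMap.comp_apply, Submodule.subtype_apply, LinearMap.pi_apply_eq_sum_univ, dot, support₂,
    Finset.sum_filter]
  refine Finset.sum_congr rfl fun p _ => ?_
  rw [show (fun j => if p = j then (1 : ZMod 2) else 0) = Pi.single p 1 from funext fun j => by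
    rw [Pi.single_apply]; exact if_congr eq_comm rfl rfl]
  rcases zmod2_cases (f (Pi.single p 1)) with h | h <;> simp [h]

/-- weight 8 or 16 -/
def wt (s : Finset GolayPt) : Prop := s.card = 8 ∨ s.card = 16

/-- number of words of weight 8 or 16 on which `g` is non-zero -/
noncomputable def N (g : golayCode → ZMod 2) : ℕ := {c : golayCode | wt (support₂ c.1) ∧ g c = 1}.ncard

theorem N_dot (t : Finset GolayPt) :
    N (fun c => dot t c) = {s | s ∈ Cw ∧ wt s ∧ ((s ∩ t).card : ZMod 2) = 1}.ncard := by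
  rw [N, ← Set.ncard_image_of_injective _ (f := fun c : golayCode => support₂ c.1) fun a b h =>
    Subtype.ext (support_inj h)]
  congr 1
  ext s
  refine ⟨?_, fun h => ?_⟩
  · rintro ⟨c, h, rfl⟩
    exact ⟨support_mem_Cw.2 c.2, h.1, (dot_eq _ _).symm.trans h.2⟩
  · obtain ⟨w, rfl⟩ := exists_supp s
    exact ⟨⟨w, support_mem_Cw.1 h.1⟩, ⟨h.2.1, (dot_eq _ _).trans h.2.2⟩, rfl⟩

theorem N_card {t : Finset GolayPt} {k : ℕ} (ht : t.card = k) (m : ℕ) (h : m < 2 ^ 24 ∧ pc24 m = k ∧ k ≤ 5) :
    N (fun c => dot t c) = cntL cwL fun a => (Nat.beq (pc24 a) 8 || Nat.beq (pc24 a) 16) &&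
      Nat.beq (Nat.mod (pc24 (Nat.land a m)) 2) 1 := by
  obtain ⟨g, rfl⟩ := exists_smul_ds_of_card ht m h
  rw [N_dot, ncard_smul_of_inv g (P := fun s => s ∈ Cw ∧ wt s ∧ ((s ∩ ds m).card : ZMod 2) = 1) fun y => by
    rw [smul_mem_Cw, card_smul_inter, wt, wt, Finset.card_smul_finset]]
  exact ncard_Cw fun a ha _ => by
    rw [Bool.and_eq_true, Bool.or_eq_true, beq_iff, beq_iff, beq_iff, wt, card_ds ha, card_inter ha,
      ZMod.natCast_eq_one_iff_odd, Nat.odd_iff]
    rfl

theorem N2 {t : Finset GolayPt} (ht : t.card = 2) : N (fun c => dot t c) = 704 :=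
  (N_card ht 3 (by decide +kernel)).trans (by decide +kernel)

theorem N4 {t : Finset GolayPt} (ht : t.card = 4) : N (fun c => dot t c) = 768 :=
  (N_card ht 15 (by decide +kernel)).trans (by decide +kernel)

/-- the all-ones word -/
def one : golayCode := ⟨fun _ => 1, support_mem_Cw.1 (supp_one ▸ univ_mem_Cw)⟩

theorem cases {t : Finset GolayPt} (h4 : t.card ≤ 4) (h : dot t one = 0) : t = ∅ ∨ t.card = 2 ∨ t.card = 4 := by
  rw [dot_eq, ZMod.natCast_eq_zero_iff_even, show support₂ one.1 = Finset.univ from supp_one, Finset.univ_inter,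
    Nat.even_iff] at h
  rw [← Finset.card_eq_zero]
  omega

theorem zero_of {u : Finset GolayPt} (h6 : u.card ≤ 6) (h : ∀ c : golayCode, dot u c = 0) : u = ∅ := by
  obtain ⟨t, h4, ht⟩ := leader u
  have h1 : ∀ c : golayCode, dot t c = 0 := fun c => by
    have h1 := dot_Cw ht c
    rwa [dot_symm, h, add_zero] at h1
  have h2 : N (fun c => dot t c) = 0 := by simp [N, h1]
  rcases cases h4 (h1 one) with rfl | h3 | h3
  · rw [← Finset.bot_eq_empty, bot_symmDiff] at ht
    have := card_of_mem_Cw ht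
    rw [← Finset.card_eq_zero]
    omega
  · rw [N2 h3] at h2; omega
  · rw [N4 h3] at h2; omega

theorem common {α : Type*} [DecidableEq α] [Fintype α] (hα : 4 < Fintype.card α) {z o : α} (ho : o ≠ z)
    {D : α → Finset α} (h2 : ∀ p, p ≠ z → (D p).card = 2)
    (h1 : ∀ p q, p ≠ z → q ≠ z → p ≠ q → (D p ∩ D q).card = 1) : ∃ a, ∀ p, p ≠ z → a ∈ D p := by
  obtain ⟨a, b, hab, e⟩ := Finset.card_eq_two.1 (h2 o ho)
  have key : ∀ {s : Finset α} {x y : α}, x ≠ y → (s ∩ {x, y}).card = 1 → (x ∈ s ↔ y ∉ s) := by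
    intro s x y hxy h
    by_cases hx : x ∈ s <;> by_cases hy : y ∈ s <;> simp_all
  by_contra hn
  push Not at hn
  obtain ⟨q, hq, ha⟩ := hn a
  obtain ⟨p, hp, hb⟩ := hn b
  have hq0 : q ≠ o := fun h => ha (by rw [h, e]; simp)
  have hp0 : p ≠ o := fun h => hb (by rw [h, e]; simp)
  have ha' : a ∈ D p := (key hab (e ▸ h1 p _ hp ho hp0)).2 hb
  have hb' : b ∈ D q := by_contra fun h => ha ((key hab (e ▸ h1 q _ hq ho hq0)).2 h)
  have hpq : p ≠ q := fun h => ha (h ▸ ha')
  obtain ⟨c, hc⟩ := Finset.card_eq_one.1 (h1 p q hp hq hpq)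
  have hc' := Finset.mem_inter.1 (hc ▸ Finset.mem_singleton_self c : c ∈ D p ∩ D q)
  have hac : a ≠ c := fun h => ha (h ▸ hc'.2)
  have hbc : b ≠ c := fun h => hb (h ▸ hc'.1)
  have e1 : D p = {a, c} := (Finset.eq_of_subset_of_card_le (by simp [Finset.insert_subset_iff, *])
    (by rw [h2 p hp, Finset.card_pair hac])).symm
  have e2 : D q = {b, c} := (Finset.eq_of_subset_of_card_le (by simp [Finset.insert_subset_iff, *])
    (by rw [h2 q hq, Finset.card_pair hbc])).symm
  obtain ⟨r, hr⟩ : ∃ r, r ∉ ({z, o, p, q} : Finset α) := by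
    by_contra h
    have h3 := Finset.card_le_card (show Finset.univ ⊆ ({z, o, p, q} : Finset α) from
      fun x _ => by_contra fun hx => h ⟨x, hx⟩)
    have := Finset.card_le_four (a := z) (b := o) (c := p) (d := q)
    rw [Finset.card_univ] at h3
    omega
  simp only [Finset.mem_insert, Finset.mem_singleton, not_or] at hr
  have k1 := key hab (e ▸ h1 r _ hr.1 ho hr.2.1)
  have k2 := key hac (e1 ▸ h1 r _ hr.1 hp hr.2.2.1)
  have k3 := key hbc (e2 ▸ h1 r _ hr.1 hq hr.2.2.2)
  tauto

/-- Let X be a group of linear automorphisms of the length-24 binary Golay code of the definitions that fix the all-ones word, containing the coordinate-permutation action of every element of the code's automorphism group (the Mathieu group of degree 24), and such that every element of X sends each codeword into its orbit under that Mathieu group up to adding the all-ones word (X has the same orbits as the Mathieu group on the code modulo the all-ones word). Then every element of X agrees,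 modulo the all-ones word, with the action of a single element of the Mathieu group: X induces exactly the Mathieu group on the code modulo the all-ones word. -/
theorem result (X : Subgroup (↥Cfsg.golayCode ≃ₗ[ZMod 2] ↥Cfsg.golayCode)) (h1 : ∀ x ∈ X, ∀ e : ↥Cfsg.golayCode, (e : (Cfsg.GolayPt → ZMod 2)) = (fun _ => (1 : ZMod 2)) → x e = e) (hM : ∀ σ ∈ Cfsg.M24, ∃ x ∈ X, ∀ c : ↥Cfsg.golayCode, ((x c : ↥Cfsg.golayCode) : (Cfsg.GolayPt → ZMod 2)) = fun p => (c : (Cfsg.GolayPt → ZMod 2)) (σ.symm p)) (horb : ∀ x ∈ X, ∀ c : ↥Cfsg.golayCode, ∃ σ ∈ Cfsg.M24, ((x c : ↥Cfsg.golayCode) : (Cfsg.GolayPt → ZMod 2)) = (fun p => (c : (Cfsg.GolayPt → ZMod 2)) (σ.symm p)) ∨ ((x c : ↥Cfsg.golayCode) : (Cfsg.GolayPt → ZMod 2)) = (fun p => (c : (Cfsg.GolayPt → ZMod 2)) (σ.symm p)) + fun _ => (1 : ZMod 2)) (x : ↥Cfsg.golayCode ≃ₗ[ZMod 2] ↥Cfsg.golayCode) (hx : x ∈ X) : ∃ σ ∈ Cfsg.M24, ∀ c : ↥Cfsg.golayCode, ((x c : ↥Cfsg.golayCode) : (Cfsg.GolayPt → ZMod 2)) = (fun p => (c : (Cfsg.GolayPt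 → ZMod 2)) (σ.symm p)) ∨ ((x c : ↥Cfsg.golayCode) : (Cfsg.GolayPt → ZMod 2)) = (fun p => (c : (Cfsg.GolayPt → ZMod 2)) (σ.symm p)) + fun _ => (1 : ZMod 2) := by
  have hw : ∀ y ∈ X, ∀ c : golayCode, wt (support₂ c.1) → wt (support₂ (y c).1) := fun y hy c hc => by
    obtain ⟨σ, -, h | h⟩ := horb y hy c
    · rwa [h, supp_smul, wt, Finset.card_smul_finset]
    · rw [h, support_add, supp_smul, supp_one, ← Finset.top_eq_univ, symmDiff_top, hnot_eq_compl, wt, Finset.card_compl,
        Finset.card_smul_finset, card_GolayPt]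
      rw [wt] at hc
      omega
  have hN : ∀ g : golayCode → ZMod 2, N (fun c => g (x c)) = N g := fun g => by
    rw [N, N, ← Set.ncard_image_of_injective _ x.injective]
    congr 1
    ext c
    refine ⟨?_, fun h => ⟨x⁻¹ c, ⟨hw _ (inv_mem hx) c h.1, by simpa using h.2⟩, by simp⟩⟩
    rintro ⟨c, h, rfl⟩
    exact ⟨hw x hx c h.1, h.2⟩
  have hD : ∀ p q : GolayPt, ∃ t : Finset GolayPt, p ≠ q → t.card = 2 ∧ ∀ c, (x c).1 p + (x c).1 q = dot t c := by
    intro p q
    obtain ⟨t, h4, ht⟩ := rep ((LinearMap.proj (R := ZMod 2) (φ := fun _ : GolayPt => ZMod 2) p +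
      LinearMap.proj (R := ZMod 2) (φ := fun _ : GolayPt => ZMod 2) q) ∘ₗ
      golayCode.subtype ∘ₗ x.toLinearMap)
    have ht' : ∀ c, (x c).1 p + (x c).1 q = dot t c := fun c => by simpa using ht c
    refine ⟨t, fun hpq => ⟨?_, ht'⟩⟩
    have h2 := hN fun c => dot {p, q} c
    simp only [N2 (Finset.card_pair hpq)] at h2
    simp only [dot_pair hpq, ht'] at h2
    rcases cases h4 (by rw [← ht', h1 x hx one rfl]; exact (by decide : (1 : ZMod 2) + 1 = 0)) with rfl | h3 | h3
    · simp [N, dot] at h2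
    · exact h3
    · rw [N4 h3] at h2; omega
  choose D hD using hD
  obtain ⟨a, ha⟩ := common (by rw [card_GolayPt]; norm_num) (o := some 0) (z := none) (by simp) (D := fun p => D p none)
    (fun p hp => (hD p none hp).1) fun p q hp hq hpq => by
    have h2 := card_symmDiff (D p none) (D q none)
    have h3 : (D p none ∆ D q none) ∆ D p q = ∅ := zero_of (by
      have := card_symmDiff (D p none ∆ D q none) (D p q)
      have := (hD p none hp).1
      have := (hD q none hq).1
      have := (hD p q hpq).1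
      omega) fun c => by
        rw [dot_symm, dot_symm, ← (hD p none hp).2, ← (hD q none hq).2, ← (hD p q hpq).2]
        generalize (x c).1 p = i, (x c).1 q = j, (x c).1 none = k
        revert i j k
        decide
    rw [← Finset.bot_eq_empty, symmDiff_eq_bot] at h3
    rw [h3, (hD p none hp).1, (hD q none hq).1, (hD p q hpq).1] at h2
    omega
  have h2 : ∀ p, ∃ b, ∀ c : golayCode, (x c).1 p + (x c).1 none = c.1 b + c.1 a := fun p => by
    by_cases hp : p = none
    · exact ⟨a, fun c => by rw [hp, CharTwo.add_self_eq_zero, CharTwo.add_self_eq_zero]⟩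
    obtain ⟨b, hb⟩ := Finset.card_eq_one.1
      (show ((D p none).erase a).card = 1 by rw [Finset.card_erase_of_mem (ha p hp), (hD p none hp).1])
    have h3 := Finset.mem_erase.1 (hb ▸ Finset.mem_singleton_self b : b ∈ (D p none).erase a)
    exact ⟨b, fun c => by rw [(hD p none hp).2, ← Finset.insert_erase (ha p hp), hb, dot_pair h3.1.symm, add_comm]⟩
  choose s hs using h2
  have hi : Function.Injective s := fun p q e => by_contra fun hpq => by
    have h3 := zero_of (u := {p, q}) (by rw [Finset.card_pair hpq]; norm_num) fun c => by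
      obtain ⟨c, rfl⟩ := x.surjective c
      have h3 := hs p c
      rw [e, ← hs q c, add_left_inj] at h3
      rw [dot_pair hpq, h3, CharTwo.add_self_eq_zero]
    simp at h3
  set σ := (Equiv.ofBijective s (Finite.injective_iff_bijective.1 hi)).symm
  have h3 : ∀ c : golayCode, (x c).1 = (fun p => c.1 (σ.symm p)) ∨ (x c).1 = (fun p => c.1 (σ.symm p)) + fun _ => 1 := by
    intro c
    have h3 : ∀ p, (x c).1 p = c.1 (s p) + ((x c).1 none + c.1 a) := fun p => by
      have h3 := hs p c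
      generalize (x c).1 p = i, (x c).1 none = k, c.1 (s p) = j, c.1 a = l at h3
      revert i j k l
      decide
    rcases zmod2_cases ((x c).1 none + c.1 a) with h | h
    · exact Or.inl (funext fun p => by rw [h3, h, add_zero]; rfl)
    · exact Or.inr (funext fun p => by rw [h3, h]; rfl)
  refine ⟨σ, mem_stab_of fun t ht => ?_, h3⟩
  obtain ⟨w, rfl⟩ := exists_supp t
  rw [← supp_smul, support_mem_Cw]
  rcases h3 ⟨w, support_mem_Cw.1 ht⟩ with h | h
  · exact h ▸ (x _).2
  · exact (eq_sub_iff_add_eq.2 h.symm) ▸ golayCode.sub_mem (x _).2 one.2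

end Cfsg.Agent.S5549
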