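import Cfsg.Statements.S5550
import Cfsg.Agent.Lib.Spor.M24Mod
import Cfsg.Agent.Lib.Spor.CGLin2

set_option autoImplicit false
open Cfsg

namespace Cfsg.Agent.S5550

open Cfsg CA.NatBits CA.OrbBfs CA.CGroup CA.CGConstr CA.CGParts CA.CGCert CA.CGRank CA.CGDec CA.Perm24 CA.Golay
open CA.M24Core CA.M24Sub CA.M24Tools MulAction
open scoped Pointwise
open CA.M24St2 CA.M24Syl CA.M24Cls CA.CGIso CA.CGLin CA.CGLin2 CA.M24Iso CA.M24Mod
open scoped symmDiff
set_option maxRecDepth 100000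

theorem key {l : List ℕ} {K : Subgroup M24} (hl : mG.In l K)
    (h : allL [1, 2, 3, 4] (fun k => allL (kSub 24 k) fun m => anyL l fun a => !(isC (Nat.xor (img24 a m) m))) = true)
    {s : Finset GolayPt} (hs : s ∉ Cw) : ∃ g ∈ K, (g • s) ∆ s ∉ Cw := by
  obtain ⟨t, h4, hc⟩ := leader s
  have h0 : t.card ≠ 0 := by
    rw [ne_eq, Finset.card_eq_zero]
    rintro rfl
    rw [← Finset.bot_eq_empty, bot_symmDiff] at hc
    exact hs hc
  obtain ⟨m, hm, rfl⟩ := gE.exists_ds t
  obtain ⟨a, ha, h1⟩ := anyL_iff.1 (allL_iff.1 (allL_iff.1 h (gE.ds m).card (by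
    simp only [List.mem_cons, List.not_mem_nil, or_false]; omega)) m (kSub_of hm rfl))
  obtain ⟨g, hg, hR⟩ := hl a ha
  refine ⟨g, hg, fun e => ?_⟩
  have h2 := symmDiff_mem_Cw (symmDiff_mem_Cw ((smul_mem_Cw g).2 hc) hc) e
  rw [Finset.smul_finset_symmDiff, symmDiff_symmDiff_symmDiff_comm, symmDiff_symmDiff_cancel_right,
    symmDiff_symmDiff_cancel_right, R_ds hR,
    ← gE.ds_xor, ds_mem_Cw (xor_lt (show img24 a m < 2 ^ 24 from (mSub.S_act hR (sS hm)).1) hm)] at h2
  rw [h2] at h1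
  simp at h1

theorem key' {l : List ℕ} {a : Finset GolayPt} (hl : mG.In l (stabilizer M24 a))
    (h : allL [1, 2, 3, 4] (fun k => allL (kSub 24 k) fun m => anyL l fun a => !(isC (Nat.xor (img24 a m) m))) = true)
    (g : M24) {s : Finset GolayPt} (hs : s ∉ Cw) : ∃ k ∈ stabilizer M24 (g • a), (k • s) ∆ s ∉ Cw := by
  obtain ⟨s, rfl⟩ : ∃ s', s = g • s' := ⟨g⁻¹ • s, (smul_inv_smul g s).symm⟩
  rw [smul_mem_Cw] at hs
  obtain ⟨k, hk, h1⟩ := key hl h hs
  exact ⟨g * k * g⁻¹, tr g k hk, by rwa [tr g k rfl, ← Finset.smul_finset_symmDiff, smul_mem_Cw]⟩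

theorem keyO {o : Finset GolayPt} (ho : o ∈ octads) {s : Finset GolayPt} (hs : s ∉ Cw) :
    ∃ k ∈ stabilizer M24 o, (k • s) ∆ s ∉ Cw := by
  obtain ⟨g, rfl⟩ := octad_trans O0_mem ho
  exact key' stO.inn (by decide +kernel) g hs

theorem keyD {o : Finset GolayPt} (ho : o ∈ dodecads) {s : Finset GolayPt} (hs : s ∉ Cw) :
    ∃ k ∈ stabilizer M24 o, (k • s) ∆ s ∉ Cw := by
  obtain ⟨g, rfl⟩ := dodecad_trans D0_mem ho
  exact key' st12.inn (by decide +kernel) g hs

/-- Let u be a word of the length-24 binary Golay code of the definitions (possibly zero or all-ones) and w any binary word of length 24 outside the code. Then some automorphism of the code (a coordinate permutation preserving it) fixes u but moves w to a word not congruent to w modulo the code: the stabilizer of a codeword fixes no non-zero element of the quotient of the space of all words by the code. -/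
theorem result (u : (Cfsg.GolayPt → ZMod 2)) (hu : u ∈ Cfsg.golayCode) (w : (Cfsg.GolayPt → ZMod 2)) (hw : w ∉ Cfsg.golayCode) : ∃ σ ∈ Cfsg.M24, (fun p => u (σ.symm p)) = u ∧ (fun p => w (σ.symm p)) - w ∉ Cfsg.golayCode := by
  rw [← support_mem_Cw] at hu hw
  have h : ∃ k ∈ stabilizer M24 (support₂ u), (k • support₂ w) ∆ support₂ w ∉ Cw := by
    rcases card_of_mem_Cw hu with e | e | e | e | e
    · obtain ⟨k, -, h⟩ := keyO O0_mem hw
      exact ⟨k, by rw [Finset.card_eq_zero.1 e]; exact Finset.smul_finset_empty k, h⟩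
    · exact keyO (mem_octads.2 ⟨hu, e⟩) hw
    · exact keyD (mem_dodecads.2 ⟨hu, e⟩) hw
    · rw [← CA.M24Sub.stabilizer_compl]
      exact keyO (mem_octads.2 ⟨compl_mem_Cw hu, by rw [Finset.card_compl, card_GolayPt, e]⟩) hw
    · obtain ⟨k, -, h⟩ := keyO O0_mem hw
      exact ⟨k, by rw [Finset.eq_univ_of_card _ (e.trans card_GolayPt.symm)]; exact Finset.smul_finset_univ, h⟩
  obtain ⟨k, hk, h⟩ := h
  exact ⟨k, k.2, support_inj ((supp_smul _ _).trans hk), by rwa [← support_mem_Cw, supp_sub, supp_smul]⟩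

end Cfsg.Agent.S5550
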