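import Cfsg.Statements.S5553
import Cfsg.Agent.Lib.Spor.LeechI

set_option autoImplicit false
open Cfsg

namespace Cfsg.Agent.S5553

open CA.Leech

/-- The Leech lattice of the definitions has an additive subgroup A containing twice the lattice, of index 2^12 in the lattice, all of whose vectors have squared length divisible by 32: the invariant quadratic form 'squared length over 16 modulo 2' on the lattice modulo twice the lattice (a 24-dimensional space over the field with two elements) vanishes on a 12-dimensional subspace, so it is of plus type. -/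
theorem result : ∃ A : AddSubgroup (Cfsg.GolayPt → ℤ), A ≤ Cfsg.leechLattice ∧ (∀ v ∈ Cfsg.leechLattice, (2 : ℤ) • v ∈ A) ∧ (A.addSubgroupOf Cfsg.leechLattice).index = 2 ^ 12 ∧ ∀ v ∈ A, (32 : ℤ) ∣ Cfsg.sqNorm v := by
  obtain ⟨a, ha⟩ := exists_sq
  have h1 : ∀ v : LL, a • a • v = -v := fun v => by rw [← mul_smul, ha, ng_smul]
  let θ : LL →+ LL := AddMonoidHom.id _ + toHom a
  have hθ : ∀ v, θ v = v + a • v := fun _ => rfl
  have h2 : ∀ v : LL, sqNorm ((θ v : LL) : V) = 2 * sqNorm (v : V) := fun v => by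
    have := dot_smul a v (a • v)
    rw [h1, NegMemClass.coe_neg, dot_neg_right, dot_comm] at this
    rw [hθ, AddSubgroup.coe_add, sq_add, sq_smul]; omega
  have h3 : Function.Injective θ := (injective_iff_map_eq_zero θ).2 fun v h => by
    have := h2 v
    rw [h, ZeroMemClass.coe_zero, sq_eq_zero'.2 rfl] at this
    exact Subtype.ext (sq_eq_zero'.1 (by omega))
  have h4 : θ.range.map θ = (nsmulAddMonoidHom 2 : LL →+ LL).range := by
    ext x
    constructor
    · rintro ⟨_, ⟨v, rfl⟩, rfl⟩
      exact ⟨a • v, by simp only [hθ, smul_add', h1, nsmulAddMonoidHom_apply]; abel⟩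
    · rintro ⟨v, rfl⟩
      exact ⟨_, ⟨-(a • v), rfl⟩, by simp only [hθ, smul_add', smul_neg', h1, nsmulAddMonoidHom_apply]; abel⟩
  have h5 := AddSubgroup.index_map_of_injective θ.range h3
  rw [h4, AddSubgroup.index_range_nsmul, finrank_LL] at h5
  refine ⟨θ.range.map leechLattice.subtype, AddSubgroup.map_subtype_le _, fun v hv => ⟨2 • ⟨v, hv⟩, ?_, by simp [two_smul]⟩,
    ?_, ?_⟩
  · exact (AddSubgroup.map_le_range θ _) (h4.ge ⟨_, rfl⟩)
  · rw [AddSubgroup.addSubgroupOf, AddSubgroup.comap_map_eq_self_of_injective leechLattice.subtype_injective]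
    exact (Nat.mul_self_inj.1 (h5.symm.trans (by norm_num)))
  · rintro _ ⟨_, ⟨v, rfl⟩, rfl⟩
    obtain ⟨c, hc⟩ := dvd_sq v.2
    exact ⟨c, by rw [AddSubgroup.coe_subtype, h2, hc]; ring⟩

end Cfsg.Agent.S5553
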