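import Cfsg.Statements.S5594
import Cfsg.Agent.Lib.Spor.LeechI

set_option autoImplicit false
open Cfsg

namespace Cfsg.Agent.S5594

open CA.Leech

/-- The automorphism group of the Leech lattice contains the negation map, and the subgroup of order 2 it generates has no complement: the automorphism group is a non-split extension of its quotient by that subgroup (it is not the direct product of a group of order 2 with the first Conway group). -/
theorem result :
    ∃ n : ↥Cfsg.Co0, (∀ v : ↥Cfsg.leechLattice, ((n • v : ↥Cfsg.leechLattice) : Cfsg.GolayPt → ℤ) = -(v : Cfsg.GolayPt → ℤ)) ∧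
    ∀ K : Subgroup ↥Cfsg.Co0, ¬ (Subgroup.zpowers n).IsComplement' K := by
  refine ⟨ng, fun v => by rw [ng_smul]; rfl, fun K h => ?_⟩
  obtain ⟨a, ha⟩ := exists_sq
  obtain ⟨⟨⟨z, hz⟩, ⟨k, hk⟩⟩, rfl⟩ := h.2 a
  have hc : z ∈ Subgroup.center Co0 := (Subgroup.zpowers_le.2 (mem_center.2 (Or.inr rfl))) hz
  have : ng ∈ K := by
    rcases mem_center.1 hc with rfl | rfl
    · simpa [← ha] using mul_mem hk hk
    · have : ng * k * (ng * k) = ng := ha
      rw [mul_assoc, ← mul_assoc k, ng_comm k, mul_assoc, ← mul_assoc, ng_sq, one_mul] at this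
      exact this ▸ mul_mem hk hk
  exact ng_ne (Subgroup.disjoint_def.1 h.disjoint (Subgroup.mem_zpowers _) this)

end Cfsg.Agent.S5594
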