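import Cfsg.Statements.S5599
import Cfsg.Agent.Lib.Spor.M24Iso
import Cfsg.Agent.Lib.Spor.CGLin2

set_option autoImplicit false
open scoped Pointwise
open Cfsg

namespace Cfsg.Agent.S5599

open Cfsg CA.NatBits CA.OrbBfs CA.CGroup CA.CGConstr CA.CGParts CA.CGCert CA.CGRank CA.CGDec CA.Perm24 CA.Golay
open CA.M24Core CA.M24Sub CA.M24Tools MulAction
open scoped Pointwise
open CA.M24St2 CA.M24Syl CA.M24Cls CA.CGIso CA.CGLin CA.CGLin2 CA.M24Iso
set_option maxRecDepth 100000

theorem mem22 {x : Equiv.Perm GolayPt} : x ∈ Spor.M22 ↔ x ∈ M24 ∧ x none = none ∧ x (some 0) = some 0 :=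
  and_assoc

/-- In the automorphism group of the length-24 code, the two-point Mathieu group (permutations of the code's group fixing the extra point and the residue 0) has index 2 in the setwise stabiliser of that pair of points, and an element of the code's group interchanging the two points normalises the two-point group and induces on it, by conjugation, an automorphism that is not inner. -/
theorem result (g : Equiv.Perm Cfsg.GolayPt) (hg : g ∈ Cfsg.M24) (h₁ : g none = some 0) (h₂ : g (some 0) = none) : Cfsg.Spor.M22.relIndex (Cfsg.M24 ⊓ MulAction.stabilizer (Equiv.Perm Cfsg.GolayPt) ({none, some 0} : Finset Cfsg.GolayPt)) = 2 ∧ (∀ x ∈ Cfsg.Spor.M22, g * x * g⁻¹ ∈ Cfsg.Spor.M22) ∧ ¬ ∃ h ∈ Cfsg.Spor.M22, ∀ x ∈ Cfsg.Spor.M22, g * x * g⁻¹ = h * x * h⁻¹ := by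
  refine ⟨?_, fun x hx => ?_, ?_⟩
  · have e : ({none, some 0} : Finset GolayPt) = ds 8388609 := by decide
    have h1 : ((⊤ : Subgroup M24) ⊓ stabilizer M24 (ds 8388609)).map M24.subtype =
        M24 ⊓ stabilizer (Equiv.Perm GolayPt) (ds 8388609) := by rw [map_inf_stab, map_top]
    have h2 : Spor.M22 ≤ M24 ⊓ stabilizer (Equiv.Perm GolayPt) (ds 8388609) := fun x hx => by
      obtain ⟨a, b, c⟩ := mem22.1 hx
      refine ⟨a, ?_⟩
      show x • ds 8388609 = ds 8388609
      rw [← e, Finset.smul_finset_insert, Finset.smul_finset_singleton]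
      exact congrArg₂ (fun a b => ({a, b} : Finset GolayPt)) b c
    have h3 := (Spor.M22.subgroupOf (M24 ⊓ stabilizer (Equiv.Perm GolayPt) (ds 8388609))).card_mul_index
    rw [card_subgroupOf h2, card_M22, ← Nat.card_congr (eqv h1).toEquiv, stD2.card] at h3
    rw [e, Subgroup.relIndex]
    omega
  · obtain ⟨a, b, c⟩ := mem22.1 hx
    refine mem22.2 ⟨mul_mem (mul_mem hg a) (inv_mem hg), ?_, ?_⟩
    · rw [Equiv.Perm.mul_apply, Equiv.Perm.mul_apply, show g⁻¹ none = some 0 from Equiv.Perm.inv_eq_iff_eq.2 h₂.symm, c, h₂]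
    · rw [Equiv.Perm.mul_apply, Equiv.Perm.mul_apply, show g⁻¹ (some 0) = none from Equiv.Perm.inv_eq_iff_eq.2 h₁.symm, b, h₁]
  · rintro ⟨h, hh, H⟩
    obtain ⟨a, b, c⟩ := mem22.1 hh
    have h1 : (⟨h, a⟩⁻¹ * ⟨g, hg⟩ : M24) = 1 := cent_eq_one st22.inn [[0], [2, 2, 1, 2], [0, 2], [0, 0, 3, 0]] [8390785, 8389249, 8486913, 8421385] [3, 7, 9, 11, 15, 16, 0, 1, 2, 4, 5, 6, 8, 10, 12, 13, 14, 17, 18, 19, 20, 21, 22, 23] (by decide +kernel)
      fun x hx => Subtype.ext (by
        have := H x (map22 ▸ ⟨x, hx, rfl⟩)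
        show h⁻¹ * g * x = x * (h⁻¹ * g)
        calc h⁻¹ * g * x = h⁻¹ * (g * x * g⁻¹) * g := by group
          _ = _ := by rw [this]; group)
    have h2 : h = g := inv_mul_eq_one.1 (congrArg Subtype.val h1)
    rw [h2, h₁] at b
    simp at b

end Cfsg.Agent.S5599
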