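import Cfsg.Statements.S5601
import Cfsg.Agent.Lib.Spor.M24Cls

set_option autoImplicit false
open scoped Pointwise
open Cfsg

namespace Cfsg.Agent.S5601

open Cfsg CA.NatBits CA.OrbBfs CA.CGroup CA.CGConstr CA.CGParts CA.CGCert CA.CGRank CA.CGDec CA.Perm24 CA.Golay
open CA.M24Core CA.M24Sub CA.M24Tools MulAction
open scoped Pointwise
open CA.M24St2 CA.CGFus CA.M24Syl CA.M24Cls

theorem gen (X : Subgroup M24) (h : Nat.card X = 3) : ∃ g : M24, orderOf g = 3 ∧ X = Subgroup.zpowers g := by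
  haveI : Fact (Nat.Prime 3) := ⟨by norm_num⟩
  obtain ⟨g, hg⟩ := exists_prime_orderOf_dvd_card' (G := X) 3 (h ▸ dvd_rfl)
  have : orderOf (g : M24) = 3 := by rw [Subgroup.orderOf_coe, hg]
  exact ⟨g, this, (Subgroup.eq_of_le_of_card_ge (by simp) (by rw [Nat.card_zpowers, this, h])).symm⟩

theorem fix (g : M24) : {p : GolayPt | ∀ x ∈ Subgroup.zpowers g, ((x : M24) : Equiv.Perm GolayPt) p = p}.ncard =
    (fx g).card := by
  rw [← Set.ncard_coe_finset]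
  congr 1
  ext p
  rw [Finset.mem_coe, mem_fx, ← mem_stabilizer_iff, ← Subgroup.zpowers_le]
  rfl

theorem cj (k g : M24) : MulAut.conj k • Subgroup.zpowers g = Subgroup.zpowers (k * g * k⁻¹) :=
  MonoidHom.map_zpowers _ _

/-- The group of the length-24 code has exactly two conjugacy classes of subgroups of order 3: a subgroup of order 3 fixes either exactly 6 of the 24 points or none of them, both cases occur, and two subgroups of order 3 with the same number of fixed points are conjugate. -/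
theorem result : (∀ X : Subgroup ↥Cfsg.M24, Nat.card X = 3 → {p : Cfsg.GolayPt | ∀ x ∈ X, ((x : ↥Cfsg.M24) : Equiv.Perm Cfsg.GolayPt) p = p}.ncard = 6 ∨ {p : Cfsg.GolayPt | ∀ x ∈ X, ((x : ↥Cfsg.M24) : Equiv.Perm Cfsg.GolayPt) p = p}.ncard = 0) ∧ (∃ X : Subgroup ↥Cfsg.M24, Nat.card X = 3 ∧ {p : Cfsg.GolayPt | ∀ x ∈ X, ((x : ↥Cfsg.M24) : Equiv.Perm Cfsg.GolayPt) p = p}.ncard = 6) ∧ (∃ X : Subgroup ↥Cfsg.M24, Nat.card X = 3 ∧ {p : Cfsg.GolayPt | ∀ x ∈ X, ((x : ↥Cfsg.M24) : Equiv.Perm Cfsg.GolayPt) p = p}.ncard = 0) ∧ ∀ X Y : Subgroup ↥Cfsg.M24, Nat.card X = 3 → Nat.card Y = 3 → {p : Cfsg.GolayPt | ∀ x ∈ X, ((x : ↥Cfsg.M24) : Equiv.Perm Cfsg.GolayPt) p = p}.ncard = {p : Cfsg.GolayPt | ∀ x ∈ Y, ((x : ↥Cfsg.M24) : Equiv.Perm Cfsg.GolayPt) p = p}.ncard → ∃ k : ↥Cfsg.M24, MulAut.conj k • X = Y := by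
  refine ⟨fun X h => ?_, ⟨_, by rw [Nat.card_zpowers, ord3A], by rw [fix, card_fx3A]⟩,
    ⟨_, by rw [Nat.card_zpowers, ord3B], by rw [fix, card_fx3B]⟩, fun X Y hX hY e => ?_⟩
  · obtain ⟨g, hg, rfl⟩ := gen X h
    rw [fix]
    rcases conj3 hg with ⟨k, rfl⟩ | ⟨k, rfl⟩ <;> rw [card_fx_conj]
    exacts [Or.inl card_fx3A, Or.inr card_fx3B]
  obtain ⟨g, hg, rfl⟩ := gen X hX
  obtain ⟨h, hh, rfl⟩ := gen Y hY
  rw [fix, fix] at e
  by_cases h0 : (fx g).card = 0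
  · obtain ⟨k, rfl⟩ := conj3B hg h0
    obtain ⟨k', rfl⟩ := conj3B hh (e ▸ h0)
    exact ⟨k' * k⁻¹, by rw [cj]; congr 1; group⟩
  · obtain ⟨k, rfl⟩ := conj3A hg h0
    obtain ⟨k', rfl⟩ := conj3A hh (e ▸ h0)
    exact ⟨k' * k⁻¹, by rw [cj]; congr 1; group⟩

end Cfsg.Agent.S5601
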