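import Cfsg.Statements.S5602
import Cfsg.Agent.Lib.Spor.M24Cls

set_option autoImplicit false
open scoped Pointwise
open Cfsg

namespace Cfsg.Agent.S5602

open Cfsg CA.NatBits CA.OrbBfs CA.CGroup CA.CGConstr CA.CGParts CA.CGCert CA.CGRank CA.CGDec CA.Perm24 CA.Golay
open CA.M24Core CA.M24Sub CA.M24Tools MulAction
open scoped Pointwise
open CA.M24St2 CA.CGFus CA.M24Syl CA.M24Cls

/-- An element of order 3 of the group of the length-24 code having exactly 6 fixed points maps to themselves exactly 21 octads, exactly 15 trios, exactly 16 sextets and exactly 20 dodecads. -/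
theorem result (g : Equiv.Perm Cfsg.GolayPt) (hg : g ∈ Cfsg.M24) (h₃ : orderOf g = 3) (h₆ : (Finset.univ.filter fun p => g p = p).card = 6) : {o : Finset Cfsg.GolayPt | o ∈ Cfsg.octads ∧ g • o = o}.ncard = 21 ∧ {T : Finset (Finset Cfsg.GolayPt) | T ∈ Cfsg.trios ∧ g • T = T}.ncard = 15 ∧ {S : Finset (Finset Cfsg.GolayPt) | S ∈ Cfsg.sextets ∧ g • S = S}.ncard = 16 ∧ {d : Finset Cfsg.GolayPt | d ∈ Cfsg.dodecads ∧ g • d = d}.ncard = 20 := by
  obtain ⟨k, e⟩ := conj3A (g := ⟨g, hg⟩) (by rw [Subgroup.orderOf_mk]; assumption) (fun h => by rw [fx, h₆] at h; cases h)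
  obtain rfl : ((k * elt c3A * k⁻¹ : M24) : Equiv.Perm GolayPt) = g := congrArg Subtype.val e
  exact ⟨(ncard_fix_conj k _ fun _ => smul_mem_octads k).trans fixOct3A, (ncard_fix_conj k _ fun _ => smul_mem_trios k).trans fixTri3A, (ncard_fix_conj k _ fun _ => smul_mem_sextets k).trans fixSex3A, (ncard_fix_conj k _ fun _ => smul_mem_dodecads k).trans fixDod3A⟩

end Cfsg.Agent.S5602
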