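import Cfsg.Statements.S5603
import Cfsg.Agent.Lib.Spor.M24Cls

set_option autoImplicit false
open scoped Pointwise
open Cfsg

namespace Cfsg.Agent.S5603

open Cfsg CA.NatBits CA.OrbBfs CA.CGroup CA.CGConstr CA.CGParts CA.CGCert CA.CGRank CA.CGDec CA.Perm24 CA.Golay
open CA.M24Core CA.M24Sub CA.M24Tools MulAction
open scoped Pointwise
open CA.M24St2 CA.CGFus CA.M24Syl CA.M24Cls

/-- A fixed-point-free element of order 3 of the group of the length-24 code maps to themselves exactly 7 sextets and exactly 15 trios. -/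
theorem result (g : Equiv.Perm Cfsg.GolayPt) (hg : g ∈ Cfsg.M24) (h₃ : orderOf g = 3) (h₀ : ∀ p, g p ≠ p) : {S : Finset (Finset Cfsg.GolayPt) | S ∈ Cfsg.sextets ∧ g • S = S}.ncard = 7 ∧ {T : Finset (Finset Cfsg.GolayPt) | T ∈ Cfsg.trios ∧ g • T = T}.ncard = 15 := by
  obtain ⟨k, e⟩ := conj3B (g := ⟨g, hg⟩) (by rw [Subgroup.orderOf_mk]; assumption) (card_fx_zero.2 h₀)
  obtain rfl : ((k * elt c3B * k⁻¹ : M24) : Equiv.Perm GolayPt) = g := congrArg Subtype.val e
  exact ⟨(ncard_fix_conj k _ fun _ => smul_mem_sextets k).trans fixSex3B, (ncard_fix_conj k _ fun _ => smul_mem_trios k).trans fixTri3B⟩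

end Cfsg.Agent.S5603
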