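import Cfsg.Statements.S5604
import Cfsg.Agent.Lib.Spor.M24Iso
import Cfsg.Agent.Lib.Spor.CGNorm

set_option autoImplicit false
open scoped Pointwise
open Cfsg

namespace Cfsg.Agent.S5604

open Cfsg CA.NatBits CA.OrbBfs CA.CGroup CA.CGConstr CA.CGParts CA.CGCert CA.CGRank CA.CGDec CA.Perm24 CA.Golay
open CA.M24Core CA.M24Sub CA.M24Tools MulAction
open scoped Pointwise
open CA.M24St2 CA.M24Syl CA.M24Cls CA.CGIso CA.CGLin CA.CGLin2 CA.M24Iso CA.CGNorm
set_option maxRecDepth 100000

/-- generators of the normalizer -/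
def lN : List ℕ := [1349189723836284673253163374557620328106910525419820801, 25575790568880185712730680665422090911193555312785037056]

theorem ok7 : mG.Ok [c7A] := ok_of (by decide +kernel)
theorem okN : mG.Ok lN := ok_of (by decide +kernel)

theorem nrm : Nat.card (mG.gen [c7A]) = 7 ∧ ∀ g ∈ mG.gen lN, ∀ x ∈ mG.gen [c7A], g * x * g⁻¹ ∈ mG.gen [c7A] :=
  nrmOK_spec (cj := cj24) R_cj R_inj ok7 (by decide +kernel)

theorem cent : Subgroup.centralizer (mG.gen [c7A] : Set M24) = Subgroup.centralizer {elt c7A} := by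
  rw [gen_single R7A, Subgroup.zpowers_eq_closure, Subgroup.centralizer_closure]

theorem stN : St lN (Subgroup.normalizer (mG.gen [c7A] : Set M24)) 126 := by
  refine stLe (okN.in_gen.mono (le_normalizer_of nrm.2)) ?_ [(2, [[1, 2, 0, 2, 0, 3]]), (3, [])] (by decide +kernel)
  have h1 := card_norm_le (cj := cj24) R_cj R_inj stT3.ok ok7 R7A (CG.mem_gen (by simp) R7A)
    (N := Subgroup.normalizer (mG.gen [c7A] : Set M24)) (fun g hg => stT3.gen.ge
      (CA.CGFus.norm_le_stab (A := mSub) g24_ok gen_g24 ok7.in_gen (sS (m := T3) (by decide))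
        (inS0 mSub ok7 (sS (m := T3) (by decide)) (by decide +kernel)).gen_le (by decide +kernel) (Subgroup.mem_top g) hg))
    le_rfl 3 (by decide +kernel)
  have h2 := Subgroup.card_le_of_le (inf_le_right : Subgroup.normalizer (mG.gen [c7A] : Set M24) ⊓
    stabilizer M24 (toCj (elt c7A)) ≤ _)
  rw [stabilizer_toCj, stC7A.card] at h2
  rw [stabilizer_toCj] at h1
  omega

/-- For a subgroup S of order 7 of the group of the length-24 code (a Sylow 7-subgroup): the normaliser of S has order 126, the centraliser of S has order 42 and is non-abelian, and the whole normaliser leaves some trio invariant. (These are the orders of a Frobenius group of order 21 times a symmetric group of degree 3; the isomorphism type itself is not asserted here.) -/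
theorem result (S : Subgroup ↥Cfsg.M24) (hS : Nat.card S = 7) : Nat.card ↥(Subgroup.normalizer (S : Set ↥Cfsg.M24)) = 126 ∧ Nat.card ↥(Subgroup.centralizer (S : Set ↥Cfsg.M24)) = 42 ∧ (∃ x ∈ Subgroup.centralizer (S : Set ↥Cfsg.M24), ∃ y ∈ Subgroup.centralizer (S : Set ↥Cfsg.M24), x * y ≠ y * x) ∧ ∃ T ∈ Cfsg.trios, ∀ n ∈ Subgroup.normalizer (S : Set ↥Cfsg.M24), ((n : ↥Cfsg.M24) : Equiv.Perm Cfsg.GolayPt) • T = T := by
  obtain ⟨k, -, S', -, h1, h2⟩ := exists_conj_ge (p := 7) (a := 1) (m := 34974720) (by norm_num) le_top nrm.1 card_top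
    (by norm_num) (le_top : S ≤ ⊤) (by rw [hS]; rfl)
  obtain rfl : mG.gen [c7A] = S' := Subgroup.eq_of_le_of_card_ge h2 (by rw [h1.card_eq, hS, nrm.1])
  have h3 : ConjTo k (Subgroup.normalizer (S : Set M24)) (Subgroup.normalizer (mG.gen [c7A] : Set M24)) := fun x => by
    rw [← h1.map_eq, ← Subgroup.map_normalizer_eq_of_bijective _ (MulAut.conj k).bijective]
    exact Subgroup.mem_map_iff_mem (MulAut.conj k).injective
  have h4 : ConjTo k (Subgroup.centralizer (S : Set M24)) (Subgroup.centralizer {elt c7A}) := fun x => by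
    rw [← cent, Subgroup.mem_centralizer_iff, Subgroup.mem_centralizer_iff]
    refine ⟨fun h y hy => ?_, fun h y hy => ?_⟩
    · have := h _ ((h1 y).2 hy)
      simp only [← mul_assoc, inv_mul_cancel_right, mul_left_inj] at this
      rwa [mul_assoc, mul_assoc, mul_right_inj] at this
    · obtain ⟨y, hy', rfl⟩ := h1.map_eq.ge hy
      have := h y hy'
      simp only [MulEquiv.coe_toMonoidHom, MulAut.conj_apply, mul_assoc, inv_mul_cancel_left, mul_right_inj]
      rw [← mul_assoc, this, mul_assoc]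
  refine ⟨h3.card_eq.symm.trans stN.card, h4.card_eq.symm.trans stC7A.card, ?_,
    k⁻¹ • dss [118953, 3672838, 12985424], (smul_mem_trios _).2 (isTri_spec (by decide +kernel)).2, fun n hn => ?_⟩
  · obtain ⟨x, hx, hx'⟩ := stC7A.inn _ (List.mem_cons_self ..)
    obtain ⟨y, hy, hy'⟩ := stC7A.inn _ (List.mem_cons_of_mem _ (List.mem_cons_self ..))
    refine ⟨_, (h4.equiv.symm ⟨x, hx⟩).2, _, (h4.equiv.symm ⟨y, hy⟩).2, fun e => ?_⟩
    rw [← Subgroup.coe_mul, ← Subgroup.coe_mul, Subtype.coe_inj, ← map_mul, ← map_mul, h4.equiv.symm.injective.eq_iff] at e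
    exact absurd ((R_eq_iff (R_mul hx' hy') (R_mul hy' hx')).1 (congrArg Subtype.val e)) (by decide +kernel)
  · have h5 := St.le stN (inS0 (mSS _) okN (sSS (l := [118953, 3672838, 12985424])) (by decide +kernel)) ((h3 n).2 hn)
    rw [mem_stabilizer_iff, mul_smul, mul_smul, smul_eq_iff_eq_inv_smul] at h5
    exact h5

end Cfsg.Agent.S5604
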