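import Cfsg.Statements.S5605
import Cfsg.Agent.Lib.Spor.M24Cls

set_option autoImplicit false
open scoped Pointwise
open Cfsg

namespace Cfsg.Agent.S5605

open Cfsg CA.NatBits CA.OrbBfs CA.CGroup CA.CGConstr CA.CGParts CA.CGCert CA.CGRank CA.CGDec CA.Perm24 CA.Golay
open CA.M24Core CA.M24Sub CA.M24Tools MulAction
open scoped Pointwise
open CA.M24St2 CA.CGFus CA.M24Syl CA.M24Cls

/-- An involution of the group of the length-24 code with exactly 8 fixed points maps to themselves exactly 71 octads, exactly 99 trios and exactly 91 sextets. -/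
theorem result (g : Equiv.Perm Cfsg.GolayPt) (hg : g ∈ Cfsg.M24) (h₂ : orderOf g = 2) (h₈ : (Finset.univ.filter fun p => g p = p).card = 8) : {o : Finset Cfsg.GolayPt | o ∈ Cfsg.octads ∧ g • o = o}.ncard = 71 ∧ {T : Finset (Finset Cfsg.GolayPt) | T ∈ Cfsg.trios ∧ g • T = T}.ncard = 99 ∧ {S : Finset (Finset Cfsg.GolayPt) | S ∈ Cfsg.sextets ∧ g • S = S}.ncard = 91 := by
  obtain ⟨k, e⟩ := conj2A (g := ⟨g, hg⟩) (by rw [Subgroup.orderOf_mk]; assumption) (fun h => by rw [fx, h₈] at h; cases h)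
  obtain rfl : ((k * elt c2A * k⁻¹ : M24) : Equiv.Perm GolayPt) = g := congrArg Subtype.val e
  exact ⟨(ncard_fix_conj k _ fun _ => smul_mem_octads k).trans fixOct2A, (ncard_fix_conj k _ fun _ => smul_mem_trios k).trans fixTri2A, (ncard_fix_conj k _ fun _ => smul_mem_sextets k).trans fixSex2A⟩

end Cfsg.Agent.S5605
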