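import Cfsg.Statements.S5606
import Cfsg.Agent.Lib.Spor.M24Cls

set_option autoImplicit false
open scoped Pointwise
open Cfsg

namespace Cfsg.Agent.S5606

open Cfsg CA.NatBits CA.OrbBfs CA.CGroup CA.CGConstr CA.CGParts CA.CGCert CA.CGRank CA.CGDec CA.Perm24 CA.Golay
open CA.M24Core CA.M24Sub CA.M24Tools MulAction
open scoped Pointwise
open CA.M24St2 CA.CGFus CA.M24Syl CA.M24Cls

/-- A fixed-point-free involution of the group of the length-24 code maps to themselves exactly 15 octads, exactly 75 trios and exactly 51 sextets. -/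
theorem result (g : Equiv.Perm Cfsg.GolayPt) (hg : g ∈ Cfsg.M24) (h₂ : orderOf g = 2) (h₀ : ∀ p, g p ≠ p) : {o : Finset Cfsg.GolayPt | o ∈ Cfsg.octads ∧ g • o = o}.ncard = 15 ∧ {T : Finset (Finset Cfsg.GolayPt) | T ∈ Cfsg.trios ∧ g • T = T}.ncard = 75 ∧ {S : Finset (Finset Cfsg.GolayPt) | S ∈ Cfsg.sextets ∧ g • S = S}.ncard = 51 := by
  obtain ⟨k, e⟩ := conj2B (g := ⟨g, hg⟩) (by rw [Subgroup.orderOf_mk]; assumption) (card_fx_zero.2 h₀)
  obtain rfl : ((k * elt c2B * k⁻¹ : M24) : Equiv.Perm GolayPt) = g := congrArg Subtype.val e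
  exact ⟨(ncard_fix_conj k _ fun _ => smul_mem_octads k).trans fixOct2B, (ncard_fix_conj k _ fun _ => smul_mem_trios k).trans fixTri2B, (ncard_fix_conj k _ fun _ => smul_mem_sextets k).trans fixSex2B⟩

end Cfsg.Agent.S5606
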