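import Cfsg.Statements.S5607
import Cfsg.Agent.Lib.Spor.M24Cls

set_option autoImplicit false
open scoped Pointwise
open Cfsg

namespace Cfsg.Agent.S5607

open Cfsg CA.NatBits CA.OrbBfs CA.CGroup CA.CGConstr CA.CGParts CA.CGCert CA.CGRank CA.CGDec CA.Perm24 CA.Golay
open CA.M24Core CA.M24Sub CA.M24Tools MulAction
open scoped Pointwise
open CA.M24St2 CA.CGFus CA.M24Syl CA.M24Cls

theorem tr0 : orbit (Subgroup.centralizer {elt c2B}) (none : GolayPt) = Set.univ :=
  orbit_eq_of_orb (A := mPt) stC2B.inn (sPt none) Set.finite_univ (fun _ _ _ _ => trivial) trivial (n := 24)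
    (by rw [Set.ncard_univ, Nat.card_eq_fintype_card, card_GolayPt]) (by decide +kernel)

theorem le0 : Subgroup.centralizer {elt c2B} ≤ stabilizer M24 (dss [100416, 131116, 1060992, 2360336, 4719360, 8404995]) :=
  St.le stC2B (inS0 (mSS _) stC2B.ok (sSS (l := [100416, 131116, 1060992, 2360336, 4719360, 8404995])) (by decide +kernel))

/-- For a fixed-point-free involution t of the group of the length-24 code: its centraliser in that group has order 7680, is transitive on the 24 points, and is contained, together with t, in the stabiliser of some sextet. -/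
theorem result (t : Equiv.Perm Cfsg.GolayPt) (ht : t ∈ Cfsg.M24) (h₂ : orderOf t = 2) (h₀ : ∀ p, t p ≠ p) : Nat.card {c : Equiv.Perm Cfsg.GolayPt // c ∈ Cfsg.M24 ∧ c * t = t * c} = 7680 ∧ (∀ p q : Cfsg.GolayPt, ∃ c ∈ Cfsg.M24, c * t = t * c ∧ c p = q) ∧ ∃ S ∈ Cfsg.sextets, t • S = S ∧ ∀ c ∈ Cfsg.M24, c * t = t * c → c • S = S := by
  obtain ⟨k, e⟩ := conj2B (g := ⟨t, ht⟩) (by rw [Subgroup.orderOf_mk]; assumption) (card_fx_zero.2 h₀)
  have hc := conjTo_centralizer k (elt c2B)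
  rw [e] at hc
  have mem : ∀ c : M24, c ∈ Subgroup.centralizer {(⟨t, ht⟩ : M24)} ↔ (c : Equiv.Perm GolayPt) * t = t * c :=
    fun c => by rw [Subgroup.mem_centralizer_singleton_iff, Subtype.ext_iff]; rfl
  have hle : ∀ c : M24, c ∈ Subgroup.centralizer {(⟨t, ht⟩ : M24)} → c • k • dss [100416, 131116, 1060992, 2360336, 4719360, 8404995] = k • dss [100416, 131116, 1060992, 2360336, 4719360, 8404995] := by
    intro c hc'
    have := (conjTo_stabilizer k _ (k⁻¹ * c * k)).2 (le0 ((hc _).1 (by simpa [mul_assoc] using hc')))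
    simpa [mul_assoc] using this
  refine ⟨?_, fun p q => ?_, k • dss [100416, 131116, 1060992, 2360336, 4719360, 8404995], (smul_mem_sextets k).2 (isSex_spec (by decide +kernel)).2,
    hle ⟨t, ht⟩ ((mem _).2 rfl), fun c hc' h => hle ⟨c, hc'⟩ ((mem _).2 h)⟩
  · rw [← stC2B.card, ← hc.card_eq]
    exact Nat.card_congr ⟨fun c => ⟨⟨c.1, c.2.1⟩, (mem _).2 c.2.2⟩, fun c => ⟨c.1, c.1.2, (mem _).1 c.2⟩,
      fun _ => rfl, fun _ => rfl⟩
  · obtain ⟨c, h1, h2⟩ := hc.trans (y := p) (z := q) (orbit_trans (x := (none : GolayPt)) (tr0 ▸ trivial) (tr0 ▸ trivial))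
    exact ⟨c, c.2, (mem _).1 h1, h2⟩

end Cfsg.Agent.S5607
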