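import Cfsg.Statements.S5608
import Cfsg.Agent.Lib.Spor.M24Cls

set_option autoImplicit false
open scoped Pointwise
open Cfsg

namespace Cfsg.Agent.S5608

open Cfsg CA.NatBits CA.OrbBfs CA.CGroup CA.CGConstr CA.CGParts CA.CGCert CA.CGRank CA.CGDec CA.Perm24 CA.Golay
open CA.M24Core CA.M24Sub CA.M24Tools MulAction
open scoped Pointwise
open CA.M24St2 CA.CGFus CA.M24Syl CA.M24Cls

theorem clsA : Cls (Subgroup.centralizer {elt c3A}) 2 [172700967402521541599382659086820590320831228524152094721] :=
  cls_of stC3A.card stC3A.inn (stabilizer_toCj (elt c3A) ▸ (inS0 mCj (ok_of (l := [393376209721413430891036589790743376194661261199572008961, 172700967402521541599382659086820590320831228524152094721]) (by decide +kernel)) (sCj c3A (by decide +kernel)) (by decide +kernel)))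
    (stabilizer_toCj (elt c3A) ▸ (inS0 mCj (ok_of (l := [393376209721413430891036589790743376194661261199572008961, 172700967402521541599382659086820590320831228524152094721]) (by decide +kernel)) (sCj c3A (by decide +kernel)) (by decide +kernel))) (p := 2) (by norm_num) 3 1 135
    [([], 172700967402521541599382659086820590320831228524152094721), ([1, 1, 2, 0, 3, 0, 0], 172700967402521541599382659086820590320831228524152094721), ([0, 3, 0, 3, 1], 172700967402521541599382659086820590320831228524152094721)] (by decide +kernel)

theorem clsB : Cls (Subgroup.centralizer {elt c3B}) 2 [2019633076453182232390557189924392251196336327044830231] :=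
  cls_of stC3B.card stC3B.inn (stabilizer_toCj (elt c3B) ▸ (inS0 mCj (ok_of (l := [2019633076453182232390557189924392251196336327044830231, 50864574346563821014353252370460950331146893374064760596]) (by decide +kernel)) (sCj c3B (by decide +kernel)) (by decide +kernel)))
    (stabilizer_toCj (elt c3B) ▸ (inS0 mCj (ok_of (l := [2019633076453182232390557189924392251196336327044830231, 50864574346563821014353252370460950331146893374064760596]) (by decide +kernel)) (sCj c3B (by decide +kernel)) (by decide +kernel))) (p := 2) (by norm_num) 3 1 63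
    [([], 2019633076453182232390557189924392251196336327044830231), ([2, 0, 0, 0, 0, 3, 0], 2019633076453182232390557189924392251196336327044830231), ([3, 0, 0], 2019633076453182232390557189924392251196336327044830231)] (by decide +kernel)

theorem key {c r : ℕ} (h : Cls (Subgroup.centralizer {elt c}) 2 [r]) (k s : M24) (hs : orderOf s = 2)
    (hc : Commute (k * elt c * k⁻¹) s) : (fx s).card = (fx (elt r)).card := by
  obtain ⟨r', hr, j, -, e⟩ := h.of_order one_lt_two (g := k⁻¹ * s * k⁻¹⁻¹)
    ((conjTo_centralizer k _ _).1 (by simpa [mul_assoc, Subgroup.mem_centralizer_singleton_iff] using hc.eq.symm))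
    (by rw [← hs]; exact (MulAut.conj k⁻¹).orderOf_eq s)
  rw [← card_fx_conj k⁻¹, ← e, card_fx_conj, List.mem_singleton.1 hr]

/-- If an element of order 3 and an involution of the group of the length-24 code commute, then either the element of order 3 has exactly 6 fixed points and the involution exactly 8, or both are fixed-point-free. -/
theorem result (x s : Equiv.Perm Cfsg.GolayPt) (hx : x ∈ Cfsg.M24) (hs : s ∈ Cfsg.M24) (h₃ : orderOf x = 3) (h₂ : orderOf s = 2) (hc : Commute x s) : ((Finset.univ.filter fun p => x p = p).card = 6 ∧ (Finset.univ.filter fun p => s p = p).card = 8) ∨ ((Finset.univ.filter fun p => x p = p).card = 0 ∧ (Finset.univ.filter fun p => s p = p).card = 0) := by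
  have hc' : Commute (⟨x, hx⟩ : M24) ⟨s, hs⟩ := Subtype.ext hc.eq
  have h2 : orderOf (⟨s, hs⟩ : M24) = 2 := by rw [Subgroup.orderOf_mk, h₂]
  show (fx ⟨x, hx⟩).card = 6 ∧ (fx ⟨s, hs⟩).card = 8 ∨ (fx ⟨x, hx⟩).card = 0 ∧ (fx ⟨s, hs⟩).card = 0
  rcases conj3 (g := ⟨x, hx⟩) (by rw [Subgroup.orderOf_mk, h₃]) with ⟨k, e⟩ | ⟨k, e⟩ <;> rw [← e] at hc' ⊢
  · refine Or.inl ⟨by rw [card_fx_conj, card_fx3A], ?_⟩
    rw [key clsA k _ h2 hc', fx_R (elt_R (by decide +kernel)) 2949708 (by decide +kernel), card_ds (by norm_num)]
    decide +kernel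
  · refine Or.inr ⟨by rw [card_fx_conj, card_fx3B], ?_⟩
    rw [key clsB k _ h2 hc', fx_R (elt_R (by decide +kernel)) 0 (by decide +kernel), card_ds (by norm_num)]
    decide +kernel

end Cfsg.Agent.S5608
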