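import Cfsg.Statements.S5609
import Cfsg.Agent.Lib.Spor.M24Iso

set_option autoImplicit false
open scoped Pointwise
open Cfsg

namespace Cfsg.Agent.S5609

open Cfsg CA.NatBits CA.OrbBfs CA.CGroup CA.CGConstr CA.CGParts CA.CGCert CA.CGRank CA.CGDec CA.Perm24 CA.Golay
open CA.M24Core CA.M24Sub CA.M24Tools MulAction
open scoped Pointwise
open CA.M24St2 CA.M24Syl CA.M24Cls CA.CGIso CA.CGLin CA.M24Iso
set_option maxRecDepth 100000

theorem adj_iff {a b : octads} : (blockGraph octads).Adj a b ↔ Disjoint a.1 b.1 := by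
  rw [blockGraph, SimpleGraph.fromRel_adj]
  refine ⟨fun h => h.2.elim id fun h => h.symm, fun h => ⟨fun e => ?_, Or.inl h⟩⟩
  subst e
  have h1 := (mem_octads.1 a.2).2
  rw [disjoint_self.1 h] at h1
  simp at h1

theorem adj_card {a b : octads} : (blockGraph octads).Adj a b ↔ (a.1 ∩ b.1).card = 0 := by
  rw [adj_iff, Finset.card_eq_zero, Finset.disjoint_iff_inter_eq_empty]

theorem dj (g : M24) (a b : ℕ) (h : a < 2 ^ 24 ∧ Nat.land a b = 0 := by decide) : Disjoint (g • ds a) (g • ds b) :=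
  (disjoint_smul g).2 ((gE.ds_disjoint_iff h.1).2 h.2)

theorem four {a b : octads} (h : (a.1 ∩ b.1).card = 4) :
    ∃ c, (blockGraph octads).Adj a c ∧ (blockGraph octads).Adj c b := by
  obtain ⟨g, h1, h2⟩ := pair_std a.2 b.2 (m := 5279) (by decide +kernel) h
  exact ⟨⟨g • ds 4038912, (smul_mem_octads g).2 (ds_octad (by decide +kernel))⟩, adj_iff.2 (h1 ▸ dj g O0 4038912),
    adj_iff.2 (h2 ▸ dj g 4038912 5279)⟩

theorem two {a b : octads} (h : (a.1 ∩ b.1).card = 2) :
    (∃ c d, (blockGraph octads).Adj a c ∧ (blockGraph octads).Adj c d ∧ (blockGraph octads).Adj d b) ∧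
      ¬ ∃ c, (blockGraph octads).Adj a c ∧ (blockGraph octads).Adj c b := by
  obtain ⟨g, h1, h2⟩ := pair_std a.2 b.2 (m := 15777) (by decide +kernel) h
  refine ⟨⟨⟨g • ds 337856, (smul_mem_octads g).2 (ds_octad (by decide +kernel))⟩,
    ⟨g • ds 6832158, (smul_mem_octads g).2 (ds_octad (by decide +kernel))⟩, adj_iff.2 (h1 ▸ dj g O0 337856),
    adj_iff.2 (dj g _ _), adj_iff.2 (h2 ▸ dj g 6832158 15777)⟩, ?_⟩
  rintro ⟨⟨c, hc⟩, h3, h4⟩
  obtain ⟨m, hm, rfl⟩ := exists_smul_ds g c
  rw [adj_iff] at h3 h4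
  rw [← h1, disjoint_smul, gE.ds_disjoint_iff (by decide)] at h3
  rw [← h2, disjoint_smul, gE.ds_disjoint_iff hm] at h4
  have h5 := allL_iff.1 (by decide +kernel :
    allL octL (fun m => !(Nat.beq (Nat.land O0 m) 0 && Nat.beq (Nat.land m 15777) 0)) = true) m
    (octL_of hm ((smul_mem_octads g).1 hc))
  rw [h3, h4] at h5
  simp at h5

theorem reach (a b : octads) : (blockGraph octads).Reachable a b := by
  by_cases h : a.1 = b.1
  · rw [Subtype.ext h]
  rcases octad_inter a.2 b.2 h with h | h | h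
  · exact (adj_card.2 h).reachable
  · obtain ⟨c, d, h1, h2, h3⟩ := (two h).1
    exact h1.reachable.trans (h2.reachable.trans h3.reachable)
  · obtain ⟨c, h1, h2⟩ := four h
    exact h1.reachable.trans h2.reachable

/-- In the graph on the 759 octads of the length-24 code in which two octads are adjacent when they are disjoint, the graph is connected (of diameter 3) and two distinct octads are at distance 1, 2 or 3 exactly when they meet in 0, 4 or 2 points respectively. -/
theorem result (o o' : Finset Cfsg.GolayPt) (ho : o ∈ Cfsg.octads) (ho' : o' ∈ Cfsg.octads) (hne : o ≠ o') : (Cfsg.blockGraph Cfsg.octads).Connected ∧ ((Cfsg.blockGraph Cfsg.octads).dist ⟨o, ho⟩ ⟨o', ho'⟩ = 1 ↔ (o ∩ o').card = 0) ∧ ((Cfsg.blockGraph Cfsg.octads).dist ⟨o, ho⟩ ⟨o', ho'⟩ = 2 ↔ (o ∩ o').card = 4) ∧ ((Cfsg.blockGraph Cfsg.octads).dist ⟨o, ho⟩ ⟨o', ho'⟩ = 3 ↔ (o ∩ o').card = 2) := by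
  set a : octads := ⟨o, ho⟩
  set b : octads := ⟨o', ho'⟩
  have h0 : 0 < (blockGraph octads).dist a b := (reach a b).pos_dist_of_ne fun e => hne (congrArg Subtype.val e)
  have h1 : (blockGraph octads).dist a b = 1 ↔ (o ∩ o').card = 0 := SimpleGraph.dist_eq_one_iff_adj.trans adj_card
  have h4 : (o ∩ o').card = 4 → (blockGraph octads).dist a b = 2 := fun h => by
    obtain ⟨c, h2, h3⟩ := four (a := a) (b := b) h
    have := SimpleGraph.dist_le (SimpleGraph.Walk.cons h2 (SimpleGraph.Walk.cons h3 SimpleGraph.Walk.nil))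
    simp only [SimpleGraph.Walk.length_cons, SimpleGraph.Walk.length_nil] at this
    omega
  have h2 : (o ∩ o').card = 2 → (blockGraph octads).dist a b = 3 := fun h => by
    obtain ⟨⟨c, d, h2, h3, h4⟩, h5⟩ := two (a := a) (b := b) h
    have := SimpleGraph.dist_le (SimpleGraph.Walk.cons h2 (SimpleGraph.Walk.cons h3
      (SimpleGraph.Walk.cons h4 SimpleGraph.Walk.nil)))
    simp only [SimpleGraph.Walk.length_cons, SimpleGraph.Walk.length_nil] at this
    have h6 : (blockGraph octads).dist a b ≠ 2 := fun e => by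
      obtain ⟨p, hp⟩ := (reach a b).exists_walk_length_eq_dist
      rw [e] at hp
      have h7 := p.adj_getVert_succ (i := 0) (by omega)
      have h8 := p.adj_getVert_succ (i := 1) (by omega)
      rw [p.getVert_zero] at h7
      rw [show 1 + 1 = p.length by omega, p.getVert_length] at h8
      exact h5 ⟨_, h7, h8⟩
    omega
  have := octad_inter ho ho' hne
  have : Nonempty octads := ⟨a⟩
  exact ⟨⟨reach⟩, h1, by omega, by omega⟩

end Cfsg.Agent.S5609
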