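import Cfsg.Statements.S5614
import Cfsg.Agent.Lib.Spor.M24Iso

set_option autoImplicit false
open scoped Pointwise
open Cfsg

namespace Cfsg.Agent.S5614

open Cfsg CA.NatBits CA.OrbBfs CA.CGroup CA.CGConstr CA.CGParts CA.CGCert CA.CGRank CA.CGDec CA.Perm24 CA.Golay
open CA.M24Core CA.M24Sub CA.M24Tools MulAction
open scoped Pointwise
open CA.M24St2 CA.M24Syl CA.M24Cls CA.CGIso CA.CGLin CA.M24Iso
set_option maxRecDepth 100000

/-- In the group of the length-24 code, the joint stabiliser of two octads meeting in exactly two points is isomorphic to the symmetric group of degree 6. -/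
theorem result (o o' : Finset Cfsg.GolayPt) (ho : o ∈ Cfsg.octads) (ho' : o' ∈ Cfsg.octads) (h₂ : (o ∩ o').card = 2) : Nonempty (↥(MulAction.stabilizer Cfsg.M24 o ⊓ MulAction.stabilizer Cfsg.M24 o') ≃* Equiv.Perm (Fin 6)) := by
  obtain ⟨g, rfl, rfl⟩ := pair_std ho ho' (m := 15777) (by decide +kernel) h₂
  obtain ⟨φ, h1, -⟩ := perm_surj mPt 6 [1, 2, 3, 14, 17, 23] rfl okPt stOO2.ok stOO2.gen
    [(1, [[1, 3, 0, 2], [2, 2, 1, 2]]), (2, [[1, 2, 1, 3, 3], [0, 2, 2, 1]]), (3, [[2], [1, 3, 1, 2, 1]]), (14, [[0, 2]]), (17, [])]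
    (by decide +kernel)
  obtain ⟨e⟩ := iso_of_surj φ h1 (by rw [stOO2.card, Nat.card_perm]; simp; rfl)
  exact ⟨(conj2 g _ _).equiv.symm.trans e⟩

end Cfsg.Agent.S5614
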