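import Cfsg.Statements.S5615
import Cfsg.Agent.Lib.Spor.M24Iso

set_option autoImplicit false
open scoped Pointwise
open Cfsg

namespace Cfsg.Agent.S5615

open Cfsg CA.NatBits CA.OrbBfs CA.CGroup CA.CGConstr CA.CGParts CA.CGCert CA.CGRank CA.CGDec CA.Perm24 CA.Golay
open CA.M24Core CA.M24Sub CA.M24Tools MulAction
open scoped Pointwise
open CA.M24St2 CA.M24Syl CA.M24Cls CA.CGIso CA.CGLin CA.M24Iso
set_option maxRecDepth 100000

theorem invY : Inv (stabilizer M24 (ds O0)) {T | T ∈ trios ∧ ds O0 ∈ T} := fun g hg T hT =>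
  ⟨(smul_mem_trios g).2 hT.1, by rw [← show g • ds O0 = ds O0 from hg]; exact Finset.smul_mem_smul_finset hT.2⟩

theorem mem0 (l : List ℕ) (h : isTri l = true) (h' : O0 ∈ l) : dss l ∈ {T | T ∈ trios ∧ ds O0 ∈ T} :=
  ⟨(isTri_spec h).2, mem_dss.2 ⟨_, h', rfl⟩⟩

theorem orbY : orbit (stabilizer M24 (ds O0)) (dss T0) = {T | T ∈ trios ∧ ds O0 ∈ T} :=
  (invY.orbit_subset (mem0 T0 (by decide +kernel) (by decide))).antisymm fun T hT => by
    obtain ⟨o', ho', h⟩ := Finset.exists_mem_ne (show 1 < T.card by rw [hT.1.1]; norm_num) (ds O0)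
    obtain ⟨g, h1, h2, -⟩ := trio_trans0 hT.1 hT.2 ho' h.symm
    exact mem_orbit_sub.2 ⟨g, h2, h1⟩

theorem cardY : {T | T ∈ trios ∧ ds O0 ∈ T}.ncard = 15 :=
  orbY ▸ ncard_orbit_eq (stO.card.trans (by norm_num)) st24c1.card

theorem mtY : MT (stabilizer M24 (ds O0)) {T | T ∈ trios ∧ ds O0 ∈ T} 2 :=
  mt_of_lowc (A := mSS 3) (xs := [T0, [337856, 7903248, O0]].map dss)
    (L := [(pack 24 T0, [[1, 1], [3, 3, 1, 3, 0]]), (pack 24 [337856, 7903248, O0], [])])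
    (forall₂_ss (ls := [T0, [337856, 7903248, O0]]) (by decide)) stO.inn (Set.toFinite _) invY
    (by decide +kernel) (by
      intro x hx
      obtain ⟨l, hl, rfl⟩ := List.mem_map.1 hx
      exact mem0 l (allL_iff.1 (by decide +kernel) l hl) ((by decide : ∀ l ∈ [T0, [337856, 7903248, O0]], O0 ∈ l) l hl))
    cardY rfl (by decide +kernel)

/-- four trios -/
def B4 : List (List ℕ) := [T0, [337856, 7903248, O0], [628112, 7612992, O0], [2141072, 6100032, O0]]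

theorem fixY {g : M24} (hg : g ∈ fixingSubgroup M24 (ds O0 : Set GolayPt)) :
    ∀ T ∈ {T | T ∈ trios ∧ ds O0 ∈ T}, g • T = T := by
  intro T hT
  obtain ⟨k, hk, rfl⟩ := mem_orbit_sub.1 (orbY ▸ hT : T ∈ orbit (stabilizer M24 (ds O0)) (dss T0))
  have h1 := (conjTo_fix k⁻¹ (ds O0) g).2 hg
  rw [show k⁻¹ • ds O0 = ds O0 from inv_mem hk] at h1
  have h2 : k⁻¹ * g * k⁻¹⁻¹ ∈ stabilizer M24 (dss T0) :=
    St.le stE4 (inS0 (mSS _) stE4.ok (sSS (l := T0)) (by decide +kernel)) h1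
  rw [mem_stabilizer_iff, inv_inv, mul_smul, mul_smul, inv_smul_eq_iff] at h2
  exact h2

theorem kerY : Fx (stabilizer M24 (ds O0)) (B4.map dss) = fixingSubgroup M24 (ds O0 : Set GolayPt) := by
  have h1 := lowc_spec (A := mSS 3) (xs := B4.map dss) (L := (B4.map (pack 24)).zip
    [[[1, 1], [3, 3, 1, 3, 0]], [[2, 1, 3], [1, 3, 3, 0, 0, 0, 3, 1, 3], [1, 2, 1, 3, 3, 3, 3]], [[1, 5, 3, 0, 4, 4, 3, 0], [1, 3, 4, 1, 3, 4, 2], [5, 3, 4, 1, 1, 3, 0, 0, 5], [1, 3, 3, 0, 2], [5, 1, 5, 5, 1, 5], [4, 4, 1, 5, 1]], []])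
    (forall₂_ss (ls := B4) (by decide)) stO.inn (N := 20160) (by decide +kernel)
  rw [stO.card] at h1
  refine (Subgroup.eq_of_le_of_card_ge (fun g hg => mem_Fx.2 ⟨fixing_le _ hg, fun x hx => fixY hg x ?_⟩)
    (by rw [stE4.card]; omega)).symm
  obtain ⟨l, hl, rfl⟩ := List.mem_map.1 hx
  exact mem0 l (allL_iff.1 (by decide +kernel) l hl) ((by decide : ∀ l ∈ B4, O0 ∈ l) l hl)

/-- An octad of the length-24 code lies in exactly 15 trios; the stabiliser of the octad in the code's group acts doubly transitively on these 15 trios, and the kernel of this action is the pointwise stabiliser of the octad. -/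
theorem result (o : Finset Cfsg.GolayPt) (ho : o ∈ Cfsg.octads) : {T : Finset (Finset Cfsg.GolayPt) | T ∈ Cfsg.trios ∧ o ∈ T}.ncard = 15 ∧ (∀ T₁ T₂ T₁' T₂' : Finset (Finset Cfsg.GolayPt), T₁ ∈ Cfsg.trios → T₂ ∈ Cfsg.trios → T₁' ∈ Cfsg.trios → T₂' ∈ Cfsg.trios → o ∈ T₁ → o ∈ T₂ → o ∈ T₁' → o ∈ T₂' → T₁ ≠ T₂ → T₁' ≠ T₂' → ∃ g ∈ Cfsg.M24, g • o = o ∧ g • T₁ = T₁' ∧ g • T₂ = T₂') ∧ ∀ g ∈ Cfsg.M24, g • o = o → ((∀ T ∈ Cfsg.trios, o ∈ T → g • T = T) ↔ ∀ p ∈ o, g p = p) := by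
  obtain ⟨k, rfl⟩ := octad_trans O0_mem ho
  have hY : ∀ T, k • T ∈ trios ∧ k • ds O0 ∈ k • T ↔ T ∈ trios ∧ ds O0 ∈ T := fun T => by
    rw [smul_mem_trios, Finset.smul_mem_smul_finset_iff]
  refine ⟨(ncard_smul_of_inv k hY).trans cardY, fun T₁ T₂ T₁' T₂' a b c d a' b' c' d' h h' => ?_, fun g hg hgo => ?_⟩
  · obtain ⟨x, hx, e⟩ := std_list mtY k (xs := [k⁻¹ • T₁, k⁻¹ • T₂]) (ys := [T₁', T₂']) (by simpa using h) (by simpa using h')
      rfl rfl (by simp only [List.forall_mem_cons, Set.mem_ofPred_eq, ← hY, smul_inv_smul]; simp [*])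
      (by simp only [List.forall_mem_cons, Set.mem_ofPred_eq, ← hY, smul_inv_smul]; simp [*])
    simp only [List.map_cons, List.map_nil, List.cons.injEq, and_true, ← mul_smul] at e
    exact ⟨(k * x * k⁻¹ : M24), (k * x * k⁻¹).2, tr k x hx, e.1, e.2⟩
  · have h1 := conjTo_fix k (ds O0) (k⁻¹ * ⟨g, hg⟩ * k)
    rw [show k * (k⁻¹ * ⟨g, hg⟩ * k) * k⁻¹ = ⟨g, hg⟩ by group] at h1
    refine ⟨fun h => (mem_fixingSubgroup_iff _).1 (h1.2 (kerY ▸ mem_Fx.2 ⟨?_, fun x hx => ?_⟩)), fun h T hT hT' => ?_⟩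
    · rw [mem_stabilizer_iff, mul_smul, mul_smul, inv_smul_eq_iff]; exact hgo
    · obtain ⟨l, hl, rfl⟩ := List.mem_map.1 hx
      have h2 := (hY _).2 (mem0 l (allL_iff.1 (by decide +kernel) l hl) ((by decide : ∀ l ∈ B4, O0 ∈ l) l hl))
      rw [mul_smul, mul_smul, inv_smul_eq_iff]; exact h _ h2.1 h2.2
    · have h2 := fixY (h1.1 ((mem_fixingSubgroup_iff _).2 h)) (k⁻¹ • T) ((hY _).1 (by simp [hT, hT']))
      rwa [mul_smul, mul_smul, smul_inv_smul, smul_left_cancel_iff] at h2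

end Cfsg.Agent.S5615
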