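import Cfsg.Statements.S5616
import Cfsg.Agent.Lib.Spor.M24Iso

set_option autoImplicit false
open scoped Pointwise
open Cfsg

namespace Cfsg.Agent.S5616

open Cfsg CA.NatBits CA.OrbBfs CA.CGroup CA.CGConstr CA.CGParts CA.CGCert CA.CGRank CA.CGDec CA.Perm24 CA.Golay
open CA.M24Core CA.M24Sub CA.M24Tools MulAction
open scoped Pointwise
open CA.M24St2 CA.M24Syl CA.M24Cls CA.CGIso CA.CGLin CA.M24Iso
set_option maxRecDepth 100000

/-- number of tetrads meeting `Y` -/
noncomputable def f (Y : Finset GolayPt) (S : Finset (Finset GolayPt)) : ℕ := (S.filter fun t => (t ∩ Y).Nonempty).card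

theorem f_smul (g : M24) (Y : Finset GolayPt) (S : Finset (Finset GolayPt)) : f (g • Y) (g • S) = f Y S := by
  rw [f, f, Finset.smul_finset_def (s := S), Finset.filter_image, Finset.card_image_of_injective _ (MulAction.injective g)]
  simp only [← Finset.smul_finset_inter, Finset.smul_finset_nonempty]

/-- representatives -/
def R3 : List (List ℕ) := [[432, 84032, 925696, 1050116, 6295560, 8421379], [15, 5264, 622848, 3416064, 4196928, 8536096], [29, 5250, 346112, 663616, 5275680, 10486528]]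

theorem hR : Orbs (stabilizer M24 (ds T3)) (R3.map dss) [21, 630, 1120] ∧ ∀ x ∈ R3.map dss, x ∈ sextets :=
  orbsSex stT3 R3 _ (by decide +kernel)

theorem fR : (R3.map dss).map (f (ds T3)) = [1, 2, 3] := by decide +kernel

theorem invS : Inv (stabilizer M24 (ds T3)) sextets := fun g _ _ h => (smul_mem_sextets g).2 h

theorem cov : ∀ y ∈ sextets, ∃ x ∈ R3.map dss, y ∈ orbit (stabilizer M24 (ds T3)) x :=
  hR.1.cover (Set.toFinite _) invS hR.2 (by rw [ncard_sextets]; decide)

theorem hf : ∀ g ∈ stabilizer M24 (ds T3), ∀ y, f (ds T3) (g • y) = f (ds T3) y := fun g hg y => by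
  rw [← f_smul g (ds T3) y, hg]

theorem cnt : (R3.map dss).map (fun x => {y | y ∈ sextets ∧ f (ds T3) y = f (ds T3) x}.ncard) = [21, 630, 1120] := by
  rw [← hR.1.1]
  exact List.map_congr_left fun x hx => by
    rw [orbit_eq_of_inv invS hR.2 cov (f (ds T3)) hf (by rw [fR]; decide) hx]

/-- Let Y be a set of 3 of the 24 points. The sextets of the length-24 code whose tetrads meeting Y number 1, 2 or 3 are respectively 21, 630 and 1120 in number, and two sextets with the same number of tetrads meeting Y are conjugate under the setwise stabiliser of Y in the code's group. -/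
theorem result (Y : Finset Cfsg.GolayPt) (hY : Y.card = 3) : {S : Finset (Finset Cfsg.GolayPt) | S ∈ Cfsg.sextets ∧ (S.filter fun t => (t ∩ Y).Nonempty).card = 1}.ncard = 21 ∧ {S : Finset (Finset Cfsg.GolayPt) | S ∈ Cfsg.sextets ∧ (S.filter fun t => (t ∩ Y).Nonempty).card = 2}.ncard = 630 ∧ {S : Finset (Finset Cfsg.GolayPt) | S ∈ Cfsg.sextets ∧ (S.filter fun t => (t ∩ Y).Nonempty).card = 3}.ncard = 1120 ∧ ∀ S S' : Finset (Finset Cfsg.GolayPt), S ∈ Cfsg.sextets → S' ∈ Cfsg.sextets → (S.filter fun t => (t ∩ Y).Nonempty).card = (S'.filter fun t => (t ∩ Y).Nonempty).card → ∃ g ∈ Cfsg.M24, g • Y = Y ∧ g • S = S' := by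
  obtain ⟨g, rfl⟩ := exists_smul_ds_of_card hY T3 (by decide +kernel)
  have key : ∀ k, {S | S ∈ sextets ∧ f (g • ds T3) S = k}.ncard = {S | S ∈ sextets ∧ f (ds T3) S = k}.ncard :=
    fun k => ncard_smul_of_inv g fun y => by rw [smul_mem_sextets, f_smul]
  have h1 := cnt
  have h2 := fR
  simp only [R3, List.map_cons, List.map_nil, List.cons.injEq, and_true] at h1 h2
  rw [h2.1, h2.2.1, h2.2.2] at h1
  refine ⟨(key 1).trans h1.1, (key 2).trans h1.2.1, (key 3).trans h1.2.2, fun S S' hS hS' h => ?_⟩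
  obtain ⟨k, hk, e⟩ := trans_of_inv cov (f (ds T3)) hf (by rw [fR]; decide) ((smul_mem_sextets g⁻¹).2 hS)
    ((smul_mem_sextets g⁻¹).2 hS') (by rw [← f_smul g, ← f_smul g (ds T3), smul_inv_smul, smul_inv_smul]; exact h)
  exact ⟨(g * k * g⁻¹ : M24), (g * k * g⁻¹).2, tr g k hk, by
    have h3 := tr g k e
    rwa [smul_inv_smul, smul_inv_smul] at h3⟩

end Cfsg.Agent.S5616
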