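import Cfsg.Statements.S5618
import Cfsg.Agent.Lib.Spor.M24Iso

set_option autoImplicit false
open scoped Pointwise
open Cfsg

namespace Cfsg.Agent.S5618

open Cfsg CA.NatBits CA.OrbBfs CA.CGroup CA.CGConstr CA.CGParts CA.CGCert CA.CGRank CA.CGDec CA.Perm24 CA.Golay
open CA.M24Core CA.M24Sub CA.M24Tools MulAction
open scoped Pointwise
open CA.M24St2 CA.M24Syl CA.M24Cls CA.CGIso CA.CGLin CA.M24Iso
set_option maxRecDepth 100000

/-- For a dodecad d of the length-24 code and a hexad C on it (a 6-point intersection of d with an octad): the joint stabiliser of d and C in the code's group is isomorphic to the symmetric group of degree 6, and it acts faithfully both on the six points of C and on the six points of d outside C. -/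
theorem result (d : Finset Cfsg.GolayPt) (hd : d ∈ Cfsg.dodecads) (C : Finset Cfsg.GolayPt) (hC : C ∈ Cfsg.hexadsOn d) : Nonempty (↥(MulAction.stabilizer Cfsg.M24 d ⊓ MulAction.stabilizer Cfsg.M24 C) ≃* Equiv.Perm (Fin 6)) ∧ (∀ g ∈ MulAction.stabilizer Cfsg.M24 d ⊓ MulAction.stabilizer Cfsg.M24 C, (∀ p ∈ C, ((g : ↥Cfsg.M24) : Equiv.Perm Cfsg.GolayPt) p = p) → g = 1) ∧ ∀ g ∈ MulAction.stabilizer Cfsg.M24 d ⊓ MulAction.stabilizer Cfsg.M24 C, (∀ p ∈ d \ C, ((g : ↥Cfsg.M24) : Equiv.Perm Cfsg.GolayPt) p = p) → g = 1 := by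
  refine ⟨?_, fun g hg h => fix5 hd (hexad_subset hC) (by rw [hC.1]; norm_num) hg.1 h,
    fun g hg h => fix5 hd Finset.sdiff_subset
      (by rw [Finset.card_sdiff_of_subset (hexad_subset hC), hC.1, (mem_dodecads.1 hd).2]; norm_num) hg.1 h⟩
  obtain ⟨g, rfl, rfl⟩ := hexad_std hd hC
  obtain ⟨φ, h1, -⟩ := perm_surj mPt 6 [0, 1, 2, 3, 4, 12] rfl okPt stHx.ok stHx.gen
    [(0, [[1, 1, 2, 0, 2], [0, 3, 3, 0, 2]]), (1, [[2, 0, 0, 0, 0, 3], [1, 3, 1]]), (2, [[0, 0, 2], [0, 2, 2]]), (3, [[2, 0, 2, 2]]), (4, [])]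
    (by decide +kernel)
  obtain ⟨e⟩ := iso_of_surj φ h1 (by rw [stHx.card, Nat.card_perm]; simp; rfl)
  exact ⟨(conj2 g _ _).equiv.symm.trans e⟩

end Cfsg.Agent.S5618
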