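import Cfsg.Statements.S5619
import Cfsg.Agent.Lib.Spor.M24Iso
import Cfsg.Agent.Lib.Spor.CGLin2

set_option autoImplicit false
open scoped Pointwise
open Cfsg

namespace Cfsg.Agent.S5619

open Cfsg CA.NatBits CA.OrbBfs CA.CGroup CA.CGConstr CA.CGParts CA.CGCert CA.CGRank CA.CGDec CA.Perm24 CA.Golay
open CA.M24Core CA.M24Sub CA.M24Tools MulAction
open scoped Pointwise
open CA.M24St2 CA.M24Syl CA.M24Cls CA.CGIso CA.CGLin CA.CGLin2 CA.M24Iso
set_option maxRecDepth 100000

/-- the three-point stabiliser -/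
abbrev K9 : Subgroup M24 := stabilizer M24 (ds D0) ⊓ stabilizer M24 (some 0 : GolayPt) ⊓ stabilizer M24 (some 1 : GolayPt) ⊓
  stabilizer M24 (some 2 : GolayPt)

/-- generators of the Sylow 3-subgroup -/
def l3 : List ℕ := [566070809149553710266984410835427747935035417766163251456, 271930063880928830868025931038177719629144396018806292736]

/-- generators of a Sylow 2-subgroup -/
def l2 : List ℕ := [124040109639224129468495601384878679123967818213881938176, 345294549350216480335018769425995098799324367566026178816]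

/-- the elements of the Sylow 2-subgroup -/
def tab : List ℕ := [566073426779046459040877649791461066728553822781039575296, 124040109639224129468495601384878679123967818213881938176, 565019463388836171544282210455278000650214024247559454976, 124422115413067552060347218601131985813338820913133650176, 345294549350216480335018769425995098799324367566026178816, 417514893969716681946698520803823600010627657932365496576, 345202867873945002668909695776236975490014844134136873216, 417803727609411718598946419217074982829339807577693880576]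

/-- labels -/
noncomputable def cx : QuaternionGroup 2 → ℕ
  | .a i => nth 0 tab i.val
  | .xa i => nth 0 tab (4 + i.val)

theorem in3 : mG.In l3 K9 := in_of_wordsM st9.inn (ws := [[2, 2, 0, 0], [3, 0, 2, 0]]) (by decide +kernel)
theorem in2 : mG.In l2 K9 := in_of_wordsM st9.inn (ws := [[0], [2, 0, 2, 2]]) (by decide +kernel)

theorem nrm : Nat.card (mG.gen l3) = 9 ∧ ∀ g ∈ mG.gen g9, ∀ x ∈ mG.gen l3, g * x * g⁻¹ ∈ mG.gen l3 :=
  nrmOK_spec (cj := cj24) R_cj R_inj in3.ok (by decide +kernel)

theorem q8 : Nonempty (mG.gen l2 ≃* QuaternionGroup 2) :=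
  label_reg R_inj cx (by decide +kernel)
    (fun v => ok_of (l := tab) (by decide +kernel) _ ((by decide +kernel : ∀ v, cx v ∈ tab) v)) in2.ok rfl
    [.a 1, .xa 0] (by decide +kernel) (N := 8) (by rw [Nat.card_eq_fintype_card, QuaternionGroup.card]) (by decide +kernel)

/-- In the group of the length-24 code, the subgroup fixing a dodecad setwise and three of its points individually (a group of order 72) has a normal Sylow 3-subgroup that is elementary abelian of order 9, and its Sylow 2-subgroups are quaternion of order 8. -/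
theorem result (d : Finset Cfsg.GolayPt) (hd : d ∈ Cfsg.dodecads) (p q r : Cfsg.GolayPt) (hp : p ∈ d) (hq : q ∈ d) (hr : r ∈ d) (hpq : p ≠ q) (hpr : p ≠ r) (hqr : q ≠ r) : (∀ Q : Sylow 3 ↥(MulAction.stabilizer Cfsg.M24 d ⊓ MulAction.stabilizer Cfsg.M24 p ⊓ MulAction.stabilizer Cfsg.M24 q ⊓ MulAction.stabilizer Cfsg.M24 r), (Q : Subgroup ↥(MulAction.stabilizer Cfsg.M24 d ⊓ MulAction.stabilizer Cfsg.M24 p ⊓ MulAction.stabilizer Cfsg.M24 q ⊓ MulAction.stabilizer Cfsg.M24 r)).Normal ∧ Nat.card ↥Q = 9 ∧ ∀ x ∈ (Q : Subgroup ↥(MulAction.stabilizer Cfsg.M24 d ⊓ MulAction.stabilizer Cfsg.M24 p ⊓ MulAction.stabilizer Cfsg.M24 q ⊓ MulAction.stabilizer Cfsg.M24 r)), x ^ 3 = 1) ∧ ∀ P : Sylow 2 ↥(MulAction.stabilizer Cfsg.M24 d ⊓ MulAction.stabilizer Cfsg.M24 p ⊓ MulAction.stabilizer Cfsg.M24 q ⊓ MulAction.stabilizer Cfsg.M24 r), Nonempty (↥P ≃* QuaternionGroup 2) := by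
  obtain ⟨g, rfl, h⟩ := flag_D hd (xs := [some 0, some 1, some 2]) (ys := [p, q, r]) (by decide) (by simp [*]) rfl
    (by decide) (by decide) (by simp [*])
  obtain ⟨rfl, rfl, rfl⟩ : g • some 0 = p ∧ g • some 1 = q ∧ g • some 2 = r := by simpa using h
  have e := ((conj3 g (ds D0) (some 0 : GolayPt) (some 1 : GolayPt)).inf (conjTo_stabilizer g (some 2 : GolayPt))).equiv
  have : Fact (Nat.Prime 3) := ⟨by norm_num⟩
  refine ⟨fun Q => ?_, fun P => ?_⟩
  · obtain ⟨f, h1, h2, h3⟩ := CA.CGFus.exists_sylow_hom (a := 2) (m := 8) in3.gen_le nrm.1 st9.card (by norm_num) e Q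
    obtain ⟨e'⟩ := sylow_equiv (a := 2) (m := 8) in3.gen_le nrm.1 st9.card (by norm_num) e Q
    refine ⟨⟨fun x hx y => ?_⟩, (Nat.card_congr e'.toEquiv).trans nrm.1, fun x hx => h1 ?_⟩
    · rw [h3, map_mul, map_mul, map_inv]
      exact nrm.2 _ (st9.gen.ge ((h2 _).2 ⟨y, rfl⟩)) _ ((h3 x).1 hx)
    · rw [map_pow, map_one]
      exact pow_of_elts R_inj in3.ok 3 (by decide +kernel) _ ((h3 x).1 hx)
  · obtain ⟨e2⟩ := q8
    obtain ⟨e'⟩ := sylow_equiv (a := 3) (m := 9) in2.gen_le
      (by rw [Nat.card_congr e2.toEquiv, Nat.card_eq_fintype_card, QuaternionGroup.card]; rfl) st9.card (by norm_num) e P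
    exact ⟨e'.trans e2⟩

end Cfsg.Agent.S5619
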