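import Cfsg.Statements.S5620
import Cfsg.Agent.Lib.Spor.M24Iso

set_option autoImplicit false
open scoped Pointwise
open Cfsg

namespace Cfsg.Agent.S5620

open Cfsg CA.NatBits CA.OrbBfs CA.CGroup CA.CGConstr CA.CGParts CA.CGCert CA.CGRank CA.CGDec CA.Perm24 CA.Golay
open CA.M24Core CA.M24Sub CA.M24Tools MulAction
open scoped Pointwise
open CA.M24St2 CA.M24Syl CA.M24Cls CA.CGIso CA.CGLin CA.M24Iso
set_option maxRecDepth 100000

/-- an element interchanging the two dodecads -/
def c0 : ℕ := 288865850334057685120836893743112189802431027135976471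

theorem R0 : mG.R c0 (elt c0) := elt_R (by decide +kernel)

theorem hD : elt c0 • ds D0 = (ds D0)ᶜ := by
  rw [R_ds R0, ← ds_compl]; exact congrArg ds (by decide +kernel)

theorem cj0 : ConjTo (elt c0) (stabilizer M24 (ds D0) ⊓ stabilizer M24 (some 0 : GolayPt))
    (stabilizer M24 (ds D0) ⊓ stabilizer M24 (none : GolayPt)) := by
  have h := conj2 (elt c0) (ds D0) (some 0 : GolayPt)
  rwa [hD, CA.M24Sub.stabilizer_compl, show elt c0 • (some 0 : GolayPt) = none from
    gE.ix_inj ((R_pt R0 _).trans (by decide +kernel))] at h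

theorem mapn : (stabilizer M24 (ds D0) ⊓ stabilizer M24 (none : GolayPt)).map M24.subtype =
    Spor.M12 ⊓ stabilizer (Equiv.Perm GolayPt) (none : GolayPt) := by rw [map_inf_stab, map12]

/-- Inside the stabiliser of the dodecad of squares (a Mathieu group of degree 12), the stabiliser of the residue 0 (a point of the dodecad) and the stabiliser of the extra point (a point outside the dodecad) are isomorphic but not conjugate; conjugation by a suitable element of the code's group that maps the dodecad of squares onto its complement carries the first onto the second. -/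
theorem result : Nonempty (↥(Cfsg.Spor.M12 ⊓ MulAction.stabilizer (Equiv.Perm Cfsg.GolayPt) (none : Cfsg.GolayPt)) ≃* ↥Cfsg.Spor.M11) ∧ (¬ ∃ k ∈ Cfsg.Spor.M12, MulAut.conj k • Cfsg.Spor.M11 = Cfsg.Spor.M12 ⊓ MulAction.stabilizer (Equiv.Perm Cfsg.GolayPt) (none : Cfsg.GolayPt)) ∧ ∃ g ∈ Cfsg.M24, g • Cfsg.Spor.squareDodecad = Finset.univ \ Cfsg.Spor.squareDodecad ∧ MulAut.conj g • Cfsg.Spor.M11 = Cfsg.Spor.M12 ⊓ MulAction.stabilizer (Equiv.Perm Cfsg.GolayPt) (none : Cfsg.GolayPt) := by
  refine ⟨⟨(eqv mapn).symm.trans (cj0.equiv.symm.trans (eqv map11))⟩, ?_, elt c0, (elt c0).2, ?_, ?_⟩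
  · rintro ⟨k, hk, h⟩
    rw [← map12] at hk
    obtain ⟨k, hk, rfl⟩ := hk
    have h1 : k⁻¹ • (none : GolayPt) ∉ ds D0 := by
      rw [← Finset.smul_mem_smul_finset_iff k, smul_inv_smul, show k • ds D0 = ds D0 from hk]; decide
    obtain ⟨y, hy, hy'⟩ : ∃ y : GolayPt, y ∉ ds D0 ∧ y ≠ k⁻¹ • none := by
      by_cases h2 : k⁻¹ • (none : GolayPt) = none
      · exact ⟨some 5, by decide, by rw [h2]; simp⟩
      · exact ⟨none, by decide, Ne.symm h2⟩
    obtain ⟨x, hx, e⟩ := (mt11c.mono (Set.toFinite _) (by rw [ncard_D0c]; norm_num) (j := 1) (by norm_num)).lists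
      (xs := [k⁻¹ • none]) (ys := [y]) (by simp) (by simp) rfl rfl (by simpa using h1) (by simpa using hy)
    have h3 : (MulAut.conj (k : Equiv.Perm GolayPt)) • (x : Equiv.Perm GolayPt) ∈ MulAut.conj (k : Equiv.Perm GolayPt) • Spor.M11 :=
      Subgroup.smul_mem_pointwise_smul _ _ _ (map11 ▸ ⟨x, hx, rfl⟩)
    rw [show MulAut.conj (k : Equiv.Perm GolayPt) • Spor.M11 = _ from h] at h3
    have h4 : (k * x * k⁻¹) • (none : GolayPt) = none := h3.2
    rw [mul_smul, mul_smul, smul_eq_iff_eq_inv_smul] at h4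
    exact hy' ((by simpa using e : x • k⁻¹ • none = y).symm.trans h4)
  · rw [squareDodecad_eq, ← Finset.compl_eq_univ_sdiff]; exact hD
  · rw [← mapn, ← cj0.map_eq, ← map11, Subgroup.pointwise_smul_def, Subgroup.map_map]
    exact Subgroup.map_map _ _ _

end Cfsg.Agent.S5620
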