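import Cfsg.Statements.S5624
import Cfsg.Agent.Lib.Spor.GolayUniq

set_option autoImplicit false
open Cfsg

namespace Cfsg.Agent.S5624

open Cfsg CA.NatBits CA.Golay CA.M24Core CA.M24Sub CA.M24St2 CA.StSearch CA.StModel CA.CGCert Finset MulAction
open scoped Pointwise

/-- Let C be a self-dual binary code of length 24 with minimum weight at least 8 (a 12-dimensional subspace of the 24-dimensional space over the field with two elements, any two of whose words have dot product zero, with no non-zero word of weight below 8 — an abstract extended binary Golay code). Then C is spanned, as a vector space over the field with two elements, by its words of weight 8. -/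
theorem result (C : Submodule (ZMod 2) (Fin 24 → ZMod 2)) (hdim : Module.finrank (ZMod 2) C = 12) (horth : ∀ v ∈ C, ∀ w ∈ C, ∑ i, v i * w i = 0) (hmin : ∀ w ∈ C, w ≠ 0 → 8 ≤ hammingNorm w) : Submodule.span (ZMod 2) {w : Fin 24 → ZMod 2 | w ∈ C ∧ hammingNorm w = 8} = C := by
  obtain ⟨e, he⟩ := CA.GolayUniq.golay_uniq (by simp) (CA.GolayUniq.card_of_finrank hdim) hmin
  refine le_antisymm (Submodule.span_le.2 fun w hw => hw.1) fun w hw => ?_
  have := CA.GolayUniq.golay_ind (Q := fun v => (fun i => v (e i)) ∈
    Submodule.span (ZMod 2) {w : Fin 24 → ZMod 2 | w ∈ C ∧ hammingNorm w = 8}) (Submodule.zero_mem _)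
    (fun _ _ => Submodule.add_mem _) (fun v hv h8 => Submodule.subset_span ⟨(he v).1 hv,
      (CA.GolayUniq.norm_comp e v).trans h8⟩) ((he fun p => w (e.symm p)).2 (by simpa using hw))
  simpa using this

end Cfsg.Agent.S5624
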