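import Cfsg.Statements.S5627
import Cfsg.Agent.Lib.Spor.StModel

set_option autoImplicit false
open Cfsg

namespace Cfsg.Agent.S5627

open Cfsg CA.NatBits CA.Golay CA.M24Core CA.M24Sub CA.M24St2 CA.M24Tools CA.StSearch CA.StModel CA.CGCert CA.CGRank
open Finset MulAction
open scoped Pointwise

set_option maxRecDepth 100000

/-- the lines -/
def LL : List ℕ :=
    [9544, 33200, 116800, 135760, 147500, 268548, 328328, 594976, 958464, 1077376, 1082884, 1574936, 2107936,
    2376720, 2621636, 3342592, 4268052, 4328576, 4735744, 5505120, 6328328]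

/-- the hyperovals -/
def HL : List ℕ :=
    [3188, 5276, 6376, 18144, 19092, 24072, 43148, 45156, 48144, 57880, 66404, 69392, 83332, 86296, 111360, 140164,
    157968, 166664, 185600, 205024, 210952, 222720, 230424, 233604, 271524, 272592, 274488, 287300, 295004, 298024,
    300224, 315936, 352544, 395040, 410048, 459844, 460848, 534160, 537100, 548976, 551940, 557672, 563840, 574600,
    577556, 600448, 622860, 656660, 657760, 659848, 723460, 737424, 786996, 790080, 805024, 806984, 852304, 1051584,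
    1053480, 1065300, 1068320, 1115344, 1116324, 1118284, 1131056, 1155112, 1188912, 1189956, 1212616, 1218592,
    1319696, 1360136, 1387520, 1413136, 1441940, 1446920, 1460736, 1581348, 1610048, 1647168, 1704608, 1721408,
    1836416, 1916932, 2097948, 2103168, 2115976, 2117984, 2154756, 2162808, 2165772, 2168976, 2183684, 2204800,
    2236568, 2241540, 2262112, 2263060, 2278016, 2392896, 2437184, 2457636, 2492488, 2494624, 2634000, 2657536,
    2711560, 2720272, 2754056, 2775040, 2883880, 3146920, 3149876, 3152960, 3162696, 3186768, 3416076, 3442816,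
    3719200, 3936768, 4195896, 4196940, 4199076, 4210904, 4215876, 4216880, 4235968, 4252704, 4262184, 4264384,
    4337952, 4358468, 4424224, 4470272, 4483080, 4491792, 4505732, 4556032, 4587800, 4673536, 4726952, 4732992,
    4752464, 4753444, 4915272, 4981772, 4984976, 5243276, 5248272, 5286144, 5315072, 5325832, 5382664, 5423120,
    5865600, 5902340, 6292772, 6293840, 6358592, 6373536, 6447168, 6562176, 6685188, 6946864, 7145472, 7340688,
    7358468, 7873536]

/-- independent subsets of the plane -/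
noncomputable def indep (m : ℕ) : Bool :=
  Nat.beq (Nat.land m 8388604) m && allL LL fun l => Nat.ble (pc24 (Nat.land m l)) 2

theorem LL_perm : ∀ m, m ∈ LL ↔ m ∈ L21 := fun m =>
  ⟨fun h => by simpa using anyL_iff.1 (allL_iff.1 (show allL LL (fun a => anyL L21 (Nat.beq a)) = true by
      decide +kernel) m h),
    fun h => by simpa using anyL_iff.1 (allL_iff.1 (show allL L21 (fun a => anyL LL (Nat.beq a)) = true by
      decide +kernel) m h)⟩

/-- independent sets -/
def Ind (s : Finset GolayPt) : Prop := s ⊆ ds 8388604 ∧ ∀ l ∈ F21, (l ∩ s).card ≤ 2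

theorem ind_iff {m : ℕ} (hm : m < 2 ^ 24) : Ind (ds m) ↔ indep m = true := by
  simp only [Ind, indep, Bool.and_eq_true, beq_iff, allL_iff, ble_iff, LL_perm, gE.ds_subset_iff hm]
  refine and_congr_right fun _ => ⟨fun h l hl => ?_, fun h l hl => ?_⟩
  · rw [← card_inter hm, inter_comm]; exact h _ (m21 l hl).2
  · obtain ⟨a, ha, rfl⟩ := l21 l hl
    rw [inter_comm, card_inter hm]; exact h a ha

theorem HL_eq : (kSub 24 6).filter indep = HL := by decide +kernel

theorem mem_HL {m : ℕ} : m ∈ HL ↔ m < 2 ^ 24 ∧ (ds m).card = 6 ∧ Ind (ds m) := by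
  rw [← HL_eq, List.mem_filter, mem_kSub, and_assoc]
  exact and_congr_right fun h => by rw [ind_iff h, gE.card_ds]

theorem ncard_HL (P : Finset GolayPt → Prop) (f : ℕ → Bool) (h : ∀ m < 2 ^ 24, P (ds m) ↔ f m = true) :
    {s | (s.card = 6 ∧ Ind s) ∧ P s}.ncard = cntL HL f := by
  rw [cntL_eq]
  refine ncard_ds ((HL_eq ▸ (kSub_nodup 24 6).filter _).filter _) (fun m hm => (mem_HL.1 (List.mem_filter.1 hm).1).1)
    fun m hm => ?_
  rw [List.mem_filter, mem_HL, Set.mem_ofPred_eq, h m hm, and_iff_right hm]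

variable {α : Type*} [DecidableEq α] {L : Set (Finset α)} {e : α ↪ GolayPt}

theorem ind_map (h : Mod L e (ds 8388604) F21) (s : Finset α) : (∀ l ∈ L, (l ∩ s).card ≤ 2) ↔ Ind (s.map e) := by
  refine ⟨fun h' => ⟨fun x hx => ?_, fun l hl => ?_⟩, fun h' l hl => ?_⟩
  · obtain ⟨a, -, rfl⟩ := mem_map.1 hx; exact h.in a
  · obtain ⟨b, rfl⟩ := h.exists_map (h.sub l hl)
    rw [← map_inter, card_map]; exact h' b ((h.mem b).2 hl)
  · rw [← card_map e, map_inter]; exact h'.2 _ ((h.mem l).1 hl)

omit [DecidableEq α] in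
theorem ncard_map (h : Mod L e (ds 8388604) F21) (P : Finset GolayPt → Prop) (hP : ∀ s, P s → s ⊆ ds 8388604) :
    {s : Finset α | P (s.map e)}.ncard = {s | P s}.ncard :=
  Set.ncard_congr (fun s _ => s.map e) (fun _ h => h) (fun _ _ _ _ h => map_injective e h) fun s hs =>
    let ⟨b, hb⟩ := h.exists_map (hP s hs); ⟨b, by rw [Set.mem_ofPred_eq, hb]; exact hs, hb⟩

theorem ncard_hyp (h : Mod L e (ds 8388604) F21) (S : Finset α) :
    {H : Finset α | (H.card = 6 ∧ ∀ l ∈ L, (l ∩ H).card ≤ 2) ∧ S ⊆ H}.ncard =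
      cntL HL fun m => Nat.beq (Nat.land (gE.es (S.map e)) m) (gE.es (S.map e)) := by
  rw [← ncard_HL (S.map e ⊆ ·) _ fun m _ => by rw [beq_iff, ← gE.ds_subset_iff (gE.es_lt _), gE.ds_es],
    ← ncard_map h _ fun s hs => hs.1.2.1]
  simp only [ind_map h, card_map, map_subset_map]

/-- In a projective plane of order 4 (a Steiner system S(2, 5, 21)), call a set of points independent when no line meets it in more than two points. There are exactly 2520 independent 4-sets and exactly 168 independent 6-sets (hyperovals), and every independent 4-set lies in exactly one hyperoval. -/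
theorem result {α : Type*} [Fintype α] [DecidableEq α] (hα : Fintype.card α = 21) (L : Set (Finset α)) (hL : Cfsg.IsSteinerSystem 2 5 L) : {S : Finset α | (S.card = 4 ∧ ∀ l ∈ L, (l ∩ S).card ≤ 2)}.ncard = 2520 ∧ {H : Finset α | (H.card = 6 ∧ ∀ l ∈ L, (l ∩ H).card ≤ 2)}.ncard = 168 ∧ ∀ S : Finset α, (S.card = 4 ∧ ∀ l ∈ L, (l ∩ S).card ≤ 2) → ∃! H : Finset α, (H.card = 6 ∧ ∀ l ∈ L, (l ∩ H).card ≤ 2) ∧ S ⊆ H := by
  obtain ⟨e, h⟩ := mod21 hα hL
  refine ⟨?_, ?_, fun S hS => ?_⟩
  · have := ncard_map h (fun s => s.card = 4 ∧ Ind s) fun s hs => hs.2.1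
    simp only [card_map, ← ind_map h] at this
    rw [this, ncard_kSub fun m hm _ => ind_iff hm]
    decide +kernel
  · have := ncard_hyp h ∅
    simp only [empty_subset, and_true, map_empty] at this
    rw [this]
    decide +kernel
  · have h1 := ncard_hyp h S
    have h2 : (ds (gE.es (S.map e))).card = 4 := by rw [ds, gE.ds_es, card_map, hS.1]
    have h3 := (ind_iff (gE.es_lt (S.map e))).1 (by rw [ds, gE.ds_es]; exact (ind_map h S).1 hS.2)
    have h4 := allL_iff.1 (show allL (kSub 24 4) (fun a => !(indep a) ||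
      Nat.beq (cntL HL fun m => Nat.beq (Nat.land a m) a) 1) = true by decide +kernel) _ (kSub_of (gE.es_lt _) h2)
    rw [h3, Bool.not_true, Bool.false_or, beq_iff, ← h1, Set.ncard_eq_one] at h4
    obtain ⟨H, hH⟩ := h4
    exact ⟨H, hH.symm.subset rfl, fun H' h' => hH.subset h'⟩

end Cfsg.Agent.S5627
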