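import Cfsg.Statements.S5628
import Cfsg.Agent.S5627

set_option autoImplicit false
open Cfsg

namespace Cfsg.Agent.S5628

open Cfsg CA.NatBits CA.Golay CA.M24Core CA.M24Sub CA.M24St2 CA.M24Tools CA.StSearch CA.StModel CA.CGCert CA.CGRank
open Finset MulAction
open scoped Pointwise

set_option maxRecDepth 100000
open Cfsg.Agent.S5627

theorem rigid {α : Type*} [DecidableEq α] {L : Set (Finset α)} {e : α ↪ GolayPt} (h : Mod L e (ds 8388604) F21)
    {H : Finset α} (hH : H.card = 6 ∧ ∀ l ∈ L, (l ∩ H).card ≤ 2) {g : Equiv.Perm α} (hg : g ∈ setSystemAut L)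
    (hf : ∀ p ∈ H, g p = p) : g = 1 := by
  have h1 : gE.es (H.map e) ∈ HL := mem_HL.2 ⟨gE.es_lt _, by rw [ds, gE.ds_es, card_map, hH.1],
    by rw [ds, gE.ds_es]; exact (ind_map h H).1 hH.2⟩
  have h2 := allL_iff.1 (show allL HL (fun m => ubd 24 pc24 2 LL []
    ((List.range 24).filter fun i => !(tb (Nat.lor m T3) i)) (Nat.lor m T3) 1) = true by decide +kernel) _ h1
  have h3 : Nat.card (Subgroup.zpowers (g.viaEmbedding e)) ≤ 1 := by
    have hv : ∀ x ∈ Subgroup.zpowers (g.viaEmbedding e), ∃ τ ∈ setSystemAut L ⊓ fixingSubgroup _ (H : Set α),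
        τ.viaEmbedding e = x := fun x hx => (Subgroup.zpowers_le (H := Subgroup.map (Equiv.Perm.viaEmbeddingHom e)
          (setSystemAut L ⊓ fixingSubgroup _ (H : Set α)))).2 ⟨g, ⟨hg, (mem_fixingSubgroup_iff _).2 hf⟩, rfl⟩ hx
    refine ubd_spec (E := gE) (fun _ => card_ds) (fun o ho => (m21 o ((LL_perm o).1 ho)).1) ?_ (by simp)
      (lor_lt (gE.es_lt _) (by decide)) ?_ h2
    · intro x hx o ho h5
      obtain ⟨τ, hτ, rfl⟩ := hv x hx
      have := (m21 o ((LL_perm o).1 ho)).2
      exact rs21.eq ((h.via hτ.1).2.1 _ this) this h5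
    · intro x hx y hy
      obtain ⟨τ, hτ, rfl⟩ := hv x hx
      rw [gE.ds_lor, gE.ds_es, mem_union] at hy
      rcases hy with hy | hy
      · obtain ⟨a, ha, rfl⟩ := mem_map.1 hy
        exact (Equiv.Perm.viaEmbedding_apply τ e a).trans (congrArg e ((mem_fixingSubgroup_iff _).1 hτ.2 a ha))
      · exact (h.via hτ.1).2.2 y (by rw [Y21]; simpa using hy)
  rw [Subgroup.card_le_one_iff_eq_bot, Subgroup.zpowers_eq_bot] at h3
  exact Equiv.Perm.viaEmbeddingHom_injective e (h3.trans (map_one _).symm)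

/-- In a projective plane of order 4 (a Steiner system S(2, 5, 21)), every permutation of the six points of a hyperoval (a 6-set met by no line in more than two points) is the restriction of exactly one automorphism of the plane. In particular the stabiliser of a hyperoval in the automorphism group is isomorphic to the symmetric group of degree 6 acting faithfully on the hyperoval. -/
theorem result {α : Type*} [Fintype α] [DecidableEq α] (hα : Fintype.card α = 21) (L : Set (Finset α)) (hL : Cfsg.IsSteinerSystem 2 5 L) (H : Finset α) (hH : (H.card = 6 ∧ ∀ l ∈ L, (l ∩ H).card ≤ 2)) (σ : Equiv.Perm ↥H) : ∃! g : Equiv.Perm α, g ∈ Cfsg.setSystemAut L ∧ ∀ p : ↥H, g p = σ p := by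
  obtain ⟨e, h⟩ := mod21 hα hL
  obtain ⟨φ, -⟩ := aut21 h
  have c := (Nat.card_congr φ.toEquiv).symm.trans stT3.card
  have h1 := (Nat.card_congr (orbitProdStabilizerEquivGroup (setSystemAut L) H))
  rw [Nat.card_prod, Nat.card_coe_set_eq] at h1
  have h2 : (orbit (setSystemAut L) H).ncard ≤ 168 := by
    rw [← (S5627.result hα L hL).2.1]
    refine Set.ncard_le_ncard ?_
    rintro _ ⟨g, rfl⟩
    refine ⟨(card_smul_finset g H).trans hH.1, fun l hl => ?_⟩
    rw [← smul_inv_smul g l, ← smul_finset_inter, card_smul_finset]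
    exact hH.2 _ ((mem_stabilizer_iff.1 g⁻¹.2).subset (Set.smul_mem_smul_set hl))
  have st : ∀ g : stabilizer (setSystemAut L) H, ∀ x, ((g : setSystemAut L) : Equiv.Perm α) x ∈ H ↔ x ∈ H :=
    fun g x => by
      have := smul_mem_smul_finset_iff (g : setSystemAut L) (s := H) (b := x)
      rwa [mem_stabilizer_iff.1 g.2] at this
  let ρ : stabilizer (setSystemAut L) H →* Equiv.Perm H := MonoidHom.mk' (fun g => Equiv.Perm.subtypePerm _ (st g))
    fun _ _ => rfl
  have hi : Function.Injective ρ := (injective_iff_map_eq_one ρ).2 fun g hg => Subtype.ext (Subtype.ext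
    (rigid h hH g.1.2 fun p hp => congrArg Subtype.val (DFunLike.congr_fun hg (⟨p, hp⟩ : H))))
  have hc : Nat.card (Equiv.Perm H) = 720 := by
    rw [Nat.card_perm, Nat.card_eq_fintype_card, Fintype.card_coe, hH.1]; rfl
  have hle := Nat.card_le_card_of_injective ρ hi
  obtain ⟨g, hg⟩ := ((Nat.bijective_iff_injective_and_card ρ).2 ⟨hi, by
    rw [c] at h1; rw [hc] at hle ⊢; nlinarith⟩).2 σ
  have hg' : ∀ p : H, ((g : setSystemAut L) : Equiv.Perm α) p = σ p := fun p => by rw [← hg]; rfl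
  refine ⟨_, ⟨g.1.2, hg'⟩, fun g' h' => ?_⟩
  rw [← inv_mul_eq_one]
  refine rigid h hH (mul_mem (inv_mem h'.1) g.1.2) fun p hp => ?_
  rw [Equiv.Perm.mul_apply, hg' ⟨p, hp⟩, ← h'.2 ⟨p, hp⟩]; simp

end Cfsg.Agent.S5628
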