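import Cfsg.Statements.S5632
import Cfsg.Agent.Lib.Lin.MaxTv

set_option autoImplicit false
open Cfsg

namespace Cfsg.Agent.S5632

open Cfsg.Geo Matrix CA.AschBase CA.AschForm CA.AschTForm CA.AschProp CA.AschDesc CA.AschFG CA.AschFG3 CA.AschSL CA.CForm CA.MaxTv Module in

/-- For a finite field F and subspaces 0 < W < U of F^n with dim W + dim U = n, the elements of SL_n(F) stabilising both W and U form a subgroup that is not maximal in SL_n(F): some subgroup lies strictly between it and SL_n(F). -/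
theorem result {F : Type*} [Field F] [Fintype F] (n : ℕ) (W U : Submodule F (Fin n → F)) (hW0 : W ≠ ⊥) (hWU : W < U) (hdim : Module.finrank F W + Module.finrank F U = n) : ∃ K : Subgroup (Matrix.GeneralLinearGroup (Fin n) F), Cfsg.Geo.subspaceStabilizer W ⊓ Cfsg.Geo.subspaceStabilizer U ⊓ Cfsg.Geo.specialLinear (Fin n) F < K ∧ K < Cfsg.Geo.specialLinear (Fin n) F := by
  have hU1 : U ≠ ⊤ := by
    rintro rfl
    rw [finrank_top, finrank_fun, Fintype.card_fin] at hdim
    exact hW0 (Submodule.finrank_eq_zero.1 (by omega))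
  obtain ⟨u, hu, huW⟩ := SetLike.exists_of_lt hWU
  obtain ⟨v, hv⟩ : ∃ v, v ∉ U := by simpa [Submodule.eq_top_iff'] using hU1
  obtain ⟨φ, a1, a2⟩ := exists_dual (W := W ⊔ F ∙ v) (v := u) (fun h => by
    obtain ⟨w, hw, _, hz, rfl⟩ := Submodule.mem_sup.1 h
    obtain ⟨c, rfl⟩ := Submodule.mem_span_singleton.1 hz
    exact hv ((U.smul_mem_iff (by rintro rfl; simp [hw] at huW)).1
      ((U.add_mem_iff_right (hWU.le hw)).1 hu))) 1
  obtain ⟨g, hg, a3⟩ := tv_stab (W := W) (a1 v (Submodule.mem_sup_right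
    (Submodule.mem_span_singleton_self v))) fun w hw => by simp [a1 w (Submodule.mem_sup_left hw)]
  refine exists_between (N := subspaceStabilizer W) (inf_le_left.trans inf_le_left)
    (fun h => (max_stab hW0 (hWU.trans_le le_top).ne).1.ne (inf_eq_right.2 h)) hg.1 hg.2 fun h => ?_
  have := mulVec_mem_of_stab h.2 hu
  simp only [a3, a2, one_smul] at this
  exact hv ((U.add_mem_iff_right hu).1 this)

end Cfsg.Agent.S5632
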