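import Cfsg.Statements.S5633
import Cfsg.Agent.Lib.Lin.MaxTv

set_option autoImplicit false
open Cfsg

namespace Cfsg.Agent.S5633

open Cfsg.Geo Matrix CA.AschBase CA.AschForm CA.AschTForm CA.AschProp CA.AschDesc CA.AschFG CA.AschFG3 CA.AschSL CA.CForm CA.MaxTv Module in

/-- For a finite field F and complementary non-zero subspaces W ⊕ U = F^n with dim W < dim U, the elements of SL_n(F) stabilising both W and U form a subgroup that is not maximal in SL_n(F): some subgroup lies strictly between it and SL_n(F). -/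
theorem result {F : Type*} [Field F] [Fintype F] (n : ℕ) (W U : Submodule F (Fin n → F)) (hW0 : W ≠ ⊥) (hWU : W ⊓ U = ⊥) (hWU' : W ⊔ U = ⊤) (hdim : Module.finrank F W < Module.finrank F U) : ∃ K : Subgroup (Matrix.GeneralLinearGroup (Fin n) F), Cfsg.Geo.subspaceStabilizer W ⊓ Cfsg.Geo.subspaceStabilizer U ⊓ Cfsg.Geo.specialLinear (Fin n) F < K ∧ K < Cfsg.Geo.specialLinear (Fin n) F := by
  have hU0 : U ≠ ⊥ := by rintro rfl; simp at hdim
  have hW1 : W ≠ ⊤ := by rintro rfl; exact hU0 (by simpa using hWU)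
  obtain ⟨u, hu, hu0⟩ := U.exists_mem_ne_zero_of_ne_bot hU0
  obtain ⟨w, hw, hw0⟩ := W.exists_mem_ne_zero_of_ne_bot hW0
  obtain ⟨φ, a1, a2⟩ := exists_dual (W := W) (v := u) (fun h => hu0 (by
    rw [← Submodule.mem_bot F, ← hWU]; exact ⟨h, hu⟩)) 1
  obtain ⟨g, hg, a3⟩ := tv_stab (W := W) (a1 w hw) fun _ _ => W.smul_mem _ hw
  refine exists_between (N := subspaceStabilizer W) (inf_le_left.trans inf_le_left)
    (fun h => (max_stab hW0 hW1).1.ne (inf_eq_right.2 h)) hg.1 hg.2 fun h => ?_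
  have := mulVec_mem_of_stab h.2 hu
  simp only [a3, a2, one_smul] at this
  exact hw0 (by rw [← Submodule.mem_bot F, ← hWU]; exact ⟨hw, (U.add_mem_iff_right hu).1 this⟩)

end Cfsg.Agent.S5633
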