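import Cfsg.Statements.S5642
import Cfsg.Agent.Lib.Lin.MaxTv

set_option autoImplicit false
open Cfsg

namespace Cfsg.Agent.S5642

open Cfsg.Geo Matrix CA.AschBase CA.AschForm CA.AschTForm CA.AschProp CA.AschDesc CA.AschFG CA.AschFG3 CA.AschSL CA.CForm CA.MaxTv Module in

/-- For a finite field F and n ≥ 13, let f be a non-degenerate symplectic form on F^n (so n is even). Then the elements of SL_n(F) that are similarities of f (f(gu, gv) = c f(u, v) for a non-zero scalar c depending on g) form a maximal subgroup of SL_n(F). -/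
theorem result {F : Type*} [Field F] [Fintype F] (n : ℕ) (hn : 13 ≤ n) (f : (Fin n → F) → (Fin n → F) → F) (hf : Cfsg.Geo.IsSymplecticForm f) : Cfsg.Geo.IsMaximalIn (Cfsg.Geo.specialLinear (Fin n) F) (Cfsg.Geo.similarityGroup f ⊓ Cfsg.Geo.specialLinear (Fin n) F) := by
  refine isMaximalIn_of (not_SL_le_sim (by omega) (sf_of_symp hf)) fun X hX _ => ?_
  exact over_symp (φ := toSymp hf) (toSymp_nondeg hf)
    ((le_inf ((EG_le_IG _).trans (IG_le_sim _)) (EG_le_SL _)).trans hX) (by simp; omega)

end Cfsg.Agent.S5642
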