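import Cfsg.Statements.S5643
import Cfsg.Agent.Lib.Lin.MaxTv

set_option autoImplicit false
open Cfsg

namespace Cfsg.Agent.S5643

open Cfsg.Geo Matrix CA.AschBase CA.AschForm CA.AschTForm CA.AschProp CA.AschDesc CA.AschFG CA.AschFG3 CA.AschSL CA.CForm CA.MaxTv Module in

/-- For a finite field F and n ≥ 13, let σ be a field automorphism of F of order two and f a non-degenerate unitary form on F^n with respect to σ. Then the elements of SL_n(F) that are similarities of f form a maximal subgroup of SL_n(F). -/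
theorem result {F : Type*} [Field F] [Fintype F] (n : ℕ) (hn : 13 ≤ n) (σ : F ≃+* F) (f : (Fin n → F) → (Fin n → F) → F) (hf : Cfsg.Geo.IsUnitaryForm σ f) : Cfsg.Geo.IsMaximalIn (Cfsg.Geo.specialLinear (Fin n) F) (Cfsg.Geo.similarityGroup f ⊓ Cfsg.Geo.specialLinear (Fin n) F) := by
  refine isMaximalIn_of (not_SL_le_sim (by omega) (sf_of_unitary hf)) fun X hX _ => ?_
  obtain ⟨q, h1, h2, -⟩ := invol_eq_pow (σ : F →+* F) hf.involutive (ne_id_of_unitary hf)
  have hF : Fintype.card F = q ^ 2 := by rwa [← Nat.card_eq_fintype_card]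
  have h3 : (σ : F →+* F) = conj hF := RingHom.ext h2
  have s1 : SF (conj hF) f := h3 ▸ sf_of_unitary hf
  have s2 : Refl (conj hF) 1 f := h3 ▸ refl_of_unitary hf
  exact over_herm hF (φ := toHerm s1 s2 (conj_ne_id hF)) (toHerm_nondeg s1 s2 _)
    ((le_inf ((EG_le_IG _).trans (IG_le_sim _)) (EG_le_SL _)).trans hX) (by simp; omega)

end Cfsg.Agent.S5643
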