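import Cfsg.Statements.S5644
import Cfsg.Agent.Lib.Lin.MaxTv

set_option autoImplicit false
open Cfsg

namespace Cfsg.Agent.S5644

open Cfsg.Geo Matrix CA.AschBase CA.AschForm CA.AschTForm CA.AschProp CA.AschDesc CA.AschFG CA.AschFG3 CA.AschSL CA.CForm CA.MaxTv Module in

/-- For a finite field F of odd order and n ≥ 13, let Q be a non-degenerate quadratic form on F^n (its polar form is non-degenerate). Then the elements of SL_n(F) that are similarities of Q (Q(gv) = c Q(v) for a non-zero scalar c depending on g) form a maximal subgroup of SL_n(F). -/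
theorem result {F : Type*} [Field F] [Fintype F] (n : ℕ) (hn : 13 ≤ n) (hodd : Odd (Fintype.card F)) (Q : (Fin n → F) → F) (hQ : Cfsg.Geo.IsNondegenerateQuadraticForm Q) : Cfsg.Geo.IsMaximalIn (Cfsg.Geo.specialLinear (Fin n) F) (Cfsg.Geo.quadSimilarityGroup Q ⊓ Cfsg.Geo.specialLinear (Fin n) F) := by
  have h2 : (2 : F) ≠ 0 := fun h => by
    have := FiniteField.even_card_of_char_two ((CharP.ringChar_of_prime_eq_zero Nat.prime_two h))
    rw [Nat.odd_iff] at hodd; omega
  have e : fn (toOrth hQ) = QuadraticMap.polar Q := by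
    funext u v; rw [fn_apply, toOrth_B, QuadraticMap.polar_comm]
  refine isMaximalIn_of (fun h => not_SL_le_sim (by omega) (sf_of_quad hQ)
    (h.trans (quadSim_le_sim Q))) fun X hX _ => ?_
  refine (over_orth (φ := toOrth hQ) h2 (toOrth_nondeg hQ) ((le_inf ((EG_le_IG _).trans
    ((IG_le_sim _).trans ?_)) (EG_le_SL _)).trans hX) (by simp; omega)).imp_left fun h => h.trans ?_
  all_goals rw [e]; exact sim_le_quadSim_of_two hQ h2

end Cfsg.Agent.S5644
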