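import Cfsg.Statements.S5646
import Cfsg.Agent.Lib.Lin.MaxGL

set_option autoImplicit false
open Cfsg

namespace Cfsg.Agent.S5646

open CA.CForm CA.CForm.Form CA.MaxGL CA.AschFG CA.AschFG7 CA.AschTForm CA.AschO1 CA.AschProp Module in
/-- For a finite field F and m ≥ 7, in the symplectic group Sp_2m(F) of the standard alternating form on F^(2m), the stabiliser of any non-zero subspace W on which the form is non-degenerate and with dim W < m is a maximal subgroup. -/
theorem result {F : Type*} [Field F] [Fintype F] (m : ℕ) (hm : 7 ≤ m) (W : Submodule F (Fin m ⊕ Fin m → F)) (hW0 : W ≠ ⊥) (hW : Cfsg.Geo.IsNondegenerateOn (Cfsg.sympForm m F) W) (hdim : Module.finrank F W < m) : Cfsg.Geo.IsMaximalIn (Cfsg.spGL m F) (Cfsg.Geo.subspaceStabilizer W ⊓ Cfsg.spGL m F) := by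
  rw [sp_eq]
  have hφ := toSymp_nondeg (CA.AschSp.symp_std (F := F) m)
  have hW' := (nondegOn_iff (φ := toSymp (CA.AschSp.symp_std m))).1 hW
  refine max_nondeg hφ (iso_symp _) one_pos (by simp; omega) hW0 (fun e => ?_) hW'
    ((Form.nondeg_restrict_iff _ _).2 hW').symp_irrI (nondeg_perp hφ hW').symp_irrI
    (not_equiv_of_ne hφ (by simp; omega))
  rw [e] at hdim
  simp at hdim

end Cfsg.Agent.S5646
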