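import Cfsg.Statements.S5648
import Cfsg.Agent.Lib.Lin.MaxN2

set_option autoImplicit false
open Cfsg

namespace Cfsg.Agent.S5648

open Cfsg.Geo Matrix CA.AschBase CA.AschForm CA.AschTForm CA.AschFG CA.AschFG5 CA.AschO1 CA.AschO3 CA.CForm CA.MaxN1 CA.MaxN2 Module in

/-- Over the field with 2 elements and for m ≥ 7, let D be a decomposition of F^(2m) into t pairwise orthogonal non-degenerate 2-dimensional subspaces for the standard alternating form (t = m ≥ 2). Then the elements of Sp_2m(2) permuting the members of D form a subgroup that is not maximal: some subgroup lies strictly between it and Sp_2m(2). -/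
theorem result {F : Type*} [Field F] [Fintype F] (m : ℕ) (hm : 7 ≤ m) (hq : Fintype.card F = 2) {t : ℕ} (D : Fin t → Submodule F (Fin m ⊕ Fin m → F)) (hD : Cfsg.Geo.IsNondegenerateMDecomposition (Cfsg.sympForm m F) 2 D) : ∃ K : Subgroup (Matrix.GeneralLinearGroup (Fin m ⊕ Fin m) F), Cfsg.Geo.decompositionStabilizer D ⊓ Cfsg.spGL m F < K ∧ K < Cfsg.spGL m F := by
  rw [CA.AschSp.spGL_eq, ← CA.AschSp.EG_eq]
  exact btw_sp hq (by simp; omega) hD

end Cfsg.Agent.S5648
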