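import Cfsg.Statements.S5649
import Cfsg.Agent.Lib.Lin.MaxGL2

set_option autoImplicit false
open Cfsg

namespace Cfsg.Agent.S5649

open CA.CForm CA.CForm.Form CA.MaxGL CA.AschFG CA.AschFG7 CA.AschTForm CA.AschO1 CA.AschProp Module in
/-- For a finite field F of odd order and m ≥ 7, let D be a decomposition of F^(2m) into two complementary subspaces of dimension m on each of which the standard alternating form vanishes identically. Then the elements of Sp_2m(F) preserving or interchanging the two subspaces form a maximal subgroup of Sp_2m(F). -/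
theorem result {F : Type*} [Field F] [Fintype F] (m : ℕ) (hm : 7 ≤ m) (hodd : Odd (Fintype.card F)) (D : Fin 2 → Submodule F (Fin m ⊕ Fin m → F)) (hD : Cfsg.Geo.IsMDecomposition m D) (hts : ∀ i, Cfsg.Geo.IsTotallySingularFor (Cfsg.sympForm m F) (D i)) : Cfsg.Geo.IsMaximalIn (Cfsg.spGL m F) (Cfsg.Geo.decompositionStabilizer D ⊓ Cfsg.spGL m F) := by
  rw [sp_eq]
  have h : (toSymp (CA.AschSp.symp_std m)).TSPair (D 0) (D 1) := ⟨toSymp_nondeg _,
    symp_ts_iff.2 fun u hu w hw => hts 0 w hw u hu, symp_ts_iff.2 fun u hu w hw => hts 1 w hw u hu,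
    isCompl_of_pair hD⟩
  exact max_pair' hD h (sp_not_le (.inl (by omega)) hD) (by omega)
    (symp_hπ (two_ne_zero_iff_odd.2 hodd))
    (h.exists_swap_of_π (decomp_ne_bot hD 0) ⟨1, one_ne_zero, rfl⟩)

end Cfsg.Agent.S5649
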