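import Cfsg.Statements.S5656
import Cfsg.Agent.Lib.Lin.MaxN2

set_option autoImplicit false
open Cfsg

namespace Cfsg.Agent.S5656

open Cfsg.Geo Matrix CA.AschBase CA.AschForm CA.AschTForm CA.AschFG CA.AschFG5 CA.AschO1 CA.AschO3 CA.CForm CA.MaxN1 CA.MaxN2 Module in

/-- Let F be the field with 4 elements (q = 2) and n ≥ 13. Let D be a decomposition of F^n into t pairwise orthogonal 2-dimensional subspaces, each non-degenerate for the standard unitary form Σ u_i v_i². Then the elements of SU_n(2) permuting the members of D form a subgroup that is not maximal: some subgroup lies strictly between it and SU_n(2). -/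
theorem result {F : Type*} [Field F] [Fintype F] (n : ℕ) (hF : Fintype.card F = 4) (hn : 13 ≤ n) {t : ℕ} (D : Fin t → Submodule F (Fin n → F)) (hD : Cfsg.Geo.IsNondegenerateMDecomposition (Cfsg.hermForm n F 2) 2 D) : ∃ K : Subgroup (Matrix.GeneralLinearGroup (Fin n) F), Cfsg.Geo.decompositionStabilizer D ⊓ (Cfsg.GU n F 2 ⊓ Cfsg.Geo.specialLinear (Fin n) F) < K ∧ K < (Cfsg.GU n F 2 ⊓ Cfsg.Geo.specialLinear (Fin n) F) := by
  have h4 : Fintype.card F = 2 ^ 2 := hF
  rw [CA.AschU.SU_eq h4 (by omega)]
  exact btw_herm h4 (hermStd_nondeg h4 n) (by rw [Fintype.card_fin]; omega)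
    (by rwa [CA.AschU.fn_std])

end Cfsg.Agent.S5656
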