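import Cfsg.Statements.S5657
import Cfsg.Agent.Lib.Lin.MaxGL2

set_option autoImplicit false
open Cfsg

namespace Cfsg.Agent.S5657

open CA.CForm CA.CForm.Form CA.MaxGL CA.AschFG CA.AschFG7 CA.AschTForm CA.AschO1 CA.AschProp Module in
/-- Let F be the field with q² elements and n = 2k ≥ 13. Let D be a decomposition of F^n into two complementary subspaces of dimension k on each of which the standard unitary form vanishes identically. Then the elements of SU_n(q) preserving or interchanging the two subspaces form a maximal subgroup of SU_n(q). -/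
theorem result {F : Type*} [Field F] [Fintype F] (n q : ℕ) (hF : Fintype.card F = q ^ 2) (hn : 13 ≤ n) (k : ℕ) (hk : 2 * k = n) (D : Fin 2 → Submodule F (Fin n → F)) (hD : Cfsg.Geo.IsMDecomposition k D) (hts : ∀ i, Cfsg.Geo.IsTotallySingularFor (Cfsg.hermForm n F q) (D i)) : Cfsg.Geo.IsMaximalIn (Cfsg.GU n F q ⊓ Cfsg.Geo.specialLinear (Fin n) F) (Cfsg.Geo.decompositionStabilizer D ⊓ (Cfsg.GU n F q ⊓ Cfsg.Geo.specialLinear (Fin n) F)) := by
  have hG := CA.AschU.qs_SU hF (n := n) (by omega) (by omega)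
  rw [CA.AschU.SU_eq hF (by omega)] at hG ⊢
  rw [← CA.AschU.fn_std hF] at hts
  have h : (hermStd hF n).TSPair (D 0) (D 1) := ⟨hermStd_nondeg hF n,
    herm_ts_iff.2 fun u hu w hw => hts 0 w hw u hu, herm_ts_iff.2 fun u hu w hw => hts 1 w hw u hu,
    isCompl_of_pair hD⟩
  obtain ⟨x, hx0, hx⟩ := herm_exists_singular' hF (f := hermStd hF n) (by simp; omega)
  exact max_pair' hD h (not_le_of_tv h.nondeg hG hx hx0 (exists_π_herm hF) hD) (by omega)
    (herm_hπ (conj_ne_id hF)) (h.exists_swap_of_π (decomp_ne_bot hD 0) (exists_π_herm hF))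

end Cfsg.Agent.S5657
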