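import Cfsg.Statements.S5667
import Cfsg.Agent.Lib.Lin.MaxN3

set_option autoImplicit false
open Cfsg

namespace Cfsg.Agent.S5667

open Cfsg.Geo Matrix CA.AschBase CA.AschKron CA.AschForm CA.AschTForm CA.AschDesc CA.AschFG CA.AschFG2 CA.AschFG5 CA.AschFG6 CA.AschFG7 CA.AschO1 CA.CForm CA.MaxTv CA.MaxN1 CA.MaxN3 Module in

/-- Over the field with 3 elements and for m ≥ 7, suppose the standard alternating form on F^(2m) is similar, through P and e, to the tensor product of a non-degenerate symplectic form f₁ on F^(n₁) and a non-degenerate symmetric bilinear form f₂ on F^3. Then the elements of Sp_2m(3) in the stabiliser of this tensor decomposition form a subgroup that is not maximal: some subgroup lies strictly between it and Sp_2m(3). -/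
theorem result {F : Type*} [Field F] [Fintype F] (m : ℕ) (hm : 7 ≤ m) (hq : Fintype.card F = 3) (n₁ : ℕ) (e : (Fin m ⊕ Fin m) ≃ Fin n₁ × Fin 3) (P : Matrix.GeneralLinearGroup (Fin m ⊕ Fin m) F) (f₁ : (Fin n₁ → F) → (Fin n₁ → F) → F) (f₂ : (Fin 3 → F) → (Fin 3 → F) → F) (hf₁ : Cfsg.Geo.IsSymplecticForm f₁) (hf₂ : Cfsg.Geo.IsSymmetricForm f₂) (hT : Cfsg.Geo.IsTensorFormStructure id (Cfsg.sympForm m F) f₁ f₂ e P) : ∃ K : Subgroup (Matrix.GeneralLinearGroup (Fin m ⊕ Fin m) F), Cfsg.Geo.tensorProductSubgroup n₁ 3 e P ⊓ Cfsg.spGL m F < K ∧ K < Cfsg.spGL m F := by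
  have hc : m + m = n₁ * 3 := by simpa using Fintype.card_congr e
  have hf := CA.AschSp.symp_std (F := F) m
  have s₂ := sf_of_symm hf₂
  obtain ⟨c, hc0, hT⟩ := hT
  rw [CA.AschSp.spGL_eq]
  have h := (tdata_of_form_eq (sf_of_symp hf) (by omega) (by omega) (sf_of_symp hf₁) s₂
    (refl_of_symp hf₁) (refl_of_symm hf₂) hc0 hT (inf_le_left (b := IG (toSymp hf)))).swap
  rw [(tensorProductSubgroup_swap e P).antisymm (tensorProductSubgroup_swap _ P)] at h ⊢
  refine btw_small (toSymp_nondeg hf) (CA.AschSp.qs_sp hf (by simp; omega) (by simp; omega)) le_rfl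
    (φ₂ := toSymp hf₁) rfl (sing_symp _) (by omega) h (small_O3 hq s₂ (refl_of_symm hf₂) (by simp))
    (.inl (two_ne_zero_three hq)) fun N h1 h2 => ?_
  obtain ⟨x, -, hx⟩ := exists_unip h1
  exact ⟨x, mem_IG.2 ⟨hx ▸ isom_unip (sf_of_symp hf) h1 h2, fun _ => rfl⟩, hx⟩

end Cfsg.Agent.S5667
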