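import Cfsg.Statements.S5671
import Cfsg.Agent.Lib.Lin.MaxN3

set_option autoImplicit false
open Cfsg

namespace Cfsg.Agent.S5671

open Cfsg.Geo Matrix CA.AschBase CA.AschKron CA.AschForm CA.AschTForm CA.AschDesc CA.AschFG CA.AschFG2 CA.AschFG5 CA.AschFG6 CA.AschFG7 CA.AschO1 CA.CForm CA.MaxTv CA.MaxN1 CA.MaxN3 Module in

/-- Let F be the field with 4 elements (q = 2) and n = 2 n₂ ≥ 13. Suppose the standard unitary form Σ u_i v_i² on F^n is similar, through P and e, to the tensor product of non-degenerate unitary forms f₁ on F^2 and f₂ on F^(n₂). Then the elements of SU_n(2) in the stabiliser of this tensor decomposition form a subgroup that is not maximal: some subgroup lies strictly between it and SU_n(2). -/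
theorem result {F : Type*} [Field F] [Fintype F] (n : ℕ) (hF : Fintype.card F = 4) (hn : 13 ≤ n) (n₂ : ℕ) (e : Fin n ≃ Fin 2 × Fin n₂) (P : Matrix.GeneralLinearGroup (Fin n) F) (f₁ : (Fin 2 → F) → (Fin 2 → F) → F) (f₂ : (Fin n₂ → F) → (Fin n₂ → F) → F) (hf₁ : Cfsg.Geo.IsUnitaryFormPow 2 f₁) (hf₂ : Cfsg.Geo.IsUnitaryFormPow 2 f₂) (hT : Cfsg.Geo.IsTensorFormStructure (fun x : F => x ^ 2) (Cfsg.hermForm n F 2) f₁ f₂ e P) : ∃ K : Subgroup (Matrix.GeneralLinearGroup (Fin n) F), Cfsg.Geo.tensorProductSubgroup 2 n₂ e P ⊓ (Cfsg.GU n F 2 ⊓ Cfsg.Geo.specialLinear (Fin n) F) < K ∧ K < (Cfsg.GU n F 2 ⊓ Cfsg.Geo.specialLinear (Fin n) F) := by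
  have hc : n = 2 * n₂ := by simpa using Fintype.card_congr e
  have h4 : Fintype.card F = 2 ^ 2 := hF
  have hφ := hermStd_nondeg h4 n
  have s₁ := sf_of_herm (conj_conj h4) hf₁.1 hf₁.2 hf₁.3 hf₁.4
  have s₂ := sf_of_herm (conj_conj h4) hf₂.1 hf₂.2 hf₂.3 hf₂.4
  have r₁ : Refl (conj h4) 1 f₁ := fun u v => (hf₁.3 u v).trans (one_mul _).symm
  have r₂ : Refl (conj h4) 1 f₂ := fun u v => (hf₂.3 u v).trans (one_mul _).symm
  obtain ⟨c, hc0, hT⟩ := hT
  rw [← CA.AschU.fn_std h4] at hT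
  refine btw_small hφ (CA.AschU.qs_SU h4 (by omega) (by omega))
    (inf_le_left.trans (CA.AschU.GU_eq h4 n).le) (φ₂ := toHerm s₂ r₂ (conj_ne_id h4)) rfl
    (sing_herm (conj_ne_id h4) _) (by omega) (tdata_of_form_eq (sf_fn hφ) le_rfl (by omega) s₁ s₂ r₁ r₂
      hc0 hT inf_le_left) (CA.AschU1.small_four h4 s₁ r₁) (.inr (conj_ne_id h4)) fun N h1 h2 => ?_
  obtain ⟨x, hx', hx⟩ := exists_unip h1
  refine ⟨x, ⟨fun u v => ?_, hx'⟩, hx⟩
  have := isom_unip (sf_fn hφ) h1 h2 u v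
  rwa [← hx, CA.AschU.fn_std h4] at this

end Cfsg.Agent.S5671
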