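import Cfsg.Statements.S5677
import Cfsg.Agent.Lib.Lin.MaxGL2

set_option autoImplicit false
open Cfsg

namespace Cfsg.Agent.S5677

open CA.CForm CA.CForm.Form CA.MaxGL CA.AschFG CA.AschFG7 CA.AschTForm CA.AschO1 CA.AschProp Module in
/-- Let F be a finite field of odd order q, m ≥ 6, Q the standard quadratic form on F^(2m+1) and Ω the commutator subgroup of its isometry group. Let D be a decomposition of F^(2m+1) into t ≥ 2 pairwise orthogonal, pairwise Q-isometric subspaces of equal dimension k > 1 on which the polar form is non-degenerate. Unless q = 3 and k = 3, the elements of Ω permuting the members of D form a maximal subgroup of Ω. -/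
theorem result {F : Type*} [Field F] [Fintype F] (hodd : Odd (Fintype.card F)) (m : ℕ) (hm : 6 ≤ m) {t : ℕ} (k : ℕ) (hk : 1 < k) (D : Fin t → Submodule F (Unit ⊕ (Fin m ⊕ Fin m) → F)) (hD : Cfsg.Geo.IsOrthogonalMDecomposition (Cfsg.quadFormOdd m F) k D) (hex : ¬ (Fintype.card F = 3 ∧ k = 3)) : Cfsg.Geo.IsMaximalIn (Cfsg.Geo.omegaGL (Cfsg.quadFormOdd m F)) (Cfsg.Geo.decompositionStabilizer D ⊓ Cfsg.Geo.omegaGL (Cfsg.quadFormOdd m F)) := by
  have h1 := decomp_card hD.decomp.decomp
  simp at h1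
  have h2 : Odd (t * k) := ⟨m, by omega⟩
  obtain ⟨r, hr⟩ := (Nat.odd_mul.1 h2).2
  obtain ⟨s, hs⟩ := hodd
  have := Fintype.one_lt_card (α := F)
  have hφ := oddForm_nondeg (F := F) (two_ne_zero_iff_odd.2 ⟨s, hs⟩) m
  rw [← oddForm_Q] at hD ⊢
  refine orth_max_decomp hφ hD ?_
  by_cases h3 : k = 3
  · subst h3
    exact .inr ⟨rfl, by omega, by omega⟩
  · exact .inl (by omega)

end Cfsg.Agent.S5677
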