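import Cfsg.Statements.S5680
import Cfsg.Agent.Lib.Lin.H15Oc

set_option autoImplicit false
open Cfsg

namespace Cfsg.Agent.S5680

open CA.CForm CA.CForm.Form CA.MaxGL CA.AschFG CA.AschFG7 CA.AschTForm CA.AschO1 CA.AschProp Module in
/-- Let F be a finite field of odd order, m ≥ 6, Q the standard quadratic form on F^(2m+1) and Ω the commutator subgroup of its isometry group. Let K be a subfield of the algebra of (2m+1) × (2m+1) matrices over F containing the scalars, of prime degree r over F with r ≠ 2m + 1, whose elements are self-adjoint for the polar form of Q. Then the elements of Ω normalising K form a maximal subgroup of Ω. -/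
theorem result {F : Type*} [Field F] [Fintype F] (hodd : Odd (Fintype.card F)) (m : ℕ) (hm : 6 ≤ m) (r : ℕ) (hr : r.Prime) (hrn : 2 * m + 1 ≠ r) (K : Subalgebra F (Matrix (Unit ⊕ (Fin m ⊕ Fin m)) (Unit ⊕ (Fin m ⊕ Fin m)) F)) (hK : Cfsg.Geo.IsFieldSubalgebra r K) (hsa : Cfsg.Geo.IsSelfAdjointFor (QuadraticMap.polar (Cfsg.quadFormOdd m F)) K) : Cfsg.Geo.IsMaximalIn (Cfsg.Geo.omegaGL (Cfsg.quadFormOdd m F)) (Cfsg.Geo.subalgebraNormalizer K ⊓ Cfsg.Geo.omegaGL (Cfsg.quadFormOdd m F)) := by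
  have h2 : (2 : F) ≠ 0 := two_ne_zero_iff_odd.2 hodd
  have hφ := oddForm_nondeg (F := F) h2 m
  have hc : Fintype.card (Unit ⊕ (Fin m ⊕ Fin m)) = 2 * m + 1 := by simp; omega
  rw [← oddForm_Q] at hsa ⊢
  rw [omega_eq hφ (by omega)]
  rw [polar_fn] at hsa
  by_cases h3 : 3 * r < 2 * m + 1
  · exact orth_max_ext hφ h2 hr (by omega) hK hsa
  obtain ⟨L, _, _, _, _, _, rfl, h1, h2', -⟩ := CA.AschO2.exists_ext hK
  have := Module.Finite.right F L (Unit ⊕ (Fin m ⊕ Fin m) → F)
  have hd := Module.finrank_mul_finrank F L (Unit ⊕ (Fin m ⊕ Fin m) → F)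
  rw [Module.finrank_fintype_fun_eq_card, hc] at hd
  have h4 : finrank L (Unit ⊕ (Fin m ⊕ Fin m) → F) = 3 := by
    generalize finrank L (Unit ⊕ (Fin m ⊕ Fin m) → F) = k at hd
    have : k ≤ 3 := by
      by_contra hk
      nlinarith [hr.pos]
    interval_cases k <;> omega
  rw [h4] at hd
  exact max_ext hK (qs_omega hφ (by omega)) hr.ne_one h1 h2' fun X =>
    CA.H15Oc.orth_ext3 hφ (sa_of h1 hsa) h2 hr (by omega) (by
      rw [Module.finrank_fintype_fun_eq_card, hc]; omega)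

end Cfsg.Agent.S5680
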