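import Cfsg.Statements.S5682
import Cfsg.Agent.Lib.Lin.MaxN3

set_option autoImplicit false
open Cfsg

namespace Cfsg.Agent.S5682

open Cfsg.Geo Matrix CA.AschBase CA.AschKron CA.AschForm CA.AschTForm CA.AschDesc CA.AschFG CA.AschFG2 CA.AschFG5 CA.AschFG6 CA.AschFG7 CA.AschO1 CA.CForm CA.MaxTv CA.MaxN1 CA.MaxN3 Module in

/-- Let F be the field with 3 elements, m ≥ 6, Q the standard quadratic form on F^(2m+1) and Ω the commutator subgroup of its isometry group. Suppose the polar form of Q is similar, through P and e, to the tensor product of non-degenerate symmetric bilinear forms f₁ on F^3 and f₂ on F^(n₂) with 3 < n₂. Then the elements of Ω in the stabiliser of this tensor decomposition form a subgroup that is not maximal: some subgroup lies strictly between it and Ω. -/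
theorem result {F : Type*} [Field F] [Fintype F] (hq : Fintype.card F = 3) (m : ℕ) (hm : 6 ≤ m) (n₂ : ℕ) (h2 : 3 < n₂) (e : (Unit ⊕ (Fin m ⊕ Fin m)) ≃ Fin 3 × Fin n₂) (P : Matrix.GeneralLinearGroup (Unit ⊕ (Fin m ⊕ Fin m)) F) (f₁ : (Fin 3 → F) → (Fin 3 → F) → F) (f₂ : (Fin n₂ → F) → (Fin n₂ → F) → F) (hf₁ : Cfsg.Geo.IsSymmetricForm f₁) (hf₂ : Cfsg.Geo.IsSymmetricForm f₂) (hT : Cfsg.Geo.IsTensorFormStructure id (QuadraticMap.polar (Cfsg.quadFormOdd m F)) f₁ f₂ e P) : ∃ K : Subgroup (Matrix.GeneralLinearGroup (Unit ⊕ (Fin m ⊕ Fin m)) F), Cfsg.Geo.tensorProductSubgroup 3 n₂ e P ⊓ Cfsg.Geo.omegaGL (Cfsg.quadFormOdd m F) < K ∧ K < Cfsg.Geo.omegaGL (Cfsg.quadFormOdd m F) := by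
  have hc : m + m + 1 = 3 * n₂ := by simpa [add_comm] using Fintype.card_congr e
  have h3 := two_ne_zero_three hq
  have hφ := oddForm_nondeg (F := F) (m := m) h3
  have h5 : 5 ≤ Fintype.card (Unit ⊕ (Fin m ⊕ Fin m)) := by simp; omega
  have s₁ := sf_of_symm hf₁
  have s₂ := sf_of_symm hf₂
  obtain ⟨c, hc0, hT⟩ := hT
  have := btw_small hφ (qs_omega hφ h5) (EG_le_IG _) (φ₂ := toSym h3 s₂ (refl_of_symm hf₂)) rfl
    (sing_orth _) (by omega) (tdata_of_form_eq (sf_fn hφ) (by omega) (by omega) s₁ s₂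
      (refl_of_symm hf₁) (refl_of_symm hf₂) hc0 (polar_fn (oddForm F m) ▸ hT) inf_le_left)
    (small_O3 hq s₁ (refl_of_symm hf₁) (by simp)) (.inl h3) fun N h1 h2 =>
      omega_unip hφ h5 h1 h2 (.inl h3)
  rwa [← omega_eq hφ h5] at this

end Cfsg.Agent.S5682
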