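import Cfsg.Statements.S5686
import Cfsg.Agent.Lib.Lin.MaxN2

set_option autoImplicit false
open Cfsg

namespace Cfsg.Agent.S5686

open Cfsg.Geo Matrix CA.AschBase CA.AschForm CA.AschTForm CA.AschFG CA.AschFG5 CA.AschO1 CA.AschO3 CA.CForm CA.MaxN1 CA.MaxN2 Module in

/-- Let F be a finite field with q elements, n ≥ 13 even, Q a non-degenerate quadratic form on F^n of plus type (some subspace of dimension n/2 is totally singular), and Ω the commutator subgroup of the isometry group of Q, viewed inside GL_n(F). The elements of Ω stabilising a subspace of dimension n/2 − 1 on which Q vanishes form a subgroup that is not maximal: some subgroup lies strictly between it and Ω. -/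
theorem result {F : Type*} [Field F] [Fintype F] {n : ℕ} (hn : 13 ≤ n) (heven : Even n) (Q : (Fin n → F) → F) (hQ : Cfsg.Geo.IsNondegenerateQuadraticForm Q) (hplus : Cfsg.Geo.IsPlusTypeOn Q ⊤) (W : Submodule F (Fin n → F)) (hW : Cfsg.Geo.IsTotallySingularQuad Q W) (hdim : 2 * (Module.finrank F W + 1) = n) : ∃ K : Subgroup (Matrix.GeneralLinearGroup (Fin n) F), Cfsg.Geo.subspaceStabilizer W ⊓ Cfsg.Geo.omegaGL Q < K ∧ K < Cfsg.Geo.omegaGL Q := by
  have hφ := toOrth_nondeg hQ
  have := btw_submax hφ (by rw [Fintype.card_fin]; omega) (plus_top.1 hplus)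
    (Form.orth_ts_iff.2 hW) (by rwa [Fintype.card_fin])
  rwa [← omega_eq hφ (by rw [Fintype.card_fin]; omega)] at this

end Cfsg.Agent.S5686
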