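import Cfsg.Statements.S5691
import Cfsg.Agent.Lib.Lin.MaxGL

set_option autoImplicit false
open Cfsg

namespace Cfsg.Agent.S5691

open CA.CForm CA.CForm.Form CA.MaxGL CA.AschFG CA.AschFG7 CA.AschTForm CA.AschO1 CA.AschProp Module in
/-- Let F be a finite field with q elements, n ≥ 13 even, Q a non-degenerate quadratic form on F^n (of either type), and Ω the commutator subgroup of the isometry group of Q, viewed inside GL_n(F). Suppose q is even and v is a vector with Q(v) ≠ 0. Then the elements of Ω stabilising the line spanned by v form a maximal subgroup of Ω. -/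
theorem result {F : Type*} [Field F] [Fintype F] {n : ℕ} (hn : 13 ≤ n) (heven : Even n) (Q : (Fin n → F) → F) (hQ : Cfsg.Geo.IsNondegenerateQuadraticForm Q) (hchar : ¬ Odd (Fintype.card F)) (v : (Fin n → F)) (hv : Q v ≠ 0) : Cfsg.Geo.IsMaximalIn (Cfsg.Geo.omegaGL Q) (Cfsg.Geo.subspaceStabilizer (Submodule.span F {v}) ⊓ Cfsg.Geo.omegaGL Q) := by
  obtain ⟨φ, hφ, rfl⟩ : ∃ φ : Form (Kind.orth F) _, φ.Nondeg ∧ φ.Q = Q :=
    ⟨toOrth hQ, toOrth_nondeg hQ, rfl⟩
  rw [omega_eq hφ (by simp; omega)]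
  refine max_nonsing hφ (iso_orth φ) (by omega) (by simp; omega) hv ?_
  rw [φ.B_self, Kind.orth_δ, not_not.1 (mt two_ne_zero_iff_odd.1 hchar), zero_mul]

end Cfsg.Agent.S5691
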