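import Cfsg.Statements.S5692
import Cfsg.Agent.Lib.Lin.H12Dc6

set_option autoImplicit false
open Cfsg

namespace Cfsg.Agent.S5692

open CA.CForm CA.CForm.Form CA.MaxGL CA.AschFG CA.AschFG7 CA.AschTForm CA.AschO1 CA.AschProp Module in

/-- Let F be a finite field with q elements, n ≥ 13 even, Q a non-degenerate quadratic form on F^n of plus type (some subspace of dimension n/2 is totally singular), and Ω the commutator subgroup of the isometry group of Q, viewed inside GL_n(F). Let D be a decomposition of F^n into t ≥ 2 pairwise orthogonal, pairwise Q-isometric subspaces of equal dimension k ≥ 2 on which the polar form is non-degenerate, such that: if k is even, either every member is of plus type or t is even; if k is odd, q is odd and the discriminant of Q is a square. Exclude the cases k = 2 with q = 3, k = 2 with plus-type members and q ∈ {2, 4, 5}, k = 3 with q = 3, and k = 4 with plus-type members and q = 2. Then the elements of Ω permuting the members of D form a maximal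 subgroup of Ω. -/
theorem result {F : Type*} [Field F] [Fintype F] {n : ℕ} (hn : 13 ≤ n) (heven : Even n) (Q : (Fin n → F) → F) (hQ : Cfsg.Geo.IsNondegenerateQuadraticForm Q) (hplus : Cfsg.Geo.IsPlusTypeOn Q ⊤) {t : ℕ} (k : ℕ) (hk : 2 ≤ k) (D : Fin t → Submodule F (Fin n → F)) (hD : Cfsg.Geo.IsOrthogonalMDecomposition Q k D) (hke : Even k → ((∀ i, Cfsg.Geo.IsPlusTypeOn Q (D i)) ∨ Even t)) (hko : Odd k → (Odd (Fintype.card F) ∧ Cfsg.Geo.HasSquareDiscriminant Q)) (hex : ¬ ((k = 2 ∧ (Fintype.card F = 3 ∨ ((∀ i, Cfsg.Geo.IsPlusTypeOn Q (D i)) ∧ (Fintype.card F = 2 ∨ Fintype.card F = 4 ∨ Fintype.card F = 5)))) ∨ (k = 3 ∧ Fintype.card F = 3) ∨ (k = 4 ∧ Fintype.card F = 2 ∧ ∀ i, Cfsg.Geo.IsPlusTypeOn Q (D i)))) : Cfsg.Geo.IsMaximalIn (Cfsg.Geo.omegaGL Q) (Cfsg.Geo.decompositionStabilizer D ⊓ Cfsg.Geo.omegaGL Q) := by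
  obtain ⟨φ, hφ, rfl⟩ : ∃ φ : Form (Kind.orth F) _, φ.Nondeg ∧ φ.Q = Q :=
    ⟨toOrth hQ, toOrth_nondeg hQ, rfl⟩
  have h1 := decomp_card hD.decomp.decomp
  simp only [Fintype.card_fin] at h1
  have h2 : 2 ≤ Fintype.card F := Fintype.one_lt_card
  have h6 : Fintype.card F ≠ 6 := fun e => by
    have := Fintype.isPrimePow_card_of_field (α := F)
    rw [e] at this
    exact absurd this (by decide)
  obtain ⟨r, hr⟩ := heven
  by_cases a : k = 2
  · subst a
    refine CA.H12Dc.orth_max_decomp' hφ hD (.inl ⟨rfl, by omega, ?_⟩)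
    by_contra! H
    exact hex (.inl ⟨rfl, or_iff_not_imp_left.2 fun c => ⟨H.2 c, by omega⟩⟩)
  by_cases b : k = 3
  · subst b
    have := Nat.odd_iff.1 (hko (by decide)).1
    exact orth_max_decomp hφ hD (.inr ⟨rfl, by omega, by
      have : Fintype.card F ≠ 3 := fun c => hex (.inr (.inl ⟨rfl, c⟩))
      omega⟩)
  by_cases c : k = 4
  · subst c
    refine CA.H12Dc.orth_max_decomp' hφ hD (.inr ⟨rfl, by omega, ?_⟩)
    by_contra! H
    exact hex (.inr (.inr ⟨rfl, by omega, H.2⟩))
  exact orth_max_decomp hφ hD (.inl (by omega))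

end Cfsg.Agent.S5692
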