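import Cfsg.Statements.S5694
import Cfsg.Agent.Lib.Lin.H12Dc6

set_option autoImplicit false
open Cfsg

namespace Cfsg.Agent.S5694

open CA.CForm CA.CForm.Form CA.MaxGL CA.AschFG CA.AschFG7 CA.AschTForm CA.AschO1 CA.AschProp Module in

/-- Let F be a finite field with q elements, n ≥ 13 even, Q a non-degenerate quadratic form on F^n of minus type (no subspace of dimension n/2 is totally singular), and Ω the commutator subgroup of the isometry group of Q, viewed inside GL_n(F). Let D be a decomposition of F^n into t ≥ 2 pairwise orthogonal, pairwise Q-isometric subspaces of equal dimension k ≥ 2 on which the polar form is non-degenerate, such that: if k is odd, q is odd and the discriminant of Q is a square; if k is even, t is odd and no member is of plus type. Unless q = 3 and k ∈ {2, 3}, the elements of Ω permuting the members of D form a maximal subgroup of Ω. -/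
theorem result {F : Type*} [Field F] [Fintype F] {n : ℕ} (hn : 13 ≤ n) (heven : Even n) (Q : (Fin n → F) → F) (hQ : Cfsg.Geo.IsNondegenerateQuadraticForm Q) (hminus : ¬ Cfsg.Geo.IsPlusTypeOn Q ⊤) {t : ℕ} (k : ℕ) (hk : 2 ≤ k) (D : Fin t → Submodule F (Fin n → F)) (hD : Cfsg.Geo.IsOrthogonalMDecomposition Q k D) (hko : Odd k → (Odd (Fintype.card F) ∧ Cfsg.Geo.HasSquareDiscriminant Q)) (hke : Even k → (Odd t ∧ ∀ i, ¬ Cfsg.Geo.IsPlusTypeOn Q (D i))) (hex : ¬ (Fintype.card F = 3 ∧ (k = 2 ∨ k = 3))) : Cfsg.Geo.IsMaximalIn (Cfsg.Geo.omegaGL Q) (Cfsg.Geo.decompositionStabilizer D ⊓ Cfsg.Geo.omegaGL Q) := by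
  obtain ⟨φ, hφ, rfl⟩ : ∃ φ : Form (Kind.orth F) _, φ.Nondeg ∧ φ.Q = Q :=
    ⟨toOrth hQ, toOrth_nondeg hQ, rfl⟩
  have h1 := decomp_card hD.decomp.decomp
  have h0 := hD.decomp.decomp.two_le
  simp only [Fintype.card_fin] at h1
  have h2 : 2 ≤ Fintype.card F := Fintype.one_lt_card
  by_cases a : k = 2
  · subst a
    exact CA.H12Dc.orth_max_decomp' hφ hD (.inl ⟨rfl, by omega, .inr ⟨fun c => hex ⟨c, .inl rfl⟩,
      fun c => (hke (by decide)).2 ⟨0, by omega⟩ (c _)⟩⟩)
  by_cases b : k = 3
  · subst b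
    have := Nat.odd_iff.1 (hko (by decide)).1
    exact orth_max_decomp hφ hD (.inr ⟨rfl, by omega, by
      have : Fintype.card F ≠ 3 := fun c => hex ⟨c, .inr rfl⟩
      omega⟩)
  by_cases c : k = 4
  · subst c
    exact CA.H12Dc.orth_max_decomp' hφ hD (.inr ⟨rfl, by omega, .inr
      fun c => (hke (by decide)).2 ⟨0, by omega⟩ (c _)⟩)
  exact orth_max_decomp hφ hD (.inl (by omega))

end Cfsg.Agent.S5694
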