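import Cfsg.Statements.S5707
import Cfsg.Agent.Lib.Lin.AschTForm

set_option autoImplicit false
open Cfsg

namespace Cfsg.Agent.S5707

open Matrix Cfsg.Geo CA.AschBase CA.AschKron CA.AschTens Function
open scoped MatrixGroups commutatorElement

variable {F : Type*} [Field F] {κ τ : Type} [Fintype κ] [DecidableEq κ] [Fintype τ] [DecidableEq τ]

def pv (xs : τ → κ → F) : (τ → κ) → F := fun a => ∏ i, xs i (a i)

theorem dot_pv (xs ys : τ → κ → F) : pv xs ⬝ᵥ pv ys = ∏ i, xs i ⬝ᵥ ys i := by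
  simp only [pv, dotProduct, ← Finset.prod_mul_distrib]
  rw [Finset.prod_univ_sum]; simp

theorem pure_pv (Ms : τ → Matrix κ κ F) (xs : τ → κ → F) :
    CA.AschTens.pure Ms *ᵥ pv xs = pv fun i => Ms i *ᵥ xs i :=
  funext fun a => dot_pv (fun i => Ms i (a i)) xs

abbrev B (G : Matrix κ κ F) : LinearMap.BilinForm F (κ → F) := toBilin' G

abbrev Γ (τ : Type) [Fintype τ] [DecidableEq τ] (G : Matrix κ κ F) : Matrix (τ → κ) (τ → κ) F :=
  CA.AschTens.pure fun _ : τ => G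

theorem B_pv (G : Matrix κ κ F) (xs ys : τ → κ → F) : B (Γ τ G) (pv xs) (pv ys) = ∏ i, B G (xs i) (ys i) := by
  simp only [toBilin'_apply', pure_pv, dot_pv]

theorem atF_pv (i : τ) (x : Matrix κ κ F) (xs : τ → κ → F) : atF i x *ᵥ pv xs = pv (update xs i (x *ᵥ xs i)) := by
  rw [atF_apply, pure_pv]
  congr 1
  ext1 j
  by_cases h : j = i
  · simp [h]
  · simp [h]

theorem fac_pv (π : Equiv.Perm τ) (xs : τ → κ → F) :
    (facPerm π : GL (τ → κ) F).1 *ᵥ pv (fun i => xs (π i)) = pv xs := by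
  ext a
  simp only [mulVec, dotProduct, facPerm_apply, ite_mul, one_mul, zero_mul, Finset.sum_ite_eq', Finset.mem_univ, if_true]
  exact Equiv.prod_comp π fun i => xs i (a i)

theorem sa_B {G x : Matrix κ κ F} (h : xᵀ * G = G * x) (u v : κ → F) : B G (x *ᵥ u) v = B G u (x *ᵥ v) := by
  rw [toBilin'_apply', toBilin'_apply', mulVec_mulVec, ← h, ← mulVec_mulVec, dotProduct_mulVec u, vecMul_transpose]

theorem sa_atF {G x : Matrix κ κ F} (h : xᵀ * G = G * x) (i : τ) : (atF i x)ᵀ * Γ τ G = Γ τ G * atF i x := by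
  have : (atF i x : Matrix (τ → κ) (τ → κ) F)ᵀ = CA.AschTens.pure fun j => (Pi.mulSingle (M := fun _ => Matrix κ κ F) i x j)ᵀ := rfl
  rw [this, atF_apply, ← pure_mul, ← pure_mul]
  congr 1
  ext1 j
  by_cases e : j = i
  · simp [e, h]
  · simp [e]

theorem prod_upd (Φ : τ → (κ → F) → (κ → F) → F) (xs ys : τ → κ → F) (j : τ) (u v : κ → F) :
    ∏ i, Φ i (update xs j u i) (update ys j v i) = Φ j u v * ∏ i ∈ Finset.univ.erase j, Φ i (xs i) (ys i) := by
  rw [← Finset.mul_prod_erase _ _ (Finset.mem_univ j), update_self, update_self]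
  congr 1
  exact Finset.prod_congr rfl fun i hi => by
    rw [update_of_ne (Finset.ne_of_mem_erase hi), update_of_ne (Finset.ne_of_mem_erase hi)]

theorem aa (h2 : (2 : F) = 0) {M : Type*} [AddCommGroup M] [Module F M] (x : M) : x + x = 0 := by
  rw [← two_smul F, h2, zero_smul]

theorem Bsymm (h2 : (2 : F) = 0) {G : Matrix κ κ F} (h : ∀ v, B G v v = 0) (u v : κ → F) : B G u v = B G v u := by
  have := h (u + v)
  simp only [map_add, LinearMap.add_apply, h] at this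
  linear_combination this - B G v u * h2

def sg (G : Matrix κ κ F) (p q : κ → F) : Matrix κ κ F := vecMulVec q (G *ᵥ p) + vecMulVec p (G *ᵥ q)

theorem sg_mulVec (G : Matrix κ κ F) (p q y : κ → F) : sg G p q *ᵥ y = B G y p • q + B G y q • p := by
  rw [sg, add_mulVec, vecMulVec_mulVec, vecMulVec_mulVec, toBilin'_apply', toBilin'_apply', op_smul_eq_smul,
    op_smul_eq_smul, dotProduct_comm y, dotProduct_comm y]

structure QF (Q : ((τ → κ) → F) → F) (c : F) (G : Matrix κ κ F) : Prop where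
  two : (2 : F) = 0
  ne : c ≠ 0
  add : ∀ x y, Q (x + y) = Q x + Q y + c * B (Γ τ G) x y
  smul : ∀ (a : F) x, Q (a • x) = a ^ 2 * Q x
  pure : ∀ xs, Q (pv xs) = 0

structure Dat (G : Matrix κ κ F) (W : Set (Matrix κ κ F)) (ε φ : Matrix κ κ F) : Prop where
  alt : ∀ v, B G v v = 0
  sa : ∀ x ∈ W, xᵀ * G = G * x
  ac : ∀ x ∈ W, ∀ y ∈ W, ∃ s : F, x * y + y * x = s • 1
  inv : ∀ (a : GL κ F) (c d : F), d ≠ 0 → (∀ u v, B G (a.1 *ᵥ u) (a.1 *ᵥ v) * c = B G u v * d) → ∀ x ∈ W, cj a x ∈ W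
  me : ε ∈ W
  mp : φ ∈ W
  e2 : ε * ε = 0
  p2 : φ * φ = 1
  ep : ε * φ + φ * ε = 1

variable {Q : ((τ → κ) → F) → F} {c : F} {G ε φ : Matrix κ κ F} {W : Set (Matrix κ κ F)}

def Iso (Q : ((τ → κ) → F) → F) (g : GL (τ → κ) F) : Prop := ∀ y, Q (g.1 *ᵥ y) = Q y

theorem QF.alt (hQ : QF Q c G) (y : (τ → κ) → F) : B (Γ τ G) y y = 0 := by
  have h := hQ.add y y
  rw [← two_smul F, hQ.smul, hQ.two] at h
  exact (mul_eq_zero.1 (show c * _ = 0 by linear_combination -h - Q y * hQ.two)).resolve_left hQ.ne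

theorem QF.presB (hQ : QF Q c G) {g : GL (τ → κ) F} (h : Iso Q g) (x y : (τ → κ) → F) :
    B (Γ τ G) (g.1 *ᵥ x) (g.1 *ᵥ y) = B (Γ τ G) x y := by
  have h1 := h (x + y)
  rw [mulVec_add, hQ.add, hQ.add, h, h] at h1
  exact mul_left_cancel₀ hQ.ne (add_left_cancel h1)

def inv2 {ι : Type} [Fintype ι] [DecidableEq ι] (X : Matrix ι ι F) (h : X * X = 1) : GL ι F := ⟨X, X, h, h⟩

theorem QF.iso (hQ : QF Q c G) {X : Matrix (τ → κ) (τ → κ) F} (h : X * X = 1) (h1 : Xᵀ * Γ τ G = Γ τ G * X)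
    (h2 : ∀ xs, Q (X *ᵥ pv xs) = 0) : Iso Q (inv2 X h) := by
  let S : Submodule F ((τ → κ) → F) :=
    { carrier := {y | Q (X *ᵥ y) = Q y}
      zero_mem' := by simp
      add_mem' := fun {x y} (a : Q _ = _) (b : Q _ = _) => by
        change Q _ = _
        rw [mulVec_add, hQ.add, hQ.add, a, b, sa_B h1, mulVec_mulVec, h, one_mulVec]
      smul_mem' := fun a x (b : Q _ = _) => by
        change Q _ = _
        rw [mulVec_smul, hQ.smul, hQ.smul, b] }
  have : S = ⊤ := (Submodule.eq_top_iff_forall_basis_mem (Pi.basisFun F (τ → κ))).2 fun a => by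
    have : Pi.basisFun F (τ → κ) a = pv fun i => Pi.single (a i) 1 := by
      ext b
      simp [pv, Pi.single_apply, Finset.prod_ite_zero, funext_iff]
    change Q _ = _
    rw [this, h2, hQ.pure]
  exact fun y => (this ▸ Submodule.mem_top : y ∈ S)

def WW (τ : Type) [Fintype τ] [DecidableEq τ] (W : Set (Matrix κ κ F)) : Submodule F (Matrix (τ → κ) (τ → κ) F) :=
  Submodule.span F {X | ∃ i, ∃ x ∈ W, X = atF i x}

theorem gen_mem (i : τ) {x : Matrix κ κ F} (hx : x ∈ W) : atF i x ∈ WW τ W := Submodule.subset_span ⟨i, x, hx, rfl⟩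

def NN (τ : Type) [Fintype τ] [DecidableEq τ] (W : Set (Matrix κ κ F)) : Subgroup (GL (τ → κ) F) where
  carrier := {g | ∀ X, X ∈ WW τ W ↔ cj g X ∈ WW τ W}
  one_mem' X := by rw [cj_one]
  mul_mem' {a b} ha hb X := by rw [cj_mul, ← ha, ← hb]
  inv_mem' {a} ha X := by rw [ha (cj a⁻¹ X), cj_cj_inv]

theorem mem_NN {g : GL (τ → κ) F} (h1 : ∀ i, ∀ x ∈ W, cj g (atF i x) ∈ WW τ W)
    (h2 : ∀ i, ∀ x ∈ W, cj g⁻¹ (atF i x) ∈ WW τ W) : g ∈ NN τ W := by
  have key : ∀ g : GL (τ → κ) F, (∀ i, ∀ x ∈ W, cj g (atF i x) ∈ WW τ W) → ∀ X ∈ WW τ W, cj g X ∈ WW τ W :=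
    fun g h X hX => (show WW τ W ≤ (WW τ W).comap (cj g).toLinearMap from
      Submodule.span_le.2 (by rintro _ ⟨i, x, hx, rfl⟩; exact h i x hx)) hX
  exact fun X => ⟨key g h1 X, fun h => by simpa using key _ h2 _ h⟩

def TT (g : GL (τ → κ) F) : Prop := ∃ (π : Equiv.Perm τ) (as : τ → GL κ F), g = pureGL as * facPerm π

theorem part1 (hQ : QF Q c G) (hD : Dat G W ε φ) {e f : κ → F} (hef : B G e f ≠ 0) {g : GL (τ → κ) F} (h : Iso Q g)
    (hT : TT g) (i : τ) (x : Matrix κ κ F) (hx : x ∈ W) : cj g (atF i x) ∈ WW τ W := by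
  obtain ⟨π, as, rfl⟩ := hT
  rw [cj_mul, cj_facPerm_atF, cj_pureGL_atF]
  have key : ∀ xs ys : τ → κ → F, ∏ i, B G ((as i).1 *ᵥ xs i) ((as i).1 *ᵥ ys i) = ∏ i, B G (xs i) (ys i) :=
    fun xs ys => by
      have := hQ.presB h (pv fun i => xs (π i)) (pv fun i => ys (π i))
      rw [Units.val_mul, ← mulVec_mulVec, ← mulVec_mulVec, fac_pv, fac_pv, coe_pureGL, pure_pv, pure_pv, B_pv, B_pv]
        at this
      rw [this]
      exact Equiv.prod_comp π fun i => B G (xs i) (ys i)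
  refine gen_mem _ (hD.inv _ (∏ j ∈ Finset.univ.erase (π i), B G ((as j).1 *ᵥ e) ((as j).1 *ᵥ f))
    (∏ j ∈ Finset.univ.erase (π i), B G e f) (Finset.prod_ne_zero_iff.2 fun _ _ => hef) (fun u v => ?_) x hx)
  rw [← prod_upd (fun j u v => B G ((as j).1 *ᵥ u) ((as j).1 *ᵥ v)) (fun _ => e) (fun _ => f), key,
    prod_upd (fun _ u v => B G u v)]

theorem atF_comm {i j : τ} (hij : i ≠ j) (x y : Matrix κ κ F) :
    (atF i x : Matrix (τ → κ) (τ → κ) F) * atF j y = atF j y * atF i x := by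
  rw [atF_apply, atF_apply, ← pure_mul, ← pure_mul, Pi.mulSingle_commute hij]

theorem ac_gen (h2 : (2 : F) = 0) (hD : Dat G W ε φ) (i j : τ) {x y : Matrix κ κ F} (hx : x ∈ W) (hy : y ∈ W) :
    ∃ s : F, (atF i x : Matrix (τ → κ) (τ → κ) F) * atF j y + atF j y * atF i x = s • 1 := by
  by_cases h : i = j
  · obtain ⟨s, e⟩ := hD.ac x hx y hy
    exact ⟨s, by rw [h, ← map_mul, ← map_mul, ← map_add, e, map_smul, map_one]⟩
  · exact ⟨0, by rw [atF_comm h, aa h2, zero_smul]⟩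

theorem cj_inv2 (h2 : (2 : F) = 0) {ι : Type} [Fintype ι] [DecidableEq ι] {w x : Matrix ι ι F} (h : w * w = 1) {s : F}
    (e : w * x + x * w = s • 1) : cj (inv2 w h) x = x + s • w := by
  change w * x * w = _
  have : w * x = s • 1 + x * w := by rw [← e, add_assoc, aa h2, add_zero]
  rw [this, add_mul, mul_assoc, h, mul_one, smul_mul_assoc, one_mul, add_comm]

theorem inv2_mem (h2 : (2 : F) = 0) {w : Matrix (τ → κ) (τ → κ) F} (h : w * w = 1) (hw : w ∈ WW τ W)
    (e : ∀ i, ∀ x ∈ W, ∃ s : F, w * atF i x + atF i x * w = s • 1) : inv2 w h ∈ NN τ W := by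
  have : ∀ i, ∀ x ∈ W, cj (inv2 w h) (atF i x) ∈ WW τ W := fun i x hx => by
    obtain ⟨s, e⟩ := e i x hx
    rw [cj_inv2 h2 h e]
    exact add_mem (gen_mem i hx) (Submodule.smul_mem _ _ hw)
  exact mem_NN this this

theorem part2 [Nonempty κ] (hQ : QF Q c G) (hD : Dat G W ε φ) {i j : τ} (hij : i ≠ j)
    (halt : (∃ l, l ≠ i ∧ l ≠ j) ∨ ∀ x ∈ W, ∀ v, B G v (x *ᵥ v) = 0) :
    ∃ a b, Iso Q a ∧ Iso Q b ∧ ⁅a, b⁆ ∈ NN τ W ∧ ¬ TT ⁅a, b⁆ := by
  have h2 := hQ.two
  have sq : ∀ l : τ, (atF l φ : Matrix (τ → κ) (τ → κ) F) * atF l φ = 1 := fun l => by rw [← map_mul, hD.p2, map_one]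
  have sq' : ∀ l : τ, (atF l ε : Matrix (τ → κ) (τ → κ) F) * atF l ε = 0 := fun l => by
    rw [← map_mul, hD.e2, map_zero]
  have ep : ∀ l : τ, (atF l ε : Matrix (τ → κ) (τ → κ) F) * atF l φ + atF l φ * atF l ε = 1 := fun l => by
    rw [← map_mul, ← map_mul, ← map_add, hD.ep, map_one]
  set a : Matrix (τ → κ) (τ → κ) F := atF i ε with ha
  set h : Matrix (τ → κ) (τ → κ) F := atF i φ with hh
  set x : Matrix (τ → κ) (τ → κ) F := atF j ε with hx
  set b : Matrix (τ → κ) (τ → κ) F := atF j φ with hb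
  have ab : a * b = b * a := atF_comm hij _ _
  have ax : a * x = x * a := atF_comm hij _ _
  have hb' : h * b = b * h := atF_comm hij _ _
  have hx' : h * x = x * h := atF_comm hij _ _
  have hw : (a + b) * (a + b) = 1 := by
    linear_combination (norm := noncomm_ring) sq' i + sq j + ab + aa h2 (b * a)
  have hh2 : h * h = 1 := sq i
  have mw : inv2 (a + b) hw ∈ NN τ W := inv2_mem h2 hw (add_mem (gen_mem i hD.me) (gen_mem j hD.mp)) fun l y hy => by
    obtain ⟨s, e⟩ := ac_gen h2 hD i l hD.me hy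
    obtain ⟨s', e'⟩ := ac_gen h2 hD j l hD.mp hy
    exact ⟨s + s', by rw [add_smul]; linear_combination (norm := noncomm_ring) e + e'⟩
  have mh : inv2 h hh2 ∈ NN τ W := inv2_mem h2 hh2 (gen_mem i hD.mp) fun l y hy => ac_gen h2 hD i l hD.mp hy
  refine ⟨inv2 (a + b) hw, inv2 h hh2, hQ.iso hw ?_ fun xs => ?_, hQ.iso hh2 (sa_atF (hD.sa _ hD.mp) i) fun xs => ?_,
    mul_mem (mul_mem (mul_mem mw mh) (inv_mem mw)) (inv_mem mh), ?_⟩
  · rw [transpose_add, add_mul, mul_add, sa_atF (hD.sa _ hD.me), sa_atF (hD.sa _ hD.mp)]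
  · rw [add_mulVec, hQ.add, atF_pv, atF_pv, hQ.pure, hQ.pure, B_pv, add_zero, zero_add]
    refine mul_eq_zero_of_right _ ?_
    rcases halt with ⟨l, h3, h4⟩ | h3
    · exact Finset.prod_eq_zero (Finset.mem_univ l) (by rw [update_of_ne h3, update_of_ne h4, hD.alt])
    · exact Finset.prod_eq_zero (Finset.mem_univ i) (by
        rw [update_self, update_of_ne hij, sa_B (hD.sa _ hD.me), h3 _ hD.me])
  · rw [atF_pv, hQ.pure]
  · rintro ⟨π, as, e⟩
    have e1 : cj ⁅inv2 (a + b) hw, inv2 h hh2⁆ x = atF (π j) (cj (as (π j)) ε) := by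
      rw [e, cj_mul, cj_facPerm_atF, cj_pureGL_atF]
    have s1 : cj (inv2 h hh2) x = x := by
      rw [cj_inv2 h2 hh2 (s := 0) (by rw [hx', aa h2, zero_smul]), zero_smul, add_zero]
    have s2 : cj (inv2 (a + b) hw) x = x + (a + b) := by
      rw [cj_inv2 h2 hw (s := 1) (by rw [one_smul]; linear_combination (norm := noncomm_ring) ep j + ax + aa h2 (x * a)),
        one_smul]
    have s3 : cj (inv2 h hh2) (a + b) = a + b + h := by
      rw [cj_inv2 h2 hh2 (s := 1) (by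
        rw [one_smul]; linear_combination (norm := noncomm_ring) ep i + hb' + aa h2 (b * h)), one_smul]
    have s4 : cj (inv2 (a + b) hw) (a + b) = a + b := by
      rw [cj_inv2 h2 hw (s := 0) (by rw [aa h2, zero_smul]), zero_smul, add_zero]
    have s5 : cj (inv2 (a + b) hw) h = h + (a + b) := by
      rw [cj_inv2 h2 hw (s := 1) (by
        rw [one_smul]; linear_combination (norm := noncomm_ring) ep i - hb' + aa h2 (h * b)), one_smul]
    have e2 : cj ⁅inv2 (a + b) hw, inv2 h hh2⁆ x = x + (a + b) + (a + b + (h + (a + b))) := by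
      change cj (inv2 (a + b) hw * inv2 h hh2 * inv2 (a + b) hw * inv2 h hh2) x = _
      rw [cj_mul, cj_mul, cj_mul, s1, s2, map_add, s1, s3, map_add, s2, map_add _ (a + b), s4, s5]
    rw [e2] at e1
    have ne : (1 : Matrix (τ → κ) (τ → κ) F) ≠ 0 := one_ne_zero
    by_cases hπ : π j = i
    · have := atF_comm (hπ ▸ hij : π j ≠ j) (cj (as (π j)) ε) ε
      rw [← e1, ← hx] at this
      apply ne
      linear_combination (norm := noncomm_ring) this - ep j - 3 * ax - hx' + aa h2 (x * b + x * b) - aa h2 (b * x)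
    · have := atF_comm hπ (cj (as (π j)) ε) ε
      rw [← e1, ← ha] at this
      apply ne
      linear_combination (norm := noncomm_ring) this - ep i + ax + 3 * ab + aa h2 (a * h)

theorem part3 (hQ : QF Q c G) (hD : Dat G W ε φ) {i j₁ j₂ : τ} (hj : j₁ ≠ j₂) {u p q v : τ → κ → F}
    (h1 : B G (v j₁) (u j₁) = 0) (h2 : B G (v j₂) (u j₂) = 0) (h3 : ε *ᵥ p i = 0) (h4 : ε *ᵥ u i = 0)
    (h5 : B G (u i) (p i) = 0) (h6 : ∃ j, B G (p j) (q j) = 0) (h7 : ∃ j, j ≠ i ∧ B G (u j) (q j) = 0)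
    (h8 : ∀ j, B G (update u i (φ *ᵥ u i) j) (p j) ≠ 0) (h9 : ∀ j, B G (v j) (update q i (ε *ᵥ q i) j) ≠ 0) :
    ∃ a b, Iso Q a ∧ Iso Q b ∧ ⁅a, b⁆ ∉ NN τ W := by
  have two := hQ.two
  have sy := Bsymm two hQ.alt
  have al := hQ.alt
  set E : Matrix (τ → κ) (τ → κ) F := atF i ε with hE
  have sE := sa_B (sa_atF (hD.sa _ hD.me) i)
  rw [← hE] at sE
  have EE : E * E = 0 := by rw [← map_mul, hD.e2, map_zero]
  have z0 : ∀ xs : τ → κ → F, ε *ᵥ xs i = 0 → E *ᵥ pv xs = 0 := fun xs h => by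
    rw [atF_pv, h]
    exact funext fun a => Finset.prod_eq_zero (Finset.mem_univ i) (by simp)
  have Ep := z0 p h3
  have Eu := z0 u h4
  have pq : B (Γ τ G) (pv p) (pv q) = 0 := by
    obtain ⟨j, h⟩ := h6
    rw [B_pv]; exact Finset.prod_eq_zero (Finset.mem_univ j) h
  have up : B (Γ τ G) (pv u) (pv p) = 0 := by rw [B_pv]; exact Finset.prod_eq_zero (Finset.mem_univ i) h5
  obtain ⟨j, hji, h7⟩ := h7
  have uq : B (Γ τ G) (pv u) (pv q) = 0 := by rw [B_pv]; exact Finset.prod_eq_zero (Finset.mem_univ j) h7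
  have qq : B (Γ τ G) (pv q) (E *ᵥ pv q) = 0 := by
    rw [atF_pv, B_pv]; exact Finset.prod_eq_zero (Finset.mem_univ j) (by rw [update_of_ne hji, hD.alt])
  have test : ∀ X ∈ WW τ W, B (Γ τ G) (pv v) (X *ᵥ pv u) = 0 := fun X hX => by
    induction hX using Submodule.span_induction with
    | mem X hX =>
      obtain ⟨l, x, -, rfl⟩ := hX
      rw [atF_pv, B_pv]
      by_cases h : j₁ = l
      · exact Finset.prod_eq_zero (Finset.mem_univ j₂) (by rw [update_of_ne (h ▸ hj.symm), h2])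
      · exact Finset.prod_eq_zero (Finset.mem_univ j₁) (by rw [update_of_ne h, h1])
    | zero => simp
    | add X Y _ _ a b => rw [add_mulVec, map_add, a, b, add_zero]
    | smul s X _ a => rw [smul_mulVec, map_smul, a, smul_zero]
  have hh : (1 + E) * (1 + E) = 1 := by linear_combination (norm := noncomm_ring) EE + aa two E
  have hr : (1 + sg (Γ τ G) (pv p) (pv q)) * (1 + sg (Γ τ G) (pv p) (pv q)) = 1 := ext_mulVec fun y => by
    simp only [← mulVec_mulVec, add_mulVec, one_mulVec, sg_mulVec, map_add, map_smul, LinearMap.add_apply,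
      LinearMap.smul_apply, al, pq, sy (pv q) (pv p), smul_zero, add_zero]
    linear_combination (norm := module) aa two (B (Γ τ G) y (pv p) • pv q + B (Γ τ G) y (pv q) • pv p)
  refine ⟨inv2 _ hh, inv2 _ hr, hQ.iso hh ?_ fun xs => ?_, fun y => ?_, fun hN => ?_⟩
  · rw [transpose_add, add_mul, mul_add, sa_atF (hD.sa _ hD.me), transpose_one, one_mul, mul_one]
  · rw [hE, ← map_one (atF i), ← map_add, atF_pv, hQ.pure]
  · change Q ((1 + sg _ _ _) *ᵥ y) = _
    simp only [add_mulVec, one_mulVec, sg_mulVec, hQ.add, hQ.smul, hQ.pure, map_add, map_smul, LinearMap.smul_apply,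
      pq, sy (pv q) (pv p), smul_eq_mul]
    linear_combination c * B (Γ τ G) y (pv p) * B (Γ τ G) y (pv q) * two
  · have hu : (⁅inv2 _ hh, inv2 _ hr⁆ : GL (τ → κ) F).1 *ᵥ pv u = pv u := by
      change ((1 + E) * (1 + sg _ _ _) * (1 + E) * (1 + sg _ _ _)) *ᵥ _ = _
      simp only [← mulVec_mulVec, add_mulVec, one_mulVec, sg_mulVec, up, uq, zero_smul, add_zero, Eu]
    have := test _ ((hN _).1 (gen_mem i hD.mp))
    rw [← hu, cj_mulVec] at this
    have vz := test _ (gen_mem i hD.mp)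
    have zp : B (Γ τ G) (atF i φ *ᵥ pv u) (pv p) ≠ 0 := by
      rw [atF_pv, B_pv]; exact Finset.prod_ne_zero_iff.2 fun j _ => h8 j
    have vq : B (Γ τ G) (pv v) (E *ᵥ pv q) ≠ 0 := by
      rw [atF_pv, B_pv]; exact Finset.prod_ne_zero_iff.2 fun j _ => h9 j
    have zq : B (Γ τ G) (atF i φ *ᵥ pv u) (pv q) = 0 := by
      rw [atF_pv, B_pv]; exact Finset.prod_eq_zero (Finset.mem_univ j) (by rw [update_of_ne hji, h7])
    have zq' : B (Γ τ G) (atF i φ *ᵥ pv u) (E *ᵥ pv q) = 0 := by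
      rw [atF_pv, atF_pv, B_pv]
      exact Finset.prod_eq_zero (Finset.mem_univ j) (by rw [update_of_ne hji, update_of_ne hji, h7])
    generalize atF i φ *ᵥ pv u = z at this vz zp zq zq'
    have key : (⁅inv2 _ hh, inv2 _ hr⁆ : GL (τ → κ) F).1 *ᵥ z = z + B (Γ τ G) z (pv p) • E *ᵥ pv q := by
      have EE' : ∀ y, E *ᵥ E *ᵥ y = 0 := fun y => by rw [mulVec_mulVec, EE, zero_mulVec]
      change ((1 + E) * (1 + sg _ _ _) * (1 + E) * (1 + sg _ _ _)) *ᵥ _ = _
      simp only [← mulVec_mulVec, add_mulVec, one_mulVec, sg_mulVec, map_add, map_smul, LinearMap.add_apply,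
        LinearMap.smul_apply, al, pq, sy (pv q) (pv p), smul_zero, add_zero, mulVec_add, mulVec_smul, sE, Ep, map_zero,
        zq, zq', qq, zero_smul, EE']
      linear_combination (norm := module) aa two (E *ᵥ z + B (Γ τ G) z (pv p) • pv q + B (Γ τ G) z (pv p) • E *ᵥ pv q)
    rw [key, map_add, map_smul, vz, zero_add] at this
    exact mul_ne_zero zp vq this

theorem dat2 (h2 : (2 : F) = 0) {G : Matrix (Fin 2) (Fin 2) F} (h : ∀ v, B G v v = 0) :
    Dat G {x | x.trace = 0} !![0, 1; 0, 0] !![0, 1; 1, 0] := by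
  have g0 : G 0 0 = 0 := by simpa using h (Pi.single 0 1)
  have g1 : G 1 1 = 0 := by simpa using h (Pi.single 1 1)
  have g2 : G 1 0 = G 0 1 := by simpa using Bsymm h2 h (Pi.single 1 1) (Pi.single 0 1)
  refine ⟨h, fun x hx => ?_, fun x hx y hy => ⟨x 0 1 * y 1 0 + x 1 0 * y 0 1, ?_⟩,
    fun a _ _ _ _ x hx => (trace_cj a x).trans hx, by simp [trace_fin_two], by simp [trace_fin_two], ?_, ?_, ?_⟩
  · have hx : x 0 0 + x 1 1 = 0 := (trace_fin_two x).symm.trans hx
    ext i j; fin_cases i <;> fin_cases j <;> simp [mul_apply, Fin.sum_univ_two, g0, g1, g2]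
    · ring
    · linear_combination G 0 1 * hx - G 0 1 * x 1 1 * h2
    · linear_combination G 0 1 * hx - G 0 1 * x 0 0 * h2
    · ring
  · have hx : x 0 0 + x 1 1 = 0 := (trace_fin_two x).symm.trans hx
    have hy : y 0 0 + y 1 1 = 0 := (trace_fin_two y).symm.trans hy
    ext i j; fin_cases i <;> fin_cases j <;> simp [mul_apply, Fin.sum_univ_two]
    · linear_combination x 0 0 * y 0 0 * h2
    · linear_combination y 0 1 * hx + x 0 1 * hy
    · linear_combination y 1 0 * hx + x 1 0 * hy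
    · linear_combination x 1 1 * y 1 1 * h2
  all_goals ext i j; fin_cases i <;> fin_cases j <;> simp [mul_apply, Fin.sum_univ_two]

def hat (A : Matrix (Fin 4) (Fin 4) F) : Matrix (Fin 4) (Fin 4) F :=
  !![0, A 2 3, A 1 3, A 1 2; A 2 3, 0, A 0 3, A 0 2; A 1 3, A 0 3, 0, A 0 1; A 1 2, A 0 2, A 0 1, 0]

def pp (A C : Matrix (Fin 4) (Fin 4) F) : F :=
  A 0 1 * C 2 3 + A 2 3 * C 0 1 + A 0 2 * C 1 3 + A 1 3 * C 0 2 + A 0 3 * C 1 2 + A 1 2 * C 0 3

def pf (A : Matrix (Fin 4) (Fin 4) F) : F := A 0 1 * A 2 3 + A 0 2 * A 1 3 + A 0 3 * A 1 2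

theorem alt_eq (h2 : (2 : F) = 0) {A : Matrix (Fin 4) (Fin 4) F} (h : ∀ v, B A v v = 0) : ∃ a b c d e f : F,
    A = !![0, a, b, c; a, 0, d, e; b, d, 0, f; c, e, f, 0] := by
  have g0 : ∀ i, A i i = 0 := fun i => by simpa using h (Pi.single i 1)
  have g2 : ∀ i j, A i j = A j i := fun i j => by simpa using Bsymm h2 h (Pi.single i 1) (Pi.single j 1)
  refine ⟨A 0 1, A 0 2, A 0 3, A 1 2, A 1 3, A 2 3, ?_⟩
  ext i j; fin_cases i <;> fin_cases j <;> first | exact g0 _ | exact g2 _ _ | rfl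

theorem hat1 (h2 : (2 : F) = 0) {A : Matrix (Fin 4) (Fin 4) F} (h : ∀ v, B A v v = 0) : hat A * A = pf A • 1 := by
  obtain ⟨a, b, c, d, e, f, rfl⟩ := alt_eq h2 h
  ext i j; fin_cases i <;> fin_cases j <;> simp [hat, pf, mul_apply, Fin.sum_univ_four] <;> grind

theorem hat2 (h2 : (2 : F) = 0) {A C : Matrix (Fin 4) (Fin 4) F} (h : ∀ v, B A v v = 0) (h' : ∀ v, B C v v = 0) :
    hat A * C + hat C * A = pp A C • 1 := by
  obtain ⟨a, b, c, d, e, f, rfl⟩ := alt_eq h2 h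
  obtain ⟨a', b', c', d', e', f', rfl⟩ := alt_eq h2 h'
  ext i j; fin_cases i <;> fin_cases j <;> simp [hat, pp, mul_apply, Fin.sum_univ_four] <;> grind

theorem B_mul (G x : Matrix κ κ F) (u v : κ → F) : B (G * x) u v = B G u (x *ᵥ v) := by
  rw [toBilin'_apply', toBilin'_apply', mulVec_mulVec]

theorem quad (h2 : (2 : F) = 0) {G x : Matrix (Fin 4) (Fin 4) F} (h : ∀ v, B G v v = 0)
    (hx : ∀ v, B G v (x *ᵥ v) = 0) : pf G • (x * x) = pf (G * x) • 1 + pp (G * x) G • x := by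
  have hA : ∀ v, B (G * x) v v = 0 := fun v => by rw [B_mul, hx]
  have a1 := hat1 h2 h
  have a2 := hat1 h2 hA
  have a3 := hat2 h2 hA h
  calc pf G • (x * x) = hat G * (G * x) * x := by rw [← mul_assoc, a1]; simp
    _ = hat (G * x) * (G * x) + (hat (G * x) * G + hat G * (G * x)) * x := by
      linear_combination (norm := noncomm_ring) -aa h2 (hat (G * x) * (G * x))
    _ = _ := by rw [a2, a3]; simp

theorem dat4 (h2 : (2 : F) = 0) {G : Matrix (Fin 4) (Fin 4) F} (h : ∀ v, B G v v = 0) (hd : G.det ≠ 0)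
    {e f e' f' : Fin 4 → F} (a1 : B G e f = 1) (a2 : B G e' f' = 1) (a3 : B G e e' = 0) (a4 : B G e f' = 0)
    (a5 : B G f e' = 0) (a6 : B G f f' = 0) :
    Dat G {x | (∀ v, B G v (x *ᵥ v) = 0) ∧ ∃ s : F, x * x = s • 1} (sg G e e') (sg G e e' + sg G f f') := by
  have sy := Bsymm h2 h
  have hp : pf G ≠ 0 := fun h0 => by
    have h1 := hat1 h2 h
    rw [h0, zero_smul] at h1
    have h3 : hat G = 0 := by
      rw [← mul_nonsing_inv_cancel_right G (hat G) (Ne.isUnit hd), h1, zero_mul]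
    obtain ⟨a, b, c, d, e, f, rfl⟩ := alt_eq h2 h
    have e := fun i j => congrFun (congrFun h3 i) j
    have b1 : a = 0 := e 2 3
    have b2 : b = 0 := e 1 3
    have b3 : c = 0 := e 1 2
    exact hd (det_eq_zero_of_row_eq_zero 0 fun j => by fin_cases j <;> simp [b1, b2, b3])
  have lam : ∀ x : Matrix (Fin 4) (Fin 4) F, (∀ v, B G v (x *ᵥ v) = 0) → ∀ s : F, x * x = s • 1 → pp (G * x) G = 0 :=
    fun x hx s e => by
      by_contra h0
      have h1 := quad h2 h hx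
      have h3 : x = ((pp (G * x) G)⁻¹ * (pf G * s - pf (G * x))) • 1 := by
        rw [mul_smul, sub_smul, mul_smul, ← e, h1, add_sub_cancel_left, inv_smul_smul₀ h0]
      generalize (pp (G * x) G)⁻¹ * (pf G * s - pf (G * x)) = r at h3
      apply h0
      rw [h3, mul_smul_comm, mul_one]
      simp only [pp, Matrix.smul_apply, smul_eq_mul]
      linear_combination r * (G 0 1 * G 2 3 + G 0 2 * G 1 3 + G 0 3 * G 1 2) * h2
  have ac : ∀ x y : Matrix (Fin 4) (Fin 4) F, (∀ v, B G v (x *ᵥ v) = 0) → (∀ v, B G v (y *ᵥ v) = 0) → ∀ s s' : F,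
      x * x = s • 1 → y * y = s' • 1 → ∃ s : F, x * y + y * x = s • 1 := fun x y hx hy s s' e e' => by
    have h1 := quad h2 h (x := x + y) fun v => by rw [add_mulVec, map_add, hx, hy, add_zero]
    have h3 : pp (G * (x + y)) G = 0 := by
      have := lam x hx s e
      have := lam y hy s' e'
      simp only [pp, mul_add, Matrix.add_apply] at *
      grind
    rw [h3, zero_smul, add_zero] at h1
    refine ⟨(pf G)⁻¹ * pf (G * (x + y)) - s - s', ?_⟩
    rw [sub_smul, sub_smul, mul_smul, ← h1, inv_smul_smul₀ hp, ← e, ← e']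
    noncomm_ring
  have al : ∀ p q v, B G v (sg G p q *ᵥ v) = 0 := fun p q v => by
    simp only [sg_mulVec, map_add, map_smul, smul_eq_mul]
    linear_combination B G v p * B G v q * h2
  have s2 : ∀ p q, B G p q = 0 → sg G p q * sg G p q = 0 := fun p q e => ext_mulVec fun v => by
    simp only [← mulVec_mulVec, sg_mulVec, map_add, map_smul, LinearMap.add_apply, LinearMap.smul_apply, h, e, sy q p,
      smul_zero, add_zero, zero_smul, zero_mulVec]
  obtain ⟨s, hs⟩ := ac _ _ (al e e') (al f f') 0 0 (by rw [s2 _ _ a3, zero_smul]) (by rw [s2 _ _ a6, zero_smul])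
  obtain rfl : s = 1 := by
    have := congrArg (fun X => B G (X *ᵥ e) f) hs
    simpa [add_mulVec, ← mulVec_mulVec, sg_mulVec, h, a1, a2, a3, a4, a5, a6, sy f' e, sy f' e', smul_mulVec]
      using this.symm
  rw [one_smul] at hs
  have p2 : (sg G e e' + sg G f f') * (sg G e e' + sg G f f') = 1 := by
    linear_combination (norm := noncomm_ring) hs + s2 _ _ a3 + s2 _ _ a6
  refine ⟨h, fun x hx => ?_, fun x ⟨h1, s, e⟩ y ⟨h3, s', e'⟩ => ac x y h1 h3 s s' e e',
    fun a c d hd h1 x ⟨h3, s, ex⟩ => ⟨fun v => ?_, s, by rw [← map_mul, ex, map_smul, map_one]⟩,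
    ⟨al _ _, 0, by rw [s2 _ _ a3, zero_smul]⟩,
    ⟨fun v => by rw [add_mulVec, map_add, al, al, add_zero], 1, by rw [p2, one_smul]⟩, s2 _ _ a3, p2, ?_⟩
  · have g1 : Gᵀ = G := by ext i j; simpa using sy (Pi.single j 1) (Pi.single i 1)
    have g2 : (G * x)ᵀ = G * x := by
      ext i j
      simpa using Bsymm h2 (G := G * x) (fun v => by rw [B_mul, hx.1]) (Pi.single j 1) (Pi.single i 1)
    rw [← g2, transpose_mul, g1]
  · have hc : c ≠ 0 := fun h0 => by
      have := h1 e f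
      rw [h0, a1, mul_zero, one_mul] at this
      exact hd this.symm
    have := h1 (a⁻¹.1 *ᵥ v) (x *ᵥ a⁻¹.1 *ᵥ v)
    rw [h3, zero_mul, ← cj_mulVec a x, mulVec_inv_mulVec] at this
    exact (mul_eq_zero.1 this).resolve_right hc
  · linear_combination (norm := noncomm_ring) hs + 2 * s2 _ _ a3

theorem sbasis (h2 : (2 : F) = 0) {G : Matrix (Fin 4) (Fin 4) F} (h : ∀ v, B G v v = 0)
    (hn : ∀ u, u ≠ 0 → ∃ v, B G u v ≠ 0) : ∃ e f e' f' : Fin 4 → F, B G e f = 1 ∧ B G e' f' = 1 ∧ B G e e' = 0 ∧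
      B G e f' = 0 ∧ B G f e' = 0 ∧ B G f f' = 0 := by
  have sy := Bsymm h2 h
  have hn' : ∀ u, u ≠ 0 → ∃ v, B G u v = 1 := fun u hu => by
    obtain ⟨v, hv⟩ := hn u hu
    exact ⟨(B G u v)⁻¹ • v, by rw [map_smul, smul_eq_mul, inv_mul_cancel₀ hv]⟩
  obtain ⟨f, hf⟩ := hn' (Pi.single 0 1) (by simp)
  generalize (Pi.single 0 1 : Fin 4 → F) = e at hf
  obtain ⟨e', he, h0⟩ := (Submodule.ne_bot_iff _).1
    (LinearMap.ker_ne_bot_of_finrank_lt (f := (B G e).prod (B G f)) (by simp))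
  have a1 : B G e e' = 0 := congrArg Prod.fst he
  have a2 : B G f e' = 0 := congrArg Prod.snd he
  obtain ⟨g, hg⟩ := hn' e' h0
  refine ⟨e, f, e', g + B G f g • e + B G e g • f, hf, ?_, a1, ?_, a2, ?_⟩ <;>
    simp only [map_add, map_smul, smul_eq_mul, h, hf, hg, sy e' e, sy e' f, sy f e, a1, a2] <;> grind

theorem core {k t : ℕ} (hn : 13 ≤ k ^ t) (he : Even (k ^ t)) (ht : 2 ≤ t) (hk : k ≤ 4) {G : Matrix (Fin k) (Fin k) F}
    {Q : ((Fin t → Fin k) → F) → F} {c : F} (hQ : QF Q c G) (h : ∀ v, B G v v = 0) (hd : G.det ≠ 0)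
    (hn' : ∀ u, u ≠ 0 → ∃ v, B G u v ≠ 0) : ∃ N : Subgroup (GL (Fin t → Fin k) F),
      (∀ g, Iso Q g → Iso Q g⁻¹ → TT g → TT g⁻¹ → g ∈ N) ∧ (∃ a b, Iso Q a ∧ Iso Q b ∧ ⁅a, b⁆ ∈ N ∧ ¬ TT ⁅a, b⁆) ∧
      ∃ a b, Iso Q a ∧ Iso Q b ∧ ⁅a, b⁆ ∉ N := by
  have h2 := hQ.two
  have sy := Bsymm h2 h
  obtain rfl | rfl : k = 2 ∨ k = 4 := by
    have := (Nat.even_pow.1 he).1
    have : k ≠ 0 := by rintro rfl; rw [zero_pow (by omega)] at hn; omega
    grind
  · have h4 : 4 ≤ t := by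
      by_contra h4
      have := Nat.pow_le_pow_right two_pos (show t ≤ 3 by omega)
      omega
    have hD := dat2 h2 h
    have a0 : B G ![1, 0] ![0, 1] ≠ 0 := fun h0 => by
      obtain ⟨v, hv⟩ := hn' ![1, 0] (by simp)
      have : v = v 0 • ![1, 0] + v 1 • ![0, 1] := by ext i; fin_cases i <;> simp
      rw [this, map_add, map_smul, map_smul, h, h0] at hv
      simp at hv
    have a1 : B G ![0, 1] ![1, 0] ≠ 0 := sy _ _ ▸ a0
    have m1 : (!![0, 1; 0, 0] : Matrix (Fin 2) (Fin 2) F) *ᵥ ![1, 0] = 0 := by ext i; fin_cases i <;> simp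
    have m2 : (!![0, 1; 0, 0] : Matrix (Fin 2) (Fin 2) F) *ᵥ ![0, 1] = ![1, 0] := by ext i; fin_cases i <;> simp
    have m3 : (!![0, 1; 1, 0] : Matrix (Fin 2) (Fin 2) F) *ᵥ ![1, 0] = ![0, 1] := by ext i; fin_cases i <;> simp
    refine ⟨_, fun g b1 b2 b3 b4 => mem_NN (part1 hQ hD a0 b1 b3) (part1 hQ hD a0 b2 b4),
      part2 hQ hD (i := ⟨0, by omega⟩) (j := ⟨1, by omega⟩) (by simp) (Or.inl ⟨⟨2, by omega⟩, by simp, by simp⟩),
      part3 hQ hD (i := ⟨0, by omega⟩) (j₁ := ⟨1, by omega⟩) (j₂ := ⟨2, by omega⟩) (by simp) (u := fun _ => ![1, 0])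
        (p := fun j => if j.1 = 0 then ![1, 0] else ![0, 1]) (q := fun j => if j.1 ≤ 2 then ![0, 1] else ![1, 0])
        (v := fun j => if j.1 = 1 ∨ j.1 = 2 then ![1, 0] else ![0, 1]) (h _) (h _) m1 m1 (h _) ⟨⟨1, by omega⟩, h _⟩
        ⟨⟨3, by omega⟩, by simp, h _⟩ (fun j => ?_) fun j => ?_⟩
    · by_cases e : j = ⟨0, by omega⟩
      · rw [e, update_self, m3]; exact a1
      · rw [update_of_ne e, if_neg fun h => e (Fin.ext h)]; exact a0
    · by_cases e : j = ⟨0, by omega⟩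
      · rw [e, update_self, if_pos (Nat.zero_le 2), m2]; exact a1
      · have : j.1 ≠ 0 := fun h => e (Fin.ext h)
        rw [update_of_ne e]
        by_cases e' : j.1 ≤ 2
        · rw [if_pos e', if_pos (by omega)]; exact a0
        · rw [if_neg e', if_neg (by omega)]; exact a1
  · obtain ⟨t, rfl⟩ := Nat.exists_eq_add_of_le' ht
    obtain ⟨e, f, e', f', a1, a2, a3, a4, a5, a6⟩ := sbasis h2 h hn'
    have hD := dat4 h2 h hd a1 a2 a3 a4 a5 a6
    have a0 : B G e f ≠ 0 := a1 ▸ one_ne_zero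
    refine ⟨_, fun g b1 b2 b3 b4 => mem_NN (part1 hQ hD a0 b1 b3) (part1 hQ hD a0 b2 b4),
      part2 hQ hD (i := 0) (j := 1) zero_ne_one (Or.inr fun x hx => hx.1),
      part3 hQ hD (i := 0) (j₁ := 0) (j₂ := 1) zero_ne_one (u := fun _ => e)
        (p := fun j => if j = 0 then e' else f) (q := fun j => if j = 0 then f else e') (v := fun _ => f')
        (sy _ _ ▸ a4) (sy _ _ ▸ a4) (by simp [sg_mulVec, h, sy e' e, a3]) (by simp [sg_mulVec, h, a3]) a3
        ⟨0, sy _ _ ▸ a5⟩ ⟨1, one_ne_zero, a3⟩ (fun j => ?_) fun j => ?_⟩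
    · by_cases e : j = 0
      · simp [e, add_mulVec, sg_mulVec, h, a1, a3, a4, sy f' e', a2]
      · simpa [e] using a0
    · by_cases e0 : j = 0
      · simp [e0, sg_mulVec, sy f e, a1, a5, sy f' e', a2]
      · simp [e0, sy f' e', a2]

theorem comm_mem {ι : Type} [Fintype ι] [DecidableEq ι] {Q : (ι → F) → F} {a b : GL ι F} (ha : a ∈ isometryGroup F Q)
    (hb : b ∈ isometryGroup F Q) : ⁅a, b⁆ ∈ omegaGL Q := by
  rw [omegaGL, Omega, Subgroup.map_subtype_commutator]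
  exact Subgroup.commutator_mem_commutator ha hb

/-- Let F be a finite field with q elements, n ≥ 13 even, Q a non-degenerate quadratic form on F^n of plus type (some subspace of dimension n/2 is totally singular), and Ω the commutator subgroup of the isometry group of Q, viewed inside GL_n(F). Suppose q is even and that, through P and e, the polar form of Q is similar to the t-fold tensor power (t ≥ 2) of a non-degenerate symplectic form f₁ on F^k with k ≤ 4 and (q, k) ≠ (2, 2), Q vanishing on the images of all pure tensors. Then the elements of Ω in the stabiliser of this decomposition form a subgroup that is not maximal: some subgroup lies strictly between it and Ω. -/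
theorem result {F : Type*} [Field F] [Fintype F] {n : ℕ} (hn : 13 ≤ n) (heven : Even n) (Q : (Fin n → F) → F) (hQ : Cfsg.Geo.IsNondegenerateQuadraticForm Q) (hplus : Cfsg.Geo.IsPlusTypeOn Q ⊤) (hchar : ¬ Odd (Fintype.card F)) (k t : ℕ) (ht : 2 ≤ t) (hk : k ≤ 4) (hex1 : ¬ (Fintype.card F = 2 ∧ k = 2)) (e : (Fin n) ≃ (Fin t → Fin k)) (P : Matrix.GeneralLinearGroup (Fin n) F) (f₁ : (Fin k → F) → (Fin k → F) → F) (hf₁ : Cfsg.Geo.IsSymplecticForm f₁) (hT : Cfsg.Geo.IsTensorPowerFormStructure id (QuadraticMap.polar Q) f₁ e P) (hpure : (∀ xs : Fin t → (Fin k → F), Q (Matrix.mulVec (P : Matrix (Fin n) (Fin n) F) ((fun a : Fin t → Fin k => ∏ i, xs i (a i)) ∘ e)) = 0)) : ∃ K : Subgroup (Matrix.GeneralLinearGroup (Fin n) F), Cfsg.Geo.tensorWreathSubgroup k t e P ⊓ Cfsg.Geo.omegaGL Q < K ∧ K < Cfsg.Geo.omegaGL Q := by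
  classical
  have h2 : (2 : F) = 0 := by
    have : ringChar F = 2 := (FiniteField.even_card_iff_char_two (F := F)).2 (by
      rw [Nat.not_odd_iff_even, Nat.even_iff] at hchar; exact hchar)
    exact_mod_cast (ringChar.spec F 2).2 (this ▸ dvd_rfl)
  obtain ⟨c, hc, hT⟩ := hT
  have hs := CA.AschTForm.sf_of_symp hf₁
  have hB : ∀ u v, B (gramMatrix f₁) u v = f₁ u v := fun u v => by rw [toBilin'_apply', hs.eq_gram]; rfl
  have hcard : n = k ^ t := by simpa using Fintype.card_congr e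
  have hq : QF (fun y => Q (trv e P y)) c (gramMatrix f₁) := ⟨h2, hc, fun x y => by
    have := hT x y
    rw [QuadraticMap.polar] at this
    rw [map_add, toBilin'_apply]
    change Q (trv e P x + trv e P y) - Q (trv e P x) - Q (trv e P y) = c * ∑ a, ∑ b, x a * Γ _ _ a b * y b at this
    linear_combination this, fun a x => by rw [map_smul, hQ.smul], hpure⟩
  obtain ⟨N, n1, ⟨a, b, ha, hb, n2, n3⟩, a', b', ha', hb', n4⟩ := core (by rwa [← hcard]) (by rwa [← hcard]) ht hk hq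
    (fun v => by rw [hB, hf₁.alternating]) hs.det_ne_zero fun u hu => by simpa only [hB] using (hf₁.nondegenerate u hu).2
  have iso : ∀ g, trGL e P g ∈ isometryGroup F Q ↔ Iso (fun y => Q (trv e P y)) g := fun g => by
    rw [CA.CForm.mem_isometryGroup, coe_trGL]
    refine ⟨fun h y => ?_, fun h u => ?_⟩
    · have := h (trv e P y)
      rwa [tr_mulVec] at this
    · obtain ⟨y, rfl⟩ := (trv e P).surjective u
      rw [tr_mulVec]
      exact h y
  have cm : ∀ a b, Iso (fun y => Q (trv e P y)) a → Iso (fun y => Q (trv e P y)) b → trGL e P ⁅a, b⁆ ∈ omegaGL Q :=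
    fun a b ha hb => by
      rw [map_commutatorElement]
      exact comm_mem ((iso a).2 ha) ((iso b).2 hb)
  have mK : ∀ g, trGL e P g ∈ N.map (trGL e P).toMonoidHom ↔ g ∈ N := fun g =>
    Subgroup.mem_map_iff_mem (f := (trGL e P).toMonoidHom) (trGL e P).injective
  have mT : ∀ g, trGL e P g ∈ tensorWreathSubgroup k t e P ↔ g ∈ tensorWreathStandard k t F := fun g => by
    rw [mem_tensorWreathSubgroup_iff, MulEquiv.symm_apply_apply]
  refine ⟨N.map (trGL e P).toMonoidHom ⊓ omegaGL Q, lt_of_le_of_ne (fun g hg => ⟨?_, hg.2⟩) fun h => n3 ?_,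
    lt_of_le_of_ne inf_le_right fun h => n4 ?_⟩
  · obtain ⟨g, rfl⟩ := (trGL e P).surjective g
    have h1 := (mT g).1 hg.1
    have h3 : trGL e P g ∈ isometryGroup F Q := Subgroup.map_subtype_le _ hg.2
    exact (mK g).2 (n1 g ((iso g).1 h3) ((iso _).1 (by rw [map_inv]; exact inv_mem h3)) (exists_perm_atF_of_mem h1)
      (exists_perm_atF_of_mem (inv_mem h1)))
  · have : trGL e P ⁅a, b⁆ ∈ tensorWreathSubgroup k t e P ⊓ omegaGL Q := by
      rw [h]
      exact ⟨(mK _).2 n2, cm a b ha hb⟩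
    exact exists_perm_atF_of_mem ((mT _).1 this.1)
  · have := cm a' b' ha' hb'
    rw [← h] at this
    exact (mK _).1 this.1

end Cfsg.Agent.S5707
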