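import Cfsg.Statements.S5778
import Cfsg.Agent.Lib.Lin.NM8
import Cfsg.Agent.Lib.Lin.NM9

set_option autoImplicit false
open Cfsg

namespace Cfsg.Agent.S5778

open CA.CForm CA.AschProp CA.AschFG CA.AschU CA.NM in
/-- Every maximal subgroup of SU_3(q), q ≥ 3, is of one of the listed geometric types or lies in the residual class. Let F be the field with q² elements, f the standard unitary form Σ u_i v_i^q on F^3, and H a maximal subgroup of SU_3(q) (the determinant-one isometries of f, inside GL_3(F)). Then H is the intersection with SU_3(q) of one of: the stabiliser of a non-zero subspace on which f vanishes; the stabiliser of a non-degenerate 1-space; for q ≠ 5, the stabiliser of a decomposition into three mutually orthogonal non-degenerate 1-spaces; for q ≠ 3, 5, the normaliser of an adjoint-closed degree-3 subfield of the matrix algebra; a subfield group of odd prime index whose F₀-structure carries f; for q odd, q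 ≥ 7, a subfield group of index 2 whose F₀-structure carries f; for q = p ≡ 2 mod 3 prime with p ≥ 11, the normaliser of an absolutely irreducible subgroup of order 27 with centre of order 3, exponent 3 and all characteristic abelian subgroups cyclic, contained in the similarity group of f — or else H lies in the residual class of the unitary case. -/
theorem result {F : Type*} [Field F] [Fintype F] (q : ℕ) (hF : Fintype.card F = q ^ 2) (hq : 3 ≤ q) (H : Subgroup (Matrix.GeneralLinearGroup (Fin 3) F)) (hH : Cfsg.Geo.IsMaximalIn (Cfsg.GU 3 F q ⊓ Cfsg.Geo.specialLinear (Fin 3) F) H) :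
    (∃ W : Submodule F (Fin 3 → F), W ≠ ⊥ ∧ Cfsg.Geo.IsTotallySingularFor (Cfsg.hermForm 3 F q) W ∧ H = Cfsg.Geo.subspaceStabilizer W ⊓ (Cfsg.GU 3 F q ⊓ Cfsg.Geo.specialLinear (Fin 3) F)) ∨
    (∃ W : Submodule F (Fin 3 → F), W ≠ ⊥ ∧ Cfsg.Geo.IsNondegenerateOn (Cfsg.hermForm 3 F q) W ∧ 2 * Module.finrank F W < 3 ∧ H = Cfsg.Geo.subspaceStabilizer W ⊓ (Cfsg.GU 3 F q ⊓ Cfsg.Geo.specialLinear (Fin 3) F)) ∨
    (q ≠ 5 ∧ ∃ D : Fin 3 → Submodule F (Fin 3 → F), Cfsg.Geo.IsNondegenerateMDecomposition (Cfsg.hermForm 3 F q) 1 D ∧ H = Cfsg.Geo.decompositionStabilizer D ⊓ (Cfsg.GU 3 F q ⊓ Cfsg.Geo.specialLinear (Fin 3) F)) ∨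
    (q ≠ 3 ∧ q ≠ 5 ∧ ∃ K : Subalgebra F (Matrix (Fin 3) (Fin 3) F), Cfsg.Geo.IsFieldSubalgebra 3 K ∧ Cfsg.Geo.IsAdjointClosedFor (Cfsg.hermForm 3 F q) K ∧ H = Cfsg.Geo.subalgebraNormalizer K ⊓ (Cfsg.GU 3 F q ⊓ Cfsg.Geo.specialLinear (Fin 3) F)) ∨
    (∃ (F₀ : Subfield F) (r : ℕ) (P : Matrix.GeneralLinearGroup (Fin 3) F), r.Prime ∧ Odd r ∧ Fintype.card F = Nat.card F₀ ^ r ∧ Cfsg.Geo.IsFormRationalStructure (Cfsg.hermForm 3 F q) F₀ 1 P ∧ H = Cfsg.Geo.subfieldSubgroup F₀ P ⊓ (Cfsg.GU 3 F q ⊓ Cfsg.Geo.specialLinear (Fin 3) F)) ∨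
    (Odd q ∧ 7 ≤ q ∧ ∃ (F₀ : Subfield F) (P : Matrix.GeneralLinearGroup (Fin 3) F), Fintype.card F = Nat.card F₀ ^ 2 ∧ Cfsg.Geo.IsFormRationalStructure (Cfsg.hermForm 3 F q) F₀ 1 P ∧ H = Cfsg.Geo.subfieldSubgroup F₀ P ⊓ (Cfsg.GU 3 F q ⊓ Cfsg.Geo.specialLinear (Fin 3) F)) ∨
    (∃ (p : ℕ) (R : Subgroup (Matrix.GeneralLinearGroup (Fin 3) F)), p.Prime ∧ q = p ∧ p % 3 = 2 ∧ 11 ≤ p ∧ Cfsg.Geo.IsSymplecticTypeGroup 3 R ∧ Cfsg.Geo.ActsAbsolutelyIrreducibly (Cfsg.Geo.matrixSet R) ∧ R ≤ Cfsg.Geo.similarityGroup (Cfsg.hermForm 3 F q) ∧ Nat.card R = 27 ∧ Nat.card (Subgroup.center R) = 3 ∧ H = Cfsg.Geo.subgroupNormalizer R ⊓ (Cfsg.GU 3 F q ⊓ Cfsg.Geo.specialLinear (Fin 3) F)) ∨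
    Cfsg.Geo.InUnitaryResidualClass H := by
  have hc : Fintype.card (Fin 3) = 3 := Fintype.card_fin _
  suffices hUS : US q (hermForm 3 F q) (fun M => H = M ⊓ (GU 3 F q ⊓ Geo.specialLinear (Fin 3) F)) → ?_ by
    rcases u_max hF (by omega) (by omega) (by omega) hH with h | h
    swap
    · repeat (first | exact .inl h | exact h | right)
    unfold UC at h
    rw [hc] at h
    rcases h with ⟨W, h1, h2, hE⟩ | ⟨W, h1, h2, h3, hE⟩ | ⟨t, k, D, hD, h1, hE⟩ | ⟨k, D, hD, h1, hE⟩ |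
      ⟨r, K, hr, h1, h2, hK, h3, hE⟩ | ⟨a, b, e, P, f₁, f₂, h1, h2, h3, h4, h5, h6, h7, hE⟩ |
      ⟨k, t, e, P, f₁, h1, h2, h3, h4, h5, h6, hE⟩ | h
    · exact .inl ⟨W, h1, h2, hE⟩
    · exact .inr (.inl ⟨W, h1, h2, h3, hE⟩)
    · have a1 := decomp_card hD.decomp
      have a2 := hD.decomp.two_le
      obtain ⟨rfl, rfl⟩ : (t = 3 ∧ k = 1) := by
        rw [hc] at a1
        have hm : k ≤ 3 := by nlinarith
        clear * - hm a1 a2
        interval_cases k <;> omega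
      have h5 : q ≠ 5 := by
        rintro rfl
        exact frame35 hF hD (hE ▸ hH)
      repeat (first | exact .inl ⟨h5, D, hD, hE⟩ | exact ⟨h5, D, hD, hE⟩ | right)
    · have := decomp_card hD
      omega
    · obtain rfl : r = 3 := by
        have a1 : r ≤ 3 := Nat.le_of_dvd (by norm_num) h2
        rw [Nat.odd_iff] at h1
        clear * - hr h1 h2 a1
        interval_cases r <;> first | omega | exact absurd hr (by norm_num)
      have h4 : q ≠ 3 := by
        rintro rfl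
        exact singer33 hF hK h3 (hE ▸ hH)
      have h5 : q ≠ 5 := by
        rintro rfl
        exact singer35 hF hK h3 (hE ▸ hH)
      repeat (first | exact .inl ⟨h4, h5, K, hK, h3, hE⟩ | exact ⟨h4, h5, K, hK, h3, hE⟩ | right)
    · have hm : a ≤ 3 := by nlinarith
      exfalso
      clear * - hm h1 h2 h3
      interval_cases a <;> omega
    · have := (Nat.pow_le_pow_left h2 2).trans (Nat.pow_le_pow_right (by omega) h3)
      omega
    · exact hUS h
  rintro (h | ⟨h0, h⟩ | ⟨h0, h⟩ | ⟨r, R, p, e, k, h1, h2, h3, h4, h5, h6, h7, hE⟩)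
  · repeat (first | exact .inl h | exact h | right)
  · exact absurd (hc ▸ h0) (by decide)
  · have h7 : 7 ≤ q := by
      by_contra h7
      obtain ⟨F₀, P, b1, b2, hE⟩ := h
      rw [Nat.odd_iff] at h0
      obtain rfl | rfl : q = 3 ∨ q = 5 := by omega
      · exact so33 hF b1 b2 (hE ▸ hH)
      · exact so35 hF b1 b2 (hE ▸ hH)
    repeat (first | exact .inl ⟨h0, h7, h⟩ | exact ⟨h0, h7, h⟩ | right)
  obtain ⟨a1, a2, a3, a4⟩ := c6u hF (by omega) (by omega) h1.prime h4 h5 h6 h7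
  have a5 := le_sim_of_fixes h3
  rcases a4 with ⟨b1, rfl, b2, b3, b4⟩ | ⟨b1, rfl, b2, b3, b4⟩ | ⟨b1, rfl, b2, b3⟩ | ⟨b1, rfl, b2, b3⟩ | ⟨b1, rfl, b2, b3⟩
  · omega
  · rw [b2] at a3
    have h11 : 11 ≤ p := by
      by_contra h11
      obtain rfl | rfl : p = 5 ∨ p = 8 := by omega
      · subst b3
        exact esp35 hF h1 h2 h3 a3 b2 (hE ▸ hH)
      · exact absurd a1 (by norm_num)
    repeat (first | exact .inl ⟨p, R, a1, b3, b4, h11, h1, h2, a5, a3, b2, hE⟩ | exact ⟨p, R, a1, b3, b4, h11, h1, h2, a5, a3, b2, hE⟩ | right)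
  · omega
  · omega
  · omega

end Cfsg.Agent.S5778
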