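import Cfsg.Statements.S5781
import Cfsg.Agent.Lib.Lin.AschSL

set_option autoImplicit false
open Cfsg

namespace Cfsg.Agent.S5781

/-- Every maximal subgroup of SL_4(q) is of one of the listed geometric types or lies in the residual class. Let F be a finite field with q elements and H a maximal subgroup of SL_4(F) (inside GL_4(F)). Then H is the intersection with SL_4(F) of one of: the stabiliser of a proper non-zero subspace; for q ≥ 7, the stabiliser of a decomposition into four independent lines; for q ≥ 4, the stabiliser of a decomposition into two independent planes; the normaliser of a degree-2 subfield of the matrix algebra; a subfield group for a subfield F₀ with |F| = |F₀|^r, r prime; for q = p ≡ 1 mod 4 prime, the normaliser of an absolutely irreducible 2-subgroup R of exponent 4 with centre of order 4, all of whose characteristic abelian subgroups are cyclic, of order 2^(2+2m) for some m (here |R| = 64), with 4 dividing p − 1; for q odd, the similarity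 group of a non-degenerate quadratic form; the similarity group of a non-degenerate symplectic form; the similarity group of a non-degenerate unitary form — or else H lies in the residual class of the linear case. -/
theorem result {F : Type*} [Field F] [Fintype F] (H : Subgroup (Matrix.GeneralLinearGroup (Fin 4) F)) (hH : Cfsg.Geo.IsMaximalIn (Cfsg.Geo.specialLinear (Fin 4) F) H) :
    (∃ W : Submodule F (Fin 4 → F), W ≠ ⊥ ∧ W ≠ ⊤ ∧ H = Cfsg.Geo.subspaceStabilizer W ⊓ Cfsg.Geo.specialLinear (Fin 4) F) ∨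
    (7 ≤ Fintype.card F ∧ ∃ D : Fin 4 → Submodule F (Fin 4 → F), Cfsg.Geo.IsMDecomposition 1 D ∧ H = Cfsg.Geo.decompositionStabilizer D ⊓ Cfsg.Geo.specialLinear (Fin 4) F) ∨
    (4 ≤ Fintype.card F ∧ ∃ D : Fin 2 → Submodule F (Fin 4 → F), Cfsg.Geo.IsMDecomposition 2 D ∧ H = Cfsg.Geo.decompositionStabilizer D ⊓ Cfsg.Geo.specialLinear (Fin 4) F) ∨
    (∃ K : Subalgebra F (Matrix (Fin 4) (Fin 4) F), Cfsg.Geo.IsFieldSubalgebra 2 K ∧ H = Cfsg.Geo.subalgebraNormalizer K ⊓ Cfsg.Geo.specialLinear (Fin 4) F) ∨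
    (∃ (F₀ : Subfield F) (r : ℕ) (P : Matrix.GeneralLinearGroup (Fin 4) F), r.Prime ∧ Fintype.card F = Nat.card F₀ ^ r ∧ H = Cfsg.Geo.subfieldSubgroup F₀ P ⊓ Cfsg.Geo.specialLinear (Fin 4) F) ∨
    (∃ (p : ℕ) (R : Subgroup (Matrix.GeneralLinearGroup (Fin 4) F)), p.Prime ∧ Fintype.card F = p ∧ p % 4 = 1 ∧ Cfsg.Geo.IsLinearSymplecticTypeData 2 R ∧ H = Cfsg.Geo.subgroupNormalizer R ⊓ Cfsg.Geo.specialLinear (Fin 4) F) ∨
    (Odd (Fintype.card F) ∧ ∃ Q : (Fin 4 → F) → F, Cfsg.Geo.IsNondegenerateQuadraticForm Q ∧ H = Cfsg.Geo.quadSimilarityGroup Q ⊓ Cfsg.Geo.specialLinear (Fin 4) F) ∨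
    (∃ f : (Fin 4 → F) → (Fin 4 → F) → F, Cfsg.Geo.IsSymplecticForm f ∧ H = Cfsg.Geo.similarityGroup f ⊓ Cfsg.Geo.specialLinear (Fin 4) F) ∨
    (∃ (σ : F ≃+* F) (f : (Fin 4 → F) → (Fin 4 → F) → F), Cfsg.Geo.IsUnitaryForm σ f ∧ H = Cfsg.Geo.similarityGroup f ⊓ Cfsg.Geo.specialLinear (Fin 4) F) ∨
    Cfsg.Geo.InLinearResidualClass H := by
  rcases CA.AschSL.max_SL (by norm_num) (by norm_num) hH with h |
    ⟨t, m, D, hc, ht, hD, h1, h2, hE⟩ | ⟨r, K, hr, hd, hK, h1, hE⟩ |
    ⟨a, b, e, P, hc, ha, hb, h1, hE⟩ | h | ⟨r, R, hR, hE⟩ | ⟨m, t, e, P, hc, hm, ht, hE⟩ |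
    ⟨h1, h⟩ | h | h | h
  · exact .inl h
  · obtain ⟨rfl, rfl⟩ | ⟨rfl, rfl⟩ : (t = 4 ∧ m = 1) ∨ (t = 2 ∧ m = 2) := by
      have hm : m ≤ 4 := by nlinarith
      clear h1 h2 hE hD
      interval_cases m <;> omega
    · repeat (first | exact .inl ⟨(h1 rfl).2 rfl, D, hD, hE⟩ | exact ⟨(h1 rfl).2 rfl, D, hD, hE⟩ | right)
    · repeat (first | exact .inl ⟨(h2 rfl).2 rfl, D, hD, hE⟩ | exact ⟨(h2 rfl).2 rfl, D, hD, hE⟩ | right)
  · obtain rfl : r = 2 := by
      have := Nat.le_of_dvd (by norm_num) hd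
      clear hK
      interval_cases r <;> first | omega | exact absurd hr (by norm_num)
    · repeat (first | exact .inl ⟨K, hK, hE⟩ | exact ⟨K, hK, hE⟩ | right)
  · exfalso
    have hm : a ≤ 4 := by nlinarith
    clear h1 hE e
    interval_cases a <;> omega
  · repeat (first | exact .inl h | exact h | right)
  · obtain ⟨p, hp, hc, h⟩ := CA.AschSL.c6_small (by norm_num) (by norm_num) hR
    rcases h with ⟨h0, rfl, h1, h2⟩ | ⟨h0, rfl, h1, h2⟩ | ⟨h0, rfl, h1, h2⟩ | ⟨h0, rfl, h1⟩ |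
      ⟨h0, rfl, h1⟩
    · repeat (first | exact .inl ⟨p, R, hp, h1, h2, hR, hE⟩ | exact ⟨p, R, hp, h1, h2, hR, hE⟩ | right)
    · omega
    · omega
    · omega
    · omega
  · exfalso
    have h3 : m ^ 2 ≤ m ^ t := Nat.pow_le_pow_right (by omega) ht
    obtain rfl : m = 3 := by nlinarith
    by_cases h : t = 2
    · subst h; omega
    · have h4 : 3 ^ 3 ≤ 3 ^ t := Nat.pow_le_pow_right (by omega) (by omega)
      omega
  · repeat (first | exact .inl h | exact h | right)
  · repeat (first | exact .inl h | exact h | right)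
  · repeat (first | exact .inl h | exact h | right)
  · repeat (first | exact .inl h | exact h | right)

end Cfsg.Agent.S5781
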