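import Cfsg.Statements.S5784
import Cfsg.Agent.Lib.Lin.NM3

set_option autoImplicit false
open Cfsg

namespace Cfsg.Agent.S5784

open CA.CForm CA.AschProp CA.AschFG CA.AschU CA.NM in
/-- Every maximal subgroup of SU_4(q) is of one of the listed geometric types or lies in the residual class. Let F be the field with q² elements, f the standard unitary form Σ u_i v_i^q on F^4, and H a maximal subgroup of SU_4(q) (inside GL_4(F)). Then H is the intersection with SU_4(q) of one of: the stabiliser of a non-zero subspace on which f vanishes; the stabiliser of a non-degenerate 1-space; for q ≠ 3, the stabiliser of a decomposition into four mutually orthogonal non-degenerate 1-spaces; for q ≥ 3, of a decomposition into two orthogonal non-degenerate 2-spaces; for q ≥ 4, of a decomposition into two totally isotropic 2-spaces; a subfield group of odd prime index whose F₀-structure carries f; a subfield group of index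 2 whose F₀-structure carries ζ f, vanishing on pairs (u, u), for some non-zero ζ with ζ + ζ^q = 0; for q odd, a subfield group of index 2 whose F₀-structure carries f; for q = p ≡ 3 mod 4 prime, the normaliser of an absolutely irreducible symplectic-type 2-group of exponent 4, order 64 and centre of order 4 inside the similarity group of f — or else H lies in the residual class of the unitary case. -/
theorem result {F : Type*} [Field F] [Fintype F] (q : ℕ) (hF : Fintype.card F = q ^ 2) (H : Subgroup (Matrix.GeneralLinearGroup (Fin 4) F)) (hH : Cfsg.Geo.IsMaximalIn (Cfsg.GU 4 F q ⊓ Cfsg.Geo.specialLinear (Fin 4) F) H) :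
    (∃ W : Submodule F (Fin 4 → F), W ≠ ⊥ ∧ Cfsg.Geo.IsTotallySingularFor (Cfsg.hermForm 4 F q) W ∧ H = Cfsg.Geo.subspaceStabilizer W ⊓ (Cfsg.GU 4 F q ⊓ Cfsg.Geo.specialLinear (Fin 4) F)) ∨
    (∃ W : Submodule F (Fin 4 → F), W ≠ ⊥ ∧ Cfsg.Geo.IsNondegenerateOn (Cfsg.hermForm 4 F q) W ∧ 2 * Module.finrank F W < 4 ∧ H = Cfsg.Geo.subspaceStabilizer W ⊓ (Cfsg.GU 4 F q ⊓ Cfsg.Geo.specialLinear (Fin 4) F)) ∨
    (q ≠ 3 ∧ ∃ D : Fin 4 → Submodule F (Fin 4 → F), Cfsg.Geo.IsNondegenerateMDecomposition (Cfsg.hermForm 4 F q) 1 D ∧ H = Cfsg.Geo.decompositionStabilizer D ⊓ (Cfsg.GU 4 F q ⊓ Cfsg.Geo.specialLinear (Fin 4) F)) ∨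
    (3 ≤ q ∧ ∃ D : Fin 2 → Submodule F (Fin 4 → F), Cfsg.Geo.IsNondegenerateMDecomposition (Cfsg.hermForm 4 F q) 2 D ∧ H = Cfsg.Geo.decompositionStabilizer D ⊓ (Cfsg.GU 4 F q ⊓ Cfsg.Geo.specialLinear (Fin 4) F)) ∨
    (4 ≤ q ∧ ∃ D : Fin 2 → Submodule F (Fin 4 → F), Cfsg.Geo.IsMDecomposition 2 D ∧ (∀ i, Cfsg.Geo.IsTotallySingularFor (Cfsg.hermForm 4 F q) (D i)) ∧ H = Cfsg.Geo.decompositionStabilizer D ⊓ (Cfsg.GU 4 F q ⊓ Cfsg.Geo.specialLinear (Fin 4) F)) ∨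
    (∃ (F₀ : Subfield F) (r : ℕ) (P : Matrix.GeneralLinearGroup (Fin 4) F), r.Prime ∧ Odd r ∧ Fintype.card F = Nat.card F₀ ^ r ∧ Cfsg.Geo.IsFormRationalStructure (Cfsg.hermForm 4 F q) F₀ 1 P ∧ H = Cfsg.Geo.subfieldSubgroup F₀ P ⊓ (Cfsg.GU 4 F q ⊓ Cfsg.Geo.specialLinear (Fin 4) F)) ∨
    (∃ (F₀ : Subfield F) (P : Matrix.GeneralLinearGroup (Fin 4) F) (ζ : F), Fintype.card F = Nat.card F₀ ^ 2 ∧ ζ ≠ 0 ∧ ζ + ζ ^ q = 0 ∧ Cfsg.Geo.IsFormRationalStructure (Cfsg.hermForm 4 F q) F₀ ζ P ∧ (∀ u : Fin 4 → F, (∀ i, u i ∈ F₀) → (Cfsg.hermForm 4 F q) (Matrix.mulVec (P : Matrix (Fin 4) (Fin 4) F) u) (Matrix.mulVec (P : Matrix (Fin 4) (Fin 4) F) u) = 0) ∧ H = Cfsg.Geo.subfieldSubgroup F₀ P ⊓ (Cfsg.GU 4 F q ⊓ Cfsg.Geo.specialLinear (Fin 4) F)) ∨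
    (Odd q ∧ ∃ (F₀ : Subfield F) (P : Matrix.GeneralLinearGroup (Fin 4) F), Fintype.card F = Nat.card F₀ ^ 2 ∧ Cfsg.Geo.IsFormRationalStructure (Cfsg.hermForm 4 F q) F₀ 1 P ∧ H = Cfsg.Geo.subfieldSubgroup F₀ P ⊓ (Cfsg.GU 4 F q ⊓ Cfsg.Geo.specialLinear (Fin 4) F)) ∨
    (∃ (p : ℕ) (R : Subgroup (Matrix.GeneralLinearGroup (Fin 4) F)), p.Prime ∧ q = p ∧ p % 4 = 3 ∧ Cfsg.Geo.IsSymplecticTypeGroup 2 R ∧ Cfsg.Geo.ActsAbsolutelyIrreducibly (Cfsg.Geo.matrixSet R) ∧ R ≤ Cfsg.Geo.similarityGroup (Cfsg.hermForm 4 F q) ∧ Nat.card R = 64 ∧ Nat.card (Subgroup.center R) = 4 ∧ H = Cfsg.Geo.subgroupNormalizer R ⊓ (Cfsg.GU 4 F q ⊓ Cfsg.Geo.specialLinear (Fin 4) F)) ∨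
    Cfsg.Geo.InUnitaryResidualClass H := by
  have hc : Fintype.card (Fin 4) = 4 := Fintype.card_fin _
  have hq2 := two_le_of_card_sq hF
  suffices hUS : US q (hermForm 4 F q) (fun M => H = M ⊓ (GU 4 F q ⊓ Geo.specialLinear (Fin 4) F)) → ?_ by
    rcases u_max hF (by omega) (by omega) (by omega) hH with h | h
    swap
    · repeat (first | exact .inl h | exact h | right)
    unfold UC at h
    rw [hc] at h
    rcases h with ⟨W, h1, h2, hE⟩ | ⟨W, h1, h2, h3, hE⟩ | ⟨t, k, D, hD, h1, hE⟩ | ⟨k, D, hD, h1, hE⟩ |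
      ⟨r, K, hr, h1, h2, hK, h3, hE⟩ | ⟨a, b, e, P, f₁, f₂, h1, h2, h3, h4, h5, h6, h7, hE⟩ |
      ⟨k, t, e, P, f₁, h1, h2, h3, h4, h5, h6, hE⟩ | h
    · exact .inl ⟨W, h1, h2, hE⟩
    · exact .inr (.inl ⟨W, h1, h2, h3, hE⟩)
    · have a1 := decomp_card hD.decomp
      have a2 := hD.decomp.two_le
      obtain ⟨rfl, rfl⟩ | ⟨rfl, rfl⟩ : (t = 4 ∧ k = 1) ∨ (t = 2 ∧ k = 2) := by
        rw [hc] at a1
        have hm : k ≤ 4 := by nlinarith
        clear * - hm a1 a2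
        interval_cases k <;> omega
      · have hq : q ≠ 3 := by
          rintro rfl
          exact frame43 hF hD (hE ▸ hH)
        repeat (first | exact .inl ⟨hq, D, hD, hE⟩ | exact ⟨hq, D, hD, hE⟩ | right)
      · repeat (first | exact .inl ⟨h1 rfl, D, hD, hE⟩ | exact ⟨h1 rfl, D, hD, hE⟩ | right)
    · obtain rfl : k = 2 := by have := decomp_card hD; omega
      have hq : 4 ≤ q := by
        by_contra hq
        obtain rfl | rfl : q = 2 ∨ q = 3 := by omega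
        · exact ti42 hF hD h1 (hE ▸ hH)
        · exact ti43 hF hD h1 (hE ▸ hH)
      repeat (first | exact .inl ⟨hq, D, hD, h1, hE⟩ | exact ⟨hq, D, hD, h1, hE⟩ | right)
    · have a1 : r ≤ 4 := Nat.le_of_dvd (by norm_num) h2
      rw [Nat.odd_iff] at h1
      exfalso
      clear * - hr h1 h2 a1
      interval_cases r <;> first | omega | exact absurd hr (by norm_num)
    · have hm : a ≤ 4 := by nlinarith
      exfalso
      clear * - hm h1 h2 h3
      interval_cases a <;> omega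
    · have := (Nat.pow_le_pow_left h2 2).trans (Nat.pow_le_pow_right (by omega) h3)
      omega
    · exact hUS h
  rintro (h | ⟨h0, h⟩ | h | ⟨r, R, p, e, k, h1, h2, h3, h4, h5, h6, h7, hE⟩)
  · repeat (first | exact .inl h | exact h | right)
  · repeat (first | exact .inl h | exact h | right)
  · repeat (first | exact .inl h | exact h | right)
  obtain ⟨a1, a2, a3, a4⟩ := c6u hF (by omega) (by omega) h1.prime h4 h5 h6 h7
  have a5 := le_sim_of_fixes h3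
  rcases a4 with ⟨b1, rfl, b2, b3, b4⟩ | ⟨b1, rfl, b2, b3, b4⟩ | ⟨b1, rfl, b2, b3⟩ | ⟨b1, rfl, b2, b3⟩ | ⟨b1, rfl, b2, b3⟩
  · rw [b2] at a3
    repeat (first | exact .inl ⟨p, R, a1, b3, b4, h1, h2, a5, a3, b2, hE⟩ | exact ⟨p, R, a1, b3, b4, h1, h2, a5, a3, b2, hE⟩ | right)
  · omega
  · omega
  · omega
  · omega

end Cfsg.Agent.S5784
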