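import Cfsg.Statements.S5786
import Cfsg.Agent.Lib.Lin.H12Sp4
import Cfsg.Agent.Lib.Lin.MaxQ2
import Cfsg.Agent.Lib.Lin.MaxR3
import Cfsg.Agent.Lib.Lin.MaxR7

set_option autoImplicit false
open Cfsg

namespace Cfsg.Agent.S5786

open CA.CForm CA.CForm.Form CA.MaxGL CA.AschFG CA.AschFG5 CA.AschFG7 CA.AschTForm CA.AschO1 CA.AschProp CA.H12Sp4 Module in
/-- Maximal subgroups of Sp_4(q) of geometric type, q odd. Let F be a finite field of odd order q, f the standard alternating form on F^4 (coordinates Fin 2 ⊕ Fin 2) and Sp_4(F) its isometry group inside GL_4(F). Each of the following, intersected with Sp_4(F), is a maximal subgroup of Sp_4(F): (1) the stabiliser of any non-zero totally isotropic subspace (totally isotropic 1-spaces and 2-spaces); (2) the stabiliser of any decomposition of F^4 into two mutually orthogonal non-degenerate 2-spaces; (3) for q ≥ 5, the stabiliser of any decomposition of F^4 into two totally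 isotropic 2-spaces; (4) the normaliser of any degree-2 subfield K of the matrix algebra whose elements are self-adjoint for f with f(k v, v) = 0 for all k in K and all v (f is the trace of an alternating form over K); (5) for q ≥ 5, the normaliser of any degree-2 subfield of the matrix algebra that is closed under adjoints but not self-adjoint (f is the trace of a multiple of a unitary form over K); (6) every subfield group for a subfield F₀ with |F| = |F₀|^r, r prime, whose F₀-structure carries a non-zero scalar multiple of f; (7) for q = p prime, the normaliser of any absolutely irreducible 2-group R of symplectic type and exponent 4, of order 32 with centre of order 2 and of minus type, consisting of isometries of f. -/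
theorem result {F : Type*} [Field F] [Fintype F] (hodd : Odd (Fintype.card F)) :
    (∀ W : Submodule F (Fin 2 ⊕ Fin 2 → F), W ≠ ⊥ → Cfsg.Geo.IsTotallySingularFor (Cfsg.sympForm 2 F) W → Cfsg.Geo.IsMaximalIn (Cfsg.spGL 2 F) (Cfsg.Geo.subspaceStabilizer W ⊓ Cfsg.spGL 2 F)) ∧
    (∀ D : Fin 2 → Submodule F (Fin 2 ⊕ Fin 2 → F), Cfsg.Geo.IsNondegenerateMDecomposition (Cfsg.sympForm 2 F) 2 D → Cfsg.Geo.IsMaximalIn (Cfsg.spGL 2 F) (Cfsg.Geo.decompositionStabilizer D ⊓ Cfsg.spGL 2 F)) ∧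
    (5 ≤ Fintype.card F → ∀ D : Fin 2 → Submodule F (Fin 2 ⊕ Fin 2 → F), Cfsg.Geo.IsMDecomposition 2 D → (∀ i, Cfsg.Geo.IsTotallySingularFor (Cfsg.sympForm 2 F) (D i)) → Cfsg.Geo.IsMaximalIn (Cfsg.spGL 2 F) (Cfsg.Geo.decompositionStabilizer D ⊓ Cfsg.spGL 2 F)) ∧
    (∀ K : Subalgebra F (Matrix (Fin 2 ⊕ Fin 2) (Fin 2 ⊕ Fin 2) F), Cfsg.Geo.IsFieldSubalgebra 2 K → Cfsg.Geo.IsSelfAdjointFor (Cfsg.sympForm 2 F) K → (∀ k ∈ K, ∀ v : (Fin 2 ⊕ Fin 2 → F), (Cfsg.sympForm 2 F) (Matrix.mulVec k v) v = 0) → Cfsg.Geo.IsMaximalIn (Cfsg.spGL 2 F) (Cfsg.Geo.subalgebraNormalizer K ⊓ Cfsg.spGL 2 F)) ∧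
    (5 ≤ Fintype.card F → ∀ K : Subalgebra F (Matrix (Fin 2 ⊕ Fin 2) (Fin 2 ⊕ Fin 2) F), Cfsg.Geo.IsFieldSubalgebra 2 K → Cfsg.Geo.IsAdjointClosedFor (Cfsg.sympForm 2 F) K → ¬ Cfsg.Geo.IsSelfAdjointFor (Cfsg.sympForm 2 F) K → Cfsg.Geo.IsMaximalIn (Cfsg.spGL 2 F) (Cfsg.Geo.subalgebraNormalizer K ⊓ Cfsg.spGL 2 F)) ∧
    (∀ (F₀ : Subfield F) (r : ℕ) (P : Matrix.GeneralLinearGroup (Fin 2 ⊕ Fin 2) F) (ζ : F), r.Prime → Fintype.card F = Nat.card F₀ ^ r → ζ ≠ 0 → Cfsg.Geo.IsFormRationalStructure (Cfsg.sympForm 2 F) F₀ ζ P → Cfsg.Geo.IsMaximalIn (Cfsg.spGL 2 F) (Cfsg.Geo.subfieldSubgroup F₀ P ⊓ Cfsg.spGL 2 F)) ∧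
    (∀ (p : ℕ) (R : Subgroup (Matrix.GeneralLinearGroup (Fin 2 ⊕ Fin 2) F)), p.Prime → Fintype.card F = p → Cfsg.Geo.IsSymplecticTypeGroup 2 R → Cfsg.Geo.ActsAbsolutelyIrreducibly (Cfsg.Geo.matrixSet R) → R ≤ Cfsg.spGL 2 F → Nat.card R = 32 → Nat.card (Subgroup.center R) = 2 → Cfsg.Geo.IsOfMinusType 2 R → Cfsg.Geo.IsMaximalIn (Cfsg.spGL 2 F) (Cfsg.Geo.subgroupNormalizer R ⊓ Cfsg.spGL 2 F)) := by
  have hφ := toSymp_nondeg (CA.AschSp.symp_std (F := F) 2)
  have h2 : (2 : F) ≠ 0 := CA.CForm.two_ne_zero_iff_odd.2 hodd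
  have h3 : 3 ≤ Fintype.card F := by
    have := Fintype.one_lt_card (α := F)
    obtain ⟨k, hk⟩ := hodd
    omega
  have : Nontrivial (Fin 2 ⊕ Fin 2) := ⟨⟨.inl 0, .inr 0, Sum.inl_ne_inr⟩⟩
  obtain ⟨ν, ν0, ν1⟩ := exists_ne_zero_ne_one (F := F) (by omega)
  refine ⟨fun W h0 hW => ?_, fun D hD => ?_, fun hq D hD ht => CA.MaxR5.pair_max h2 hq hD ht,
    fun K hK hsa ha => ?_, fun hq K hK ha hs => CA.MaxR5.ext_max h2 hq hK ha hs,
    fun F₀ r P ζ hr hc hζ hP => ?_, fun p R hp hF hR hi hle _ _ _ =>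
      CA.MaxR5.e2_max h2 (hF ▸ hp) (CA.El.e2_symp h2 hR hi) (alg_top_of_absIrr hi) hle⟩
  · rw [sp_eq]
    exact max_ts hφ (iso_symp _) (by simp) (by simp) h0
      (symp_ts_iff.2 fun u hu w hw => hW w hw u hu) fun _ _ _ _ => .inr ⟨1, one_ne_zero, rfl⟩
  · rw [sp_eq]
    have h1 := fun i => (Form.nondeg_restrict_iff _ _).2
      ((nondegOn_iff (φ := toSymp (CA.AschSp.symp_std 2))).1 (hD.nondegenerate i))
    have h := odec hφ hD fun i j => (h1 i).symp_equivalent (h1 j) (by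
      rw [hD.decomp.finrank_eq, hD.decomp.finrank_eq])
    exact max_decomp hD.decomp (sp_not_le (.inr ⟨rfl, by omega⟩) hD.decomp) fun X hX => two_max h hX
  · rw [sp_eq]
    exact symp_max_ext hφ (qs_sp' (.inr ⟨rfl, by omega⟩)) (.inr ⟨ν, ν0, ν1⟩) (by norm_num) hK hsa ha
  · rw [sp_eq]
    obtain ⟨f₀, h⟩ := hφ.exists_rat (k₀ := Kind.symp F₀) hζ one_ne_zero (fun _ => rfl) (by simp)
      (rat_of hP) (by simp [symp_Q]) (by simp) (by simp) fun w => ⟨0, Subtype.ext (by simp [symp_Q])⟩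
    refine max_of (fun hle => h.not_presR f₀.iso_symp (by simp) (by simp)
      (CA.AschFF.subfield_ne_top hr.two_le hc) fun g hg => (mem_comap_sub P).1 (hle ⟨g, hg, rfl⟩))
      fun X hX _ => ?_
    have hb := h.rbase (X := X) fun g hg hu => hX ⟨(mem_comap_sub P).2 ⟨1, one_ne_zero, by
      simpa using hu⟩, hg⟩
    exact (h.odd_four hb (by simp) h2 (subring_cases hr hc)).imp_left
      fun e g hg => (mem_comap_sub P).2 (e g hg)

end Cfsg.Agent.S5786
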