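import Cfsg.Statements.S5789
import Cfsg.Agent.Lib.Lin.H12Sp4
import Cfsg.Agent.Lib.Lin.MaxQ2

set_option autoImplicit false
open Cfsg

namespace Cfsg.Agent.S5789

open CA.CForm CA.CForm.Form CA.MaxGL CA.AschFG CA.AschFG5 CA.AschFG7 CA.AschTForm CA.AschO1 CA.AschProp CA.H12Sp4 Module


/-- Maximal subgroups of Sp_4(q) of geometric type, q ≥ 4 even. Let F be a finite field of even order q ≥ 4, f the standard alternating form on F^4 (coordinates Fin 2 ⊕ Fin 2) and Sp_4(F) its isometry group inside GL_4(F). Each of the following, intersected with Sp_4(F), is a maximal subgroup of Sp_4(F): (1) the stabiliser of any non-zero totally isotropic subspace (totally isotropic 1-spaces and 2-spaces); (2) the stabiliser of any decomposition of F^4 into two mutually orthogonal non-degenerate 2-spaces; (3) the normaliser of any degree-2 subfield K of the matrix algebra whose elements are self-adjoint for f with f(k v, v) = 0 for all k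 in K and all v; (4) every subfield group for a subfield F₀ with |F| = |F₀|^r, r prime, whose F₀-structure carries a non-zero scalar multiple of f; (5) the similarity group of any non-degenerate quadratic form whose polar form is f (either Witt type); its intersection with Sp_4(F) is the orthogonal group of that form. -/
theorem result {F : Type*} [Field F] [Fintype F] (heven : ¬ Odd (Fintype.card F)) (h4 : 4 ≤ Fintype.card F) :
    (∀ W : Submodule F (Fin 2 ⊕ Fin 2 → F), W ≠ ⊥ → Cfsg.Geo.IsTotallySingularFor (Cfsg.sympForm 2 F) W → Cfsg.Geo.IsMaximalIn (Cfsg.spGL 2 F) (Cfsg.Geo.subspaceStabilizer W ⊓ Cfsg.spGL 2 F)) ∧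
    (∀ D : Fin 2 → Submodule F (Fin 2 ⊕ Fin 2 → F), Cfsg.Geo.IsNondegenerateMDecomposition (Cfsg.sympForm 2 F) 2 D → Cfsg.Geo.IsMaximalIn (Cfsg.spGL 2 F) (Cfsg.Geo.decompositionStabilizer D ⊓ Cfsg.spGL 2 F)) ∧
    (∀ K : Subalgebra F (Matrix (Fin 2 ⊕ Fin 2) (Fin 2 ⊕ Fin 2) F), Cfsg.Geo.IsFieldSubalgebra 2 K → Cfsg.Geo.IsSelfAdjointFor (Cfsg.sympForm 2 F) K → (∀ k ∈ K, ∀ v : (Fin 2 ⊕ Fin 2 → F), (Cfsg.sympForm 2 F) (Matrix.mulVec k v) v = 0) → Cfsg.Geo.IsMaximalIn (Cfsg.spGL 2 F) (Cfsg.Geo.subalgebraNormalizer K ⊓ Cfsg.spGL 2 F)) ∧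
    (∀ (F₀ : Subfield F) (r : ℕ) (P : Matrix.GeneralLinearGroup (Fin 2 ⊕ Fin 2) F) (ζ : F), r.Prime → Fintype.card F = Nat.card F₀ ^ r → ζ ≠ 0 → Cfsg.Geo.IsFormRationalStructure (Cfsg.sympForm 2 F) F₀ ζ P → Cfsg.Geo.IsMaximalIn (Cfsg.spGL 2 F) (Cfsg.Geo.subfieldSubgroup F₀ P ⊓ Cfsg.spGL 2 F)) ∧
    (∀ Q : (Fin 2 ⊕ Fin 2 → F) → F, Cfsg.Geo.IsNondegenerateQuadraticForm Q → (∀ u v : (Fin 2 ⊕ Fin 2 → F), QuadraticMap.polar Q u v = (Cfsg.sympForm 2 F) u v) → Cfsg.Geo.IsMaximalIn (Cfsg.spGL 2 F) (Cfsg.Geo.quadSimilarityGroup Q ⊓ Cfsg.spGL 2 F)) := by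
  have hφ := toSymp_nondeg (CA.AschSp.symp_std (F := F) 2)
  have h2 : (2 : F) = 0 := by
    by_contra h'
    exact heven (CA.CForm.two_ne_zero_iff_odd.1 h')
  obtain ⟨ν, ν0, ν1⟩ := exists_ne_zero_ne_one (F := F) (by omega)
  refine ⟨fun W h0 hW => ?_, fun D hD => ?_, fun K hK hsa ha => ?_,
    fun F₀ r P ζ hr hc hζ hP => ?_, fun Q hQ hp => ?_⟩
  · rw [sp_eq]
    exact max_ts hφ (iso_symp _) (by simp) (by simp) h0
      (symp_ts_iff.2 fun u hu w hw => hW w hw u hu) fun _ _ _ _ => .inr ⟨1, one_ne_zero, rfl⟩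
  · rw [sp_eq]
    have h1 := fun i => (Form.nondeg_restrict_iff _ _).2
      ((nondegOn_iff (φ := toSymp (CA.AschSp.symp_std 2))).1 (hD.nondegenerate i))
    have h := odec hφ hD fun i j => (h1 i).symp_equivalent (h1 j) (by
      rw [hD.decomp.finrank_eq, hD.decomp.finrank_eq])
    exact max_decomp hD.decomp (sp_not_le (.inr ⟨rfl, by omega⟩) hD.decomp) fun X hX => two_max h hX
  · rw [sp_eq]
    exact symp_max_ext hφ (qs_sp' (.inr ⟨rfl, by omega⟩)) (.inr ⟨ν, ν0, ν1⟩) (by norm_num) hK hsa ha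
  · rw [sp_eq]
    obtain ⟨f₀, h⟩ := hφ.exists_rat (k₀ := Kind.symp F₀) hζ one_ne_zero (fun _ => rfl) (by simp)
      (rat_of hP) (by simp [symp_Q]) (by simp) (by simp) fun w => ⟨0, Subtype.ext (by simp [symp_Q])⟩
    refine max_of (fun hle => h.not_presR f₀.iso_symp (by simp) (by simp)
      (CA.AschFF.subfield_ne_top hr.two_le hc) fun g hg => (mem_comap_sub P).1 (hle ⟨g, hg, rfl⟩))
      fun X hX _ => ?_
    have hb := h.rbase (X := X) fun g hg hu => hX ⟨(mem_comap_sub P).2 ⟨1, one_ne_zero, by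
      simpa using hu⟩, hg⟩
    exact (rat_four h hb (by simp) h2 (subring_cases hr hc)).imp_left
      fun e g hg => (mem_comap_sub P).2 (e g hg)
  · rw [CA.AschSp.spGL_eq]
    exact CA.MaxQ2.quad_max h2 _ (by simp) hQ hp

end Cfsg.Agent.S5789
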