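import Cfsg.Statements.S5790
import Cfsg.Agent.Lib.Lin.AschSp

set_option autoImplicit false
open Cfsg

namespace Cfsg.Agent.S5790

/-- Every maximal subgroup of Sp_4(q), q ≥ 4 even, is of one of the listed geometric types or lies in the residual class. Let F be a finite field of even order q ≥ 4, f the standard alternating form on F^4 (coordinates Fin 2 ⊕ Fin 2), and H a maximal subgroup of Sp_4(F) (inside GL_4(F)). Then H is the intersection with Sp_4(F) of one of: the stabiliser of a non-zero totally isotropic subspace; the stabiliser of a decomposition into two orthogonal non-degenerate 2-spaces; the normaliser of a degree-2 subfield K of the matrix algebra, self-adjoint with f(k v, v) = 0; a subfield group whose F₀-structure carries a non-zero multiple of f, |F| = |F₀|^r with r prime; the similarity group of a non-degenerate quadratic form whose polar form is f — or else H lies in the residual class of the symplectic case. -/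
theorem result {F : Type*} [Field F] [Fintype F] (heven : ¬ Odd (Fintype.card F)) (h4 : 4 ≤ Fintype.card F) (H : Subgroup (Matrix.GeneralLinearGroup (Fin 2 ⊕ Fin 2) F)) (hH : Cfsg.Geo.IsMaximalIn (Cfsg.spGL 2 F) H) :
    (∃ W : Submodule F (Fin 2 ⊕ Fin 2 → F), W ≠ ⊥ ∧ Cfsg.Geo.IsTotallySingularFor (Cfsg.sympForm 2 F) W ∧ H = Cfsg.Geo.subspaceStabilizer W ⊓ Cfsg.spGL 2 F) ∨
    (∃ D : Fin 2 → Submodule F (Fin 2 ⊕ Fin 2 → F), Cfsg.Geo.IsNondegenerateMDecomposition (Cfsg.sympForm 2 F) 2 D ∧ H = Cfsg.Geo.decompositionStabilizer D ⊓ Cfsg.spGL 2 F) ∨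
    (∃ K : Subalgebra F (Matrix (Fin 2 ⊕ Fin 2) (Fin 2 ⊕ Fin 2) F), Cfsg.Geo.IsFieldSubalgebra 2 K ∧ Cfsg.Geo.IsSelfAdjointFor (Cfsg.sympForm 2 F) K ∧ (∀ k ∈ K, ∀ v : (Fin 2 ⊕ Fin 2 → F), (Cfsg.sympForm 2 F) (Matrix.mulVec k v) v = 0) ∧ H = Cfsg.Geo.subalgebraNormalizer K ⊓ Cfsg.spGL 2 F) ∨
    (∃ (F₀ : Subfield F) (r : ℕ) (P : Matrix.GeneralLinearGroup (Fin 2 ⊕ Fin 2) F) (ζ : F), r.Prime ∧ Fintype.card F = Nat.card F₀ ^ r ∧ ζ ≠ 0 ∧ Cfsg.Geo.IsFormRationalStructure (Cfsg.sympForm 2 F) F₀ ζ P ∧ H = Cfsg.Geo.subfieldSubgroup F₀ P ⊓ Cfsg.spGL 2 F) ∨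
    (∃ Q : (Fin 2 ⊕ Fin 2 → F) → F, Cfsg.Geo.IsNondegenerateQuadraticForm Q ∧ (∀ u v : (Fin 2 ⊕ Fin 2 → F), QuadraticMap.polar Q u v = (Cfsg.sympForm 2 F) u v) ∧ H = Cfsg.Geo.quadSimilarityGroup Q ⊓ Cfsg.spGL 2 F) ∨
    Cfsg.Geo.InSymplecticResidualClass H := by
  have hc : Fintype.card (Fin 2 ⊕ Fin 2) = 4 := by simp
  rcases CA.AschSp.sp_max_std (by norm_num) (by norm_num) (by omega) hH with (h |
    ⟨W, h1, h2, h3, h4, hE⟩ | ⟨t, k, D, hD, h1, h2, hE⟩ | ⟨h1, h2, k, D, hD, h3, hE⟩ |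
    ⟨r, K, hr, hd, hK, h1, h2, hE⟩ | ⟨h1, h2, h3⟩ |
    ⟨h0, a, b, e, P, f₁, f₂, h1, h2, h3, h4, h5, h6, h7, h8, h9, hE⟩ | h |
    ⟨R, k, h1, h2, h3, h4, h5, h6, h7, h8, h9, hE⟩ |
    ⟨h0, k, t, e, P, f₁, h1, h2, h3, h4, h5, h6, h7, hE⟩ | h) | h
  · exact .inl h
  · exfalso
    have := Submodule.finrank_eq_zero.not.2 h1
    obtain ⟨s, hs⟩ := h4
    omega
  · have h3 := CA.AschProp.decomp_card hD.decomp
    have h4 := hD.decomp.two_le
    obtain ⟨rfl, rfl⟩ : (t = 2 ∧ k = 2) := by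
      obtain ⟨s, hs⟩ := h1
      rw [hc] at h3
      have hm : k ≤ 4 := by nlinarith
      clear * - hm h3 h4 hs
      interval_cases k <;> omega
    · repeat (first | exact .inl ⟨D, hD, hE⟩ | exact ⟨D, hD, hE⟩ | right)
  · exact absurd h1 heven
  · obtain rfl : r = 2 := by
      rw [hc] at hd
      have := Nat.le_of_dvd (by norm_num) hd
      have h3 : r ≤ 2 := by omega
      clear * - hr hd h3
      interval_cases r <;> first | omega | exact absurd hr (by norm_num)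
    · repeat (first | exact .inl ⟨K, hK, h1, h2, hE⟩ | exact ⟨K, hK, h1, h2, hE⟩ | right)
  · exact absurd h1 heven
  · exfalso
    nlinarith
  · repeat (first | exact .inl h | exact h | right)
  · exact absurd h2 heven
  · exfalso
    rw [hc] at h1
    have a1 : k ^ 3 ≤ k ^ t := Nat.pow_le_pow_right (by omega) h4
    obtain rfl : k = 2 := by
      by_contra h
      have : 3 ^ 3 ≤ k ^ 3 := Nat.pow_le_pow_left (by omega) 3
      omega
    have : t < 4 := (Nat.pow_lt_pow_iff_right (a := 2) (by norm_num)).1 (by omega)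
    clear * - h1 this h4
    interval_cases t <;> simp at h1 h4
  · repeat (first | exact .inl h.2 | exact h.2 | right)
  · repeat (first | exact .inl h | exact h | right)

end Cfsg.Agent.S5790
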