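import Cfsg.Statements.S5796
import Cfsg.Agent.Lib.Lin.NM5

set_option autoImplicit false
open Cfsg

namespace Cfsg.Agent.S5796

open CA.CForm CA.AschProp CA.AschFG CA.AschU CA.NM in
/-- Every maximal subgroup of SU_5(q) is of one of the listed geometric types or lies in the residual class. Let F be the field with q² elements (characteristic p), f the standard unitary form Σ u_i v_i^q on F^5, and H a maximal subgroup of SU_5(q) (inside GL_5(F)). Then H is the intersection with SU_5(q) of one of: the stabiliser of a non-zero totally isotropic subspace; the stabiliser of a non-degenerate 1-space or 2-space; the stabiliser of a decomposition into five mutually orthogonal non-degenerate 1-spaces; for q ≥ 3, the normaliser of an adjoint-closed degree-5 subfield of the matrix algebra; a subfield group of odd prime index whose F₀-structure carries f; for q odd, a subfield group of index 2 whose F₀-structure carries f; for q = p ≡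 4 mod 5 or q = p² with p ≡ 2, 3 mod 5, the normaliser of an absolutely irreducible 5-group of exponent 5, order 125 and centre of order 5 with all characteristic abelian subgroups cyclic inside the similarity group of f — or else H lies in the residual class of the unitary case. -/
theorem result {F : Type*} [Field F] [Fintype F] (q : ℕ) (hF : Fintype.card F = q ^ 2) (H : Subgroup (Matrix.GeneralLinearGroup (Fin 5) F)) (hH : Cfsg.Geo.IsMaximalIn (Cfsg.GU 5 F q ⊓ Cfsg.Geo.specialLinear (Fin 5) F) H) :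
    (∃ W : Submodule F (Fin 5 → F), W ≠ ⊥ ∧ Cfsg.Geo.IsTotallySingularFor (Cfsg.hermForm 5 F q) W ∧ H = Cfsg.Geo.subspaceStabilizer W ⊓ (Cfsg.GU 5 F q ⊓ Cfsg.Geo.specialLinear (Fin 5) F)) ∨
    (∃ W : Submodule F (Fin 5 → F), W ≠ ⊥ ∧ Cfsg.Geo.IsNondegenerateOn (Cfsg.hermForm 5 F q) W ∧ 2 * Module.finrank F W < 5 ∧ H = Cfsg.Geo.subspaceStabilizer W ⊓ (Cfsg.GU 5 F q ⊓ Cfsg.Geo.specialLinear (Fin 5) F)) ∨
    (∃ D : Fin 5 → Submodule F (Fin 5 → F), Cfsg.Geo.IsNondegenerateMDecomposition (Cfsg.hermForm 5 F q) 1 D ∧ H = Cfsg.Geo.decompositionStabilizer D ⊓ (Cfsg.GU 5 F q ⊓ Cfsg.Geo.specialLinear (Fin 5) F)) ∨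
    (3 ≤ q ∧ ∃ K : Subalgebra F (Matrix (Fin 5) (Fin 5) F), Cfsg.Geo.IsFieldSubalgebra 5 K ∧ Cfsg.Geo.IsAdjointClosedFor (Cfsg.hermForm 5 F q) K ∧ H = Cfsg.Geo.subalgebraNormalizer K ⊓ (Cfsg.GU 5 F q ⊓ Cfsg.Geo.specialLinear (Fin 5) F)) ∨
    (∃ (F₀ : Subfield F) (r : ℕ) (P : Matrix.GeneralLinearGroup (Fin 5) F), r.Prime ∧ Odd r ∧ Fintype.card F = Nat.card F₀ ^ r ∧ Cfsg.Geo.IsFormRationalStructure (Cfsg.hermForm 5 F q) F₀ 1 P ∧ H = Cfsg.Geo.subfieldSubgroup F₀ P ⊓ (Cfsg.GU 5 F q ⊓ Cfsg.Geo.specialLinear (Fin 5) F)) ∨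
    (Odd q ∧ ∃ (F₀ : Subfield F) (P : Matrix.GeneralLinearGroup (Fin 5) F), Fintype.card F = Nat.card F₀ ^ 2 ∧ Cfsg.Geo.IsFormRationalStructure (Cfsg.hermForm 5 F q) F₀ 1 P ∧ H = Cfsg.Geo.subfieldSubgroup F₀ P ⊓ (Cfsg.GU 5 F q ⊓ Cfsg.Geo.specialLinear (Fin 5) F)) ∨
    (∃ (p : ℕ) (R : Subgroup (Matrix.GeneralLinearGroup (Fin 5) F)), p.Prime ∧ CharP F p ∧ ((q = p ∧ p % 5 = 4) ∨ (q = p ^ 2 ∧ (p % 5 = 2 ∨ p % 5 = 3))) ∧ Cfsg.Geo.IsSymplecticTypeGroup 5 R ∧ Cfsg.Geo.ActsAbsolutelyIrreducibly (Cfsg.Geo.matrixSet R) ∧ R ≤ Cfsg.Geo.similarityGroup (Cfsg.hermForm 5 F q) ∧ Nat.card R = 125 ∧ Nat.card (Subgroup.center R) = 5 ∧ H = Cfsg.Geo.subgroupNormalizer R ⊓ (Cfsg.GU 5 F q ⊓ Cfsg.Geo.specialLinear (Fin 5) F)) ∨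
    Cfsg.Geo.InUnitaryResidualClass H := by
  have hc : Fintype.card (Fin 5) = 5 := Fintype.card_fin _
  suffices hUS : US q (hermForm 5 F q) (fun M => H = M ⊓ (GU 5 F q ⊓ Geo.specialLinear (Fin 5) F)) → ?_ by
    rcases u_max hF (by omega) (by omega) (by omega) hH with h | h
    swap
    · repeat (first | exact .inl h | exact h | right)
    unfold UC at h
    rw [hc] at h
    rcases h with ⟨W, h1, h2, hE⟩ | ⟨W, h1, h2, h3, hE⟩ | ⟨t, k, D, hD, h1, hE⟩ | ⟨k, D, hD, h1, hE⟩ |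
      ⟨r, K, hr, h1, h2, hK, h3, hE⟩ | ⟨a, b, e, P, f₁, f₂, h1, h2, h3, h4, h5, h6, h7, hE⟩ |
      ⟨k, t, e, P, f₁, h1, h2, h3, h4, h5, h6, hE⟩ | h
    · exact .inl ⟨W, h1, h2, hE⟩
    · exact .inr (.inl ⟨W, h1, h2, h3, hE⟩)
    · have a1 := decomp_card hD.decomp
      have a2 := hD.decomp.two_le
      obtain ⟨rfl, rfl⟩ : (t = 5 ∧ k = 1) := by
        rw [hc] at a1
        have hm : k ≤ 5 := by nlinarith
        clear * - hm a1 a2
        interval_cases k <;> omega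
      · repeat (first | exact .inl ⟨D, hD, hE⟩ | exact ⟨D, hD, hE⟩ | right)
    · have := decomp_card hD
      omega
    · obtain rfl : r = 5 := by
        have a1 : r ≤ 5 := Nat.le_of_dvd (by norm_num) h2
        rw [Nat.odd_iff] at h1
        clear * - hr h1 h2 a1
        interval_cases r <;> first | omega | exact absurd hr (by norm_num)
      have hq : 3 ≤ q := by
        by_contra hq
        obtain rfl : q = 2 := by have := two_le_of_card_sq hF; omega
        exact singer52 hF hK h3 (hE ▸ hH)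
      repeat (first | exact .inl ⟨hq, K, hK, h3, hE⟩ | exact ⟨hq, K, hK, h3, hE⟩ | right)
    · have hm : a ≤ 5 := by nlinarith
      exfalso
      clear * - hm h1 h2 h3
      interval_cases a <;> omega
    · have := (Nat.pow_le_pow_left h2 2).trans (Nat.pow_le_pow_right (by omega) h3)
      omega
    · exact hUS h
  rintro (h | ⟨h0, h⟩ | h | ⟨r, R, p, e, k, h1, h2, h3, h4, h5, h6, h7, hE⟩)
  · repeat (first | exact .inl h | exact h | right)
  · exact absurd (hc ▸ h0) (by decide)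
  · repeat (first | exact .inl h | exact h | right)
  obtain ⟨a1, a2, a3, a4⟩ := c6u hF (by omega) (by omega) h1.prime h4 h5 h6 h7
  have a5 := le_sim_of_fixes h3
  rcases a4 with ⟨b1, rfl, b2, b3, b4⟩ | ⟨b1, rfl, b2, b3, b4⟩ | ⟨b1, rfl, b2, b3⟩ | ⟨b1, rfl, b2, b3⟩ | ⟨b1, rfl, b2, b3⟩
  · omega
  · omega
  · rw [b2] at a3
    repeat (first | exact .inl ⟨p, R, a1, a2, b3, h1, h2, a5, a3, b2, hE⟩ | exact ⟨p, R, a1, a2, b3, h1, h2, a5, a3, b2, hE⟩ | right)
  · omega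
  · omega

end Cfsg.Agent.S5796
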