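import Cfsg.Statements.S5799
import Cfsg.Agent.Lib.Lin.AschSL

set_option autoImplicit false
open Cfsg

namespace Cfsg.Agent.S5799

/-- Every maximal subgroup of SL_6(q) is of one of the listed geometric types or lies in the residual class. Let F be a finite field with q elements (p its characteristic) and H a maximal subgroup of SL_6(F) (inside GL_6(F)). Then H is the intersection with SL_6(F) of one of: the stabiliser of a proper non-zero subspace; for q ≥ 5, the stabiliser of a decomposition into 6 independent 1-spaces; for q ≥ 3, the stabiliser of a decomposition into 3 independent 2-spaces; the stabiliser of a decomposition into 2 independent 3-spaces; the normaliser of a degree-2 subfield of the matrix algebra; the normaliser of a degree-3 subfield of the matrix algebra; for q ≥ 3, the stabiliser of a tensor decomposition F^2 ⊗ F^3; a subfield group for a subfield F₀ with |F| = |F₀|^r, r prime; for q odd, the similarity group of a non-degenerate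 quadratic form; the similarity group of a non-degenerate symplectic form; the similarity group of a non-degenerate unitary form — or else H lies in the residual class of the linear case (modulo scalars H is almost simple, with absolutely irreducible perfect socle preimage realisable over no proper subfield and fixing no non-degenerate quadratic, symplectic or unitary form). -/
theorem result {F : Type*} [Field F] [Fintype F] (H : Subgroup (Matrix.GeneralLinearGroup (Fin 6) F)) (hH : Cfsg.Geo.IsMaximalIn (Cfsg.Geo.specialLinear (Fin 6) F) H) :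
    (∃ W : Submodule F (Fin 6 → F), W ≠ ⊥ ∧ W ≠ ⊤ ∧ H = Cfsg.Geo.subspaceStabilizer W ⊓ Cfsg.Geo.specialLinear (Fin 6) F) ∨
    (5 ≤ Fintype.card F ∧ ∃ D : Fin 6 → Submodule F (Fin 6 → F), Cfsg.Geo.IsMDecomposition 1 D ∧ H = Cfsg.Geo.decompositionStabilizer D ⊓ Cfsg.Geo.specialLinear (Fin 6) F) ∨
    (3 ≤ Fintype.card F ∧ ∃ D : Fin 3 → Submodule F (Fin 6 → F), Cfsg.Geo.IsMDecomposition 2 D ∧ H = Cfsg.Geo.decompositionStabilizer D ⊓ Cfsg.Geo.specialLinear (Fin 6) F) ∨
    (∃ D : Fin 2 → Submodule F (Fin 6 → F), Cfsg.Geo.IsMDecomposition 3 D ∧ H = Cfsg.Geo.decompositionStabilizer D ⊓ Cfsg.Geo.specialLinear (Fin 6) F) ∨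
    (∃ K : Subalgebra F (Matrix (Fin 6) (Fin 6) F), Cfsg.Geo.IsFieldSubalgebra 2 K ∧ H = Cfsg.Geo.subalgebraNormalizer K ⊓ Cfsg.Geo.specialLinear (Fin 6) F) ∨
    (∃ K : Subalgebra F (Matrix (Fin 6) (Fin 6) F), Cfsg.Geo.IsFieldSubalgebra 3 K ∧ H = Cfsg.Geo.subalgebraNormalizer K ⊓ Cfsg.Geo.specialLinear (Fin 6) F) ∨
    (3 ≤ Fintype.card F ∧ ∃ (e : Fin 6 ≃ Fin 2 × Fin 3) (P : Matrix.GeneralLinearGroup (Fin 6) F), H = Cfsg.Geo.tensorProductSubgroup 2 3 e P ⊓ Cfsg.Geo.specialLinear (Fin 6) F) ∨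
    (∃ (F₀ : Subfield F) (r : ℕ) (P : Matrix.GeneralLinearGroup (Fin 6) F), r.Prime ∧ Fintype.card F = Nat.card F₀ ^ r ∧ H = Cfsg.Geo.subfieldSubgroup F₀ P ⊓ Cfsg.Geo.specialLinear (Fin 6) F) ∨
    (Odd (Fintype.card F) ∧ ∃ Q : (Fin 6 → F) → F, Cfsg.Geo.IsNondegenerateQuadraticForm Q ∧ H = Cfsg.Geo.quadSimilarityGroup Q ⊓ Cfsg.Geo.specialLinear (Fin 6) F) ∨
    (∃ f : (Fin 6 → F) → (Fin 6 → F) → F, Cfsg.Geo.IsSymplecticForm f ∧ H = Cfsg.Geo.similarityGroup f ⊓ Cfsg.Geo.specialLinear (Fin 6) F) ∨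
    (∃ (σ : F ≃+* F) (f : (Fin 6 → F) → (Fin 6 → F) → F), Cfsg.Geo.IsUnitaryForm σ f ∧ H = Cfsg.Geo.similarityGroup f ⊓ Cfsg.Geo.specialLinear (Fin 6) F) ∨
    Cfsg.Geo.InLinearResidualClass H := by
  rcases CA.AschSL.max_SL (by norm_num) (by norm_num) hH with h |
    ⟨t, m, D, hc, ht, hD, h1, h2, hE⟩ | ⟨r, K, hr, hd, hK, h1, hE⟩ |
    ⟨a, b, e, P, hc, ha, hb, h1, hE⟩ | h | ⟨r, R, hR, hE⟩ | ⟨m, t, e, P, hc, hm, ht, hE⟩ |
    ⟨h1, h⟩ | h | h | h
  · exact .inl h
  · obtain ⟨rfl, rfl⟩ | ⟨rfl, rfl⟩ | ⟨rfl, rfl⟩ : (t = 6 ∧ m = 1) ∨ (t = 3 ∧ m = 2) ∨ (t = 2 ∧ m = 3) := by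
      have hm : m ≤ 6 := by nlinarith
      clear h1 h2 hE hD
      interval_cases m <;> omega
    · repeat (first | exact .inl ⟨(h1 rfl).1, D, hD, hE⟩ | exact ⟨(h1 rfl).1, D, hD, hE⟩ | right)
    · repeat (first | exact .inl ⟨(h2 rfl).1, D, hD, hE⟩ | exact ⟨(h2 rfl).1, D, hD, hE⟩ | right)
    · repeat (first | exact .inl ⟨D, hD, hE⟩ | exact ⟨D, hD, hE⟩ | right)
  · obtain rfl | rfl : r = 2 ∨ r = 3 := by
      have := Nat.le_of_dvd (by norm_num) hd
      clear hK
      interval_cases r <;> first | omega | exact absurd hr (by norm_num)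
    · repeat (first | exact .inl ⟨K, hK, hE⟩ | exact ⟨K, hK, hE⟩ | right)
    · repeat (first | exact .inl ⟨K, hK, hE⟩ | exact ⟨K, hK, hE⟩ | right)
  · obtain ⟨rfl, rfl⟩ : (a = 2 ∧ b = 3) := by
      have hm : a ≤ 6 := by nlinarith
      clear h1 hE e
      interval_cases a <;> omega
    · repeat (first | exact .inl ⟨h1 rfl, e, P, hE⟩ | exact ⟨h1 rfl, e, P, hE⟩ | right)
  · repeat (first | exact .inl h | exact h | right)
  · obtain ⟨p, hp, hc, h⟩ := CA.AschSL.c6_small (by norm_num) (by norm_num) hR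
    rcases h with ⟨h0, rfl, h1, h2⟩ | ⟨h0, rfl, h1, h2⟩ | ⟨h0, rfl, h1, h2⟩ | ⟨h0, rfl, h1⟩ |
      ⟨h0, rfl, h1⟩
    · omega
    · omega
    · omega
    · omega
    · omega
  · exfalso
    have h3 : m ^ 2 ≤ m ^ t := Nat.pow_le_pow_right (by omega) ht
    obtain rfl : m = 3 := by nlinarith
    by_cases h : t = 2
    · subst h; omega
    · have h4 : 3 ^ 3 ≤ 3 ^ t := Nat.pow_le_pow_right (by omega) (by omega)
      omega
  · repeat (first | exact .inl h | exact h | right)
  · repeat (first | exact .inl h | exact h | right)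
  · repeat (first | exact .inl h | exact h | right)
  · repeat (first | exact .inl h | exact h | right)

end Cfsg.Agent.S5799
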