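import Cfsg.Statements.S5802
import Cfsg.Agent.Lib.Lin.NM6

set_option autoImplicit false
open Cfsg

namespace Cfsg.Agent.S5802

open CA.CForm CA.AschProp CA.AschFG CA.AschU CA.NM in
/-- Every maximal subgroup of SU_6(q) is of one of the listed geometric types or lies in the residual class. Let F be the field with q² elements, f the standard unitary form Σ u_i v_i^q on F^6, and H a maximal subgroup of SU_6(q) (inside GL_6(F)). Then H is the intersection with SU_6(q) of one of: the stabiliser of a non-zero totally isotropic subspace; the stabiliser of a non-degenerate 1- or 2-space; for q ≥ 3, the stabiliser of a decomposition into six mutually orthogonal non-degenerate 1-spaces; for q ≥ 3, of a decomposition into three mutually orthogonal non-degenerate 2-spaces; of a decomposition into two orthogonal non-degenerate 3-spaces; of a decomposition into two totally isotropic 3-spaces; for q ≥ 3, the normaliser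 of an adjoint-closed degree-3 subfield of the matrix algebra; for q ≥ 3, the stabiliser of a tensor decomposition of f into unitary forms on F^2 and F^3; a subfield group of odd prime index whose F₀-structure carries f; a subfield group of index 2 and symplectic type; for q odd, a subfield group of index 2 and orthogonal type — or else H lies in the residual class of the unitary case. -/
theorem result {F : Type*} [Field F] [Fintype F] (q : ℕ) (hF : Fintype.card F = q ^ 2) (H : Subgroup (Matrix.GeneralLinearGroup (Fin 6) F)) (hH : Cfsg.Geo.IsMaximalIn (Cfsg.GU 6 F q ⊓ Cfsg.Geo.specialLinear (Fin 6) F) H) :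
    (∃ W : Submodule F (Fin 6 → F), W ≠ ⊥ ∧ Cfsg.Geo.IsTotallySingularFor (Cfsg.hermForm 6 F q) W ∧ H = Cfsg.Geo.subspaceStabilizer W ⊓ (Cfsg.GU 6 F q ⊓ Cfsg.Geo.specialLinear (Fin 6) F)) ∨
    (∃ W : Submodule F (Fin 6 → F), W ≠ ⊥ ∧ Cfsg.Geo.IsNondegenerateOn (Cfsg.hermForm 6 F q) W ∧ 2 * Module.finrank F W < 6 ∧ H = Cfsg.Geo.subspaceStabilizer W ⊓ (Cfsg.GU 6 F q ⊓ Cfsg.Geo.specialLinear (Fin 6) F)) ∨
    (3 ≤ q ∧ ∃ D : Fin 6 → Submodule F (Fin 6 → F), Cfsg.Geo.IsNondegenerateMDecomposition (Cfsg.hermForm 6 F q) 1 D ∧ H = Cfsg.Geo.decompositionStabilizer D ⊓ (Cfsg.GU 6 F q ⊓ Cfsg.Geo.specialLinear (Fin 6) F)) ∨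
    (3 ≤ q ∧ ∃ D : Fin 3 → Submodule F (Fin 6 → F), Cfsg.Geo.IsNondegenerateMDecomposition (Cfsg.hermForm 6 F q) 2 D ∧ H = Cfsg.Geo.decompositionStabilizer D ⊓ (Cfsg.GU 6 F q ⊓ Cfsg.Geo.specialLinear (Fin 6) F)) ∨
    (∃ D : Fin 2 → Submodule F (Fin 6 → F), Cfsg.Geo.IsNondegenerateMDecomposition (Cfsg.hermForm 6 F q) 3 D ∧ H = Cfsg.Geo.decompositionStabilizer D ⊓ (Cfsg.GU 6 F q ⊓ Cfsg.Geo.specialLinear (Fin 6) F)) ∨
    (∃ D : Fin 2 → Submodule F (Fin 6 → F), Cfsg.Geo.IsMDecomposition 3 D ∧ (∀ i, Cfsg.Geo.IsTotallySingularFor (Cfsg.hermForm 6 F q) (D i)) ∧ H = Cfsg.Geo.decompositionStabilizer D ⊓ (Cfsg.GU 6 F q ⊓ Cfsg.Geo.specialLinear (Fin 6) F)) ∨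
    (3 ≤ q ∧ ∃ K : Subalgebra F (Matrix (Fin 6) (Fin 6) F), Cfsg.Geo.IsFieldSubalgebra 3 K ∧ Cfsg.Geo.IsAdjointClosedFor (Cfsg.hermForm 6 F q) K ∧ H = Cfsg.Geo.subalgebraNormalizer K ⊓ (Cfsg.GU 6 F q ⊓ Cfsg.Geo.specialLinear (Fin 6) F)) ∨
    (3 ≤ q ∧ ∃ (e : Fin 6 ≃ Fin 2 × Fin 3) (P : Matrix.GeneralLinearGroup (Fin 6) F) (f₁ : (Fin 2 → F) → (Fin 2 → F) → F) (f₂ : (Fin 3 → F) → (Fin 3 → F) → F), Cfsg.Geo.IsUnitaryFormPow q f₁ ∧ Cfsg.Geo.IsUnitaryFormPow q f₂ ∧ Cfsg.Geo.IsTensorFormStructure (fun x : F => x ^ q) (Cfsg.hermForm 6 F q) f₁ f₂ e P ∧ H = Cfsg.Geo.tensorProductSubgroup 2 3 e P ⊓ (Cfsg.GU 6 F q ⊓ Cfsg.Geo.specialLinear (Fin 6) F)) ∨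
    (∃ (F₀ : Subfield F) (r : ℕ) (P : Matrix.GeneralLinearGroup (Fin 6) F), r.Prime ∧ Odd r ∧ Fintype.card F = Nat.card F₀ ^ r ∧ Cfsg.Geo.IsFormRationalStructure (Cfsg.hermForm 6 F q) F₀ 1 P ∧ H = Cfsg.Geo.subfieldSubgroup F₀ P ⊓ (Cfsg.GU 6 F q ⊓ Cfsg.Geo.specialLinear (Fin 6) F)) ∨
    (∃ (F₀ : Subfield F) (P : Matrix.GeneralLinearGroup (Fin 6) F) (ζ : F), Fintype.card F = Nat.card F₀ ^ 2 ∧ ζ ≠ 0 ∧ ζ + ζ ^ q = 0 ∧ Cfsg.Geo.IsFormRationalStructure (Cfsg.hermForm 6 F q) F₀ ζ P ∧ (∀ u : Fin 6 → F, (∀ i, u i ∈ F₀) → (Cfsg.hermForm 6 F q) (Matrix.mulVec (P : Matrix (Fin 6) (Fin 6) F) u) (Matrix.mulVec (P : Matrix (Fin 6) (Fin 6) F) u) = 0) ∧ H = Cfsg.Geo.subfieldSubgroup F₀ P ⊓ (Cfsg.GU 6 F q ⊓ Cfsg.Geo.specialLinear (Fin 6) F)) ∨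
    (Odd q ∧ ∃ (F₀ : Subfield F) (P : Matrix.GeneralLinearGroup (Fin 6) F), Fintype.card F = Nat.card F₀ ^ 2 ∧ Cfsg.Geo.IsFormRationalStructure (Cfsg.hermForm 6 F q) F₀ 1 P ∧ H = Cfsg.Geo.subfieldSubgroup F₀ P ⊓ (Cfsg.GU 6 F q ⊓ Cfsg.Geo.specialLinear (Fin 6) F)) ∨
    Cfsg.Geo.InUnitaryResidualClass H := by
  have hc : Fintype.card (Fin 6) = 6 := Fintype.card_fin _
  have hq2 := two_le_of_card_sq hF
  suffices hUS : US q (hermForm 6 F q) (fun M => H = M ⊓ (GU 6 F q ⊓ Geo.specialLinear (Fin 6) F)) → ?_ by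
    rcases u_max hF (by omega) (by omega) (by omega) hH with h | h
    swap
    · repeat (first | exact .inl h | exact h | right)
    unfold UC at h
    rw [hc] at h
    rcases h with ⟨W, h1, h2, hE⟩ | ⟨W, h1, h2, h3, hE⟩ | ⟨t, k, D, hD, h1, hE⟩ | ⟨k, D, hD, h1, hE⟩ |
      ⟨r, K, hr, h1, h2, hK, h3, hE⟩ | ⟨a, b, e, P, f₁, f₂, h1, h2, h3, h4, h5, h6, h7, hE⟩ |
      ⟨k, t, e, P, f₁, h1, h2, h3, h4, h5, h6, hE⟩ | h
    · exact .inl ⟨W, h1, h2, hE⟩
    · exact .inr (.inl ⟨W, h1, h2, h3, hE⟩)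
    · have a1 := decomp_card hD.decomp
      have a2 := hD.decomp.two_le
      obtain ⟨rfl, rfl⟩ | ⟨rfl, rfl⟩ | ⟨rfl, rfl⟩ : (t = 6 ∧ k = 1) ∨ (t = 3 ∧ k = 2) ∨ (t = 2 ∧ k = 3) := by
        rw [hc] at a1
        have hm : k ≤ 6 := by nlinarith
        clear * - hm a1 a2
        interval_cases k <;> omega
      · have hq : 3 ≤ q := by
          by_contra hq
          obtain rfl : q = 2 := by omega
          exact frame62 hF hD (hE ▸ hH)
        repeat (first | exact .inl ⟨hq, D, hD, hE⟩ | exact ⟨hq, D, hD, hE⟩ | right)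
      · repeat (first | exact .inl ⟨h1 rfl, D, hD, hE⟩ | exact ⟨h1 rfl, D, hD, hE⟩ | right)
      · repeat (first | exact .inl ⟨D, hD, hE⟩ | exact ⟨D, hD, hE⟩ | right)
    · obtain rfl : k = 3 := by have := decomp_card hD; omega
      repeat (first | exact .inl ⟨D, hD, h1, hE⟩ | exact ⟨D, hD, h1, hE⟩ | right)
    · obtain rfl : r = 3 := by
        have a1 : r ≤ 6 := Nat.le_of_dvd (by norm_num) h2
        rw [Nat.odd_iff] at h1
        clear * - hr h1 h2 a1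
        interval_cases r <;> first | omega | exact absurd hr (by norm_num)
      have hq : 3 ≤ q := by
        by_contra hq
        obtain rfl : q = 2 := by omega
        exact ext62 hF hK h3 (hE ▸ hH)
      repeat (first | exact .inl ⟨hq, K, hK, h3, hE⟩ | exact ⟨hq, K, hK, h3, hE⟩ | right)
    · obtain ⟨rfl, rfl⟩ : (a = 2 ∧ b = 3) := by
        have hm : a ≤ 6 := by nlinarith
        clear * - hm h1 h2 h3
        interval_cases a <;> omega
      · repeat (first | exact .inl ⟨h4 rfl, e, P, f₁, f₂, h5, h6, h7, hE⟩ | exact ⟨h4 rfl, e, P, f₁, f₂, h5, h6, h7, hE⟩ | right)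
    · have := (Nat.pow_le_pow_left h2 2).trans (Nat.pow_le_pow_right (by omega) h3)
      omega
    · exact hUS h
  rintro (h | ⟨h0, h⟩ | h | ⟨r, R, p, e, k, h1, h2, h3, h4, h5, h6, h7, hE⟩)
  · repeat (first | exact .inl h | exact h | right)
  · repeat (first | exact .inl h | exact h | right)
  · repeat (first | exact .inl h | exact h | right)
  obtain ⟨a1, a2, a3, a4⟩ := c6u hF (by omega) (by omega) h1.prime h4 h5 h6 h7
  omega

end Cfsg.Agent.S5802
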