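import Cfsg.Statements.S5805
import Cfsg.Agent.Lib.Lin.AschSp

set_option autoImplicit false
open Cfsg

namespace Cfsg.Agent.S5805

/-- Every maximal subgroup of Sp_6(q) is of one of the listed geometric types or lies in the residual class. Let F be a finite field with q elements, f the standard alternating form on F^6 (coordinates Fin 3 ⊕ Fin 3), and H a maximal subgroup of Sp_6(F) (inside GL_6(F)). Then H is the intersection with Sp_6(F) of one of: the stabiliser of a non-zero totally isotropic subspace; the stabiliser of a non-degenerate 2-space; for q ≥ 3, the stabiliser of a decomposition into three mutually orthogonal non-degenerate 2-spaces; for q odd, of a decomposition into two totally isotropic 3-spaces; the normaliser of a degree-3 subfield K of the matrix algebra, self-adjoint with f(k v, v) = 0; for q odd, the normaliser of a degree-2 subfield closed under adjoints but not self-adjoint;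 for q odd, q ≥ 5, the stabiliser of a tensor decomposition of f into an alternating form on F^2 and a symmetric form on F^3; a subfield group (|F| = |F₀|^r, r prime) whose F₀-structure carries a non-zero multiple of f; for q even, the similarity group of a non-degenerate quadratic form polarising to f — or else H lies in the residual class of the symplectic case. -/
theorem result {F : Type*} [Field F] [Fintype F] (H : Subgroup (Matrix.GeneralLinearGroup (Fin 3 ⊕ Fin 3) F)) (hH : Cfsg.Geo.IsMaximalIn (Cfsg.spGL 3 F) H) :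
    (∃ W : Submodule F (Fin 3 ⊕ Fin 3 → F), W ≠ ⊥ ∧ Cfsg.Geo.IsTotallySingularFor (Cfsg.sympForm 3 F) W ∧ H = Cfsg.Geo.subspaceStabilizer W ⊓ Cfsg.spGL 3 F) ∨
    (∃ W : Submodule F (Fin 3 ⊕ Fin 3 → F), W ≠ ⊥ ∧ Cfsg.Geo.IsNondegenerateOn (Cfsg.sympForm 3 F) W ∧ Module.finrank F W < 3 ∧ H = Cfsg.Geo.subspaceStabilizer W ⊓ Cfsg.spGL 3 F) ∨
    (3 ≤ Fintype.card F ∧ ∃ D : Fin 3 → Submodule F (Fin 3 ⊕ Fin 3 → F), Cfsg.Geo.IsNondegenerateMDecomposition (Cfsg.sympForm 3 F) 2 D ∧ H = Cfsg.Geo.decompositionStabilizer D ⊓ Cfsg.spGL 3 F) ∨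
    (Odd (Fintype.card F) ∧ ∃ D : Fin 2 → Submodule F (Fin 3 ⊕ Fin 3 → F), Cfsg.Geo.IsMDecomposition 3 D ∧ (∀ i, Cfsg.Geo.IsTotallySingularFor (Cfsg.sympForm 3 F) (D i)) ∧ H = Cfsg.Geo.decompositionStabilizer D ⊓ Cfsg.spGL 3 F) ∨
    (∃ K : Subalgebra F (Matrix (Fin 3 ⊕ Fin 3) (Fin 3 ⊕ Fin 3) F), Cfsg.Geo.IsFieldSubalgebra 3 K ∧ Cfsg.Geo.IsSelfAdjointFor (Cfsg.sympForm 3 F) K ∧ (∀ k ∈ K, ∀ v : (Fin 3 ⊕ Fin 3 → F), (Cfsg.sympForm 3 F) (Matrix.mulVec k v) v = 0) ∧ H = Cfsg.Geo.subalgebraNormalizer K ⊓ Cfsg.spGL 3 F) ∨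
    (Odd (Fintype.card F) ∧ ∃ K : Subalgebra F (Matrix (Fin 3 ⊕ Fin 3) (Fin 3 ⊕ Fin 3) F), Cfsg.Geo.IsFieldSubalgebra 2 K ∧ Cfsg.Geo.IsAdjointClosedFor (Cfsg.sympForm 3 F) K ∧ ¬ Cfsg.Geo.IsSelfAdjointFor (Cfsg.sympForm 3 F) K ∧ H = Cfsg.Geo.subalgebraNormalizer K ⊓ Cfsg.spGL 3 F) ∨
    (Odd (Fintype.card F) ∧ 5 ≤ Fintype.card F ∧ ∃ (e : (Fin 3 ⊕ Fin 3) ≃ Fin 2 × Fin 3) (P : Matrix.GeneralLinearGroup (Fin 3 ⊕ Fin 3) F) (f₁ : (Fin 2 → F) → (Fin 2 → F) → F) (f₂ : (Fin 3 → F) → (Fin 3 → F) → F), Cfsg.Geo.IsSymplecticForm f₁ ∧ Cfsg.Geo.IsSymmetricForm f₂ ∧ Cfsg.Geo.IsTensorFormStructure id (Cfsg.sympForm 3 F) f₁ f₂ e P ∧ H = Cfsg.Geo.tensorProductSubgroup 2 3 e P ⊓ Cfsg.spGL 3 F) ∨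
    (∃ (F₀ : Subfield F) (r : ℕ) (P : Matrix.GeneralLinearGroup (Fin 3 ⊕ Fin 3) F) (ζ : F), r.Prime ∧ Fintype.card F = Nat.card F₀ ^ r ∧ ζ ≠ 0 ∧ Cfsg.Geo.IsFormRationalStructure (Cfsg.sympForm 3 F) F₀ ζ P ∧ H = Cfsg.Geo.subfieldSubgroup F₀ P ⊓ Cfsg.spGL 3 F) ∨
    (¬ Odd (Fintype.card F) ∧ ∃ Q : (Fin 3 ⊕ Fin 3 → F) → F, Cfsg.Geo.IsNondegenerateQuadraticForm Q ∧ (∀ u v : (Fin 3 ⊕ Fin 3 → F), QuadraticMap.polar Q u v = (Cfsg.sympForm 3 F) u v) ∧ H = Cfsg.Geo.quadSimilarityGroup Q ⊓ Cfsg.spGL 3 F) ∨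
    Cfsg.Geo.InSymplecticResidualClass H := by
  have hc : Fintype.card (Fin 3 ⊕ Fin 3) = 6 := by simp
  rcases CA.AschSp.sp_max_std (by norm_num) (by norm_num) (by omega) hH with (h |
    ⟨W, h1, h2, h3, h4, hE⟩ | ⟨t, k, D, hD, h1, h2, hE⟩ | ⟨h1, h2, k, D, hD, h3, hE⟩ |
    ⟨r, K, hr, hd, hK, h1, h2, hE⟩ | ⟨h1, h2, h3⟩ |
    ⟨h0, a, b, e, P, f₁, f₂, h1, h2, h3, h4, h5, h6, h7, h8, h9, hE⟩ | h |
    ⟨R, k, h1, h2, h3, h4, h5, h6, h7, h8, h9, hE⟩ |
    ⟨h0, k, t, e, P, f₁, h1, h2, h3, h4, h5, h6, h7, hE⟩ | h) | h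
  · exact .inl h
  · exact .inr (.inl ⟨W, h1, h2, by omega, hE⟩)
  · have h3 := CA.AschProp.decomp_card hD.decomp
    have h4 := hD.decomp.two_le
    obtain ⟨rfl, rfl⟩ : (t = 3 ∧ k = 2) := by
      obtain ⟨s, hs⟩ := h1
      rw [hc] at h3
      have hm : k ≤ 6 := by nlinarith
      clear * - hm h3 h4 hs
      interval_cases k <;> omega
    · repeat (first | exact .inl ⟨h2 rfl, D, hD, hE⟩ | exact ⟨h2 rfl, D, hD, hE⟩ | right)
  · obtain rfl : k = 3 := by have := CA.AschProp.decomp_card hD; omega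
    repeat (first | exact .inl ⟨h1, D, hD, h3, hE⟩ | exact ⟨h1, D, hD, h3, hE⟩ | right)
  · obtain rfl : r = 3 := by
      rw [hc] at hd
      have := Nat.le_of_dvd (by norm_num) hd
      have h3 : r ≤ 3 := by omega
      clear * - hr hd h3
      interval_cases r <;> first | omega | exact absurd hr (by norm_num)
    · repeat (first | exact .inl ⟨K, hK, h1, h2, hE⟩ | exact ⟨K, hK, h1, h2, hE⟩ | right)
  · repeat (first | exact .inl ⟨h1, h3⟩ | exact ⟨h1, h3⟩ | right)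
  · obtain ⟨rfl, rfl⟩ : (a = 2 ∧ b = 3) := by
      obtain ⟨s, hs⟩ := h3
      rw [hc] at h1
      have hm : a ≤ 6 := by nlinarith
      clear * - hm h1 h2 h4 hs
      interval_cases a <;> omega
    · repeat (first | exact .inl ⟨h0, h5 rfl, e, P, f₁, f₂, h7, h8, h9, hE⟩ | exact ⟨h0, h5 rfl, e, P, f₁, f₂, h7, h8, h9, hE⟩ | right)
  · repeat (first | exact .inl h | exact h | right)
  · exfalso
    rw [hc] at h3
    have : k < 4 := (Nat.pow_lt_pow_iff_right (a := 2) (by norm_num)).1 (by omega)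
    clear * - h3 this
    interval_cases k <;> omega
  · exfalso
    rw [hc] at h1
    have a1 : k ^ 3 ≤ k ^ t := Nat.pow_le_pow_right (by omega) h4
    obtain rfl : k = 2 := by
      by_contra h
      have : 3 ^ 3 ≤ k ^ 3 := Nat.pow_le_pow_left (by omega) 3
      omega
    have : t < 4 := (Nat.pow_lt_pow_iff_right (a := 2) (by norm_num)).1 (by omega)
    clear * - h1 this
    interval_cases t <;> omega
  · repeat (first | exact .inl h | exact h | right)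
  · repeat (first | exact .inl h | exact h | right)

end Cfsg.Agent.S5805
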