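import Cfsg.Statements.S5808
import Cfsg.Agent.Lib.Lin.AschSL

set_option autoImplicit false
open Cfsg

namespace Cfsg.Agent.S5808

/-- Every maximal subgroup of SL_7(q) is of one of the listed geometric types or lies in the residual class. Let F be a finite field with q elements (p its characteristic) and H a maximal subgroup of SL_7(F) (inside GL_7(F)). Then H is the intersection with SL_7(F) of one of: the stabiliser of a proper non-zero subspace; for q ≥ 5, the stabiliser of a decomposition into 7 independent 1-spaces; the normaliser of a degree-7 subfield of the matrix algebra; a subfield group for a subfield F₀ with |F| = |F₀|^r, r prime; for q = p prime with p ≡ 1 mod 7, or q = p³ with p ≡ 2 or 4 mod 7, the normaliser of an absolutely irreducible 7-subgroup R of exponent 7 and order 7^(1+2m) with centre of order 7, all of whose characteristic abelian subgroups are cyclic, F being the smallest field of characteristic p containing the seventh roots of unity (here R is extraspecial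 of order 343); for q odd, the similarity group of a non-degenerate quadratic form; the similarity group of a non-degenerate unitary form — or else H lies in the residual class of the linear case (modulo scalars H is almost simple, with absolutely irreducible perfect socle preimage realisable over no proper subfield and fixing no non-degenerate quadratic, symplectic or unitary form). -/
theorem result {F : Type*} [Field F] [Fintype F] (H : Subgroup (Matrix.GeneralLinearGroup (Fin 7) F)) (hH : Cfsg.Geo.IsMaximalIn (Cfsg.Geo.specialLinear (Fin 7) F) H) :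
    (∃ W : Submodule F (Fin 7 → F), W ≠ ⊥ ∧ W ≠ ⊤ ∧ H = Cfsg.Geo.subspaceStabilizer W ⊓ Cfsg.Geo.specialLinear (Fin 7) F) ∨
    (5 ≤ Fintype.card F ∧ ∃ D : Fin 7 → Submodule F (Fin 7 → F), Cfsg.Geo.IsMDecomposition 1 D ∧ H = Cfsg.Geo.decompositionStabilizer D ⊓ Cfsg.Geo.specialLinear (Fin 7) F) ∨
    (∃ K : Subalgebra F (Matrix (Fin 7) (Fin 7) F), Cfsg.Geo.IsFieldSubalgebra 7 K ∧ H = Cfsg.Geo.subalgebraNormalizer K ⊓ Cfsg.Geo.specialLinear (Fin 7) F) ∨
    (∃ (F₀ : Subfield F) (r : ℕ) (P : Matrix.GeneralLinearGroup (Fin 7) F), r.Prime ∧ Fintype.card F = Nat.card F₀ ^ r ∧ H = Cfsg.Geo.subfieldSubgroup F₀ P ⊓ Cfsg.Geo.specialLinear (Fin 7) F) ∨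
    ((∃ p : ℕ, p.Prime ∧ CharP F p ∧ ((Fintype.card F = p ∧ p % 7 = 1) ∨ (Fintype.card F = p ^ 3 ∧ (p % 7 = 2 ∨ p % 7 = 4)))) ∧ ∃ R : Subgroup (Matrix.GeneralLinearGroup (Fin 7) F), Cfsg.Geo.IsLinearSymplecticTypeData 7 R ∧ H = Cfsg.Geo.subgroupNormalizer R ⊓ Cfsg.Geo.specialLinear (Fin 7) F) ∨
    (Odd (Fintype.card F) ∧ ∃ Q : (Fin 7 → F) → F, Cfsg.Geo.IsNondegenerateQuadraticForm Q ∧ H = Cfsg.Geo.quadSimilarityGroup Q ⊓ Cfsg.Geo.specialLinear (Fin 7) F) ∨
    (∃ (σ : F ≃+* F) (f : (Fin 7 → F) → (Fin 7 → F) → F), Cfsg.Geo.IsUnitaryForm σ f ∧ H = Cfsg.Geo.similarityGroup f ⊓ Cfsg.Geo.specialLinear (Fin 7) F) ∨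
    Cfsg.Geo.InLinearResidualClass H := by
  rcases CA.AschSL.max_SL (by norm_num) (by norm_num) hH with h |
    ⟨t, m, D, hc, ht, hD, h1, h2, hE⟩ | ⟨r, K, hr, hd, hK, h1, hE⟩ |
    ⟨a, b, e, P, hc, ha, hb, h1, hE⟩ | h | ⟨r, R, hR, hE⟩ | ⟨m, t, e, P, hc, hm, ht, hE⟩ |
    ⟨h1, h⟩ | h | h | h
  · exact .inl h
  · obtain ⟨rfl, rfl⟩ : (t = 7 ∧ m = 1) := by
      have hm : m ≤ 7 := by nlinarith
      clear h1 h2 hE hD
      interval_cases m <;> omega
    · repeat (first | exact .inl ⟨(h1 rfl).1, D, hD, hE⟩ | exact ⟨(h1 rfl).1, D, hD, hE⟩ | right)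
  · obtain rfl : r = 7 := by
      have := Nat.le_of_dvd (by norm_num) hd
      clear hK
      interval_cases r <;> first | omega | exact absurd hr (by norm_num)
    · repeat (first | exact .inl ⟨K, hK, hE⟩ | exact ⟨K, hK, hE⟩ | right)
  · exfalso
    have hm : a ≤ 7 := by nlinarith
    clear h1 hE e
    interval_cases a <;> omega
  · repeat (first | exact .inl h | exact h | right)
  · obtain ⟨p, hp, hc, h⟩ := CA.AschSL.c6_small (by norm_num) (by norm_num) hR
    rcases h with ⟨h0, rfl, h1, h2⟩ | ⟨h0, rfl, h1, h2⟩ | ⟨h0, rfl, h1, h2⟩ | ⟨h0, rfl, h1⟩ |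
      ⟨h0, rfl, h1⟩
    · omega
    · omega
    · omega
    · repeat (first | exact .inl ⟨⟨p, hp, hc, h1⟩, R, hR, hE⟩ | exact ⟨⟨p, hp, hc, h1⟩, R, hR, hE⟩ | right)
    · omega
  · exfalso
    have h3 : m ^ 2 ≤ m ^ t := Nat.pow_le_pow_right (by omega) ht
    obtain rfl : m = 3 := by nlinarith
    by_cases h : t = 2
    · subst h; omega
    · have h4 : 3 ^ 3 ≤ 3 ^ t := Nat.pow_le_pow_right (by omega) (by omega)
      omega
  · exact absurd h1 (by decide)
  · repeat (first | exact .inl h | exact h | right)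
  · repeat (first | exact .inl h | exact h | right)
  · repeat (first | exact .inl h | exact h | right)

end Cfsg.Agent.S5808
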