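import Cfsg.Statements.S5813
import Cfsg.Agent.Lib.Lin.MaxF6
import Cfsg.Agent.Lib.Lin.MaxF7
import Cfsg.Agent.Lib.Lin.MaxGL4

set_option autoImplicit false
open Cfsg

namespace Cfsg.Agent.S5813

open CA.CForm CA.CForm.Form CA.MaxGL CA.AschFG CA.AschFG7 CA.AschTForm CA.AschO1 CA.AschProp Module in
/-- Maximal subgroups of Ω_7(q) of geometric type, q odd. Let F be a finite field of odd order q, Q the standard quadratic form x₀² + Σ x_i y_i on F^7 (coordinates Unit ⊕ (Fin 3 ⊕ Fin 3)), and Ω = Ω_7(q) the commutator subgroup of its isometry group, inside GL_7(F). Each of the following, intersected with Ω, is a maximal subgroup of Ω: (1) the stabiliser of any non-zero subspace on which Q vanishes identically (totally singular 1-, 2- and 3-spaces); (2) the stabiliser of any non-zero even-dimensional subspace W on which the polar form of Q is non-degenerate (equivalently of its odd-dimensional orthogonal complement), except when q = 3 and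 W is a 2-space containing a non-zero singular vector (a plus-type plane); (3) for q = p prime, the stabiliser of any decomposition of F^7 into seven pairwise orthogonal, pairwise Q-isometric non-degenerate 1-spaces; (4) every subfield group for a subfield F₀ with |F| = |F₀|^r, r prime, whose F₀-structure carries Q. -/
theorem result {F : Type*} [Field F] [Fintype F] (hodd : Odd (Fintype.card F)) :
    (∀ W : Submodule F (Unit ⊕ (Fin 3 ⊕ Fin 3) → F), W ≠ ⊥ → Cfsg.Geo.IsTotallySingularQuad (Cfsg.quadFormOdd 3 F) W → Cfsg.Geo.IsMaximalIn (Cfsg.Geo.omegaGL (Cfsg.quadFormOdd 3 F)) (Cfsg.Geo.subspaceStabilizer W ⊓ Cfsg.Geo.omegaGL (Cfsg.quadFormOdd 3 F))) ∧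
    (∀ W : Submodule F (Unit ⊕ (Fin 3 ⊕ Fin 3) → F), W ≠ ⊥ → Even (Module.finrank F W) → Cfsg.Geo.IsNondegenerateOn (QuadraticMap.polar (Cfsg.quadFormOdd 3 F)) W → ¬ (Fintype.card F = 3 ∧ Module.finrank F W = 2 ∧ Cfsg.Geo.IsPlusTypeOn (Cfsg.quadFormOdd 3 F) W) → Cfsg.Geo.IsMaximalIn (Cfsg.Geo.omegaGL (Cfsg.quadFormOdd 3 F)) (Cfsg.Geo.subspaceStabilizer W ⊓ Cfsg.Geo.omegaGL (Cfsg.quadFormOdd 3 F))) ∧
    ((Fintype.card F).Prime → ∀ D : Fin 7 → Submodule F (Unit ⊕ (Fin 3 ⊕ Fin 3) → F), Cfsg.Geo.IsOrthogonalMDecomposition (Cfsg.quadFormOdd 3 F) 1 D → Cfsg.Geo.IsMaximalIn (Cfsg.Geo.omegaGL (Cfsg.quadFormOdd 3 F)) (Cfsg.Geo.decompositionStabilizer D ⊓ Cfsg.Geo.omegaGL (Cfsg.quadFormOdd 3 F))) ∧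
    (∀ (F₀ : Subfield F) (r : ℕ) (P : Matrix.GeneralLinearGroup (Unit ⊕ (Fin 3 ⊕ Fin 3)) F), r.Prime → Fintype.card F = Nat.card F₀ ^ r → Cfsg.Geo.IsQuadFormRationalStructure (Cfsg.quadFormOdd 3 F) F₀ P → Cfsg.Geo.IsMaximalIn (Cfsg.Geo.omegaGL (Cfsg.quadFormOdd 3 F)) (Cfsg.Geo.subfieldSubgroup F₀ P ⊓ Cfsg.Geo.omegaGL (Cfsg.quadFormOdd 3 F))) := by
  have h2 : (2 : F) ≠ 0 := two_ne_zero_iff_odd.2 hodd
  have hφ := oddForm_nondeg h2 3
  refine ⟨fun W hW0 hW => orth_max_ts hφ (by simp) hW0 hW fun h => by simp at h; omega,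
    fun W hW0 hev hW hex => ?_, fun hp D hD => ?_, fun F₀ r P hr hcard hP => ?_⟩
  · obtain ⟨r, hr⟩ := hev
    obtain ⟨s, hs⟩ := hodd
    have := Fintype.one_lt_card (α := F)
    have hW' : Disjoint W ((oddForm F 3).perp W) := nondegOn_iff.1 (polar_fn (oddForm F 3) ▸ hW)
    have e := hφ.finrank_perp W
    refine orth_max_nondeg_odd hφ (by simp) ⟨3, by simp⟩ hW0 (fun e => ?_) hW
      (orth_irrI hW' fun ⟨a, b, c⟩ => hex ⟨by omega, b, c⟩)
      (orth_irrI (hφ.disjoint_perp_perp hW') fun ⟨a, b, c⟩ => ?_)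
    · rw [e] at hr
      simp at hr
      omega
    · simp at e
      omega
  · rw [← oddForm_Q] at hD ⊢
    exact orth_max_frame hφ h2 hp (by simp) ⟨3, by simp⟩ hD
  · rw [← oddForm_Q] at hP ⊢
    rw [omega_eq hφ (by simp)]
    exact orth_max_sub hφ (by simp) hr hcard one_ne_zero fun u hu => by simpa using hP u hu

end Cfsg.Agent.S5813
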