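import Cfsg.Statements.S5826
import Cfsg.Agent.Lib.Lin.AschO4

set_option autoImplicit false
open Cfsg

namespace Cfsg.Agent.S5826

open CA.CForm CA.AschTForm CA.AschProp CA.AschO1 CA.AschO CA.AschO4 in

/-- Every maximal subgroup of Ω_8^-(q) is of one of the listed geometric types or lies in the residual class. Let F be a finite field with q elements, Q a non-degenerate quadratic form on F^8 of minus type (no totally singular 4-space), Ω the commutator subgroup of its isometry group, and H a maximal subgroup of Ω (inside GL_8(F)). Then H is the intersection with Ω of one of: the stabiliser of a non-zero totally singular subspace; for q odd, the stabiliser of a non-degenerate subspace of odd dimension; the stabiliser of a non-degenerate 2-space of minus type; for q ≥ 4, the stabiliser of a non-degenerate 2-space of plus type; the stabiliser of a non-degenerate 4-space; for q even, the stabiliser of the span of a non-singular vector;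 the normaliser of a degree-2 subfield of the matrix algebra; a subfield group of odd prime index whose F₀-structure carries a non-zero multiple of Q — or else H lies in the residual class of the orthogonal case (modulo scalars H is almost simple, with absolutely irreducible perfect socle preimage realisable over no proper subfield and fixing no non-degenerate unitary form). -/
theorem result {F : Type*} [Field F] [Fintype F] (Q : (Fin 8 → F) → F) (hQ : Cfsg.Geo.IsNondegenerateQuadraticForm Q) (hminus : ¬ Cfsg.Geo.IsPlusTypeOn Q ⊤) (H : Subgroup (Matrix.GeneralLinearGroup (Fin 8) F)) (hH : Cfsg.Geo.IsMaximalIn (Cfsg.Geo.omegaGL Q) H) :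
    (∃ W : Submodule F (Fin 8 → F), W ≠ ⊥ ∧ Cfsg.Geo.IsTotallySingularQuad Q W ∧ H = Cfsg.Geo.subspaceStabilizer W ⊓ Cfsg.Geo.omegaGL Q) ∨
    (Odd (Fintype.card F) ∧ ∃ W : Submodule F (Fin 8 → F), W ≠ ⊥ ∧ W ≠ ⊤ ∧ Odd (Module.finrank F W) ∧ Cfsg.Geo.IsNondegenerateOn (QuadraticMap.polar Q) W ∧ H = Cfsg.Geo.subspaceStabilizer W ⊓ Cfsg.Geo.omegaGL Q) ∨
    (∃ W : Submodule F (Fin 8 → F), Module.finrank F W = 2 ∧ Cfsg.Geo.IsNondegenerateOn (QuadraticMap.polar Q) W ∧ ¬ Cfsg.Geo.IsPlusTypeOn Q W ∧ H = Cfsg.Geo.subspaceStabilizer W ⊓ Cfsg.Geo.omegaGL Q) ∨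
    (4 ≤ Fintype.card F ∧ ∃ W : Submodule F (Fin 8 → F), Module.finrank F W = 2 ∧ Cfsg.Geo.IsNondegenerateOn (QuadraticMap.polar Q) W ∧ Cfsg.Geo.IsPlusTypeOn Q W ∧ H = Cfsg.Geo.subspaceStabilizer W ⊓ Cfsg.Geo.omegaGL Q) ∨
    (∃ W : Submodule F (Fin 8 → F), Module.finrank F W = 4 ∧ Cfsg.Geo.IsNondegenerateOn (QuadraticMap.polar Q) W ∧ H = Cfsg.Geo.subspaceStabilizer W ⊓ Cfsg.Geo.omegaGL Q) ∨
    (¬ Odd (Fintype.card F) ∧ ∃ v : (Fin 8 → F), Q v ≠ 0 ∧ H = Cfsg.Geo.subspaceStabilizer (Submodule.span F {v}) ⊓ Cfsg.Geo.omegaGL Q) ∨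
    (∃ K : Subalgebra F (Matrix (Fin 8) (Fin 8) F), Cfsg.Geo.IsFieldSubalgebra 2 K ∧ H = Cfsg.Geo.subalgebraNormalizer K ⊓ Cfsg.Geo.omegaGL Q) ∨
    (∃ (F₀ : Subfield F) (r : ℕ) (P : Matrix.GeneralLinearGroup (Fin 8) F) (ζ : F), r.Prime ∧ Odd r ∧ Fintype.card F = Nat.card F₀ ^ r ∧ ζ ≠ 0 ∧ Cfsg.Geo.IsQuadFormRationalStructure (fun v : Fin 8 → F => ζ * Q v) F₀ P ∧ H = Cfsg.Geo.subfieldSubgroup F₀ P ⊓ Cfsg.Geo.omegaGL Q) ∨
    Cfsg.Geo.InOrthogonalResidualClass H := by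
  obtain ⟨φ, hφ, rfl⟩ : ∃ φ : Form (Kind.orth F) (Fin 8 → F), φ.Nondeg ∧ φ.Q = Q :=
    ⟨toOrth hQ, toOrth_nondeg hQ, rfl⟩
  have hp : ¬ Pl φ := mt plus_top.2 hminus
  have hc : Fintype.card (Fin 8) = 8 := Fintype.card_fin _
  rcases o_max hφ (by omega) (by omega) (fun _ => hp) hH with h | h
  swap
  · repeat (first | exact .inl h | exact h | right)
  unfold OC at h
  rw [hc] at h
  rcases h with ⟨W, h1, h2, h3, hE⟩ | ⟨W, h1, h2, h3, h4, hE, -, hE'⟩ | ⟨h1, h⟩ |
    ⟨t, k, D, hD, h1, h2, h3, h4, hE⟩ | ⟨k, D, hD, h1, h2, h3, hE⟩ |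
    ⟨r, K, hr, h1, h2, h3, h4, hK, h5, hE⟩ | ⟨m, K, h1, h2, hK, h3, h4, h5, hE⟩ |
    ⟨h0, a, b, e, P, f₁, f₂, h1, h2, h3, h4, h5, h6, h7, h8, hE⟩ |
    ⟨h0, h0', b, e, P, f₁, f₂, h1, h2, h3, h4, h5, h6, hE⟩ | ⟨F₀, r, P, ζ, hr, h1, h2, h3, hE⟩ |
    ⟨k, t, e, P, f₁, h1, h2, h3, -⟩
  · exact .inl ⟨W, h1, h2, hE⟩
  · have a1 : Module.finrank F W ≠ 0 := mt Submodule.finrank_eq_zero.1 h1
    have a2 := nd_of h2
    by_cases ho : Odd (Module.finrank F W) ∧ 2 * Module.finrank F W ≠ 8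
    · exact .inr (.inl ⟨odd_of h2 ho.1, W, h1, ne_top_of (by omega), ho.1, a2, hE⟩)
    rw [Nat.odd_iff] at ho
    by_cases d2 : Module.finrank F W = 2
    · by_cases hw : Geo.IsPlusTypeOn φ.Q W
      · exact .inr (.inr (.inr (.inl ⟨h4 d2 hw, W, d2, a2, hw, hE⟩)))
      · exact .inr (.inr (.inl ⟨W, d2, a2, hw, hE⟩))
    · exact .inr (.inr (.inr (.inr (.inl ⟨W, by omega, a2, hE⟩))))
  · have h2 : ¬ Odd (Fintype.card F) := fun h => two_ne_zero_iff_odd.2 h h1
    repeat (first | exact .inl ⟨h2, h⟩ | exact ⟨h2, h⟩ | right)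
  · have a1 := decomp_card hD.decomp.decomp
    have a2 := hD.decomp.decomp.two_le
    obtain ⟨rfl, rfl⟩ | ⟨rfl, rfl⟩ | ⟨rfl, rfl⟩ : (t = 8 ∧ k = 1) ∨ (t = 4 ∧ k = 2) ∨ (t = 2 ∧ k = 4) := by
      rw [hc] at a1
      have hm : k ≤ 8 := by nlinarith
      clear * - hm a1 a2
      interval_cases k <;> omega
    · exact absurd (pl_of_decomp hφ hD (by decide) (by rw [hc]; decide)) hp
    · exact absurd (pl_of_decomp hφ hD (by decide) (by rw [hc]; decide)) hp
    · exact absurd (pl_of_decomp hφ hD (by decide) (by rw [hc]; decide)) hp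
  · exact absurd h3 hp
  · obtain rfl : r = 2 := by
      have a1 : r ≤ 8 := Nat.le_of_dvd (by norm_num) h1
      clear * - hr h1 h3 a1
      interval_cases r <;> first | omega | exact absurd hr (by norm_num)
    · repeat (first | exact .inl ⟨K, hK, hE⟩ | exact ⟨K, hK, hE⟩ | right)
  · repeat (first | exact .inl ⟨K, hK, hE⟩ | exact ⟨K, hK, hE⟩ | right)
  · have := Nat.mul_le_mul h2 (show 4 ≤ b by omega)
    omega
  · exact absurd h0' hp
  · have b1 := odd_index hφ (by rw [hc]; decide) hp hr h1 h2 h3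
    repeat (first | exact .inl ⟨F₀, r, P, ζ, hr, b1, h1, h2, h3, hE⟩ | exact ⟨F₀, r, P, ζ, hr, b1, h1, h2, h3, hE⟩ | right)
  · have a1 : t = 2 := by
      by_contra c
      have := (Nat.pow_le_pow_right (by norm_num) (show 3 ≤ t by omega)).trans
        (Nat.pow_le_pow_left h2 t)
      omega
    subst a1
    have a2 : k = 3 := by
      by_contra c
      have := Nat.pow_le_pow_left (show 4 ≤ k by omega) 2
      omega
    subst a2
    omega

end Cfsg.Agent.S5826
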