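import Cfsg.Statements.S5876
import Cfsg.Agent.Lib.Lin.AschWed
import Cfsg.Agent.Lib.Grp.Fitting
import Cfsg.Agent.Lib.Grp.PGBasic

set_option autoImplicit false
open Cfsg

namespace Cfsg.Agent.S5876

open Subgroup Matrix CA.AschBase CA.AschWed
open scoped commutatorElement

theorem grp {X : Type*} [Group X] [Finite X] {x : X} (hx : x ∈ fittingSubgroup X) (h1 : x ≠ 1) :
    ∃ A : Subgroup X, A.Normal ∧ (∀ a ∈ A, ∀ b ∈ A, a * b = b * a) ∧ (x ∈ A ∨ ∃ h, ⁅x, h⁆ ∈ A ∧ ⁅x, h⁆ ≠ 1) := by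
  set F := fittingSubgroup X
  obtain ⟨A, ⟨hA, hAF, hc⟩, hmax⟩ := exists_maximal_of_wellFoundedGT (fun A : Subgroup X =>
    A.Normal ∧ A ≤ F ∧ ∀ a ∈ A, ∀ b ∈ A, a * b = b * a) ⟨⊥, inferInstance, bot_le, by simp⟩
  refine ⟨A, hA, hc, ?_⟩
  by_contra! H
  have key : ∀ E : Subgroup X, ⁅E, F⁆ ≤ A → x ∈ centralizer (E : Set X) := fun E hE e he =>
    (commutatorElement_eq_one_iff_mul_comm.1 (H.2 e (commutator_comm E F ▸ hE <| commutator_mem_commutator hx he))).symm
  let D := (F ⊓ centralizer (A : Set X)) ⊓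
    ⨅ E : {E : Subgroup X // E.Normal ∧ ⁅E, F⁆ ≤ A}, centralizer (E.1 : Set X)
  have hD : D.Normal := by
    haveI := normal_iInf_normal (a := fun E : {E : Subgroup X // E.Normal ∧ ⁅E, F⁆ ≤ A} => centralizer (E.1 : Set X))
      fun E => by haveI := E.2.1; infer_instance
    infer_instance
  obtain ⟨E, ⟨hE, hED, hEA⟩, hmin⟩ := exists_minimal_of_wellFoundedLT (fun E : Subgroup X => E.Normal ∧ E ≤ D ∧ ¬ E ≤ A)
    ⟨D, hD, le_rfl, fun h => H.1 (h ⟨⟨hx, key A (commutator_le_left _ _)⟩, mem_iInf.2 fun E => key _ E.2.2⟩)⟩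
  have hEF : E ≤ F := hED.trans (inf_le_left.trans inf_le_left)
  have hlt := CA.PGBasic.commutator_lt CA.Core.isNilpotent_fitting le_rfl hEF le_normalizer_of_normal
    (fun h => hEA (h ▸ bot_le))
  have h2 : ⁅E, F⁆ ≤ A := by_contra fun h => hlt.not_ge (hmin ⟨inferInstance, hlt.le.trans hED, h⟩ hlt.le)
  refine hEA (le_sup_right.trans (hmax (y := A ⊔ E) ⟨inferInstance, sup_le hAF hEF, fun a ha b hb => ?_⟩ le_sup_left))
  have h3 : A ⊔ E ≤ centralizer ((A ⊔ E : Subgroup X) : Set X) := by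
    rw [CA.Fitting.centralizer_sup]
    exact sup_le (le_inf (fun a ha b hb => hc b hb a ha) fun a ha e he => ((hED he).1.2 a ha).symm)
      (le_inf (fun e he => (hED he).1.2) fun e he => mem_iInf.1 (hED he).2 ⟨E, hE, h2⟩)
  exact h3 hb a ha

variable {F : Type*} [Field F] {n : ℕ}

/-- fixed space -/
abbrev V (g : GL (Fin n) F) := Module.End.eigenspace (Matrix.toLin' (g : Matrix (Fin n) (Fin n) F)) 1

theorem mem_V {g : GL (Fin n) F} {v : Fin n → F} : v ∈ V g ↔ (g : Matrix (Fin n) (Fin n) F) *ᵥ v = v := by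
  simp [V]

theorem dim_comm (x h : GL (Fin n) F) : 2 * Module.finrank F (V x) ≤ n + Module.finrank F (V ⁅x, h⁆) := by
  have h1 := Submodule.finrank_sup_add_finrank_inf_eq (V x) ((V x).map (toLin' (h : Matrix (Fin n) (Fin n) F)))
  have h2 := Submodule.finrank_le (V x ⊔ (V x).map (toLin' (h : Matrix (Fin n) (Fin n) F)))
  have h3 : V x ⊓ (V x).map (toLin' (h : Matrix (Fin n) (Fin n) F)) ≤ V ⁅x, h⁆ := by
    rintro _ ⟨hv, w, hw, rfl⟩
    have hw' : ((x⁻¹ : GL (Fin n) F) : Matrix (Fin n) (Fin n) F) *ᵥ w = w := by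
      conv_lhs => rw [← mem_V.1 hw, inv_mulVec_mulVec]
    rw [mem_V, commutatorElement_def]
    simp only [Units.val_mul, ← mulVec_mulVec, toLin'_apply, inv_mulVec_mulVec, hw']
    exact mem_V.1 hv
  have := Submodule.finrank_mono h3
  rw [finrank_map_gl] at h1
  rw [Module.finrank_fin_fun] at h2
  omega

/-- Fixed-point spaces in primitive soluble linear groups. Let F be a finite field and G a soluble subgroup of GL_n(F) that acts irreducibly on F^n and primitively (G preserves no decomposition of F^n into two or more independent subspaces of equal dimension). Then every non-identity element g of G has fixed-point space {v : g v = v} of dimension at most 3n/4. -/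
theorem result {F : Type*} [Field F] [Fintype F] {n : ℕ} (G : Subgroup (Matrix.GeneralLinearGroup (Fin n) F)) (hsol : IsSolvable G) (hirr : Cfsg.Geo.ActsIrreducibly (Cfsg.Geo.matrixSet G)) (hprim : ∀ (m t : ℕ) (D : Fin t → Submodule F (Fin n → F)), 2 ≤ t → Cfsg.Geo.IsMDecomposition m D → ¬ G ≤ Cfsg.Geo.decompositionStabilizer D) (g : Matrix.GeneralLinearGroup (Fin n) F) (hg : g ∈ G) (hg1 : g ≠ 1) :
    4 * Module.finrank F (Module.End.eigenspace (Matrix.toLin' (g : Matrix (Fin n) (Fin n) F)) 1) ≤ 3 * n := by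
  rcases n with _ | n
  · exact (hg1 (Units.ext (Subsingleton.elim _ _))).elim
  have hI := (irr_iff G).2 hirr
  have fpf : ∀ A : Subgroup G, A.Normal → (∀ a ∈ A, ∀ b ∈ A, a * b = b * a) → ∀ a ∈ A, a ≠ 1 →
      Module.finrank F (V a.1) = 0 := fun A hA hc a ha h1 => by
    have hN : G ≤ Geo.subalgebraNormalizer (alg (A.map G.subtype)) := Nrm.le_normalizer_alg (by
      rintro h hh _ ⟨b, hb, rfl⟩; exact ⟨_, hA.conj_mem b hb ⟨h, hh⟩, rfl⟩)
    have hK : ∀ x ∈ alg (A.map G.subtype), ∀ y ∈ alg (A.map G.subtype), x * y = y * x := fun x hx y hy =>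
      comm_of_mem_alg (by
        rintro _ ⟨b, hb, rfl⟩
        exact (comm_of_mem_alg (by
          rintro _ ⟨c, hc', rfl⟩; exact congrArg (fun z : G => z.1.1) (hc b hb c hc')) hx).symm) hy
    rcases field_or_idemSys hI hK hN with h | ⟨E, hE, h2, hP⟩
    · obtain ⟨y, -, hy⟩ := h.inv (a.1 - 1) (sub_mem (coe_mem_alg ⟨a, ha, rfl⟩) (one_mem _))
        fun h => h1 (Subtype.ext (Units.ext (sub_eq_zero.1 h)))
      rw [Submodule.finrank_eq_zero, eq_bot_iff]
      intro v hv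
      rw [mul_eq_one_comm] at hy
      rw [Submodule.mem_bot, ← one_mulVec v, ← hy, ← mulVec_mulVec, sub_mulVec, mem_V.1 hv, one_mulVec, sub_self, mulVec_zero]
    · obtain ⟨m, ε, -, -, -, hD, hle, -⟩ := hE.exists_decomp h2 hI fun g hg e he => (hP _).2 (((hP e).1 he).cj hK (hN hg))
      exact (hprim m _ _ h2 hD hle).elim
  have half : ∀ x ∈ fittingSubgroup G, x ≠ 1 → 2 * Module.finrank F (V x.1) ≤ n + 1 := fun x hx h1 => by
    obtain ⟨A, hA, hc, h | ⟨h, h2, h3⟩⟩ := grp hx h1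
    · rw [fpf A hA hc x h h1]; omega
    · have := dim_comm x.1 h.1
      rwa [show ⁅x.1, h.1⁆ = (⁅x, h⁆ : G).1 from rfl, fpf A hA hc _ h2 h3] at this
  haveI : Group.IsSolvable G := hsol
  change 4 * Module.finrank F (V g) ≤ _
  by_cases hF : (⟨g, hg⟩ : G) ∈ centralizer (fittingSubgroup G : Set G)
  · have := half _ (CA.Fitting.centralizer_fitting_le hF) (by simpa using hg1)
    dsimp only at this; omega
  simp only [mem_centralizer_iff, not_forall] at hF
  obtain ⟨h, hh, h1⟩ := hF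
  have h2 := half ⁅(⟨g, hg⟩ : G), h⁆ (commutator_le_right ⊤ _ (commutator_mem_commutator (mem_top _) hh))
    fun e => h1 (commutatorElement_eq_one_iff_mul_comm.1 e).symm
  have := dim_comm g h.1
  change 2 * Module.finrank F (V ⁅g, h.1⁆) ≤ _ at h2
  omega

end Cfsg.Agent.S5876
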