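import Cfsg.Statements.S5877
import Cfsg.Agent.Lib.Lin.H8Eig

set_option autoImplicit false
open Cfsg

namespace Cfsg.Agent.S5877

open CA.H8Eig Cfsg.Geo
open scoped commutatorElement


/-- Eigenspaces of elements normalising an absolutely irreducible extraspecial group. Let F be a finite field, r a prime, and R ≤ GL_n(F) an absolutely irreducible extraspecial r-group (an r-group whose centre equals its derived subgroup and has order r) of exponent r or 4. Let g ∈ GL_n(F) normalise the product of R with the scalar matrices, have prime order ϖ and not be scalar, and let W be the eigenspace of g for any c ∈ F (W may be the zero subspace). Then dim W ≤ 3n/4 if ϖ = 2, dim W ≤ 2n/3 if ϖ = 3, and dim W ≤ n/2 if ϖ > 3; moreover if ϖ = 3 and 3 does not divide n then dim W ≤ n/2. -/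
theorem result {F : Type*} [Field F] [Fintype F] {n r ϖ : ℕ} (R : Subgroup (Matrix.GeneralLinearGroup (Fin n) F)) (hr : r.Prime) (hR : IsPGroup r R) (hZ : Nat.card (Subgroup.center R) = r) (hext : commutator R = Subgroup.center R) (hexp : Monoid.exponent R = r ∨ Monoid.exponent R = 4) (hirr : Cfsg.Geo.ActsAbsolutelyIrreducibly (Cfsg.Geo.matrixSet R)) (g : Matrix.GeneralLinearGroup (Fin n) F) (hg : g ∈ Cfsg.Geo.subgroupNormalizer (R ⊔ Cfsg.Geo.scalars (Fin n) F)) (hϖ : ϖ.Prime) (hord : orderOf g = ϖ) (hns : g ∉ Cfsg.Geo.scalars (Fin n) F) (c : F) :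
    (ϖ = 2 → 4 * Module.finrank F (Module.End.eigenspace (Matrix.toLin' (g : Matrix (Fin n) (Fin n) F)) c) ≤ 3 * n) ∧
    (ϖ = 3 → 3 * Module.finrank F (Module.End.eigenspace (Matrix.toLin' (g : Matrix (Fin n) (Fin n) F)) c) ≤ 2 * n) ∧
    (3 < ϖ → 2 * Module.finrank F (Module.End.eigenspace (Matrix.toLin' (g : Matrix (Fin n) (Fin n) F)) c) ≤ n) ∧
    (ϖ = 3 → ¬ 3 ∣ n → 2 * Module.finrank F (Module.End.eigenspace (Matrix.toLin' (g : Matrix (Fin n) (Fin n) F)) c) ≤ n) := by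
  let s : Fˣ →* GL (Fin n) F := Units.map (Matrix.scalar (Fin n) : F →+* Matrix (Fin n) (Fin n) F).toMonoidHom
  let ρ : GL (Fin n) F →* Module.End F (Fin n → F) :=
    (Matrix.toLinAlgEquiv' (R := F) (n := Fin n)).toMulEquiv.toMonoidHom.comp (Units.coeHom _)
  have hsv : ∀ a, ((s a : GL (Fin n) F) : Matrix (Fin n) (Fin n) F) = (a : F) • (1 : Matrix _ _ F) := fun a => by
    simp [s, Matrix.smul_one_eq_diagonal]
  have hρ : ∀ a v, ρ (s a) v = (a : F) • v := fun a v => by
    show Matrix.toLin' ((s a : GL (Fin n) F) : Matrix (Fin n) (Fin n) F) v = _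
    rw [hsv]; simp
  have hc : ∀ a x, s a * x = x * s a := fun a x => Units.ext (by simp [hsv])
  have hn : Nonempty (Fin n) := by
    by_contra e
    haveI := not_nonempty_iff.1 e
    haveI : Subsingleton (GL (Fin n) F) := ⟨fun a b => Units.ext (Subsingleton.elim _ _)⟩
    exact hr.one_lt.ne' (hZ.symm.trans (Nat.card_of_subsingleton 1))
  have hs : Function.Injective s := fun a b e => by
    obtain ⟨i⟩ := hn
    have := congrFun (congrFun ((hsv a).symm.trans ((congrArg Units.val e).trans (hsv b))) i) i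
    exact Units.ext (by simpa using this)
  have hZ' : ∀ u : GL (Fin n) F, (∀ v ∈ R, u * v = v * u) → ∃ a, u = s a := fun u h => by
    obtain ⟨c, hc⟩ := hirr.2 u (by rintro _ ⟨v, hv, rfl⟩; exact congrArg Units.val (h v hv))
    have h0 : c ≠ 0 := fun e => u.ne_zero (by rw [hc, e, zero_smul])
    exact ⟨Units.mk0 c h0, Units.ext (hc.trans (hsv (Units.mk0 c h0)).symm)⟩
  have hR' : ∀ u ∈ R, ∀ v ∈ R, ∃ a, a ^ r = 1 ∧ u * v = s a * (v * u) := fun u hu v hv => by
    have h1 : ⁅(⟨u, hu⟩ : R), ⟨v, hv⟩⁆ ∈ Subgroup.center R :=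
      hext ▸ Subgroup.commutator_mem_commutator (Subgroup.mem_top _) (Subgroup.mem_top _)
    obtain ⟨a, ha⟩ := hZ' ⁅u, v⁆ fun w hw => congrArg Subtype.val (Subgroup.mem_center_iff.1 h1 ⟨w, hw⟩).symm
    refine ⟨a, hs ?_, by rw [← ha, commutatorElement_def]; group⟩
    rw [map_pow, ← ha, map_one, ← hZ]
    exact congrArg (fun z : Subgroup.center R => (z.1.1 : GL (Fin n) F)) (pow_card_eq_one' (x := ⟨_, h1⟩))
  haveI : (scalars (Fin n) F).Normal := ⟨fun _ ⟨a, e⟩ x => ⟨a, by rw [← e]; show s a = x * s a * x⁻¹; rw [← hc]; group⟩⟩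
  have hM : ∀ u ∈ R ⊔ scalars (Fin n) F, ∀ v ∈ R ⊔ scalars (Fin n) F, ∃ a, a ^ r = 1 ∧ u * v = s a * (v * u) := by
    intro u hu v hv
    obtain ⟨u, hu', _, ⟨a, rfl⟩, rfl⟩ := Subgroup.mem_sup_of_normal_right.1 hu
    obtain ⟨v, hv', _, ⟨b, rfl⟩, rfl⟩ := Subgroup.mem_sup_of_normal_right.1 hv
    obtain ⟨d, h1, h2⟩ := hR' u hu' v hv'
    refine ⟨d, h1, ?_⟩
    show u * s a * (v * s b) = s d * (v * s b * (u * s a))
    rw [← mul_assoc, mul_assoc u, hc, ← mul_assoc, h2, mul_assoc v, ← mul_assoc (s b), hc b, mul_assoc u,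
      ← map_mul, mul_comm b, map_mul]
    group
  have hZ2 : ∀ u : GL (Fin n) F, (∀ v ∈ R ⊔ scalars (Fin n) F, u * v = v * u) → ∃ a, u = s a := fun u h =>
    hZ' u fun v hv => h v (Subgroup.mem_sup_left hv)
  have hns' : ∀ a, g ≠ s a := fun a e => hns ⟨a, e.symm⟩
  have hgp : g ^ ϖ = 1 := hord ▸ pow_orderOf_eq_one g
  have b1 := fun m (hm : m ≤ r) => bd1 ρ hρ hr hM hZ2 hg hns' (c := c) hm
  have b2 := fun ho h5 => bd2 ρ hρ hs hc hr hM hZ2 hg hns' (c := c) hϖ ho hgp h5
  rw [Module.finrank_fin_fun] at b1 b2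
  change ∀ m ≤ r, 2 * m * Module.finrank F (Module.End.eigenspace (Matrix.toLin' (g : Matrix (Fin n) (Fin n) F)) c)
    ≤ (m + 1) * n at b1
  change _ → _ → 2 * Module.finrank F (Module.End.eigenspace (Matrix.toLin' (g : Matrix (Fin n) (Fin n) F)) c)
    ≤ n at b2
  have h2 := hr.two_le
  refine ⟨fun _ => b1 2 h2, fun e => ?_, fun e => b2 (hϖ.odd_of_ne_two (by omega)) (by omega),
    fun e h3 => b2 (e ▸ by decide) (Or.inl fun e' => h3 ?_)⟩
  · by_cases e' : r = 2
    · have := b2 (e ▸ by decide) (by omega); omega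
    · have := b1 3 (by omega); omega
  · obtain ⟨u, hu, v, hv, h4⟩ : ∃ u ∈ R, ∃ v ∈ R, u * v ≠ v * u := by
      by_contra! h4
      have : commutator R = ⊥ := eq_bot_iff.2 (Subgroup.commutator_le.2 fun a _ b _ =>
        commutatorElement_eq_one_iff_mul_comm.2 (Subtype.ext (h4 a a.2 b b.2)))
      rw [← hext, this, Subgroup.card_bot] at hZ
      omega
    obtain ⟨a, h5, h6⟩ := hR' u hu v hv
    haveI := Fact.mk hr
    have h7 := orderOf_eq_prime h5 fun e => h4 (by rw [h6, e, map_one, one_mul])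
    have h8 := congrArg (fun t : GL (Fin n) F => (t : Matrix (Fin n) (Fin n) F).det) h6
    simp only [Units.val_mul, hsv, Matrix.det_mul, Matrix.det_smul, Matrix.det_one, Fintype.card_fin, mul_one] at h8
    rw [mul_comm, eq_comm, mul_eq_right₀ (mul_ne_zero v.det_ne_zero u.det_ne_zero)] at h8
    rw [← e, e', ← h7]
    exact orderOf_dvd_of_pow_eq_one (Units.ext h8)

end Cfsg.Agent.S5877
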