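import Cfsg.Statements.S5938
import Cfsg.Agent.Lib.Lin.PSL2Cl1

set_option autoImplicit false
open Cfsg

namespace Cfsg.Agent.S5938

open CA.PSL2Cl1 CA.PSL2Sub in

/-- Let p be a prime with p ≡ ±1 (mod 8) and F a field with p elements. Then PSL_2(F) has a maximal subgroup isomorphic to the symmetric group S_4. -/
theorem result {F : Type*} [Field F] [Fintype F] (p : ℕ) [Fact p.Prime] (hF : Fintype.card F = p) (hp : p % 8 = 1 ∨ p % 8 = 7) : ∃ H : Subgroup (Matrix.ProjectiveSpecialLinearGroup (Fin 2) F), IsCoatom H ∧ Nonempty (H ≃* Equiv.Perm (Fin 4)) := by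
  have hpp : p.Prime := Fact.out
  have hF' : Nat.card F = p := by rwa [Nat.card_eq_fintype_card]
  have h2 : (2 : F) ≠ 0 := two_ne hF' (by omega)
  have hs : IsSquare (2 : F) := (FiniteField.isSquare_two_iff).2 (by omega)
  obtain ⟨H, ⟨e⟩⟩ := exists_sub_iff.2 (exists_S4 h2 hs)
  exact ⟨H, isCoatom_S4 (hF' ▸ hpp) (by omega) e, ⟨e⟩⟩

end Cfsg.Agent.S5938
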