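import Cfsg.Statements.S5950
import Cfsg.Agent.Lib.Lin.El3

set_option autoImplicit false
open scoped MatrixGroups
open Cfsg

namespace Cfsg.Agent.S5950

/-- Elements of prime order of PSL_n(q) fixing no decomposition `F^n = U ⊕ W` with `dim U = m`. Here `T = PSL_n(F)` for a field `F` with `q = p^f` elements (`n ≥ 2`, `(n, q) ≠ (2, 2), (2, 3)`); an element of `T` of prime order `r` is represented by a matrix `x` of determinant 1 with `x^r` scalar and `x` not scalar; `i` denotes the multiplicative order of `q` modulo `r` (when `r ≠ p`), and `(a)_r` the `r`-part of `a`. Let `n ≥ 3`, `1 ≤ m < n/2`, and let `r` be a prime dividing the number of such decompositions (unordered pairs `{U, W}` of complementary subspaces with `dim U = m`; since `m ≠ n − m` these are the ordered pairs with `dim U = m`). Then every element of `T` of order `r` fixes such a pair (fixes both `U` and `W` for some complementary `U, W` with `dim U = m`) if and only if one of: (i) `r = p > 2` and every partition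 of `n` into parts of size at most `p` contains, as a sub-multiset, a partition of `m`; (ii) `r = p = 2` and `n` is odd or `m` is even; (iii) `r ≠ p`, `i = 1`, and `r ∣ m` or `(q−1)_r ≥ (n)_r` (with `q ≡ 1 (mod 4)` required when `r = 2` and `n` is even); (iv) `r ≠ p`, `2 ≤ i ≤ m` and `n mod i ≥ m mod i`. -/
theorem result {F : Type*} [Field F] [Fintype F] {p : ℕ} [Fact p.Prime] [CharP F p] {q : ℕ} (hq : Fintype.card F = q)
    (n m : ℕ) (hn : 3 ≤ n) (hm : 1 ≤ m) (hmn : 2 * m < n)
    (r : ℕ) [Fact r.Prime]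
    (hrΩ : r ∣ Nat.card {P : Submodule F (Fin n → F) × Submodule F (Fin n → F) // IsCompl P.1 P.2 ∧ Module.finrank F ↥P.1 = m}) :
    (∀ x : Matrix.SpecialLinearGroup (Fin n) F,
      (∃ c : F, ((x ^ r : Matrix.SpecialLinearGroup (Fin n) F) : Matrix (Fin n) (Fin n) F) = c • (1 : Matrix (Fin n) (Fin n) F)) →
      (∀ c : F, (x : Matrix (Fin n) (Fin n) F) ≠ c • (1 : Matrix (Fin n) (Fin n) F)) →
      ∃ U W : Submodule F (Fin n → F), IsCompl U W ∧ Module.finrank F ↥U = m ∧
        U.map (Matrix.toLin' (x : Matrix (Fin n) (Fin n) F)) ≤ U ∧ W.map (Matrix.toLin' (x : Matrix (Fin n) (Fin n) F)) ≤ W) ↔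
    ((r = p ∧ 2 < p ∧ (∀ μ : Multiset ℕ, (∀ a ∈ μ, 0 < a ∧ a ≤ p) → μ.sum = n → ∃ ν : Multiset ℕ, ν ≤ μ ∧ ν.sum = m)) ∨
     (r = p ∧ p = 2 ∧ (Odd n ∨ Even m)) ∨
     (r ≠ p ∧
      ((orderOf (q : ZMod r) = 1 ∧ (r ∣ m ∨ (padicValNat r n ≤ padicValNat r (q - 1) ∧ (r = 2 → Even n → q % 4 = 1)))) ∨
       (2 ≤ orderOf (q : ZMod r) ∧ orderOf (q : ZMod r) ≤ m ∧ m % orderOf (q : ZMod r) ≤ n % orderOf (q : ZMod r))))) := by
  obtain rfl : q = Nat.card F := by rw [← hq, Nat.card_eq_fintype_card]
  have hN : Module.finrank F (Fin n → F) = n := by simp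
  rw [CA.El.forall_SL r fun A => ∃ U W : Submodule F (Fin n → F), IsCompl U W ∧
    Module.finrank F U = m ∧ U.map A ≤ U ∧ W.map A ≤ W]
  by_cases hp : r = p
  · subst hp
    rw [CA.El.pair_unip r m, hN]
    rcases (Fact.out : r.Prime).eq_two_or_odd' with rfl | h
    · rw [CA.El.partition_two (by omega) (by omega)]; simp
    · have h2 : 2 < r := lt_of_le_of_ne (Fact.out : r.Prime).two_le (by rintro rfl; exact absurd h (by decide))
      rw [CA.El.partition_triv (by omega)]; simp [h2, h2.ne']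
  · have hr : (r : F) ≠ 0 := (CA.El.cast_ne_zero_iff p).2 hp
    rw [CA.El.card_pairs] at hrΩ
    have hc := ((Fact.out : r.Prime).dvd_mul.1 hrΩ).resolve_right (CA.El.not_dvd_card_pow hr _)
    rw [CA.El.sub_master hr hm (by omega) hc
      (fun A a _ ⟨U, W, h1, h2, h3, h4⟩ => ⟨U, W, h1, h2, CA.El.map_smul_le h3 a,
        CA.El.map_smul_le h4 a⟩) fun A _ => CA.El.compl_iff A m, hN, CA.El.noB_iff]
    simp only [hp, ne_eq, not_false_eq_true, true_and, false_and, false_or]

end Cfsg.Agent.S5950
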