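import Cfsg.Statements.S5952


set_option autoImplicit false
open Cfsg

namespace Cfsg.Agent.S5952

/-- Which dimensions of invariant subspaces a semisimple linear map has. Let `V` be a finite-dimensional vector space over a field `F` and `f` an invertible semisimple linear map of `V`. Suppose `V` is the internal direct sum of the fixed space `C_V(f)` (the eigenspace for 1) and subspaces `U_1, …, U_s`, each `f`-invariant of dimension `a ≥ 1` on which `f` acts irreducibly (no `f`-invariant subspaces other than 0 and `U_j`). Let `0 < m < dim V` and `ℓ = m mod a`. Then `f` leaves some `m`-dimensional subspace invariant if and only if `dim C_V(f) ≥ m`, or `a ≤ m` and `dim C_V(f) ≥ ℓ`. -/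
theorem result {F V : Type*} [Field F] [AddCommGroup V] [Module F V]
    [FiniteDimensional F V] (f : V →ₗ[F] V) (hf : Function.Bijective f) (hss : Module.End.IsSemisimple f)
    {s a : ℕ} (ha : 1 ≤ a) (U : Fin s → Submodule F V)
    (hUinv : ∀ j, (U j).map f ≤ U j) (hUdim : ∀ j, Module.finrank F ↥(U j) = a)
    (hUirr : ∀ j, ∀ W : Submodule F V, W ≤ U j → W.map f ≤ W → W = ⊥ ∨ W = U j)
    (hdec : DirectSum.IsInternal (fun o : Option (Fin s) => o.elim (Module.End.eigenspace f 1) U))
    (m : ℕ) (hm : 0 < m) (hmV : m < Module.finrank F V) :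
    (∃ W : Submodule F V, Module.finrank F ↥W = m ∧ W.map f ≤ W) ↔
    (m ≤ Module.finrank F ↥(Module.End.eigenspace f 1) ∨
      (a ≤ m ∧ m % a ≤ Module.finrank F ↥(Module.End.eigenspace f 1))) := by
  classical
  set C := Module.End.eigenspace f 1 with hC
  have hind := hdec.submodule_iSupIndep
  have htop := hdec.submodule_iSup_eq_top
  have hCf : ∀ x ∈ C, f x = x := fun x hx => by simpa [hC] using hx
  have hdis : ∀ C' ≤ C, ∀ (S : Finset (Fin s)) i, i ∉ S → (C' ⊔ ⨆ j ∈ S, U j) ⊓ U i = ⊥ := by
    intro C' hC' S i hi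
    refine disjoint_iff.1 ((hind (some i)).symm.mono_left (sup_le ?_ (iSup₂_le fun j hj => ?_)))
    · exact hC'.trans (le_iSup₂_of_le (f := fun (o : Option (Fin s)) (_ : o ≠ some i) => o.elim C U)
        none (by simp) le_rfl)
    · exact le_iSup₂_of_le (f := fun (o : Option (Fin s)) (_ : o ≠ some i) => o.elim C U)
        (some j) (by simpa using fun e : j = i => hi (e ▸ hj)) le_rfl
  have hinv : ∀ C' ≤ C, ∀ S : Finset (Fin s), (C' ⊔ ⨆ j ∈ S, U j).map f ≤ C' ⊔ ⨆ j ∈ S, U j := by
    intro C' hC' S
    rw [Submodule.map_sup]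
    refine sup_le_sup ?_ ?_
    · rintro _ ⟨x, hx, rfl⟩
      rwa [hCf x (hC' hx)]
    · simp only [Submodule.map_iSup]
      exact iSup₂_mono fun j _ => hUinv j
  have hdim : ∀ C' ≤ C, ∀ S : Finset (Fin s),
      Module.finrank F ↥(C' ⊔ ⨆ j ∈ S, U j) = Module.finrank F C' + S.card * a := by
    intro C' hC' S
    induction S using Finset.induction_on with
    | empty => rw [show (C' ⊔ ⨆ j ∈ (∅ : Finset (Fin s)), U j) = C' by simp]; simp
    | insert i S hi ih =>
      rw [Finset.iSup_insert, sup_comm (U i), ← sup_assoc, Finset.card_insert_of_notMem hi]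
      have := Submodule.finrank_sup_add_finrank_inf_eq (C' ⊔ ⨆ j ∈ S, U j) (U i)
      rw [hdis C' hC' S i hi, finrank_bot, ih, hUdim] at this
      rw [add_zero] at this
      rw [this]
      ring
  have hall : (C ⊔ ⨆ j ∈ (Finset.univ : Finset (Fin s)), U j) = ⊤ := by
    rw [eq_top_iff, ← htop]
    refine iSup_le fun o => ?_
    cases o with
    | none => exact le_sup_left
    | some j => exact le_sup_of_le_right (le_iSup₂_of_le j (Finset.mem_univ _) le_rfl)
  have hV := hdim C le_rfl Finset.univ
  rw [hall, finrank_top, Finset.card_univ, Fintype.card_fin] at hV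
  constructor
  · rintro ⟨W, rfl, hW⟩
    have key : ∀ S : Finset (Fin s), ∃ k, Module.finrank F ↥(W ⊓ (C ⊔ ⨆ j ∈ S, U j)) =
        Module.finrank F ↥(W ⊓ C) + k * a := by
      intro S
      induction S using Finset.induction_on with
      | empty => exact ⟨0, by rw [show (C ⊔ ⨆ j ∈ (∅ : Finset (Fin s)), U j) = C by simp]; simp⟩
      | insert i S hi ih =>
        obtain ⟨k, hk⟩ := ih
        rw [Finset.iSup_insert, sup_comm (U i), ← sup_assoc]
        have hA := hinv C le_rfl S
        have hd := hdis C le_rfl S i hi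
        set A := C ⊔ ⨆ j ∈ S, U j
        have h1 := Submodule.finrank_sup_add_finrank_inf_eq A (W ⊓ (A ⊔ U i))
        have e1 : A ⊓ (W ⊓ (A ⊔ U i)) = W ⊓ A := by
          rw [inf_comm, inf_assoc, inf_eq_right.2 (le_sup_left : A ≤ A ⊔ U i)]
        set B := A ⊔ (W ⊓ (A ⊔ U i))
        have e2 : B = A ⊔ (U i ⊓ B) := by
          rw [← sup_inf_assoc_of_le _ le_sup_left]
          exact (inf_eq_right.2 (sup_le le_sup_left inf_le_right)).symm
        have h2 := Submodule.finrank_sup_add_finrank_inf_eq A (U i ⊓ B)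
        rw [← e2, ← inf_assoc, hd, bot_inf_eq, finrank_bot] at h2
        have hB : B.map f ≤ B := by
          rw [Submodule.map_sup]
          refine sup_le_sup hA ((Submodule.map_inf_le _).trans (inf_le_inf hW ?_))
          rw [Submodule.map_sup]
          exact sup_le_sup hA (hUinv i)
        rw [e1] at h1
        rcases hUirr i (U i ⊓ B) inf_le_left
          ((Submodule.map_inf_le _).trans (inf_le_inf (hUinv i) hB)) with h | h
        · rw [h, finrank_bot] at h2
          exact ⟨k, by omega⟩
        · rw [h, hUdim] at h2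
          exact ⟨k + 1, by rw [add_mul]; omega⟩
    obtain ⟨k, hk⟩ := key Finset.univ
    rw [hall, inf_top_eq] at hk
    have hle : Module.finrank F ↥(W ⊓ C) ≤ Module.finrank F C := Submodule.finrank_mono inf_le_right
    rcases Nat.eq_zero_or_pos k with rfl | hk0
    · left; omega
    · right
      refine ⟨by nlinarith, ?_⟩
      rw [hk, Nat.add_mul_mod_self_right]
      exact (Nat.mod_le _ _).trans hle
  · intro h
    obtain ⟨j, k, hj, hk, rfl⟩ : ∃ j k, j ≤ Module.finrank F C ∧ k ≤ s ∧ m = j + k * a := by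
      rcases h with h | ⟨-, h⟩
      · exact ⟨m, 0, h, by omega, by simp⟩
      by_cases hs : m / a ≤ s
      · exact ⟨m % a, m / a, h, hs, (Nat.mod_add_div' m a).symm⟩
      · have : s * a ≤ m := (Nat.mul_le_mul_right a (not_le.1 hs).le).trans (Nat.div_mul_le_self m a)
        exact ⟨m - s * a, s, by omega, le_rfl, by omega⟩
    obtain ⟨C', h1, h2⟩ : ∃ C' ≤ C, Module.finrank F C' = j := by
      obtain ⟨v, hv⟩ := exists_linearIndependent_of_le_finrank hj
      refine ⟨(Submodule.span F (Set.range v)).map C.subtype, Submodule.map_subtype_le _ _, ?_⟩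
      rw [Submodule.finrank_map_subtype_eq, finrank_span_eq_card hv, Fintype.card_fin]
    obtain ⟨S, -, hS⟩ := Finset.exists_subset_card_eq (s := (Finset.univ : Finset (Fin s))) (n := k)
      (by simpa using hk)
    exact ⟨_, by rw [hdim C' h1 S, h2, hS], hinv C' h1 S⟩

end Cfsg.Agent.S5952
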