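import Cfsg.Statements.S5953
import Cfsg.Agent.Lib.Lin.El15

set_option autoImplicit false
open scoped MatrixGroups
open Cfsg

namespace Cfsg.Agent.S5953

open CA.El CA.CForm CA.CForm.Form

/-- Elements of prime order of PSU_n(q) with no fixed totally isotropic `m`-space. Here `T = PSU_n(q)` (`n ≥ 3`, `(n, q) ≠ (3, 2)`), realised through the matrices of determinant 1 over the field `F` with `q²` elements preserving the Hermitian form `h(u, v) = Σ u_i v_i^q`; an element of `T` of prime order `r` is such a matrix `x` with `x^r` scalar and `x` not scalar. For `r ≠ p` let `i` be the multiplicative order of `q` modulo `r`, `b = i/2` for `i` even and `b = i` for `i` odd, `c = i, i/2, 2i` according as `i ≡ 0, 2 (mod 4)` or `i` odd, and write `k = n mod c`, `ℓ = m mod b`, `ℓ' = m mod c`, `n' = ⌊n/b⌋`, `m' = ⌊m/b⌋`, `s = (r−1)/b`; `(a)_r` is the `r`-part of `a`. Let `1 ≤ m ≤ n/2` and let `r` be a prime dividing the number of totally isotropic `m`-spaces.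 Then every element of `T` of order `r` fixes a totally isotropic `m`-space if and only if either (i) `r = 2`, `p ≠ 2`, and (`m < n/2` or `(q+1)_2 ≤ (n)_2`); or (ii) `r ≠ p`, `r > 2`, `b ≤ m`, `k ≥ 2ℓ`, and either `i ≢ 2 (mod 4)`, or `i ≡ 2 (mod 4)`, `n' − 2m' ≥ s` and (`i > 2`, or `i = 2` and (`r ∣ m` or `(q+1)_r ≥ (n)_r`)). -/
theorem result {F : Type*} [Field F] [Fintype F] {p : ℕ} [Fact p.Prime] [CharP F p] {q : ℕ} (hq : Fintype.card F = q ^ 2)
    (n m : ℕ) (hn : 3 ≤ n) (hT : (n, q) ≠ (3, 2)) (hm : 1 ≤ m) (hmn : 2 * m ≤ n)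
    (r : ℕ) [Fact r.Prime]
    (hrΩ : r ∣ Nat.card {W : Submodule F (Fin n → F) // Module.finrank F ↥W = m ∧ (∀ u ∈ W, ∀ v ∈ W, Cfsg.hermForm n F q u v = 0)})
    (i b c : ℕ) (hi : i = orderOf (q : ZMod r)) (hb : b = if Even i then i / 2 else i)
    (hc : c = if i % 4 = 0 then i else if i % 4 = 2 then i / 2 else 2 * i) :
    (∀ x : Matrix.SpecialLinearGroup (Fin n) F, x ∈ Cfsg.SU n F q →
      (∃ z : F, ((x ^ r : Matrix.SpecialLinearGroup (Fin n) F) : Matrix (Fin n) (Fin n) F) = z • (1 : Matrix (Fin n) (Fin n) F)) →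
      (∀ z : F, (x : Matrix (Fin n) (Fin n) F) ≠ z • (1 : Matrix (Fin n) (Fin n) F)) →
      ∃ W : Submodule F (Fin n → F), Module.finrank F ↥W = m ∧ (∀ u ∈ W, ∀ v ∈ W, Cfsg.hermForm n F q u v = 0) ∧
        W.map (Matrix.toLin' (x : Matrix (Fin n) (Fin n) F)) ≤ W) ↔
    ((r = 2 ∧ p ≠ 2 ∧ (2 * m < n ∨ padicValNat 2 (q + 1) ≤ padicValNat 2 n)) ∨
     (r ≠ p ∧ 2 < r ∧ b ≤ m ∧ 2 * (m % b) ≤ n % c ∧
       (i % 4 ≠ 2 ∨ (i % 4 = 2 ∧ (r - 1) / b + 2 * (m / b) ≤ n / b ∧
         (2 < i ∨ (i = 2 ∧ (r ∣ m ∨ padicValNat r n ≤ padicValNat r (q + 1)))))))) := by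
  have hf := hermStd_nondeg hq n
  have hN : Module.finrank F (Fin n → F) = n := by simp
  have e : ∀ W : Submodule F (Fin n → F), (Module.finrank F W = m ∧
      ∀ u ∈ W, ∀ v ∈ W, Cfsg.hermForm n F q u v = 0) ↔ Module.finrank F W = m ∧ (hermStd hq n).TS W :=
    fun W => by
      simp only [herm_ts_iff, hermStd_B]
      exact and_congr_right' ⟨fun h u hu v hv => h v hv u hu, fun h u hu v hv => h v hv u hu⟩
  rw [card_bridge e] at hrΩ
  obtain ⟨hr, h⟩ := herm_ts (i := i) hq hf (by omega) hrΩ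
  refine (forall_su hq n r fun A => ∃ W : Submodule F _, Module.finrank F W = m ∧
    (∀ u ∈ W, ∀ v ∈ W, Cfsg.hermForm n F q u v = 0) ∧ W.map A ≤ W).trans ((forall₃_congr fun g _ _ =>
    (exists_congr fun W => and_assoc.symm).trans (fts_bridge e g)).trans ?_)
  have hp := (cast_ne_zero_iff p).1 hr
  rcases (Fact.out : r.Prime).eq_two_or_odd' with rfl | ho
  · have h3 := card_odd (F := F) (by simpa using hr)
    rw [card_sq hq, ← Nat.odd_iff, Nat.odd_pow_iff two_ne_zero] at h3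
    rw [ts_one hq hf h3.add_one.two_dvd (by omega) (by omega), hN]
    simp [hp.symm]
    omega
  have h2 : 2 < r := (Fact.out : r.Prime).two_le.lt_of_ne (by rintro rfl; exact absurd ho (by decide))
  have h3 := ord_eq_two (q := q) h2.ne'
  rw [← hi] at h3
  by_cases h4 : i = 2
  · rw [ts_one hq hf (h3.1 h4) (by omega) (by omega), hN]
    subst h4
    obtain rfl : b = 1 := by simpa using hb
    obtain rfl : c = 1 := by simpa using hc
    simp [hp, h2, h2.ne', NoB, hm, Nat.mod_one]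
  · rw [forall_po_herm hq hf (mt h3.2 h4) fun a ha g => fts_smul ha, h b c h2.ne' hi hb hc, hN]
    simp only [hp, h2, h2.ne', h4, ne_eq, not_false_iff, true_and, false_and, false_or, or_false]
    omega

end Cfsg.Agent.S5953
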