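import Cfsg.Statements.S5954
import Cfsg.Agent.Lib.Lin.El15

set_option autoImplicit false
open scoped MatrixGroups
open Cfsg

namespace Cfsg.Agent.S5954

open CA.El CA.CForm CA.CForm.Form

/-- Elements of prime order of PSU_n(q) with no fixed nondegenerate `m`-space. Here `T = PSU_n(q)` (`n ≥ 3`, `(n, q) ≠ (3, 2)`), realised through the matrices of determinant 1 over the field `F` with `q²` elements preserving the Hermitian form `h(u, v) = Σ u_i v_i^q`; an element of `T` of prime order `r` is such a matrix `x` with `x^r` scalar and `x` not scalar. For `r ≠ p` let `i` be the multiplicative order of `q` modulo `r`, `b = i/2` for `i` even and `b = i` for `i` odd, `c = i, i/2, 2i` according as `i ≡ 0, 2 (mod 4)` or `i` odd, and write `k = n mod c`, `ℓ = m mod b`, `ℓ' = m mod c`, `n' = ⌊n/b⌋`, `m' = ⌊m/b⌋`, `s = (r−1)/b`; `(a)_r` is the `r`-part of `a`. Let `1 ≤ m < n/2` and let `r` be a prime dividing the number of nondegenerate `m`-spaces. Then every element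 of `T` of order `r` fixes a nondegenerate `m`-space if and only if one of: (i) `r = p > 2` and every partition of `n` into parts of size at most `p` contains (as a sub-multiset) a partition of `m`; (ii) `r = p = 2` and (`n` is odd or `m` is even); (iii) `r = 2 ≠ p` and (`n` is odd, or `m` is even, or `(q+1)_2 ≥ (n)_2` and `q ≡ 3 (mod 4)`); (iv) `r ≠ p`, `r > 2`, and either `i ≠ 2`, `c ≤ m` and `k ≥ ℓ'`, or `i = 2` and (`r ∣ m` or `(q+1)_r ≥ (n)_r`). -/
theorem result {F : Type*} [Field F] [Fintype F] {p : ℕ} [Fact p.Prime] [CharP F p] {q : ℕ} (hq : Fintype.card F = q ^ 2)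
    (n m : ℕ) (hn : 3 ≤ n) (hT : (n, q) ≠ (3, 2)) (hm : 1 ≤ m) (hmn : 2 * m < n)
    (r : ℕ) [Fact r.Prime]
    (hrΩ : r ∣ Nat.card {W : Submodule F (Fin n → F) // Module.finrank F ↥W = m ∧ (∀ u ∈ W, u ≠ 0 → ∃ v ∈ W, Cfsg.hermForm n F q u v ≠ 0)})
    (i b c : ℕ) (hi : i = orderOf (q : ZMod r)) (hb : b = if Even i then i / 2 else i)
    (hc : c = if i % 4 = 0 then i else if i % 4 = 2 then i / 2 else 2 * i) :
    (∀ x : Matrix.SpecialLinearGroup (Fin n) F, x ∈ Cfsg.SU n F q →
      (∃ z : F, ((x ^ r : Matrix.SpecialLinearGroup (Fin n) F) : Matrix (Fin n) (Fin n) F) = z • (1 : Matrix (Fin n) (Fin n) F)) →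
      (∀ z : F, (x : Matrix (Fin n) (Fin n) F) ≠ z • (1 : Matrix (Fin n) (Fin n) F)) →
      ∃ W : Submodule F (Fin n → F), Module.finrank F ↥W = m ∧ (∀ u ∈ W, u ≠ 0 → ∃ v ∈ W, Cfsg.hermForm n F q u v ≠ 0) ∧
        W.map (Matrix.toLin' (x : Matrix (Fin n) (Fin n) F)) ≤ W) ↔
    ((r = p ∧ 2 < p ∧ (∀ μ : Multiset ℕ, (∀ a ∈ μ, 0 < a ∧ a ≤ p) → μ.sum = n → ∃ ν : Multiset ℕ, ν ≤ μ ∧ ν.sum = m)) ∨
     (r = p ∧ p = 2 ∧ (Odd n ∨ Even m)) ∨
     (r = 2 ∧ p ≠ 2 ∧ (Odd n ∨ Even m ∨ (padicValNat 2 n ≤ padicValNat 2 (q + 1) ∧ q % 4 = 3))) ∨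
     (r ≠ p ∧ 2 < r ∧ ((i ≠ 2 ∧ c ≤ m ∧ m % c ≤ n % c) ∨ (i = 2 ∧ (r ∣ m ∨ padicValNat r n ≤ padicValNat r (q + 1)))))) := by
  have hf := hermStd_nondeg hq n
  have hN : Module.finrank F (Fin n → F) = n := by simp
  have hp := hermStd_nondeg hq m
  have hM : Module.finrank F (Fin m → F) = m := by simp
  have h : ((hermStd hq m).prod (hermStd hq (n - m))).Equivalent (hermStd hq n) :=
    (hp.prod (hermStd_nondeg hq _)).herm_equivalent (conj_ne_id hq) hf (by simp; omega)
  have e : ∀ W : Submodule F (Fin n → F), (Module.finrank F W = m ∧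
      ∀ u ∈ W, u ≠ 0 → ∃ v ∈ W, Cfsg.hermForm n F q u v ≠ 0) ↔
      ((hermStd hq n).restrict W).Equivalent (hermStd hq m) := fun W => by
    have : ∀ u v, Cfsg.hermForm n F q u v ≠ 0 ↔ (hermStd hq n).B u v ≠ 0 := fun u v => by
      rw [← hermStd_B hq, (hermStd hq n).symm]; simp
    simp only [this, nd_iff]
    exact ⟨fun h => h.2.herm_equivalent (conj_ne_id hq) hp (h.1.trans hM.symm),
      fun h => ⟨h.finrank_eq.trans hM, h.symm.nondeg hp⟩⟩
  rw [card_bridge e] at hrΩ
  refine (forall_su hq n r fun A => ∃ W : Submodule F _, Module.finrank F W = m ∧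
    (∀ u ∈ W, u ≠ 0 → ∃ v ∈ W, Cfsg.hermForm n F q u v ≠ 0) ∧ W.map A ≤ W).trans ((forall₃_congr
    fun g _ _ => (exists_congr fun W => and_assoc.symm).trans (fix_bridge e g)).trans ?_)
  have h1 := cast_ne_zero_iff (F := F) (r := r) p
  by_cases hrp : r = p
  · subst hrp
    rw [forall_po_herm hq hf (fun h => not_dvd_char (F := F) r one_ne_zero
      (by rw [pow_one]; exact h.trans (q1_dvd hq))) fun a ha g => fix_smul ha,
      herm_unip_nd hq hf r hp, hN, hM]
    rcases (Fact.out : r.Prime).eq_two_or_odd' with rfl | ho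
    · rw [partition_two (by omega) (by omega)]; simp
    · have h2 : 2 < r := (Fact.out : r.Prime).two_le.lt_of_ne (by rintro rfl; exact absurd ho (by decide))
      rw [partition_triv (by omega)]
      simp only [h2, h2.ne', true_and, false_and, or_false, ne_eq, not_true]
  rcases (Fact.out : r.Prime).eq_two_or_odd' with rfl | ho
  · have h3 := card_odd (F := F) (by simpa using h1.2 hrp)
    rw [card_sq hq, ← Nat.odd_iff, Nat.odd_pow_iff two_ne_zero] at h3
    rw [nd_one hq hf h3.add_one.two_dvd (by omega) hp (by omega), hN, hM, ← even_iff_two_dvd]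
    have h4 : Odd n → padicValNat 2 n = 0 := fun h => padicValNat.eq_zero_of_not_dvd h.not_two_dvd_nat
    simp only [hrp, Ne.symm hrp, NoB, false_and, false_or, lt_self_iff_false, and_false, or_false,
      true_and, ne_eq, not_false_iff, forall_const, Nat.odd_iff, Nat.even_iff] at h3 h4 ⊢
    omega
  have h2 : 2 < r := (Fact.out : r.Prime).two_le.lt_of_ne (by rintro rfl; exact absurd ho (by decide))
  have h3 := ord_eq_two (q := q) h2.ne'
  rw [← hi] at h3
  by_cases h4 : i = 2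
  · rw [nd_one hq hf (h3.1 h4) (by omega) hp (by omega), hN, hM]
    simp [hrp, h2, h2.ne', NoB, h4]
  · rw [forall_po_herm hq hf (mt h3.2 h4) fun a ha g => fix_smul ha,
      herm_nd hq hf (h1.2 hrp) h2.ne' hi hc h hrΩ, hN, hM]
    simp [hrp, h2, h2.ne', h4]

end Cfsg.Agent.S5954
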