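import Cfsg.Statements.S5956
import Cfsg.Agent.Lib.Lin.El11

set_option autoImplicit false
open scoped MatrixGroups
open Cfsg

namespace Cfsg.Agent.S5956

open CA.El CA.CForm CA.CForm.Form

/-- Elements of prime order of PSp_n(q) with no fixed nondegenerate `m`-space. Here `T = PSp_n(q)` with `n = 2d ≥ 4`, `(n, q) ≠ (4, 2)`, realised through the symplectic matrices over the field `F` with `q` elements (preserving the standard alternating form); an element of `T` of prime order `r` is such a matrix `x` with `x^r` scalar and `x` not scalar. For `r ≠ p` let `i` be the multiplicative order of `q` modulo `r`, `c = i` for `i` even and `c = 2i` for `i` odd, and write `k = n mod c`, `ℓ = m mod i`, `ℓ' = m mod c`, `n' = ⌊n/i⌋`, `m' = ⌊m/i⌋`, `t = (r−1)/i`. Let `m` be even with `2 ≤ m < n/2` and let `r` be a prime dividing the number of nondegenerate `m`-spaces. Then every element of `T` of order `r` fixes a nondegenerate `m`-space if and only if one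 of: (i) `r = p > 2` and every partition of `n` into parts of size at most `p` in which every odd part has even multiplicity contains (as a sub-multiset) a partition of `m` in which every odd part has even multiplicity; (ii) `r = p = 2` and (`n ≡ 2 (mod 4)` or `m ≡ 0 (mod 4)`); (iii) `r = 2 ≠ p`; (iv) `r ≠ p`, `r > 2`, `c ≤ m` and `k ≥ ℓ'`. -/
theorem result {F : Type*} [Field F] [Fintype F] {p : ℕ} [Fact p.Prime] [CharP F p] {q : ℕ} (hq : Fintype.card F = q)
    (d m : ℕ) (hd : 2 ≤ d) (hT : (d, q) ≠ (2, 2)) (hm : 2 ≤ m) (hme : Even m) (hmd : m < d)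
    (r : ℕ) [Fact r.Prime]
    (hrΩ : r ∣ Nat.card {W : Submodule F (Fin d ⊕ Fin d → F) // Module.finrank F ↥W = m ∧ (∀ u ∈ W, u ≠ 0 → ∃ v ∈ W, Cfsg.sympForm d F u v ≠ 0)})
    (i c : ℕ) (hi : i = orderOf (q : ZMod r)) (hc : c = if Even i then i else 2 * i) :
    (∀ x : ↥(Matrix.symplecticGroup (Fin d) F),
      (∃ z : F, ((x ^ r : ↥(Matrix.symplecticGroup (Fin d) F)) : Matrix (Fin d ⊕ Fin d) (Fin d ⊕ Fin d) F) = z • (1 : Matrix (Fin d ⊕ Fin d) (Fin d ⊕ Fin d) F)) →
      (∀ z : F, (x : Matrix (Fin d ⊕ Fin d) (Fin d ⊕ Fin d) F) ≠ z • (1 : Matrix (Fin d ⊕ Fin d) (Fin d ⊕ Fin d) F)) →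
      ∃ W : Submodule F (Fin d ⊕ Fin d → F), Module.finrank F ↥W = m ∧ (∀ u ∈ W, u ≠ 0 → ∃ v ∈ W, Cfsg.sympForm d F u v ≠ 0) ∧
        W.map (Matrix.toLin' (x : Matrix (Fin d ⊕ Fin d) (Fin d ⊕ Fin d) F)) ≤ W) ↔
    ((r = p ∧ 2 < p ∧ (∀ μ : Multiset ℕ, (∀ a ∈ μ, 0 < a ∧ a ≤ p) → (∀ a : ℕ, Odd a → Even (μ.count a)) → μ.sum = 2 * d →
        ∃ ν : Multiset ℕ, ν ≤ μ ∧ ν.sum = m ∧ ∀ a : ℕ, Odd a → Even (ν.count a))) ∨
     (r = p ∧ p = 2 ∧ ((2 * d) % 4 = 2 ∨ m % 4 = 0)) ∨
     (r = 2 ∧ p ≠ 2) ∨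
     (r ≠ p ∧ 2 < r ∧ c ≤ m ∧ m % c ≤ (2 * d) % c)) := by
  obtain rfl : q = Nat.card F := by rw [← hq, Nat.card_eq_fintype_card]
  have hf := sympStd_nondeg F d
  have hN := finrank_plus (F := F) d
  obtain ⟨a, rfl⟩ := hme.two_dvd
  have hp := sympStd_nondeg F a
  have hM := finrank_plus (F := F) a
  obtain ⟨p', h⟩ := exists_symp_compl hf hp (n := 2 * d - 2 * a) (by omega)
  have e : ∀ W : Submodule F (Fin d ⊕ Fin d → F), (Module.finrank F W = 2 * a ∧
      ∀ u ∈ W, u ≠ 0 → ∃ v ∈ W, Cfsg.sympForm d F u v ≠ 0) ↔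
      ((sympStd F d).restrict W).Equivalent (sympStd F a) := fun W => by
    simp only [← sympStd_B, nd_iff, ← hM]
    exact ⟨fun h => h.2.symp_equivalent hp h.1, fun h => ⟨h.finrank_eq, h.symm.nondeg hp⟩⟩
  rw [card_bridge e] at hrΩ
  refine (forall_sp d r fun A => ∃ W : Submodule F _, Module.finrank F W = 2 * a ∧
    (∀ u ∈ W, u ≠ 0 → ∃ v ∈ W, Cfsg.sympForm d F u v ≠ 0) ∧ W.map A ≤ W).trans ((forall₂_congr
    fun g _ => (exists_congr fun W => and_assoc.symm).trans (fix_bridge e g)).trans ?_)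
  have h2 := cast_ne_zero_iff (F := F) (r := 2) p
  rw [Nat.cast_ofNat] at h2
  rcases (Fact.out : r.Prime).eq_two_or_odd' with rfl | ho
  · by_cases hp2 : 2 = p
    · subst hp2
      have h3 : (2 : F) = 0 := by simpa using h2
      rw [forall_po (fun _ => rfl) hf (Or.inr h3) fun a ha g => (fix_smul ha).2,
        symp_two_nd h3 hf h (by omega), hN, hM]
      simp
    · exact iff_of_true (fun g => symp2_nd (h2.2 hp2) hf h) (by simp [Ne.symm hp2])
  · have h3 : 2 < r := (Fact.out : r.Prime).two_le.lt_of_ne (by rintro rfl; exact absurd ho (by decide))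
    rw [forall_po (fun _ => rfl) hf (Or.inl ho) fun a ha g => (fix_smul ha).2]
    by_cases hrp : r = p
    · subst hrp
      rw [symp_unip_nd r (h2.2 h3.ne) hf h, hN, hM]
      simp only [h3, h3.ne', true_and, false_and, or_false, ne_eq, not_true]
    · rw [symp_nd ((cast_ne_zero_iff p).2 hrp) h3.ne' hi hc hf h hrΩ, hN, hM]
      simp only [h3, h3.ne', hrp, true_and, false_and, false_or, ne_eq, not_false_iff]

end Cfsg.Agent.S5956
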