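import Cfsg.Statements.S5959
import Cfsg.Agent.Lib.Lin.El18

set_option autoImplicit false
open scoped MatrixGroups
open Cfsg

namespace Cfsg.Agent.S5959

open CA.El CA.CForm CA.CForm.Form

/-- Elements of order `p` of PSL_n(q) and imprimitive subgroups: a necessary condition. Here `T = PSL_n(F)` for a field `F` with `q = p^f` elements (`n ≥ 2`, `(n, q) ≠ (2, 2), (2, 3)`), `n = a·t` with `t ≥ 2`, and Ω is the set of direct-sum decompositions of `F^n` into `t` subspaces of dimension `a` (unordered; their number is the number of ordered ones divided by `t!`), whose stabilizers are the imprimitive subgroups of type GL_a(q) ≀ S_t (maximal except in some small cases; maximality is not assumed); an element of `T` of prime order `r` (a matrix `x` of determinant 1 with `x^r` scalar, `x` not scalar) fixes a point of Ω when it permutes the summands of some such decomposition. Suppose `p > 2` divides the number of such decompositions. If every element of `T` of order `p` stabilizes such a decomposition, then every partition of `n`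 into parts of size at most `p` in which the part `p` occurs fewer than `a` times contains (as a sub-multiset) a partition of `a`. -/
theorem result {F : Type*} [Field F] [Fintype F] {p : ℕ} [Fact p.Prime] [CharP F p] {q : ℕ} (hq : Fintype.card F = q)
    (n a t : ℕ) (hn : 2 ≤ n) (hT : (n, q) ≠ (2, 2) ∧ (n, q) ≠ (2, 3)) (hat : n = a * t) (ha : 1 ≤ a) (ht : 2 ≤ t)
    (hp : 2 < p) (hΩ : p ∣ Nat.card {D : Fin t → Submodule F (Fin n → F) // Cfsg.Geo.IsMDecomposition a D} / Nat.factorial t)
    (h : ∀ x : Matrix.SpecialLinearGroup (Fin n) F,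
      (∃ z : F, ((x ^ p : Matrix.SpecialLinearGroup (Fin n) F) : Matrix (Fin n) (Fin n) F) = z • (1 : Matrix (Fin n) (Fin n) F)) →
      (∀ z : F, (x : Matrix (Fin n) (Fin n) F) ≠ z • (1 : Matrix (Fin n) (Fin n) F)) →
      ∃ D : Fin t → Submodule F (Fin n → F), Cfsg.Geo.IsMDecomposition a D ∧
        ∃ σ : Equiv.Perm (Fin t), ∀ j, (D j).map (Matrix.toLin' (x : Matrix (Fin n) (Fin n) F)) = D (σ j)) :
    (∀ μ : Multiset ℕ, (∀ b ∈ μ, 0 < b ∧ b ≤ p) → μ.sum = n → μ.count p < a → ∃ ν : Multiset ℕ, ν ≤ μ ∧ ν.sum = a) := by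
  obtain rfl : q = Nat.card F := by rw [← hq, Nat.card_eq_fintype_card]
  have hN : a * t = Module.finrank F (Fin n → F) := by simp [hat]
  have e : ∀ D : Fin t → Submodule F (Fin n → F), Cfsg.Geo.IsMDecomposition a D ↔ Dec (zf F _) a D :=
    fun D => ((dec_iff hN ha ht).trans (and_iff_left fun _ _ _ _ _ _ _ => rfl)).symm
  simp only [e, ← imp_iff hN ha] at *
  intro μ h1 h2 h3
  by_cases h4 : ∀ a ∈ μ, a ≤ 1
  · obtain ⟨ν, h5, rfl⟩ := exists_le_of_le_one h1 h4 (m := a) (by nlinarith)
    exact ⟨_, h5, by simp⟩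
  rw [forall_SL p (Imp (zf F _) a), forall_po_iff (by simpa using not_dvd_char (F := F) p one_ne_zero)
    fun A c hc H => H.smul hc] at h
  have b1 := adm_unip (k := Kind.symp F) μ fun a ha => (h1 a ha).1
  obtain ⟨u, hu⟩ := CA.Rcf.exists_equiv_edivs_eq (V := Fin n → F) b1.1 b1.2.1 ((dg_unip μ).trans (by simpa))
  have h5 : orderOf u = p := (Subgroup.orderOf_coe (zi u)).trans (order_unip p (g := zi u) hu h1 h4)
  exact lin_unip p (by omega) h5 hu h3 (h u h5)

end Cfsg.Agent.S5959
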