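import Cfsg.Statements.S5965
import Cfsg.Agent.Lib.Lin.El19

set_option autoImplicit false
open scoped MatrixGroups
open Cfsg

namespace Cfsg.Agent.S5965



/-- Elements of odd prime order r ≠ p of PSL_n(q) and subfield subgroups. Here `T = PSL_n(F)` for a field `F` with `q = p^f` elements (`n ≥ 2`, `(n, q) ≠ (2, 2), (2, 3)`), `F₀` is the subfield with `q₀` elements where `q = q₀^k` for a prime `k`, and `H` is the subgroup of matrices of determinant 1 lying in the subfield group of `F₀` (invertible matrices over `F₀` times scalars) — a maximal subgroup of type GL_n(q₀) (the case `n = 2`, `q₀ = 2` is excluded); Ω is the set of `T`-conjugates of `H` (cosets of `H`), so an element of `T` of prime order `r` (a matrix `x` of determinant 1 with `x^r` scalar, `x` not scalar) fixes a point of Ω when some conjugate of `x` by a matrix of determinant 1 lies in `H`. Let `r ≠ p` be an odd prime dividing the index of `H`, with `(n, r) ≠ (6, 3)` and, when `r = k`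 divides `q₀ − 1`, with `(n)_r ≤ (q − 1)_r`. Then every element of `T` of order `r` is conjugate in `T` into `H` if and only if `r = k`, or `k = 2`, `r = n ∈ {3, 5}` and `(q₀ + 1)_r = r`. The two excluded cases, `(n, r) = (6, 3)` and `r = k ∣ q₀ − 1` with `(n)_r > (q − 1)_r`, are ones where this criterion can fail, so they are left out. -/
theorem result {F : Type*} [Field F] [Fintype F] {p : ℕ} [Fact p.Prime] [CharP F p] {q : ℕ} (hq : Fintype.card F = q)
    (n : ℕ) (hn : 2 ≤ n) (hT : (n, q) ≠ (2, 2) ∧ (n, q) ≠ (2, 3))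
    (F₀ : Subfield F) (k q₀ : ℕ) (hk : k.Prime) (hF₀ : Nat.card ↥F₀ = q₀) (hqk : q = q₀ ^ k) (hC5 : ¬ (n = 2 ∧ q₀ = 2)) (r : ℕ) [Fact r.Prime] (hr2 : r ≠ 2) (hrp : r ≠ p) (hgap : ¬ (n = 6 ∧ r = 3)) (hgapk : r = k → r ∣ q₀ - 1 → padicValNat r n ≤ padicValNat r (q - 1)) (hΩ : r ∣ ((Cfsg.Geo.subfieldSubgroup F₀ 1).comap (Matrix.SpecialLinearGroup.toGL : Matrix.SpecialLinearGroup (Fin n) F →* GL (Fin n) F)).index) :
    (∀ x : Matrix.SpecialLinearGroup (Fin n) F,
      (∃ z : F, ((x ^ r : Matrix.SpecialLinearGroup (Fin n) F) : Matrix (Fin n) (Fin n) F) = z • (1 : Matrix (Fin n) (Fin n) F)) →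
      (∀ z : F, (x : Matrix (Fin n) (Fin n) F) ≠ z • (1 : Matrix (Fin n) (Fin n) F)) →
      ∃ P : Matrix.SpecialLinearGroup (Fin n) F, P⁻¹ * x * P ∈ ((Cfsg.Geo.subfieldSubgroup F₀ 1).comap (Matrix.SpecialLinearGroup.toGL : Matrix.SpecialLinearGroup (Fin n) F →* GL (Fin n) F))) ↔
    (r = k ∨ (k = 2 ∧ r = n ∧ (n = 3 ∨ n = 5) ∧ padicValNat r (q₀ + 1) = 1)) := by
  have : Nonempty (Fin n) := ⟨⟨0, by omega⟩⟩
  subst hF₀
  rw [← Nat.card_eq_fintype_card] at hq
  subst hq
  have hp : r.Prime := Fact.out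
  have hr : (r : F) ≠ 0 := (CA.El.cast_ne_zero_iff p).2 hrp
  have hr' : (r : F₀) ≠ 0 := fun e => hr (by simpa using congrArg F₀.subtype e)
  obtain ⟨y, h3, h4⟩ := CA.El.sub_index hΩ
  have h5 := CA.El.card_SL' (F := F) (by omega : 1 ≤ n)
  have h6 := CA.El.card_SL' (F := F₀) (by omega : 1 ≤ n)
  have q1 := CA.El.two_le_card (F := F)
  have q0 := CA.El.two_le_card (F := F₀)
  rw [CA.El.sub_forall, CA.El.sub_odd hk hqk hr hr2 (by simpa) (by simpa using hgap) (by simpa using hgapk)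
    (CA.El.sub_num q0 hk (by simpa using CA.El.not_dvd_card_pow hr' 1) h3 h4 (hqk ▸ h5) h6) ?_ ?_, Fintype.card_fin]
  · have : r ∣ Nat.card F ^ n.choose 2 * CA.El.Pq (Nat.card F) n := h5 ▸ h4 ▸ (h3.mul_right _).mul_left _
    obtain ⟨j, h7, h8⟩ := (Prime.dvd_finsetProd_iff hp.prime _).1
      ((hp.dvd_mul.1 this).resolve_left (CA.El.not_dvd_card_pow hr _))
    rw [CA.El.dvd_pow_sub_one_iff (by omega)] at h8
    have := Nat.le_of_dvd j.succ_pos h8
    rw [Finset.mem_range] at h7; rw [Fintype.card_fin]; omega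
  · rw [Fintype.card_fin]
    rintro ⟨rfl, rfl, h7⟩
    simp only [CA.El.Pq, Finset.prod_range_succ, Finset.range_zero, Finset.prod_empty, one_mul, zero_add, pow_one,
      Nat.choose_self] at h5 h6
    rw [mul_left_comm, ← h4] at h5
    rw [mul_left_comm] at h6
    have h8 := Nat.eq_of_mul_eq_mul_left (by omega) h5
    rw [Nat.eq_of_mul_eq_mul_left (by omega) h6, ← hqk, show (1 + 1 : ℕ) = 2 from rfl, ← Nat.one_pow 2, Nat.sq_sub_sq,
      Nat.one_pow, ← mul_assoc, ← mul_assoc] at h8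
    have h9 : r ∣ Nat.card F * (Nat.card F + 1) := Nat.eq_of_mul_eq_mul_right (by omega) h8 ▸ h3.mul_right _
    have h10 := (hp.dvd_mul.1 h9).resolve_left (by simpa using CA.El.not_dvd_card_pow hr 1)
    have h11 := Nat.dvd_sub h10 h7
    rw [show Nat.card F + 1 - (Nat.card F - 1) = 2 by omega] at h11
    exact hr2 ((Nat.prime_dvd_prime_iff_eq hp Nat.prime_two).1 h11)

end Cfsg.Agent.S5965
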