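import Cfsg.Statements.S5968
import Cfsg.Agent.Lib.Lin.El14

set_option autoImplicit false
open scoped MatrixGroups
open Cfsg

namespace Cfsg.Agent.S5968

open CA.El CA.CForm CA.CForm.Form

/-- Derangements of odd prime order of PSL_n(q) on the cosets of a symplectic-type subgroup. Here `T = PSL_n(F)` for a field `F` with `q` elements, `n ≥ 4` even, `f` is a nondegenerate alternating form on `F^n`, and `H` is the subgroup of matrices of determinant 1 preserving `f` up to a scalar — a maximal subgroup of type Sp_n(q); Ω is the set of `T`-conjugates of `H` (cosets of `H`), so an element of `T` of prime order `r` (a matrix `x` of determinant 1 with `x^r` scalar, `x` not scalar) fixes a point of Ω when some conjugate of `x` by a matrix of determinant 1 preserves `f` up to a scalar. For every odd prime `r` dividing the index of `H`, with `(n, r) ≠ (6, 3)`, there is an element of `T` of order `r` with no conjugate in `H`. (For `n = 6`, `r = 3` this can fail: when `(q − 1)_3 = 3` every element of order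 3 is conjugate into `H`.) -/
theorem result {F : Type*} [Field F] [Fintype F] {p : ℕ} [Fact p.Prime] [CharP F p] {q : ℕ} (hq : Fintype.card F = q)
    (n : ℕ) (hn : 4 ≤ n) (he : Even n) (f : (Fin n → F) → (Fin n → F) → F) (hf : Cfsg.Geo.IsSymplecticForm f)
    (r : ℕ) [Fact r.Prime] (hr2 : r ≠ 2) (hgap : ¬ (n = 6 ∧ r = 3)) (hΩ : r ∣ ((Cfsg.Geo.similarityGroup f).comap (Matrix.SpecialLinearGroup.toGL : Matrix.SpecialLinearGroup (Fin n) F →* GL (Fin n) F)).index) :
    ∃ x : Matrix.SpecialLinearGroup (Fin n) F,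
      (∃ z : F, ((x ^ r : Matrix.SpecialLinearGroup (Fin n) F) : Matrix (Fin n) (Fin n) F) = z • (1 : Matrix (Fin n) (Fin n) F)) ∧
      (∀ z : F, (x : Matrix (Fin n) (Fin n) F) ≠ z • (1 : Matrix (Fin n) (Fin n) F)) ∧
      ∀ P : Matrix.SpecialLinearGroup (Fin n) F, P⁻¹ * x * P ∉ ((Cfsg.Geo.similarityGroup f).comap (Matrix.SpecialLinearGroup.toGL : Matrix.SpecialLinearGroup (Fin n) F →* GL (Fin n) F)) := by
  obtain rfl : q = Nat.card F := by rw [← hq, Nat.card_eq_fintype_card]
  have hN : Module.finrank F (Fin n → F) = n := by simp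
  have hH : ∀ y : GL (Fin n) F, y ∈ Cfsg.Geo.similarityGroup f ↔
      ∃ μ ≠ 0, SimB (CA.AschTForm.toSymp hf) (Matrix.toLin' y.1) μ := fun y =>
    ⟨fun ⟨c, h⟩ => ⟨c, c.ne_zero, fun u v => h v u⟩, fun ⟨c, h0, h⟩ => ⟨Units.mk0 c h0, fun u v => h v u⟩⟩
  have h0 := CA.AschTForm.toSymp_nondeg hf
  rw [Subgroup.index_comap, range_toGL] at hΩ
  obtain ⟨y, h1, h2⟩ := c8_num hH hΩ
  have ho := (Fact.out : r.Prime).odd_of_ne_two hr2
  have := (c8_iff hH (X := False) (iff_false_intro (symp_odd p ho h1 h0 (by omega) (hN.symm ▸ hgap) h2))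
    False.elim).1
  rw [← forall_toGL] at this
  by_contra h
  exact this fun x h3 h4 => by_contra fun h5 => h ⟨x, h3, h4, fun P h6 => h5 ⟨P, h6⟩⟩

end Cfsg.Agent.S5968
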