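import Cfsg.Statements.S5969
import Cfsg.Agent.Lib.Lin.ElF
import Cfsg.Agent.Lib.Lin.SL2Basic

set_option autoImplicit false
open scoped MatrixGroups
open Cfsg

namespace Cfsg.Agent.S5969

section
open Module Polynomial CA.Rcf CA.El CA.ElF

variable {F : Type*} [Field F] {V : Type*} [AddCommGroup V] [Module F V] [FiniteDimensional F V]

theorem ker_one (hn : finrank F V = 2) {A : End F V} (h : (A - 1) ^ 2 = 0) (h1 : A ≠ 1) :
    finrank F (LinearMap.ker (A - 1)) = 1 := by
  have a1 := (LinearMap.ker (A - 1)).finrank_le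
  have a2 := (A - 1).finrank_range_add_finrank_ker
  have a3 := Submodule.finrank_mono (LinearMap.range_le_ker_iff.2 ((sq (A - 1)).symm.trans h))
  have a4 : finrank F (LinearMap.range (A - 1)) ≠ 0 := fun e =>
    h1 (sub_eq_zero.1 (LinearMap.range_eq_bot.1 (Submodule.finrank_eq_zero.1 e)))
  omega

theorem main [Finite F] {L : Type*} [Field L] [Algebra F L] [FiniteDimensional F L] (hL : finrank F L = 2)
    (h2 : 2 ≤ finrank F V) (he : 2 ∣ finrank F V) :
    (∀ g : V ≃ₗ[F] V, LinearMap.det (g : End F V) = 1 → PO 2 (g : End F V) → NF L (g : End F V)) ↔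
      (finrank F V = 2 ∨ (Odd (Nat.card F) ∧ padicValNat 2 (Nat.card F - 1) ≤ padicValNat 2 (finrank F V))) := by
  classical
  have hq := two_le_card (F := F)
  by_cases h0 : (2 : F) = 0
  · have := (CharP.charP_iff_prime_eq_zero (R := F) Nat.prime_two).2 (by exact_mod_cast h0)
    have h1 := not_dvd_char (F := F) 2 one_ne_zero
    rw [pow_one] at h1
    rw [forall_po_iff h1 fun A a _ h => h.smul a, or_iff_left fun h => h1 (by have := Nat.odd_iff.1 h.1; omega)]
    refine ⟨fun h => by_contra fun h3 => ?_, fun h u hu => ?_⟩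
    · obtain ⟨g, h4, h5⟩ := exists_tv (F := F) (V := V) 2 h2
      exact not_NF hL.ge (by omega) one_ne_zero h5 (h g h4)
    obtain ⟨v, h3, h4⟩ := exists_frob (hL.trans h.symm)
    have h5 : ∀ w : V ≃ₗ[F] V, w ^ 2 = 1 → ((w : End F V) - 1) ^ 2 = 0 := fun w hw =>
      (pow_char_pow_eq_one_iff 2 w 1).1 hw
    have h6 := h5 v (LinearEquiv.toLinearMap_injective (by
      simpa [h4, h, sub_eq_zero, coe_pow', End.one_eq_id] using minpoly.aeval F (v : End F V)))
    have h7 := h5 u (hu ▸ pow_orderOf_eq_one u)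
    refine h3.sim (sim_of_sq_eq_zero h6 h7 rfl ((ker_one h h6 fun e => ?_).trans (ker_one h h7 fun e => ?_).symm))
    · have := Module.nontrivial_of_finrank_pos (R := F) (M := V) (by omega)
      have := congrArg natDegree h4
      rw [e, minpoly.one, h, ← C_1, natDegree_X_sub_C, natDegree_X_pow_sub_C] at this
      omega
    · rw [show u = 1 from LinearEquiv.toLinearMap_injective e, orderOf_one] at hu
      omega
  have h1 : 2 ∣ Nat.card F - 1 := by
    have := Nat.odd_iff.1 (CA.SL2Basic.odd_card_of_two_ne_zero h0); omega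
  have hm : (-1 : F) ≠ 1 := fun e => h0 (by linear_combination -e)
  rw [and_iff_right (CA.SL2Basic.odd_card_of_two_ne_zero h0), ← not_lt,
    ← det_root_iff dvd_rfl (by omega) neg_one_sq hm]
  constructor
  · refine fun h => or_iff_not_imp_left.2 fun h3 ⟨a, a1, a2⟩ => ?_
    have ha : a ≠ 0 := by rintro rfl; simp [show finrank F V ≠ 0 by omega] at a2
    have hb : -a ≠ a := fun e => mul_ne_zero h0 ha (by linear_combination -e)
    obtain ⟨g, hg⟩ := exists_diag (V := V) (Λ := -a ::ₘ Multiset.replicate (finrank F V - 1) a)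
      (by simp [Multiset.mem_replicate, ha, ha.symm]) (by simp; omega)
    refine not_NF hL.ge (by omega) ha ?_ (h g ?_ (po_diag hg (c := a ^ 2) (by simp [Multiset.mem_replicate])
      (Multiset.mem_cons_self _ _) (by simp [Multiset.mem_replicate]; omega) hb))
    · rw [eig_diag hg]; simp [hb.symm]; omega
    · rw [det_linear hg, ← a2, show finrank F V = finrank F V - 1 + 1 by omega]; simp; ring
  intro h g h3 h4
  rcases po_cases h4 h3 with ⟨a, u, a1, a2, a3, a4⟩ | ⟨-, -, c, a1, a2⟩
  swap
  · exact of_typeB hL a1 a2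
  obtain ⟨Λ, b1, b2, b3⟩ := exists_lam' h1 a2
  have b4 : Λ = Multiset.replicate (Λ.count 1) 1 + Multiset.replicate (Λ.count (-1)) (-1) := by
    ext x
    by_cases hx : x ∈ Λ
    · rcases sq_eq_one_iff.1 (b3 x hx) with rfl | rfl <;> simp [Multiset.count_replicate, hm, hm.symm]
    · simp only [Multiset.count_add, Multiset.count_replicate]
      split_ifs <;> simp_all
  generalize Λ.count 1 = s, Λ.count (-1) = t at b4
  subst b4
  rw [a4]
  refine NF.smul ?_ a
  simp only [Multiset.card_add, Multiset.card_replicate] at b2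
  by_cases ht : 2 ∣ t
  · exact of_two (a := 1) (b := -1) (s := s) (t := t) (by rw [hL]; omega) (by rwa [hL]) (by simpa using b1)
  rw [a4, LinearMap.det_smul, det_linear b1] at h3
  rcases h with h | h
  · obtain rfl : t = 1 := by omega
    obtain rfl : s = 1 := by omega
    refine of_charpoly (hL.trans h.symm) (by rw [h]; exact_mod_cast h0) (isSS_of_order (by exact_mod_cast h0) a2) ?_
    rw [charpoly_eq_prod, b1, h]; simp; ring
  · exact absurd ⟨a, pow_card_sub_one a1, by simpa [(Nat.odd_iff.2 (by omega) : Odd t).neg_one_pow] using h3⟩ h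

end

/-- Involutions of PSL_n(q) and extension-field subgroups of degree 2. Here `T = PSL_n(F)` for a field `F` with `q = p^f` elements (`n ≥ 2`, `(n, q) ≠ (2, 2), (2, 3)`), `k` is a prime dividing `n`, `K` is a subalgebra of the `n × n` matrices that is a field of degree `k` over `F` (an extension-field structure F_{q^k} on `F^n`), and `H` is the subgroup of matrices of determinant 1 normalizing `K` — a subgroup of type GL_{n/k}(q^k) (maximal except in some small cases; maximality is not assumed); Ω is the set of cosets of `H` in `T`, so an element of `T` of prime order `r` (a matrix `x` of determinant 1 with `x^r` scalar, `x` not scalar) fixes a point of Ω when some conjugate of `x` by a matrix of determinant 1 normalizes `K`. Take `k = 2` and suppose the index of `H` is even. Then every involution of `T` is conjugate in `T` into `H` if and only if `n = 2`, or `q` is odd and `(q − 1)_2 ≤ (n)_2`. -/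
theorem result {F : Type*} [Field F] [Fintype F] {p : ℕ} [Fact p.Prime] [CharP F p] {q : ℕ} (hq : Fintype.card F = q)
    (n : ℕ) (hn : 2 ≤ n) (hT : (n, q) ≠ (2, 2) ∧ (n, q) ≠ (2, 3))
    (k : ℕ) (hk : k.Prime) (hkn : k ∣ n) (K : Subalgebra F (Matrix (Fin n) (Fin n) F)) (hK : Cfsg.Geo.IsFieldSubalgebra k K) (hk2 : k = 2) (hΩ : 2 ∣ ((Cfsg.Geo.subalgebraNormalizer K).comap (Matrix.SpecialLinearGroup.toGL : Matrix.SpecialLinearGroup (Fin n) F →* GL (Fin n) F)).index) :
    (∀ x : Matrix.SpecialLinearGroup (Fin n) F,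
      (∃ z : F, ((x ^ 2 : Matrix.SpecialLinearGroup (Fin n) F) : Matrix (Fin n) (Fin n) F) = z • (1 : Matrix (Fin n) (Fin n) F)) →
      (∀ z : F, (x : Matrix (Fin n) (Fin n) F) ≠ z • (1 : Matrix (Fin n) (Fin n) F)) →
      ∃ P : Matrix.SpecialLinearGroup (Fin n) F, P⁻¹ * x * P ∈ ((Cfsg.Geo.subalgebraNormalizer K).comap (Matrix.SpecialLinearGroup.toGL : Matrix.SpecialLinearGroup (Fin n) F →* GL (Fin n) F))) ↔
    (n = 2 ∨ (Odd q ∧ padicValNat 2 (q - 1) ≤ padicValNat 2 n)) := by
  obtain rfl : q = Nat.card F := by rw [← hq, Nat.card_eq_fintype_card]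
  subst hk2
  obtain ⟨L, _, _, _, h1, h2⟩ := CA.ElF.bridge (by omega) hK
  simp only [h2]
  have h3 := (CA.El.forall_SL 2 (CA.ElF.NF (F := F) L)).trans (main (V := Fin n → F) h1 (by simpa) (by simpa))
  rwa [Module.finrank_fin_fun] at h3

end Cfsg.Agent.S5969
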