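import Cfsg.Statements.S5970
import Cfsg.Agent.Lib.Lin.ElF

set_option autoImplicit false
open scoped MatrixGroups
open Cfsg

namespace Cfsg.Agent.S5970

section
open Module Polynomial CA.Rcf CA.El CA.ElF

variable {F : Type*} [Field F] {V : Type*} [AddCommGroup V] [Module F V] [FiniteDimensional F V] [Finite F]
  {L : Type*} [Field L] [Algebra F L] [FiniteDimensional F L] {r : ℕ} [hr : Fact r.Prime]

theorem pos (hL : finrank F L = r) (hV : finrank F V = r) (h0 : (r : F) ≠ 0)
    (h : orderOf (Nat.card F : ZMod r) = r - 1) {u : V ≃ₗ[F] V} (hu : orderOf u = r) (h2 : r ≠ 2) :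
    NF L (u : End F V) := by
  refine of_charpoly (hL.trans hV.symm) (by rwa [hV]) (isSS_of_order h0 hu) ?_
  obtain ⟨k, m, h1, h3, h4⟩ := (orderOf_eq_prime_iff h0 u).1 hu
  have h5 := finrank_eq_of_edivs h0 h3 h4
  have h6 := Multiset.card_pos.2 h1
  have h7 := hr.out.two_le
  rw [h, hV] at h5
  have h8 : m.card = 1 := by
    by_contra h8
    have := Nat.mul_le_mul_left (r - 1) (show 2 ≤ m.card by omega)
    omega
  obtain ⟨d, rfl⟩ := Multiset.card_eq_one.1 h8
  obtain rfl : k = 1 := by rw [h8] at h5; omega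
  have h9 := h3 d (Multiset.mem_singleton_self d)
  obtain rfl : cyclotomic r F = d := eq_of_monic_of_dvd_of_natDegree_le (mem_cycT.1 h9).2.1 (cyclotomic.monic r F)
    (mem_cycT.1 h9).2.2 (by rw [(natDegree_cycT h0).1 d h9, h, natDegree_cyclotomic, Nat.totient_prime hr.out])
  rw [charpoly_eq_prod, h4, hV, ← cyclotomic_prime_mul_X_sub_one]
  simp [mul_comm]

theorem main (hL : finrank F L = r) (hV : finrank F V = r) (h0 : (r : F) ≠ 0) (h3 : 3 < r) :
    (∀ g : V ≃ₗ[F] V, LinearMap.det (g : End F V) = 1 → PO r (g : End F V) → NF L (g : End F V)) ↔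
      orderOf (Nat.card F : ZMod r) = r - 1 := by
  classical
  have key : ∀ g : V ≃ₗ[F] V, PO r (g : End F V) → 2 ≤ finrank F (End.eigenspace (g : End F V) 1) →
      ¬NF L (g : End F V) := fun g h1 h2 h4 => h1.2 1 (h4.eq_smul (hL.trans hV.symm) (hV ▸ hr.out) one_ne_zero h2)
  by_cases h1 : r ∣ Nat.card F - 1
  · refine iff_of_false (fun h => ?_) (by rw [ord_eq_one_iff.2 h1]; omega)
    obtain ⟨z, hz⟩ := exists_prim h1
    have z1 := hz.ne_one (by omega)
    have z0 := hz.ne_zero (by omega)
    obtain ⟨g, hg⟩ := exists_diag (V := V) (Λ := z ::ₘ z⁻¹ ::ₘ Multiset.replicate (r - 2) 1)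
      (by simp [Multiset.mem_replicate, z0.symm]) (by simp; omega)
    have h2 : PO r (g : End F V) := po_diag hg (c := 1) (by simp [Multiset.mem_replicate, hz.pow_eq_one])
      (Multiset.mem_cons_self _ _) (by simp [Multiset.mem_replicate]; omega) z1
    refine key g h2 ?_ (h g (by rw [det_linear hg]; simp [z0]) h2)
    rw [eig_diag hg]; simp [z1.symm, (inv_ne_one.2 z1).symm]; omega
  rw [forall_po_iff h1 fun A a _ h => h.smul a]
  refine ⟨fun h => by_contra fun h2 => ?_, fun h u hu => pos hL hV h0 h hu (by omega)⟩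
  obtain ⟨d, hd⟩ := exists_mem_cycT h0
  have h4 := Nat.le_of_dvd (by omega) (Dvd.intro_left _ (natDegree_cycT h0).2)
  obtain ⟨g, hg⟩ := exists_equiv_cycT (V := V) h0 (m := {d}) (by simpa) (k := r - orderOf (Nat.card F : ZMod r))
    (by simp; omega)
  have h5 := (orderOf_eq_prime_iff h0 g).2 ⟨_, _, by simp, by simpa, hg⟩
  refine key g (det_po_of_order h1 h5).2 ?_ (h g h5)
  rw [finrank_eigenspace, hg, C_1]
  simp only [Multiset.map_add, Multiset.map_replicate, Multiset.sum_add, Multiset.sum_replicate,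
    kd_of_dvd (C_1 (R := F) ▸ X_sub_C_ne_zero (1 : F)) dvd_rfl, natDegree_X_sub_one, smul_eq_mul]
  omega

end

/-- Elements of order `n` of PSL_n(q), `n` prime, and the normalizer of a Singer cycle. Here `T = PSL_n(F)` for a field `F` with `q = p^f` elements (`n ≥ 2`, `(n, q) ≠ (2, 2), (2, 3)`), `k` is a prime dividing `n`, `K` is a subalgebra of the `n × n` matrices that is a field of degree `k` over `F` (an extension-field structure F_{q^k} on `F^n`), and `H` is the subgroup of matrices of determinant 1 normalizing `K` — a subgroup of type GL_{n/k}(q^k) (maximal except in some small cases; maximality is not assumed); Ω is the set of cosets of `H` in `T`, so an element of `T` of prime order `r` (a matrix `x` of determinant 1 with `x^r` scalar, `x` not scalar) fixes a point of Ω when some conjugate of `x` by a matrix of determinant 1 normalizes `K`. Take `k = n > 3` prime with `n ≠ p` (so `H` is the normalizer of a Singer cycle), and suppose `n` divides the index of `H`. Then every element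 of `T` of order `n` is conjugate in `T` into `H` if and only if the multiplicative order of `q` modulo `n` is `n − 1`. -/
theorem result {F : Type*} [Field F] [Fintype F] {p : ℕ} [Fact p.Prime] [CharP F p] {q : ℕ} (hq : Fintype.card F = q)
    (n : ℕ) (hn : 2 ≤ n) (hT : (n, q) ≠ (2, 2) ∧ (n, q) ≠ (2, 3))
    (k : ℕ) (hk : k.Prime) (hkn : k ∣ n) (K : Subalgebra F (Matrix (Fin n) (Fin n) F)) (hK : Cfsg.Geo.IsFieldSubalgebra k K) (hkn' : k = n) (hn3 : 3 < n) (hnp : n ≠ p) (hΩ : n ∣ ((Cfsg.Geo.subalgebraNormalizer K).comap (Matrix.SpecialLinearGroup.toGL : Matrix.SpecialLinearGroup (Fin n) F →* GL (Fin n) F)).index) :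
    (∀ x : Matrix.SpecialLinearGroup (Fin n) F,
      (∃ z : F, ((x ^ n : Matrix.SpecialLinearGroup (Fin n) F) : Matrix (Fin n) (Fin n) F) = z • (1 : Matrix (Fin n) (Fin n) F)) →
      (∀ z : F, (x : Matrix (Fin n) (Fin n) F) ≠ z • (1 : Matrix (Fin n) (Fin n) F)) →
      ∃ P : Matrix.SpecialLinearGroup (Fin n) F, P⁻¹ * x * P ∈ ((Cfsg.Geo.subalgebraNormalizer K).comap (Matrix.SpecialLinearGroup.toGL : Matrix.SpecialLinearGroup (Fin n) F →* GL (Fin n) F))) ↔
    orderOf (q : ZMod n) = n - 1 := by
  obtain rfl : q = Nat.card F := by rw [← hq, Nat.card_eq_fintype_card]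
  subst hkn'
  have := Fact.mk hk
  obtain ⟨L, _, _, _, h1, h2⟩ := CA.ElF.bridge (by omega) hK
  simp only [h2]
  exact (CA.El.forall_SL k (CA.ElF.NF (F := F) L)).trans
    (main (V := Fin k → F) h1 (by simp) ((CA.El.cast_ne_zero_iff p).2 hnp) hn3)

end Cfsg.Agent.S5970
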