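import Cfsg.Statements.S5971
import Cfsg.Agent.S5970

set_option autoImplicit false
open scoped MatrixGroups
open Cfsg

namespace Cfsg.Agent.S5971

section
open Module Polynomial CA.Rcf CA.El CA.ElF

variable {F : Type*} [Field F] {V : Type*} [AddCommGroup V] [Module F V] [FiniteDimensional F V] [Finite F]
  {L : Type*} [Field L] [Algebra F L] [FiniteDimensional F L]

theorem main (hL : finrank F L = 3) (hV : finrank F V = 3) (h1 : 3 ∣ Nat.card F - 1) :
    (∀ g : V ≃ₗ[F] V, LinearMap.det (g : End F V) = 1 → PO 3 (g : End F V) → NF L (g : End F V)) ↔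
      ¬9 ∣ Nat.card F - 1 := by
  classical
  have h0 : ((3 : ℕ) : F) ≠ 0 := natCast_ne_zero_of_dvd one_ne_zero (by rwa [pow_one])
  have key : ∀ z : F, z ^ 3 = 1 → z ≠ 1 → ((∃ a : F, a ^ (Nat.card F - 1) = 1 ∧ a ^ 3 * z = 1) ↔
      9 ∣ Nat.card F - 1) := fun z z1 z2 => by
    rw [det_root_iff dvd_rfl three_ne_zero z1 z2, padicValNat_self]
    exact (padicValNat_dvd_iff_le (p := 3) (n := 2) (ne_zero_of_dvd dvd_rfl)).symm
  constructor
  · intro h h9
    obtain ⟨z, hz⟩ := exists_prim h1
    have z1 := hz.ne_one (by omega)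
    obtain ⟨a, -, a2⟩ := (key z hz.pow_eq_one z1).2 h9
    have ha : a ≠ 0 := by rintro rfl; simp at a2
    have hb : a * z ≠ a := by simpa [ha]
    obtain ⟨g, hg⟩ := exists_diag (V := V) (Λ := {a * z, a, a})
      (by simp [ha.symm, ha, hz.ne_zero three_ne_zero]) (by simp [hV])
    refine not_NF (by omega) hV.ge ha ?_ (h g ?_ (po_diag hg (c := a ^ 3) (by simp [mul_pow, hz.pow_eq_one])
      (a := a * z) (by simp) (by simp) hb))
    · rw [eig_diag hg]; simp [hb.symm, hV]
    · rw [det_linear hg, ← a2]; simp; ring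
  intro h g h3 h4
  rcases po_cases h4 h3 with ⟨a, u, a1, a2, a3, a4⟩ | ⟨-, -, c, a1, a2⟩
  swap
  · exact of_typeB hL a1 a2
  obtain ⟨Λ, b1, b2, b3⟩ := exists_lam' h1 a2
  rw [a4, LinearMap.det_smul, det_linear b1, hV] at h3
  obtain ⟨x, y, z, rfl⟩ := Multiset.card_eq_three.1 (b2.trans hV)
  simp only [Multiset.insert_eq_cons, Multiset.mem_cons, Multiset.mem_singleton, forall_eq_or_imp, forall_eq,
    Multiset.prod_cons, Multiset.prod_singleton] at b3 h3
  obtain ⟨c1, c2, c3⟩ := b3
  have h5 : x * (y * z) = 1 := by_contra fun h5 =>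
    h ((key _ (by rw [mul_pow, mul_pow, c1, c2, c3]; simp) h5).1 ⟨a, pow_card_sub_one a1, h3⟩)
  have h6 : x ≠ y := by
    rintro rfl
    obtain rfl : x = z := by grind
    exact a3 x ((eq_smul_iff _ _).2 (by simp [b1]))
  have h7 : x ^ 2 + x * y + y ^ 2 = 0 := mul_left_cancel₀ (sub_ne_zero.2 h6) (by linear_combination c1 - c2)
  have h8 : x + y + z = 0 := by grind
  have h9 : x * y + y * z + z * x = 0 := by grind
  rw [a4]
  refine NF.smul (of_charpoly (hL.trans hV.symm) (by rwa [hV]) (isSS_of_order h0 a2) ?_) a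
  have d1 := congrArg C h5
  have d2 := congrArg C h8
  have d3 := congrArg C h9
  simp only [map_mul, map_add, map_one, map_zero] at d1 d2 d3
  rw [charpoly_eq_prod, b1, hV]
  simp only [Multiset.insert_eq_cons, Multiset.map_cons, Multiset.map_singleton, Multiset.prod_cons,
    Multiset.prod_singleton]
  linear_combination -d1 - X ^ 2 * d2 + X * d3

end

/-- Elements of order 3 of PSL_3(q) and the normalizer of a Singer cycle. Here `T = PSL_n(F)` for a field `F` with `q = p^f` elements (`n ≥ 2`, `(n, q) ≠ (2, 2), (2, 3)`), `k` is a prime dividing `n`, `K` is a subalgebra of the `n × n` matrices that is a field of degree `k` over `F` (an extension-field structure F_{q^k} on `F^n`), and `H` is the subgroup of matrices of determinant 1 normalizing `K` — a subgroup of type GL_{n/k}(q^k) (maximal except in some small cases; maximality is not assumed); Ω is the set of cosets of `H` in `T`, so an element of `T` of prime order `r` (a matrix `x` of determinant 1 with `x^r` scalar,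 `x` not scalar) fixes a point of Ω when some conjugate of `x` by a matrix of determinant 1 normalizes `K`. Take `n = k = 3` and suppose 3 divides the index of `H`. Then every element of `T` of order 3 is conjugate in `T` into `H` if and only if `q ≡ 4, 7` or `8 (mod 9)`. -/
theorem result {F : Type*} [Field F] [Fintype F] {p : ℕ} [Fact p.Prime] [CharP F p] {q : ℕ} (hq : Fintype.card F = q)
    (n : ℕ) (hn : n = 3) (k : ℕ) (hk : k.Prime) (hkn : k ∣ n) (K : Subalgebra F (Matrix (Fin n) (Fin n) F)) (hK : Cfsg.Geo.IsFieldSubalgebra k K) (hk3 : k = 3) (hΩ : 3 ∣ ((Cfsg.Geo.subalgebraNormalizer K).comap (Matrix.SpecialLinearGroup.toGL : Matrix.SpecialLinearGroup (Fin n) F →* GL (Fin n) F)).index) :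
    (∀ x : Matrix.SpecialLinearGroup (Fin n) F,
      (∃ z : F, ((x ^ 3 : Matrix.SpecialLinearGroup (Fin n) F) : Matrix (Fin n) (Fin n) F) = z • (1 : Matrix (Fin n) (Fin n) F)) →
      (∀ z : F, (x : Matrix (Fin n) (Fin n) F) ≠ z • (1 : Matrix (Fin n) (Fin n) F)) →
      ∃ P : Matrix.SpecialLinearGroup (Fin n) F, P⁻¹ * x * P ∈ ((Cfsg.Geo.subalgebraNormalizer K).comap (Matrix.SpecialLinearGroup.toGL : Matrix.SpecialLinearGroup (Fin n) F →* GL (Fin n) F))) ↔
    (q % 9 = 4 ∨ q % 9 = 7 ∨ q % 9 = 8) := by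
  obtain rfl : q = Nat.card F := by rw [← hq, Nat.card_eq_fintype_card]
  subst hn hk3
  obtain ⟨L, _, _, _, h1, h2⟩ := CA.ElF.bridge (by omega) hK
  have h3 := CA.El.forall_SL (ι := Fin 3) 3 (CA.ElF.NF (F := F) L)
  have h4 := CA.El.two_le_card (F := F)
  by_cases c1 : 3 ∣ Nat.card F - 1
  · simp only [h2]
    refine (h3.trans (main h1 (by simp) c1)).trans (by omega)
  rw [CA.El.forall_po_iff c1 fun A a _ h => h.smul a] at h3
  by_cases c2 : ((3 : ℕ) : F) = 0
  · simp only [h2]
    have := (CharP.charP_iff_prime_eq_zero (R := F) Nat.prime_three).2 c2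
    obtain ⟨m, -, hm⟩ := FiniteField.card F 3
    have h5 : 3 ∣ Nat.card F := by rw [← hq, hm]; exact dvd_pow_self 3 m.ne_zero
    refine h3.trans (iff_of_false (fun h => ?_) (by omega))
    obtain ⟨g, h4, h5⟩ := CA.ElF.exists_tv (F := F) (V := Fin 3 → F) 3 (by simp)
    exact CA.ElF.not_NF (by omega) (by simp) one_ne_zero h5 (h g h4)
  have c3 := CA.El.not_dvd_card_pow c2 1
  rw [pow_one] at c3
  have c4 : Nat.card F % 3 = 2 := by omega
  have h5 := h3.2 fun u hu => S5970.pos h1 (by simp) c2 (by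
    rw [← ZMod.natCast_mod, c4]; exact orderOf_eq_prime (p := 2) (by decide) (by decide)) hu (by omega)
  simp only [← h2] at h5
  refine iff_of_true h5 (.inr (.inr ?_))
  have h6 := congrArg (Nat.cast : ℕ → ZMod 9) (CA.SLnCard.card_SL (F := F) 3 (by omega))
  have h7 := congrArg (Nat.cast : ℕ → ZMod 3) (CA.SLnCard.card_SL (F := F) 3 (by omega))
  rw [Nat.cast_mul, Nat.cast_prod, Finset.prod_congr rfl fun i _ => Nat.cast_sub
    (Nat.pow_le_pow_right (by omega) i.2.le), Nat.cast_sub (by omega), Fin.prod_univ_three] at h6 h7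
  push_cast at h6 h7
  rw [← ZMod.natCast_mod (Nat.card F)] at h6 h7
  obtain ⟨x, hx⟩ := exists_prime_orderOf_dvd_card' (G := SL(3, F)) 3 ((ZMod.natCast_eq_zero_iff _ _).1 (by
    rw [c4] at h7
    revert h7
    generalize (Nat.card SL(3, F) : ZMod 3) = s
    revert s
    decide))
  have h8 : x ^ 3 = 1 := orderOf_dvd_iff_pow_eq_one.1 (dvd_of_eq hx)
  obtain ⟨P, hP⟩ := h5 x ⟨1, by rw [h8]; simp⟩ fun z hz => by
    have h9 := x.2
    rw [hz, Matrix.det_smul, Matrix.det_one, mul_one, Fintype.card_fin] at h9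
    rw [CA.El.eq_one_of_pow c1 h9, one_smul] at hz
    rw [show x = 1 from Subtype.ext hz, orderOf_one] at hx
    omega
  have h9 := Subgroup.orderOf_dvd_natCard _ hP
  rw [show orderOf (P⁻¹ * x * P) = 3 by simpa [hx] using (MulAut.conj P⁻¹).orderOf_eq x] at h9
  have h11 := mul_dvd_mul hΩ h9
  rw [Subgroup.index_mul_card] at h11
  rw [(ZMod.natCast_eq_zero_iff (Nat.card SL(3, F)) 9).2 h11] at h6
  by_contra h10
  rcases (by omega : Nat.card F % 9 = 2 ∨ Nat.card F % 9 = 5) with e | e <;> rw [e] at h6 <;>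
    exact absurd h6 (by decide)

end Cfsg.Agent.S5971
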