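import Cfsg.Statements.S5972
import Cfsg.Agent.Lib.Lin.El10

set_option autoImplicit false
open scoped MatrixGroups
open Cfsg

namespace Cfsg.Agent.S5972

open CA.El CA.CForm CA.CForm.Form

/-- Elements of prime order of Ω_n(q), n = 2d+1 ≥ 7, q odd, with no fixed totally singular `m`-space. Here `T = Ω_n(q)` is realised as the commutator subgroup of the isometry group of the quadratic form `x₀² + Σ xᵢyᵢ` over the field `F` with `q` elements (it has trivial centre, so its elements of prime order `r` are used directly); let `1 ≤ m ≤ d` and let `r` be a prime dividing the number of totally singular `m`-spaces. For `r ≠ p` let `i` be the multiplicative order of `q` modulo `r`, `c = i` for `i` even and `c = 2i` for `i` odd, and write `k = n mod c`, `ℓ = m mod i`, `n' = ⌊n/i⌋`, `m' = ⌊m/i⌋`, `t = (r−1)/i`. Then every element of `T` of order `r` fixes some totally singular `m`-space if and only if either (i) `r = 2` and (`m < (n−1)/2` or `q ≡ 1 (mod 4)`);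 or (ii) `r ≠ p` is odd, `i ≤ m`, `k > 2ℓ`, and (`i` is odd or `n' − 2m' ≥ t`). -/
theorem result {F : Type*} [Field F] [Fintype F] {p : ℕ} [Fact p.Prime] [CharP F p] {q : ℕ} (hq : Fintype.card F = q) (hqodd : Odd q)
    (d m : ℕ) (hd : 3 ≤ d) (hm : 1 ≤ m) (hmd : m ≤ d)
    (r : ℕ) [Fact r.Prime]
    (hrΩ : r ∣ Nat.card {W : Submodule F (Unit ⊕ (Fin d ⊕ Fin d) → F) // Module.finrank F ↥W = m ∧ (∀ w ∈ W, Cfsg.quadFormOdd d F w = 0)})
    (i c : ℕ) (hi : i = orderOf (q : ZMod r)) (hc : c = if Even i then i else 2 * i) :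
    (∀ x : GL (Unit ⊕ (Fin d ⊕ Fin d)) F, x ∈ Cfsg.Geo.omegaGL (Cfsg.quadFormOdd d F) → orderOf x = r →
      ∃ W : Submodule F (Unit ⊕ (Fin d ⊕ Fin d) → F), Module.finrank F ↥W = m ∧ (∀ w ∈ W, Cfsg.quadFormOdd d F w = 0) ∧
        W.map (Matrix.toLin' (x : Matrix (Unit ⊕ (Fin d ⊕ Fin d)) (Unit ⊕ (Fin d ⊕ Fin d)) F)) ≤ W) ↔
    ((r = 2 ∧ (m < d ∨ q % 4 = 1)) ∨
     (r ≠ p ∧ 2 < r ∧ i ≤ m ∧ 2 * (m % i) < (2 * d + 1) % c ∧ (Odd i ∨ (r - 1) / i + 2 * (m / i) ≤ (2 * d + 1) / i))) := by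
  obtain rfl : q = Nat.card F := by rw [← hq, Nat.card_eq_fintype_card]
  have h2 : (2 : F) ≠ 0 := two_ne_zero_iff_odd.2 (hq ▸ hqodd)
  have hf := oddForm_nondeg h2 d
  have hN := finrank_odd (F := F) d
  rw [← oddForm_Q] at hrΩ ⊢
  have e : ∀ W : Submodule F (Unit ⊕ (Fin d ⊕ Fin d) → F), (Module.finrank F W = m ∧
      ∀ w ∈ W, (oddForm F d).Q w = 0) ↔ Module.finrank F W = m ∧ (oddForm F d).TS W :=
    fun W => by rw [orth_ts_iff]
  rw [card_bridge e] at hrΩ
  obtain ⟨hr, h⟩ := orth_ts (i := i) (c := c) hf (n' := 2 * (d - m) + 1) (by omega) (by omega)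
    (by omega) ((oddForm_isIndex h2 d).exists_ts hmd) hrΩ
  refine (forall_omega' _ r fun A => ∃ W : Submodule F _, Module.finrank F W = m ∧
    (∀ w ∈ W, (oddForm F d).Q w = 0) ∧ W.map A ≤ W).trans ((forall₃_congr fun g _ _ =>
    (exists_congr fun W => and_assoc.symm).trans (fts_bridge e g)).trans ?_)
  have hp := (cast_ne_zero_iff p).1 hr
  have ho : Odd (Module.finrank F (Unit ⊕ (Fin d ⊕ Fin d) → F)) := hN ▸ odd_two_mul_add_one d
  rcases (Fact.out : r.Prime).eq_two_or_odd' with rfl | hr2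
  · rw [forall_ord2 h2 hf ho, orth2_ts h2 hf (by omega) (oddForm_isIndex h2 d) hmd]
    simp only [Ng, hN, pl_of_odd hf ho, lt_irrefl, false_and, and_false, or_false, true_and,
      not_true, false_or]
    omega
  · have h3 : 2 < r := (Fact.out : r.Prime).two_le.lt_of_ne (by rintro rfl; exact absurd hr2 (by decide))
    rw [forall_om_odd hf (good_of_two_ne_zero _ h2) hr2,
      (h h3.ne' hi hc).1 (odd_two_mul_add_one _), hN]
    have := mod_par (c_facts (hi ▸ CA.Rcf.orderOf_card_pos hr) hc).2.1 (2 * d + 1)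
    simp only [hp, h3, h3.ne', false_and, false_or, true_and, ne_eq, not_false_iff]
    exact and_congr_right' (and_congr_left' (by omega))

end Cfsg.Agent.S5972
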