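import Cfsg.Statements.S5973
import Cfsg.Agent.Lib.Lin.El10

set_option autoImplicit false
open scoped MatrixGroups
open Cfsg

namespace Cfsg.Agent.S5973

open CA.El CA.CForm CA.CForm.Form

/-- Elements of prime order of PΩ⁺_n(q), n = 2d ≥ 8, with no fixed totally singular `m`-space, `m < n/2`. Here `T = PΩ⁺_n(q)` is realised through `Ω⁺_n(q)`, the commutator subgroup of the isometry group of the quadratic form `Σ xᵢyᵢ` over the field `F` with `q` elements; an element of `T` of prime order `r` is an element `x` of `Ω⁺_n(q)` with `x^r` scalar and `x` not scalar. Let `1 ≤ m < d` and let `r` be a prime dividing the number of totally singular `m`-spaces. For `r ≠ p` let `i` be the multiplicative order of `q` modulo `r`, `c = i` for `i` even and `c = 2i` for `i` odd, and write `k = n mod c`, `ℓ = m mod i`, `n' = ⌊n/i⌋`, `m' = ⌊m/i⌋`, `t = (r−1)/i`. Then every element of `T` of order `r` fixes some totally singular `m`-space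 if and only if one of: (i) `r = 2 ≠ p` and either `q ≡ 1 (mod 4)`, or `q ≡ 3 (mod 4)`, `m ≤ n/2 − 2` and (`m` even or `n ≡ 2 (mod 4)`); (ii) `r ≠ p` odd, `i` odd, `i ≤ m` and `k ≥ 2ℓ`; (iii) `r ≠ p` odd, `i` even, `i ≤ m`, `n' − 2m' ≥ t`, and one of: `i ≥ 2ℓ`, `k = 0`, `n/i` odd and `n' − 2m' > t`; or `k ≥ 2ℓ` and `n'` even; or `k > 2ℓ` and `n'` odd. -/
theorem result {F : Type*} [Field F] [Fintype F] {p : ℕ} [Fact p.Prime] [CharP F p] {q : ℕ} (hq : Fintype.card F = q)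
    (d m : ℕ) (hd : 4 ≤ d) (hm : 1 ≤ m) (hmd : m < d)
    (r : ℕ) [Fact r.Prime]
    (hrΩ : r ∣ Nat.card {W : Submodule F (Fin d ⊕ Fin d → F) // Module.finrank F ↥W = m ∧ (∀ w ∈ W, Cfsg.quadFormPlus d F w = 0)})
    (i c : ℕ) (hi : i = orderOf (q : ZMod r)) (hc : c = if Even i then i else 2 * i) :
    (∀ x : GL (Fin d ⊕ Fin d) F, x ∈ Cfsg.Geo.omegaGL (Cfsg.quadFormPlus d F) →
      (∃ z : F, ((x ^ r : GL (Fin d ⊕ Fin d) F) : Matrix (Fin d ⊕ Fin d) (Fin d ⊕ Fin d) F) = z • (1 : Matrix (Fin d ⊕ Fin d) (Fin d ⊕ Fin d) F)) →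
      (∀ z : F, (x : Matrix (Fin d ⊕ Fin d) (Fin d ⊕ Fin d) F) ≠ z • (1 : Matrix (Fin d ⊕ Fin d) (Fin d ⊕ Fin d) F)) →
      ∃ W : Submodule F (Fin d ⊕ Fin d → F), Module.finrank F ↥W = m ∧ (∀ w ∈ W, Cfsg.quadFormPlus d F w = 0) ∧
        W.map (Matrix.toLin' (x : Matrix (Fin d ⊕ Fin d) (Fin d ⊕ Fin d) F)) ≤ W) ↔
    ((r = 2 ∧ p ≠ 2 ∧ (q % 4 = 1 ∨ (q % 4 = 3 ∧ m + 2 ≤ d ∧ (Even m ∨ (2 * d) % 4 = 2)))) ∨
     (r ≠ p ∧ 2 < r ∧ Odd i ∧ i ≤ m ∧ 2 * (m % i) ≤ (2 * d) % c) ∨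
     (r ≠ p ∧ 2 < r ∧ Even i ∧ i ≤ m ∧ (r - 1) / i + 2 * (m / i) ≤ (2 * d) / i ∧
       ((2 * (m % i) ≤ i ∧ (2 * d) % c = 0 ∧ Odd ((2 * d) / i) ∧ (r - 1) / i + 2 * (m / i) < (2 * d) / i) ∨
        (2 * (m % i) ≤ (2 * d) % c ∧ Even ((2 * d) / i)) ∨
        (2 * (m % i) < (2 * d) % c ∧ Odd ((2 * d) / i))))) := by
  obtain rfl : q = Nat.card F := by rw [← hq, Nat.card_eq_fintype_card]
  have hf := plusForm_nondeg F d
  have hN := finrank_plus (F := F) d
  have hP := (pl_iff hN).2 (plusForm_isIndex F d)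
  rw [← plusForm_Q] at hrΩ ⊢
  have e : ∀ W : Submodule F (Fin d ⊕ Fin d → F), (Module.finrank F W = m ∧
      ∀ w ∈ W, (plusForm F d).Q w = 0) ↔ Module.finrank F W = m ∧ (plusForm F d).TS W :=
    fun W => by rw [orth_ts_iff]
  rw [card_bridge e] at hrΩ
  obtain ⟨hr, h⟩ := orth_ts (i := i) (c := c) hf (n' := 2 * (d - m)) (by omega) (by omega)
    (by omega) ((plusForm_isIndex F d).exists_ts hmd.le) hrΩ
  refine (forall_omega _ r fun A => ∃ W : Submodule F _, Module.finrank F W = m ∧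
    (∀ w ∈ W, (plusForm F d).Q w = 0) ∧ W.map A ≤ W).trans ((forall₃_congr fun g _ _ =>
    (exists_congr fun W => and_assoc.symm).trans (fts_bridge e g)).trans ?_)
  have hp := (cast_ne_zero_iff p).1 hr
  rcases (Fact.out : r.Prime).eq_two_or_odd' with rfl | hr2
  · have h2 : (2 : F) ≠ 0 := by simpa using hr
    have := card_odd h2
    rw [orth2_ts h2 hf (by omega) (plusForm_isIndex F d) hmd.le]
    simp only [Ng, hN, hP, lt_irrefl, false_and, and_false, or_false, true_and, not_true, false_or,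
      true_iff, hp.symm, ne_eq, not_false_iff, Nat.even_iff]
    omega
  · have h3 : 2 < r := (Fact.out : r.Prime).two_le.lt_of_ne (by rintro rfl; exact absurd hr2 (by decide))
    rw [forall_po_om hf (good_of_five_le (by omega)) hr2 fun a ha g => (fts_smul ha).2,
      (h h3.ne' hi hc).2 (even_two_mul _), hN]
    simp only [hp, h3, h3.ne', hP, false_and, false_or, true_and, ne_eq, not_false_iff, true_iff,
      Nat.not_even_iff_odd, not_true, or_false]
    exact and_or_left.trans (or_congr and_left_comm and_left_comm)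

end Cfsg.Agent.S5973
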