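import Cfsg.Statements.S5974
import Cfsg.Agent.Lib.Lin.El12

set_option autoImplicit false
open scoped MatrixGroups
open Cfsg

namespace Cfsg.Agent.S5974

open CA.El CA.CForm CA.CForm.Form

/-- Elements of prime order of PΩ⁺_n(q), n = 2d ≥ 8, with no fixed nondegenerate hyperbolic `m`-space. Here `T = PΩ⁺_n(q)` is realised through `Ω⁺_n(q)`, the commutator subgroup of the isometry group of `Q = Σ xᵢyᵢ` over the field `F` with `q` elements; an element of `T` of prime order `r` is an element `x` of `Ω⁺_n(q)` with `x^r` scalar and `x` not scalar. A hyperbolic `m`-space is a subspace `W` of even dimension `m` on which the polar form of `Q` is nondegenerate and which contains a totally singular subspace of dimension `m/2`. Let `m` be even with `2 ≤ m < n/2`, and let `r` be a prime dividing the number of hyperbolic `m`-spaces, with `r = 2` or `r ≠ p`. For `r ≠ p` let `i` be the multiplicative order of `q` modulo `r`, `c = i` for `i`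 even and `c = 2i` for `i` odd, and write `k = n mod c`, `ℓ' = m mod c`. Then every element of `T` of order `r` fixes some hyperbolic `m`-space if and only if one of: (i) `r = 2` and (`n ≡ 2 (mod 4)`, or `m ≡ 0 (mod 4)`, or `q ≡ 1 (mod 4)`); (ii) `r ≠ p` odd, `i` odd, `c ≤ m` and `k ≥ ℓ'`; (iii) `r ≠ p` odd, `i` even, and either `k = 0` and (`n/i` odd, or `ℓ' = 0` and `m/i` even), or `i ≤ m` and (`k > ℓ' > 0`, or `k = ℓ' > 0` and `(n + m − 2k)/i` even, or `k > ℓ' = 0` and `m/i` even). -/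
theorem result {F : Type*} [Field F] [Fintype F] {p : ℕ} [Fact p.Prime] [CharP F p] {q : ℕ} (hq : Fintype.card F = q)
    (d m : ℕ) (hd : 4 ≤ d) (hm : 2 ≤ m) (hme : Even m) (hmd : m < d)
    (r : ℕ) [Fact r.Prime] (hr : r = 2 ∨ r ≠ p)
    (hrΩ : r ∣ Nat.card {W : Submodule F (Fin d ⊕ Fin d → F) // (Module.finrank F ↥W = m ∧ (∀ u ∈ W, u ≠ 0 → ∃ v ∈ W, QuadraticMap.polar (Cfsg.quadFormPlus d F) u v ≠ 0) ∧
          ∃ U : Submodule F (Fin d ⊕ Fin d → F), U ≤ W ∧ 2 * Module.finrank F ↥U = m ∧ ∀ u ∈ U, Cfsg.quadFormPlus d F u = 0)})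
    (i c : ℕ) (hi : i = orderOf (q : ZMod r)) (hc : c = if Even i then i else 2 * i) :
    (∀ x : GL (Fin d ⊕ Fin d) F, x ∈ Cfsg.Geo.omegaGL (Cfsg.quadFormPlus d F) →
      (∃ z : F, ((x ^ r : GL (Fin d ⊕ Fin d) F) : Matrix (Fin d ⊕ Fin d) (Fin d ⊕ Fin d) F) = z • (1 : Matrix (Fin d ⊕ Fin d) (Fin d ⊕ Fin d) F)) →
      (∀ z : F, (x : Matrix (Fin d ⊕ Fin d) (Fin d ⊕ Fin d) F) ≠ z • (1 : Matrix (Fin d ⊕ Fin d) (Fin d ⊕ Fin d) F)) →
      ∃ W : Submodule F (Fin d ⊕ Fin d → F), (Module.finrank F ↥W = m ∧ (∀ u ∈ W, u ≠ 0 → ∃ v ∈ W, QuadraticMap.polar (Cfsg.quadFormPlus d F) u v ≠ 0) ∧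
          ∃ U : Submodule F (Fin d ⊕ Fin d → F), U ≤ W ∧ 2 * Module.finrank F ↥U = m ∧ ∀ u ∈ U, Cfsg.quadFormPlus d F u = 0) ∧
        W.map (Matrix.toLin' (x : Matrix (Fin d ⊕ Fin d) (Fin d ⊕ Fin d) F)) ≤ W) ↔
    ((r = 2 ∧ ((2 * d) % 4 = 2 ∨ m % 4 = 0 ∨ q % 4 = 1)) ∨
     (r ≠ p ∧ 2 < r ∧ Odd i ∧ c ≤ m ∧ m % c ≤ (2 * d) % c) ∨
     (r ≠ p ∧ 2 < r ∧ Even i ∧
       (((2 * d) % c = 0 ∧ (Odd ((2 * d) / i) ∨ (m % c = 0 ∧ Even (m / i)))) ∨
        (i ≤ m ∧ ((m % c < (2 * d) % c ∧ 0 < m % c) ∨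
                  ((2 * d) % c = m % c ∧ 0 < m % c ∧ Even ((2 * d + m - 2 * ((2 * d) % c)) / i)) ∨
                  (0 < (2 * d) % c ∧ m % c = 0 ∧ Even (m / i))))))) := by
  obtain rfl : q = Nat.card F := by rw [← hq, Nat.card_eq_fintype_card]
  have hf := plusForm_nondeg F d
  have hN := finrank_plus (F := F) d
  have hP : Pl (plusForm F d) ↔ True := iff_true_intro ((pl_iff hN).2 (plusForm_isIndex F d))
  rw [← plusForm_Q] at *
  have e0 : ∀ W : Submodule F (Fin d ⊕ Fin d → F), (Module.finrank F W = m ∧ (∀ u ∈ W, u ≠ 0 →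
      ∃ v ∈ W, QuadraticMap.polar (plusForm F d).Q u v ≠ 0) ∧ ∃ U : Submodule F (Fin d ⊕ Fin d → F),
      U ≤ W ∧ 2 * Module.finrank F U = m ∧ ∀ u ∈ U, (plusForm F d).Q u = 0) ↔
      (Module.finrank F W = m ∧ Cfsg.Geo.IsNondegenerateOn (QuadraticMap.polar (plusForm F d).Q) W ∧
        Cfsg.Geo.IsPlusTypeOn (plusForm F d).Q W) := fun W => and_congr_right fun h => by
    subst h
    rw [ndOn_iff, ← nd_iff]
    simp only [polar_eq]
    exact ⟨fun ⟨a, U, b, c, d⟩ => ⟨a, U, b, d, c⟩, fun ⟨a, U, b, c, d⟩ => ⟨a, U, b, d, c⟩⟩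
  obtain ⟨p₁, hp, hP₁⟩ := exists_even_form F hme True (fun _ => trivial)
  have hM : Module.finrank F (Fin m → F) = m := by simp
  obtain ⟨p', h⟩ := exists_orth_compl hf hp (n := 2 * d - m) (by omega) (by omega)
  have hM' : Module.finrank F (Fin (2 * d - m) → F) = 2 * d - m := by simp
  have e := type_iff (plusForm F d) hp hM hme
  simp only [hP₁, iff_true] at e
  have hm2 := Nat.even_iff.1 hme
  replace e := fun W => (e0 W).trans (e W)
  have hP₂ : Pl p' ↔ True := by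
    have := (pl_prod hp (nondeg_right (h.symm.nondeg hf)) (hM.symm ▸ hme)
      (by rw [hM', Nat.even_iff]; omega)).symm.trans (pl_congr h)
    simpa [hP, hP₁] using this
  rw [card_bridge e] at hrΩ
  refine (om_fix _ e r).trans (nd_cases p hf h hN hM hM' (by omega) (by omega) (by omega)
    hP hP₁ hP₂ (by omega) hrΩ hi hc ?_ ?_ ?_ ?_)
  · rintro rfl rfl h3
    simp only [ix_true, ix_false, lt_irrefl, false_and, and_false, or_false, true_and, ne_eq, not_true, false_or, true_iff, false_iff, Nat.even_iff, Nat.odd_iff]; omega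
  · rintro rfl h2 h3
    simp only [ix_true, ix_false, lt_irrefl, false_and, and_false, or_false, true_and, ne_eq, not_true, false_or, true_iff, false_iff, Nat.even_iff, Nat.odd_iff]; omega
  · intro h1 h3; omega
  · intro hrp h3 h0 hs
    rw [nd_pp h0 hc (by omega) hs, show m + (2 * d - m) = 2 * d by omega]
    obtain ⟨h4, -, ⟨he, ho, rfl⟩ | ⟨ho, he, -⟩⟩ := c_facts h0 hc
    · simp only [he, ho, hrp, h3, h3.ne', true_and, false_and, false_or, ne_eq, not_false_iff]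
      by_cases h5 : m % i = 2 * d % i
      · simp only [div_aux h4 h5, Nat.even_iff, Nat.odd_iff]
      · simp only [h5, Ne.symm h5, false_and, and_false, Nat.even_iff, Nat.odd_iff]
    · simp only [he, ho, hrp, h3, h3.ne', true_and, false_and, false_or, ne_eq, not_false_iff]

end Cfsg.Agent.S5974
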