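import Cfsg.Statements.S5979
import Cfsg.Agent.Lib.Lin.El20

set_option autoImplicit false
open scoped MatrixGroups
open Cfsg

namespace Cfsg.Agent.S5979



/-- Elements of prime order of PSL_n(q) and the stabilizers of tensor decompositions with factors of different dimensions. Here `T = PSL_n(F)` for a field `F` with `q` elements and `n = a·b` with `2 ≤ a < b`; a tensor decomposition `F^n ≅ F^a ⊗ F^b` is given by a bijection `e` of index sets and a change of basis `P`, and `H` is the subgroup of matrices of determinant 1 in its stabilizer (the conjugate by `P` of the group of Kronecker products `g₁ ⊗ g₂`) — a subgroup of type GL_a(q) ⊗ GL_b(q) (maximality is not assumed); Ω is the set of cosets of `H` in `T`, so an element of `T` of prime order `r` (a matrix `x` of determinant 1 with `x^r` scalar, `x` not scalar) fixes a point of Ω exactly when some conjugate of `x` by a matrix of determinant 1 lies in `H`. Let `r` be a prime dividing the index of `H`. Then every element of `T` of order `r` fixes a point of Ω if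 and only if `r = 2`, `a = 2`, `q` is odd and `(q − 1)_2 ≤ (n)_2` (2-parts). -/
theorem result {F : Type*} [Field F] [Fintype F] {p : ℕ} [Fact p.Prime] [CharP F p] {q : ℕ} (hq : Fintype.card F = q)
    (n a b : ℕ) (hab : n = a * b) (ha : 2 ≤ a) (hlt : a < b) (e : Fin n ≃ Fin a × Fin b) (P : GL (Fin n) F)
    (r : ℕ) [Fact r.Prime]
    (hΩ : r ∣ (Cfsg.Geo.tensorProductSubgroup a b e P).relIndex (Cfsg.Geo.specialLinear (Fin n) F)) :
    (∀ x ∈ Cfsg.Geo.specialLinear (Fin n) F, (∃ z : F, ((x ^ r : GL (Fin n) F) : Matrix (Fin n) (Fin n) F) = z • (1 : Matrix (Fin n) (Fin n) F)) →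
      (∀ z : F, (x : Matrix (Fin n) (Fin n) F) ≠ z • (1 : Matrix (Fin n) (Fin n) F)) →
      ∃ g ∈ Cfsg.Geo.specialLinear (Fin n) F, g⁻¹ * x * g ∈ Cfsg.Geo.tensorProductSubgroup a b e P) ↔
    (r = 2 ∧ a = 2 ∧ Odd q ∧ padicValNat 2 (q - 1) ≤ padicValNat 2 n) := by
  have : Nonempty (Fin n) := ⟨⟨0, by nlinarith⟩⟩
  rw [← Nat.card_eq_fintype_card] at hq
  subst hq
  have h := CA.El.tens_main (F := F) (V := Fin n → F) (κ := Fin a) (ν := Fin b) (r := r) (by simpa) (by simpa)
    (by simpa) fun hr => by
      obtain ⟨g, hg⟩ := exists_prime_orderOf_dvd_card' r (hΩ.trans (Subgroup.relIndex_dvd_card _ _))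
      exact CA.El.ord_le hr (u := CA.CForm.glEquiv g.1) (by rwa [MulEquiv.orderOf_eq, Subgroup.orderOf_coe])
  simp only [Fintype.card_fin, Module.finrank_fin_fun] at h
  refine CA.El.tens_iff e P h ?_
  rintro ⟨rfl, -, h1, -⟩ h2
  have := CA.El.card_even (F := F) h2
  rw [Nat.odd_iff] at h1
  omega

end Cfsg.Agent.S5979
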