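import Cfsg.Statements.S5980
import Cfsg.Agent.Lib.Lin.El20

set_option autoImplicit false
open scoped MatrixGroups
open Cfsg

namespace Cfsg.Agent.S5980

open CA.El CA.Rcf CA.CForm CA.CForm.Form CA.AschKron CA.AschTForm

/-- Elements of prime order of PSp_n(q), q odd, and the stabilizers of tensor decompositions Sp_a(q) ⊗ O_b(q). Here `T = PSp_{2d}(F)` for a field `F` with `q` elements, `q` odd, `d ≥ 2`, realised through the matrices preserving the standard alternating form `f`; `2d = a·b` with `a` even, `b ≥ 3`, and the bijection `e` and change of basis `P` exhibit `f` as a non-zero scalar multiple of the tensor product of a non-degenerate alternating form `f₁` on `F^a` and a non-degenerate symmetric bilinear form `f₂` on `F^b`; `H` is the subgroup of `T` stabilizing this tensor decomposition (the elements of `T` in the conjugate by `P` of the group of Kronecker products) — a subgroup of type Sp_a(q) ⊗ O^ε_b(q) (maximality is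 not assumed). Ω is the set of cosets of `H` in `T`, so an element of `T` of prime order `r` (`x ∈ T` with `x^r` scalar, `x` not scalar) fixes a point of Ω exactly when some `T`-conjugate of `x` lies in `H`. Let `r` be a prime dividing the index of `H`. Then every element of `T` of order `r` fixes a point of Ω if and only if `r = 2` and `a = 2`. -/
theorem result {F : Type*} [Field F] [Fintype F] {p : ℕ} [Fact p.Prime] [CharP F p] {q : ℕ} (hq : Fintype.card F = q)
    (hodd : Odd q) (d : ℕ) (hd : 2 ≤ d) (a b : ℕ) (hab : 2 * d = a * b) (ha : Even a) (ha2 : 2 ≤ a) (hb : 3 ≤ b)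
    (e : (Fin d ⊕ Fin d) ≃ Fin a × Fin b) (P : GL (Fin d ⊕ Fin d) F)
    (f₁ : (Fin a → F) → (Fin a → F) → F) (f₂ : (Fin b → F) → (Fin b → F) → F)
    (hf₁ : Cfsg.Geo.IsSymplecticForm f₁) (hf₂ : Cfsg.Geo.IsSymmetricForm f₂)
    (hS : Cfsg.Geo.IsTensorFormStructure id (Cfsg.sympForm d F) f₁ f₂ e P)
    (r : ℕ) [Fact r.Prime]
    (hΩ : r ∣ (Cfsg.Geo.tensorProductSubgroup a b e P).relIndex (Cfsg.spGL d F)) :
    (∀ x ∈ Cfsg.spGL d F, (∃ z : F, ((x ^ r : GL (Fin d ⊕ Fin d) F) : Matrix (Fin d ⊕ Fin d) (Fin d ⊕ Fin d) F) = z • (1 : Matrix (Fin d ⊕ Fin d) (Fin d ⊕ Fin d) F)) →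
      (∀ z : F, (x : Matrix (Fin d ⊕ Fin d) (Fin d ⊕ Fin d) F) ≠ z • (1 : Matrix (Fin d ⊕ Fin d) (Fin d ⊕ Fin d) F)) →
      ∃ g ∈ Cfsg.spGL d F, g⁻¹ * x * g ∈ Cfsg.Geo.tensorProductSubgroup a b e P) ↔ (r = 2 ∧ a = 2) := by
  have h2 : (2 : F) ≠ 0 := fun h => by
    have := CA.El.card_even (F := F) h
    rw [Nat.odd_iff, ← hq, ← Nat.card_eq_fintype_card] at hodd
    omega
  have : Nonempty (Fin a) := ⟨⟨0, by omega⟩⟩
  have : Nonempty (Fin b) := ⟨⟨0, by omega⟩⟩
  have hf := sympStd_nondeg F d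
  have hn : Module.finrank F (Fin d ⊕ Fin d → F) = Fintype.card (Fin a) * Fintype.card (Fin b) := by
    simp [← hab, two_mul]
  have s1 := sf_of_symp hf₁
  have s2 := sf_of_symm hf₂
  have s3 := CA.AschForm.sf_formOfGram (σ := RingHom.id F) (fun _ => rfl) (kron_det_ne_zero s1 s2)
  obtain ⟨c, hc, hS⟩ := hS
  have e1 : ∀ x : GL (Fin d ⊕ Fin d) F, x ∈ Cfsg.spGL d F ↔ glEquiv x ∈ (sympStd F d).Isom := fun x => by
    rw [symp_mem_Isom]; simp only [sympStd_B]; rfl
  have e2 : ∀ (x : GL (Fin d ⊕ Fin d) F) (A : Matrix (Fin a) (Fin a) F) (B : Matrix (Fin b) (Fin b) F),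
      x.1 = tr e P (Matrix.kroneckerMap (· * ·) A B) → (x ∈ Cfsg.spGL d F ↔
        Matrix.kroneckerMap (· * ·) (CA.AschForm.adj (RingHom.id F) f₁ A * A)
          (CA.AschForm.adj (RingHom.id F) f₂ B * B) = 1) := fun x A B h => by
    rw [Matrix.mul_kronecker_mul, ← adj_kronecker s1 s2, ← s3.isom_iff]
    change (∀ u v, Cfsg.sympForm d F (x.1.mulVec u) (x.1.mulVec v) = Cfsg.sympForm d F u v) ↔ _
    rw [(trv e P).surjective.forall₂]
    refine forall₂_congr fun u v => ?_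
    rw [h, tr_mulVec, tr_mulVec, trv_apply, trv_apply, trv_apply, trv_apply, hS, hS]
    exact mul_right_inj' hc
  constructor
  · intro H
    have := symp_tens_neg (κ := Fin a) (ν := Fin b) (r := r) hf (toSymp_nondeg hf₁) h2 (by simpa) (by simpa) hn
      ((hΩ.trans (Subgroup.relIndex_dvd_card _ _)).trans (Nat.card_congr (spGLEquiv F d).toEquiv).dvd)
      fun ⟨u, hu⟩ h3 => ?_
    · simpa using this
    obtain ⟨x, rfl⟩ := glEquiv.surjective u
    have h4 := CA.El.po_toLin'.1 h3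
    obtain ⟨g, h5, h6⟩ := H x ((e1 x).2 hu) (by simpa using h4.1) h4.2
    obtain ⟨A, B, h7⟩ := (mem_tensorProductSubgroup_iff _ _ _).1 h6
    obtain ⟨μ, -, h8⟩ := scalar_of_kron ((e2 _ _ _ h7).1
      (Subgroup.mul_mem _ (Subgroup.mul_mem _ (Subgroup.inv_mem _ h5) ((e1 x).2 hu)) h5))
    exact ⟨A, B, μ, A.det_ne_zero, B.det_ne_zero, (isConj_GL_iff.1 (isConj_iff.2 ⟨g⁻¹, by simp⟩)).trans
      (h7 ▸ (sim_tr e P _).symm), fun u v => (s1.sim_iff _ μ).2 h8 v u⟩
  · rintro ⟨rfl, rfl⟩ x hx h3 h4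
    have h5 : PO 2 (glEquiv x).1 := CA.El.po_toLin'.2 ⟨by simpa using h3, h4⟩
    obtain ⟨A, B, h6, h7, h8⟩ := symp_tens_pos (κ := Fin 2) (ν := Fin b) hf (toSymp_nondeg hf₁)
      (toOrth_nondeg (quad_of_sf s2 (refl_of_symm hf₂) h2)) h2 (by simp) hn ⟨_, (e1 x).1 hx⟩ h5
    let y := trGL e P (Matrix.GeneralLinearGroup.mkOfDetNeZero (Matrix.kroneckerMap (· * ·) A.1 B.1)
      (by simp [Matrix.det_kronecker, A.det_ne_zero, B.det_ne_zero]))
    have h9 : y ∈ Cfsg.spGL d F := (e2 y A B rfl).2 (by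
      rw [(s1.isom_iff _).1 fun u v => h6.1 v u, (s2.isom_iff _).1 fun u v => mul_left_cancel₀ h2 (by
        rw [← polar_diag s2 (refl_of_symm hf₂), ← polar_diag s2 (refl_of_symm hf₂)]
        exact ((toOrth_B _ _ _).symm.trans (h7.1 u v)).trans (toOrth_B _ _ _)), Matrix.one_kronecker_one])
    obtain ⟨g, hg⟩ := isConj_iff.1 (isConj_iff_isoSim.2 (Gd.isoSim (gd_false hf) (gd_false hf)
      (g := ⟨_, (e1 x).1 hx⟩) (u := ⟨_, (e1 y).1 h9⟩) (Or.inr (h5.isSS h2))
      (h8.trans (sim_iff_edivs.1 (sim_tr e P _)))))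
    refine ⟨glEquiv.symm g⁻¹.1, (e1 _).2 (by simp), ?_⟩
    have : (glEquiv.symm g⁻¹.1)⁻¹ * x * glEquiv.symm g⁻¹.1 = y := glEquiv.injective (by
      simpa using congrArg Subtype.val hg)
    exact this ▸ (mem_tensorProductSubgroup_iff _ _ _).2 ⟨A, B, rfl⟩

end Cfsg.Agent.S5980
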