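import Cfsg.Statements.S5981
import Cfsg.Agent.Lib.Lin.El14

set_option autoImplicit false
open scoped MatrixGroups
open Cfsg

namespace Cfsg.Agent.S5981

open CA.El CA.CForm CA.CForm.Form

/-- Elements of prime order of PSL_n(q), q odd, and the subgroups of orthogonal type. Here `T = PSL_n(F)` for a field `F` with `q` elements, `q` odd, `n ≥ 3`; `Q` is a non-degenerate quadratic form on `F^n` (of either type when `n` is even) and `H` is the subgroup of matrices of determinant 1 that preserve `Q` up to a scalar — a subgroup of type O^ε_n(q) (maximality is not assumed); Ω is the set of cosets of `H` in `T`, so an element of `T` of prime order `r` (a matrix `x` of determinant 1 with `x^r` scalar, `x` not scalar) fixes a point of Ω exactly when some conjugate of `x` by a matrix of determinant 1 preserves `Q` up to a scalar. Let `r` be a prime dividing the index of `H`, with `(n, r) ≠ (6, 3)`. Then every element of `T` of order `r` fixes a point of Ω if and only if `r = 2`, or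 `r ∈ {3, 5}`, `n = r` and `(q − 1)_r = r` (the `r`-part of `q − 1` is exactly `r`). The case `(n, r) = (6, 3)` is not covered by this statement. -/
theorem result {F : Type*} [Field F] [Fintype F] {p : ℕ} [Fact p.Prime] [CharP F p] {q : ℕ} (hq : Fintype.card F = q)
    (hodd : Odd q) (n : ℕ) (hn : 3 ≤ n) (Q : (Fin n → F) → F) (hQ : Cfsg.Geo.IsNondegenerateQuadraticForm Q)
    (r : ℕ) [Fact r.Prime] (hgap : ¬ (n = 6 ∧ r = 3))
    (hΩ : r ∣ (Cfsg.Geo.quadSimilarityGroup Q).relIndex (Cfsg.Geo.specialLinear (Fin n) F)) :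
    (∀ x ∈ Cfsg.Geo.specialLinear (Fin n) F, (∃ z : F, ((x ^ r : GL (Fin n) F) : Matrix (Fin n) (Fin n) F) = z • (1 : Matrix (Fin n) (Fin n) F)) →
      (∀ z : F, (x : Matrix (Fin n) (Fin n) F) ≠ z • (1 : Matrix (Fin n) (Fin n) F)) →
      ∃ g ∈ Cfsg.Geo.specialLinear (Fin n) F, g⁻¹ * x * g ∈ Cfsg.Geo.quadSimilarityGroup Q) ↔
    (r = 2 ∨ ((r = 3 ∨ r = 5) ∧ n = r ∧ padicValNat r (q - 1) = 1)) := by
  obtain rfl : q = Nat.card F := by rw [← hq, Nat.card_eq_fintype_card]
  have hN : Module.finrank F (Fin n → F) = n := by simp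
  have h2 : (2 : F) ≠ 0 := two_ne_zero_iff_odd.2 (hq ▸ hodd)
  have hH : ∀ y : GL (Fin n) F, y ∈ Cfsg.Geo.quadSimilarityGroup Q ↔
      ∃ μ ≠ 0, SimB (CA.AschTForm.toOrth hQ) (Matrix.toLin' y.1) μ := fun y =>
    ⟨fun ⟨c, h⟩ => ⟨c, c.ne_zero, fun u v => by
      simp only [orth_B_eq, ← map_add, CA.AschTForm.toOrth_Q, Matrix.toLin'_apply, ← Matrix.mulVec_add, h]
      ring⟩, fun ⟨c, h0, h⟩ => ⟨Units.mk0 c h0, fun u => mul_left_cancel₀ h2 (by
      simpa [orth_B_self, CA.AschTForm.toOrth_Q, mul_left_comm] using h u u)⟩⟩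
  have h0 := CA.AschTForm.toOrth_nondeg hQ
  obtain ⟨y, h1, h3⟩ := c8_num hH hΩ
  rcases (Fact.out : r.Prime).eq_two_or_odd' with rfl | ho
  · exact c8_iff hH (iff_of_true (orth_two h0 h2) (Or.inl rfl)) fun _ => Or.inr rfl
  · have hr2 : r ≠ 2 := by rintro rfl; exact absurd ho (by decide)
    rw [or_iff_right hr2]
    exact c8_iff hH ((orth_odd p ho h1 h0 h2 (by omega) (hN.symm ▸ hgap) h3).trans (by rw [hN])) fun h =>
      Or.inl (natCast_ne_zero_of_dvd one_ne_zero (by
        simpa using dvd_of_one_le_padicValNat h.2.2.ge))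

end Cfsg.Agent.S5981
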