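import Cfsg.Statements.S5982
import Cfsg.Agent.Lib.Lin.El14

set_option autoImplicit false
open scoped MatrixGroups
open Cfsg

namespace Cfsg.Agent.S5982

open CA.El CA.CForm CA.CForm.Form

/-- Elements of prime order of PSL_n(q), q = q₀², and the subgroups of unitary type. Here `T = PSL_n(F)` for a field `F` with `q = q₀²` elements (`n ≥ 3`), `f` is a non-degenerate unitary form on `F^n` for the involutory automorphism `x ↦ x^{q₀}`, and `H` is the subgroup of matrices of determinant 1 that preserve `f` up to a scalar — a subgroup of type GU_n(q₀) (maximality is not assumed); Ω is the set of cosets of `H` in `T`, so an element of `T` of prime order `r` (a matrix `x` of determinant 1 with `x^r` scalar, `x` not scalar) fixes a point of Ω exactly when some conjugate of `x` by a matrix of determinant 1 preserves `f` up to a scalar. Let `r` be a prime dividing the index of `H`, with `r = 2` or `r` different from the characteristic `p`, and with `(n, r) ≠ (6, 3)`. Then every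 element of `T` of order `r` fixes a point of Ω if and only if either `r = 2` and (`p = 2` or `(n)_2 ≤ (q − 1)_2`), or `r ∈ {3, 5}`, `n = r` and `(q₀ − 1)_r = r`. (Odd `r = p` and the case `(n, r) = (6, 3)` are not covered by this statement.) -/
theorem result {F : Type*} [Field F] [Fintype F] {p : ℕ} [Fact p.Prime] [CharP F p] {q : ℕ} (hq : Fintype.card F = q)
    (q₀ : ℕ) (hq₀ : q = q₀ ^ 2) (n : ℕ) (hn : 3 ≤ n) (f : (Fin n → F) → (Fin n → F) → F) (hf : Cfsg.Geo.IsUnitaryFormPow q₀ f)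
    (r : ℕ) [Fact r.Prime] (hr : r = 2 ∨ r ≠ p) (hgap : ¬ (n = 6 ∧ r = 3))
    (hΩ : r ∣ (Cfsg.Geo.similarityGroup f).relIndex (Cfsg.Geo.specialLinear (Fin n) F)) :
    (∀ x ∈ Cfsg.Geo.specialLinear (Fin n) F, (∃ z : F, ((x ^ r : GL (Fin n) F) : Matrix (Fin n) (Fin n) F) = z • (1 : Matrix (Fin n) (Fin n) F)) →
      (∀ z : F, (x : Matrix (Fin n) (Fin n) F) ≠ z • (1 : Matrix (Fin n) (Fin n) F)) →
      ∃ g ∈ Cfsg.Geo.specialLinear (Fin n) F, g⁻¹ * x * g ∈ Cfsg.Geo.similarityGroup f) ↔
    ((r = 2 ∧ (p = 2 ∨ padicValNat 2 n ≤ padicValNat 2 (q - 1))) ∨ ((r = 3 ∨ r = 5) ∧ n = r ∧ padicValNat r (q₀ - 1) = 1)) := by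
  have hF : Fintype.card F = q₀ ^ 2 := hq.trans hq₀
  obtain rfl : q = Nat.card F := by rw [← hq, Nat.card_eq_fintype_card]
  have hN : Module.finrank F (Fin n → F) = n := by simp
  have hs := CA.AschTForm.sf_of_herm (conj_conj hF) hf.add_left hf.smul_left hf.herm hf.nondegenerate
  have hR : CA.AschForm.Refl (conj hF) 1 f := fun u v => by rw [one_mul]; exact hf.herm u v
  have hH : ∀ y : GL (Fin n) F, y ∈ Cfsg.Geo.similarityGroup f ↔
      ∃ μ ≠ 0, SimB (CA.AschTForm.toHerm hs hR (conj_ne_id hF)) (Matrix.toLin' y.1) μ := fun y =>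
    ⟨fun ⟨c, h⟩ => ⟨c, c.ne_zero, fun u v => h v u⟩, fun ⟨c, h0, h⟩ => ⟨Units.mk0 c h0, fun u v => h v u⟩⟩
  have h0 := CA.AschTForm.toHerm_nondeg hs hR (conj_ne_id hF)
  obtain ⟨y, h1, h3⟩ := c8_num hH hΩ
  rcases (Fact.out : r.Prime).eq_two_or_odd' with rfl | ho
  · refine c8_iff hH ((herm_two hF h0 (by omega)).trans ?_) fun _ => Or.inr rfl
    have h2 := cast_ne_zero_iff (F := F) (r := 2) p
    rw [Nat.cast_ofNat, not_iff_not] at h2
    simp [h2, hN, eq_comm]
  · have hr2 : r ≠ 2 := by rintro rfl; exact absurd ho (by decide)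
    have h2 := (cast_ne_zero_iff (F := F) p).2 (hr.resolve_left hr2)
    rw [or_iff_right fun h => hr2 h.1]
    exact c8_iff hH ((herm_odd hF h0 ho h2 h1 (by omega) (hN.symm ▸ hgap) h3).trans (by rw [hN])) fun h => Or.inl h2

end Cfsg.Agent.S5982
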