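import Cfsg.Statements.S5983
import Cfsg.Agent.Lib.Lin.El14

set_option autoImplicit false
open scoped MatrixGroups
open Cfsg

namespace Cfsg.Agent.S5983

open CA.El CA.CForm CA.CForm.Form

/-- Elements of prime order of PSp_n(q), q even, and the subgroups of orthogonal type. Here `T = Sp_{2d}(F)` for a field `F` of characteristic 2 with `q` elements (`d ≥ 2`, `(d, q) ≠ (2, 2)`), realised as the invertible matrices preserving the standard alternating form; `Q` is a non-degenerate quadratic form on `F^{2d}` whose polar form is that alternating form, and `H` is the subgroup of `T` preserving `Q` up to a scalar (equivalently preserving `Q`) — a subgroup of type O^±_{2d}(q) (maximality is not assumed); `Q` is of plus type when `F^{2d}` contains a `d`-dimensional subspace on which `Q` vanishes, of minus type otherwise. Ω is the set of cosets of `H` in `T`, so an element of `T` of prime order `r` (`x ∈ T` with `x^r` scalar, `x` not scalar) fixes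 a point of Ω exactly when some `T`-conjugate of `x` preserves `Q`. Let `r` be a prime dividing the index of `H`. Then every element of `T` of order `r` fixes a point of Ω if and only if `r = 2` and either `Q` is of plus type or `d` is odd. -/
theorem result {F : Type*} [Field F] [Fintype F] {p : ℕ} [Fact p.Prime] [CharP F p] {q : ℕ} (hq : Fintype.card F = q)
    (hp : p = 2) (d : ℕ) (hd : 2 ≤ d) (hT : (d, q) ≠ (2, 2)) (Q : (Fin d ⊕ Fin d → F) → F) (hQ : Cfsg.Geo.IsNondegenerateQuadraticForm Q)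
    (hQf : ∀ u v, QuadraticMap.polar Q u v = Cfsg.sympForm d F u v)
    (r : ℕ) [Fact r.Prime]
    (hΩ : r ∣ (Cfsg.Geo.quadSimilarityGroup Q).relIndex (Cfsg.spGL d F)) :
    (∀ x ∈ Cfsg.spGL d F, (∃ z : F, ((x ^ r : GL (Fin d ⊕ Fin d) F) : Matrix (Fin d ⊕ Fin d) (Fin d ⊕ Fin d) F) = z • (1 : Matrix (Fin d ⊕ Fin d) (Fin d ⊕ Fin d) F)) →
      (∀ z : F, (x : Matrix (Fin d ⊕ Fin d) (Fin d ⊕ Fin d) F) ≠ z • (1 : Matrix (Fin d ⊕ Fin d) (Fin d ⊕ Fin d) F)) →
      ∃ g ∈ Cfsg.spGL d F, g⁻¹ * x * g ∈ Cfsg.Geo.quadSimilarityGroup Q) ↔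
    (r = 2 ∧ (Cfsg.Geo.IsPlusTypeOn Q ⊤ ∨ Odd d)) := by
  subst hp
  have h2 : (2 : F) = 0 := CharP.cast_eq_zero F 2
  have hN := finrank_plus (F := F) d
  have h0 := CA.AschTForm.toOrth_nondeg hQ
  set f := CA.AschTForm.toOrth hQ
  have hB : ∀ u v, f.B u v = Cfsg.sympForm d F u v := fun u v => (CA.AschTForm.toOrth_B hQ u v).trans (hQf u v)
  have e1 : Cfsg.spGL d F = (f.toSymp h2).Isom.comap glEquiv.toMonoidHom := Subgroup.ext fun x => by
    rw [Subgroup.mem_comap, symp_mem_Isom]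
    exact forall₂_congr fun u v => by rw [← hB, ← hB]; rfl
  have e2 : Cfsg.Geo.quadSimilarityGroup Q ⊓ Cfsg.spGL d F = f.Isom.comap glEquiv.toMonoidHom := by
    refine Subgroup.ext fun x => ⟨fun ⟨⟨c, h3⟩, h4⟩ => (orth_mem_Isom _).2 fun v => ?_,
      fun h => ⟨⟨1, fun v => (h.2 v).trans (one_mul _).symm⟩, e1 ▸ (symp_mem_Isom _).2 h.1⟩⟩
    have : Nontrivial (Fin d ⊕ Fin d → F) := Module.nontrivial_of_finrank_pos (R := F) (by omega)
    have h5 : (c : F) = 1 := SimB.unique (g := glEquiv x) h0 (fun u v => by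
      have h3 : ∀ v, f.Q ((glEquiv x).1 v) = c * f.Q v := h3
      simp only [orth_B_eq, ← map_add, h3]; ring) fun u v => by
      rw [e1] at h4; exact (h4.1 u v).trans (one_mul _).symm
    exact (h3 v).trans (by rw [h5, one_mul]; rfl)
  rw [← Subgroup.inf_relIndex_right, e2, e1, Subgroup.relIndex_comap,
    Subgroup.map_comap_eq_self_of_surjective glEquiv.surjective] at hΩ
  have hP : Cfsg.Geo.IsPlusTypeOn Q ⊤ ↔ Pl f := by
    rw [pl_iff_ts h0 (hN ▸ even_two_mul d)]
    simp only [Cfsg.Geo.IsPlusTypeOn, le_top, true_and, finrank_top, orth_ts_iff]; rfl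
  rw [hP, ← sp_o h0 h2 hN (by omega) hΩ (by
    rw [← Nat.card_congr (Subgroup.subgroupOfEquivOfLe (show f.Isom ≤ (f.toSymp h2).Isom from
      fun g h => (symp_mem_Isom _).2 h.1)).toEquiv]
    exact Subgroup.index_mul_card _)]
  constructor
  · rintro H ⟨t, ht⟩ h3
    obtain ⟨x, rfl⟩ := glEquiv.surjective t
    have h4 := CA.El.po_toLin'.1 h3
    obtain ⟨g, h5, h6⟩ := H x (e1 ▸ ht) (by simpa using h4.1) h4.2
    have h7 : g⁻¹ * x * g ∈ f.Isom.comap glEquiv.toMonoidHom :=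
      e2 ▸ ⟨h6, Subgroup.mul_mem _ (Subgroup.mul_mem _ (Subgroup.inv_mem _ h5) (e1 ▸ ht)) h5⟩
    rw [e1] at h5
    exact ⟨_, isConj_iff.2 ⟨⟨glEquiv g, h5⟩⁻¹, rfl⟩, by simpa using h7⟩
  · intro H x hx h3 h4
    rw [e1] at hx
    obtain ⟨s, h5, h6⟩ := H ⟨glEquiv x, hx⟩ (CA.El.po_toLin'.2 ⟨by simpa using h3, h4⟩)
    obtain ⟨c, rfl⟩ := isConj_iff.1 h5
    refine ⟨glEquiv.symm c⁻¹.1, by rw [e1]; simp, (e2.ge ?_).1⟩
    simpa using h6

end Cfsg.Agent.S5983
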