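import Cfsg.Statements.S5984
import Cfsg.Agent.Lib.Lin.El16

set_option autoImplicit false
open scoped MatrixGroups
open Cfsg

namespace Cfsg.Agent.S5984

open CA.El CA.CForm CA.CForm.Form

/-- Elements of prime order of PSU_n(q) and the stabilizers of pairs of complementary totally singular subspaces. Here `T = PSU_n(q)` is realised through `SU_n(q)`, the matrices of determinant 1 over the field `F` with `q²` elements preserving the hermitian form `Σ uᵢ vᵢ^q`, with `n ≥ 4` even; `D` is a pair of complementary subspaces of dimension `n/2` on each of which the form vanishes identically, and `H` is the subgroup of `SU_n(q)` fixing or interchanging the two members — a subgroup of type GL_{n/2}(q²).2 (maximality is not assumed). Ω is the set of cosets of `H`, so an element of `T` of prime order `r` (`x ∈ SU_n(q)` with `x^r` scalar, `x` not scalar) fixes a point of Ω exactly when some `SU_n(q)`-conjugate of `x` lies in `H`. Let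 `r` be a prime dividing the index of `H`. Then every element of `T` of order `r` fixes a point of Ω if and only if `r = 2`, `q` is odd and `(q + 1)_2 ≤ (n)_2` (2-parts). -/
theorem result {F : Type*} [Field F] [Fintype F] {p : ℕ} [Fact p.Prime] [CharP F p] {q : ℕ} (hq : Fintype.card F = q ^ 2)
    (n : ℕ) (hn : 4 ≤ n) (he : Even n) (D : Fin 2 → Submodule F (Fin n → F)) (hD : Cfsg.Geo.IsMDecomposition (n / 2) D)
    (hDs : ∀ i, Cfsg.Geo.IsTotallySingularFor (Cfsg.hermForm n F q) (D i))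
    (r : ℕ) [Fact r.Prime]
    (hΩ : r ∣ (Cfsg.Geo.decompositionStabilizer D).relIndex (Cfsg.GU n F q ⊓ Cfsg.Geo.specialLinear (Fin n) F)) :
    (∀ x ∈ Cfsg.GU n F q ⊓ Cfsg.Geo.specialLinear (Fin n) F, (∃ z : F, ((x ^ r : GL (Fin n) F) : Matrix (Fin n) (Fin n) F) = z • (1 : Matrix (Fin n) (Fin n) F)) →
      (∀ z : F, (x : Matrix (Fin n) (Fin n) F) ≠ z • (1 : Matrix (Fin n) (Fin n) F)) →
      ∃ g ∈ Cfsg.GU n F q ⊓ Cfsg.Geo.specialLinear (Fin n) F, g⁻¹ * x * g ∈ Cfsg.Geo.decompositionStabilizer D) ↔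
    (r = 2 ∧ Odd q ∧ padicValNat 2 (q + 1) ≤ padicValNat 2 n) := by
  have hf := hermStd_nondeg hq n
  have hN : Module.finrank F (Fin n → F) = n := by simp
  obtain ⟨t, rfl⟩ := he.two_dvd
  rw [Nat.mul_div_cancel_left _ two_pos] at hD
  have h1 : TP (hermStd hq (2 * t)) (D 0) (D 1) :=
    ⟨⟨hD.indep.pairwiseDisjoint (by decide : (0 : Fin 2) ≠ 1), codisjoint_iff.2 (by
      rw [eq_top_iff, ← hD.iSup_eq_top, iSup_le_iff, Fin.forall_fin_two]
      exact ⟨le_sup_left, le_sup_right⟩)⟩,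
      herm_ts_iff.2 fun u hu v hv => (hermStd_B ..).trans (hDs 0 v hv u hu),
      herm_ts_iff.2 fun u hu v hv => (hermStd_B ..).trans (hDs 1 v hv u hu)⟩
  set e := guEquiv hq (2 * t)
  have h2 : ∀ x : Cfsg.GU (2 * t) F q, x.1 ∈ Cfsg.Geo.decompositionStabilizer D ↔
      ((hermStd hq _).act (e x) (D 0) = D 0 ∧ (hermStd hq _).act (e x) (D 1) = D 1 ∨
        (hermStd hq _).act (e x) (D 0) = D 1 ∧ (hermStd hq _).act (e x) (D 1) = D 0) := fun x => by
    refine ⟨fun ⟨σ, h⟩ => ?_, fun h => h.elim (fun h => ⟨1, Fin.forall_fin_two.2 h⟩)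
      fun h => ⟨Equiv.swap 0 1, Fin.forall_fin_two.2 h⟩⟩
    have h3 := h 0
    have h4 := h 1
    obtain rfl | rfl : σ = 1 ∨ σ = Equiv.swap 0 1 := by clear h h3 h4; revert σ; decide
    exacts [Or.inl ⟨h3, h4⟩, Or.inr ⟨h3, h4⟩]
  have : (Cfsg.Geo.specialLinear (Fin (2 * t)) F).Normal := MonoidHom.normal_ker _
  rw [← Subgroup.relIndex_subgroupOf inf_le_left, Subgroup.inf_subgroupOf_left] at hΩ
  obtain ⟨y, hy⟩ : Nat.card (D 0 ≃ₗ[F] D 0) ∣
      Nat.card ((Cfsg.Geo.decompositionStabilizer D).subgroupOf (Cfsg.GU (2 * t) F q)) := by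
    refine (card_gl_dvd hf h1).trans ?_
    rw [← Subgroup.card_map_of_injective (f := e.symm.toMonoidHom) e.symm.injective]
    refine Subgroup.card_dvd_of_le ?_
    rintro _ ⟨x, hx, rfl⟩
    obtain ⟨x, rfl⟩ := e.surjective x
    simpa [Subgroup.mem_subgroupOf] using (h2 x).2 (Or.inl
      ⟨(mem_stab_iff_act _).1 hx.1, (mem_stab_iff_act _).1 hx.2⟩)
  have h3 := herm_pr hq hf p hN (by omega) (y := y) (hΩ.trans (relIndex_dvd _ _)) (by
    rw [card_equiv, hD.finrank_eq 0] at hy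
    rw [← Nat.card_congr e.toEquiv, ← hy, Subgroup.index_mul_card])
  rw [hN] at h3
  refine ⟨fun H => h3.1 fun g h4 h5 => ?_, fun hX x ⟨h4, h5⟩ h6 h7 => ?_⟩
  · obtain ⟨x, rfl⟩ := e.surjective g
    have h6 := po_toLin'.1 h5
    obtain ⟨y, ⟨h7, -⟩, h8⟩ := H x ⟨x.2, mem_SL.2 h4⟩ (by simpa using h6.1) h6.2
    have h9 : IsConj (e (⟨y, h7⟩⁻¹ * x * ⟨y, h7⟩)) (e x) :=
      isConj_iff.2 ⟨e ⟨y, h7⟩, by rw [map_mul, map_mul, map_inv]; group⟩
    have h10 := (h2 (⟨y, h7⟩⁻¹ * x * ⟨y, h7⟩)).1 (Subgroup.mem_subgroupOf.1 (by exact h8))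
    exact Pr.isoSim ⟨_, _, h1, h10⟩ (isConj_iff_isoSim.1 h9)
  · have h8 : PO r (e ⟨x, h4⟩).1.toLinearMap := po_toLin'.2 ⟨by simpa using h6, h7⟩
    obtain ⟨c, h9, h10⟩ := pr_conj hq hf h1 (h8.isSS (natCast_ne_zero_of_dvd one_ne_zero (by
      rw [pow_one, hX.1]; exact hX.2.1.add_one.two_dvd.trans (q1_dvd hq)))) (by omega)
      (h3.2 hX _ (mem_SL.1 h5) h8)
    obtain ⟨c, rfl⟩ := e.surjective c
    rw [← map_inv, ← map_mul, ← map_mul] at h10
    have h11 := Subgroup.mem_subgroupOf.2 ((h2 _).2 h10)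
    exact ⟨c, ⟨c.2, (detHom_guEquiv hq _ c).symm.trans h9⟩, by exact h11⟩

end Cfsg.Agent.S5984
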