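import Cfsg.Statements.S5988
import Cfsg.Agent.Lib.Lin.El12

set_option autoImplicit false
open scoped MatrixGroups
open Cfsg

namespace Cfsg.Agent.S5988

open CA.El CA.CForm CA.CForm.Form

/-- Elements of prime order of PΩ⁺_n(q) with no fixed elliptic `m`-space. Here `T = PΩ⁺_n(F)`, `n = 2d ≥ 8`, realised through `Ω⁺_n(q)`, the commutator subgroup of the isometry group of `Q = Σ xᵢyᵢ` over the field `F` with `q` elements; an element of `T` of prime order `r` is an element `x` of `Ω⁺_n(q)` with `x^r` scalar and `x` not scalar; a nondegenerate `m`-space (even `m`) is a subspace on which the polar form of `Q` is nondegenerate; it is hyperbolic if it contains an `m/2`-dimensional subspace on which `Q` vanishes, elliptic otherwise. Let `m` be even with `2 ≤ m < n/2` and let `r` be a prime dividing the number of elliptic `m`-spaces; for `r ≠ p` let `i` be the multiplicative order of `q` modulo `r`, `c = i` for `i` even and `c = 2i` for `i` odd, and write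 `k = n mod c`, `ℓ = m mod i`, `ℓ' = m mod c`, `n' = ⌊n/i⌋`, `m' = ⌊m/i⌋`, `t = (r−1)/i`. Then every element of `T` of order `r` fixes some elliptic `m`-space if and only if one of: (i) `r = 2 ≠ p` and either `n ≡ 0 (mod 4)`, `q ≡ 3 (mod 4)` and `m ≡ 2 (mod 4)`, or `n ≡ 2 (mod 4)` and `q ≢ 1 (mod 8)`; (ii) `r ≠ p` odd, `i` odd, `c ≤ m` and `k > ℓ' > 0`; (iii) `r ≠ p` odd, `i` even, and either `k = 0` and (`n/i` odd, or `ℓ' = 0` and `m/i` odd), or `i ≤ m` and (`k > ℓ' > 0`, or `k = ℓ' > 0` and `(n + m − 2k)/i` odd, or `k > ℓ' = 0` and `m/i` odd). (For `r = p` there is always an element of order `p` fixing no elliptic `m`-space.) -/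
theorem result {F : Type*} [Field F] [Fintype F] {p : ℕ} [Fact p.Prime] [CharP F p] {q : ℕ} (hq : Fintype.card F = q)
    (d m : ℕ) (hd : 4 ≤ d) (hm : 2 ≤ m) (hme : Even m) (hmd : m < d)
    (r : ℕ) [Fact r.Prime]
    (hrΩ : r ∣ Nat.card {W : Submodule F (Fin d ⊕ Fin d → F) // Module.finrank F ↥W = m ∧ Cfsg.Geo.IsNondegenerateOn (QuadraticMap.polar (Cfsg.quadFormPlus d F)) W ∧ ¬ Cfsg.Geo.IsPlusTypeOn (Cfsg.quadFormPlus d F) W})
    (i c : ℕ) (hi : i = orderOf (q : ZMod r)) (hc : c = if Even i then i else 2 * i) :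
    (∀ x : GL (Fin d ⊕ Fin d) F, x ∈ Cfsg.Geo.omegaGL (Cfsg.quadFormPlus d F) →
      (∃ z : F, ((x ^ r : GL (Fin d ⊕ Fin d) F) : Matrix (Fin d ⊕ Fin d) (Fin d ⊕ Fin d) F) = z • (1 : Matrix (Fin d ⊕ Fin d) (Fin d ⊕ Fin d) F)) →
      (∀ z : F, (x : Matrix (Fin d ⊕ Fin d) (Fin d ⊕ Fin d) F) ≠ z • (1 : Matrix (Fin d ⊕ Fin d) (Fin d ⊕ Fin d) F)) →
      ∃ W : Submodule F (Fin d ⊕ Fin d → F), (Module.finrank F ↥W = m ∧ Cfsg.Geo.IsNondegenerateOn (QuadraticMap.polar (Cfsg.quadFormPlus d F)) W ∧ ¬ Cfsg.Geo.IsPlusTypeOn (Cfsg.quadFormPlus d F) W) ∧ W.map (Matrix.toLin' (x : Matrix (Fin d ⊕ Fin d) (Fin d ⊕ Fin d) F)) ≤ W) ↔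
    ((r = 2 ∧ p ≠ 2 ∧ ((Even d ∧ q % 4 = 3 ∧ m % 4 = 2) ∨ (Odd d ∧ q % 8 ≠ 1))) ∨
     (r ≠ p ∧ 2 < r ∧ Odd i ∧ c ≤ m ∧ 0 < m % c ∧ m % c < (2 * d) % c) ∨
     (r ≠ p ∧ 2 < r ∧ Even i ∧
       (((2 * d) % c = 0 ∧ (Odd ((2 * d) / i) ∨ (m % c = 0 ∧ Odd (m / i)))) ∨
        (i ≤ m ∧ ((0 < m % c ∧ m % c < (2 * d) % c) ∨
                  (0 < m % c ∧ m % c = (2 * d) % c ∧ Odd ((2 * d + m - 2 * ((2 * d) % c)) / i)) ∨
                  (m % c = 0 ∧ 0 < (2 * d) % c ∧ Odd (m / i))))))) := by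
  obtain rfl : q = Nat.card F := by rw [← hq, Nat.card_eq_fintype_card]
  have hf := plusForm_nondeg F d
  have hN := finrank_plus (F := F) d
  have hP : Pl (plusForm F d) ↔ True := iff_true_intro ((pl_iff hN).2 (plusForm_isIndex F d))
  rw [← plusForm_Q] at *
  obtain ⟨p₁, hp, hP₁⟩ := exists_even_form F hme False (by omega)
  have hM : Module.finrank F (Fin m → F) = m := by simp
  obtain ⟨p', h⟩ := exists_orth_compl hf hp (n := 2 * d - m) (by omega) (by omega)
  have hM' : Module.finrank F (Fin (2 * d - m) → F) = 2 * d - m := by simp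
  have e := type_iff (plusForm F d) hp hM hme
  simp only [hP₁, iff_false] at e
  have hm2 := Nat.even_iff.1 hme
  have hP₂ : Pl p' ↔ False := by
    have := (pl_prod hp (nondeg_right (h.symm.nondeg hf)) (hM.symm ▸ hme)
      (by rw [hM', Nat.even_iff]; omega)).symm.trans (pl_congr h)
    simpa [hP, hP₁] using this
  rw [card_bridge e] at hrΩ
  refine (om_fix _ e r).trans (nd_cases p hf h hN hM hM' (by omega) (by omega) (by omega)
    hP hP₁ hP₂ (by omega) hrΩ hi hc ?_ ?_ ?_ ?_)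
  · rintro rfl rfl h3
    simp only [ix_true, ix_false, lt_irrefl, false_and, and_false, or_false, true_and, ne_eq, not_true, false_or, true_iff, false_iff, Nat.even_iff, Nat.odd_iff, iff_false]; omega
  · rintro rfl h2 h3
    simp only [ix_true, ix_false, lt_irrefl, false_and, and_false, or_false, true_and, ne_eq, not_true, false_or, true_iff, false_iff, Nat.even_iff, Nat.odd_iff, h2, not_false_iff]; omega
  · rintro rfl h3 h2
    simp only [ix_true, ix_false, lt_irrefl, false_and, and_false, or_false, true_and, ne_eq, not_true, false_or, true_iff, false_iff, Nat.even_iff, Nat.odd_iff, h3.ne', iff_false]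
    exact fun H => (unip_even r h2 hf h H (hN ▸ even_two_mul d) (by omega) (hM.symm ▸ hme)).elim
      (fun h => hP₁.1 h.2) fun h => hP₂.1 h.2
  · intro hrp h3 h0 hs
    rw [nd_pm h0 hc (by omega) (by omega) hs, show m + (2 * d - m) = 2 * d by omega]
    obtain ⟨h4, -, ⟨he, ho, rfl⟩ | ⟨ho, he, -⟩⟩ := c_facts h0 hc
    · simp only [he, ho, hrp, h3, h3.ne', true_and, false_and, false_or, ne_eq, not_false_iff]
      by_cases h5 : m % i = 2 * d % i
      · simp only [div_aux h4 h5, Nat.even_iff, Nat.odd_iff]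
      · simp only [h5, Ne.symm h5, false_and, and_false, Nat.even_iff, Nat.odd_iff]
    · simp only [he, ho, hrp, h3, h3.ne', true_and, false_and, false_or, ne_eq, not_false_iff]

end Cfsg.Agent.S5988
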