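import Cfsg.Statements.S5989
import Cfsg.Agent.Lib.Lin.El12

set_option autoImplicit false
open scoped MatrixGroups
open Cfsg

namespace Cfsg.Agent.S5989

open CA.El CA.CForm CA.CForm.Form

/-- Elements of prime order of PΩ⁺_n(q), q odd, with no fixed nondegenerate `m`-space of odd dimension. Here `T = PΩ⁺_n(F)`, `n = 2d ≥ 8`, realised through `Ω⁺_n(q)`, the commutator subgroup of the isometry group of `Q = Σ xᵢyᵢ` over the field `F` with `q` elements; an element of `T` of prime order `r` is an element `x` of `Ω⁺_n(q)` with `x^r` scalar and `x` not scalar; `q` and `m` are odd, `1 ≤ m < n/2`. The nondegenerate `m`-spaces (subspaces on which the polar form is nondegenerate) fall into two isometry classes, each an orbit of `T`, and the two actions are equivalent; fix one such space `W₀` and let Ω be the set of nondegenerate `m`-spaces isometric to `W₀` (some linear isomorphism preserves `Q`). Let `r` be a prime dividing the size of Ω; for `r ≠ p` let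 `i` be the multiplicative order of `q` modulo `r`, `c = i` for `i` even and `c = 2i` for `i` odd, and write `k = n mod c`, `ℓ = m mod i`, `ℓ' = m mod c`, `n' = ⌊n/i⌋`, `m' = ⌊m/i⌋`, `t = (r−1)/i`. Then every element of `T` of order `r` fixes a member of Ω if and only if one of: (i) `r = 2`, `n ≡ 2 (mod 4)` and `q ≢ 1 (mod 8)`; (ii) `r ≠ p` odd, `i` odd, `c ≤ m` and `k > ℓ' > 0`; (iii) `r ≠ p` odd, `i` even, and either `k = 0` and `n/i` odd, or `i ≤ m` and `k > ℓ' > 0`. (For `r = p` there is always an element of order `p` fixing no member of Ω.) -/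
theorem result {F : Type*} [Field F] [Fintype F] {p : ℕ} [Fact p.Prime] [CharP F p] {q : ℕ} (hq : Fintype.card F = q)
    (hodd : Odd q) (d m : ℕ) (hd : 4 ≤ d) (hm : Odd m) (hmd : m < d)
    (W₀ : Submodule F (Fin d ⊕ Fin d → F)) (hW₀ : Module.finrank F ↥W₀ = m ∧ Cfsg.Geo.IsNondegenerateOn (QuadraticMap.polar (Cfsg.quadFormPlus d F)) W₀)
    (r : ℕ) [Fact r.Prime]
    (hrΩ : r ∣ Nat.card {W : Submodule F (Fin d ⊕ Fin d → F) // Module.finrank F ↥W = m ∧ Cfsg.Geo.IsNondegenerateOn (QuadraticMap.polar (Cfsg.quadFormPlus d F)) W ∧ Cfsg.Geo.AreIsometricFor (Cfsg.quadFormPlus d F) W W₀})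
    (i c : ℕ) (hi : i = orderOf (q : ZMod r)) (hc : c = if Even i then i else 2 * i) :
    (∀ x : GL (Fin d ⊕ Fin d) F, x ∈ Cfsg.Geo.omegaGL (Cfsg.quadFormPlus d F) →
      (∃ z : F, ((x ^ r : GL (Fin d ⊕ Fin d) F) : Matrix (Fin d ⊕ Fin d) (Fin d ⊕ Fin d) F) = z • (1 : Matrix (Fin d ⊕ Fin d) (Fin d ⊕ Fin d) F)) →
      (∀ z : F, (x : Matrix (Fin d ⊕ Fin d) (Fin d ⊕ Fin d) F) ≠ z • (1 : Matrix (Fin d ⊕ Fin d) (Fin d ⊕ Fin d) F)) →
      ∃ W : Submodule F (Fin d ⊕ Fin d → F), (Module.finrank F ↥W = m ∧ Cfsg.Geo.IsNondegenerateOn (QuadraticMap.polar (Cfsg.quadFormPlus d F)) W ∧ Cfsg.Geo.AreIsometricFor (Cfsg.quadFormPlus d F) W W₀) ∧ W.map (Matrix.toLin' (x : Matrix (Fin d ⊕ Fin d) (Fin d ⊕ Fin d) F)) ≤ W) ↔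
    ((r = 2 ∧ Odd d ∧ q % 8 ≠ 1) ∨
     (r ≠ p ∧ 2 < r ∧ Odd i ∧ c ≤ m ∧ 0 < m % c ∧ m % c < (2 * d) % c) ∨
     (r ≠ p ∧ 2 < r ∧ Even i ∧ (((2 * d) % c = 0 ∧ Odd ((2 * d) / i)) ∨ (i ≤ m ∧ 0 < m % c ∧ m % c < (2 * d) % c)))) := by
  obtain rfl : q = Nat.card F := by rw [← hq, Nat.card_eq_fintype_card]
  have hf := plusForm_nondeg F d
  have hN := finrank_plus (F := F) d
  have hP : Pl (plusForm F d) ↔ True := iff_true_intro ((pl_iff hN).2 (plusForm_isIndex F d))
  rw [← plusForm_Q] at *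
  have hp := (ndOn_iff _ _).1 hW₀.2
  have hM := hW₀.1
  obtain ⟨p', h⟩ := exists_orth_compl hf hp (n := 2 * d - m) (by omega) (by omega)
  have hM' : Module.finrank F (Fin (2 * d - m) → F) = 2 * d - m := by simp
  have e := iso_iff (plusForm F d) hW₀
  have hm2 := Nat.odd_iff.1 hm
  have hP₁ := iff_true_intro (pl_of_odd hp (hM.symm ▸ hm))
  have hP₂ := iff_true_intro (pl_of_odd (nondeg_right (h.symm.nondeg hf))
    (by rw [hM', Nat.odd_iff]; omega))
  rw [card_bridge e] at hrΩ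
  refine (om_fix _ e r).trans (nd_cases p hf h hN hM hM' (by omega) (by omega) (by omega)
    hP hP₁ hP₂ (by omega) hrΩ hi hc ?_ ?_ ?_ ?_)
  · rintro rfl rfl h3
    have := Nat.odd_iff.1 hodd; omega
  · rintro rfl h2 h3
    simp only [ix_true, ix_false, lt_irrefl, false_and, and_false, or_false, true_and, ne_eq, not_true, false_or, true_iff, false_iff, Nat.even_iff, Nat.odd_iff]; omega
  · rintro rfl h3 h2
    simp only [ix_true, ix_false, lt_irrefl, false_and, and_false, or_false, true_and, ne_eq, not_true, false_or, true_iff, false_iff, Nat.even_iff, Nat.odd_iff, h3.ne', iff_false]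
    exact unip_odd_sub r h2 hf h (hN ▸ even_two_mul d) (by omega) (hM.symm ▸ hm)
  · intro hrp h3 h0 hs
    rw [nd_po h0 hc hm2 (by omega) (by omega) hs, show m + (2 * d - m) = 2 * d by omega]
    obtain ⟨h4, -, ⟨he, ho, rfl⟩ | ⟨ho, he, -⟩⟩ := c_facts h0 hc
    · simp only [he, ho, hrp, h3, h3.ne', true_and, false_and, false_or, ne_eq, not_false_iff]
      simp only [Nat.even_iff, Nat.odd_iff]
    · simp only [he, ho, hrp, h3, h3.ne', true_and, false_and, false_or, ne_eq, not_false_iff]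

end Cfsg.Agent.S5989
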