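import Cfsg.Statements.S5997
import Cfsg.Agent.Lib.Lin.Mat2
import Cfsg.Agent.S3742

set_option autoImplicit false
open scoped MatrixGroups
open Cfsg

namespace Cfsg.Agent.S5997

open CA.Mat2

variable {F : Type*} [Field F]

local notation "M2" => Matrix (Fin 2) (Fin 2) F

theorem lin_sq (A : M2) : A * A = lin A (-A.det) A.trace := by
  have := lin_mul A 0 1 0 1
  rw [lin_zero_one] at this
  rw [this]; congr 1 <;> ring

theorem tr_det {A : M2} (hA : NS A) {x y : F} (h : A * A = x • (1 : M2) + y • A) : A.det = -x ∧ A.trace = y := by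
  have h2 : lin A (-A.det) A.trace = lin A x y := by rw [← lin_sq, h]; rfl
  obtain ⟨h3, h4⟩ := hA.lin_inj h2
  exact ⟨by rw [← h3, neg_neg], h4⟩

theorem ns_of {A B : M2} (h : A * B ≠ B * A) : NS A := by
  rw [NS_iff]
  rintro c rfl
  apply h
  simp

theorem comm_of {Z A B : M2} (hZ : NS Z) (hA : A * Z = Z * A) (hB : B * Z = Z * B) : A * B = B * A := by
  obtain ⟨a, b, rfl⟩ := (hZ.comm_iff A).1 hA
  obtain ⟨c, d, rfl⟩ := (hZ.comm_iff B).1 hB
  exact lin_comm _ _ _ _ _

theorem q8_all : ∀ q : QuaternionGroup 2, ∃ n : Fin 4, q = QuaternionGroup.a 1 ^ n.val ∨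
    q = QuaternionGroup.xa 0 * QuaternionGroup.a 1 ^ n.val := by decide

theorem gens (R : Subgroup (GL (Fin 2) F)) (hR : Nonempty (↥R ≃* QuaternionGroup 2)) :
    ∃ I ∈ R, ∃ J ∈ R, I * J ≠ J * I ∧ I.1 * I.1 = -1 ∧ J.1 * J.1 = -1 ∧ I * J * I = J ∧
      ∀ K : Subgroup (GL (Fin 2) F), I ∈ K → J ∈ K → R ≤ K := by
  obtain ⟨e⟩ := hR
  set i := e.symm (QuaternionGroup.a 1) with hi
  set j := e.symm (QuaternionGroup.xa 0) with hj
  have h1 : i * j ≠ j * i := by
    rw [hi, hj, ← map_mul, ← map_mul]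
    intro h
    exact absurd (e.symm.injective h) (by decide)
  have h2 : i * j * i = j := by
    rw [hi, hj, ← map_mul, ← map_mul]; congr 1
  have h3 : i * i = j * j := by
    rw [hi, hj, ← map_mul, ← map_mul]; congr 1
  have h4 : i * i * (i * i) = 1 := by
    rw [hi, ← map_mul, ← map_mul, ← map_one e.symm]; congr 1
  have h5 : i * i ≠ 1 := by
    rw [hi, ← map_mul, ← map_one e.symm]
    intro h
    exact absurd (e.symm.injective h) (by decide)
  have g1 : (i : GL (Fin 2) F) * j ≠ j * i := fun h => h1 (Subtype.ext h)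
  have g2 : (i : GL (Fin 2) F) * j * i = j := congrArg Subtype.val h2
  have g3 : (i : GL (Fin 2) F) * i = j * j := congrArg Subtype.val h3
  have g4 : (i : GL (Fin 2) F) * i * (i * i) = 1 := congrArg Subtype.val h4
  have g5 : (i : GL (Fin 2) F) * i ≠ 1 := fun h => h5 (Subtype.ext h)
  have m1 : (i : GL (Fin 2) F).1 * (j : GL (Fin 2) F).1 ≠ (j : GL (Fin 2) F).1 * (i : GL (Fin 2) F).1 :=
    fun h => g1 (Units.ext h)
  have m3 : (i : GL (Fin 2) F).1 * (i : GL (Fin 2) F).1 = (j : GL (Fin 2) F).1 * (j : GL (Fin 2) F).1 :=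
    congrArg Units.val g3
  have m4 : (i : GL (Fin 2) F).1 * (i : GL (Fin 2) F).1 * ((i : GL (Fin 2) F).1 * (i : GL (Fin 2) F).1) = 1 :=
    congrArg Units.val g4
  have m5 : (i : GL (Fin 2) F).1 * (i : GL (Fin 2) F).1 ≠ 1 := fun h => g5 (Units.ext h)
  have hz : (i : GL (Fin 2) F).1 * (i : GL (Fin 2) F).1 = -1 := by
    by_cases hn : NS ((i : GL (Fin 2) F).1 * (i : GL (Fin 2) F).1)
    · exact absurd (comm_of hn (by simp only [mul_assoc]) (by rw [m3]; simp only [mul_assoc])) m1
    · obtain ⟨c, hc⟩ := (not_NS_iff _).1 hn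
      rw [hc] at m4 m5 ⊢
      have : c * c = 1 := by
        have := congrFun (congrFun m4 0) 0
        simpa using this
      rcases mul_self_eq_one_iff.1 this with rfl | rfl
      · simp at m5
      · simp
  refine ⟨i, i.2, j, j.2, g1, hz, m3 ▸ hz, g2, fun K hI hJ x hx => ?_⟩
  obtain ⟨n, hn | hn⟩ := q8_all (e ⟨x, hx⟩)
  · have : (⟨x, hx⟩ : R) = i ^ n.val := by rw [hi, ← map_pow, ← hn]; simp
    have : x = (i : GL (Fin 2) F) ^ n.val := congrArg Subtype.val this
    rw [this]; exact K.pow_mem hI _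
  · have : (⟨x, hx⟩ : R) = j * i ^ n.val := by rw [hi, hj, ← map_pow, ← map_mul, ← hn]; simp
    have : x = (j : GL (Fin 2) F) * (i : GL (Fin 2) F) ^ n.val := congrArg Subtype.val this
    rw [this]; exact K.mul_mem hJ (K.pow_mem hI _)

theorem omega (h2 : (2 : F) ≠ 0) {I J : M2} (hI : I * I = -1) (hJ : J * J = -1) (hJI : J * I = -(I * J)) :
    ∃ W : M2, W * I = J * W ∧ W * J = I * J * W ∧ W * W = (-1 : F) • (1 : M2) + (1 : F) • W := by
  have hI' : ∀ x : M2, I * (I * x) = -x := fun x => by rw [← mul_assoc, hI]; simp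
  have hJ' : ∀ x : M2, J * (J * x) = -x := fun x => by rw [← mul_assoc, hJ]; simp
  have hJI' : ∀ x : M2, J * (I * x) = -(I * (J * x)) := fun x => by rw [← mul_assoc, hJI]; simp [mul_assoc]
  refine ⟨(2⁻¹ : F) • (1 + I + J + I * J), ?_, ?_, ?_⟩
  · simp only [smul_mul_assoc, mul_smul_comm, mul_add, add_mul, mul_assoc, hI, hJ, hJI, hI', hJ', hJI', mul_neg,
      one_mul, mul_one, neg_neg]
    congr 1; abel
  · simp only [smul_mul_assoc, mul_smul_comm, mul_add, add_mul, mul_assoc, hI, hJ, hJI, hI', hJ', hJI', mul_neg,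
      one_mul, mul_one, neg_neg]
    congr 1; abel
  · simp only [smul_mul_assoc, mul_smul_comm, mul_add, add_mul, mul_assoc, hI, hJ, hJI, hI', hJ', hJI', mul_neg,
      one_mul, mul_one, neg_neg]
    match_scalars <;> field_simp <;> ring

theorem conj_into [Finite F] {x y : GL (Fin 2) F} (hd : disc x.1 ≠ 0) (ht : x.1.trace = y.1.trace)
    (hdet : x.1.det = y.1.det) : ∃ g ∈ Cfsg.Geo.specialLinear (Fin 2) F, g⁻¹ * x * g = y := by
  obtain ⟨P, hP⟩ := exists_conj_SL hd ht hdet
  refine ⟨(Matrix.SpecialLinearGroup.toGL P)⁻¹, Subgroup.inv_mem _ ?_, ?_⟩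
  · simp [Cfsg.Geo.specialLinear, MonoidHom.mem_ker]
  · rw [inv_inv, mul_inv_eq_iff_eq_mul]
    exact Units.ext hP

theorem det_of {x : GL (Fin 2) F} (hx : x ∈ Cfsg.Geo.specialLinear (Fin 2) F) : x.1.det = 1 := by
  have := congrArg Units.val (MonoidHom.mem_ker.1 hx)
  simpa using this

theorem sq_of {x : GL (Fin 2) F} (hx : x ∈ Cfsg.Geo.specialLinear (Fin 2) F) (hn : ¬ NS x.1) : x ^ 2 = 1 := by
  obtain ⟨c, hc⟩ := (not_NS_iff _).1 hn
  have h := det_of hx
  apply Units.ext
  rw [hc] at h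
  have h' : c * c = 1 := by simpa [pow_two] using h
  simp [pow_two, hc, smul_smul, h']

/-- Elements of prime order of PSL_2(p) and the normalizer of a quaternion subgroup. Here `T = PSL_2(F)` for the field `F` with `p` elements, `p ≥ 5` prime; `R` is a subgroup of GL_2(F) isomorphic to the quaternion group of order 8 (an absolutely irreducible 2-group of symplectic type), and `H` is the subgroup of matrices of determinant 1 normalizing `R` — a subgroup of type 2^{1+2}.O₂⁻(2), isomorphic modulo scalars to A₄ or S₄ (maximality is not assumed). Ω is the set of cosets of `H` in `T`, so an element of `T` of prime order `r` (a matrix `x` of determinant 1 with `x^r` scalar, `x` not scalar) fixes a point of Ω exactly when some conjugate of `x` by a matrix of determinant 1 normalizes `R`. Let `r` be a prime dividing the index of `H`. Then every element of `T` of order `r` fixes a point of Ω if and only if `r = 2` or `r = 3`. -/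
theorem result {F : Type*} [Field F] [Fintype F] {p : ℕ} [Fact p.Prime] [CharP F p] (hF : Fintype.card F = p) (hp : 5 ≤ p)
    (R : Subgroup (GL (Fin 2) F)) (hR : Nonempty (↥R ≃* QuaternionGroup 2))
    (r : ℕ) [Fact r.Prime]
    (hΩ : r ∣ (Cfsg.Geo.subgroupNormalizer R).relIndex (Cfsg.Geo.specialLinear (Fin 2) F)) :
    (∀ x ∈ Cfsg.Geo.specialLinear (Fin 2) F, (∃ z : F, ((x ^ r : GL (Fin 2) F) : Matrix (Fin 2) (Fin 2) F) = z • (1 : Matrix (Fin 2) (Fin 2) F)) →
      (∀ z : F, (x : Matrix (Fin 2) (Fin 2) F) ≠ z • (1 : Matrix (Fin 2) (Fin 2) F)) →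
      ∃ g ∈ Cfsg.Geo.specialLinear (Fin 2) F, g⁻¹ * x * g ∈ Cfsg.Geo.subgroupNormalizer R) ↔ (r = 2 ∨ r = 3) := by
  have hpF : (p : F) = 0 := CharP.cast_eq_zero F p
  have hpp : p.Prime := Fact.out
  have hrp : r.Prime := Fact.out
  have h2 : (2 : F) ≠ 0 := fun h => by
    have := (CharP.cast_eq_zero_iff F p 2).1 (by exact_mod_cast h)
    have := Nat.le_of_dvd (by norm_num) this
    omega
  have h3 : (3 : F) ≠ 0 := fun h => by
    have := (CharP.cast_eq_zero_iff F p 3).1 (by exact_mod_cast h)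
    have := Nat.le_of_dvd (by norm_num) this
    omega
  obtain ⟨I, hIR, J, hJR, hne, hI, hJ, hIJI, hgen⟩ := gens R hR
  have hne' : I.1 * J.1 ≠ J.1 * I.1 := fun h => hne (Units.ext h)
  haveI : Finite R := inferInstance
  constructor
  · intro H
    by_contra hr
    push Not at hr
    have hd : r ∣ Nat.card (Cfsg.Geo.specialLinear (Fin 2) F) := hΩ.trans (Subgroup.index_dvd_card _)
    obtain ⟨x, hx⟩ := exists_prime_orderOf_dvd_card' r hd
    have hxo : orderOf (x : GL (Fin 2) F) = r := by rw [Subgroup.orderOf_coe, hx]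
    have hns : ∀ y ∈ Cfsg.Geo.specialLinear (Fin 2) F, orderOf y = r → NS y.1 := fun y hy ho => by
      by_contra hn
      have := orderOf_dvd_of_pow_eq_one (sq_of hy hn)
      rw [ho] at this
      exact hr.1 ((Nat.prime_dvd_prime_iff_eq hrp Nat.prime_two).1 this)
    obtain ⟨g, hg, hN⟩ := H x x.2 ⟨1, by rw [← hxo, pow_orderOf_eq_one]; simp⟩ ((NS_iff _).1 (hns x x.2 hxo))
    set y := g⁻¹ * x * g with hy
    have hyo : orderOf y = r := by
      rw [← hxo, hy]
      have := (MulAut.conj g⁻¹).orderOf_eq (x : GL (Fin 2) F)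
      simpa using this
    have hyS : y ∈ Cfsg.Geo.specialLinear (Fin 2) F :=
      Subgroup.mul_mem _ (Subgroup.mul_mem _ (Subgroup.inv_mem _ hg) x.2) hg
    have hc : Nat.card (MulAut R) = 24 := by
      obtain ⟨e⟩ := hR
      obtain ⟨f⟩ := Cfsg.Agent.S3742.result
      rw [Nat.card_congr (MulAut.congr e).toEquiv, Nat.card_congr f.toEquiv, Nat.card_perm]
      simp; rfl
    have hk : R.normalizerMonoidHom ⟨y, hN⟩ = 1 := by
      rw [← orderOf_eq_one_iff]
      have a1 : orderOf (R.normalizerMonoidHom ⟨y, hN⟩) ∣ r := by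
        refine (orderOf_map_dvd _ _).trans ?_
        rw [← hyo, ← Subgroup.orderOf_coe]
      have a2 : orderOf (R.normalizerMonoidHom ⟨y, hN⟩) ∣ 24 := hc ▸ orderOf_dvd_natCard _
      rcases (Nat.dvd_prime hrp).1 a1 with h | h
      · exact h
      · exfalso
        rw [h] at a2
        have : r ∣ 2 ^ 3 * 3 := a2
        rcases (Nat.Prime.dvd_mul hrp).1 this with h | h
        · exact hr.1 ((Nat.prime_dvd_prime_iff_eq hrp Nat.prime_two).1 (hrp.dvd_of_dvd_pow h))
        · exact hr.2 ((Nat.prime_dvd_prime_iff_eq hrp Nat.prime_three).1 h)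
    have hk' : (⟨y, hN⟩ : Subgroup.normalizer (R : Set (GL (Fin 2) F))) ∈ R.normalizerMonoidHom.ker := hk
    rw [Subgroup.normalizerMonoidHom_ker, Subgroup.mem_subgroupOf, Subgroup.mem_centralizer_iff] at hk'
    exact hne' (comm_of (hns y hyS hyo) (congrArg Units.val (hk' I hIR)) (congrArg Units.val (hk' J hJR)))
  · intro hr x hx ⟨z, hz⟩ hns
    rw [← NS_iff] at hns
    have hdx := det_of hx
    rcases hr with rfl | rfl
    · have hx2 : x.1 * x.1 = z • (1 : (Matrix (Fin 2) (Fin 2) F)) + (0 : F) • x.1 := by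
        rw [← hz]; simp [pow_two]
      have hI2 : I.1 * I.1 = (-1 : F) • (1 : (Matrix (Fin 2) (Fin 2) F)) + (0 : F) • I.1 := by rw [hI]; simp
      obtain ⟨-, t1⟩ := tr_det hns hx2
      obtain ⟨d2, t2⟩ := tr_det (ns_of hne') hI2
      obtain ⟨g, hg, e⟩ := conj_into (x := x) (y := I)
        (by rw [disc, t1, hdx]; intro h; apply h2; have : (2 : F) * 2 = 0 := by linear_combination -h
            simpa using this) (by rw [t1, t2]) (by rw [hdx, d2, neg_neg])
      exact ⟨g, hg, e ▸ Subgroup.le_normalizer hIR⟩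
    · have hJI : J.1 * I.1 = -(I.1 * J.1) := by
        have h : I.1 * J.1 * I.1 = J.1 := congrArg Units.val hIJI
        calc J.1 * I.1 = I.1 * J.1 * (I.1 * I.1) := by rw [← mul_assoc, h]
          _ = _ := by rw [hI]; simp
      obtain ⟨W, w1, w2, w3⟩ := omega h2 hI hJ hJI
      have hWn : NS W := by
        by_contra hn
        obtain ⟨c, hc⟩ := (not_NS_iff _).1 hn
        have hc0 : c ≠ 0 := by
          rintro rfl
          rw [hc] at w3
          have := congrFun (congrFun w3 0) 0
          simp at this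
        rw [hc] at w1
        simp only [smul_mul_assoc, mul_smul_comm, one_mul, mul_one] at w1
        have := smul_right_injective (Matrix (Fin 2) (Fin 2) F) hc0 w1
        exact hne' (by rw [this])
      obtain ⟨dW, tW⟩ := tr_det hWn w3
      rw [neg_neg] at dW
      let w : GL (Fin 2) F := Matrix.GeneralLinearGroup.mkOfDetNeZero W (by rw [dW]; exact one_ne_zero)
      have hw : w.1 = W := rfl
      have hwN : w ∈ Cfsg.Geo.subgroupNormalizer R := by
        apply Subgroup.mem_normalizer_fintype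
        intro n hn
        refine hgen (R.comap (MulAut.conj w).toMonoidHom) ?_ ?_ hn
        · have : w * I * w⁻¹ = J := by rw [mul_inv_eq_iff_eq_mul]; exact Units.ext w1
          change w * I * w⁻¹ ∈ R
          rw [this]; exact hJR
        · have : w * J * w⁻¹ = I * J := by rw [mul_inv_eq_iff_eq_mul]; exact Units.ext w2
          change w * J * w⁻¹ ∈ R
          rw [this]; exact R.mul_mem hIR hJR
      have hx3 : lin x.1 z 0 = lin x.1 (-x.1.trace) (x.1.trace ^ 2 - 1) := by
        rw [lin_zero_right, ← hz, pow_succ, pow_two, Units.val_mul, Units.val_mul, lin_sq]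
        conv_lhs => rw [← lin_zero_one x.1]
        rw [lin_zero_one]
        have := lin_mul x.1 (-x.1.det) x.1.trace 0 1
        rw [lin_zero_one] at this
        rw [this, hdx]; congr 1 <;> ring
      have ht : x.1.trace ^ 2 = 1 := by
        have := (hns.lin_inj hx3).2
        linear_combination -this
      have hdisc : disc x.1 ≠ 0 := by
        rw [disc, ht, hdx]; intro h; apply h3; linear_combination -h
      rcases mul_self_eq_one_iff.1 ((pow_two _).symm.trans ht) with ht | ht
      · obtain ⟨g, hg, e⟩ := conj_into (x := x) (y := w) hdisc (by rw [ht, hw, tW]) (by rw [hdx, hw, dW])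
        exact ⟨g, hg, e ▸ hwN⟩
      · obtain ⟨g, hg, e⟩ := conj_into (x := x) (y := w * w) hdisc
          (by rw [ht, Units.val_mul, hw, lin_sq, trace_lin, dW, tW]; ring)
          (by rw [hdx, Units.val_mul, hw, Matrix.det_mul, dW, one_mul])
        exact ⟨g, hg, e ▸ Subgroup.mul_mem _ hwN hwN⟩

end Cfsg.Agent.S5997
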