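import Cfsg.Statements.S5998
import Cfsg.Agent.Lib.Lin.El26
import Cfsg.Agent.Lib.Lin.El19

set_option autoImplicit false
open scoped MatrixGroups
open Cfsg

namespace Cfsg.Agent.S5998

open CA.El CA.CForm CA.CForm.Form

/-- Elements of prime order of PSL_3(p), p ≡ 1 (mod 3), and the normalizer of an extraspecial subgroup of order 27. Here `T = PSL_3(F)` for the field `F` with `p` elements, `p` a prime with `p ≡ 1 (mod 3)`; `R` is a non-abelian subgroup of GL_3(F) of order 27 and exponent 3 (an extraspecial group 3^{1+2}, acting absolutely irreducibly), and `H` is the subgroup of matrices of determinant 1 normalizing `R` — a subgroup of type 3^{1+2}.Sp₂(3) (maximality is not assumed). Ω is the set of cosets of `H` in `T`, so an element of `T` of prime order `r` (a matrix `x` of determinant 1 with `x^r` scalar, `x` not scalar) fixes a point of Ω exactly when some conjugate of `x` by a matrix of determinant 1 normalizes `R`. Let `r` be a prime dividing the index of `H`. Then every element of `T` of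 order `r` fixes a point of Ω if and only if `r = 2`, or `r = 3` and `p ≡ 1 (mod 9)`. -/
theorem result {F : Type*} [Field F] [Fintype F] {p : ℕ} [Fact p.Prime] [CharP F p] (hF : Fintype.card F = p) (hp3 : p % 3 = 1)
    (R : Subgroup (GL (Fin 3) F)) (hR : Nat.card R = 27) (hRe : Monoid.exponent R = 3) (hRna : ¬ IsMulCommutative R)
    (r : ℕ) [Fact r.Prime]
    (hΩ : r ∣ (Cfsg.Geo.subgroupNormalizer R).relIndex (Cfsg.Geo.specialLinear (Fin 3) F)) :
    (∀ x ∈ Cfsg.Geo.specialLinear (Fin 3) F, (∃ z : F, ((x ^ r : GL (Fin 3) F) : Matrix (Fin 3) (Fin 3) F) = z • (1 : Matrix (Fin 3) (Fin 3) F)) →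
      (∀ z : F, (x : Matrix (Fin 3) (Fin 3) F) ≠ z • (1 : Matrix (Fin 3) (Fin 3) F)) →
      ∃ g ∈ Cfsg.Geo.specialLinear (Fin 3) F, g⁻¹ * x * g ∈ Cfsg.Geo.subgroupNormalizer R) ↔ (r = 2 ∨ (r = 3 ∧ p % 9 = 1)) := by
  have hp := (Fact.out : p.Prime).two_le
  have hq : Nat.card F = p := by rw [Nat.card_eq_fintype_card, hF]
  have h2 : (2 : F) ≠ 0 := (cast_ne_zero_iff (r := 2) p).2 (by omega)
  obtain ⟨h1, h3⟩ := heis_main (r := r) (σ := RingHom.id F) (w := False) (Γ := ⊤) (by omega) h2 hR hRe hRna
    (by simp) (by simp) le_top (top_inf_eq _).symm cj_SL (fun h => ta_SL fun h' => by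
      rcases h with rfl | rfl
      · exact noB_of_not_dvd (by simp)
      · exact ⟨by simpa using one_le_padicValNat_of_dvd (by omega) h', by simp⟩) hΩ
  refine h1.trans (or_congr_right ⟨fun h => ⟨h, ?_⟩, And.left⟩)
  have h4 := card_SL' (F := F) (n := 3) (by norm_num)
  have h5 := h3 h
  rw [← range_toGL, ← Nat.card_congr (MonoidHom.ofInjective Matrix.SpecialLinearGroup.toGL_injective).toEquiv] at h5
  simp only [Pq, Finset.prod_range_succ, Finset.prod_range_zero, hq, one_mul, zero_add, pow_one] at h4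
  rw [mul_assoc, mul_left_comm _ (p - 1)] at h4
  rw [Nat.eq_of_mul_eq_mul_left (by omega) h4, ← ZMod.natCast_eq_zero_iff] at h5
  push_cast [Nat.cast_sub (Nat.one_le_pow _ _ (by omega : 0 < p))] at h5
  have k : ∀ x : ZMod 81, x ^ Nat.choose 3 2 * ((x ^ 2 - 1) * (x ^ 3 - 1)) = 0 → x.val % 3 = 1 → x.val % 9 = 1 := by
    decide +kernel
  have := k p h5
  rw [ZMod.val_natCast] at this
  omega

end Cfsg.Agent.S5998
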