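import Cfsg.Statements.S5999
import Cfsg.Agent.Lib.Lin.El26

set_option autoImplicit false
open scoped MatrixGroups
open Cfsg

namespace Cfsg.Agent.S5999

open CA.El CA.CForm CA.CForm.Form

/-- Elements of prime order of PSU_3(p), p ≡ 2 (mod 3), and the normalizer of an extraspecial subgroup of order 27. Here `T = PSU_3(p)` for a prime `p ≥ 5` with `p ≡ 2 (mod 3)`, realised through `SU_3(p)`, the matrices of determinant 1 over the field `F` with `p²` elements preserving the hermitian form `Σ uᵢvᵢ^p`; `R` is a non-abelian subgroup of order 27 and exponent 3 of the full unitary group of that form (an extraspecial group 3^{1+2}, acting absolutely irreducibly), and `H` is the subgroup of `SU_3(p)` normalizing `R` — a subgroup of type 3^{1+2}.Sp₂(3) (maximality is not assumed). Ω is the set of cosets of `H`, so an element of `T` of prime order `r` (`x ∈ SU_3(p)` with `x^r` scalar, `x` not scalar) fixes a point of Ω exactly when some `SU_3(p)`-conjugate of `x` normalizes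 `R`. Let `r` be a prime dividing the index of `H`. Then every element of `T` of order `r` fixes a point of Ω if and only if `r = 2`, or `r = 3` and `p ≡ 8 (mod 9)`. -/
theorem result {F : Type*} [Field F] [Fintype F] {p : ℕ} [Fact p.Prime] [CharP F p] (hF : Fintype.card F = p ^ 2) (hp : 5 ≤ p) (hp3 : p % 3 = 2)
    (R : Subgroup (GL (Fin 3) F)) (hRU : R ≤ Cfsg.GU 3 F p) (hR : Nat.card R = 27) (hRe : Monoid.exponent R = 3) (hRna : ¬ IsMulCommutative R)
    (r : ℕ) [Fact r.Prime]
    (hΩ : r ∣ (Cfsg.Geo.subgroupNormalizer R).relIndex (Cfsg.GU 3 F p ⊓ Cfsg.Geo.specialLinear (Fin 3) F)) :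
    (∀ x ∈ Cfsg.GU 3 F p ⊓ Cfsg.Geo.specialLinear (Fin 3) F, (∃ z : F, ((x ^ r : GL (Fin 3) F) : Matrix (Fin 3) (Fin 3) F) = z • (1 : Matrix (Fin 3) (Fin 3) F)) →
      (∀ z : F, (x : Matrix (Fin 3) (Fin 3) F) ≠ z • (1 : Matrix (Fin 3) (Fin 3) F)) →
      ∃ g ∈ Cfsg.GU 3 F p ⊓ Cfsg.Geo.specialLinear (Fin 3) F, g⁻¹ * x * g ∈ Cfsg.Geo.subgroupNormalizer R) ↔ (r = 2 ∨ (r = 3 ∧ p % 9 = 8)) := by
  have hq : Nat.card F = p ^ 2 := by rw [Nat.card_eq_fintype_card, hF]
  have h2 : (2 : F) ≠ 0 := (cast_ne_zero_iff (r := 2) p).2 (by omega)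
  have h0 : 3 ∣ p + 1 := by omega
  have hf := hermStd_nondeg hF 3
  obtain ⟨h1, h3⟩ := heis_main (r := r) (σ := conj hF) (w := True) (Γ := GU 3 F p) (h0.trans (q1_dvd hF)) h2 hR hRe hRna
    (by simp [CA.AschU.mem_GU_iff hF]) (fun _ c hc => (norm_iff hF c).2 (by
      obtain ⟨m, hm⟩ := h0
      rw [hm, pow_mul, hc, one_pow])) hRU rfl (CA.AschU.GU_eq hF 3 ▸ cj_SU hf) (fun h => CA.AschU.GU_eq hF 3 ▸ ta_SU hf fun h' => by
      rcases h with rfl | rfl
      · exact noB_of_not_dvd (by simp)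
      · exact ⟨by simpa using one_le_padicValNat_of_dvd (by omega) h', by simp⟩) hΩ
  refine h1.trans (or_congr_right ⟨fun h => ⟨h, ?_⟩, And.left⟩)
  have h4 := herm_card_SIsom hF hf (by simp)
  have h5 := h3 h
  rw [CA.AschU.SU_eq hF (by norm_num), CA.AschFG.EG, Subgroup.card_map_of_injective (CA.AschFG.toGL_injective _),
    herm_Eich_eq hF hf (by simp)] at h5
  rw [herm_card_isom hF 3 hf (by simp)] at h4
  simp only [Finset.prod_range_succ, Finset.prod_range_zero, one_mul, zero_add, pow_one] at h4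
  rw [if_pos (by decide), if_neg (by decide), if_pos (by decide), mul_assoc, mul_left_comm _ (p + 1)] at h4
  rw [Nat.eq_of_mul_eq_mul_left (by omega) h4, ← ZMod.natCast_eq_zero_iff] at h5
  push_cast [Nat.cast_sub (Nat.one_le_pow _ _ (by omega : 0 < p))] at h5
  have k : ∀ x : ZMod 81, x ^ 3 * ((x ^ 2 - 1) * (x ^ 3 + 1)) = 0 → x.val % 3 = 2 → x.val % 9 = 8 := by
    decide +kernel
  have := k p h5
  rw [ZMod.val_natCast] at this
  omega

end Cfsg.Agent.S5999
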