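import Cfsg.Statements.S6000
import Cfsg.Agent.Lib.Lin.El29
import Cfsg.Agent.Lib.Lin.AschSL

set_option autoImplicit false
open scoped MatrixGroups
open Cfsg

namespace Cfsg.Agent.S6000

open CA.El CA.CForm CA.CForm.Form

/-- Elements of prime order of PSL_4(p), p ≡ 1 (mod 4), and the normalizer of a 2-group of symplectic type of order 2⁶. Here `T = PSL_4(F)` for the field `F` with `p` elements, `p` a prime with `p ≡ 1 (mod 4)`; `R` is an absolutely irreducible subgroup of GL_4(F) of order 2⁶ that is a 2-group of symplectic type of exponent 4 with centre of order 4 (the central product of the scalars of order 4 with an extraspecial group 2^{1+4}), and `H` is the subgroup of matrices of determinant 1 normalizing `R` — a subgroup of type 2⁴.Sp₄(2) (maximality is not assumed). Ω is the set of cosets of `H` in `T`, so an element of `T` of prime order `r` (a matrix `x` of determinant 1 with `x^r` scalar, `x` not scalar) fixes a point of Ω exactly when some conjugate of `x` by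 a matrix of determinant 1 normalizes `R`. Let `r` be a prime dividing the index of `H`. Then every element of `T` of order `r` fixes a point of Ω if and only if `r = 2`, or `r = 3` and `p ≡ 2 (mod 3)`, or `r = 5` and `p ≡ ±2 (mod 5)` (`p` has multiplicative order 4 modulo 5). -/
theorem result {F : Type*} [Field F] [Fintype F] {p : ℕ} [Fact p.Prime] [CharP F p] (hF : Fintype.card F = p) (hp4 : p % 4 = 1)
    (R : Subgroup (GL (Fin 4) F)) (hR : Cfsg.Geo.IsLinearSymplecticTypeData 2 R) (hR6 : Nat.card R = 2 ^ 6)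
    (r : ℕ) [Fact r.Prime]
    (hΩ : r ∣ (Cfsg.Geo.subgroupNormalizer R).relIndex (Cfsg.Geo.specialLinear (Fin 4) F)) :
    (∀ x ∈ Cfsg.Geo.specialLinear (Fin 4) F, (∃ z : F, ((x ^ r : GL (Fin 4) F) : Matrix (Fin 4) (Fin 4) F) = z • (1 : Matrix (Fin 4) (Fin 4) F)) →
      (∀ z : F, (x : Matrix (Fin 4) (Fin 4) F) ≠ z • (1 : Matrix (Fin 4) (Fin 4) F)) →
      ∃ g ∈ Cfsg.Geo.specialLinear (Fin 4) F, g⁻¹ * x * g ∈ Cfsg.Geo.subgroupNormalizer R) ↔ (r = 2 ∨ (r = 3 ∧ p % 3 = 2) ∨ (r = 5 ∧ orderOf (p : ZMod 5) = 4)) := by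
  have hp := (Fact.out : p.Prime)
  have hq : Nat.card F = p := by rw [Nat.card_eq_fintype_card, hF]
  have h2 : (2 : F) ≠ 0 := (cast_ne_zero_iff (r := 2) p).2 (by omega)
  have h3 : (3 : F) ≠ 0 := (cast_ne_zero_iff (r := 3) p).2 (by omega)
  have e : CA.AschFG.IG (zf F (Fin 4 → F)) = ⊤ := eq_top_iff.2 fun _ _ => CA.AschFG.mem_IG.2 ⟨fun _ _ => rfl, fun _ => rfl⟩
  have hZ : Nat.card (Subgroup.center R) = 4 := by
    obtain ⟨_, _, -, -, h | h | h⟩ := hR.field
    · exact absurd h.1 (by decide)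
    · exact h.2.2.1
    · omega
  have hp2 := hp.two_le
  refine c6_main (e2_symp h2 hR.symplecticType hR.absIrred) (e ▸ le_top) (by simp) qb_symp hR6 hZ le_rfl (e ▸ cj_SL)
    (fun h => ?_) (fun h hP => ?_) (fun h hP => ?_) (fun h hP => ?_) (fun h hP => ?_) hΩ
  · subst h
    have h4 : 2 ^ 2 ∣ Nat.card F - 1 := by omega
    have h5 : padicValNat 2 (2 ^ 2) = 2 := padicValNat.prime_pow 2
    exact e ▸ ta_SL fun _ => ⟨by simpa using h5.le.trans ((padicValNat_dvd_iff_le (by omega)).1 h4), fun _ _ => h4⟩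
  · subst h
    exact ⟨h3, e ▸ ta_SL fun _ => noB_of_not_dvd (by simp), full_one h3 (hq ▸ ord3 hP)⟩
  · subst h
    have h5 : (5 : F) ≠ 0 := (cast_ne_zero_iff (r := 5) p).2 (by rw [ord5] at hP; omega)
    exact ⟨h5, e ▸ ta_SL fun _ => noB_of_not_dvd (by simp), full_one h5 (hq ▸ hP)⟩
  · subst h
    have : ¬3 ∣ p := fun h => h3 ((CharP.cast_eq_zero_iff F p 3).2 ((Nat.prime_dvd_prime_iff_eq Nat.prime_three hp).1 h ▸ dvd_rfl))
    obtain ⟨t, ht⟩ := exists_prim (F := F) (N := 3) (by omega)
    have h1 := ht.geom_sum_eq_zero (by norm_num)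
    simp only [Finset.sum_range_succ, Finset.sum_range_zero] at h1
    obtain ⟨x, a, -, b⟩ := bad_three (t := t) (by linear_combination h1) h2 h3
    exact ⟨x, a, b⟩
  · subst h
    by_cases h5 : p = 5
    · subst h5
      obtain ⟨x, a, b⟩ := CA.AschSL.exists_tv (F := F) (i := (0 : Fin 4)) (j := 1) (by decide) 1
      exact ⟨x, a, bad_tv (b.trans (by rw [one_smul])) (fun h => by simpa using congrFun (congrFun h 0) 1)
        (Matrix.single_mul_single_of_ne _ _ _ _ (by decide) _)
        (by rw [Matrix.single_eq_single_vecMulVec_single]; exact Matrix.rank_vecMulVec_le _ _)⟩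
    · obtain ⟨t, ht⟩ := exists_gold h2 (hF ▸ (five_cases hp hP).resolve_left h5)
      exact bad_five ht ((cast_ne_zero_iff (r := 5) p).2 (Ne.symm h5))

end Cfsg.Agent.S6000
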