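import Cfsg.Statements.S6001
import Cfsg.Agent.Lib.Lin.El29
import Cfsg.Agent.Lib.Lin.AschSL

set_option autoImplicit false
open scoped MatrixGroups
open Cfsg

namespace Cfsg.Agent.S6001

open CA.El CA.CForm CA.CForm.Form

/-- Elements of prime order of PSU_4(p), p ≡ 3 (mod 4), and the normalizer of a 2-group of symplectic type of order 2⁶. Here `T = PSU_4(p)` for a prime `p ≡ 3 (mod 4)`, realised through `SU_4(p)`, the matrices of determinant 1 over the field `F` with `p²` elements preserving the hermitian form `f = Σ uᵢvᵢ^p`; `R` is an absolutely irreducible subgroup of the full unitary group of `f` of order 2⁶ that is a 2-group of symplectic type of exponent 4 with centre of order 4, and `H` is the subgroup of `SU_4(p)` normalizing `R` — a subgroup of type 2⁴.Sp₄(2) (maximality is not assumed). Ω is the set of cosets of `H`, so an element of `T` of prime order `r` (`x ∈ SU_4(p)` with `x^r` scalar, `x` not scalar) fixes a point of Ω exactly when some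 `SU_4(p)`-conjugate of `x` normalizes `R`. Let `r` be a prime dividing the index of `H`. Then every element of `T` of order `r` fixes a point of Ω if and only if `r = 2`, or `r = 3` and `p ≡ 1 (mod 3)`, or `r = 5` and `p ≡ ±2 (mod 5)` (`p` has multiplicative order 4 modulo 5). -/
theorem result {F : Type*} [Field F] [Fintype F] {p : ℕ} [Fact p.Prime] [CharP F p] (hF : Fintype.card F = p ^ 2) (hp4 : p % 4 = 3)
    (R : Subgroup (GL (Fin 4) F)) (hRs : Cfsg.Geo.IsSymplecticTypeGroup 2 R) (hRi : Cfsg.Geo.ActsAbsolutelyIrreducibly (Cfsg.Geo.matrixSet R))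
    (hRU : R ≤ Cfsg.GU 4 F p) (hR6 : Nat.card R = 2 ^ 6) (hRZ : Nat.card (Subgroup.center R) = 4)
    (r : ℕ) [Fact r.Prime]
    (hΩ : r ∣ (Cfsg.Geo.subgroupNormalizer R).relIndex (Cfsg.GU 4 F p ⊓ Cfsg.Geo.specialLinear (Fin 4) F)) :
    (∀ x ∈ Cfsg.GU 4 F p ⊓ Cfsg.Geo.specialLinear (Fin 4) F, (∃ z : F, ((x ^ r : GL (Fin 4) F) : Matrix (Fin 4) (Fin 4) F) = z • (1 : Matrix (Fin 4) (Fin 4) F)) →
      (∀ z : F, (x : Matrix (Fin 4) (Fin 4) F) ≠ z • (1 : Matrix (Fin 4) (Fin 4) F)) →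
      ∃ g ∈ Cfsg.GU 4 F p ⊓ Cfsg.Geo.specialLinear (Fin 4) F, g⁻¹ * x * g ∈ Cfsg.Geo.subgroupNormalizer R) ↔ (r = 2 ∨ (r = 3 ∧ p % 3 = 1) ∨ (r = 5 ∧ orderOf (p : ZMod 5) = 4)) := by
  have hp := (Fact.out : p.Prime)
  have hq : Nat.card F = p ^ 2 := by rw [Nat.card_eq_fintype_card, hF]
  have h2 : (2 : F) ≠ 0 := (cast_ne_zero_iff (r := 2) p).2 (by omega)
  have h5 : (5 : F) ≠ 0 := (CharP.cast_eq_zero_iff F p 5).not.2 fun h => by
    rcases (Nat.dvd_prime Nat.prime_five).1 h with h | h <;> omega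
  have hf := hermStd_nondeg hF 4
  have e := CA.AschU.GU_eq hF 4
  rw [e] at hRU hΩ ⊢
  refine c6_main (e2_symp h2 hRs hRi) hRU (by simp) (.inl one_ne_zero) hR6 hRZ inf_le_right (cj_SU hf)
    (fun h => ?_) (fun h hP => ?_) (fun h hP => ?_) (fun h hP => ?_) (fun h hP => ?_) hΩ <;> subst h
  · have h4 : 2 ^ 2 ∣ p + 1 := by omega
    have h5 : padicValNat 2 (2 ^ 2) = 2 := padicValNat.prime_pow 2
    exact ta_SU hf fun _ => ⟨by simpa using h5.le.trans ((padicValNat_dvd_iff_le (by omega)).1 h4), fun _ _ => h4⟩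
  · have h3 : (3 : F) ≠ 0 := (cast_ne_zero_iff (r := 3) p).2 (by omega)
    have h1 : 1 = orderOf (p : ZMod 3) := by rw [← ZMod.natCast_mod, hP, Nat.cast_one, orderOf_one]
    exact ⟨h3, ta_SU hf fun _ => noB_of_not_dvd (by simp), full_two h3 hf (by rw [herm_ord hF h1]; rfl)
      fun d hd h => absurd ((herm_dual hF h3 (by decide) h1 hd).1 h) (by decide)⟩
  · exact ⟨h5, ta_SU hf fun _ => noB_of_not_dvd (by simp), full_two h5 hf (by rw [herm_ord hF hP.symm]; rfl)
      fun d hd h => absurd ((herm_dual hF h5 (by decide) hP.symm hd).1 h) (by decide)⟩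
  · by_cases h3 : p = 3
    · subst h3
      obtain ⟨N, a, b, c, d⟩ := CA.AschU.exists_root_SU hF (n := 4) (by norm_num)
      obtain ⟨x, x1, x2⟩ := d 1 (map_one _)
      exact ⟨x, e ▸ x1, bad_tv (x2.trans (by rw [one_smul])) a b c⟩
    · have h0 : 3 ∣ p + 1 := by
        have : ¬3 ∣ p := fun h => h3 ((Nat.prime_dvd_prime_iff_eq Nat.prime_three hp).1 h).symm
        omega
      obtain ⟨t, ht⟩ := exists_prim (F := F) (h0.trans (q1_dvd hF))
      have h1 := ht.geom_sum_eq_zero (by norm_num)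
      simp only [Finset.sum_range_succ, Finset.sum_range_zero] at h1
      obtain ⟨x, a, b, c⟩ := bad_three (t := t) (by linear_combination h1) h2 ((cast_ne_zero_iff (r := 3) p).2 (Ne.symm h3))
      have h4 : t * conj hF t = 1 := (norm_iff hF t).2 ((ht.pow_eq_one_iff_dvd _).2 h0)
      refine ⟨x, ⟨e ▸ (CA.AschU.mem_GU_iff hF).2 ?_, a⟩, c⟩
      rw [b]
      ext i j
      fin_cases i <;> fin_cases j <;> simp [Matrix.mul_apply, Fin.sum_univ_four, h4]
  · have h0 := (five_cases hp hP).resolve_left (by omega)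
    obtain ⟨t, ht⟩ := exists_prim (F := F) (N := 5) (by
      rw [hq, ← Nat.modEq_iff_dvd' (Nat.one_le_pow _ _ hp.pos), Nat.ModEq, Nat.pow_mod]
      rcases h0 with h | h <;> rw [h])
    have h1 := ht.ne_zero (by norm_num)
    have h4 : conj hF t = t ∨ conj hF t = t⁻¹ := by
      rw [conj_apply, ← Nat.div_add_mod p 5, pow_add, pow_mul, ht.pow_eq_one, one_pow, one_mul]
      refine h0.imp (fun h => by rw [h, pow_one]) fun h => eq_inv_of_mul_eq_one_left ?_
      rw [h, ← pow_succ, ht.pow_eq_one]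
    obtain ⟨g, hg⟩ := herm_lin hF hf (Λ := {t, t⁻¹, 1, 1}) (by simp [h1]) (by
      rw [dual_lin_map (by simp [h1])]
      rcases h4 with h | h
      · simp only [Multiset.insert_eq_cons, Multiset.map_cons, Multiset.map_singleton, map_inv₀, h, map_one, inv_inv, inv_one]
        rw [Multiset.cons_swap]
      · simp [h]) (by simp)
    obtain ⟨a, b⟩ := bad_lin ht h5 ((congrArg _ (toGL_eq g)).trans hg)
    exact ⟨_, ⟨⟨g, rfl⟩, a⟩, b⟩

end Cfsg.Agent.S6001
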