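import Cfsg.Statements.S6002
import Cfsg.Agent.Lib.Lin.El29
import Cfsg.Agent.Lib.Lin.AschSL

set_option autoImplicit false
open scoped MatrixGroups
open Cfsg

namespace Cfsg.Agent.S6002

open CA.El CA.CForm CA.CForm.Form

/-- Elements of prime order of PSp_4(p), p odd, and the normalizer of an extraspecial 2-group of order 2⁵ of minus type. Here `T = PSp_4(F)` for the field `F` with `p` elements, `p` an odd prime, realised through the matrices preserving the standard alternating form `f`; `R` is an absolutely irreducible subgroup of `T` (it preserves `f`) that is a 2-group of symplectic type of exponent 4, order 2⁵ and centre of order 2, of minus type (no elementary abelian subgroup of order 2³), and `H` is the subgroup of `T` normalizing `R` — a subgroup of type 2^{1+4}.O₄⁻(2) (maximality is not assumed). Ω is the set of cosets of `H` in `T`, so an element of `T` of prime order `r` (`x ∈ T` with `x^r` scalar, `x` not scalar) fixes a point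 of Ω exactly when some `T`-conjugate of `x` normalizes `R`. Let `r` be a prime dividing the index of `H`. Then every element of `T` of order `r` fixes a point of Ω if and only if `r = 2`, or `r = 5` and `p` has multiplicative order 4 modulo 5. -/
theorem result {F : Type*} [Field F] [Fintype F] {p : ℕ} [Fact p.Prime] [CharP F p] (hF : Fintype.card F = p) (hodd : Odd p)
    (R : Subgroup (GL (Fin 2 ⊕ Fin 2) F)) (hRs : Cfsg.Geo.IsSymplecticTypeGroup 2 R) (hRi : Cfsg.Geo.ActsAbsolutelyIrreducibly (Cfsg.Geo.matrixSet R))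
    (hRf : R ≤ Cfsg.spGL 2 F) (hR5 : Nat.card R = 2 ^ 5) (hRZ : Nat.card (Subgroup.center R) = 2) (hRm : Cfsg.Geo.IsOfMinusType 2 R)
    (r : ℕ) [Fact r.Prime]
    (hΩ : r ∣ (Cfsg.Geo.subgroupNormalizer R).relIndex (Cfsg.spGL 2 F)) :
    (∀ x ∈ Cfsg.spGL 2 F, (∃ z : F, ((x ^ r : GL (Fin 2 ⊕ Fin 2) F) : Matrix (Fin 2 ⊕ Fin 2) (Fin 2 ⊕ Fin 2) F) = z • (1 : Matrix (Fin 2 ⊕ Fin 2) (Fin 2 ⊕ Fin 2) F)) →
      (∀ z : F, (x : Matrix (Fin 2 ⊕ Fin 2) (Fin 2 ⊕ Fin 2) F) ≠ z • (1 : Matrix (Fin 2 ⊕ Fin 2) (Fin 2 ⊕ Fin 2) F)) →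
      ∃ g ∈ Cfsg.spGL 2 F, g⁻¹ * x * g ∈ Cfsg.Geo.subgroupNormalizer R) ↔ (r = 2 ∨ (r = 5 ∧ orderOf (p : ZMod 5) = 4)) := by
  have hp := (Fact.out : p.Prime)
  have hq : Nat.card F = p := by rw [Nat.card_eq_fintype_card, hF]
  have h2 : (2 : F) ≠ 0 := (cast_ne_zero_iff (r := 2) p).2 (by rintro rfl; exact absurd hodd (by decide))
  have hf := sympStd_nondeg (F := F) 2
  have e : Cfsg.spGL 2 F = CA.AschFG.IG (sympStd F 2) := (spGL_map 2).trans (MonoidHom.range_eq_map _).symm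
  have : Nontrivial (Fin 2 ⊕ Fin 2) := ⟨⟨.inl 0, .inr 0, by simp⟩⟩
  have h := e2_symp h2 hRs hRi
  have hm := mn_of h2 h.neg hRm
  have hn : Fintype.card (Fin 2 ⊕ Fin 2) = 4 := by simp
  have k := sp_elt (F := F)
  rw [e] at hRf hΩ k ⊢
  obtain ⟨a, b, c, d, hC⟩ := h.cl_minus (by omega) hm
  have hG : CA.AschFG.IG (sympStd F 2) ≤ Cfsg.Geo.specialLinear _ F := by
    rintro _ ⟨g, rfl⟩
    exact CA.AschDesc.mem_SL.2 ((CA.AschFG.det_toGL _ g).trans (by simp [hf.symp_detHom]))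
  refine ⟨fun H => (h.neg_main hn (m := 2) hR5 hRZ (.inl rfl) hG hΩ H).imp_right ?_, ?_⟩
  · rintro ⟨h0, h1⟩
    have h3 : r ≠ p := by
      rintro rfl
      obtain ⟨N, n1, n2, n3, -, n4⟩ := CA.AschFG.exists_tv hf (x := Pi.single (.inl 0) 1) rfl (by simp)
      obtain ⟨x, x1, x2⟩ := n4 1 rfl
      exact h1 x (CA.AschFG.EG_le_IG _ x1) (bad_tv (x2.trans (by rw [one_smul])) n1 n2 n3)
    have h4 := (cast_ne_zero_iff (F := F) p).2 h3
    rcases h0 with rfl | rfl
    · obtain ⟨x, x1, x2, x3, x4, -⟩ := k (-1)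
      exfalso
      rcases (h.not_all hn (m := 2) hR5 hRZ (.inl rfl) (by decide) H x1 (x4 (by ring)) x2).2 with h5 | ⟨-, h5 | ⟨-, h5⟩⟩
      · omega
      · exact h4 (by push_cast; linear_combination x3 - h5)
      · refine h5 hm fun a ha c hc => Units.ext ?_
        obtain ⟨g, rfl⟩ := hRf ha
        have := norm_of_pow (r := 1) hf (g := g) (c := c) (by
          rw [pow_one, ← toGL_eq, hc]; simp; rfl)
        simp [hc, smul_smul, show c * c = 1 from this]
    · refine ⟨rfl, by_contra fun h5 => ?_⟩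
      obtain ⟨t, ht⟩ := exists_gold h2 (hF ▸ (five_cases hp h5).resolve_left h3.symm)
      obtain ⟨x, x1, x2, x3, -, x4⟩ := k t
      exact h1 x x1 ⟨x4 ht, x2, .inr ⟨fun h6 => h4 (by rw [x3] at h6; push_cast; grind), by simp⟩⟩
  · rintro (rfl | ⟨rfl, h5⟩)
    · exact c6_sp_two h hn hf hRf hC
    · have h4 : (5 : F) ≠ 0 := (cast_ne_zero_iff (r := 5) p).2 (by rw [ord5] at h5; omega)
      obtain ⟨y, b1, b2, b3⟩ := h.five hRf qb_symp hC
      exact allN_of h4 (cj_Sp hf) (ta_Sp hf (by decide)) fun u hu ho _ =>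
        ⟨y, b1, b2, (full_one h4 (hq ▸ h5)).five hn hu b1 ho b3⟩

end Cfsg.Agent.S6002
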